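import Mathlib
import Cfsg.Statements.S1461
import Cfsg.Agent.Lib.Helper63.PLength

set_option autoImplicit false
open Cfsg

namespace Cfsg.Agent.S1461

open Cfsg Cfsg.Agent.Lib.Helper63 in
theorem frattini_key {G : Type*} [Group G] [Finite G] (p : ℕ) [Fact p.Prime]
    (hpl : Cfsg.PLengthLE p 1 G) (S : Sylow p G) :
    ∃ K : Subgroup G, K.Normal ∧ (Nat.card K).Coprime p ∧
      Subgroup.normalizer ((S : Subgroup G) : Set G) ⊔ K = ⊤ := by
  have hser := U_isPSeries p G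
  have hKn : (U p G 1).Normal := hser.normal 1
  have hMn : (U p G 2).Normal := hser.normal 2
  have hKc : (Nat.card (U p G 1)).Coprime p := by
    apply card_coprime_of_forall
    intro x hx
    obtain ⟨m, hm, hxm⟩ := hser.even 0 (by decide) x hx
    refine ⟨m, hm, ?_⟩
    rw [U_zero] at hxm
    exact (Subgroup.mem_bot).1 hxm
  have hSM : (S : Subgroup G) ≤ U p G 2 := by
    intro x hx
    have htop : x ∈ U p G (2 + 1) := by
      have h3 : U p G (2 * 1 + 1) = ⊤ := hpl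
      have h4 : U p G (2 + 1) = ⊤ := h3
      rw [h4]; exact Subgroup.mem_top x
    obtain ⟨m, hm, hxm⟩ := hser.even 2 (by decide) x htop
    obtain ⟨k, hk⟩ := S.isPGroup' ⟨x, hx⟩
    have hk' : x ^ (p ^ k) = 1 := by
      have := congrArg Subtype.val hk
      simpa using this
    have hcop : m.Coprime (orderOf x) :=
      Nat.Coprime.coprime_dvd_right (orderOf_dvd_of_pow_eq_one hk') (Nat.Coprime.pow_right k hm)
    obtain ⟨j, hj⟩ := exists_pow_eq_self_of_coprime hcop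
    rw [← hj]
    exact Subgroup.pow_mem _ hxm j
  have hπ : Function.Surjective (QuotientGroup.mk' (U p G 1)) := QuotientGroup.mk'_surjective _
  have hMle : U p G 2 ≤ (S : Subgroup G) ⊔ U p G 1 := by
    have hnorm : ((U p G 2).map (QuotientGroup.mk' (U p G 1))).Normal :=
      Subgroup.Normal.map hMn _ hπ
    have hpg : IsPGroup p ((U p G 2).map (QuotientGroup.mk' (U p G 1))) := by
      rintro ⟨_, ⟨x, hx, rfl⟩⟩
      obtain ⟨k, hxk⟩ := hser.odd 1 (by decide) x hx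
      refine ⟨k, ?_⟩
      apply Subtype.ext
      rw [Subgroup.coe_pow, Subgroup.coe_one, ← map_pow]
      exact (QuotientGroup.eq_one_iff _).2 hxk
    have h1 := normal_pgroup_le_sylow' hnorm hpg (S.mapSurjective hπ)
    rw [Sylow.coe_mapSurjective] at h1
    have h2 : U p G 2 ≤ ((S : Subgroup G).map (QuotientGroup.mk' (U p G 1))).comap
        (QuotientGroup.mk' (U p G 1)) := by
      rw [← Subgroup.map_le_iff_le_comap]; exact h1
    rw [Subgroup.comap_map_eq, QuotientGroup.ker_mk'] at h2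
    exact h2
  refine ⟨U p G 1, hKn, hKc, ?_⟩
  have hfr := Sylow.normalizer_sup_eq_top' S hSM
  rw [eq_top_iff, ← hfr]
  refine sup_le le_sup_left (hMle.trans (sup_le ?_ le_sup_right))
  exact le_trans Subgroup.le_normalizer le_sup_left

theorem inf_bot {G : Type*} [Group G] [Finite G] (p : ℕ) [Fact p.Prime] (S : Sylow p G)
    (K : Subgroup G) (hKc : (Nat.card K).Coprime p) {x : G} (hxS : x ∈ (S : Subgroup G))
    (hxK : x ∈ K) : x = 1 := by
  have h1 : (S : Subgroup G) ⊓ K = ⊥ := by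
    apply disjoint_iff.1
    apply Subgroup.disjoint_of_coprime_natCard
    obtain ⟨n, hn⟩ := IsPGroup.iff_card.1 S.isPGroup'
    rw [hn]
    exact Nat.Coprime.pow_left n (Nat.coprime_comm.1 hKc)
  have : x ∈ (S : Subgroup G) ⊓ K := ⟨hxS, hxK⟩
  rw [h1] at this
  exact (Subgroup.mem_bot).1 this

theorem decomp {G : Type*} [Group G] (N K : Subgroup G) [K.Normal] (h : N ⊔ K = ⊤) (x : G) :
    ∃ n ∈ N, ∃ k ∈ K, x = n * k := by
  have hx : x ∈ ((N ⊔ K : Subgroup G) : Set G) := by rw [h]; exact Set.mem_univ x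
  rw [Subgroup.mul_normal] at hx
  obtain ⟨n, hn, k, hk, rfl⟩ := Set.mem_mul.1 hx
  exact ⟨n, hn, k, hk, rfl⟩

theorem conj_comm_normalizer {G : Type*} [Group G] (N : Subgroup G) {n c : G}
    (hn : n ∈ N) (hc : c ∈ ⁅N, N⁆) : n * c * n⁻¹ ∈ ⁅N, N⁆ := by
  have h1 : (⁅N, N⁆).map (MulAut.conj n).toMonoidHom = ⁅N, N⁆ := by
    rw [Subgroup.map_commutator]
    have h2 : N.map (MulAut.conj n).toMonoidHom = N := by
      apply le_antisymm
      · rintro _ ⟨y, hy, rfl⟩
        exact N.mul_mem (N.mul_mem hn hy) (N.inv_mem hn)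
      · intro y hy
        refine ⟨n⁻¹ * y * n, N.mul_mem (N.mul_mem (N.inv_mem hn) hy) hn, ?_⟩
        simp [MulAut.conj_apply, mul_assoc]
    rw [h2]
  rw [← h1]
  exact ⟨c, hc, rfl⟩

open scoped commutatorElement in
theorem comm_mem {G : Type*} [Group G] (N K : Subgroup G) [K.Normal] {n₁ n₂ k₁ k₂ : G}
    (hn₁ : n₁ ∈ N) (hn₂ : n₂ ∈ N) (hk₁ : k₁ ∈ K) (hk₂ : k₂ ∈ K) :
    ⁅n₁ * k₁, n₂ * k₂⁆ ∈ ⁅N, N⁆ ⊔ K := by
  have h1 : (QuotientGroup.mk' K) ⁅n₁ * k₁, n₂ * k₂⁆ = (QuotientGroup.mk' K) ⁅n₁, n₂⁆ := by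
    have e01 : (QuotientGroup.mk' K) k₁ = 1 := (QuotientGroup.eq_one_iff k₁).2 hk₁
    have e02 : (QuotientGroup.mk' K) k₂ = 1 := (QuotientGroup.eq_one_iff k₂).2 hk₂
    have e1 : (QuotientGroup.mk' K) (n₁ * k₁) = (QuotientGroup.mk' K) n₁ := by
      rw [map_mul, e01, mul_one]
    have e2 : (QuotientGroup.mk' K) (n₂ * k₂) = (QuotientGroup.mk' K) n₂ := by
      rw [map_mul, e02, mul_one]
    rw [map_commutatorElement, map_commutatorElement, e1, e2]
  have h2 : (⁅n₁, n₂⁆)⁻¹ * ⁅n₁ * k₁, n₂ * k₂⁆ ∈ K := by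
    have : (QuotientGroup.mk' K) ((⁅n₁, n₂⁆)⁻¹ * ⁅n₁ * k₁, n₂ * k₂⁆) = 1 := by
      rw [map_mul, map_inv, h1, inv_mul_cancel]
    exact (QuotientGroup.eq_one_iff _).1 this
  have h3 : ⁅n₁ * k₁, n₂ * k₂⁆ = ⁅n₁, n₂⁆ * ((⁅n₁, n₂⁆)⁻¹ * ⁅n₁ * k₁, n₂ * k₂⁆) := by group
  rw [h3]
  exact Subgroup.mul_mem_sup (Subgroup.commutator_mem_commutator hn₁ hn₂) h2

/-- Let G be a finite solvable group, p a prime with G = O_{p',p,p'}(G), and S a Sylow p-subgroup. Then: if S ≤ G' then S ≤ [N_G(S), N_G(S)]; if Y ⊆ S and xYx⁻¹ ⊆ S then x = g c for some g ∈ N_G(S) and c centralizing Y; and for every p-subgroup Q there is x ∈ C_G(Q ∩ S) with xQx⁻¹ ≤ S. -/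
theorem result {G : Type*} [Group G] [Finite G] [Group.IsSolvable G] (p : ℕ) [Fact p.Prime] (hpl : Cfsg.PLengthLE p 1 G) (S : Sylow p G) :
    ((S : Subgroup G) ≤ commutator G → (S : Subgroup G) ≤ ⁅Subgroup.normalizer ((S : Subgroup G) : Set G), Subgroup.normalizer ((S : Subgroup G) : Set G)⁆) ∧
      (∀ (Y : Set G) (x : G), Y ⊆ (S : Subgroup G) → (fun y => x * y * x⁻¹) '' Y ⊆ (S : Subgroup G) →
        ∃ g ∈ Subgroup.normalizer ((S : Subgroup G) : Set G), ∃ c ∈ Subgroup.centralizer Y, g * c = x) ∧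
      ∀ Q : Subgroup G, IsPGroup p Q → ∃ x ∈ Subgroup.centralizer ((Q ⊓ (S : Subgroup G) : Subgroup G) : Set G), Q.map (MulAut.conj x).toMonoidHom ≤ (S : Subgroup G) := by
  obtain ⟨K, hKn, hKc, hNK⟩ := frattini_key p hpl S
  have := hKn
  refine ⟨?_, ?_, ?_⟩
  · intro hSG
    set N := Subgroup.normalizer ((S : Subgroup G) : Set G) with hN
    have hSN : (S : Subgroup G) ≤ N := Subgroup.le_normalizer
    have hcomm : commutator G ≤ ⁅N, N⁆ ⊔ K := by
      rw [commutator_def, Subgroup.commutator_le]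
      intro g₁ _ g₂ _
      obtain ⟨n₁, hn₁, k₁, hk₁, rfl⟩ := decomp N K hNK g₁
      obtain ⟨n₂, hn₂, k₂, hk₂, rfl⟩ := decomp N K hNK g₂
      exact comm_mem N K hn₁ hn₂ hk₁ hk₂
    intro s hs
    have hs' : s ∈ ((⁅N, N⁆ ⊔ K : Subgroup G) : Set G) := hcomm (hSG hs)
    rw [Subgroup.mul_normal] at hs'
    obtain ⟨c, hc, k, hk, hck⟩ := Set.mem_mul.1 hs'
    have hcN : c ∈ N := by
      have hle : ⁅N, N⁆ ≤ N := by
        rw [Subgroup.commutator_le]
        intro a ha b hb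
        exact N.mul_mem (N.mul_mem (N.mul_mem ha hb) (N.inv_mem ha)) (N.inv_mem hb)
      exact hle hc
    have hkN : k ∈ N := by
      have : k = c⁻¹ * s := by rw [← hck]; group
      rw [this]
      exact N.mul_mem (N.inv_mem hcN) (hSN hs)
    have hpow : ∀ j : ℕ, ∃ c' ∈ ⁅N, N⁆, s ^ j = c' * k ^ j := by
      intro j
      induction j with
      | zero => exact ⟨1, Subgroup.one_mem _, by simp⟩
      | succ j ih =>
        obtain ⟨c', hc', hj⟩ := ih
        refine ⟨c' * (k ^ j * c * (k ^ j)⁻¹), Subgroup.mul_mem _ hc'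
          (conj_comm_normalizer N (N.pow_mem hkN j) hc), ?_⟩
        rw [pow_succ, hj, ← hck, pow_succ]
        group
    obtain ⟨c', hc', hm⟩ := hpow (Nat.card K)
    have hk1 : k ^ Nat.card K = 1 := by
      have h2 := congrArg Subtype.val (pow_card_eq_one' (G := K) (x := ⟨k, hk⟩))
      rw [Subgroup.coe_pow, Subgroup.coe_one] at h2
      exact h2
    rw [hk1, mul_one] at hm
    obtain ⟨a, ha⟩ := S.isPGroup' ⟨s, hs⟩
    have ha' : s ^ (p ^ a) = 1 := by
      have := congrArg Subtype.val ha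
      simpa using this
    have hcop : (Nat.card K).Coprime (orderOf s) :=
      Nat.Coprime.coprime_dvd_right (orderOf_dvd_of_pow_eq_one ha') (Nat.Coprime.pow_right a hKc)
    obtain ⟨j, hj⟩ := exists_pow_eq_self_of_coprime hcop
    rw [← hj, hm]
    exact Subgroup.pow_mem _ hc' j
  · intro Y x hY hxY
    obtain ⟨n, hn, k, hk, rfl⟩ := decomp _ K hNK x
    refine ⟨n, hn, k, ?_, rfl⟩
    rw [Subgroup.mem_centralizer_iff]
    intro y hy
    have h1 : n * k * y * (n * k)⁻¹ ∈ (S : Subgroup G) := hxY ⟨y, hy, rfl⟩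
    have h2 : k * y * k⁻¹ ∈ (S : Subgroup G) := by
      have hn' := (Subgroup.mem_normalizer_iff'.1 hn (k * y * k⁻¹))
      have h3 : n * (k * y * k⁻¹) * n⁻¹ ∈ (S : Subgroup G) := by
        have : n * (k * y * k⁻¹) * n⁻¹ = n * k * y * (n * k)⁻¹ := by group
        rw [this]; exact h1
      have h4 := (Subgroup.mem_normalizer_iff.1 hn (k * y * k⁻¹)).2 h3
      exact h4
    have h5 : k * y * k⁻¹ * y⁻¹ ∈ (S : Subgroup G) :=
      Subgroup.mul_mem _ h2 (Subgroup.inv_mem _ (hY hy))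
    have h6 : k * y * k⁻¹ * y⁻¹ ∈ K := by
      have : k * y * k⁻¹ * y⁻¹ = k * (y * k⁻¹ * y⁻¹) := by group
      rw [this]
      exact K.mul_mem hk (hKn.conj_mem _ (K.inv_mem hk) y)
    have h7 := inf_bot p S K hKc h5 h6
    have : y * k = k * y * k⁻¹ * y⁻¹ * y * k := by rw [h7]; group
    rw [this]; group
  · intro Q hQ
    obtain ⟨P, hQP⟩ := hQ.exists_le_sylow
    obtain ⟨g, hg⟩ := MulAction.exists_smul_eq G S P
    obtain ⟨n, hn, k, hk, hgnk⟩ := decomp _ K hNK g⁻¹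
    have hmem : ∀ y ∈ Q, k * y * k⁻¹ ∈ (S : Subgroup G) := by
      intro y hy
      have h1 : y ∈ ((g • S : Sylow p G) : Subgroup G) := by rw [hg]; exact hQP hy
      rw [Sylow.coe_subgroup_smul, Subgroup.mem_pointwise_smul_iff_inv_smul_mem] at h1
      have h2 : g⁻¹ * y * g ∈ (S : Subgroup G) := by
        simpa [MulAut.smul_def, MulAut.conj_apply] using h1
      rw [hgnk] at h2
      have h3 : n * (k * y * k⁻¹) * n⁻¹ ∈ (S : Subgroup G) := by
        have e : n * (k * y * k⁻¹) * n⁻¹ = n * k * y * g := by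
          have : g = (n * k)⁻¹ := by rw [← hgnk]; group
          rw [this]; group
        rw [e]; exact h2
      exact (Subgroup.mem_normalizer_iff.1 hn (k * y * k⁻¹)).2 h3
    refine ⟨k, ?_, ?_⟩
    · rw [Subgroup.mem_centralizer_iff]
      intro y hy
      have hyQ : y ∈ Q := hy.1
      have hyS : y ∈ (S : Subgroup G) := hy.2
      have h5 : k * y * k⁻¹ * y⁻¹ ∈ (S : Subgroup G) :=
        Subgroup.mul_mem _ (hmem y hyQ) (Subgroup.inv_mem _ hyS)
      have h6 : k * y * k⁻¹ * y⁻¹ ∈ K := by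
        have : k * y * k⁻¹ * y⁻¹ = k * (y * k⁻¹ * y⁻¹) := by group
        rw [this]
        exact K.mul_mem hk (hKn.conj_mem _ (K.inv_mem hk) y)
      have h7 := inf_bot p S K hKc h5 h6
      have : y * k = k * y * k⁻¹ * y⁻¹ * y * k := by rw [h7]; group
      rw [this]; group
    · rintro _ ⟨y, hy, rfl⟩
      exact hmem y hy

end Cfsg.Agent.S1461
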