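import Mathlib
import Cfsg.Statements.S0717
import Cfsg.Agent.Lib.Helper12.PermChar
import Cfsg.Agent.S0158

set_option autoImplicit false
open Cfsg

namespace Cfsg.Agent.S0717

open MulAction Cfsg.Agent.Lib.Helper12.Hecke Cfsg.Agent.Lib.Helper12.Subdeg
  Cfsg.Agent.Lib.Helper12.PermChar
  Cfsg.Agent.Lib.Helper3 Cfsg.Agent.Lib.Helper75 Cfsg.Agent.Lib.Helper74
open scoped ComplexConjugate Matrix

/-- a rank-one idempotent: `T = P T P` forces `T` to be a multiple of `P` -/
theorem rank_one_lemma {V : Type*} [AddCommGroup V] [Module ℂ V] [FiniteDimensional ℂ V]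
    (P T : Module.End ℂ V) (hP : IsIdempotentElem P) (htr : LinearMap.trace ℂ V P = 1)
    (h1 : P * T = T) (h2 : T * P = T) : T = LinearMap.trace ℂ V T • P := by
  have hfr : Module.finrank ℂ (LinearMap.range P) = 1 := by
    have := (LinearMap.IsIdempotentElem.isProj_range P hP).trace
    rw [htr] at this
    exact_mod_cast this.symm
  obtain ⟨v, hv, hspan⟩ := finrank_eq_one_iff'.mp hfr
  have hPP : ∀ u : V, P (P u) = P u := fun u => by
    have := congrArg (fun f : Module.End ℂ V => f u) hP.eq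
    simpa using this
  have hPs : P (v : V) = v := by
    obtain ⟨u, hu⟩ := v.2
    rw [← hu, hPP]
  have hTs : ∃ c0 : ℂ, T (v : V) = c0 • (v : V) := by
    have hmem : T (v : V) ∈ LinearMap.range P := by
      rw [← h1]
      exact ⟨T (v : V), rfl⟩
    obtain ⟨c, hc⟩ := hspan ⟨T (v : V), hmem⟩
    exact ⟨c, (congrArg Subtype.val hc).symm⟩
  obtain ⟨c0, hc0⟩ := hTs
  have hT : T = c0 • P := by
    apply LinearMap.ext
    intro u
    obtain ⟨c, hc⟩ := hspan ⟨P u, ⟨u, rfl⟩⟩
    have hc' : c • (v : V) = P u := congrArg Subtype.val hc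
    have e1 : T u = T (P u) := by
      conv_lhs => rw [← h2]
      rfl
    rw [e1, ← hc', map_smul, hc0, LinearMap.smul_apply, ← hc', smul_comm]
  have htrT : LinearMap.trace ℂ V T = c0 := by
    rw [hT, map_smul, htr, smul_eq_mul, mul_one]
  rw [htrT]
  exact hT

section

variable {G : Type*} [Group G] [Fintype G]

/-- Fourier inversion: a function on `G` killed by all irreducible representations is zero -/
theorem fourier_inversion (f : G → ℂ)
    (h : ∀ (n : ℕ) (ρ : Representation ℂ G (Fin n → ℂ)), ρ.IsIrreducible →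
      ∑ g : G, f g • ρ g = 0) : f = 0 := by
  classical
  have := Fintype.ofFinite (Cfsg.IrrCharacter G)
  funext x
  have h1 : ∀ χ : Cfsg.IrrCharacter G, ∑ g : G, f g * (χ : G → ℂ) (x⁻¹ * g) = 0 := by
    intro χ
    obtain ⟨n, ρ, hirr, hρ⟩ := χ.2
    have h2 := h n ρ hirr
    have h3 : ∑ g : G, f g * ρ.character (x⁻¹ * g) =
        LinearMap.trace ℂ _ (ρ x⁻¹ * ∑ g : G, f g • ρ g) := by
      rw [Finset.mul_sum, map_sum]
      refine Finset.sum_congr rfl (fun g _ => ?_)
      rw [mul_smul_comm, map_smul, smul_eq_mul, ← map_mul]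
      rfl
    rw [← hρ, h3, h2, mul_zero, map_zero]
  have h4 : ∑ g : G, f g * (if x⁻¹ * g = 1 then (Nat.card G : ℂ) else 0) = 0 := by
    simp_rw [regular_expansion, Finset.mul_sum]
    rw [Finset.sum_comm]
    refine Finset.sum_eq_zero (fun χ _ => ?_)
    have h5 : ∀ g : G, f g * ((χ : G → ℂ) 1 * (χ : G → ℂ) (x⁻¹ * g)) =
        (χ : G → ℂ) 1 * (f g * (χ : G → ℂ) (x⁻¹ * g)) := fun g => by ring
    simp_rw [h5]
    rw [← Finset.mul_sum, h1 χ, mul_zero]
  rw [Finset.sum_eq_single x] at h4
  · rw [if_pos (inv_mul_cancel x)] at h4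
    rcases mul_eq_zero.mp h4 with h | h
    · exact h
    · exact absurd h card_ne_zero'
  · intro g _ hg
    rw [if_neg, mul_zero]
    intro h
    exact hg (inv_mul_eq_one.mp h).symm
  · intro h
    exact absurd (Finset.mem_univ _) h

variable {Ω : Type*} [Fintype Ω] [MulAction G Ω] [MulAction.IsPretransitive G Ω]

/-- the trace of the projection onto the fixed vectors of the stabiliser -/
theorem trace_heckeHom_one [DecidableEq Ω] {V : Type*} [AddCommGroup V] [Module ℂ V]
    [FiniteDimensional ℂ V] (ρ : Representation ℂ G V) (a : Ω) :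
    LinearMap.trace ℂ V (heckeHom ρ a (1 : Matrix Ω Ω ℤ)) =
      conj (Cfsg.classInner (permChar G Ω) ρ.character) := by
  classical
  have : Fintype (stabilizer G a) := Fintype.ofFinite _
  have hcf := isClassFunction_of_isCharacter (isCharacter_character ρ)
  rw [classInner_permChar a hcf, trace_heckeHom, sum_one_mat G a (fun g => ρ.character g),
    map_mul, map_sum]
  congr 1
  · simp
  · refine Finset.sum_congr rfl (fun h _ => ?_)
    simp

/-- the backward direction: multiplicity-free with real constituents implies self-paired -/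
theorem backward
    (hχ : ∀ χ : G → ℂ, Cfsg.IsIrrCharacter G χ → Cfsg.classInner (permChar G Ω) χ ≠ 0 →
      Cfsg.classInner (permChar G Ω) χ = 1 ∧ ∀ g : G, conj (χ g) = χ g)
    (a b : Ω) : ∃ g : G, g • a = b ∧ g • b = a := by
  classical
  by_cases hab : b = a
  · exact ⟨1, by rw [one_smul, hab], by rw [one_smul, hab]⟩
  have hBinv := orbMat_invariant G a b
  have hDinv : ∀ (g : G) (x y : Ω), (orbMat G a b - (orbMat G a b)ᵀ) (g • x) (g • y) =
      (orbMat G a b - (orbMat G a b)ᵀ) x y := by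
    intro g x y
    simp only [Matrix.sub_apply, Matrix.transpose_apply, hBinv]
  have hT : ∀ (n : ℕ) (ρ : Representation ℂ G (Fin n → ℂ)), ρ.IsIrreducible →
      heckeHom ρ a (orbMat G a b - (orbMat G a b)ᵀ) = 0 := by
    intro n ρ hirr
    have hirrχ : Cfsg.IsIrrCharacter G ρ.character := ⟨n, ρ, hirr, rfl⟩
    have hP := heckeHom_one_idem ρ a
    have htr := trace_heckeHom_one ρ a
    have e2 := heckeHom_mul ρ a (orbMat G a b - (orbMat G a b)ᵀ) 1 one_invariant
    rw [mul_one] at e2
    by_cases h0 : Cfsg.classInner (permChar G Ω) ρ.character = 0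
    · rw [h0, map_zero] at htr
      have hP0 := (LinearMap.IsIdempotentElem.trace_eq_zero_iff hP).mp htr
      rw [e2, hP0, mul_zero]
    · obtain ⟨h1, hreal⟩ := hχ _ hirrχ h0
      rw [h1, RingHom.map_one] at htr
      have e1 := heckeHom_mul ρ a 1 (orbMat G a b - (orbMat G a b)ᵀ) hDinv
      rw [one_mul] at e1
      have key := rank_one_lemma _ _ hP htr e1.symm e2.symm
      have htrT : LinearMap.trace ℂ _ (heckeHom ρ a (orbMat G a b - (orbMat G a b)ᵀ)) = 0 := by
        rw [trace_heckeHom]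
        have h3 : ∑ g : G, ((orbMat G a b - (orbMat G a b)ᵀ) a (g • a) : ℂ) * ρ.character g =
            ∑ g : G, (orbMat G a b a (g • a) : ℂ) * ρ.character g -
            ∑ g : G, (orbMat G a b (g • a) a : ℂ) * ρ.character g := by
          rw [← Finset.sum_sub_distrib]
          refine Finset.sum_congr rfl (fun g _ => ?_)
          rw [Matrix.sub_apply, Matrix.transpose_apply, Int.cast_sub, sub_mul]
        have h4 : ∑ g : G, (orbMat G a b (g • a) a : ℂ) * ρ.character g =
            ∑ g : G, (orbMat G a b a (g • a) : ℂ) * ρ.character g := by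
          refine Fintype.sum_equiv (Equiv.inv G) _ _ (fun g => ?_)
          have e3 : orbMat G a b (g • a) a = orbMat G a b a (g⁻¹ • a) := by
            rw [← hBinv g⁻¹ (g • a) a, inv_smul_smul]
          rw [Equiv.inv_apply, e3, Cfsg.Agent.Lib.Helper74.character_inv ρ g, hreal g]
        rw [h3, h4, sub_self, mul_zero]
      rw [key, htrT, zero_smul]
  have hf := fourier_inversion (fun g : G => ((orbMat G a b - (orbMat G a b)ᵀ) a (g • a) : ℂ))
    (fun n ρ hirr => by
      have h1 := hT n ρ hirr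
      rw [heckeHom_apply] at h1
      rcases smul_eq_zero.mp h1 with h | h
      · exact absurd (inv_eq_zero.mp h) (card_stab_ne_zero a)
      · exact h)
  obtain ⟨g0, hg0⟩ := exists_smul_eq G a b
  have h1 := congrFun hf g0
  simp only [Pi.zero_apply] at h1
  rw [hg0, Matrix.sub_apply, Matrix.transpose_apply, orbMat_apply_of_mem] at h1
  have h2 : orbMat G a b b a = 1 := by
    have : (1 : ℤ) - orbMat G a b b a = 0 := by exact_mod_cast h1
    omega
  exact (orbMat_eq_one_iff G a b b a).mp h2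

omit [Fintype G] [IsPretransitive G Ω] in
theorem permChar_eq_sum [DecidableEq Ω] (g : G) :
    permChar G Ω g = ∑ x : Ω, if g • x = x then (1 : ℂ) else 0 := by
  unfold permChar
  rw [Finset.sum_boole, Nat.card_eq_fintype_card, Fintype.card_subtype]
  rfl

/-- the Frobenius–Schur count when every pair of points can be swapped -/
theorem sum_permChar_sq (a : Ω) (hsw : ∀ a b : Ω, ∃ g : G, g • a = b ∧ g • b = a) :
    ∑ g : G, permChar G Ω (g * g) =
      (Nat.card G : ℂ) * Cfsg.classInner (permChar G Ω) (permChar G Ω) := by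
  classical
  simp_rw [permChar_eq_sum]
  rw [Finset.sum_comm]
  have key : ∀ x : Ω, ∑ g : G, (if (g * g) • x = x then (1 : ℂ) else 0) =
      (Nat.card (stabilizer G x) : ℂ) * Cfsg.classInner (permChar G Ω) (permChar G Ω) := by
    intro x
    have : Fintype (stabilizer G x) := Fintype.ofFinite _
    choose sw hsw1 hsw2 using hsw x
    have s1 : ∀ g : G, (if (g * g) • x = x then (1 : ℂ) else 0) =
        ∑ y : Ω, if g • x = y ∧ g • y = x then (1 : ℂ) else 0 := by
      intro g
      rw [Finset.sum_eq_single (g • x)]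
      · simp [mul_smul]
      · intro y _ hy
        rw [if_neg]
        intro h
        exact hy h.1.symm
      · intro h
        exact absurd (Finset.mem_univ _) h
    simp_rw [s1]
    rw [Finset.sum_comm]
    have s2 : ∀ y : Ω, ∑ g : G, (if g • x = y ∧ g • y = x then (1 : ℂ) else 0) =
        ∑ h : G, (if h • x = x ∧ h • y = y then (1 : ℂ) else 0) := by
      intro y
      symm
      refine Fintype.sum_equiv (Equiv.mulLeft (sw y)) _ _ (fun h => ?_)
      have hiff : (h • x = x ∧ h • y = y) ↔ ((sw y * h) • x = y ∧ (sw y * h) • y = x) := by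
        rw [mul_smul, mul_smul]
        constructor
        · rintro ⟨h1, h2⟩
          rw [h1, h2]
          exact ⟨hsw1 y, hsw2 y⟩
        · rintro ⟨h1, h2⟩
          exact ⟨MulAction.injective (sw y) (h1.trans (hsw1 y).symm),
            MulAction.injective (sw y) (h2.trans (hsw2 y).symm)⟩
      rw [Equiv.coe_mulLeft]
      exact if_congr hiff rfl rfl
    simp_rw [s2]
    rw [Finset.sum_comm]
    have s3 : ∀ h : G, ∑ y : Ω, (if h • x = x ∧ h • y = y then (1 : ℂ) else 0) =
        ((1 : Matrix Ω Ω ℤ) x (h • x) : ℂ) * permChar G Ω h := by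
      intro h
      rw [permChar_eq_sum h, Matrix.one_apply]
      by_cases hx : h • x = x
      · rw [if_pos hx.symm]
        simp [hx]
      · rw [if_neg (fun h' => hx h'.symm)]
        simp [hx]
    simp_rw [s3]
    rw [sum_one_mat G x (permChar G Ω), classInner_permChar x isClassFunction_permChar]
    have hc := card_stab_ne_zero (G := G) x
    rw [← mul_assoc, mul_inv_cancel₀ hc, one_mul]
    refine Finset.sum_congr rfl (fun h _ => ?_)
    unfold permChar
    rw [Complex.conj_natCast]
  rw [Finset.sum_congr rfl (fun x _ => key x), ← Finset.sum_mul]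
  congr 1
  have hn : (Fintype.card Ω : ℂ) ≠ 0 := by
    have hne : Nonempty Ω := ⟨a⟩
    have : Fintype.card Ω ≠ 0 := Fintype.card_ne_zero
    exact_mod_cast this
  have hst : ∀ x : Ω, (Nat.card (stabilizer G x) : ℂ) = (Nat.card G : ℂ) / (Fintype.card Ω : ℂ) := by
    intro x
    have h1 := sum_smul_eq (G := G) x (fun _ => (1 : ℕ))
    simp only [Finset.sum_const, Finset.card_univ, smul_eq_mul, mul_one] at h1
    rw [eq_div_iff hn, Nat.card_eq_fintype_card (α := G)]
    exact_mod_cast h1.symm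
  rw [Finset.sum_congr rfl (fun x _ => hst x), Finset.sum_const, Finset.card_univ, nsmul_eq_mul]
  field_simp

/-- the forward direction -/
theorem forward (a : Ω) (hsw : ∀ a b : Ω, ∃ g : G, g • a = b ∧ g • b = a)
    (χ : G → ℂ) (hχ : Cfsg.IsIrrCharacter G χ)
    (h0 : Cfsg.classInner (permChar G Ω) χ ≠ 0) :
    Cfsg.classInner (permChar G Ω) χ = 1 ∧ ∀ g : G, conj (χ g) = χ g := by
  classical
  have := Fintype.ofFinite (Cfsg.IrrCharacter G)
  obtain ⟨m, hm, hsum⟩ := char_eq_sum_irr (isCharacter_permChar (G := G) (Ω := Ω))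
  have hG : (Nat.card G : ℂ) ≠ 0 := card_ne_zero'
  -- the indicators
  have hind : ∀ ψ : Cfsg.IrrCharacter G, ∃ e : ℤ, e ≤ 1 ∧
      (Nat.card G : ℂ)⁻¹ * ∑ s : G, (ψ : G → ℂ) (s * s) = (e : ℂ) ∧
      (e ≠ 0 → ∀ g : G, ((ψ : G → ℂ) g).im = 0) := by
    intro ψ
    obtain ⟨n, ρ, hirr, hρ⟩ := ψ.2
    have := hirr
    obtain ⟨h1, h2⟩ := Cfsg.Agent.S0158.result ρ
    rw [hρ] at h1 h2
    rcases h1 with h | h | h
    · exact ⟨0, by norm_num, by rw [h]; simp, fun h' => absurd rfl h'⟩
    · refine ⟨1, le_refl _, by rw [h]; simp, fun _ g => ?_⟩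
      by_contra hg
      have := h2.mpr ⟨g, hg⟩
      rw [h] at this
      exact one_ne_zero this
    · refine ⟨-1, by norm_num, by rw [h]; simp, fun _ g => ?_⟩
      by_contra hg
      have := h2.mpr ⟨g, hg⟩
      rw [h] at this
      norm_num at this
  choose e he1 heν hereal using hind
  -- ⟨π, π⟩ = Σ m²
  have hpp : Cfsg.classInner (permChar G Ω) (permChar G Ω) =
      ∑ ψ : Cfsg.IrrCharacter G, (m ψ : ℂ) * (m ψ : ℂ) := by
    conv_lhs => lhs; rw [hsum]
    rw [classInner_sum_left]
    refine Finset.sum_congr rfl (fun ψ _ => ?_)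
    rw [classInner_smul_left, classInner_conj_symm (permChar G Ω) (ψ : G → ℂ), hm ψ,
      Complex.conj_natCast]
  -- Σ_g π(g²) = |G| Σ m e
  have hsq : ∑ g : G, permChar G Ω (g * g) =
      (Nat.card G : ℂ) * ∑ ψ : Cfsg.IrrCharacter G, (m ψ : ℂ) * (e ψ : ℂ) := by
    have h1 : ∀ g : G, permChar G Ω (g * g) =
        ∑ ψ : Cfsg.IrrCharacter G, (m ψ : ℂ) * (ψ : G → ℂ) (g * g) := by
      intro g
      conv_lhs => rw [hsum]
      rw [Finset.sum_apply]
      rfl
    simp_rw [h1]
    rw [Finset.sum_comm, Finset.mul_sum]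
    refine Finset.sum_congr rfl (fun ψ _ => ?_)
    rw [← Finset.mul_sum, ← heν ψ]
    field_simp
  have heq : ∑ ψ : Cfsg.IrrCharacter G, (m ψ : ℤ) * e ψ = ∑ ψ : Cfsg.IrrCharacter G, (m ψ : ℤ) ^ 2 := by
    have h1 := sum_permChar_sq a hsw
    rw [hsq, hpp] at h1
    have h2 := mul_left_cancel₀ hG h1
    have h3 : ((∑ ψ : Cfsg.IrrCharacter G, (m ψ : ℤ) * e ψ : ℤ) : ℂ) =
        ((∑ ψ : Cfsg.IrrCharacter G, (m ψ : ℤ) ^ 2 : ℤ) : ℂ) := by
      push_cast
      rw [h2]
      refine Finset.sum_congr rfl (fun ψ _ => ?_)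
      ring
    exact_mod_cast h3
  have hle : ∀ ψ ∈ (Finset.univ : Finset (Cfsg.IrrCharacter G)), (m ψ : ℤ) * e ψ ≤ (m ψ : ℤ) ^ 2 := by
    intro ψ _
    have h1 := he1 ψ
    have h2 : (0 : ℤ) ≤ m ψ := Int.natCast_nonneg _
    nlinarith
  have hterm := (Finset.sum_eq_sum_iff_of_le hle).mp heq
  set ψ0 : Cfsg.IrrCharacter G := ⟨χ, hχ⟩ with hψ0
  have hmψ := hm ψ0
  change Cfsg.classInner (permChar G Ω) χ = _ at hmψ
  have hm0 : m ψ0 ≠ 0 := by
    intro h
    rw [hmψ, h] at h0
    simp at h0
  have h1 := hterm ψ0 (Finset.mem_univ _)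
  have h2 := he1 ψ0
  have h3 : (0 : ℤ) < m ψ0 := by exact_mod_cast Nat.pos_of_ne_zero hm0
  have h4 : e ψ0 = (m ψ0 : ℤ) := by
    have : (m ψ0 : ℤ) * e ψ0 = (m ψ0 : ℤ) * (m ψ0 : ℤ) := by rw [h1]; ring
    exact mul_left_cancel₀ h3.ne' this
  have h5 : m ψ0 = 1 := by omega
  have h6 : e ψ0 ≠ 0 := by omega
  refine ⟨by rw [hmψ, h5]; simp, fun g => ?_⟩
  exact Complex.conj_eq_iff_im.mpr (hereal ψ0 h6 g)

end

/-- All suborbits of a transitive group are self-paired (every pair of points is interchanged by some group element) if and only if the permutation character is multiplicity-free and each of its irreducible constituents is real-valued. -/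
theorem result {G : Type*} [Group G] [Fintype G] {Ω : Type*} [Fintype Ω] [MulAction G Ω] [MulAction.IsPretransitive G Ω] : (∀ a b : Ω, ∃ g : G, g • a = b ∧ g • b = a) ↔ ∀ χ : G → ℂ, Cfsg.IsIrrCharacter G χ → Cfsg.classInner (fun g : G => (Nat.card (MulAction.fixedBy Ω g) : ℂ)) χ ≠ 0 → Cfsg.classInner (fun g : G => (Nat.card (MulAction.fixedBy Ω g) : ℂ)) χ = 1 ∧ ∀ g : G, (starRingEnd ℂ) (χ g) = χ g := by
  constructor
  · intro hsw χ hχ h0
    rcases isEmpty_or_nonempty Ω with hΩ | ⟨⟨a⟩⟩
    · exfalso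
      apply h0
      have : (fun g : G => (Nat.card (MulAction.fixedBy Ω g) : ℂ)) = 0 := by
        funext g
        simp
      rw [this]
      exact classInner_zero_left χ
    · exact forward a hsw χ hχ h0
  · intro h a b
    exact backward h a b

end Cfsg.Agent.S0717
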