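import Mathlib
import Cfsg.Statements.S0719
import Cfsg.Agent.Lib.Helper12.Coef
import Cfsg.Agent.Lib.Helper74.CharOps

set_option autoImplicit false
open Cfsg

namespace Cfsg.Agent.S0719

open MulAction Cfsg.Agent.Lib.Helper12.Hecke Cfsg.Agent.Lib.Helper12.Subdeg
  Cfsg.Agent.Lib.Helper12.PermChar Cfsg.Agent.Lib.Helper12.Coef
  Cfsg.Agent.Lib.Helper3 Cfsg.Agent.Lib.Helper74
open scoped ComplexConjugate

theorem dioph (m k l : ℕ) (t : ℤ) (hm : 2 ≤ m) (hk : 2 ≤ k) (hl : 2 ≤ l)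
    (hkl : k + l + 1 = 2 * m)
    (h1 : ((m : ℤ) - 1) * (2 * k + (2 * m - 1) * t) ^ 2 = 2 * k * l) :
    ∃ a : ℕ, 0 < a ∧ m = 2 * a ^ 2 + 2 * a + 1 ∧
      ((k = a * (2 * a + 1) ∧ l = (a + 1) * (2 * a + 1)) ∨
        (k = (a + 1) * (2 * a + 1) ∧ l = a * (2 * a + 1))) := by
  have hL : (l : ℤ) = 2 * m - 1 - k := by
    have : ((k + l + 1 : ℕ) : ℤ) = ((2 * m : ℕ) : ℤ) := by rw [hkl]
    push_cast at this
    linarith
  have hm' : (2 : ℤ) ≤ m := by exact_mod_cast hm
  have hk' : (2 : ℤ) ≤ k := by exact_mod_cast hk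
  have hl' : (2 : ℤ) ≤ l := by exact_mod_cast hl
  -- the key identity
  have hstar : ((l : ℤ) - k - (2 * m - 2) * (t + 1)) ^ 2 =
      (2 * m - 1) - (2 * m - 2) * (t + 1) ^ 2 := by
    have h2 : (2 * (m : ℤ) - 1) * (((l : ℤ) - k - (2 * m - 2) * (t + 1)) ^ 2 -
        ((2 * m - 1) - (2 * m - 2) * (t + 1) ^ 2)) = 0 := by
      rw [hL] at h1 ⊢
      linear_combination 2 * h1
    have h3 : (2 * (m : ℤ) - 1) ≠ 0 := by omega
    have h4 := (mul_eq_zero.mp h2).resolve_left h3
    linarith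
  have hj : t + 1 = 0 := by
    by_contra hj
    have hsq : 0 ≤ ((l : ℤ) - k - (2 * m - 2) * (t + 1)) ^ 2 := sq_nonneg _
    have hj1 : (t + 1) ^ 2 ≤ 1 := by
      by_contra hc
      push Not at hc
      have : (2 : ℤ) ≤ (t + 1) ^ 2 := by omega
      nlinarith
    have hj2 : 1 ≤ (t + 1) ^ 2 := by
      have : 0 < (t + 1) ^ 2 := by positivity
      omega
    have hj3 : (t + 1) ^ 2 = 1 := le_antisymm hj1 hj2
    rw [hj3] at hstar
    have h5 : ((l : ℤ) - k - (2 * m - 2) * (t + 1)) ^ 2 = 1 := by linarith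
    have sq1 : ∀ x : ℤ, x ^ 2 = 1 → x = 1 ∨ x = -1 := by
      intro x hx
      have hx' : (x - 1) * (x + 1) = 0 := by linear_combination hx
      rcases mul_eq_zero.mp hx' with h | h
      · left; linarith
      · right; linarith
    have h6 : (t + 1 = 1) ∨ (t + 1 = -1) := sq1 _ hj3
    have h7 : ((l : ℤ) - k - (2 * m - 2) * (t + 1) = 1) ∨
        ((l : ℤ) - k - (2 * m - 2) * (t + 1) = -1) := sq1 _ h5
    rcases h6 with h6 | h6 <;> rcases h7 with h7 | h7 <;> rw [h6] at h7 <;> omega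
  rw [hj] at hstar
  have hw : ((l : ℤ) - k) ^ 2 = 2 * m - 1 := by
    have : ((l : ℤ) - k - (2 * m - 2) * 0) ^ 2 = (2 * m - 1) - (2 * m - 2) * 0 ^ 2 := hstar
    simpa using this
  -- d = |l - k|
  obtain ⟨d, hd⟩ : ∃ d : ℕ, ((l : ℤ) - k = d ∨ (l : ℤ) - k = -(d : ℤ)) :=
    ⟨((l : ℤ) - k).natAbs, Int.natAbs_eq _⟩
  have hd2 : (d : ℤ) ^ 2 = 2 * m - 1 := by
    rcases hd with h | h
    · rw [← h]; exact hw
    · have : (d : ℤ) = -((l : ℤ) - k) := by linarith
      rw [this, neg_sq]; exact hw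
  have hdodd : ∃ a : ℕ, d = 2 * a + 1 := by
    rcases Nat.even_or_odd d with he | ho
    · exfalso
      obtain ⟨e, he⟩ := he
      rw [he] at hd2
      push_cast at hd2
      have : (2 : ℤ) ∣ 2 * m - 1 := ⟨2 * (e : ℤ) ^ 2, by rw [← hd2]; ring⟩
      omega
    · obtain ⟨a, ha⟩ := ho
      exact ⟨a, ha⟩
  obtain ⟨a, rfl⟩ := hdodd
  push_cast at hd2 hd
  have hmz : (m : ℤ) = 2 * (a : ℤ) ^ 2 + 2 * a + 1 := by linarith
  have hmN : m = 2 * a ^ 2 + 2 * a + 1 := by exact_mod_cast hmz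
  have ha : 0 < a := by
    rcases Nat.eq_zero_or_pos a with h | h
    · rw [h] at hmN; omega
    · exact h
  refine ⟨a, ha, hmN, ?_⟩
  rcases hd with h | h
  · left
    have hkz : (k : ℤ) = a * (2 * a + 1) := by
      have : 2 * (k : ℤ) = 2 * m - 1 - (2 * a + 1) := by linarith
      rw [hmz] at this
      linarith
    have hlz : (l : ℤ) = (a + 1) * (2 * a + 1) := by
      rw [hL, hmz, hkz]; ring
    exact ⟨by exact_mod_cast hkz, by exact_mod_cast hlz⟩
  · right
    have hkz : (k : ℤ) = (a + 1) * (2 * a + 1) := by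
      have : 2 * (k : ℤ) = 2 * m - 1 + (2 * a + 1) := by linarith
      rw [hmz] at this
      linarith
    have hlz : (l : ℤ) = a * (2 * a + 1) := by
      rw [hL, hmz, hkz]; ring
    exact ⟨by exact_mod_cast hkz, by exact_mod_cast hlz⟩

theorem sum_three {I : Type*} [Fintype I] [DecidableEq I] {M : Type*} [AddCommMonoid M]
    (f : I → M) (x y z : I) (hxy : x ≠ y) (hxz : x ≠ z) (hyz : y ≠ z)
    (h0 : ∀ i, i ≠ x → i ≠ y → i ≠ z → f i = 0) : ∑ i, f i = f x + f y + f z := by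
  rw [← Finset.sum_subset (Finset.subset_univ {x, y, z})]
  · rw [Finset.sum_insert (by simp [hxy, hxz]), Finset.sum_pair hyz, add_assoc]
  · intro i _ hi
    simp only [Finset.mem_insert, Finset.mem_singleton, not_or] at hi
    exact h0 i hi.1 hi.2.1 hi.2.2

section

variable {G : Type*} [Group G] {Ω : Type*} [MulAction G Ω]

open Classical in
theorem orbMat_row (a b y : Ω) :
    orbMat G a b a y = if y ∈ orbit (stabilizer G a) b then 1 else 0 := by
  classical
  unfold orbMat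
  have : (∃ g : G, g • a = a ∧ g • b = y) ↔ y ∈ orbit (stabilizer G a) b := by
    constructor
    · rintro ⟨g, hg, rfl⟩
      exact ⟨⟨g, hg⟩, rfl⟩
    · rintro ⟨⟨g, hg⟩, rfl⟩
      exact ⟨g, hg, rfl⟩
  by_cases hy : y ∈ orbit (stabilizer G a) b
  · rw [if_pos hy, if_pos (this.mpr hy)]
  · rw [if_neg hy, if_neg (fun h' => hy (this.mp h'))]

theorem sum_orbMat_int [Fintype Ω] (a b : Ω) :
    ∑ y : Ω, orbMat G a b a y = (Nat.card (orbit (stabilizer G a) b) : ℤ) := by
  have h := sum_orbMat G a b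
  have h' : ((∑ y : Ω, orbMat G a b a y : ℤ) : ℂ) =
      ((Nat.card (orbit (stabilizer G a) b) : ℤ) : ℂ) := by
    push_cast
    exact h
  exact_mod_cast h'

/-- in a primitive action, if the stabiliser of `a₀` fixes another point then it fixes all -/
theorem fixes_all_of_fixes_one [hprim : IsPreprimitive G Ω] (a₀ y : Ω) (hy : y ≠ a₀)
    (hfix : ∀ h ∈ stabilizer G a₀, h • y = y) :
    ∀ h ∈ stabilizer G a₀, ∀ x : Ω, h • x = x := by
  have hnt : Nontrivial Ω := ⟨⟨y, a₀, hy⟩⟩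
  have hH : IsCoatom (stabilizer G a₀) :=
    IsPreprimitive.isCoatom_stabilizer_of_isPreprimitive G a₀
  have hY : IsCoatom (stabilizer G y) :=
    IsPreprimitive.isCoatom_stabilizer_of_isPreprimitive G y
  have hle : stabilizer G a₀ ≤ stabilizer G y := fun h hh => hfix h hh
  have heq : stabilizer G y = stabilizer G a₀ := by
    rcases hH.le_iff.mp hle with h | h
    · exact absurd h hY.1
    · exact h
  obtain ⟨g₀, hg₀⟩ := exists_smul_eq G a₀ y
  have hnorm : g₀ ∈ Subgroup.normalizer (stabilizer G a₀ : Set G) := by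
    rw [Subgroup.mem_normalizer_iff_map_conj_eq]
    have := stabilizer_smul_eq_stabilizer_map_conj g₀ a₀
    rw [hg₀, heq] at this
    exact this.symm
  have hg₀' : g₀ ∉ stabilizer G a₀ := by
    intro h
    rw [mem_stabilizer_iff, hg₀] at h
    exact hy h
  have htop : Subgroup.normalizer (stabilizer G a₀ : Set G) = ⊤ := by
    rcases hH.le_iff.mp (Subgroup.le_normalizer (H := stabilizer G a₀)) with h | h
    · exact h
    · rw [h] at hnorm
      exact absurd hnorm hg₀'
  have hn : (stabilizer G a₀).Normal := Subgroup.normalizer_eq_top_iff.mp htop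
  intro h hh x
  obtain ⟨g, rfl⟩ := exists_smul_eq G a₀ x
  have h1 : g⁻¹ * h * g ∈ stabilizer G a₀ := by
    have := hn.conj_mem h hh g⁻¹
    simpa using this
  have h2 : h • g • a₀ = g • (g⁻¹ * h * g) • a₀ := by
    rw [← mul_smul, ← mul_smul]
    congr 1
    group
  rw [h2, mem_stabilizer_iff.mp h1]

variable [Fintype Ω]

/-- the three suborbits of a rank 3 action -/
theorem rank_three_orbits (a₀ : Ω)
    (hrank : Nat.card (orbitRel.Quotient (stabilizer G a₀) Ω) = 3) :
    ∃ b c : Ω, b ≠ a₀ ∧ c ≠ a₀ ∧ c ∉ orbit (stabilizer G a₀) b ∧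
      (∀ y : Ω, y = a₀ ∨ y ∈ orbit (stabilizer G a₀) b ∨ y ∈ orbit (stabilizer G a₀) c) ∧
      Nat.card (orbit (stabilizer G a₀) b) + Nat.card (orbit (stabilizer G a₀) c) + 1 =
        Fintype.card Ω := by
  classical
  have : Fintype (orbitRel.Quotient (stabilizer G a₀) Ω) := Fintype.ofFinite _
  rw [Nat.card_eq_fintype_card] at hrank
  have h2 : (Finset.univ.erase
      (Quotient.mk'' a₀ : orbitRel.Quotient (stabilizer G a₀) Ω)).card = 2 := by
    rw [Finset.card_erase_of_mem (Finset.mem_univ _), Finset.card_univ, hrank]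
  obtain ⟨q1, q2, h12, hset⟩ := Finset.card_eq_two.mp h2
  induction q1 using Quotient.inductionOn' with
  | h b =>
  induction q2 using Quotient.inductionOn' with
  | h c =>
  have hb1 : (Quotient.mk'' b : orbitRel.Quotient (stabilizer G a₀) Ω) ≠ Quotient.mk'' a₀ := by
    have : (Quotient.mk'' b : orbitRel.Quotient (stabilizer G a₀) Ω) ∈
        Finset.univ.erase (Quotient.mk'' a₀ : orbitRel.Quotient (stabilizer G a₀) Ω) := by
      rw [hset]; simp
    exact Finset.ne_of_mem_erase this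
  have hc1 : (Quotient.mk'' c : orbitRel.Quotient (stabilizer G a₀) Ω) ≠ Quotient.mk'' a₀ := by
    have : (Quotient.mk'' c : orbitRel.Quotient (stabilizer G a₀) Ω) ∈
        Finset.univ.erase (Quotient.mk'' a₀ : orbitRel.Quotient (stabilizer G a₀) Ω) := by
      rw [hset]; simp
    exact Finset.ne_of_mem_erase this
  have hmem : ∀ x y : Ω, (Quotient.mk'' x : orbitRel.Quotient (stabilizer G a₀) Ω) =
      Quotient.mk'' y ↔ x ∈ orbit (stabilizer G a₀) y := by
    intro x y
    rw [Quotient.eq'']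
    rfl
  refine ⟨b, c, ?_, ?_, ?_, ?_, ?_⟩
  · rintro rfl
    exact hb1 rfl
  · rintro rfl
    exact hc1 rfl
  · intro h
    exact h12 ((hmem c b).mpr h).symm
  · intro y
    by_cases hy : (Quotient.mk'' y : orbitRel.Quotient (stabilizer G a₀) Ω) = Quotient.mk'' a₀
    · left
      have := (hmem y a₀).mp hy
      rw [orbit_stabilizer_self] at this
      exact this
    · right
      have : (Quotient.mk'' y : orbitRel.Quotient (stabilizer G a₀) Ω) ∈
          Finset.univ.erase (Quotient.mk'' a₀ : orbitRel.Quotient (stabilizer G a₀) Ω) :=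
        Finset.mem_erase.mpr ⟨hy, Finset.mem_univ _⟩
      rw [hset, Finset.mem_insert, Finset.mem_singleton] at this
      rcases this with h | h
      · left; exact (hmem y b).mp h
      · right; exact (hmem y c).mp h
  · rw [card_eq_sum_orbits (G := stabilizer G a₀),
      ← Finset.insert_erase (Finset.mem_univ
        (Quotient.mk'' a₀ : orbitRel.Quotient (stabilizer G a₀) Ω)), hset,
      Finset.sum_insert (by
        rw [Finset.mem_insert, Finset.mem_singleton, not_or]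
        exact ⟨fun h => hb1 h.symm, fun h => hc1 h.symm⟩), Finset.sum_pair h12]
    simp only [orbitRel.Quotient.orbit_mk]
    rw [orbit_stabilizer_self]
    simp
    omega

end

section main

variable {G : Type*} [Group G] [Fintype G] {Ω : Type*} [Fintype Ω] [MulAction G Ω]

omit [Fintype Ω] in
theorem classInner_permChar_conj (χ : G → ℂ) :
    Cfsg.classInner (permChar G Ω) (fun g => conj (χ g)) =
      conj (Cfsg.classInner (permChar G Ω) χ) := by
  unfold Cfsg.classInner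
  rw [map_mul, map_sum]
  congr 1
  · simp
  · refine Finset.sum_congr rfl (fun g _ => ?_)
    rw [map_mul]
    congr 1
    unfold permChar
    rw [Complex.conj_natCast]

end main

/-- Groups of Wielandt type: if a primitive group of degree `2m` has rank 3 and permutation character `1 + χ₁ + χ₂` with irreducible `χ₁, χ₂` of degrees `m - 1` and `m`, then `m = 2a² + 2a + 1` for some positive integer `a` and the two non-trivial subdegrees are `a(2a+1)` and `(a+1)(2a+1)`. -/
theorem result {G : Type*} [Group G] [Fintype G] {Ω : Type*} [Fintype Ω] [MulAction G Ω] (hprim : MulAction.IsPreprimitive G Ω) {m : ℕ} (hm : Fintype.card Ω = 2 * m) (a₀ : Ω) (hrank : Nat.card (MulAction.orbitRel.Quotient (MulAction.stabilizer G a₀) Ω) = 3) (χ₁ χ₂ : G → ℂ) (h₁ : Cfsg.IsIrrCharacter G χ₁) (h₂ : Cfsg.IsIrrCharacter G χ₂) (hπ : (fun g : G => (Nat.card (MulAction.fixedBy Ω g) : ℂ)) = fun g => 1 + χ₁ g + χ₂ g) (hd₁ : χ₁ 1 = (m : ℂ) - 1) (hd₂ : χ₂ 1 = m) : ∃ a : ℕ, 0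 < a ∧ m = 2 * a ^ 2 + 2 * a + 1 ∧ ∀ b : Ω, b ≠ a₀ → Nat.card (MulAction.orbit (MulAction.stabilizer G a₀) b) = a * (2 * a + 1) ∨ Nat.card (MulAction.orbit (MulAction.stabilizer G a₀) b) = (a + 1) * (2 * a + 1) := by
  classical
  have hpt : IsPretransitive G Ω := hprim.toIsPretransitive
  have := Fintype.ofFinite (Cfsg.IrrCharacter G)
  have hG : (Nat.card G : ℂ) ≠ 0 := card_ne_zero'
  have hπ0 : permChar G Ω = fun g => 1 + χ₁ g + χ₂ g := hπ
  -- Step 0: the constituents
  obtain ⟨d₁, hd₁pos, hd₁'⟩ := irr_degree (⟨χ₁, h₁⟩ : Cfsg.IrrCharacter G)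
  have hm2 : 2 ≤ m := by
    have e : χ₁ 1 = (d₁ : ℂ) := hd₁'
    rw [hd₁] at e
    have e' : (m : ℂ) = ((d₁ + 1 : ℕ) : ℂ) := by
      push_cast
      linear_combination e
    have : m = d₁ + 1 := by exact_mod_cast e'
    omega
  have hne12 : χ₁ ≠ χ₂ := by
    intro h
    have hd := hd₁
    rw [h, hd₂] at hd
    have : (1 : ℂ) = 0 := by linear_combination hd
    exact one_ne_zero this
  have hinner : ∀ ψ : G → ℂ, Cfsg.IsIrrCharacter G ψ → Cfsg.classInner (permChar G Ω) ψ =
      (if (fun _ : G => (1 : ℂ)) = ψ then 1 else 0) + (if χ₁ = ψ then 1 else 0) +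
        (if χ₂ = ψ then 1 else 0) := by
    intro ψ hψ
    have e : permChar G Ω = (fun _ : G => (1 : ℂ)) + χ₁ + χ₂ := by
      rw [hπ0]
      rfl
    rw [e, Cfsg.Agent.Lib.Helper75.classInner_add_left,
      Cfsg.Agent.Lib.Helper75.classInner_add_left,
      Cfsg.Agent.Lib.Helper80.classInner_irr_fun isIrrCharacter_one hψ,
      Cfsg.Agent.Lib.Helper80.classInner_irr_fun h₁ hψ,
      Cfsg.Agent.Lib.Helper80.classInner_irr_fun h₂ hψ]
  have hi0 : Cfsg.classInner (permChar G Ω) (fun _ : G => (1 : ℂ)) = 1 :=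
    classInner_permChar_one a₀
  have h0 := hinner _ (isIrrCharacter_one (G := G))
  rw [hi0, if_pos rfl] at h0
  have hne1 : χ₁ ≠ fun _ => 1 := by
    intro e
    rw [if_pos e] at h0
    split_ifs at h0 <;> norm_num at h0
  have hne2 : χ₂ ≠ fun _ => 1 := by
    intro e
    rw [if_pos e] at h0
    split_ifs at h0 <;> norm_num at h0
  have hi1 : Cfsg.classInner (permChar G Ω) χ₁ = 1 := by
    rw [hinner _ h₁, if_neg (Ne.symm hne1), if_pos rfl, if_neg (Ne.symm hne12)]
    norm_num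
  have hi2 : Cfsg.classInner (permChar G Ω) χ₂ = 1 := by
    rw [hinner _ h₂, if_neg (Ne.symm hne2), if_neg hne12, if_pos rfl]
    norm_num
  have hother : ∀ ψ : G → ℂ, Cfsg.IsIrrCharacter G ψ → ψ ≠ (fun _ => 1) → ψ ≠ χ₁ → ψ ≠ χ₂ →
      Cfsg.classInner (permChar G Ω) ψ = 0 := by
    intro ψ hψ n0 n1 n2
    rw [hinner _ hψ, if_neg (Ne.symm n0), if_neg (Ne.symm n1), if_neg (Ne.symm n2)]
    norm_num
  have hcases : ∀ ψ : G → ℂ, Cfsg.IsIrrCharacter G ψ → Cfsg.classInner (permChar G Ω) ψ ≠ 0 →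
      ψ = (fun _ => 1) ∨ ψ = χ₁ ∨ ψ = χ₂ := by
    intro ψ hψ hne
    by_contra hcon
    push Not at hcon
    exact hne (hother ψ hψ hcon.1 hcon.2.1 hcon.2.2)
  -- Step 1: the constituents are real, hence all pairs can be swapped
  have hreal1 : ∀ g : G, conj (χ₁ g) = χ₁ g := by
    have hc := isIrrCharacter_conj h₁
    have hcin : Cfsg.classInner (permChar G Ω) (fun g => conj (χ₁ g)) ≠ 0 := by
      rw [classInner_permChar_conj, hi1]
      simp
    rcases hcases _ hc hcin with h | h | h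
    · exfalso
      apply hne1
      funext g
      have h' := congrArg conj (congrFun h g)
      simpa using h'
    · intro g
      exact congrFun h g
    · exfalso
      have h' := congrFun h 1
      simp only [hd₁, hd₂, map_sub, Complex.conj_natCast, map_one] at h'
      have : (1 : ℂ) = 0 := by linear_combination -h'
      exact one_ne_zero this
  have hreal2 : ∀ g : G, conj (χ₂ g) = χ₂ g := by
    have hc := isIrrCharacter_conj h₂
    have hcin : Cfsg.classInner (permChar G Ω) (fun g => conj (χ₂ g)) ≠ 0 := by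
      rw [classInner_permChar_conj, hi2]
      simp
    rcases hcases _ hc hcin with h | h | h
    · exfalso
      apply hne2
      funext g
      have h' := congrArg conj (congrFun h g)
      simpa using h'
    · exfalso
      have h' := congrFun h 1
      simp only [hd₁, hd₂, Complex.conj_natCast] at h'
      have : (1 : ℂ) = 0 := by linear_combination h'
      exact one_ne_zero this
    · intro g
      exact congrFun h g
  have hχreal : ∀ χ : G → ℂ, Cfsg.IsIrrCharacter G χ → Cfsg.classInner (permChar G Ω) χ ≠ 0 →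
      Cfsg.classInner (permChar G Ω) χ = 1 ∧ ∀ g : G, conj (χ g) = χ g := by
    intro χ hχ hne
    rcases hcases χ hχ hne with h | h | h
    · rw [h]
      exact ⟨hi0, fun g => by simp⟩
    · rw [h]
      exact ⟨hi1, hreal1⟩
    · rw [h]
      exact ⟨hi2, hreal2⟩
  have hsw := Cfsg.Agent.S0717.backward hχreal
  have hsymm : ∀ K : Matrix Ω Ω ℤ, IsInv G K → ∀ x y : Ω, K x y = K y x := by
    intro K hK x y
    obtain ⟨g, hg1, hg2⟩ := hsw x y
    have := hK g x y
    rw [hg1, hg2] at this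
    exact this.symm
  -- Step 2: the suborbits
  obtain ⟨b, c, hb, hc, hcb, hcover, hcard⟩ := rank_three_orbits a₀ hrank
  have hkl : Nat.card (orbit (stabilizer G a₀) b) + Nat.card (orbit (stabilizer G a₀) c) + 1 =
      2 * m := by
    rw [← hm]
    exact hcard
  have hnot1 : ∀ y : Ω, y ≠ a₀ → Nat.card (orbit (stabilizer G a₀) y) ≠ 1 := by
    intro y hy h1
    have hfix : ∀ h ∈ stabilizer G a₀, h • y = y := by
      intro h hh
      have hsub := (Nat.card_eq_one_iff_unique.mp h1).1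
      have := @Subsingleton.elim _ hsub
        (⟨h • y, ⟨⟨h, hh⟩, rfl⟩⟩ : orbit (stabilizer G a₀) y) ⟨y, mem_orbit_self y⟩
      exact congrArg Subtype.val this
    have hall := fixes_all_of_fixes_one a₀ y hy hfix
    have hQ : Nat.card (orbitRel.Quotient (stabilizer G a₀) Ω) = Nat.card Ω := by
      apply Nat.card_congr
      symm
      apply Equiv.ofBijective
        (fun x : Ω => (Quotient.mk'' x : orbitRel.Quotient (stabilizer G a₀) Ω))
      constructor
      · intro x x' hxx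
        have hx : x ∈ orbit (stabilizer G a₀) x' := by
          have := Quotient.eq''.mp hxx
          exact this
        obtain ⟨h, rfl⟩ := hx
        exact hall h h.2 x'
      · intro q
        induction q using Quotient.inductionOn' with
        | h x => exact ⟨x, rfl⟩
    rw [hrank, Nat.card_eq_fintype_card, hm] at hQ
    omega
  have hkpos : 0 < Nat.card (orbit (stabilizer G a₀) b) := by
    have : Nonempty (orbit (stabilizer G a₀) b) := ⟨⟨b, mem_orbit_self b⟩⟩
    exact Nat.card_pos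
  have hlpos : 0 < Nat.card (orbit (stabilizer G a₀) c) := by
    have : Nonempty (orbit (stabilizer G a₀) c) := ⟨⟨c, mem_orbit_self c⟩⟩
    exact Nat.card_pos
  have hk2 : 2 ≤ Nat.card (orbit (stabilizer G a₀) b) := by
    have := hnot1 b hb
    omega
  have hl2 : 2 ≤ Nat.card (orbit (stabilizer G a₀) c) := by
    have := hnot1 c hc
    omega
  generalize hkdef : Nat.card (orbit (stabilizer G a₀) b) = k at hkl hkpos hk2
  generalize hldef : Nat.card (orbit (stabilizer G a₀) c) = l at hkl hlpos hl2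
  -- Step 3: kernels
  have hBinv : IsInv G (orbMat G a₀ b) := isInv_orbMat a₀ b
  have hCinv : IsInv G (orbMat G a₀ c) := isInv_orbMat a₀ c
  have ha₀b : a₀ ∉ orbit (stabilizer G a₀) b := by
    rintro ⟨h, hh⟩
    apply hb
    have hh' : h • b = a₀ := hh
    have e : h⁻¹ • a₀ = a₀ := (h⁻¹).2
    calc b = h⁻¹ • (h • b) := (inv_smul_smul h b).symm
      _ = h⁻¹ • a₀ := by rw [hh']
      _ = a₀ := e
  have ha₀c : a₀ ∉ orbit (stabilizer G a₀) c := by
    rintro ⟨h, hh⟩
    apply hc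
    have hh' : h • c = a₀ := hh
    have e : h⁻¹ • a₀ = a₀ := (h⁻¹).2
    calc c = h⁻¹ • (h • c) := (inv_smul_smul h c).symm
      _ = h⁻¹ • a₀ := by rw [hh']
      _ = a₀ := e
  have hdisj : ∀ y : Ω, y ∈ orbit (stabilizer G a₀) b → y ∉ orbit (stabilizer G a₀) c := by
    intro y hyb hyc
    apply hcb
    have e1 := orbit_eq_iff.mpr hyb
    have e2 := orbit_eq_iff.mpr hyc
    rw [← e1, e2]
    exact mem_orbit_self c
  have hJ : (1 : Matrix Ω Ω ℤ) + orbMat G a₀ b + orbMat G a₀ c =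
      (fun _ _ => 1 : Matrix Ω Ω ℤ) := by
    apply ext_of_isInv (G := G) a₀ (isInv_add (isInv_add isInv_one hBinv) hCinv) isInv_allOnes
    intro y
    rw [Matrix.add_apply, Matrix.add_apply, Matrix.one_apply, orbMat_row, orbMat_row]
    rcases hcover y with rfl | hy | hy
    · rw [if_pos rfl, if_neg ha₀b, if_neg ha₀c]
      norm_num
    · rw [if_neg (fun (e : a₀ = y) => ha₀b (by have h' := hy; rwa [← e] at h')), if_pos hy, if_neg (hdisj y hy)]
      norm_num
    · rw [if_neg (fun (e : a₀ = y) => ha₀c (by have h' := hy; rwa [← e] at h')), if_neg (fun h => hdisj y h hy), if_pos hy]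
      norm_num
  have hBBinv : IsInv G (orbMat G a₀ b * orbMat G a₀ b) := isInv_mul hBinv hBinv
  have hrowk : ∑ y : Ω, orbMat G a₀ b a₀ y = (k : ℤ) := by
    rw [sum_orbMat_int, hkdef]
  have hBB0 : (orbMat G a₀ b * orbMat G a₀ b) a₀ a₀ = (k : ℤ) := by
    rw [Matrix.mul_apply, ← hrowk]
    refine Finset.sum_congr rfl (fun z _ => ?_)
    rw [hsymm _ hBinv z a₀, orbMat_row]
    split_ifs <;> norm_num
  generalize hlam : (orbMat G a₀ b * orbMat G a₀ b) a₀ b = lam
  generalize hmu : (orbMat G a₀ b * orbMat G a₀ b) a₀ c = mu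
  have hSRG : orbMat G a₀ b * orbMat G a₀ b =
      (k : ℤ) • (1 : Matrix Ω Ω ℤ) + lam • orbMat G a₀ b + mu • orbMat G a₀ c := by
    apply ext_of_isInv (G := G) a₀ hBBinv
      (isInv_add (isInv_add (isInv_zsmul _ isInv_one) (isInv_zsmul _ hBinv))
        (isInv_zsmul _ hCinv))
    intro y
    rw [Matrix.add_apply, Matrix.add_apply, Matrix.smul_apply, Matrix.smul_apply,
      Matrix.smul_apply, Matrix.one_apply, orbMat_row, orbMat_row]
    rcases hcover y with rfl | hy | hy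
    · rw [hBB0, if_pos rfl, if_neg ha₀b, if_neg ha₀c]
      simp
    · have e : (orbMat G a₀ b * orbMat G a₀ b) a₀ y = lam := by
        obtain ⟨h, rfl⟩ := hy
        have := hBBinv (h : G) a₀ b
        rw [mem_stabilizer_iff.mp h.2] at this
        rw [← hlam]
        exact this
      rw [e, if_neg (fun (e : a₀ = y) => ha₀b (by have h' := hy; rwa [← e] at h')), if_pos hy, if_neg (hdisj y hy)]
      simp
    · have e : (orbMat G a₀ b * orbMat G a₀ b) a₀ y = mu := by
        obtain ⟨h, rfl⟩ := hy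
        have := hBBinv (h : G) a₀ c
        rw [mem_stabilizer_iff.mp h.2] at this
        rw [← hmu]
        exact this
      rw [e, if_neg (fun (e : a₀ = y) => ha₀c (by have h' := hy; rwa [← e] at h')), if_neg (fun h => hdisj y h hy), if_pos hy]
      simp
  -- Step 4: coefficients
  have hsum3 : ∀ K : Matrix Ω Ω ℤ,
      ∑ ψ : Cfsg.IrrCharacter G, (ψ : G → ℂ) 1 * coef a₀ K (ψ : G → ℂ) =
      coef a₀ K (fun _ : G => (1 : ℂ)) + ((m : ℂ) - 1) * coef a₀ K χ₁ + (m : ℂ) * coef a₀ K χ₂ := by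
    intro K
    rw [sum_three _ (irrOne G) (⟨χ₁, h₁⟩ : Cfsg.IrrCharacter G) ⟨χ₂, h₂⟩
      (fun e => hne1 (congrArg Subtype.val e).symm) (fun e => hne2 (congrArg Subtype.val e).symm)
      (fun e => hne12 (congrArg Subtype.val e))]
    · show (1 : ℂ) * coef a₀ K (fun _ => 1) + χ₁ 1 * coef a₀ K χ₁ + χ₂ 1 * coef a₀ K χ₂ = _
      rw [hd₁, hd₂, one_mul]
    · intro ψ n0 n1 n2
      rw [coef_eq_zero a₀ K ψ.2 (hother ψ.1 ψ.2 (fun e => n0 (Subtype.ext e))
        (fun e => n1 (Subtype.ext e)) (fun e => n2 (Subtype.ext e))), mul_zero]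
  have hcoefB1 : coef a₀ (orbMat G a₀ b) (fun _ : G => (1 : ℂ)) = (k : ℂ) := by
    rw [coef_one, sum_orbMat, hkdef]
  generalize hθ₁ : coef a₀ (orbMat G a₀ b) χ₁ = θ₁ at *
  generalize hθ₂ : coef a₀ (orbMat G a₀ b) χ₂ = θ₂ at *
  have hE1 : (k : ℂ) + ((m : ℂ) - 1) * θ₁ + (m : ℂ) * θ₂ = 0 := by
    have hs := sum_degree_mul_coef (G := G) a₀ (orbMat G a₀ b)
    rw [orbMat_self G a₀ b hb, hsum3, hcoefB1, hθ₁, hθ₂] at hs
    simpa using hs
  have hcardG : (Nat.card G : ℂ) = (Nat.card (stabilizer G a₀) : ℂ) * (2 * (m : ℂ)) := by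
    have h1 := sum_smul_eq (G := G) a₀ (fun _ => (1 : ℕ))
    simp only [Finset.sum_const, Finset.card_univ, smul_eq_mul, mul_one] at h1
    rw [hm] at h1
    rw [Nat.card_eq_fintype_card (α := G)]
    exact_mod_cast h1
  have hE2 : (k : ℂ) ^ 2 + ((m : ℂ) - 1) * θ₁ ^ 2 + (m : ℂ) * θ₂ ^ 2 = 2 * (m : ℂ) * k := by
    have hs := sum_degree_mul_coef (G := G) a₀ (orbMat G a₀ b * orbMat G a₀ b)
    rw [hBB0, hsum3, coef_mul a₀ isIrrCharacter_one hi0 hBinv hBinv,
      coef_mul a₀ h₁ hi1 hBinv hBinv, coef_mul a₀ h₂ hi2 hBinv hBinv, hcoefB1, hθ₁, hθ₂,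
      hcardG] at hs
    have hc := card_stab_ne_zero (G := G) a₀
    have hs' : (k : ℂ) * k + ((m : ℂ) - 1) * (θ₁ * θ₁) + (m : ℂ) * (θ₂ * θ₂) =
        (k : ℂ) * (2 * (m : ℂ)) := by
      rw [hs]
      push_cast
      field_simp
    linear_combination hs'
  have hquad : ∀ χ : G → ℂ, Cfsg.IsIrrCharacter G χ → Cfsg.classInner (permChar G Ω) χ = 1 →
      χ ≠ (fun _ => 1) → (coef a₀ (orbMat G a₀ b) χ) ^ 2 =
        (k : ℂ) + (lam : ℂ) * coef a₀ (orbMat G a₀ b) χ +
          (mu : ℂ) * (-1 - coef a₀ (orbMat G a₀ b) χ) := by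
    intro χ hχ hi hne
    have hcf := isClassFunction_of_isCharacter (isCharacter_of_irr hχ)
    have e1 : coef a₀ (orbMat G a₀ b * orbMat G a₀ b) χ =
        coef a₀ (orbMat G a₀ b) χ * coef a₀ (orbMat G a₀ b) χ := coef_mul a₀ hχ hi hBinv hBinv
    have e2 : coef a₀ (1 : Matrix Ω Ω ℤ) χ = 1 := by
      rw [coef_one_mat a₀ hcf, hi]
      simp
    have e3 : coef a₀ ((1 : Matrix Ω Ω ℤ) + orbMat G a₀ b + orbMat G a₀ c) χ = 0 := by
      rw [hJ, coef_allOnes, Cfsg.Agent.Lib.Helper80.classInner_irr_fun isIrrCharacter_one hχ,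
        if_neg (Ne.symm hne)]
      simp
    rw [coef_add, coef_add, e2] at e3
    rw [hSRG, coef_add, coef_add, coef_zsmul, coef_zsmul, coef_zsmul, e2] at e1
    have e4 : coef a₀ (orbMat G a₀ c) χ = -1 - coef a₀ (orbMat G a₀ b) χ := by
      linear_combination e3
    rw [e4] at e1
    push_cast at e1
    linear_combination -e1
  have hq1 := hquad χ₁ h₁ hi1 hne1
  have hq2 := hquad χ₂ h₂ hi2 hne2
  rw [hθ₁] at hq1
  rw [hθ₂] at hq2
  -- Step 5: algebra
  have hmC : (m : ℂ) ≠ 0 := by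
    have : m ≠ 0 := by omega
    exact_mod_cast this
  have hlC : (l : ℂ) = 2 * (m : ℂ) - 1 - k := by
    have : ((k + l + 1 : ℕ) : ℂ) = ((2 * m : ℕ) : ℂ) := by rw [hkl]
    push_cast at this
    linear_combination this
  have hT : ((m : ℂ) - 1) * (θ₁ - θ₂) ^ 2 = 2 * k * l := by
    have h1 : (m : ℂ) * (((m : ℂ) - 1) * (θ₁ - θ₂) ^ 2 - 2 * k * (2 * m - 1 - k)) = 0 := by
      linear_combination (2 * (m : ℂ) - 1) * hE2 -
        ((k : ℂ) + ((m : ℂ) - 1) * θ₁ + (m : ℂ) * θ₂ - 2 * k) * hE1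
    have h2 := (mul_eq_zero.mp h1).resolve_left hmC
    rw [hlC]
    linear_combination h2
  have hu : θ₁ - θ₂ ≠ 0 := by
    intro h0
    rw [h0] at hT
    have hk0 : (k : ℂ) ≠ 0 := by
      have : k ≠ 0 := by omega
      exact_mod_cast this
    have hl0 : (l : ℂ) ≠ 0 := by
      have : l ≠ 0 := by omega
      exact_mod_cast this
    have : (2 : ℂ) * k * l = 0 := by rw [← hT]; ring
    have h2 : (2 : ℂ) ≠ 0 := two_ne_zero
    exact mul_ne_zero (mul_ne_zero h2 hk0) hl0 this
  have hsumθ : θ₁ + θ₂ = (lam : ℂ) - mu := by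
    have h1 : (θ₁ - θ₂) * (θ₁ + θ₂ - ((lam : ℂ) - mu)) = 0 := by
      linear_combination hq1 - hq2
    have h2 := (mul_eq_zero.mp h1).resolve_left hu
    linear_combination h2
  have huZ : θ₁ - θ₂ = ((2 * (k : ℤ) + (2 * (m : ℤ) - 1) * (lam - mu) : ℤ) : ℂ) := by
    push_cast
    linear_combination (-2 : ℂ) * hE1 + (2 * (m : ℂ) - 1) * hsumθ
  rw [huZ] at hT
  have h1Z : ((m : ℤ) - 1) * (2 * (k : ℤ) + (2 * (m : ℤ) - 1) * (lam - mu)) ^ 2 = 2 * k * l := by
    exact_mod_cast hT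
  obtain ⟨a, ha, hma, hkla⟩ := dioph m k l (lam - mu) hm2 hk2 hl2 hkl h1Z
  refine ⟨a, ha, hma, fun y hy => ?_⟩
  rcases hcover y with rfl | hyb | hyc
  · exact absurd rfl hy
  · rw [orbit_eq_iff.mpr hyb, hkdef]
    rcases hkla with ⟨h1, -⟩ | ⟨h1, -⟩
    · left; exact h1
    · right; exact h1
  · rw [orbit_eq_iff.mpr hyc, hldef]
    rcases hkla with ⟨-, h2⟩ | ⟨-, h2⟩
    · right; exact h2
    · left; exact h2

end Cfsg.Agent.S0719
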