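import Mathlib
import Cfsg.Agent.Lib.Helper5.Nse.Asm
import Cfsg.Agent.Lib.Helper25.Nse.N
import Cfsg.Agent.Lib.Helper25.Nse.Str
import Cfsg.Agent.Lib.Helper1.Nse.FP
import Cfsg.Agent.Lib.Helper1.Nse.Free
import Cfsg.Agent.Lib.Helper29.Nse.Arith1
import Cfsg.Agent.Lib.Helper29.Nse.Arith2
import Cfsg.Statements.S4004

set_option autoImplicit false
open Cfsg

namespace Cfsg.Agent.S4004

/-- Let G be a finite group of odd order in which the numbers of elements of each order that occurs (the numbers #{g : o(g) = m}, m ranging over the element orders of G) take exactly three different values. Then the order of G has at most two prime divisors; and if it has exactly two, then every Sylow subgroup of G for a prime dividing its order has prime exponent, G is a Frobenius group, and some Frobenius complement of G has prime order. -/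
theorem result {G : Type*} [Group G] [Finite G] (hodd : Odd (Nat.card G)) (h : (((fun m : ℕ => Nat.card {g : G // orderOf g = m}) '' Set.range (orderOf : G → ℕ))).ncard = 3) :
    (Nat.card G).primeFactors.card ≤ 2 ∧
      ((Nat.card G).primeFactors.card = 2 →
        (∀ (p : ℕ) [Fact p.Prime] (P : Sylow p G), p ∣ Nat.card G → Monoid.exponent ↥(P : Subgroup G) = p) ∧
        ∃ C : Subgroup G, Cfsg.IsFrobeniusComplement C ∧ (Nat.card ↥C).Prime) := by
  exact Cfsg.Agent.Lib.Helper5.Nse.s4004_of (Cfsg.Agent.Lib.Helper25.Nse.pkgStr_of Cfsg.Agent.Lib.Helper25.Nse.pkgN) Cfsg.Agent.Lib.Helper1.Nse.pkgFP Cfsg.Agent.Lib.Helper1.Nse.pkgFree Cfsg.Agent.Lib.Helper29.Nse.pkgArith1 Cfsg.Agent.Lib.Helper29.Nse.pkgArith2 hodd h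

end Cfsg.Agent.S4004
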