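import Cfsg.Statements.S0890
import Cfsg.Agent.Lib.Helper15.Mackey
import Cfsg.Agent.Lib.Helper15.ChiefFactor
import Cfsg.Agent.Lib.Helper15.QPCore
import Cfsg.Agent.Lib.Helper81.RelM

set_option autoImplicit false
open Cfsg

namespace Cfsg.Agent.S0890

open Cfsg.Agent.Lib.Helper15 in
/-- The statement with `L` replaced by the core of `H` (so that `L = core_G(H)`), by
contradiction: every normal subgroup over `L` restricts `χ` homogeneously. -/
theorem core_case {G : Type*} [Group G] [Fintype G] (H : Subgroup G) (hmax : IsCoatom H)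
    (hsolv : Group.IsSolvable (G ⧸ H.normalCore)) (ϑ : H → ℂ) (hϑ : Cfsg.IsIrrCharacter H ϑ)
    (hϑL : Cfsg.IsIrrCharacter H.normalCore
      (fun x : H.normalCore => ϑ ⟨(x : G), H.normalCore_le x.2⟩))
    (hind : Cfsg.IsIrrCharacter G (Cfsg.indFun H ϑ))
    (hQP : ∀ M : Subgroup G, M.Normal → H.normalCore ≤ M → ∃ (φ : M → ℂ) (e : ℕ),
      Cfsg.IsIrrCharacter M φ ∧ (fun m : M => Cfsg.indFun H ϑ m) = (e : ℂ) • φ) : False := by
  classical
  set C : Subgroup G := H.normalCore with hCdef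
  have hCn : C.Normal := H.normalCore_normal
  have hCH : C ≤ H := H.normalCore_le
  have hCtop : C ≠ ⊤ := by
    intro h
    apply hmax.1
    rw [eq_top_iff, ← h]
    exact hCH
  obtain ⟨K, hKn, hCK, hKC, hab, ⟨p, d, hp, hd, hcardK⟩, hmin⟩ := exists_chief_over C hCtop hsolv
  have hKH : ¬ K ≤ H := by
    intro h
    exact hKC (le_antisymm (Subgroup.normal_le_normalCore.mpr h) hCK)
  have htop : K ⊔ H = ⊤ := by
    apply hmax.2
    refine lt_of_le_of_ne le_sup_right ?_
    intro h
    apply hKH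
    rw [h]
    exact le_sup_left
  have hsurj : ∀ g : G, ∃ k ∈ K, ∃ h ∈ H, g = k * h := by
    intro g
    have hg : g ∈ ((K ⊔ H : Subgroup G) : Set G) := by
      rw [htop]
      exact Set.mem_univ g
    rw [Subgroup.normal_mul] at hg
    obtain ⟨k, hk, h, hh, rfl⟩ := Set.mem_mul.mp hg
    exact ⟨k, hk, h, hh, rfl⟩
  -- `K ∩ H = C`
  have hinf : K ⊓ H = C := by
    apply le_antisymm _ (le_inf hCK hCH)
    have hn : (K ⊓ H).Normal := by
      refine ⟨fun x hx g => ?_⟩
      obtain ⟨k, hk, h, hh, rfl⟩ := hsurj g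
      have hy : h * x * h⁻¹ ∈ K ⊓ H :=
        ⟨hKn.conj_mem x hx.1 h, H.mul_mem (H.mul_mem hh hx.2) (H.inv_mem hh)⟩
      have e : k * h * x * (k * h)⁻¹ =
          (k * (h * x * h⁻¹) * k⁻¹ * (h * x * h⁻¹)⁻¹) * (h * x * h⁻¹) := by group
      rw [e]
      have hc : k * (h * x * h⁻¹) * k⁻¹ * (h * x * h⁻¹)⁻¹ ∈ C := hab k hk _ hy.1
      exact ⟨K.mul_mem (hCK hc) hy.1, H.mul_mem (hCH hc) hy.2⟩
    exact Subgroup.normal_le_normalCore.mpr inf_le_right
  -- homogeneous restrictions to `C` and `K`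
  obtain ⟨φ', e, hφ', hL⟩ := hQP C hCn le_rfl
  obtain ⟨η, a, hη, hK⟩ := hQP K hKn hCK
  have ha : a ^ 2 = H.index :=
    sq_eq_index_of_inf_eq C H K hCH hCK hinf hsurj ϑ hϑ hϑL φ' e hφ' hL η a hη hK
  -- `|G : H| = p ^ d`
  have hidx : H.index = p ^ d := by
    have hsurj' : ∀ g : G, ∃ u : K, ∃ h ∈ H, g = K.subtype u * h := by
      intro g
      obtain ⟨k, hk, h, hh, rfl⟩ := hsurj g
      exact ⟨⟨k, hk⟩, h, hh, rfl⟩
    have : Fintype K := Fintype.ofFinite K
    have h1 : (H.comap K.subtype).index = H.index := index_comap_eq K.subtype H hsurj'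
    have h2 : (H.comap K.subtype).index = H.relIndex K := rfl
    have h3 : H.relIndex K = C.relIndex K := by
      rw [← Subgroup.inf_relIndex_right, inf_comm, hinf]
    have h4 : Nat.card C * C.relIndex K = Nat.card K := by
      have := Subgroup.relIndex_mul_relIndex ⊥ C K bot_le hCK
      rwa [Subgroup.relIndex_bot_left, Subgroup.relIndex_bot_left] at this
    rw [hcardK] at h4
    rw [← h1, h2, h3]
    exact Nat.eq_of_mul_eq_mul_left Nat.card_pos h4
  by_cases hCeq : C = H
  · -- `H` normal: then `K = G`, and `a² = 1`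
    have hHK : H ≤ K := by
      rw [← hCeq]
      exact hCK
    have hKtop : K = ⊤ := by
      rw [← htop]
      exact (sup_of_le_left hHK).symm
    subst hKtop
    have : Fintype (⊤ : Subgroup G) := Fintype.ofFinite _
    have h1 : Cfsg.classInner (fun k : (⊤ : Subgroup G) => Cfsg.indFun H ϑ k)
        (fun k : (⊤ : Subgroup G) => Cfsg.indFun H ϑ k) = 1 := by
      have := classInner_comp_equiv' (Subgroup.topEquiv (G := G)).toEquiv (Cfsg.indFun H ϑ)
        (Cfsg.indFun H ϑ)
      rw [Cfsg.Agent.Lib.Helper80.classInner_self hind] at this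
      exact this
    rw [hK, classInner_smul_smul_self hη] at h1
    have h2 : a ^ 2 = 1 := by exact_mod_cast h1
    rw [ha] at h2
    exact hmax.1 (Subgroup.index_eq_one.mp h2)
  · -- a chief factor `Q / C` of `H`
    have hC'top : C.subgroupOf H ≠ ⊤ := by
      intro h
      exact hCeq (le_antisymm hCH (Subgroup.subgroupOf_eq_top.mp h))
    have hsolvH : Group.IsSolvable (H ⧸ C.subgroupOf H) :=
      Cfsg.Agent.Lib.Helper81.solvable_quot_subgroupOf C hsolv H
    obtain ⟨Q', hQ'n, hCQ', hQ'C, -, ⟨q, f, hq, hf, hcardQ'⟩, -⟩ :=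
      exists_chief_over (C.subgroupOf H) hC'top hsolvH
    set Q : Subgroup G := Q'.map H.subtype with hQdef
    have hQH' : Q ≤ H := Subgroup.map_subtype_le Q'
    have hCQ : C ≤ Q := by
      intro c hc
      exact ⟨⟨c, hCH hc⟩, hCQ' (Subgroup.mem_subgroupOf.mpr hc), rfl⟩
    have hQH : ∀ h ∈ H, ∀ x ∈ Q, h * x * h⁻¹ ∈ Q := by
      rintro h hh _ ⟨x', hx', rfl⟩
      exact ⟨⟨h, hh⟩ * x' * ⟨h, hh⟩⁻¹, hQ'n.conj_mem x' hx' ⟨h, hh⟩, rfl⟩
    have hQC : Q ≠ C := by
      intro h
      apply hQ'C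
      rw [← Subgroup.comap_map_eq_self_of_injective H.subtype_injective Q', ← hQdef, h]
      rfl
    have hcardQ : Nat.card Q = Nat.card C * q ^ f := by
      rw [hQdef, Subgroup.card_map_of_injective H.subtype_injective, hcardQ',
        Nat.card_congr (Subgroup.subgroupOfEquivOfLe hCH).toEquiv]
    have hc : ∀ k ∈ K, ∀ x ∈ Q, k * x * k⁻¹ * x⁻¹ ∈ C := by
      by_cases hpq : q = p
      · subst hpq
        obtain ⟨k₀, hk₀, hk₀L, hc₀⟩ := exists_central_mod C K hCK Q hCQ hq hd hcardK hcardQ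
        exact commutator_le_of_minimal C K hCK hab hmin H Q hsurj hQH k₀ hk₀ hk₀L hc₀
      · -- coprime case
        have hMn : (K ⊔ Q).Normal := by
          refine ⟨fun x hx g => ?_⟩
          have hx' : x ∈ ((K ⊔ Q : Subgroup G) : Set G) := hx
          rw [Subgroup.normal_mul] at hx'
          obtain ⟨k₁, hk₁, q₁, hq₁, rfl⟩ := Set.mem_mul.mp hx'
          obtain ⟨k, hk, h, hh, rfl⟩ := hsurj g
          have hy : h * q₁ * h⁻¹ ∈ Q := hQH h hh q₁ hq₁
          have e : k * h * (k₁ * q₁) * (k * h)⁻¹ =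
              ((k * h) * k₁ * (k * h)⁻¹) * (k * ((h * q₁ * h⁻¹) * k⁻¹ * (h * q₁ * h⁻¹)⁻¹)) *
                (h * q₁ * h⁻¹) := by group
          rw [e]
          refine Subgroup.mul_mem _ (Subgroup.mem_sup_left ?_) (Subgroup.mem_sup_right hy)
          exact K.mul_mem (hKn.conj_mem k₁ hk₁ _)
            (K.mul_mem hk (hKn.conj_mem _ (K.inv_mem hk) _))
        obtain ⟨ζ, b, hζ, hM⟩ := hQP (K ⊔ Q) hMn (le_trans hCK le_sup_left)
        have hrel : K.relIndex (K ⊔ Q) = q ^ f := by
          have hinfQ : K ⊓ Q = C := by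
            apply le_antisymm _ (le_inf hCK hCQ)
            rw [← hinf]
            exact inf_le_inf_left K hQH'
          have h4 : Nat.card C * C.relIndex Q = Nat.card Q := by
            have := Subgroup.relIndex_mul_relIndex ⊥ C Q bot_le hCQ
            rwa [Subgroup.relIndex_bot_left, Subgroup.relIndex_bot_left] at this
          rw [hcardQ] at h4
          rw [Subgroup.relIndex_sup_left, ← Subgroup.inf_relIndex_right, hinfQ]
          exact Nat.eq_of_mul_eq_mul_left Nat.card_pos h4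
        have hcop : Nat.Coprime H.index (K.relIndex (K ⊔ Q)) := by
          rw [hidx, hrel]
          exact Nat.Coprime.pow _ _ ((Nat.coprime_primes hp hq).mpr (fun h => hpq h.symm))
        have hnormal := normal_inter_of_coprime C H K (K ⊔ Q) hCH (le_trans hCK le_sup_left)
          le_sup_left hsurj ϑ hϑ hϑL η a hη hK ha ζ b hζ hM hcop
        intro k hk x hx
        have h1 : k * x * k⁻¹ ∈ H :=
          hnormal k (Subgroup.mem_sup_left hk) x (Subgroup.mem_sup_right hx) (hQH' hx)
        have h2 : k * x * k⁻¹ * x⁻¹ ∈ K ⊓ H := by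
          refine ⟨?_, H.mul_mem h1 (H.inv_mem (hQH' hx))⟩
          have e : k * x * k⁻¹ * x⁻¹ = k * (x * k⁻¹ * x⁻¹) := by group
          rw [e]
          exact K.mul_mem hk (hKn.conj_mem _ (K.inv_mem hk) x)
        rw [hinf] at h2
        exact h2
    have hQle : Q ≤ H.normalCore := le_normalCore_of_commutator_le C K H Q hCQ hQH' hsurj hQH hc
    exact hQC (le_antisymm hQle hCQ)

/-- Let L ≤ H < G with L normal in G, H a maximal subgroup and G / L solvable. Let ϑ be an irreducible character of H whose restriction to L is irreducible and whose induction χ to G is irreducible. Then there is a normal subgroup M of G containing L such that the restriction of χ to M is not a natural-number multiple of a single irreducible character of M. -/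
theorem result {G : Type*} [Group G] [Fintype G] (L H : Subgroup G) [L.Normal] (hLH : L ≤ H) (hmax : IsCoatom H) (hsolv : Group.IsSolvable (G ⧸ L)) (ϑ : H → ℂ) (hϑ : Cfsg.IsIrrCharacter H ϑ) (hϑL : Cfsg.IsIrrCharacter L (fun x : L => ϑ ⟨(x : G), hLH x.2⟩)) (hind : Cfsg.IsIrrCharacter G (Cfsg.indFun H ϑ)) : ∃ M : Subgroup G, M.Normal ∧ L ≤ M ∧ ¬ ∃ (φ : M → ℂ) (e : ℕ), Cfsg.IsIrrCharacter M φ ∧ (fun m : M => Cfsg.indFun H ϑ m) = (e : ℂ) • φ := by
  classical
  by_contra hcon
  have hQP : ∀ M : Subgroup G, M.Normal → L ≤ M → ∃ (φ : M → ℂ) (e : ℕ),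
      Cfsg.IsIrrCharacter M φ ∧ (fun m : M => Cfsg.indFun H ϑ m) = (e : ℂ) • φ := by
    intro M hM hLM
    by_contra h
    exact hcon ⟨M, hM, hLM, h⟩
  have hLC : L ≤ H.normalCore := Subgroup.normal_le_normalCore.mpr hLH
  have : Fintype H.normalCore := Fintype.ofFinite _
  have : Fintype L := Fintype.ofFinite _
  have hϑc := Cfsg.Agent.Lib.Helper80.isCharacter_of_isIrrCharacter hϑ
  have hϑC : Cfsg.IsIrrCharacter H.normalCore
      (fun x : H.normalCore => ϑ ⟨(x : G), H.normalCore_le x.2⟩) :=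
    Cfsg.Agent.Lib.Helper15.isIrrCharacter_of_comp (Subgroup.inclusion hLC)
      (Cfsg.Agent.Lib.Helper80.isCharacter_comp (Subgroup.inclusion H.normalCore_le) hϑc) hϑL
  have hsolvC : Group.IsSolvable (G ⧸ H.normalCore) := by
    have hker : L ≤ (QuotientGroup.mk' H.normalCore).ker := by
      rw [QuotientGroup.ker_mk']
      exact hLC
    apply Group.isSolvable_of_surjective (f := QuotientGroup.lift L (QuotientGroup.mk' H.normalCore) hker)
    intro x
    induction x using QuotientGroup.induction_on with | H g => ?_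
    exact ⟨(g : G ⧸ L), rfl⟩
  exact core_case H hmax hsolvC ϑ hϑ hϑC hind
    (fun M hM hCM => hQP M hM (le_trans hLC hCM))

end Cfsg.Agent.S0890
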