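import Mathlib
import Cfsg.Statements.S0958
import Cfsg.Agent.Lib.Helper16.FirstMain

set_option autoImplicit false
open Cfsg

namespace Cfsg.Agent.S0958

open Cfsg.Agent.Lib.Helper16

/-- Let P be a p-subgroup of the finite group G and H a subgroup with P ⊔ C_G(P) ≤ H ≤ N_G(P); fix a maximal ideal M of the algebraic integers containing p. Then a block B of G is induced by some block of H if and only if some conjugate of P is contained in a defect group of B. -/
theorem result {G : Type*} [Group G] [Finite G] (p : ℕ) [Fact p.Prime] (M : Ideal Cfsg.AlgInt) (hM : Cfsg.IsPModular p M) (P H : Subgroup G) (hP : IsPGroup p P) (hPH : P ⊔ Subgroup.centralizer (P : Set G) ≤ H) (hHN : H ≤ Subgroup.normalizer (P : Set G)) (B : Set (Cfsg.IrrCharacter G)) (hB : Cfsg.IsPBlock M B) : (∃ b : Set (Cfsg.IrrCharacter H), Cfsg.IsInducedBlock M H b B) ↔ ∃ D : Subgroup G, Cfsg.IsDefectGroup p M B D ∧ ∃ x : G, P.map (MulAut.conj x).toMonoidHom ≤ D := by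
  classical
  have : Fintype G := Fintype.ofFinite G
  have : Fintype H := Fintype.ofFinite H
  have hMp := isPrime_of_isPModular hM
  have hPH' : P ≤ H := le_trans le_sup_left hPH
  have hCH : Subgroup.centralizer (P : Set G) ≤ H := le_trans le_sup_right hPH
  constructor
  · rintro ⟨b, hb, -, hind⟩
    obtain ⟨ξ0, hξ0⟩ := IsPBlock.nonempty hMp hb
    obtain ⟨χ0, hχ0⟩ := IsPBlock.nonempty hMp hB
    obtain ⟨g0, hg0⟩ := Cfsg.Agent.Lib.Helper77.exists_isDefectClass hMp B hB
    have h1 := hind ξ0 hξ0 χ0 hχ0 g0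
    have h2 := inducedCentralChar_sub_brauer hM P H hP hPH' hHN ξ0 g0
    have h3 : ¬ Cfsg.MemLocalIdeal M (Cfsg.brauerCentralChar P H (ξ0 : H → ℂ) g0) := by
      intro hcon
      apply hg0.2.2 χ0 hχ0
      have e : Cfsg.centralChar (χ0 : G → ℂ) g0 = Cfsg.brauerCentralChar P H (ξ0 : H → ℂ) g0 +
          (Cfsg.inducedCentralChar H (ξ0 : H → ℂ) g0 -
            Cfsg.brauerCentralChar P H (ξ0 : H → ℂ) g0) -
          (Cfsg.inducedCentralChar H (ξ0 : H → ℂ) g0 - Cfsg.centralChar (χ0 : G → ℂ) g0) := by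
        ring
      rw [e]
      exact memLocalIdeal_sub hMp (memLocalIdeal_add hMp hcon h2) h1
    have h4 : ∃ h : H, IsConj g0 (h : G) ∧ (h : G) ∈ Subgroup.centralizer (P : Set G) := by
      by_contra hcon
      push Not at hcon
      apply h3
      unfold Cfsg.brauerCentralChar
      rw [finsum_mem_eq_sum_ite, Finset.sum_eq_zero]
      · exact memLocalIdeal_zero hMp
      · intro h _
        rw [if_neg]
        intro hh
        exact hcon h hh.1 hh.2
    obtain ⟨h, hh1, hh2⟩ := h4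
    obtain ⟨t, ht⟩ := isConj_iff.mp hh1
    have hdef : Cfsg.IsDefectClass M B (h : G) :=
      ht ▸ Cfsg.Agent.Lib.Helper77.isDefectClass_conj hg0 t
    obtain ⟨Q, hQ⟩ := Cfsg.Agent.Lib.Helper77.exists_sylow_centralizer_ge p P hP (h : G)
      (fun r hr => Subgroup.mem_centralizer_iff.mp hh2 r hr)
    refine ⟨_, ⟨(h : G), hdef, Q, rfl⟩, 1, ?_⟩
    have : P.map (MulAut.conj (1 : G)).toMonoidHom = P := by
      ext y; simp
    rw [this]
    exact hQ
  · rintro ⟨D, ⟨g0, hg0, Q, rfl⟩, x, hx⟩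
    have hg1 : x⁻¹ * g0 * x ∈ Subgroup.centralizer (P : Set G) := by
      rw [Subgroup.mem_centralizer_iff]
      intro u hu
      have hmem : x * u * x⁻¹ ∈ P.map (MulAut.conj x).toMonoidHom := ⟨u, hu, rfl⟩
      obtain ⟨d, -, hd⟩ := hx hmem
      have hd2 := Subgroup.mem_centralizer_iff.mp d.2 g0 (Set.mem_singleton g0)
      have hd3 : g0 * (x * u * x⁻¹) = (x * u * x⁻¹) * g0 := by rw [← hd]; exact hd2
      calc u * (x⁻¹ * g0 * x) = x⁻¹ * ((x * u * x⁻¹) * g0) * x := by group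
        _ = x⁻¹ * (g0 * (x * u * x⁻¹)) * x := by rw [hd3]
        _ = x⁻¹ * g0 * x * u := by group
    have hdef : Cfsg.IsDefectClass M B (x⁻¹ * g0 * x) := by
      have := Cfsg.Agent.Lib.Helper77.isDefectClass_conj hg0 x⁻¹
      rwa [inv_inv] at this
    obtain ⟨ξ, hξ, -⟩ := exists_isInducedBlock hM P H hP hPH' hCH hHN B hB _ hg1 hdef.2.1
    exact ⟨_, hξ⟩

end Cfsg.Agent.S0958
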