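import Cfsg.Statements.S0928
import Cfsg.Agent.Lib.Helper78.CentralP
import Cfsg.Agent.Lib.Helper78.CentralCalc
import Cfsg.Agent.S0958
import Cfsg.Agent.S0165

set_option autoImplicit false
open Cfsg

namespace Cfsg.Agent.S0928

/-- Let χ be an irreducible character of the finite group G and p a prime. If χ g = 0 for every element g of order p, then the exponent of p in the degree χ(1) equals the exponent of p in the order of G (χ has p-defect zero). -/
theorem result {G : Type*} [Group G] [Finite G] (p : ℕ) [Fact p.Prime] (χ : Cfsg.IrrCharacter G) (hvan : ∀ g : G, orderOf g = p → (χ : G → ℂ) g = 0) : (Cfsg.charDegree (χ : G → ℂ)).factorization p = (Nat.card G).factorization p := by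
  classical
  have := Fintype.ofFinite G
  have hp := (Fact.out : p.Prime)
  obtain ⟨M, hMmax, hpM⟩ := Cfsg.Agent.S0165.exists_maximal_ideal_natCast_mem p hp.one_lt
  have hM : Cfsg.IsPModular p M := ⟨hp, hMmax, hpM⟩
  have hP := Cfsg.Agent.Lib.Helper16.isPrime_of_isPModular hM
  obtain ⟨B, hBdef⟩ : ∃ B, B = Cfsg.blockOf M (χ : G → ℂ) := ⟨_, rfl⟩
  have hB : Cfsg.IsPBlock M B := ⟨χ, hBdef⟩
  have hχB : χ ∈ B := by rw [hBdef]; exact Cfsg.Agent.Lib.Helper16.mem_blockOf_self hP χ
  obtain ⟨D, hD⟩ := Cfsg.Agent.Lib.Helper77.exists_isDefectGroup p hP B hB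
  have hcard := Cfsg.Agent.Lib.Helper77.card_isDefectGroup hM B hB D hD
  obtain ⟨h1, hpos, hdvd⟩ := Cfsg.Agent.Lib.Helper79.irr_charDegree χ.2
  have hs : (Cfsg.charDegree (χ : G → ℂ)).factorization p ≤ (Nat.card G).factorization p :=
    (Nat.factorization_le_iff_dvd hpos.ne' Nat.card_pos.ne').2 hdvd p
  have hmem : (Cfsg.charDegree (χ : G → ℂ)).factorization p ∈
      ((fun χ : Cfsg.IrrCharacter G => (Cfsg.charDegree (χ : G → ℂ)).factorization p) '' B) :=
    ⟨χ, hχB, rfl⟩
  have hle := Nat.sInf_le hmem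
  by_cases hd : Cfsg.blockDefect p B = 0
  · unfold Cfsg.blockDefect at hd
    omega
  · exfalso
    have hpD : p ∣ Nat.card D := by rw [hcard]; exact dvd_pow_self p hd
    obtain ⟨z, hz⟩ := exists_prime_orderOf_dvd_card' p hpD
    have hzG : orderOf (z : G) = p := by rw [Subgroup.orderOf_coe]; exact hz
    obtain ⟨Pz, hPz⟩ : ∃ Pz : Subgroup G, Pz = Subgroup.zpowers (z : G) := ⟨_, rfl⟩
    obtain ⟨H, hH⟩ : ∃ H : Subgroup G, H = Subgroup.centralizer (Pz : Set G) := ⟨_, rfl⟩
    have hPg : IsPGroup p Pz := by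
      apply IsPGroup.of_card (n := 1)
      rw [hPz, Nat.card_zpowers, hzG, pow_one]
    have hPle : Pz ≤ D := by rw [hPz]; exact Subgroup.zpowers_le.2 z.2
    have hzP : (z : G) ∈ Pz := by rw [hPz]; exact Subgroup.mem_zpowers _
    have hPcomm : Pz ≤ Subgroup.centralizer (Pz : Set G) := by
      intro g hg
      rw [Subgroup.mem_centralizer_iff]
      intro h hh
      rw [hPz] at hg hh
      obtain ⟨i, rfl⟩ := Subgroup.mem_zpowers_iff.1 hg
      obtain ⟨j, rfl⟩ := Subgroup.mem_zpowers_iff.1 hh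
      exact (zpow_mul_comm _ _ _)
    have hPH : Pz ⊔ Subgroup.centralizer (Pz : Set G) ≤ H := by
      rw [hH]; exact sup_le hPcomm le_rfl
    have hHN : H ≤ Subgroup.normalizer (Pz : Set G) := by
      rw [hH]; exact Subgroup.centralizer_le_normalizer _
    obtain ⟨b, hb⟩ := (Cfsg.Agent.S0958.result p M hM Pz H hPg hPH hHN B hB).2
      ⟨D, hD, 1, by
        have e : Pz.map (MulAut.conj (1 : G)).toMonoidHom = Pz := by
          ext g
          simp
        rw [e]; exact hPle⟩
    have : Fintype H := Fintype.ofFinite H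
    obtain ⟨ψ, hψ⟩ := Cfsg.Agent.Lib.Helper16.IsPBlock.nonempty hP hb.1
    have hind := fun g => hb.2.2 ψ hψ χ hχB g
    have hχcl : Cfsg.IsClassFunction G (χ : G → ℂ) := fun g h =>
      Cfsg.Agent.Lib.Helper16.irrCharacter_conj_eq χ h g
    obtain ⟨a, ha⟩ : ∃ a : G → ℂ, a = fun g => if g ^ p = 1 then 1 else 0 := ⟨_, rfl⟩
    have hacl : Cfsg.IsClassFunction G a := by
      intro g h
      rw [ha]
      show (if (h * g * h⁻¹) ^ p = 1 then (1 : ℂ) else 0) = if g ^ p = 1 then 1 else 0
      rw [conj_pow, conj_eq_one_iff]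
    have haR : ∀ g, Cfsg.MemLocalRing M (a g) := by
      intro g
      rw [ha]
      by_cases hg : g ^ p = 1
      · simp only [hg, if_true]; exact Cfsg.Agent.Lib.Helper16.memLocalRing_one hP
      · simp only [hg, if_false]; exact Cfsg.Agent.Lib.Helper16.memLocalRing_zero hP
    have key := Cfsg.Agent.Lib.Helper78.memLocalIdeal_omegaF_restrict_sub hP H
      (ψ : H → ℂ) (χ : G → ℂ) hχcl hind haR hacl
    have hχ1 : (χ : G → ℂ) 1 ≠ 0 := by
      rw [h1]; exact_mod_cast hpos.ne'
    have e1 : Cfsg.Agent.Lib.Helper77.omegaF (χ : G → ℂ) a = 1 := by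
      unfold Cfsg.Agent.Lib.Helper77.omegaF
      have hterm : ∀ g : G, a g * (χ : G → ℂ) g = if g = 1 then (χ : G → ℂ) 1 else 0 := by
        intro g
        rw [ha]
        by_cases hg : g ^ p = 1
        · by_cases hg1 : g = 1
          · simp [hg1]
          · have ho : orderOf g = p := orderOf_eq_prime hg hg1
            simp [hg, hg1, hvan g ho]
        · have hg1 : g ≠ 1 := by rintro rfl; exact hg (one_pow p)
          simp [hg, hg1]
      rw [Finset.sum_congr rfl (fun g _ => hterm g), Finset.sum_ite_eq' Finset.univ (1 : G),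
        if_pos (Finset.mem_univ _), div_self hχ1]
    obtain ⟨n, ρ, hirr, hρ⟩ := ψ.2
    have hzH : (z : G) ∈ H := by rw [hH]; exact hPcomm hzP
    have hzcen : ∀ g : H, (⟨(z : G), hzH⟩ : H) * g = g * ⟨(z : G), hzH⟩ := by
      intro g
      apply Subtype.ext
      have hg : (g : G) ∈ Subgroup.centralizer (Pz : Set G) := hH ▸ g.2
      rw [Subgroup.mem_centralizer_iff] at hg
      exact hg _ hzP
    have hzHo : orderOf (⟨(z : G), hzH⟩ : H) = p := by
      rw [← Subgroup.orderOf_coe]; exact hzG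
    have e2 := Cfsg.Agent.Lib.Helper78.memLocalIdeal_sum_pow_eq_one hM ρ hirr
      ⟨(z : G), hzH⟩ hzcen hzHo
    have e3 : Cfsg.MemLocalIdeal M
        (Cfsg.Agent.Lib.Helper77.omegaF (ψ : H → ℂ) (fun k : H => a (k : G))) := by
      convert e2 using 1
      unfold Cfsg.Agent.Lib.Helper77.omegaF
      rw [hρ, ha]
      congr 1
      refine Finset.sum_congr rfl fun k _ => ?_
      congr 1
      have hiff : (k : G) ^ p = 1 ↔ k ^ p = 1 := by
        rw [← Subgroup.coe_pow, OneMemClass.coe_eq_one]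
      by_cases hk : k ^ p = 1
      · rw [if_pos hk]
        show (if (k : G) ^ p = 1 then (1 : ℂ) else 0) = 1
        rw [if_pos (hiff.2 hk)]
      · rw [if_neg hk]
        show (if (k : G) ^ p = 1 then (1 : ℂ) else 0) = 0
        rw [if_neg (fun h => hk (hiff.1 h))]
    rw [e1] at key
    have hfin := Cfsg.Agent.Lib.Helper16.memLocalIdeal_sub hP e3 key
    rw [sub_sub_cancel] at hfin
    exact Cfsg.Agent.Lib.Helper16.not_memLocalIdeal_one hP hfin

end Cfsg.Agent.S0928
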