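import Mathlib
import Cfsg.Statements.S0944

set_option autoImplicit false
open Cfsg

namespace Cfsg.Agent.S0944

lemma charDegree_character {G : Type*} [Group G] (n : ℕ) (ρ : Representation ℂ G (Fin n → ℂ)) :
    Cfsg.charDegree ρ.character = n := by
  unfold Cfsg.charDegree
  rw [Representation.char_one]
  simp

/-- Let χ be an irreducible character of the finite group G and u an involution. Then χ u is a rational integer n with n ≡ χ 1 (mod 2). -/
theorem result {G : Type*} [Group G] [Finite G] (χ : Cfsg.IrrCharacter G) (u : G) (hu : orderOf u = 2) : ∃ n : ℤ, (χ : G → ℂ) u = (n : ℂ) ∧ (2 : ℤ) ∣ (Cfsg.charDegree (χ : G → ℂ) : ℤ) - n := by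
  obtain ⟨χ, n, ρ, _, rfl⟩ := χ
  have hu2 : u ^ 2 = 1 := by rw [← hu]; exact pow_orderOf_eq_one u
  have hT : ρ u * ρ u = 1 := by
    rw [← map_mul, ← pow_two, hu2, map_one]
  set T : (Fin n → ℂ) →ₗ[ℂ] (Fin n → ℂ) := ρ u with hTdef
  set P : (Fin n → ℂ) →ₗ[ℂ] (Fin n → ℂ) := (2 : ℂ)⁻¹ • (1 + T) with hP
  have hidem : IsIdempotentElem P := by
    unfold IsIdempotentElem
    rw [hP, smul_mul_smul_comm, mul_add, add_mul, add_mul, hT, one_mul, one_mul, mul_one]
    rw [show (1 : (Fin n → ℂ) →ₗ[ℂ] (Fin n → ℂ)) + T + (T + 1) = (2 : ℂ) • (1 + T) by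
      rw [two_smul]; abel]
    rw [smul_smul]
    congr 1
    norm_num
  have htr := ((LinearMap.isProj_range_iff_isIdempotentElem P).mpr hidem).trace
  have hTP : T = (2 : ℂ) • P - 1 := by
    rw [hP, smul_smul]
    norm_num
  refine ⟨2 * (Module.finrank ℂ (LinearMap.range P) : ℤ) - n, ?_, ?_⟩
  · show LinearMap.trace ℂ (Fin n → ℂ) T = _
    rw [hTP, map_sub, map_smul, htr, LinearMap.trace_one]
    simp
  · show (2 : ℤ) ∣ (Cfsg.charDegree ρ.character : ℤ) - _
    rw [charDegree_character]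
    exact ⟨n - (Module.finrank ℂ (LinearMap.range P) : ℤ), by ring⟩

end Cfsg.Agent.S0944
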