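import Mathlib
import Cfsg.Statements.S1692
import Cfsg.Agent.Lib.Helper56.TCCox
import Cfsg.Agent.Lib.Helper56.TCCoxG
import Cfsg.Agent.Lib.Helper56.ON122760.Cert
-- import your own Cfsg.Agent.* helpers here

set_option autoImplicit false
open Cfsg

namespace Cfsg.Agent.S1692

open Cfsg.Agent.Lib.Helper56.TC Cfsg.Agent.Lib.Helper56.ON122760 in
/-- In the presented O'Nan group (generators g, a, b, c, d, e, f), the subgroup generated by the images of a, …, f has index 122760. -/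
theorem result : (((Subgroup.closure ({Cfsg.Spor.ON.a, Cfsg.Spor.ON.b, Cfsg.Spor.ON.c, Cfsg.Spor.ON.d, Cfsg.Spor.ON.e, Cfsg.Spor.ON.f} : Set (FreeGroup Cfsg.Spor.ON.Gen))).map (PresentedGroup.mk (Cfsg.Spor.coxRelators Cfsg.Spor.ON.edges ∪ {r | r ∈ Cfsg.Spor.ON.extra})))).index = 122760 := by
  have hS : (({Cfsg.Spor.ON.a, Cfsg.Spor.ON.b, Cfsg.Spor.ON.c, Cfsg.Spor.ON.d, Cfsg.Spor.ON.e, Cfsg.Spor.ON.f} : Set (FreeGroup Cfsg.Spor.ON.Gen))) = {r | r ∈ [Cfsg.Spor.ON.a, Cfsg.Spor.ON.b, Cfsg.Spor.ON.c, Cfsg.Spor.ON.d, Cfsg.Spor.ON.e, Cfsg.Spor.ON.f]} := by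
    ext r; simp
  rw [hS]
  obtain ⟨h1, h2⟩ := cox_mainG Cfsg.Spor.ON.edges Cfsg.Spor.ON.extra T [Cfsg.Spor.ON.Gen.g, Cfsg.Spor.ON.Gen.a, Cfsg.Spor.ON.Gen.b, Cfsg.Spor.ON.Gen.c, Cfsg.Spor.ON.Gen.d, Cfsg.Spor.ON.Gen.e, Cfsg.Spor.ON.Gen.f] [Cfsg.Spor.ON.Gen.g] [Cfsg.Spor.ON.a, Cfsg.Spor.ON.b, Cfsg.Spor.ON.c, Cfsg.Spor.ON.d, Cfsg.Spor.ON.e, Cfsg.Spor.ON.f] cert
    (by decide +kernel) (by decide) (by decide) (by intro x; cases x <;> decide)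
    (by intro x; cases x <;> decide) (by decide) (by intro x; cases x <;> decide +kernel)
    (by decide +kernel) (by decide +kernel)
  exact h1

end Cfsg.Agent.S1692
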