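import Mathlib
import Cfsg.Statements.S1452
import Cfsg.Agent.S0130
import Cfsg.Agent.Lib.Helper38.PChain
import Cfsg.Agent.Lib.Helper24.ElemAb

set_option autoImplicit false
open Cfsg

namespace Cfsg.Agent.S1452

open Cfsg.Agent.Lib.Helper24

/-- Let p be an odd prime and R a finite p-group containing an elementary abelian subgroup of order p ^ 3. If E is a normal elementary abelian subgroup of R of order p ^ 2, then E ≤ A for some normal subgroup A of R with C_R(A) = A that contains an elementary abelian subgroup of order p ^ 3. -/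
theorem result {R : Type*} [Group R] [Finite R] (p : ℕ) [Fact p.Prime] (hp : p ≠ 2) (hR : IsPGroup p R) (hr : ¬ Cfsg.PRankLE p 2 R)
    (E : Subgroup R) [E.Normal] (hE : Cfsg.IsElementaryAbelian p E) (hE2 : Nat.card E = p ^ 2) :
    ∃ A : Subgroup R, E ≤ A ∧ A.Normal ∧ Subgroup.centralizer (A : Set R) = A ∧ ¬ Cfsg.PRankLE p 2 A := by
  classical
  have hp' : p.Prime := Fact.out
  have : Group.IsNilpotent R := hR.isNilpotent
  obtain ⟨hEc, hEe⟩ := hE
  have hcE : ∀ x ∈ E, ∀ y ∈ E, x * y = y * x := fun x hx y hy =>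
    congrArg Subtype.val (hEc.is_comm.comm ⟨x, hx⟩ ⟨y, hy⟩)
  unfold Cfsg.PRankLE at hr
  push Not at hr
  obtain ⟨A', hA'c, hA'e, hA'card⟩ := hr
  have hcA' : ∀ x ∈ A', ∀ y ∈ A', x * y = y * x := fun x hx y hy =>
    congrArg Subtype.val (hA'c.is_comm.comm ⟨x, hx⟩ ⟨y, hy⟩)
  obtain ⟨a, haA, haE, haC⟩ := exists_centralizing hR E hE2 A' hcA' hA'card
  -- a maximal normal elementary abelian subgroup containing E
  let S : Type _ := {B : Subgroup R // B.Normal ∧ (∀ x ∈ B, ∀ y ∈ B, x * y = y * x) ∧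
    (∀ b ∈ B, b ^ p = 1) ∧ E ≤ B}
  have hne : Nonempty S := ⟨⟨E, inferInstance, hcE, hEe, le_rfl⟩⟩
  obtain ⟨⟨A₁, hA₁n, hA₁c, hA₁e, hEA₁⟩, hmax₁⟩ :=
    Finite.exists_max (fun B : S => Nat.card (B.1 : Subgroup R))
  have := hA₁n
  have hA₁E : A₁ ≠ E := by
    intro h
    have h1 : a ∈ A₁ := by
      refine Cfsg.Agent.S0130.result hR 1 ?_ A₁ ⟨⟨fun u v => Subtype.ext (hA₁c u u.2 v v.2)⟩⟩
        (fun b hb => by rw [pow_one]; exact hA₁e b hb) ?_ a (by rw [h]; exact haC)
        (by rw [pow_one]; exact hA'e a haA)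
      · rw [pow_one]; exact hp
      · intro B hBn hBc hBe hA₁B
        have hcB : ∀ x ∈ B, ∀ y ∈ B, x * y = y * x := fun x hx y hy =>
          congrArg Subtype.val (hBc.is_comm.comm ⟨x, hx⟩ ⟨y, hy⟩)
        have h2 := hmax₁ ⟨B, hBn, hcB, fun b hb => by simpa using hBe b hb, hEA₁.trans hA₁B⟩
        exact (Subgroup.eq_of_le_of_card_ge hA₁B h2).symm
    rw [h] at h1
    exact haE h1
  have hcard₁ : p ^ 2 < Nat.card A₁ := by
    rw [← hE2]
    exact Cfsg.Agent.Lib.Helper1.card_lt_card_of_lt (lt_of_le_of_ne hEA₁ (Ne.symm hA₁E))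
  -- a maximal normal abelian subgroup containing A₁
  let S' : Type _ := {B : Subgroup R // B.Normal ∧ (∀ x ∈ B, ∀ y ∈ B, x * y = y * x) ∧ A₁ ≤ B}
  have hne' : Nonempty S' := ⟨⟨A₁, hA₁n, hA₁c, le_rfl⟩⟩
  obtain ⟨⟨A, hAn, hAc, hA₁A⟩, hmax⟩ :=
    Finite.exists_max (fun B : S' => Nat.card (B.1 : Subgroup R))
  have := hAn
  have hAC : A ≤ Subgroup.centralizer (A : Set R) := by
    intro x hx
    rw [Subgroup.mem_centralizer_iff]
    intro y hy
    exact hAc y hy x hx
  refine ⟨A, hEA₁.trans hA₁A, hAn, ?_, ?_⟩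
  · by_contra hne2
    have hCn : (Subgroup.centralizer (A : Set R)).Normal := inferInstance
    obtain ⟨x, hxC, hxA, hx⟩ := Cfsg.Agent.Lib.Helper38.exists_central_mod A
      (Nat.card (Subgroup.centralizer (A : Set R))) (Subgroup.centralizer (A : Set R)) hCn hAC
      (fun h => hne2 h.symm) le_rfl
    have hxa : ∀ e ∈ A, x * e = e * x := fun e he =>
      ((Subgroup.mem_centralizer_iff.mp hxC) e he).symm
    have hB := hmax ⟨A ⊔ Subgroup.zpowers x, sup_zpowers_normal A x hx,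
      sup_zpowers_comm A x hAc hxa, hA₁A.trans le_sup_left⟩
    have h3 : A = A ⊔ Subgroup.zpowers x := Subgroup.eq_of_le_of_card_ge le_sup_left hB
    apply hxA
    rw [h3]
    exact le_sup_right (a := A) (Subgroup.mem_zpowers x)
  · intro h
    have h1 := h (A₁.subgroupOf A)
      ⟨⟨fun u v => Subtype.ext (Subtype.ext (hA₁c u.1 (Subgroup.mem_subgroupOf.mp u.2)
        v.1 (Subgroup.mem_subgroupOf.mp v.2)))⟩⟩
      (fun b hb => Subtype.ext (by
        have := hA₁e b.1 (Subgroup.mem_subgroupOf.mp hb)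
        simpa using this))
    rw [Cfsg.Agent.Lib.Helper1.card_subgroupOf_of_le hA₁A] at h1
    omega

end Cfsg.Agent.S1452
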