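import Mathlib
import Cfsg.Statements.S1280
import Cfsg.Agent.Lib.Helper22.Coprime

set_option autoImplicit false
open Cfsg
open scoped Pointwise

namespace Cfsg.Agent.S1280

/-- Let θ be a solvable A-signalizer functor (A a noncyclic elementary abelian p-subgroup of the finite group G), and X, Y members of its family with Y ≤ N_G(X). Then X ⊔ Y (= XY) is again in the family. -/
theorem result {G : Type*} [Group G] [Finite G] (p : ℕ) [Fact p.Prime] (A : Subgroup G) (hA : Cfsg.IsElementaryAbelian p A) (hA2 : p ^ 2 ≤ Nat.card ↥A) (θ : G → Subgroup G) (hθ : Cfsg.IsSolvableSignalizerFunctor p A θ) (X Y : Subgroup G) (hX : X ∈ Cfsg.signalizerFamily p A θ) (hY : Y ∈ Cfsg.signalizerFamily p A θ) (hn : Y ≤ Subgroup.normalizer (X : Set G)) : X ⊔ Y ∈ Cfsg.signalizerFamily p A θ := by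
  obtain ⟨hXs, hXc, hXi, hXθ⟩ := hX
  obtain ⟨hYs, hYc, hYi, hYθ⟩ := hY
  have hp : p.Prime := Fact.out
  -- elements of X ⊔ Y are products
  have hdecomp : ∀ z ∈ X ⊔ Y, ∃ x ∈ X, ∃ y ∈ Y, x * y = z := by
    intro z hz
    have h1 : z ∈ ((X ⊔ Y : Subgroup G) : Set G) := hz
    rw [Subgroup.coe_mul_of_right_le_normalizer_left X Y hn] at h1
    obtain ⟨x, hx, y, hy, rfl⟩ := Set.mem_mul.mp h1
    exact ⟨x, hx, y, hy, rfl⟩
  -- X is normal in X ⊔ Y
  have hnorm : (X.subgroupOf (X ⊔ Y)).Normal :=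
    (Subgroup.normal_subgroupOf_iff_le_normalizer le_sup_left).mpr
      (sup_le Subgroup.le_normalizer hn)
  -- the map Y → (X ⊔ Y) / X is onto
  let f : Y →* (↥(X ⊔ Y) ⧸ X.subgroupOf (X ⊔ Y)) :=
    (QuotientGroup.mk' (X.subgroupOf (X ⊔ Y))).comp (Subgroup.inclusion le_sup_right)
  have hf : Function.Surjective f := by
    intro q
    obtain ⟨⟨z, hz⟩, rfl⟩ := QuotientGroup.mk'_surjective (X.subgroupOf (X ⊔ Y)) q
    obtain ⟨x, hx, y, hy, hxy⟩ := hdecomp z hz
    refine ⟨⟨y, hy⟩, ?_⟩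
    show QuotientGroup.mk' (X.subgroupOf (X ⊔ Y)) (Subgroup.inclusion le_sup_right ⟨y, hy⟩) =
      QuotientGroup.mk' (X.subgroupOf (X ⊔ Y)) ⟨z, hz⟩
    rw [QuotientGroup.mk'_eq_mk']
    refine ⟨⟨y⁻¹ * x * y, ?_⟩, ?_, ?_⟩
    · exact (X ⊔ Y).mul_mem ((X ⊔ Y).mul_mem ((X ⊔ Y).inv_mem (Subgroup.mem_sup_right hy))
        (Subgroup.mem_sup_left hx)) (Subgroup.mem_sup_right hy)
    · rw [Subgroup.mem_subgroupOf]
      show y⁻¹ * x * y ∈ X
      have := (Subgroup.mem_normalizer_iff.mp (hn (Y.inv_mem hy)) x).mp hx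
      simpa using this
    · apply Subtype.ext
      show y * (y⁻¹ * x * y) = z
      rw [← hxy]
      group
  refine ⟨?_, ?_, ?_, ?_⟩
  · -- solvable
    have := hXs
    have := hYs
    have : Group.IsSolvable (↥(X ⊔ Y) ⧸ X.subgroupOf (X ⊔ Y)) := Group.isSolvable_of_surjective hf
    refine Group.isSolvable_of_ker_le_range (Subgroup.inclusion (le_sup_left : X ≤ X ⊔ Y))
      (QuotientGroup.mk' (X.subgroupOf (X ⊔ Y))) ?_
    intro z hz
    rw [QuotientGroup.ker_mk', Subgroup.mem_subgroupOf] at hz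
    exact ⟨⟨z, hz⟩, rfl⟩
  · -- order prime to p
    have h1 := Subgroup.card_eq_card_quotient_mul_card_subgroup (X.subgroupOf (X ⊔ Y))
    have h2 : Nat.card (X.subgroupOf (X ⊔ Y)) = Nat.card X :=
      Nat.card_congr (Subgroup.subgroupOfEquivOfLe le_sup_left).toEquiv
    have h3 : Nat.card (↥(X ⊔ Y) ⧸ X.subgroupOf (X ⊔ Y)) ∣ Nat.card Y :=
      Subgroup.card_dvd_of_surjective f hf
    rw [h1, h2]
    intro hdvd
    rcases (Nat.Prime.dvd_mul hp).mp hdvd with h | h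
    · exact hYc (dvd_trans h h3)
    · exact hXc h
  · -- A-invariant
    intro b hb u hu
    obtain ⟨x, hx, y, hy, rfl⟩ := hdecomp u hu
    have : b * (x * y) * b⁻¹ = (b * x * b⁻¹) * (b * y * b⁻¹) := by group
    rw [this]
    exact (X ⊔ Y).mul_mem (Subgroup.mem_sup_left (hXi b hb x hx)) (Subgroup.mem_sup_right (hYi b hb y hy))
  · -- centralizers
    intro a ha ha1 z hz
    obtain ⟨hz1, hz2⟩ := Subgroup.mem_inf.mp hz
    rw [Subgroup.mem_centralizer_singleton_iff] at hz2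
    obtain ⟨x, hx, y, hy, hxy⟩ := hdecomp z hz1
    -- z = y * x' with x' ∈ X
    have hx' : y⁻¹ * x * y ∈ X := by
      have := (Subgroup.mem_normalizer_iff.mp (hn (Y.inv_mem hy)) x).mp hx
      simpa using this
    have hz' : z = y * (y⁻¹ * x * y) := by rw [← hxy]; group
    generalize y⁻¹ * x * y = x' at hx' hz'
    have hoa : orderOf a = p := orderOf_eq_prime (hA.2 a ha) ha1
    have hP : IsPGroup p (Subgroup.zpowers a) := by
      apply IsPGroup.of_card (n := 1)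
      rw [Nat.card_zpowers, hoa, pow_one]
    have hM : ¬ p ∣ Nat.card (X ⊓ Y : Subgroup G) := by
      intro hdvd
      exact hXc (dvd_trans hdvd (Subgroup.card_dvd_of_le inf_le_left))
    have hzA : Subgroup.zpowers a ≤ A := by
      rw [Subgroup.zpowers_le]; exact ha
    have hzcomm : ∀ g ∈ Subgroup.zpowers a, g * z = z * g := by
      intro g hg
      obtain ⟨k, rfl⟩ := Subgroup.mem_zpowers_iff.mp hg
      exact ((Commute.zpow_left (show Commute a z from hz2.symm) k)).eq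
    have hstab : ∀ g ∈ Subgroup.zpowers a, ∀ m ∈ (X ⊓ Y : Subgroup G),
        y⁻¹ * (g * (y * m) * g⁻¹) ∈ (X ⊓ Y : Subgroup G) := by
      intro g hg m hm
      obtain ⟨hmX, hmY⟩ := Subgroup.mem_inf.mp hm
      refine Subgroup.mem_inf.mpr ⟨?_, ?_⟩
      · have hc := hzcomm g hg
        rw [hz'] at hc
        have : y⁻¹ * (g * (y * m) * g⁻¹) = x' * (g * (x'⁻¹ * m) * g⁻¹) := by
          calc y⁻¹ * (g * (y * m) * g⁻¹) = y⁻¹ * (g * (y * x')) * (x'⁻¹ * m * g⁻¹) := by group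
            _ = y⁻¹ * ((y * x') * g) * (x'⁻¹ * m * g⁻¹) := by rw [hc]
            _ = x' * (g * (x'⁻¹ * m) * g⁻¹) := by group
        rw [this]
        exact X.mul_mem hx' (hXi g (hzA hg) _ (X.mul_mem (X.inv_mem hx') hmX))
      · exact Y.mul_mem (Y.inv_mem hy) (hYi g (hzA hg) _ (Y.mul_mem hy hmY))
    obtain ⟨m, hm, hfix⟩ := Cfsg.Agent.Lib.Helper22.exists_fixed_in_coset
      (Subgroup.zpowers a) (X ⊓ Y) hP hM y hstab
    obtain ⟨hmX, hmY⟩ := Subgroup.mem_inf.mp hm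
    have hfixa := hfix a (Subgroup.mem_zpowers a)
    have hcomm1 : (y * m) * a = a * (y * m) := by
      calc (y * m) * a = a * (y * m) * a⁻¹ * a := by rw [hfixa]
        _ = a * (y * m) := by group
    have h1 : y * m ∈ θ a := by
      apply hYθ a ha ha1
      refine Subgroup.mem_inf.mpr ⟨Y.mul_mem hy hmY, ?_⟩
      rw [Subgroup.mem_centralizer_singleton_iff]
      exact hcomm1
    have h2 : m⁻¹ * x' ∈ θ a := by
      apply hXθ a ha ha1
      refine Subgroup.mem_inf.mpr ⟨X.mul_mem (X.inv_mem hmX) hx', ?_⟩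
      rw [Subgroup.mem_centralizer_singleton_iff]
      have e : m⁻¹ * x' = (y * m)⁻¹ * z := by rw [hz']; group
      rw [e]
      calc (y * m)⁻¹ * z * a = (y * m)⁻¹ * (z * a) := by group
        _ = (y * m)⁻¹ * (a * z) := by rw [hz2]
        _ = (y * m)⁻¹ * (a * (y * m)) * ((y * m)⁻¹ * z) := by group
        _ = (y * m)⁻¹ * ((y * m) * a) * ((y * m)⁻¹ * z) := by rw [hcomm1]
        _ = a * ((y * m)⁻¹ * z) := by group
    have e : z = (y * m) * (m⁻¹ * x') := by rw [hz']; group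
    rw [e]
    exact (θ a).mul_mem h1 h2

end Cfsg.Agent.S1280
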