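import Mathlib
import Cfsg.Statements.S1498

set_option autoImplicit false
open Cfsg

namespace Cfsg.Agent.S1498

open scoped Pointwise

theorem conj_le {G : Type*} [Group G] [Finite G] (A : Set G) (L : Subgroup G) (H : G → Subgroup G)
    (hD : Cfsg.DadeHypothesis A L H) (a : G) (ha : a ∈ A) (x : G) (hx : x ∈ L) (u : G) (hu : u ∈ H a) :
    x * u * x⁻¹ ∈ H (x * a * x⁻¹) := by
  set a' := x * a * x⁻¹ with ha'def
  have ha' : a' ∈ A := hD.conj_mem x hx a ha
  set M : Subgroup G := L ⊓ Subgroup.centralizer ({a'} : Set G) with hM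
  -- M normalizes H a'
  have hMn : M ≤ Subgroup.normalizer (H a' : Set G) := by
    intro c hc
    have hc' : c ∈ Subgroup.centralizer ({a'} : Set G) := (Subgroup.mem_inf.mp hc).2
    rw [Subgroup.mem_normalizer_iff]
    intro n
    constructor
    · intro hn
      exact hD.conj_mem_H a' ha' c hc' n hn
    · intro hn
      have := hD.conj_mem_H a' ha' c⁻¹ (inv_mem hc') _ hn
      have e : c⁻¹ * (c * n * c⁻¹) * c⁻¹⁻¹ = n := by group
      rw [e] at this
      exact this
  -- k = x u x⁻¹ centralizes a'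
  have hua : a * u = u * a := by
    have := hD.le_centralizer a ha hu
    rw [Subgroup.mem_centralizer_iff] at this
    exact this a (Set.mem_singleton a)
  have hk : x * u * x⁻¹ ∈ Subgroup.centralizer ({a'} : Set G) := by
    rw [Subgroup.mem_centralizer_iff]
    intro h hh
    rw [Set.mem_singleton_iff] at hh
    subst hh
    calc x * a * x⁻¹ * (x * u * x⁻¹) = x * (a * u) * x⁻¹ := by group
      _ = x * (u * a) * x⁻¹ := by rw [hua]
      _ = x * u * x⁻¹ * (x * a * x⁻¹) := by group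
  rw [← hD.sup_eq a' ha'] at hk
  have hk' : x * u * x⁻¹ ∈ ((H a' ⊔ M : Subgroup G) : Set G) := hk
  rw [Subgroup.coe_mul_of_right_le_normalizer_left (H a') M hMn] at hk'
  obtain ⟨h, hh, l, hl, hkl⟩ := hk'
  have hh' : h ∈ H a' := hh
  have hl' : l ∈ M := hl
  -- powers
  have hpow : ∀ m : ℕ, ∃ hm ∈ H a', (h * l) ^ m = hm * l ^ m := by
    intro m
    induction m with
    | zero => exact ⟨1, one_mem _, by simp⟩
    | succ m ih =>
      obtain ⟨hm, hhm, e⟩ := ih
      refine ⟨hm * (l ^ m * h * (l ^ m)⁻¹), mul_mem hhm ?_, ?_⟩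
      · exact (Subgroup.mem_normalizer_iff.mp (hMn (pow_mem hl' m)) h).mp hh'
      · rw [pow_succ, e, pow_succ]; group
  have hkl' : h * l = x * u * x⁻¹ := hkl
  have hord : orderOf (x * u * x⁻¹) = orderOf u := by
    have hs : SemiconjBy x u (x * u * x⁻¹) := by unfold SemiconjBy; group
    exact hs.orderOf_eq.symm
  obtain ⟨hm, hhm, e⟩ := hpow (orderOf u)
  rw [hkl', ← hord, pow_orderOf_eq_one, hord] at e
  have hlm : l ^ orderOf u ∈ H a' ⊓ M := by
    refine Subgroup.mem_inf.mpr ⟨?_, pow_mem hl' _⟩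
    have : l ^ orderOf u = hm⁻¹ := eq_inv_of_mul_eq_one_right e.symm
    rw [this]; exact inv_mem hhm
  rw [hD.inf_eq_bot a' ha', Subgroup.mem_bot] at hlm
  have h1 : orderOf l ∣ Nat.card ↥(H a) :=
    (orderOf_dvd_of_pow_eq_one hlm).trans (Subgroup.orderOf_dvd_natCard _ hu)
  have h2 : orderOf l ∣ Nat.card ↥M := Subgroup.orderOf_dvd_natCard _ hl'
  have hcop := hD.coprime a ha a' ha'
  have h3 : orderOf l = 1 := Nat.eq_one_of_dvd_coprimes hcop h1 h2
  rw [orderOf_eq_one_iff] at h3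
  rw [← hkl', h3, mul_one]
  exact hh'

/-- Under the Dade hypothesis for (A, L, H): for a ∈ A and x ∈ L, the subgroup attached to x * a * x⁻¹ is the conjugate of H a by x. -/
theorem result {G : Type*} [Group G] [Finite G] (A : Set G) (L : Subgroup G) (H : G → Subgroup G) (hD : Cfsg.DadeHypothesis A L H) (a : G) (ha : a ∈ A) (x : G) (hx : x ∈ L) : H (x * a * x⁻¹) = (H a).map (MulAut.conj x).toMonoidHom := by
  apply le_antisymm
  · intro v hv
    have ha' : x * a * x⁻¹ ∈ A := hD.conj_mem x hx a ha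
    have := conj_le A L H hD (x * a * x⁻¹) ha' x⁻¹ (inv_mem hx) v hv
    have e : x⁻¹ * (x * a * x⁻¹) * x⁻¹⁻¹ = a := by group
    rw [e] at this
    refine ⟨x⁻¹ * v * x⁻¹⁻¹, this, ?_⟩
    simp [MulAut.conj_apply]
    group
  · rintro _ ⟨u, hu, rfl⟩
    simpa [MulAut.conj_apply] using conj_le A L H hD a ha x hx u hu

end Cfsg.Agent.S1498
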