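import Mathlib
import Cfsg.Statements.S1556
import Cfsg.Agent.Lib.Helper26.OctOrb

set_option autoImplicit false
open scoped Pointwise
open Cfsg

namespace Cfsg.Agent.S1556

open Cfsg.Agent.Lib.Helper7 Cfsg.Agent.Lib.Helper26

theorem card_inter_smul (g : Equiv.Perm Cfsg.GolayPt) (a b : Finset Cfsg.GolayPt) :
    (g • a ∩ g • b).card = (a ∩ b).card := by
  rw [← Finset.smul_finset_inter, Finset.card_smul_finset]

/-- Two octads meeting a fixed octad in equally many points are in the same orbit of its stabiliser. -/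
theorem result (o o' o'' : Finset Cfsg.GolayPt) (ho : o ∈ Cfsg.octads) (ho' : o' ∈ Cfsg.octads) (ho'' : o'' ∈ Cfsg.octads) (h : (o ∩ o').card = (o ∩ o'').card) : ∃ g : Equiv.Perm Cfsg.GolayPt, g ∈ Cfsg.M24 ∧ g • o = o ∧ g • o' = o'' := by
  obtain ⟨g₀, hg₀, rfl⟩ := octad_transitive setOf_octMask_mem ho
  have h1 : g₀⁻¹ • o' ∈ Cfsg.octads := smul_mem_octads (Cfsg.M24.inv_mem hg₀) ho'
  have h2 : g₀⁻¹ • o'' ∈ Cfsg.octads := smul_mem_octads (Cfsg.M24.inv_mem hg₀) ho''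
  have h3 : (baseOct ∩ g₀⁻¹ • o').card = (baseOct ∩ g₀⁻¹ • o'').card := by
    have e1 := card_inter_smul g₀ baseOct (g₀⁻¹ • o')
    have e2 := card_inter_smul g₀ baseOct (g₀⁻¹ • o'')
    rw [smul_inv_smul] at e1 e2
    rw [← e1, ← e2]
    exact h
  obtain ⟨u, ⟨hu1, hu2⟩, hu3⟩ := base_orbit h1 h2 h3
  have hu2' : u • baseOct = baseOct := hu2
  refine ⟨g₀ * u * g₀⁻¹, Cfsg.M24.mul_mem (Cfsg.M24.mul_mem hg₀ hu1) (Cfsg.M24.inv_mem hg₀), ?_, ?_⟩
  · rw [mul_smul, mul_smul, inv_smul_smul]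
    exact congrArg (g₀ • ·) hu2'
  · rw [mul_smul, mul_smul, hu3, smul_inv_smul]

end Cfsg.Agent.S1556
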