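import Mathlib
import Cfsg.Statements.S0970
import Cfsg.Agent.Lib.Helper16.Fong

set_option autoImplicit false
open Cfsg

namespace Cfsg.Agent.S0970

open Cfsg.Agent.Lib.Helper16

/-- Let N be a normal subgroup of the finite group G and fix a maximal ideal M of the algebraic integers containing the prime p. Let b be a block of N that is invariant under conjugation by G, and B a block of G covering b (some χ ∈ B has a constituent in b) whose defect is at least that of every block covering b. If P is a defect group of B, then p does not divide the index of P ⊔ N, the subgroup P ∩ N of N is a defect group of b, and the defect of B equals the defect of b plus the exponent of p in the index of N. -/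
theorem result {G : Type*} [Group G] [Fintype G] (p : ℕ) [Fact p.Prime] (M : Ideal Cfsg.AlgInt) (hM : Cfsg.IsPModular p M) (N : Subgroup G) [hN : N.Normal] [Fintype N] (b : Set (Cfsg.IrrCharacter N)) (hb : Cfsg.IsPBlock M b) (hinv : ∀ g : G, ∀ θ ∈ b, ∀ θ' : Cfsg.IrrCharacter N, (∀ n : N, (θ' : N → ℂ) n = (θ : N → ℂ) ⟨g * n * g⁻¹, hN.conj_mem n n.2 g⟩) → θ' ∈ b) (B : Set (Cfsg.IrrCharacter G)) (hB : Cfsg.IsPBlock M B) (hcov : ∃ χ ∈ B, ∃ θ ∈ b, Cfsg.classInner (fun n : N => (χ : G → ℂ) n) (θ : N → ℂ) ≠ 0) (hmax : ∀ B' : Set (Cfsg.IrrCharacter G), Cfsg.IsPBlock M B' → (∃ χ ∈ B', ∃ θ ∈ b, Cfsg.classInner (fun n : N => (χ : G → ℂ) n) (θ : N → ℂ) ≠ 0) → Cfsg.blockDefect p B' ≤ Cfsg.blockDefect p B) (P : Subgroup G) (hP : Cfsg.IsDefectGroup p M B P) : ¬ p ∣ (P ⊔ N).index ∧ Cfsg.IsDefectGroup p M b ((P ⊓ N).subgroupOf N) ∧ Cfsg.blockDefect p B = Cfsg.blockDefect p b + N.index.factorization p := by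

  classical
  have hMp := isPrime_of_isPModular hM
  have hp : p.Prime := Fact.out
  have hinv' : ∀ θ ∈ b, ∀ g : G, conjIrr N θ g ∈ b :=
    fun θ hθ g => conjIrr_mem_of_invariant N b hinv θ hθ g
  obtain ⟨χ₀, hχ₀, θ₀, hθ₀, hcon⟩ := hcov
  set S := blockOrbit (G := G) N b with hSdef
  have hS : ∀ θ ∈ S, ∀ g : G, conjIrr N θ g ∈ S := blockOrbit_stable N b
  set E : G → ℂ := normalIdem N S with hEdef
  have hE : IsRClass M E := isRClass_normalIdem_blockOrbit N hMp hb
  have hω : omega (χ₀ : G → ℂ) E = 1 :=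
    omega_normalIdem_eq_one N S hS χ₀
      ⟨θ₀, (mem_blockOrbit_of_invariant N b hinv' θ₀).mpr hθ₀, hcon⟩
  obtain ⟨l, hl1, hl2⟩ := exists_not_memLocalIdeal_of_omega hMp χ₀ hE
    (by rw [hω]; exact not_memLocalIdeal_one hMp)
  have hlN : l ∈ N := by
    by_contra h
    apply hl1
    rw [hEdef, normalIdem_apply_of_not_mem N S h]
    exact memLocalIdeal_zero hMp
  have hcardP := Cfsg.Agent.Lib.Helper77.card_isDefectGroup hM B hB P hP
  obtain ⟨g₀, hg₀, D₀, hD₀⟩ := hP
  have hPp : IsPGroup p P := IsPGroup.of_card hcardP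
  have hg₀P : g₀ ∈ Subgroup.centralizer (P : Set G) := by
    rw [Subgroup.mem_centralizer_iff]
    intro u hu
    have hu' : u ∈ P := hu
    rw [hD₀] at hu'
    obtain ⟨v, -, rfl⟩ := hu'
    exact ((Subgroup.mem_centralizer_iff.mp v.2) g₀ (Set.mem_singleton _)).symm
  obtain ⟨c, hc1, hc2⟩ := Cfsg.Agent.Lib.Helper77.exists_isConj_mem_centralizer hM B hB l
    ⟨χ₀, hχ₀, hl2⟩ g₀ hg₀.2.1 P hPp hg₀P
  obtain ⟨t, ht⟩ := isConj_iff.mp hc1
  have hcN : c ∈ N := by
    rw [← ht]
    exact hN.conj_mem l hlN t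
  set y : N := ⟨c, hcN⟩ with hy
  have hy1 : ¬ MemLocalIdeal M (Cfsg.blockCoeff b y) := by
    rw [← normalIdem_blockOrbit_apply N b hinv' y]
    show ¬ MemLocalIdeal M (E c)
    rw [← ht, hE.1 l t]
    exact hl1
  have hy2 : ¬ MemLocalIdeal M (Cfsg.centralChar (χ₀ : G → ℂ) (y : G)) := by
    show ¬ MemLocalIdeal M (Cfsg.centralChar (χ₀ : G → ℂ) c)
    rw [← ht, Cfsg.Agent.Lib.Helper77.centralChar_conj]
    exact hl2
  obtain ⟨hdef, hfac, hfacN⟩ := fong_key N hM b hb hinv' χ₀ θ₀ hθ₀ hcon y hy1 hy2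
  have hge := fong_defect_ge N hM b hb hinv' B hmax y hy1
  have hle : Cfsg.blockDefect p B ≤
      (Nat.card (Subgroup.centralizer ({(y : G)} : Set G))).factorization p := by
    by_contra h
    push Not at h
    exact hy2 (Cfsg.Agent.Lib.Helper76.memLocalIdeal_centralChar_of_defect_lt hM B hB χ₀ hχ₀
      (y : G) h)
  have hdB : Cfsg.blockDefect p B = Cfsg.blockDefect p b + N.index.factorization p := by omega
  rw [hdB] at hcardP
  have hPC : ∀ u ∈ P, u * c = c * u := fun u hu => (Subgroup.mem_centralizer_iff.mp hc2) u hu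
  set k := N.relIndex P with hk
  have hkdvd : k ∣ N.index := Subgroup.relIndex_dvd_index_of_normal N P
  have hqk : k * Nat.card (N.subgroupOf P) = Nat.card P :=
    Subgroup.index_mul_card (N.subgroupOf P)
  set Q : Subgroup N := (P ⊓ N).subgroupOf N with hQ
  have hcardQ : Nat.card Q = Nat.card (N.subgroupOf P) := by
    have e1 : Nat.card Q = Nat.card ↥(P ⊓ N) :=
      Nat.card_congr (Subgroup.subgroupOfEquivOfLe inf_le_right).toEquiv
    have e2 : Nat.card (N.subgroupOf P) = Nat.card ↥(N ⊓ P) := by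
      rw [← Subgroup.inf_subgroupOf_right N P]
      exact Nat.card_congr (Subgroup.subgroupOfEquivOfLe inf_le_right).toEquiv
    rw [e1, e2, inf_comm]
  have hQle : Q ≤ Subgroup.centralizer ({y} : Set N) := by
    intro u hu
    rw [hQ, Subgroup.mem_subgroupOf] at hu
    rw [Subgroup.mem_centralizer_iff]
    intro z hz
    rw [Set.mem_singleton_iff] at hz
    rw [hz]
    apply Subtype.ext
    show c * (u : G) = (u : G) * c
    exact (hPC (u : G) hu.1).symm
  have hQdvd : Nat.card Q ∣ Nat.card (Subgroup.centralizer ({y} : Set N)) :=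
    Subgroup.card_dvd_of_le hQle
  have hkP : k ∣ p ^ (Cfsg.blockDefect p b + N.index.factorization p) := by
    rw [← hcardP, ← hqk]
    exact dvd_mul_right _ _
  have hqP : Nat.card (N.subgroupOf P) ∣
      p ^ (Cfsg.blockDefect p b + N.index.factorization p) := by
    rw [← hcardP, ← hqk]
    exact dvd_mul_left _ _
  obtain ⟨j, hj, hkj⟩ := (Nat.dvd_prime_pow hp).mp hkP
  obtain ⟨i, hi, hqi⟩ := (Nat.dvd_prime_pow hp).mp hqP
  have hjn : j ≤ N.index.factorization p := by
    rw [hkj] at hkdvd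
    exact (hp.pow_dvd_iff_le_factorization Subgroup.index_ne_zero_of_finite).mp hkdvd
  have hia : i ≤ Cfsg.blockDefect p b := by
    rw [hcardQ, hqi] at hQdvd
    have h1 := (hp.pow_dvd_iff_le_factorization Nat.card_pos.ne').mp hQdvd
    rw [hfacN] at h1
    exact h1
  have hij : j + i = Cfsg.blockDefect p b + N.index.factorization p := by
    rw [hkj, hqi, ← pow_add, hcardP] at hqk
    exact Nat.pow_right_injective hp.two_le hqk
  have hi' : i = Cfsg.blockDefect p b := by omega
  have hj' : j = N.index.factorization p := by omega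
  refine ⟨?_, ?_, hdB⟩
  · intro hdiv
    have h1 : N.relIndex (P ⊔ N) * (P ⊔ N).index = N.index :=
      Subgroup.relIndex_mul_index le_sup_right
    rw [Subgroup.relIndex_sup_right, ← hk, hkj, hj'] at h1
    obtain ⟨m, hm⟩ := hdiv
    have h2 : p ^ (N.index.factorization p + 1) ∣ N.index := by
      rw [pow_succ]
      calc p ^ N.index.factorization p * p ∣ p ^ N.index.factorization p * (P ⊔ N).index :=
            Nat.mul_dvd_mul_left _ ⟨m, hm⟩
        _ = N.index := h1
    have h3 := (hp.pow_dvd_iff_le_factorization Subgroup.index_ne_zero_of_finite).mp h2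
    omega
  · refine ⟨y, hdef, ?_⟩
    have hcardQ' : Nat.card (Q.subgroupOf (Subgroup.centralizer ({y} : Set N))) =
        p ^ (Nat.card (Subgroup.centralizer ({y} : Set N))).factorization p := by
      rw [Nat.card_congr (Subgroup.subgroupOfEquivOfLe hQle).toEquiv, hcardQ, hqi, hi', hfacN]
    refine ⟨Sylow.ofCard _ hcardQ', ?_⟩
    rw [Sylow.coe_ofCard, Subgroup.map_subgroupOf_eq_of_le hQle]

end Cfsg.Agent.S0970
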