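-- Statement S0661: O_{p'}(N_G(P)) = O_{p'}(G) ∩ N_G(P) when G/O_{p'}(G) is p-constrained.
import Cfsg.Statements.S0661
import Cfsg.Agent.S0028
import Cfsg.Agent.Lib.Helper48.Cores
import Cfsg.Agent.Lib.Helper1.SZInternal
import Cfsg.Agent.Lib.Helper1.Basic

set_option autoImplicit false
open Cfsg

namespace Cfsg.Agent.S0661

open Pointwise
open Cfsg.Agent.Lib

/-- The heart of the matter: a `p'`-subgroup `X` which is normal in `N_G(P)` lies in the normal
`p'`-subgroup `O` as soon as `G/O` has a normal self-centralizing `p`-subgroup. -/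
theorem core {G : Type*} [Group G] [Finite G] {p : ℕ} [Fact p.Prime]
    (O : Subgroup G) [hOn : O.Normal] (hO : (Nat.card O).Coprime p)
    (Qb : Subgroup (G ⧸ O)) [hQn : Qb.Normal] (hQb : IsPGroup p Qb)
    (hc : Subgroup.centralizer (Qb : Set (G ⧸ O)) ≤ Qb)
    (P : Subgroup G) (hP : IsPGroup p P) (X : Subgroup G)
    (hXN : X ≤ Subgroup.normalizer (P : Set G))
    (hXnorm : Subgroup.normalizer (P : Set G) ≤ Subgroup.normalizer (X : Set G))
    (hX : (Nat.card X).Coprime p) : X ≤ O := by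
  have hp : p.Prime := Fact.out
  obtain ⟨kP, hkP⟩ := IsPGroup.iff_card.mp hP
  have hXP : X ⊓ P = ⊥ := by
    apply (Subgroup.disjoint_of_coprime_natCard _).eq_bot
    rw [hkP]
    exact Nat.Coprime.pow_right kP hX
  -- `X` centralizes `P`
  have hcomm : ∀ x ∈ X, ∀ y ∈ P, x * y = y * x := by
    intro x hx y hy
    have h1 : x * y * x⁻¹ * y⁻¹ ∈ P :=
      P.mul_mem ((Subgroup.mem_normalizer_iff.mp (hXN hx) y).mp hy) (P.inv_mem hy)
    have h2 : x * y * x⁻¹ * y⁻¹ ∈ X := by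
      have : x * y * x⁻¹ * y⁻¹ = x * (y * x⁻¹ * y⁻¹) := by group
      rw [this]
      exact X.mul_mem hx ((Subgroup.mem_normalizer_iff.mp
        (hXnorm (Subgroup.le_normalizer hy)) x⁻¹).mp (X.inv_mem hx))
    have h3 : x * y * x⁻¹ * y⁻¹ ∈ X ⊓ P := Subgroup.mem_inf.mpr ⟨h2, h1⟩
    rw [hXP, Subgroup.mem_bot] at h3
    have : x * y = (x * y * x⁻¹ * y⁻¹) * (y * x) := by group
    rw [this, h3, one_mul]
  obtain ⟨π, hπdef⟩ : ∃ π : G →* G ⧸ O, π = QuotientGroup.mk' O := ⟨_, rfl⟩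
  have hπsurj : Function.Surjective π := by
    rw [hπdef]; exact QuotientGroup.mk'_surjective O
  have hπker : ∀ g : G, π g = 1 ↔ g ∈ O := by
    intro g
    rw [hπdef, QuotientGroup.mk'_apply, QuotientGroup.eq_one_iff]
  have hXbcop : (Nat.card (X.map π)).Coprime p :=
    Nat.Coprime.coprime_dvd_left (Subgroup.card_map_dvd X π) hX
  obtain ⟨kQ, hkQ⟩ := IsPGroup.iff_card.mp hQb
  have hXQ : X.map π ⊓ Qb = ⊥ := by
    apply (Subgroup.disjoint_of_coprime_natCard _).eq_bot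
    rw [hkQ]
    exact Nat.Coprime.pow_right kQ hXbcop
  have hPQ : P.map π ≤ Subgroup.centralizer ((X.map π : Subgroup (G ⧸ O)) : Set (G ⧸ O)) := by
    rintro _ ⟨y, hy, rfl⟩
    rw [Subgroup.mem_centralizer_iff]
    rintro _ ⟨x, hx, rfl⟩
    rw [← map_mul, ← map_mul, hcomm x hx y hy]
  have hQtop : Subgroup.normalizer (Qb : Set (G ⧸ O)) = ⊤ := Subgroup.normalizer_eq_top Qb
  have hC : Qb ⊓ Subgroup.centralizer ((P.map π : Subgroup (G ⧸ O)) : Set (G ⧸ O))
      ≤ Subgroup.centralizer ((X.map π : Subgroup (G ⧸ O)) : Set (G ⧸ O)) := by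
    intro cb hcb
    obtain ⟨hcQ, hcP⟩ := Subgroup.mem_inf.mp hcb
    obtain ⟨c, rfl⟩ := hπsurj cb
    -- `c` moves `P` into `O P`
    have hcO : ∀ y ∈ P, c * y * c⁻¹ * y⁻¹ ∈ O := by
      intro y hy
      rw [← hπker]
      have h1 := Subgroup.mem_centralizer_iff.mp hcP (π y) ⟨y, hy, rfl⟩
      rw [map_mul, map_mul, map_mul, map_inv, map_inv, ← h1]
      group
    have hA₁ : MulAut.conj c • P ≤ O ⊔ P := by
      intro z hz
      rw [Helper1.mem_conj_smul] at hz
      have h1 := hcO _ hz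
      have h2 : z = (c * (c⁻¹ * z * c) * c⁻¹ * (c⁻¹ * z * c)⁻¹) * (c⁻¹ * z * c) := by group
      rw [h2]
      exact Subgroup.mul_mem_sup h1 hz
    have hcard : Nat.card (MulAut.conj c • P : Subgroup G) = Nat.card P :=
      (Nat.card_congr (Subgroup.equivSMul (MulAut.conj c) P).toEquiv).symm
    have hPO : P ≤ Subgroup.normalizer (O : Set G) := by
      rw [Subgroup.normalizer_eq_top]; exact le_top
    have hcopPO : (Nat.card P).Coprime (Nat.card O) := by
      rw [hkP]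
      exact Nat.Coprime.pow_left kP hO.symm
    have hsolv : Group.IsSolvable P ∨ Group.IsSolvable O := by
      left
      have := hP.isNilpotent
      infer_instance
    obtain ⟨n, hn, hnc⟩ := Helper1.sz_conj_internal O P (MulAut.conj c • P) hPO hcopPO hsolv
      hA₁ hcard
    have hm : n * c ∈ Subgroup.normalizer (P : Set G) := by
      apply Subgroup.mem_normalizer_fintype
      intro y hy
      rw [SetLike.mem_coe, ← hnc, Helper1.mem_conj_smul, Helper1.mem_conj_smul]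
      have : c⁻¹ * (n⁻¹ * (n * c * y * (n * c)⁻¹) * n) * c = y := by group
      rw [this]
      exact hy
    have hπm : π (n * c) = π c := by
      rw [map_mul, (hπker n).mpr hn, one_mul]
    rw [Subgroup.mem_centralizer_iff]
    rintro _ ⟨x, hx, rfl⟩
    have h1 : π c * π x * (π c)⁻¹ ∈ X.map π := by
      refine ⟨n * c * x * (n * c)⁻¹, (Subgroup.mem_normalizer_iff.mp (hXnorm hm) x).mp hx, ?_⟩
      rw [map_mul, map_mul, map_inv, hπm]
    have h2 : π c * π x * (π c)⁻¹ * (π x)⁻¹ ∈ X.map π :=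
      Subgroup.mul_mem _ h1 (Subgroup.inv_mem _ ⟨x, hx, rfl⟩)
    have h3 : π c * π x * (π c)⁻¹ * (π x)⁻¹ ∈ Qb := by
      have : π c * π x * (π c)⁻¹ * (π x)⁻¹ = π c * (π x * (π c)⁻¹ * (π x)⁻¹) := by group
      rw [this]
      exact Qb.mul_mem hcQ (hQn.conj_mem _ (Qb.inv_mem hcQ) (π x))
    have h4 : π c * π x * (π c)⁻¹ * (π x)⁻¹ ∈ X.map π ⊓ Qb := Subgroup.mem_inf.mpr ⟨h2, h3⟩
    rw [hXQ, Subgroup.mem_bot] at h4
    have : π c * π x = (π c * π x * (π c)⁻¹ * (π x)⁻¹) * (π x * π c) := by group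
    rw [this, h4, one_mul]
  have hres := Cfsg.Agent.S0028.result p (P.map π) (X.map π) Qb (hP.map π) hXbcop hQb hPQ
    (hQtop ▸ le_top) (hQtop ▸ le_top) hC
  intro x hx
  rw [← hπker]
  have h1 : π x ∈ X.map π ⊓ Qb := Subgroup.mem_inf.mpr ⟨⟨x, hx, rfl⟩, hc (hres ⟨x, hx, rfl⟩)⟩
  rw [hXQ, Subgroup.mem_bot] at h1
  exact h1

/-- If, modulo the largest normal subgroup of order prime to p, the largest normal p-subgroup contains its centralizer, then for every p-subgroup P the p'-core of N_G(P) is just O_p'(G) ∩ N_G(P). -/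
theorem result {G : Type*} [Group G] [Finite G] {p : ℕ} [Fact p.Prime] (hc : Subgroup.centralizer (Cfsg.pCore p (G ⧸ Cfsg.pPrimeCore p G) : Set (G ⧸ Cfsg.pPrimeCore p G)) ≤ Cfsg.pCore p (G ⧸ Cfsg.pPrimeCore p G)) (P : Subgroup G) (hP : IsPGroup p P) : (Cfsg.pPrimeCore p ↥(Subgroup.normalizer (P : Set G))).map (Subgroup.normalizer (P : Set G)).subtype = Cfsg.pPrimeCore p G ⊓ Subgroup.normalizer (P : Set G) := by
  apply le_antisymm
  · apply le_inf
    · have hQn : (Cfsg.pCore p (G ⧸ Cfsg.pPrimeCore p G)).Normal := Helper48.pCore_normal' p _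
      apply core (Cfsg.pPrimeCore p G) (Helper48.pPrimeCore_coprime' p G)
        (Cfsg.pCore p (G ⧸ Cfsg.pPrimeCore p G)) (Helper48.pCore_isPGroup' p _) hc P hP
      · exact Subgroup.map_subtype_le _
      · intro g hg
        apply Subgroup.mem_normalizer_fintype
        rintro _ ⟨x, hx, rfl⟩
        exact ⟨⟨g, hg⟩ * x * ⟨g, hg⟩⁻¹,
          (Helper48.pPrimeCore_normal' p _).conj_mem x hx ⟨g, hg⟩, rfl⟩
      · rw [Subgroup.card_map_of_injective (Subgroup.subtype_injective _)]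
        exact Helper48.pPrimeCore_coprime' p _
    · exact Subgroup.map_subtype_le _
  · intro x hx
    obtain ⟨hxO, hxN⟩ := Subgroup.mem_inf.mp hx
    have hle : (Cfsg.pPrimeCore p G).subgroupOf (Subgroup.normalizer (P : Set G))
        ≤ Cfsg.pPrimeCore p ↥(Subgroup.normalizer (P : Set G)) := by
      apply Helper48.le_pPrimeCore'
      · exact Subgroup.Normal.subgroupOf (Helper48.pPrimeCore_normal' p G) _
      · exact Nat.Coprime.coprime_dvd_left
          (Subgroup.card_comap_dvd_of_injective _ _ (Subgroup.subtype_injective _))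
          (Helper48.pPrimeCore_coprime' p G)
    exact ⟨⟨x, hxN⟩, hle (Subgroup.mem_subgroupOf.mpr hxO), rfl⟩

end Cfsg.Agent.S0661
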