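import Mathlib
import Cfsg.Statements.S4676
import Cfsg.Agent.Lib.Helper76.BrauerFeit
import Cfsg.Agent.Lib.Helper77.Degree

set_option autoImplicit false
open Cfsg

namespace Cfsg.Agent.S4676

/-- Fix a prime p and a maximal ideal M of the algebraic integers containing p. Let B be a p-block of the finite group G with defect group P. For χ in B, let the height of χ be the exponent of p in the degree of χ minus the least such exponent over the members of B. Then the sum over χ in B of p raised to twice the height of χ is at most the integer part of (order of P)²/4, plus 1; in particular B has at most that many irreducible characters. -/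
theorem result {G : Type*} [Group G] [Fintype G] (p : ℕ) [Fact p.Prime] (M : Ideal Cfsg.AlgInt) (hM : Cfsg.IsPModular p M) (B : Set (Cfsg.IrrCharacter G)) (hB : Cfsg.IsPBlock M B) (P : Subgroup G) (hP : Cfsg.IsDefectGroup p M B P) : ∑ᶠ χ ∈ B, p ^ (2 * Cfsg.blockHeight p B (χ : G → ℂ)) ≤ Nat.card P ^ 2 / 4 + 1 := by
  classical
  have := Cfsg.Agent.Lib.Helper81.irr_finite G
  have := Fintype.ofFinite (Cfsg.IrrCharacter G)
  have hcard := Cfsg.Agent.Lib.Helper77.card_isDefectGroup hM B hB P hP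
  obtain ⟨χ₀, m, hχ₀, hht, hm, hsum⟩ := Cfsg.Agent.Lib.Helper76.brauer_feit_data hM B hB
  set d := Cfsg.blockDefect p B with hd
  have hχB : χ₀ ∈ B.toFinset := Set.mem_toFinset.mpr hχ₀
  rw [hcard, finsum_mem_eq_toFinset_sum,
    ← Finset.add_sum_erase _ (fun χ : Cfsg.IrrCharacter G =>
      p ^ (2 * Cfsg.blockHeight p B (χ : G → ℂ))) hχB, hht]
  have key : 4 * ∑ ξ ∈ B.toFinset.erase χ₀, p ^ (2 * Cfsg.blockHeight p B (ξ : G → ℂ)) ≤
      (p ^ d) ^ 2 := by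
    have h1 : ∀ ξ ∈ B.toFinset.erase χ₀,
        ((p : ℤ) ^ (2 * Cfsg.blockHeight p B (ξ : G → ℂ))) ≤ (m ξ) ^ 2 := by
      intro ξ hξ
      have hξB : ξ ∈ B := Set.mem_toFinset.mp (Finset.mem_of_mem_erase hξ)
      obtain ⟨hne, hdvd⟩ := hm ξ hξB
      have h2 : ((p : ℤ) ^ Cfsg.blockHeight p B (ξ : G → ℂ)) ^ 2 ∣ (m ξ) ^ 2 :=
        pow_dvd_pow_of_dvd hdvd 2
      have h3 : 0 < (m ξ) ^ 2 := by positivity
      have h4 := Int.le_of_dvd h3 h2
      rw [← pow_mul, mul_comm] at h4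
      exact h4
    have h4 := Finset.sum_le_sum h1
    have h5 : (m χ₀) ^ 2 + ∑ ξ ∈ B.toFinset.erase χ₀, (m ξ) ^ 2 = ∑ ξ ∈ B.toFinset, (m ξ) ^ 2 :=
      Finset.add_sum_erase _ (fun ξ => (m ξ) ^ 2) hχB
    have h6 : ∑ ξ ∈ B.toFinset, (m ξ) ^ 2 ≤ ∑ ξ : Cfsg.IrrCharacter G, (m ξ) ^ 2 :=
      Finset.sum_le_sum_of_subset_of_nonneg (Finset.subset_univ _) (fun ξ _ _ => sq_nonneg _)
    have h7 : 4 * ((p : ℤ) ^ d * m χ₀ - (m χ₀) ^ 2) ≤ ((p : ℤ) ^ d) ^ 2 := by
      nlinarith [sq_nonneg ((p : ℤ) ^ d - 2 * m χ₀)]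
    have h8 : (4 * ∑ ξ ∈ B.toFinset.erase χ₀,
        (p : ℤ) ^ (2 * Cfsg.blockHeight p B (ξ : G → ℂ))) ≤ ((p : ℤ) ^ d) ^ 2 := by
      linarith
    exact_mod_cast h8
  have h9 : ∑ ξ ∈ B.toFinset.erase χ₀, p ^ (2 * Cfsg.blockHeight p B (ξ : G → ℂ)) ≤
      (p ^ d) ^ 2 / 4 :=
    (Nat.le_div_iff_mul_le (by norm_num : 0 < 4)).mpr (by rw [mul_comm]; exact key)
  simp only [mul_zero, pow_zero]
  omega

end Cfsg.Agent.S4676
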