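import Cfsg.Statements.S4511
import Mathlib
import Cfsg.Agent.Lib.Helper76.BlockSections

set_option autoImplicit false
open Cfsg

namespace Cfsg.Agent.S4511

open Cfsg.Agent.Lib.Helper16 Cfsg.Agent.Lib.Helper76 Cfsg.Agent.Lib.Helper81

/-- Brauer's count of the irreducible characters in a block by subsections. Let M be a maximal ideal of the algebraic integers containing the prime p, B a p-block of the finite group G, and X a set of representatives of the conjugacy classes of p-elements of G (elements of p-power order, the identity included: every p-element is conjugate to exactly one member of X). Then the number of irreducible characters in B is the sum, over x ∈ X and over the blocks b of C_G(x) that induce B, of the p-regular rank of b (the number of irreducible Brauer characters of b, here the dimension of the span of the restrictions of the members of b to the p-regular elements of C_G(x)). -/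
theorem result {G : Type*} [Group G] [Finite G] (p : ℕ) (M : Ideal Cfsg.AlgInt) (hM : Cfsg.IsPModular p M)
    (B : Set (Cfsg.IrrCharacter G)) (hB : Cfsg.IsPBlock M B) (X : Finset G)
    (hX : ∀ x ∈ X, ∃ k : ℕ, orderOf x = p ^ k)
    (hXrep : ∀ g : G, (∃ k : ℕ, orderOf g = p ^ k) → ∃! x, x ∈ X ∧ IsConj g x) :
    Nat.card B = ∑ x ∈ X, ∑ᶠ b ∈ {b : Set (Cfsg.IrrCharacter ↥(Subgroup.centralizer ({x} : Set G))) | Cfsg.IsInducedBlock M (Subgroup.centralizer ({x} : Set G)) b B},
      Cfsg.blockRank p b := by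
  classical
  haveI : Fact p.Prime := ⟨hM.1⟩
  have hp : p.Prime := hM.1
  letI : Fintype G := Fintype.ofFinite G
  have := irr_finite G
  letI : Fintype (Cfsg.IrrCharacter G) := Fintype.ofFinite _
  have hG0 : (Nat.card G : ℂ) ≠ 0 := by exact_mod_cast Nat.card_pos.ne'
  apply Nat.cast_injective (R := ℂ)
  rw [Nat.cast_sum]
  have hL : (Nat.card B : ℂ) = ∑ χ : Cfsg.IrrCharacter G, (if χ ∈ B then (1 : ℂ) else 0) := by
    rw [Finset.sum_boole, Nat.card_eq_fintype_card, Fintype.card_subtype]
  have h1 : ∀ χ : Cfsg.IrrCharacter G, (1 : ℂ) = ∑ x ∈ X,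
      (Nat.card (Subgroup.centralizer ({x} : Set G)) : ℂ)⁻¹ *
        ∑ᶠ s : Subgroup.centralizer ({x} : Set G), (if p ∣ orderOf s then 0 else
          (χ : G → ℂ) (x * (s : G)) * (χ : G → ℂ) (x * (s : G))⁻¹) := by
    intro χ
    have hF : Cfsg.IsClassFunction G (fun g => (χ : G → ℂ) g * (χ : G → ℂ) g⁻¹) := by
      intro g h
      show (χ : G → ℂ) (h * g * h⁻¹) * (χ : G → ℂ) (h * g * h⁻¹)⁻¹ =
        (χ : G → ℂ) g * (χ : G → ℂ) g⁻¹
      have e : (h * g * h⁻¹)⁻¹ = h * g⁻¹ * h⁻¹ := by group
      rw [e, irr_conj_class χ g h, irr_conj_class χ g⁻¹ h]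
    have h2 := section_formula hp X hX hXrep (fun g => (χ : G → ℂ) g * (χ : G → ℂ) g⁻¹) hF
    have h3 := irr_orth χ χ
    rw [if_pos rfl] at h3
    rw [h3] at h2
    have h4 : (1 : ℂ) = (Nat.card G : ℂ)⁻¹ * ∑ x ∈ X, (Nat.card G : ℂ) /
        (Nat.card (Subgroup.centralizer ({x} : Set G)) : ℂ) *
          ∑ᶠ s : Subgroup.centralizer ({x} : Set G), (if p ∣ orderOf s then 0 else
            (χ : G → ℂ) (x * (s : G)) * (χ : G → ℂ) (x * (s : G))⁻¹) := by
      rw [← h2, inv_mul_cancel₀ hG0]
    rw [h4, Finset.mul_sum]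
    refine Finset.sum_congr rfl fun x _ => ?_
    field_simp
  rw [hL]
  calc ∑ χ : Cfsg.IrrCharacter G, (if χ ∈ B then (1 : ℂ) else 0)
      = ∑ χ : Cfsg.IrrCharacter G, ∑ x ∈ X, (if χ ∈ B then
          (Nat.card (Subgroup.centralizer ({x} : Set G)) : ℂ)⁻¹ *
            ∑ᶠ s : Subgroup.centralizer ({x} : Set G), (if p ∣ orderOf s then 0 else
              (χ : G → ℂ) (x * (s : G)) * (χ : G → ℂ) (x * (s : G))⁻¹) else 0) := by
        refine Finset.sum_congr rfl fun χ _ => ?_
        by_cases hχ : χ ∈ B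
        · simp only [if_pos hχ]
          exact h1 χ
        · simp only [if_neg hχ, Finset.sum_const_zero]
    _ = ∑ x ∈ X, ∑ χ : Cfsg.IrrCharacter G, (if χ ∈ B then
          (Nat.card (Subgroup.centralizer ({x} : Set G)) : ℂ)⁻¹ *
            ∑ᶠ s : Subgroup.centralizer ({x} : Set G), (if p ∣ orderOf s then 0 else
              (χ : G → ℂ) (x * (s : G)) * (χ : G → ℂ) (x * (s : G))⁻¹) else 0) :=
        Finset.sum_comm
    _ = _ := by
        refine Finset.sum_congr rfl fun x hx => ?_
        have h5 := block_count_section hM B hB x (hX x hx)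
        rw [finsum_mem_eq_sum_ite] at h5
        have hC0 : (Nat.card (Subgroup.centralizer ({x} : Set G)) : ℂ) ≠ 0 := by
          exact_mod_cast Nat.card_pos.ne'
        have h6 : ∑ χ : Cfsg.IrrCharacter G, (if χ ∈ B then
            (Nat.card (Subgroup.centralizer ({x} : Set G)) : ℂ)⁻¹ *
              ∑ᶠ s : Subgroup.centralizer ({x} : Set G), (if p ∣ orderOf s then 0 else
                (χ : G → ℂ) (x * (s : G)) * (χ : G → ℂ) (x * (s : G))⁻¹) else 0) =
            (Nat.card (Subgroup.centralizer ({x} : Set G)) : ℂ)⁻¹ *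
              ∑ χ : Cfsg.IrrCharacter G, (if χ ∈ B then
                ∑ᶠ s : Subgroup.centralizer ({x} : Set G), (if p ∣ orderOf s then 0 else
                  (χ : G → ℂ) (x * (s : G)) * (χ : G → ℂ) (x * (s : G))⁻¹) else 0) := by
          rw [Finset.mul_sum]
          refine Finset.sum_congr rfl fun χ _ => ?_
          split_ifs
          · rfl
          · rw [mul_zero]
        rw [h6, h5, ← mul_assoc, inv_mul_cancel₀ hC0, one_mul]

end Cfsg.Agent.S4511
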