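import Cfsg.Statements.S4687
import Cfsg.Agent.Lib.Helper77.PairTools
import Cfsg.Agent.Lib.Helper77.SubPairs
import Cfsg.Agent.Lib.Helper77.FusionNorm
import Cfsg.Agent.S4660

set_option autoImplicit false
open Cfsg

namespace Cfsg.Agent.S4687

open Cfsg.Agent.Lib.Helper77 Cfsg.Agent.Lib.Helper16 in
/-- Fix a prime p and a maximal ideal M of the algebraic integers containing p, and a p-block B of the finite group G with maximal Brauer pair (P, e), P abelian. Then B is nilpotent if and only if its inertial quotient is trivial: every element of N_G(P) stabilizing e centralizes P. -/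
theorem result {G : Type*} [Group G] [Fintype G] (p : ℕ) [Fact p.Prime] (M : Ideal Cfsg.AlgInt) (hM : Cfsg.IsPModular p M) (B : Set (Cfsg.IrrCharacter G)) (P : Subgroup G) (e : Set (Cfsg.IrrCharacter (Subgroup.centralizer (P : Set G)))) (hmax : Cfsg.IsMaximalBrauerPair p M B P e) (hab : ∀ x ∈ P, ∀ y ∈ P, x * y = y * x) : Cfsg.IsNilpotentBlock p M B ↔ ∀ x : G, x ∈ Subgroup.normalizer (P : Set G) → Cfsg.StabilizesBlock (Subgroup.centralizer (P : Set G)) e x → x ∈ Subgroup.centralizer (P : Set G) := by
  classical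
  have hMp := isPrime_of_isPModular hM
  have hp : p.Prime := Fact.out
  have hPC : P ≤ Subgroup.centralizer (P : Set G) := by
    intro x hx
    rw [Subgroup.mem_centralizer_iff]
    intro y hy
    exact hab y hy x hx
  constructor
  · -- nilpotent ⇒ trivial inertial quotient
    intro hnil x hxn hxs
    obtain ⟨k, m, hpm, hord⟩ :=
      Nat.exists_eq_pow_mul_and_not_dvd (orderOf_pos x).ne' p hp.ne_one
    -- the p-regular part
    have hun : x ^ (p ^ k) ∈ Subgroup.normalizer (P : Set G) := Subgroup.pow_mem _ hxn _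
    have hus : Cfsg.StabilizesBlock (Subgroup.centralizer (P : Set G)) e (x ^ (p ^ k)) :=
      Subgroup.pow_mem (blockStab (Subgroup.centralizer (P : Set G)) e) hxs _
    have hureg : Cfsg.IsPRegular p (x ^ (p ^ k)) := by
      intro hdvd
      apply hpm
      have h1 : orderOf (x ^ (p ^ k)) ∣ m := by
        apply orderOf_dvd_of_pow_eq_one
        rw [← pow_mul, ← hord, pow_orderOf_eq_one]
      exact hdvd.trans h1
    have hu : x ^ (p ^ k) ∈ Subgroup.centralizer (P : Set G) :=
      hnil.2 P e hmax.1 _ hun hus hureg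
    -- the p-part
    have hvn : x ^ m ∈ Subgroup.normalizer (P : Set G) := Subgroup.pow_mem _ hxn _
    have hvs : Cfsg.StabilizesBlock (Subgroup.centralizer (P : Set G)) e (x ^ m) :=
      Subgroup.pow_mem (blockStab (Subgroup.centralizer (P : Set G)) e) hxs _
    have hvp : IsPGroup p (Subgroup.zpowers (x ^ m)) := by
      have h1 : orderOf (x ^ m) ∣ p ^ k := by
        apply orderOf_dvd_of_pow_eq_one
        rw [← pow_mul, mul_comm, ← hord, pow_orderOf_eq_one]
      obtain ⟨j, -, hj⟩ := (Nat.dvd_prime_pow hp).mp h1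
      exact IsPGroup.of_card (n := j) (by rw [Nat.card_zpowers, hj])
    have hv0 := mem_sup_centralizer_of_isMaximalBrauerPair hM hmax hvn hvs hvp
    have hv : x ^ m ∈ Subgroup.centralizer (P : Set G) := by
      rw [sup_eq_right.mpr hPC] at hv0
      exact hv0
    -- Bezout
    have hcop : Nat.Coprime (p ^ k) m :=
      Nat.Coprime.pow_left k ((Nat.Prime.coprime_iff_not_dvd hp).mpr hpm)
    have hbez := Int.gcd_eq_gcd_ab (p ^ k : ℕ) m
    rw [Int.gcd_natCast_natCast, hcop] at hbez
    have hx : x = (x ^ (p ^ k)) ^ (Int.gcdA (p ^ k : ℕ) m) * (x ^ m) ^ (Int.gcdB (p ^ k : ℕ) m) := by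
      rw [← zpow_natCast x (p ^ k), ← zpow_natCast x m, ← zpow_mul, ← zpow_mul, ← zpow_add,
        ← hbez]
      simp
    rw [hx]
    exact Subgroup.mul_mem _ (Subgroup.zpow_mem _ hu _) (Subgroup.zpow_mem _ hv _)
  · -- trivial inertial quotient ⇒ nilpotent
    intro hT
    refine ⟨hmax.1.2.1, ?_⟩
    intro Q f hQf y hyn hys _
    obtain ⟨a, ha⟩ := Cfsg.Agent.S4660.result p M hM B P Q e f hmax hQf
    have hQP : Q.map (MulAut.conj a).toMonoidHom ≤ P := subpairLE_le ha
    have hy1n := conj_mem_normalizer_map_conj a Q hyn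
    have hy1s := (stabilizesBlock_conjBlock_iff a Q f hyn).mpr hys
    obtain ⟨c, hc, hcn, hcs⟩ := exists_mul_mem_stabilizer_of_abelian hM hmax hab hQP
      (isPBlock_conjBlock hMp Q a hQf.1.2) ha hy1n hy1s
    have h1 : c * (a * y * a⁻¹) ∈ Subgroup.centralizer (P : Set G) := hT _ hcn hcs
    have h2 : c * (a * y * a⁻¹) ∈ Subgroup.centralizer
        ((Q.map (MulAut.conj a).toMonoidHom : Subgroup G) : Set G) :=
      Subgroup.centralizer_le (by exact_mod_cast hQP) h1
    have h3 : a * y * a⁻¹ ∈ Subgroup.centralizer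
        ((Q.map (MulAut.conj a).toMonoidHom : Subgroup G) : Set G) := by
      have := Subgroup.mul_mem _ (Subgroup.inv_mem _ hc) h2
      simpa using this
    exact (mem_centralizer_map_conj_iff a Q y).mpr h3

end Cfsg.Agent.S4687
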