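import Mathlib
import Cfsg.Statements.S4437
import Cfsg.Agent.Lib.Helper32.StabDefect
import Cfsg.Agent.Lib.Helper78.ExtFirstMain
import Cfsg.Agent.Lib.Helper16.FirstMain2
import Cfsg.Agent.Lib.Helper77.BrauerCorr

set_option autoImplicit false
open Cfsg

namespace Cfsg.Agent.S4437

/-- Let P be a p-subgroup of the finite group G, H = P·C_G(P), and b a block of H (relative to a maximal ideal M of the algebraic integers containing p) having P as a defect group; let B be the block of G induced by b. Let T be the stabilizer of b in N_G(P): the elements g of N_G(P) such that the g-conjugate of every member of b is again a member of b. Then B has defect group P if and only if p does not divide the index of H in T. -/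
theorem result {G : Type*} [Group G] [Fintype G] (p : ℕ) [Fact p.Prime] (M : Ideal Cfsg.AlgInt) (hM : Cfsg.IsPModular p M) (P : Subgroup G) (hP : IsPGroup p P) (H : Subgroup G) [Fintype H] (hH : H = P ⊔ Subgroup.centralizer (P : Set G)) (b : Set (Cfsg.IrrCharacter H)) (hb : Cfsg.IsPBlock M b) (hbP : Cfsg.IsDefectGroup p M b (P.subgroupOf H)) (B : Set (Cfsg.IrrCharacter G)) (hind : Cfsg.IsInducedBlock M H b B) (T : Subgroup G) (hT : ∀ g : G, g ∈ T ↔ (g ∈ Subgroup.normalizer (P : Set G) ∧ ∀ θ ∈ b, ∀ θ' : Cfsg.IrrCharacter H, (∀ h h' : H, (h' : G) = g * h * g⁻¹ → (θ' : H → ℂ) h' = (θ : H → ℂ) h) → θ' ∈ b)) : Cfsg.IsDefectGroup p M B P ↔ ¬ p ∣ H.relIndex T := by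
  classical
  have hMp := Cfsg.Agent.Lib.Helper16.isPrime_of_isPModular hM
  have hp : p.Prime := Fact.out
  have hPH : P ≤ H := by rw [hH]; exact le_sup_left
  have hCH : Subgroup.centralizer (P : Set G) ≤ H := by rw [hH]; exact le_sup_right
  have hPN : P ≤ Subgroup.normalizer (P : Set G) := Subgroup.le_normalizer
  have hCN1 : Subgroup.centralizer (P : Set G) ≤ Subgroup.normalizer (P : Set G) :=
    Subgroup.centralizer_le_normalizer _
  have hHN : H ≤ Subgroup.normalizer (P : Set G) := by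
    rw [hH]; exact sup_le hPN hCN1
  have hTN : T ≤ Subgroup.normalizer (P : Set G) := fun g hg => ((hT g).mp hg).1
  have hHT : H ≤ T := by
    intro g hg
    rw [hT]
    refine ⟨hHN hg, ?_⟩
    intro θ hθ θ' hθ'
    have : θ' = θ := by
      apply Subtype.ext
      funext h'
      have h1 := hθ' ((⟨g, hg⟩ : H)⁻¹ * h' * ⟨g, hg⟩) h' (by simp [mul_assoc])
      rw [h1]
      have h2 := Cfsg.Agent.Lib.Helper16.irrCharacter_conj_eq θ ((⟨g, hg⟩ : H)⁻¹) h'
      rw [inv_inv] at h2
      exact h2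
    rw [this]
    exact hθ
  -- the world of the normalizer
  haveI : Fintype (Subgroup.normalizer (P : Set G)) := Fintype.ofFinite _
  haveI : Fintype (H.subgroupOf (Subgroup.normalizer (P : Set G))) := Fintype.ofFinite _
  haveI : Fintype (T.subgroupOf (Subgroup.normalizer (P : Set G))) := Fintype.ofFinite _
  haveI hQn : (P.subgroupOf (Subgroup.normalizer (P : Set G))).Normal :=
    Subgroup.normal_in_normalizer
  have hQ : IsPGroup p (P.subgroupOf (Subgroup.normalizer (P : Set G))) := hP.comap_subtype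
  have hNH : Subgroup.normalizer (P : Set G) ≤ Subgroup.normalizer (H : Set G) := by
    rw [hH]; exact Cfsg.Agent.Lib.Helper78.efm_normalizer_le P
  haveI hNn : (H.subgroupOf (Subgroup.normalizer (P : Set G))).Normal :=
    (Subgroup.normal_subgroupOf_iff_le_normalizer hHN).mpr hNH
  have hCN : Subgroup.centralizer
      ((P.subgroupOf (Subgroup.normalizer (P : Set G)) :
        Subgroup (Subgroup.normalizer (P : Set G))) : Set (Subgroup.normalizer (P : Set G))) ≤
      H.subgroupOf (Subgroup.normalizer (P : Set G)) := by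
    intro x hx
    rw [Subgroup.mem_subgroupOf]
    apply hCH
    rw [Subgroup.mem_centralizer_iff]
    intro y hy
    have := Subgroup.mem_centralizer_iff.mp hx ⟨y, hPN hy⟩ (by
      show (⟨y, hPN hy⟩ : Subgroup.normalizer (P : Set G)) ∈
        P.subgroupOf (Subgroup.normalizer (P : Set G))
      rw [Subgroup.mem_subgroupOf]; exact hy)
    exact congrArg Subtype.val this
  have hbX : Cfsg.IsPBlock M (Cfsg.Agent.Lib.Helper77.pullSet hHN b) :=
    Cfsg.Agent.Lib.Helper77.isPBlock_pullSet hMp hHN hb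
  have hcard : Nat.card (P.subgroupOf (Subgroup.normalizer (P : Set G))) =
      p ^ Cfsg.blockDefect p (Cfsg.Agent.Lib.Helper77.pullSet hHN b) := by
    have h1 := Cfsg.Agent.Lib.Helper77.card_isDefectGroup hM b hb _ hbP
    have h2 : Cfsg.blockDefect p (Cfsg.Agent.Lib.Helper77.pullSet hHN b) =
        Cfsg.blockDefect p b := Cfsg.Agent.Lib.Helper32.blockDefect_mapSet _ p b
    rw [h2, ← h1, Nat.card_congr (Subgroup.subgroupOfEquivOfLe hPN).toEquiv,
      Nat.card_congr (Subgroup.subgroupOfEquivOfLe hPH).toEquiv]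
  have hNT : H.subgroupOf (Subgroup.normalizer (P : Set G)) ≤
      T.subgroupOf (Subgroup.normalizer (P : Set G)) := fun x hx => hHT hx
  have hstab : ∀ x : Subgroup.normalizer (P : Set G),
      x ∈ T.subgroupOf (Subgroup.normalizer (P : Set G)) ↔
        ∀ θ ∈ Cfsg.Agent.Lib.Helper77.pullSet hHN b,
          Cfsg.Agent.Lib.Helper16.conjIrr (H.subgroupOf (Subgroup.normalizer (P : Set G))) θ x ∈
            Cfsg.Agent.Lib.Helper77.pullSet hHN b := by
    intro x
    rw [Subgroup.mem_subgroupOf, hT]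
    constructor
    · rintro ⟨-, hx⟩ θX hθX
      obtain ⟨θ, hθ, rfl⟩ := hθX
      rw [Cfsg.Agent.Lib.Helper77.pullSet, Cfsg.Agent.Lib.Helper77.mem_mapSet_iff]
      apply hx θ hθ
      intro h h' hh
      rw [Cfsg.Agent.Lib.Helper77.mapIrr_apply]
      have hmem : x⁻¹ * (((Subgroup.subgroupOfEquivOfLe hHN).symm.symm.symm h' :
          H.subgroupOf (Subgroup.normalizer (P : Set G))) : Subgroup.normalizer (P : Set G)) * x ∈
          H.subgroupOf (Subgroup.normalizer (P : Set G)) := by
        have := hNn.conj_mem _ ((Subgroup.subgroupOfEquivOfLe hHN).symm.symm.symm h').2 x⁻¹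
        simpa using this
      rw [Cfsg.Agent.Lib.Helper16.conjIrr_apply _ _ x _ hmem,
        Cfsg.Agent.Lib.Helper77.mapIrr_apply]
      refine congrArg (θ : H → ℂ) (Subtype.ext ?_)
      show ((x : G))⁻¹ * (h' : G) * (x : G) = (h : G)
      rw [hh]; group
    · intro hx
      refine ⟨x.2, ?_⟩
      intro θ hθ θ' hθ'
      have h1 := hx _ (⟨θ, hθ, rfl⟩ : Cfsg.Agent.Lib.Helper77.mapIrr
        (Subgroup.subgroupOfEquivOfLe hHN).symm θ ∈ Cfsg.Agent.Lib.Helper77.pullSet hHN b)
      obtain ⟨θ₂, hθ₂, h2⟩ := h1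
      have : θ' = θ₂ := by
        apply Subtype.ext
        funext h'
        have hmemG : (x : G)⁻¹ * (h' : G) * (x : G) ∈ H := by
          have := (Subgroup.mem_normalizer_iff''.mp (hNH x.2) (h' : G)).mp h'.2
          exact this
        rw [hθ' ⟨(x : G)⁻¹ * (h' : G) * (x : G), hmemG⟩ h' (by simp [mul_assoc])]
        have h3 : (Cfsg.Agent.Lib.Helper77.mapIrr (Subgroup.subgroupOfEquivOfLe hHN).symm θ₂ :
            H.subgroupOf (Subgroup.normalizer (P : Set G)) → ℂ)
              ((Subgroup.subgroupOfEquivOfLe hHN).symm h') =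
            (Cfsg.Agent.Lib.Helper16.conjIrr (H.subgroupOf (Subgroup.normalizer (P : Set G)))
              (Cfsg.Agent.Lib.Helper77.mapIrr (Subgroup.subgroupOfEquivOfLe hHN).symm θ) x :
              H.subgroupOf (Subgroup.normalizer (P : Set G)) → ℂ)
              ((Subgroup.subgroupOfEquivOfLe hHN).symm h') := by rw [h2]
        rw [Cfsg.Agent.Lib.Helper77.mapIrr_apply_apply] at h3
        rw [h3]
        have hmem : x⁻¹ * (((Subgroup.subgroupOfEquivOfLe hHN).symm h' :
            H.subgroupOf (Subgroup.normalizer (P : Set G))) : Subgroup.normalizer (P : Set G)) * x ∈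
            H.subgroupOf (Subgroup.normalizer (P : Set G)) := by
          have := hNn.conj_mem _ ((Subgroup.subgroupOfEquivOfLe hHN).symm h').2 x⁻¹
          simpa using this
        rw [Cfsg.Agent.Lib.Helper16.conjIrr_apply _ _ x _ hmem,
          Cfsg.Agent.Lib.Helper77.mapIrr_apply]
        exact congrArg (θ : H → ℂ) (Subtype.ext rfl)
      rw [this]
      exact hθ₂
  obtain ⟨θ₀, hθ₀⟩ := Cfsg.Agent.Lib.Helper16.IsPBlock.nonempty hMp hbX
  obtain ⟨χ₀, hχ₀⟩ := Cfsg.Agent.Lib.Helper16.exists_irr_over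
    (H.subgroupOf (Subgroup.normalizer (P : Set G))) θ₀
  have hB₀ : Cfsg.IsPBlock M (Cfsg.blockOf M (χ₀ : Subgroup.normalizer (P : Set G) → ℂ)) :=
    ⟨χ₀, rfl⟩
  have hcov : ∃ χ ∈ Cfsg.blockOf M (χ₀ : Subgroup.normalizer (P : Set G) → ℂ),
      ∃ θ ∈ Cfsg.Agent.Lib.Helper77.pullSet hHN b,
        Cfsg.classInner (fun n : H.subgroupOf (Subgroup.normalizer (P : Set G)) =>
          (χ : Subgroup.normalizer (P : Set G) → ℂ) n)
          (θ : H.subgroupOf (Subgroup.normalizer (P : Set G)) → ℂ) ≠ 0 :=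
    ⟨χ₀, Cfsg.Agent.Lib.Helper16.mem_blockOf_self hMp χ₀, θ₀, hθ₀, hχ₀⟩
  have key := Cfsg.Agent.Lib.Helper32.stab_defect hM
    (P.subgroupOf (Subgroup.normalizer (P : Set G))) hQ
    (H.subgroupOf (Subgroup.normalizer (P : Set G))) hCN
    (Cfsg.Agent.Lib.Helper77.pullSet hHN b) hbX hcard
    (T.subgroupOf (Subgroup.normalizer (P : Set G))) hNT hstab _ hB₀ hcov
  rw [Subgroup.relIndex_subgroupOf hTN] at key
  have hindX := Cfsg.Agent.Lib.Helper32.cover_induced hM
    (P.subgroupOf (Subgroup.normalizer (P : Set G))) hQ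
    (H.subgroupOf (Subgroup.normalizer (P : Set G))) hCN
    (Cfsg.Agent.Lib.Helper77.pullSet hHN b) hbX _ hB₀ hcov
  obtain ⟨B₁, hB₁⟩ := Cfsg.Agent.Lib.Helper77.exists_isInducedBlock_of_isPBlock hM P
    (Subgroup.normalizer (P : Set G)) hP hPN hCN1 le_rfl _ hB₀
  have hb1 : Cfsg.IsInducedBlock M H b B₁ :=
    Cfsg.Agent.Lib.Helper78.efm_trans hMp hHN b _ B₁ hindX hB₁
  have hBB : B₁ = B := Cfsg.Agent.Lib.Helper78.efm_unique hMp hb1 hind
  subst hBB
  rw [← key]
  constructor
  · intro hPB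
    exact Cfsg.Agent.Lib.Helper78.efm_isDefectGroup hM B₁ hind.2.1 P hPB
      (Subgroup.normalizer (P : Set G)) hPN le_rfl _ hB₁
  · intro hQB
    exact Cfsg.Agent.Lib.Helper16.firstMain_i hM P hP _ hB₀ hQB B₁ hB₁

end Cfsg.Agent.S4437
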