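import Cfsg.Statements.S4637
import Mathlib
import Cfsg.Agent.Lib.Helper79.KleinThree
import Cfsg.Agent.Lib.Helper46.KleinStab
import Cfsg.Agent.Lib.Helper78.ExtFirstMain
import Cfsg.Agent.Lib.Helper3.KnorrTr
import Cfsg.Agent.S4437

set_option autoImplicit false
open Cfsg

namespace Cfsg.Agent.S4637

/-- Let B be a block of the finite group G relative to a maximal ideal M of the algebraic integers containing 2, with a Klein four defect group P. Let c be a block of C_G(P) inducing B, T the stabilizer of c in N_G(P) and e the index of C_G(P) in T (the inertial index). Then e is 1 or 3, B contains exactly four irreducible characters, and the 2-regular rank of B (its number of irreducible Brauer characters) equals e. -/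
theorem result {G : Type*} [Group G] [Finite G] (M : Ideal Cfsg.AlgInt) (hM : Cfsg.IsPModular 2 M) (B : Set (Cfsg.IrrCharacter G)) (hB : Cfsg.IsPBlock M B) (P : Subgroup G) (hPD : Cfsg.IsDefectGroup 2 M B P) (hV : IsKleinFour P) (c : Set (Cfsg.IrrCharacter (Subgroup.centralizer (P : Set G)))) (hc : Cfsg.IsInducedBlock M (Subgroup.centralizer (P : Set G)) c B) (T : Subgroup G) (hT : ∀ g : G, g ∈ T ↔ (g ∈ Subgroup.normalizer (P : Set G) ∧ Cfsg.StabilizesBlock (Subgroup.centralizer (P : Set G)) c g)) (e : ℕ) (he : (Subgroup.centralizer (P : Set G)).relIndex T = e) : (e = 1 ∨ e = 3) ∧ Nat.card B = 4 ∧ Cfsg.blockRank 2 B = e := by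
  classical
  haveI : Fact (Nat.Prime 2) := ⟨Nat.prime_two⟩
  letI : Fintype G := Fintype.ofFinite G
  have hMp := Cfsg.Agent.Lib.Helper16.isPrime_of_isPModular hM
  have hcard : Nat.card P = 4 := hV.card_four
  have hab : ∀ x ∈ P, ∀ y ∈ P, x * y = y * x := by
    intro x hx y hy
    have h1 := mul_comm_of_exponent_two hV.exponent_two (⟨x, hx⟩ : P) ⟨y, hy⟩
    exact congrArg Subtype.val h1
  have hPp : IsPGroup 2 P := IsPGroup.of_card (n := 2) (by rw [hcard]; norm_num)
  have hPC : P ≤ Subgroup.centralizer (P : Set G) := by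
    intro x hx
    rw [Subgroup.mem_centralizer_iff]
    intro y hy
    exact hab y hy x hx
  have hPc := Cfsg.Agent.Lib.Helper77.isBrauerPairOf_of_isInducedBlock hM hPp hc
  have hmax := Cfsg.Agent.Lib.Helper77.isMaximalBrauerPair_of_isDefectGroup hM hPc hPD
  have hk : Nat.card B = 4 :=
    Cfsg.Agent.Lib.Helper79.card_block_of_defect_two hM B hB P hPD hcard
  -- the inertial group lies between the centralizer and the normalizer
  have hCT : Subgroup.centralizer (P : Set G) ≤ T := by
    intro g hg
    rw [hT]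
    exact ⟨Subgroup.centralizer_le_normalizer _ hg,
      Cfsg.Agent.Lib.Helper77.stabilizesBlock_of_mem _ c hg⟩
  have hTN : T ≤ Subgroup.normalizer (P : Set G) := fun g hg => ((hT g).mp hg).1
  -- the inertial index is odd
  have hodd : ¬ 2 ∣ (Subgroup.centralizer (P : Set G)).relIndex T := by
    letI : Fintype (Subgroup.centralizer (P : Set G)) := Fintype.ofFinite _
    have hcD := Cfsg.Agent.Lib.Helper78.efm_isDefectGroup hM B hB P hPD
      (Subgroup.centralizer (P : Set G)) hPC (Subgroup.centralizer_le_normalizer _) c hc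
    have hT' : ∀ g : G, g ∈ T ↔ (g ∈ Subgroup.normalizer (P : Set G) ∧
        ∀ θ ∈ c, ∀ θ' : Cfsg.IrrCharacter (Subgroup.centralizer (P : Set G)),
          (∀ h h' : Subgroup.centralizer (P : Set G), (h' : G) = g * h * g⁻¹ →
            (θ' : Subgroup.centralizer (P : Set G) → ℂ) h' =
              (θ : Subgroup.centralizer (P : Set G) → ℂ) h) → θ' ∈ c) := by
      intro g
      rw [hT]
      constructor
      · rintro ⟨hgN, hgS⟩
        exact ⟨hgN, (Cfsg.Agent.Lib.Helper3.KnorrTr.stabilizesBlock_iff_forall _ c g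
          (Cfsg.Agent.Lib.Helper77.normalizer_le_normalizer_centralizer P hgN)).mp hgS⟩
      · rintro ⟨hgN, hgS⟩
        exact ⟨hgN, (Cfsg.Agent.Lib.Helper3.KnorrTr.stabilizesBlock_iff_forall _ c g
          (Cfsg.Agent.Lib.Helper77.normalizer_le_normalizer_centralizer P hgN)).mpr hgS⟩
    exact (Cfsg.Agent.S4437.result 2 M hM P hPp (Subgroup.centralizer (P : Set G))
      (sup_eq_right.mpr hPC).symm c hc.1 hcD B hc T hT').mp hPD
  rcases Cfsg.Agent.Lib.Helper46.klein_stab_structure P hV (Subgroup.centralizer (P : Set G)) T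
    rfl hCT hTN hodd with h1 | ⟨h3, hfree, htrans⟩
  · refine ⟨Or.inl (by rw [← he, h1]), hk, ?_⟩
    rw [← he, h1]
    have h := Cfsg.Agent.Lib.Helper79.klein_rank_one hM B P c hmax hcard hab (by
      intro x hxN hxS
      have hx : x ∈ T := (hT x).mpr ⟨hxN, hxS⟩
      exact (Subgroup.relIndex_eq_one.mp h1) hx)
    rw [h]
  · refine ⟨Or.inr (by rw [← he, h3]), hk, ?_⟩
    rw [← he, h3]
    have h := Cfsg.Agent.Lib.Helper79.klein_rank_three hM B P c hmax hcard hab (by
      intro t htN htS u hu hu1 htu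
      exact hfree t ((hT t).mpr ⟨htN, htS⟩) u hu hu1 htu) (by
      intro u hu hu1 u' hu' hu1'
      obtain ⟨t, ht, htu⟩ := htrans u hu hu1 u' hu' hu1'
      exact ⟨t, ((hT t).mp ht).1, ((hT t).mp ht).2, htu⟩)
    rw [h]

end Cfsg.Agent.S4637
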