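import Cfsg.Statements.S1600
import Cfsg.Agent.Lib.Helper27.DodStab

set_option autoImplicit false
open scoped Pointwise
open Cfsg

namespace Cfsg.Agent.S1600

open Cfsg.Agent.Lib.Helper7 Cfsg.Agent.Lib.Helper27.OO Cfsg.Agent.Lib.Helper27.Dod in
/-- The pointwise stabiliser of three points of a dodecad inside the dodecad stabiliser (order 72) is transitive on the complementary dodecad. -/
theorem result (d : Finset Cfsg.GolayPt) (hd : d ∈ Cfsg.dodecads) (p q r : Cfsg.GolayPt) (hp : p ∈ d) (hq : q ∈ d) (hr : r ∈ d) (hpq : p ≠ q) (hpr : p ≠ r) (hqr : q ≠ r) : Nat.card ↥(MulAction.stabilizer Cfsg.M24 d ⊓ MulAction.stabilizer Cfsg.M24 p ⊓ MulAction.stabilizer Cfsg.M24 q ⊓ MulAction.stabilizer Cfsg.M24 r) = 72 ∧ ∀ x ∉ d, ∀ y ∉ d, ∃ g ∈ (MulAction.stabilizer Cfsg.M24 d ⊓ MulAction.stabilizer Cfsg.M24 p ⊓ MulAction.stabilizer Cfsg.M24 q ⊓ MulAction.stabilizer Cfsg.M24 r), ((g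 : ↥Cfsg.M24) : Equiv.Perm Cfsg.GolayPt) x = y := by
  obtain ⟨g1, hg1, hg1p, hg1q, hg1r⟩ := exists_map3 hpq hpr hqr (p' := pt 23) (q' := pt 0)
    (r' := pt 1) (by decide) (by decide) (by decide)
  have hi1 : Inc (g1 • d) := by
    unfold Inc
    rw [← hg1p, ← hg1q, ← hg1r, apply_mem_smul_iff, apply_mem_smul_iff, apply_mem_smul_iff]
    exact ⟨hp, hq, hr⟩
  have hd1 : g1 • d ∈ Cfsg.dodecads :=
    ⟨smul_mem_golaySupports hg1 hd.1, by rw [Finset.card_smul_finset]; exact hd.2⟩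
  obtain ⟨u, hu, hud⟩ := lvl1 hd1 hi1
  have hu' := (fixSub_F_iff u).mp hu
  have hg : u * g1 ∈ Cfsg.M24 := Cfsg.M24.mul_mem hu'.1 hg1
  have hgp : (u * g1) p = pt 23 := by rw [Equiv.Perm.mul_apply, hg1p, hu'.2.1]
  have hgq : (u * g1) q = pt 0 := by rw [Equiv.Perm.mul_apply, hg1q, hu'.2.2.1]
  have hgr : (u * g1) r = pt 1 := by rw [Equiv.Perm.mul_apply, hg1r, hu'.2.2.2]
  have hgd : (u * g1) • d = setOf R := by rw [mul_smul, hud]
  generalize u * g1 = g at hg hgp hgq hgr hgd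
  have memA : ∀ a : ↥Cfsg.M24, a ∈ (MulAction.stabilizer Cfsg.M24 d ⊓ MulAction.stabilizer Cfsg.M24 p ⊓
      MulAction.stabilizer Cfsg.M24 q ⊓ MulAction.stabilizer Cfsg.M24 r) ↔
      ((a : Equiv.Perm Cfsg.GolayPt) • d = d ∧ (a : Equiv.Perm Cfsg.GolayPt) p = p ∧
        (a : Equiv.Perm Cfsg.GolayPt) q = q ∧ (a : Equiv.Perm Cfsg.GolayPt) r = r) := by
    intro a
    simp only [Subgroup.mem_inf, MulAction.mem_stabilizer_iff, and_assoc]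
    rfl
  have hginv23 : g⁻¹ (pt 23) = p := by rw [Equiv.Perm.inv_eq_iff_eq, hgp]
  have hginv0 : g⁻¹ (pt 0) = q := by rw [Equiv.Perm.inv_eq_iff_eq, hgq]
  have hginv1 : g⁻¹ (pt 1) = r := by rw [Equiv.Perm.inv_eq_iff_eq, hgr]
  have toA0 : ∀ a : Equiv.Perm Cfsg.GolayPt, a ∈ Cfsg.M24 → a • d = d → a p = p → a q = q →
      a r = r → g * a * g⁻¹ ∈ A0 := by
    intro a ha had hap haq har
    rw [mem_A0_iff]
    refine ⟨⟨Cfsg.M24.mul_mem (Cfsg.M24.mul_mem hg ha) (Cfsg.M24.inv_mem hg), ?_, ?_, ?_⟩, ?_⟩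
    · rw [Equiv.Perm.mul_apply, Equiv.Perm.mul_apply, hginv23, hap, hgp]
    · rw [Equiv.Perm.mul_apply, Equiv.Perm.mul_apply, hginv0, haq, hgq]
    · rw [Equiv.Perm.mul_apply, Equiv.Perm.mul_apply, hginv1, har, hgr]
    · rw [mul_smul, mul_smul, ← hgd, inv_smul_smul, had]
  have fromA0 : ∀ v ∈ A0, (g⁻¹ * v * g ∈ Cfsg.M24) ∧ ((g⁻¹ * v * g) • d = d ∧
      (g⁻¹ * v * g) p = p ∧ (g⁻¹ * v * g) q = q ∧ (g⁻¹ * v * g) r = r) := by
    intro v hv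
    rw [mem_A0_iff] at hv
    obtain ⟨⟨hv1, h23, h0, h1⟩, hR⟩ := hv
    refine ⟨Cfsg.M24.mul_mem (Cfsg.M24.mul_mem (Cfsg.M24.inv_mem hg) hv1) hg, ?_, ?_, ?_, ?_⟩
    · exact conj_smul g v d d (by rw [hgd, hR])
    · exact conj_apply g v p (by rw [hgp, h23])
    · exact conj_apply g v q (by rw [hgq, h0])
    · exact conj_apply g v r (by rw [hgr, h1])
  refine ⟨?_, ?_⟩
  · rw [← card_A0]
    apply Nat.card_congr
    refine ⟨fun a => ⟨g * (a.1 : Equiv.Perm Cfsg.GolayPt) * g⁻¹,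
        toA0 _ a.1.2 ((memA a.1).mp a.2).1 ((memA a.1).mp a.2).2.1 ((memA a.1).mp a.2).2.2.1
          ((memA a.1).mp a.2).2.2.2⟩,
      fun v => ⟨⟨g⁻¹ * v.1 * g, (fromA0 v.1 v.2).1⟩, (memA _).mpr (fromA0 v.1 v.2).2⟩, ?_, ?_⟩
    · intro a
      apply Subtype.ext
      apply Subtype.ext
      show g⁻¹ * (g * (a.1 : Equiv.Perm Cfsg.GolayPt) * g⁻¹) * g = (a.1 : Equiv.Perm Cfsg.GolayPt)
      group
    · intro v
      apply Subtype.ext
      show g * (g⁻¹ * v.1 * g) * g⁻¹ = v.1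
      group
  · intro x hx y hy
    have hx' : g x ∉ setOf R := by
      rw [← hgd, apply_mem_smul_iff]; exact hx
    have hy' : g y ∉ setOf R := by
      rw [← hgd, apply_mem_smul_iff]; exact hy
    obtain ⟨v, hv, hvxy⟩ := A0_trans hx' hy'
    refine ⟨⟨g⁻¹ * v * g, (fromA0 v hv).1⟩, (memA _).mpr (fromA0 v hv).2, ?_⟩
    show (g⁻¹ * v * g) x = y
    rw [Equiv.Perm.mul_apply, Equiv.Perm.mul_apply, hvxy]
    simp

end Cfsg.Agent.S1600
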