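import Cfsg.Statements.S1592
import Cfsg.Agent.Lib.Helper27.TernaryGolay
import Cfsg.Agent.Lib.Helper27.Bits

set_option autoImplicit false
open Cfsg

namespace Cfsg.Agent.S1592

open Cfsg.Agent.Lib.Helper27.TG
open Cfsg.Agent.Lib.Helper27.Bits

/-- numbering of the twelve positions -/
def eA : ArrayPt ≃ Fin 12 where
  toFun p := ⟨3 * p.1.val + p.2.val, by
    have h1 := p.1.isLt
    have h2 : p.2.val < 3 := ZMod.val_lt p.2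
    omega⟩
  invFun k := ((⟨k.val / 3, by have := k.isLt; omega⟩ : Fin 4), ((⟨k.val % 3, by omega⟩ : Fin 3) : ZMod 3))
  left_inv := by decide
  right_inv := by decide

/-- the 132 hexads as masks, each with a code word having that support -/
def WL : List (ℕ × P6) := [(63, (1, 1, 1, 2, 2, 0)), (222, (0, 1, 2, 1, 2, 2)), (237, (1, 0, 2, 1, 0, 1)), (243, (1, 2, 0, 0, 1, 2)), (347, (1, 2, 0, 1, 2, 1)), (366, (0, 1, 2, 2, 0, 1)), (373, (1, 0, 2, 0, 2, 2)), (413, (1, 0, 2, 2, 1, 0)), (427, (1, 2, 0, 2, 0, 0)), (438, (0, 1, 2, 0, 1, 0)), (455, (1, 1, 1, 0, 0, 2)), (504, (0, 0, 0, 1, 1, 2)), (591, (1, 2, 2, 2, 0, 2)), (630, (0, 1, 1, 0, 1, 2)), (633, (1, 0, 0, 2, 1, 1)), (667, (1, 1, 0, 1, 1, 0)), (679, (1, 1, 2, 0, 0, 0)), (700, (0, 0, 1, 1, 1, 0)), (725, (1, 0, 1, 0, 2, 1)), (746, (0, 1, 0, 2, 0, 2)), (791, (1, 2, 1, 0, 1, 0)), (813, (1,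 0, 1, 1, 0, 0)), (826, (0, 1, 0, 1, 2, 0)), (860, (0, 0, 1, 2, 2, 2)), (867, (1, 1, 0, 0, 0, 1)), (910, (0, 1, 1, 2, 0, 0)), (945, (1, 0, 0, 0, 2, 0)), (969, (1, 0, 0, 1, 0, 2)), (978, (0, 1, 0, 0, 1, 1)), (996, (0, 0, 1, 0, 0, 1)), (1117, (1, 0, 1, 1, 1, 2)), (1127, (1, 2, 1, 0, 0, 1)), (1146, (0, 1, 0, 1, 1, 1)), (1175, (1, 2, 2, 0, 2, 0)), (1198, (0, 1, 1, 1, 0, 0)), (1209, (1, 0, 0, 1, 2, 0)), (1227, (1, 1, 0, 2, 0, 1)), (1268, (0, 0, 1, 0, 2, 2)), (1295, (1, 1, 2, 1, 0, 0)), (1331, (1, 1, 0, 0, 1, 0)), (1340, (0, 0, 1, 2, 1, 0)), (1366, (0, 1, 1, 0, 2, 1)), (1385, (1, 0, 0, 2, 0, 2)), (1434, (0, 1, 0, 2, 2, 0)), (1445, (1, 0, 1, 0, 0, 0)), (1484, (0, 0, 1, 1, 0, 1)), (1489, (1, 0, 0, 0, 1, 1)), (1506, (0, 1, 0, 0, 0, 2)), (1566, (0, 1, 2, 2, 1, 0)), (1579, (1, 2, 0, 1, 0, 0)), (1589, (1, 0, 2, 0, 1, 0)), (1619, (1, 1, 0, 0, 2, 2)),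 (1644, (0, 0, 1, 2, 0, 1)), (1677, (1, 0, 1, 2, 0, 0)), (1714, (0, 1, 0, 0, 2, 0)), (1734, (0, 1, 2, 0, 0, 1)), (1752, (0, 0, 0, 1, 2, 1)), (1761, (1, 0, 0, 0, 0, 2)), (1817, (1, 0, 0, 2, 2, 0)), (1830, (0, 1, 1, 0, 0, 0)), (1861, (1, 0, 2, 0, 0, 1)), (1866, (0, 1, 0, 1, 0, 2)), (1904, (0, 0, 0, 0, 1, 2)), (1923, (1, 2, 0, 0, 0, 0)), (1940, (0, 0, 1, 0, 1, 0)), (1960, (0, 0, 0, 1, 0, 0)), (2135, (1, 1, 2, 0, 1, 1)), (2155, (1, 1, 0, 1, 0, 2)), (2172, (0, 0, 1, 1, 2, 1)), (2191, (1, 2, 1, 1, 0, 0)), (2229, (1, 0, 1, 0, 1, 0)), (2234, (0, 1, 0, 2, 1, 0)), (2265, (1, 0, 0, 2, 2, 2)), (2278, (0, 1, 1, 0, 0, 1)), (2334, (0, 1, 1, 1, 1, 0)), (2343, (1, 2, 2, 0, 0, 0)), (2361, (1, 0, 0, 1, 1, 0)), (2381, (1, 0, 1, 2, 0, 1)), (2418, (0, 1, 0, 0, 2, 2)), (2451, (1, 1, 0, 0, 2, 0)), (2476, (0, 0, 1, 2, 0, 0)), (2506, (0, 1, 0, 1, 0, 1)), (2516,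 (0, 0, 1, 0, 1, 2)), (2529, (1, 0, 0, 0, 0, 1)), (2589, (1, 0, 2, 1, 2, 0)), (2606, (0, 1, 2, 1, 0, 0)), (2611, (1, 2, 0, 0, 2, 0)), (2650, (0, 1, 0, 2, 2, 1)), (2661, (1, 0, 1, 0, 0, 2)), (2710, (0, 1, 1, 0, 2, 0)), (2729, (1, 0, 0, 2, 0, 0)), (2755, (1, 2, 0, 0, 0, 1)), (2764, (0, 0, 1, 1, 0, 2)), (2800, (0, 0, 0, 0, 1, 1)), (2827, (1, 1, 0, 2, 0, 0)), (2868, (0, 0, 1, 0, 2, 0)), (2886, (0, 1, 2, 0, 0, 2)), (2897, (1, 0, 0, 0, 1, 2)), (2920, (0, 0, 0, 1, 0, 1)), (2949, (1, 0, 2, 0, 0, 0)), (2968, (0, 0, 0, 1, 2, 0)), (2978, (0, 1, 0, 0, 0, 0)), (3099, (1, 2, 0, 2, 1, 0)), (3117, (1, 0, 2, 2, 0, 0)), (3126, (0, 1, 2, 0, 2, 0)), (3150, (0, 1, 1, 2, 0, 2)), (3185, (1, 0, 0, 0, 2, 1)), (3228, (0, 0, 1, 2, 2, 0)), (3235, (1, 1, 0, 0, 0, 0)), (3269, (1, 0, 2, 0, 0, 2)), (3282, (0, 1, 0, 0, 1, 2)), (3304, (0, 0, 0, 1, 0, 2)), (3349, (1, 0,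 1, 0, 2, 0)), (3370, (0, 1, 0, 2, 0, 0)), (3395, (1, 2, 0, 0, 0, 2)), (3416, (0, 0, 0, 1, 2, 2)), (3428, (0, 0, 1, 0, 0, 2)), (3462, (0, 1, 2, 0, 0, 0)), (3465, (1, 0, 0, 1, 0, 0)), (3504, (0, 0, 0, 0, 1, 0)), (3591, (1, 1, 1, 0, 0, 0)), (3640, (0, 0, 0, 1, 1, 0)), (3657, (1, 0, 0, 1, 0, 1)), (3668, (0, 0, 1, 0, 1, 1)), (3682, (0, 1, 0, 0, 0, 1)), (3722, (0, 1, 0, 1, 0, 0)), (3729, (1, 0, 0, 0, 1, 0)), (3748, (0, 0, 1, 0, 0, 0)), (3852, (0, 0, 1, 1, 0, 0)), (3858, (0, 1, 0, 0, 1, 0)), (3873, (1, 0, 0, 0, 0, 0)), (4032, (0, 0, 0, 0, 0, 1))]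

/-- the 132 hexads as masks -/
def BL : List ℕ := [63, 222, 237, 243, 347, 366, 373, 413, 427, 438, 455, 504, 591, 630, 633, 667, 679, 700, 725, 746, 791, 813, 826, 860, 867, 910, 945, 969, 978, 996, 1117, 1127, 1146, 1175, 1198, 1209, 1227, 1268, 1295, 1331, 1340, 1366, 1385, 1434, 1445, 1484, 1489, 1506, 1566, 1579, 1589, 1619, 1644, 1677, 1714, 1734, 1752, 1761, 1817, 1830, 1861, 1866, 1904, 1923, 1940, 1960, 2135, 2155, 2172, 2191, 2229, 2234, 2265, 2278, 2334, 2343, 2361, 2381, 2418, 2451, 2476, 2506, 2516, 2529, 2589, 2606, 2611, 2650, 2661, 2710, 2729, 2755, 2764, 2800, 2827, 2868, 2886, 2897, 2920, 2949, 2968, 2978, 3099, 3117, 3126, 3150, 3185, 3228, 3235, 3269, 3282, 3304, 3349, 3370, 3395, 3416, 3428, 3462, 3465, 3504, 3591, 3640, 3657, 3668, 3682, 3722, 3729, 3748, 3852, 3858, 3873, 4032]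

theorem BL_eq : BL = WL.map Prod.fst := by decide

theorem wit : ∀ bm ∈ WL, toMask eA (ternarySupport (wordP bm.2)) = bm.1 ∧
    (ternarySupport (wordP bm.2)).card = 6 := by
  decide +kernel

theorem all6 : ∀ m : P6, (ternarySupport (wordP m)).card = 6 →
    toMask eA (ternarySupport (wordP m)) ∈ BL := by
  decide +kernel

theorem steiner0 : ∀ i < 64, ∀ j < 64, popc 12 (64 * i + j) = 5 →
    (BL.filter (fun b => (64 * i + j) &&& b == (64 * i + j))).length = 1 := by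
  decide +kernel

theorem steiner : ∀ m < 2 ^ 12, popc 12 m = 5 → (BL.filter (fun b => m &&& b == m)).length = 1 :=
  forall_lt_of_split 64 64 steiner0

theorem BL_nodup : BL.Nodup := by decide +kernel

theorem BL_lt : ∀ b ∈ BL, b < 2 ^ 12 := by decide +kernel

theorem mem_B (h : Finset ArrayPt) :
    (∃ x ∈ ternaryGolayCode, ternarySupport x = h ∧ h.card = 6) ↔ ∃ b ∈ BL, h = ofMask eA b := by
  constructor
  · rintro ⟨x, hx, rfl, hc⟩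
    obtain ⟨m, rfl⟩ := (mem_iff' x).mp hx
    exact ⟨_, all6 m hc, (ofMask_toMask eA _).symm⟩
  · rintro ⟨b, hb, rfl⟩
    rw [BL_eq, List.mem_map] at hb
    obtain ⟨bm, hbm, rfl⟩ := hb
    obtain ⟨h1, h2⟩ := wit bm hbm
    refine ⟨wordP bm.2, (mem_iff' _).mpr ⟨bm.2, rfl⟩, ?_, ?_⟩
    · rw [← h1, ofMask_toMask]
    · rw [← h1, ofMask_toMask]; exact h2

/-- The supports of the weight-6 words of the length-12 ternary code form a Steiner system S(5, 6, 12) with 132 blocks. -/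
theorem result : Cfsg.IsSteinerSystem 5 6 {h : Finset Cfsg.ArrayPt | ∃ x ∈ Cfsg.ternaryGolayCode, Cfsg.ternarySupport x = h ∧ h.card = 6} ∧ {h : Finset Cfsg.ArrayPt | ∃ x ∈ Cfsg.ternaryGolayCode, Cfsg.ternarySupport x = h ∧ h.card = 6}.ncard = 132 := by
  refine ⟨⟨?_, ?_⟩, ?_⟩
  · rintro b ⟨x, hx, rfl, hc⟩
    exact hc
  · intro s
    refine forall_finset eA (P := fun s => s.card = 5 → ∃! b, b ∈ {h : Finset Cfsg.ArrayPt | ∃ x ∈ Cfsg.ternaryGolayCode, Cfsg.ternarySupport x = h ∧ h.card = 6} ∧ s ⊆ b) ?_ s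
    intro m hm hc
    rw [card_ofMask] at hc
    have h1 := steiner m hm hc
    obtain ⟨b0, hb0⟩ := List.length_eq_one_iff.mp h1
    have hb0mem : b0 ∈ BL.filter (fun b => m &&& b == m) := by rw [hb0]; simp
    rw [List.mem_filter] at hb0mem
    obtain ⟨hb0BL, hb0and⟩ := hb0mem
    have hb0and' : m &&& b0 = m := by simpa using hb0and
    refine ⟨ofMask eA b0, ⟨(mem_B _).mpr ⟨b0, hb0BL, rfl⟩, (subset_iff eA hm).mpr hb0and'⟩, ?_⟩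
    rintro h ⟨hB, hsub⟩
    obtain ⟨b, hb, rfl⟩ := (mem_B h).mp hB
    have hand : m &&& b = m := (subset_iff eA hm).mp hsub
    have hbmem : b ∈ BL.filter (fun b => m &&& b == m) := by
      rw [List.mem_filter]; exact ⟨hb, by simpa using hand⟩
    rw [hb0] at hbmem
    rw [List.mem_singleton.mp hbmem]
  · have hset : {h : Finset Cfsg.ArrayPt | ∃ x ∈ Cfsg.ternaryGolayCode, Cfsg.ternarySupport x = h ∧ h.card = 6}
        = ((BL.toFinset.image (ofMask eA) : Finset (Finset ArrayPt)) : Set (Finset ArrayPt)) := by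
      ext h
      rw [Set.mem_ofPred_eq, mem_B, Finset.mem_coe, Finset.mem_image]
      constructor
      · rintro ⟨b, hb, rfl⟩
        exact ⟨b, List.mem_toFinset.mpr hb, rfl⟩
      · rintro ⟨b, hb, rfl⟩
        exact ⟨b, List.mem_toFinset.mp hb, rfl⟩
    rw [hset, Set.ncard_coe_finset, Finset.card_image_of_injOn, List.toFinset_card_of_nodup BL_nodup]
    · decide +kernel
    · intro b hb b' hb' hbb'
      rw [Finset.mem_coe, List.mem_toFinset] at hb hb'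
      exact ofMask_inj eA (BL_lt b hb) (BL_lt b' hb') hbb'

end Cfsg.Agent.S1592
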