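import Cfsg.Statements.S1593
import Cfsg.Agent.Lib.Helper27.TernaryGolay

set_option autoImplicit false
open Cfsg

namespace Cfsg.Agent.S1593

open Cfsg.Agent.Lib.Helper27.TG

theorem conn : ∀ q : ArrayPt, ∃ m : P6, (ternarySupport (wordP m)).card = 6 ∧
    wordP m (0, 0) ≠ 0 ∧ wordP m q ≠ 0 := by
  decide +kernel

theorem units3 : ∀ u : (ZMod 3)ˣ, u = 1 ∨ u = -1 := by decide

/-- The only sign changes preserving the length-12 ternary code are the identity and negation of all coordinates. -/
theorem result (c : Cfsg.ArrayPt → (ZMod 3)ˣ) (h : (∀ x ∈ Cfsg.ternaryGolayCode, Cfsg.monomialMap 1 c x ∈ Cfsg.ternaryGolayCode)) : (∀ p, c p = 1) ∨ (∀ p, c p = -1) := by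
  have key : ∀ q, c q = c (0, 0) := by
    intro q
    obtain ⟨m, hm6, hm0, hmq⟩ := conn q
    have hxmem : wordP m ∈ ternaryGolayCode := (mem_iff' _).mpr ⟨m, rfl⟩
    have hwmem : ((c (0, 0) : (ZMod 3)ˣ) : ZMod 3) • wordP m - monomialMap 1 c (wordP m)
        ∈ ternaryGolayCode :=
      Submodule.sub_mem _ (Submodule.smul_mem _ _ hxmem) (h _ hxmem)
    have hwp : ∀ p, (((c (0, 0) : (ZMod 3)ˣ) : ZMod 3) • wordP m - monomialMap 1 c (wordP m)) p
        = ((c (0, 0) : ZMod 3) - (c p : ZMod 3)) * wordP m p := by
      intro p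
      have h1 : (1 : Equiv.Perm ArrayPt).symm p = p := rfl
      simp only [Pi.sub_apply, Pi.smul_apply, smul_eq_mul, monomialMap, h1]
      ring
    have hw0 : ((c (0, 0) : (ZMod 3)ˣ) : ZMod 3) • wordP m - monomialMap 1 c (wordP m) = 0 := by
      by_contra hne
      have hcard := weights_mem _ hwmem hne
      have hsub : ternarySupport (((c (0, 0) : (ZMod 3)ˣ) : ZMod 3) • wordP m
          - monomialMap 1 c (wordP m)) ⊆ (ternarySupport (wordP m)).erase (0, 0) := by
        intro p hp
        simp only [ternarySupport, Finset.mem_filter, Finset.mem_univ, true_and] at hp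
        rw [Finset.mem_erase]
        refine ⟨?_, ?_⟩
        · rintro rfl
          apply hp
          rw [hwp]
          simp
        · simp only [ternarySupport, Finset.mem_filter, Finset.mem_univ, true_and]
          intro hxp
          apply hp
          rw [hwp, hxp, mul_zero]
      have hle := Finset.card_le_card hsub
      rw [Finset.card_erase_of_mem (by simp [ternarySupport, hm0]), hm6] at hle
      omega
    have hq := congrFun hw0 q
    rw [hwp] at hq
    simp only [Pi.zero_apply, mul_eq_zero] at hq
    rcases hq with h1 | h1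
    · exact (Units.ext (sub_eq_zero.mp h1)).symm
    · exact absurd h1 hmq
  rcases units3 (c (0, 0)) with h1 | h1
  · left; intro p; rw [key p, h1]
  · right; intro p; rw [key p, h1]

end Cfsg.Agent.S1593
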