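import Cfsg.Statements.S0292
import Mathlib
import Cfsg.Agent.S0286
import Cfsg.Agent.Lib.Helper14.POmegaOrder

set_option autoImplicit false
open Cfsg

namespace Cfsg.Agent.S0292

open Cfsg.Agent.Lib.Helper14

/-- 2 |PΩ_{2m+1}(q)| = q^(m^2) prod_{i=1}^{m} (q^(2i) - 1), for q odd and m at least 3 (type B_m). -/
theorem result {F : Type*} [Field F] [Fintype F] {q : ℕ} (hF : Fintype.card F = q) (hodd : Odd q) (m : ℕ) (hm : 3 ≤ m) : 2 * Nat.card (Cfsg.POmega F (Cfsg.quadFormOdd m F)) = q ^ (m ^ 2) * ∏ i ∈ Finset.range m, (q ^ (2 * (i + 1)) - 1) := by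
  have hO := Cfsg.Agent.S0286.result hF hodd m
  have h2 : (2 : F) ≠ 0 := two_ne_zero_of_card_odd (by rw [hF]; exact hodd)
  obtain ⟨E, hE, hE0⟩ := exists_ts_three (oddQF m F)
    (fun j => Sum.inr (Sum.inl (Fin.castLE hm j)))
    (fun j => Sum.inr (Sum.inr (Fin.castLE hm j)))
    (fun j => by rw [oddQF_coe]; exact odd_isHypPair m F _)
    (fun i j h => by
      have h' := Sum.inl_injective (Sum.inr_injective h)
      exact Fin.castLE_injective _ h')
    (fun i j => by simp)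
  have hQ := oddQF_nondegenerate m F h2
  have hno : ¬ ∃ g : ↥(Cfsg.isometryGroup F (Cfsg.quadFormOdd m F)),
      g ∈ Cfsg.Omega F (Cfsg.quadFormOdd m F) ∧
      ((g : Matrix.GeneralLinearGroup (Unit ⊕ (Fin m ⊕ Fin m)) F) :
        Matrix (Unit ⊕ (Fin m ⊕ Fin m)) (Unit ⊕ (Fin m ⊕ Fin m)) F) = -1 := by
    rintro ⟨g, hg, hmat⟩
    have hdet := (mem_specialIsometryGroup_iff _ g).mp
      (commutator_le_specialIsometryGroup _ hg)
    rw [hmat, Matrix.det_neg, Matrix.det_one, mul_one, Fintype.card_sum, Fintype.card_sum,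
      Fintype.card_fin, Fintype.card_unit] at hdet
    have hodd' : Odd (1 + (m + m)) := ⟨m, by ring⟩
    rw [Odd.neg_one_pow hodd'] at hdet
    apply h2
    linear_combination -hdet
  have h := card_pomega_of_not_mem h2 (oddQF m F) hQ _ (oddQF_coe m F) E hE hE0 hno
  set N := q ^ (m ^ 2) * ∏ i ∈ Finset.range m, (q ^ (2 * (i + 1)) - 1) with hN
  have hO' : Nat.card ↥(Cfsg.isometryGroup F (Cfsg.quadFormOdd m F)) = 2 * N := by
    rw [hO, hN]; ring
  omega

end Cfsg.Agent.S0292
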