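import Cfsg.Statements.S0295
import Mathlib
import Cfsg.Agent.Lib.Helper14.POmegaSimple
import Cfsg.Agent.Lib.Helper14.Forms
import Cfsg.Agent.Lib.Helper14.OmegaInv
import Cfsg.Agent.Lib.Helper44.Char2Forms

set_option autoImplicit false
open Cfsg

namespace Cfsg.Agent.S0295

open Cfsg.Agent.Lib.Helper14

/-- PΩ_{2m+1}(q) is simple for q odd and m at least 3. -/
theorem result {F : Type*} [Field F] [Fintype F] (hodd : Odd (Fintype.card F)) (m : ℕ) (hm : 3 ≤ m) : IsSimpleGroup (Cfsg.POmega F (Cfsg.quadFormOdd m F)) := by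
  exact pomega_isSimple' _ (oddQF m F) (oddQF_coe m F)
    (oddQF_nondegenerate m F (two_ne_zero_of_card_odd hodd))
    (by rw [Fintype.card_sum, Fintype.card_sum, Fintype.card_fin, Fintype.card_unit]; omega)

end Cfsg.Agent.S0295
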