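import Cfsg.Statements.S1686
import Mathlib
import Cfsg.Agent.Lib.Helper28.O7Hom
import Cfsg.Agent.S0292
import Cfsg.Agent.S0295
import Cfsg.Agent.S1687

set_option autoImplicit false
open Cfsg

namespace Cfsg.Agent.S1686

open Cfsg.Spor
open Cfsg.Agent.Lib.Helper28.O7
open Cfsg.Agent.Lib.Helper56.TC (ew ew_nil ew_cons)

/-- the relators of the presentation of `Fi₂₂` -/
abbrev R : Set (FreeGroup Fi22.Gen) := coxRelators Fi22.edges ∪ {r | r ∈ Fi22.extra}

theorem node (x : Fi22.Gen) : x ∈ coxNodes Fi22.edges := by cases x <;> decide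

/-- abbreviation for the generators of the presented group -/
noncomputable abbrev o (x : Fi22.Gen) : PresentedGroup R := PresentedGroup.of x

theorem pairP (x y : Fi22.Gen) (m : ℕ) (hm : coxLabel Fi22.edges x y = m) : (o x * o y) ^ m = 1 := by
  have hmem : (FreeGroup.of x * FreeGroup.of y) ^ m ∈ R :=
    Or.inl ⟨x, node x, y, node y, by rw [hm]⟩
  have h := PresentedGroup.one_of_mem hmem
  rw [map_pow, map_mul] at h
  exact h

theorem extraP (r : FreeGroup Fi22.Gen) (hr : r ∈ Fi22.extra) : PresentedGroup.mk R r = 1 :=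
  PresentedGroup.one_of_mem (Or.inr hr)

/-- the generators in the order b, c, d, e, f, h, i, g -/
def gen8 : ℕ → Fi22.Gen
  | 0 => .b
  | 1 => .c
  | 2 => .d
  | 3 => .e
  | 4 => .f
  | 5 => .h
  | 6 => .i
  | _ => .g

/-- the eight generators of the subgroup, in the order b, c, d, e, f, h, i, g -/
noncomputable def t (k : ℕ) : PresentedGroup R := o (gen8 k)

theorem t_sq (k : ℕ) : t k * t k = 1 := by
  have h := pairP (gen8 k) (gen8 k) 1 (by unfold coxLabel; rw [if_pos rfl])
  rwa [pow_one] at h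

theorem relT_i0 : ew (fun i => t (i % 8)) [0, 0] = 1 := by
  simpa [ew] using t_sq 0

theorem relT_i1 : ew (fun i => t (i % 8)) [1, 1] = 1 := by
  simpa [ew] using t_sq 1

theorem relT_i2 : ew (fun i => t (i % 8)) [2, 2] = 1 := by
  simpa [ew] using t_sq 2

theorem relT_i3 : ew (fun i => t (i % 8)) [3, 3] = 1 := by
  simpa [ew] using t_sq 3

theorem relT_i4 : ew (fun i => t (i % 8)) [4, 4] = 1 := by
  simpa [ew] using t_sq 4

theorem relT_i5 : ew (fun i => t (i % 8)) [5, 5] = 1 := by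
  simpa [ew] using t_sq 5

theorem relT_i6 : ew (fun i => t (i % 8)) [6, 6] = 1 := by
  simpa [ew] using t_sq 6

theorem relT_i7 : ew (fun i => t (i % 8)) [7, 7] = 1 := by
  simpa [ew] using t_sq 7

theorem relT_0 : ew (fun i => t (i % 8)) [0, 1, 0, 1, 0, 1] = 1 := by
  have h := pairP .b .c 3 (by decide)
  simpa [ew, t, gen8, pow_succ, mul_assoc] using h

theorem relT_1 : ew (fun i => t (i % 8)) [0, 2, 0, 2] = 1 := by
  have h := pairP .b .d 2 (by decide)
  simpa [ew, t, gen8, pow_succ, mul_assoc] using h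

theorem relT_2 : ew (fun i => t (i % 8)) [0, 3, 0, 3] = 1 := by
  have h := pairP .b .e 2 (by decide)
  simpa [ew, t, gen8, pow_succ, mul_assoc] using h

theorem relT_3 : ew (fun i => t (i % 8)) [0, 4, 0, 4] = 1 := by
  have h := pairP .b .f 2 (by decide)
  simpa [ew, t, gen8, pow_succ, mul_assoc] using h

theorem relT_4 : ew (fun i => t (i % 8)) [0, 5, 0, 5] = 1 := by
  have h := pairP .b .h 2 (by decide)
  simpa [ew, t, gen8, pow_succ, mul_assoc] using h

theorem relT_5 : ew (fun i => t (i % 8)) [0, 6, 0, 6] = 1 := by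
  have h := pairP .b .i 2 (by decide)
  simpa [ew, t, gen8, pow_succ, mul_assoc] using h

theorem relT_6 : ew (fun i => t (i % 8)) [0, 7, 0, 7] = 1 := by
  have h := pairP .b .g 2 (by decide)
  simpa [ew, t, gen8, pow_succ, mul_assoc] using h

theorem relT_7 : ew (fun i => t (i % 8)) [1, 2, 1, 2, 1, 2] = 1 := by
  have h := pairP .c .d 3 (by decide)
  simpa [ew, t, gen8, pow_succ, mul_assoc] using h

theorem relT_8 : ew (fun i => t (i % 8)) [1, 3, 1, 3] = 1 := by
  have h := pairP .c .e 2 (by decide)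
  simpa [ew, t, gen8, pow_succ, mul_assoc] using h

theorem relT_9 : ew (fun i => t (i % 8)) [1, 4, 1, 4] = 1 := by
  have h := pairP .c .f 2 (by decide)
  simpa [ew, t, gen8, pow_succ, mul_assoc] using h

theorem relT_10 : ew (fun i => t (i % 8)) [1, 5, 1, 5] = 1 := by
  have h := pairP .c .h 2 (by decide)
  simpa [ew, t, gen8, pow_succ, mul_assoc] using h

theorem relT_11 : ew (fun i => t (i % 8)) [1, 6, 1, 6] = 1 := by
  have h := pairP .c .i 2 (by decide)
  simpa [ew, t, gen8, pow_succ, mul_assoc] using h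

theorem relT_12 : ew (fun i => t (i % 8)) [1, 7, 1, 7] = 1 := by
  have h := pairP .c .g 2 (by decide)
  simpa [ew, t, gen8, pow_succ, mul_assoc] using h

theorem relT_13 : ew (fun i => t (i % 8)) [2, 3, 2, 3, 2, 3] = 1 := by
  have h := pairP .d .e 3 (by decide)
  simpa [ew, t, gen8, pow_succ, mul_assoc] using h

theorem relT_14 : ew (fun i => t (i % 8)) [2, 4, 2, 4] = 1 := by
  have h := pairP .d .f 2 (by decide)
  simpa [ew, t, gen8, pow_succ, mul_assoc] using h

theorem relT_15 : ew (fun i => t (i % 8)) [2, 5, 2, 5, 2, 5] = 1 := by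
  have h := pairP .d .h 3 (by decide)
  simpa [ew, t, gen8, pow_succ, mul_assoc] using h

theorem relT_16 : ew (fun i => t (i % 8)) [2, 6, 2, 6] = 1 := by
  have h := pairP .d .i 2 (by decide)
  simpa [ew, t, gen8, pow_succ, mul_assoc] using h

theorem relT_17 : ew (fun i => t (i % 8)) [2, 7, 2, 7] = 1 := by
  have h := pairP .d .g 2 (by decide)
  simpa [ew, t, gen8, pow_succ, mul_assoc] using h

theorem relT_18 : ew (fun i => t (i % 8)) [3, 4, 3, 4, 3, 4] = 1 := by
  have h := pairP .e .f 3 (by decide)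
  simpa [ew, t, gen8, pow_succ, mul_assoc] using h

theorem relT_19 : ew (fun i => t (i % 8)) [3, 5, 3, 5] = 1 := by
  have h := pairP .e .h 2 (by decide)
  simpa [ew, t, gen8, pow_succ, mul_assoc] using h

theorem relT_20 : ew (fun i => t (i % 8)) [3, 6, 3, 6] = 1 := by
  have h := pairP .e .i 2 (by decide)
  simpa [ew, t, gen8, pow_succ, mul_assoc] using h

theorem relT_21 : ew (fun i => t (i % 8)) [3, 7, 3, 7] = 1 := by
  have h := pairP .e .g 2 (by decide)
  simpa [ew, t, gen8, pow_succ, mul_assoc] using h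

theorem relT_22 : ew (fun i => t (i % 8)) [4, 5, 4, 5] = 1 := by
  have h := pairP .f .h 2 (by decide)
  simpa [ew, t, gen8, pow_succ, mul_assoc] using h

theorem relT_23 : ew (fun i => t (i % 8)) [4, 6, 4, 6] = 1 := by
  have h := pairP .f .i 2 (by decide)
  simpa [ew, t, gen8, pow_succ, mul_assoc] using h

theorem relT_24 : ew (fun i => t (i % 8)) [4, 7, 4, 7, 4, 7] = 1 := by
  have h := pairP .f .g 3 (by decide)
  simpa [ew, t, gen8, pow_succ, mul_assoc] using h

theorem relT_25 : ew (fun i => t (i % 8)) [5, 6, 5, 6, 5, 6] = 1 := by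
  have h := pairP .h .i 3 (by decide)
  simpa [ew, t, gen8, pow_succ, mul_assoc] using h

theorem relT_26 : ew (fun i => t (i % 8)) [5, 7, 5, 7] = 1 := by
  have h := pairP .h .g 2 (by decide)
  simpa [ew, t, gen8, pow_succ, mul_assoc] using h

theorem relT_27 : ew (fun i => t (i % 8)) [6, 7, 6, 7] = 1 := by
  have h := pairP .i .g 2 (by decide)
  simpa [ew, t, gen8, pow_succ, mul_assoc] using h

theorem relT_28 : ew (fun i => t (i % 8)) [0, 1, 2, 3, 4, 7, 5, 0, 1, 2, 3, 4, 7, 5, 0, 1, 2, 3, 4, 7, 5, 0, 1, 2, 3, 4, 7, 5, 0, 1, 2, 3, 4, 7, 5, 0, 1, 2, 3, 4, 7, 5, 0, 1, 2, 3, 4, 7, 5, 0, 1, 2, 3, 4, 7, 5, 0, 1, 2, 3, 4, 7, 5] = 1 := by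
  have h := extraP ((Fi22.b * Fi22.c * Fi22.d * Fi22.e * Fi22.f * Fi22.g * Fi22.h) ^ 9) (by simp [Fi22.extra])
  simp only [map_pow, map_mul] at h
  have h' : ((o .b * o .c * o .d * o .e * o .f * o .g * o .h) ^ 9 : PresentedGroup R) = 1 := h
  simpa [ew, t, gen8, pow_succ, mul_assoc] using h'

theorem relT_29 : ew (fun i => t (i % 8)) [2, 1, 0, 2, 3, 4, 2, 5, 6, 2, 1, 0, 2, 3, 4, 2, 5, 6, 2, 1, 0, 2, 3, 4, 2, 5, 6, 2, 1, 0, 2, 3, 4, 2, 5, 6, 2, 1, 0, 2, 3, 4, 2, 5, 6, 2, 1, 0, 2, 3, 4, 2, 5, 6, 2, 1, 0, 2, 3, 4, 2, 5, 6, 2, 1, 0, 2, 3, 4, 2, 5, 6, 2, 1, 0, 2, 3, 4, 2, 5, 6, 2, 1, 0, 2, 3, 4, 2, 5, 6] = 1 := by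
  have h := extraP ((Fi22.d * Fi22.c * Fi22.b * Fi22.d * Fi22.e * Fi22.f * Fi22.d * Fi22.h * Fi22.i) ^ 10) (by simp [Fi22.extra])
  simp only [map_pow, map_mul] at h
  have h' : ((o .d * o .c * o .b * o .d * o .e * o .f * o .d * o .h * o .i) ^ 10 : PresentedGroup R) = 1 := h
  simpa [ew, t, gen8, pow_succ, mul_assoc] using h'

theorem t_rel : ∀ w ∈ invW ++ relW, ew (fun i => t (i % 8)) w = 1 := by
  intro w hw
  simp only [invW, relW, List.cons_append, List.nil_append, List.mem_cons, List.not_mem_nil, or_false] at hw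
  rcases hw with rfl | rfl | rfl | rfl | rfl | rfl | rfl | rfl | rfl | rfl | rfl | rfl | rfl | rfl | rfl | rfl | rfl | rfl | rfl | rfl | rfl | rfl | rfl | rfl | rfl | rfl | rfl | rfl | rfl | rfl | rfl | rfl | rfl | rfl | rfl | rfl | rfl | rfl
  · exact relT_i0
  · exact relT_i1
  · exact relT_i2
  · exact relT_i3
  · exact relT_i4
  · exact relT_i5
  · exact relT_i6
  · exact relT_i7
  · exact relT_0
  · exact relT_1
  · exact relT_2
  · exact relT_3
  · exact relT_4
  · exact relT_5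
  · exact relT_6
  · exact relT_7
  · exact relT_8
  · exact relT_9
  · exact relT_10
  · exact relT_11
  · exact relT_12
  · exact relT_13
  · exact relT_14
  · exact relT_15
  · exact relT_16
  · exact relT_17
  · exact relT_18
  · exact relT_19
  · exact relT_20
  · exact relT_21
  · exact relT_22
  · exact relT_23
  · exact relT_24
  · exact relT_25
  · exact relT_26
  · exact relT_27
  · exact relT_28
  · exact relT_29

/-- the homomorphism from `P8` onto the subgroup generated by b, …, i -/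
noncomputable def α : P8 →* PresentedGroup R := homP8 t t_rel

theorem α_u (i : ℕ) (hi : i < 8) : α (u i) = t i := by
  unfold α
  rw [homP8_u, Nat.mod_eq_of_lt hi]

theorem card_POmega :
    Nat.card (Cfsg.POmega (ZMod 3) (Cfsg.quadFormOdd 3 (ZMod 3))) = 4585351680 := by
  have h := Cfsg.Agent.S0292.result (F := ZMod 3) (q := 3) (ZMod.card 3) ⟨1, rfl⟩ 3 le_rfl
  have e : (3 : ℕ) ^ (3 ^ 2) * ∏ i ∈ Finset.range 3, (3 ^ (2 * (i + 1)) - 1) = 9170703360 := by
    simp [Finset.prod_range_succ]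
  rw [e] at h
  omega

theorem simple_POmega : IsSimpleGroup (Cfsg.POmega (ZMod 3) (Cfsg.quadFormOdd 3 (ZMod 3))) :=
  Cfsg.Agent.S0295.result (F := ZMod 3) (by rw [ZMod.card]; exact ⟨1, rfl⟩) 3 le_rfl

theorem γ_surjective : Function.Surjective γ := by
  haveI := simple_POmega
  rw [← MonoidHom.range_eq_top]
  exact (γ_range_normal.eq_bot_or_eq_top).resolve_left γ_range_ne_bot

theorem γ_bijective : Function.Bijective γ := by
  haveI := card_P8_le.1
  apply γ_surjective.bijective_of_nat_card_le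
  rw [card_POmega]
  exact card_P8_le.2

/-- `P8` is isomorphic to `PΩ₇(3)` -/
noncomputable def eqvP8 : P8 ≃* Cfsg.POmega (ZMod 3) (Cfsg.quadFormOdd 3 (ZMod 3)) :=
  MulEquiv.ofBijective γ γ_bijective

theorem simple_P8 : IsSimpleGroup P8 := by
  haveI := simple_POmega
  exact eqvP8.isSimpleGroup_congr.mpr inferInstance

/-- the presented group is not trivial -/
theorem o_b_ne_one : o .b ≠ 1 := by
  intro hb
  have hsq : ∀ x, o x * o x = 1 := fun x => by
    have h := pairP x x 1 (by unfold coxLabel; rw [if_pos rfl])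
    rwa [pow_one] at h
  have step : ∀ x y, coxLabel Fi22.edges x y = 3 → o x = 1 → o y = 1 := by
    intro x y hl hx
    have h := pairP x y 3 hl
    rw [hx, one_mul] at h
    have h2 := hsq y
    have e : o y ^ 3 = o y * o y * o y := by
      simp only [pow_succ, pow_zero, one_mul]
    rw [e, h2, one_mul] at h
    exact h
  have hc := step .b .c (by decide) hb
  have ha := step .b .a (by decide) hb
  have hd := step .c .d (by decide) hc
  have he := step .d .e (by decide) hd
  have hh := step .d .h (by decide) hd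
  have hf := step .e .f (by decide) he
  have hg := step .f .g (by decide) hf
  have hi := step .h .i (by decide) hh
  have hall : ∀ x, o x = 1 := by
    intro x
    cases x <;> assumption
  have htriv : ∀ g : PresentedGroup R, g = 1 := by
    intro g
    have hg' : g ∈ (⊤ : Subgroup (PresentedGroup R)) := trivial
    rw [← PresentedGroup.closure_range_of R] at hg'
    have hle : Subgroup.closure (Set.range (PresentedGroup.of (rels := R))) ≤ ⊥ := by
      rw [Subgroup.closure_le]
      rintro _ ⟨x, rfl⟩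
      exact hall x
    exact hle hg'
  have key : ∀ H : Subgroup (PresentedGroup R), H.index = 1 := fun H => by
    have : H = ⊤ := by
      ext g
      simp [htriv g]
    rw [this, Subgroup.index_top]
  have h := Cfsg.Agent.S1687.result.1
  rw [key] at h
  exact absurd h (by norm_num)

theorem α_injective : Function.Injective α := by
  haveI := simple_P8
  rcases (MonoidHom.normal_ker α).eq_bot_or_eq_top with h | h
  · exact (MonoidHom.ker_eq_bot_iff α).mp h
  · exfalso
    have h0 : u 0 ∈ α.ker := by rw [h]; trivial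
    have h1 : α (u 0) = 1 := h0
    rw [α_u 0 (by norm_num)] at h1
    exact o_b_ne_one h1

theorem range_α : α.range = (Subgroup.closure ({Fi22.b, Fi22.c, Fi22.d, Fi22.e, Fi22.f, Fi22.g, Fi22.h, Fi22.i} : Set (FreeGroup Fi22.Gen))).map (PresentedGroup.mk R) := by
  apply le_antisymm
  · rw [MonoidHom.range_eq_map, ← closure_u, MonoidHom.map_closure, Subgroup.closure_le]
    rintro _ ⟨_, ⟨i, hi, rfl⟩, rfl⟩
    have hi' : i < 8 := hi
    rw [α_u i hi']
    apply Subgroup.mem_map_of_mem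
    apply Subgroup.subset_closure
    interval_cases i <;> simp [gen8]
  · rw [Subgroup.map_le_iff_le_comap, Subgroup.closure_le]
    rintro x (rfl | rfl | rfl | rfl | rfl | rfl | rfl | rfl)
    · exact ⟨u 0, α_u 0 (by norm_num)⟩
    · exact ⟨u 1, α_u 1 (by norm_num)⟩
    · exact ⟨u 2, α_u 2 (by norm_num)⟩
    · exact ⟨u 3, α_u 3 (by norm_num)⟩
    · exact ⟨u 4, α_u 4 (by norm_num)⟩
    · exact ⟨u 7, α_u 7 (by norm_num)⟩
    · exact ⟨u 5, α_u 5 (by norm_num)⟩
    · exact ⟨u 6, α_u 6 (by norm_num)⟩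

/-- In the presented Fischer group Fi₂₂, the subgroup generated by the images of b, …, i is isomorphic to PΩ(7, 3), the commutator subgroup of the isometry group of the quadratic form x₀² + x₁y₁ + x₂y₂ + x₃y₃ over the integers mod 3, modulo its centre. -/
theorem result : Nonempty ((((Subgroup.closure ({Cfsg.Spor.Fi22.b, Cfsg.Spor.Fi22.c, Cfsg.Spor.Fi22.d, Cfsg.Spor.Fi22.e, Cfsg.Spor.Fi22.f, Cfsg.Spor.Fi22.g, Cfsg.Spor.Fi22.h, Cfsg.Spor.Fi22.i} : Set (FreeGroup Cfsg.Spor.Fi22.Gen))).map (PresentedGroup.mk (Cfsg.Spor.coxRelators Cfsg.Spor.Fi22.edges ∪ {r | r ∈ Cfsg.Spor.Fi22.extra})))) ≃* Cfsg.POmega (ZMod 3) (Cfsg.quadFormOdd 3 (ZMod 3))) := by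
  have e1 : ((Subgroup.closure ({Cfsg.Spor.Fi22.b, Cfsg.Spor.Fi22.c, Cfsg.Spor.Fi22.d, Cfsg.Spor.Fi22.e, Cfsg.Spor.Fi22.f, Cfsg.Spor.Fi22.g, Cfsg.Spor.Fi22.h, Cfsg.Spor.Fi22.i} : Set (FreeGroup Cfsg.Spor.Fi22.Gen))).map (PresentedGroup.mk (Cfsg.Spor.coxRelators Cfsg.Spor.Fi22.edges ∪ {r | r ∈ Cfsg.Spor.Fi22.extra}))) ≃* α.range :=
    MulEquiv.subgroupCongr range_α.symm
  exact ⟨e1.trans ((MonoidHom.ofInjective α_injective).symm.trans eqvP8)⟩

end Cfsg.Agent.S1686
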