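import Cfsg.Statements.S0519
import Mathlib
import Cfsg.Agent.Lib.Helper73.CyclicNormal
import Cfsg.Agent.Lib.Helper73.MaxClassCenter
import Cfsg.Agent.Lib.Helper73.ModularTwo
import Cfsg.Agent.Lib.Helper73.DihedralIso
import Cfsg.Agent.Lib.Helper20.PGroupOdd

set_option autoImplicit false
open Cfsg

namespace Cfsg.Agent.S0519

open Cfsg.Agent.Lib.Helper73 Cfsg.Agent.Lib.Helper1

/-- Two commuting elements generate a commutative subgroup. -/
theorem isMulCommutative_sup_zpowers {P : Type*} [Group P] (z b : P) (h : z * b = b * z) :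
    IsMulCommutative ↥(Subgroup.zpowers z ⊔ Subgroup.zpowers b) := by
  have hcl : Subgroup.zpowers z ⊔ Subgroup.zpowers b = Subgroup.closure ({z} ∪ {b}) := by
    rw [Subgroup.closure_union, Subgroup.zpowers_eq_closure, Subgroup.zpowers_eq_closure]
  rw [hcl]
  apply Subgroup.isMulCommutative_closure
  rintro x (hx | hx) y (hy | hy)
  · rw [Set.mem_singleton_iff] at hx hy
    rw [hx, hy]
  · rw [Set.mem_singleton_iff] at hx hy
    rw [hx, hy]; exact h
  · rw [Set.mem_singleton_iff] at hx hy
    rw [hx, hy]; exact h.symm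
  · rw [Set.mem_singleton_iff] at hx hy
    rw [hx, hy]

/-- A subgroup generated by two elements whose conjugates stay inside is normal. -/
theorem normal_sup_zpowers {P : Type*} [Group P] [Finite P] (z b : P)
    (hz : ∀ g : P, g * z * g⁻¹ ∈ Subgroup.zpowers z ⊔ Subgroup.zpowers b)
    (hb : ∀ g : P, g * b * g⁻¹ ∈ Subgroup.zpowers z ⊔ Subgroup.zpowers b) :
    (Subgroup.zpowers z ⊔ Subgroup.zpowers b).Normal := by
  rw [← Subgroup.normalizer_eq_top_iff]
  ext g
  simp only [Subgroup.mem_top, iff_true]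
  apply mem_normalizer_of_forall_conj_mem
  have hmap : (Subgroup.zpowers z ⊔ Subgroup.zpowers b).map (MulAut.conj g).toMonoidHom ≤
      Subgroup.zpowers z ⊔ Subgroup.zpowers b := by
    rw [Subgroup.map_sup, MonoidHom.map_zpowers, MonoidHom.map_zpowers]
    apply sup_le
    · rw [Subgroup.zpowers_le]; exact hz g
    · rw [Subgroup.zpowers_le]; exact hb g
  intro x hx
  exact hmap (Subgroup.mem_map_of_mem _ hx)

/-- For odd `p`, a non-cyclic `p`-group has a normal abelian non-cyclic subgroup. -/
theorem exists_normal_noncyclic_of_odd {P : Type*} [Group P] [Finite P] {p : ℕ} [Fact p.Prime]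
    (hp2 : p ≠ 2) (hP : IsPGroup p P) (hnc : ¬ IsCyclic P) :
    ∃ V : Subgroup P, V.Normal ∧ IsMulCommutative V ∧ ¬ IsCyclic V := by
  have hp : p.Prime := Fact.out
  obtain ⟨z₀, x, hz₀c, hz₀o, hxp, hxz, hconj⟩ :=
    Cfsg.Agent.Lib.Helper20.exists_normal_rank_two hp2 hP hnc
  have hzc : ∀ g : P, g * z₀ = z₀ * g := Subgroup.mem_center_iff.mp hz₀c
  have hzV : z₀ ∈ Subgroup.zpowers z₀ ⊔ Subgroup.zpowers x :=
    (le_sup_left : Subgroup.zpowers z₀ ≤ _) (Subgroup.mem_zpowers z₀)
  have hxV : x ∈ Subgroup.zpowers z₀ ⊔ Subgroup.zpowers x :=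
    (le_sup_right : Subgroup.zpowers x ≤ _) (Subgroup.mem_zpowers x)
  refine ⟨Subgroup.zpowers z₀ ⊔ Subgroup.zpowers x, ?_, ?_, ?_⟩
  · apply normal_sup_zpowers
    · intro g
      rw [hzc g, mul_inv_cancel_right]
      exact hzV
    · intro g
      have h1 : g * x * g⁻¹ = x * (x⁻¹ * (g * x * g⁻¹)) := by group
      rw [h1]
      exact Subgroup.mul_mem _ hxV ((le_sup_left : Subgroup.zpowers z₀ ≤ _) (hconj g))
  · exact isMulCommutative_sup_zpowers z₀ x (hzc x).symm
  · apply not_isCyclic_of_pow_prime hp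
      (⟨z₀, hzV⟩ : ↥(Subgroup.zpowers z₀ ⊔ Subgroup.zpowers x)) ⟨x, hxV⟩
    · apply Subtype.ext
      rw [Subgroup.coe_pow, ← hz₀o, pow_orderOf_eq_one]; rfl
    · intro h
      have h1 : z₀ = 1 := congrArg Subtype.val h
      rw [h1, orderOf_one] at hz₀o
      exact hp.ne_one hz₀o.symm
    · apply Subtype.ext
      rw [Subgroup.coe_pow]; exact hxp
    · intro h
      obtain ⟨k, hk⟩ := Subgroup.mem_zpowers_iff.mp h
      have h1 : z₀ ^ k = x := by
        have := congrArg Subtype.val hk
        rwa [Subgroup.coe_zpow] at this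
      apply hxz
      rw [← h1]
      exact Subgroup.zpow_mem_zpowers z₀ k

/-- P. Hall: a non-cyclic `2`-group all of whose normal abelian subgroups are cyclic is
generalized quaternion, dihedral of order at least `16` or quasi-dihedral. -/
theorem two_group {P : Type*} [Group P] [Finite P] (hP : IsPGroup 2 P)
    (hn : ∀ A : Subgroup P, A.Normal → IsMulCommutative A → IsCyclic A) (hnc : ¬ IsCyclic P) :
    (∃ n : ℕ, Nonempty (P ≃* QuaternionGroup n)) ∨
      (∃ n : ℕ, 8 ≤ n ∧ Nonempty (P ≃* DihedralGroup n)) ∨ Cfsg.IsQuasiDihedral P := by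
  haveI : Fact (Nat.Prime 2) := ⟨Nat.prime_two⟩
  -- `P` is not abelian
  have hna : ¬ ∀ x y : P, x * y = y * x := by
    intro h
    have h1 : IsMulCommutative ↥(⊤ : Subgroup P) := ⟨⟨fun x y => Subtype.ext (h x y)⟩⟩
    have h2 := hn ⊤ inferInstance h1
    exact hnc ((MulEquiv.isCyclic (Subgroup.topEquiv (G := P))).mp h2)
  have hcomm : commutator P ≠ ⊥ := by
    intro h
    apply hna
    have h1 := (commutator_eq_bot_iff_center_eq_top P).mp h
    intro x y
    have hy : y ∈ Subgroup.center P := by rw [h1]; trivial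
    exact Subgroup.mem_center_iff.mp hy x
  obtain ⟨k, hk⟩ := IsPGroup.iff_card.mp hP
  have hk3 : 3 ≤ k := by
    by_contra h
    exact hna (comm_of_card_pow_le_two (by omega) hk)
  -- a normal cyclic subgroup of order 4
  obtain ⟨M, hMn, hMcard⟩ := exists_normal_card_sq hP (show 2 ≤ k by omega) hk
  have hMc : IsMulCommutative ↥M :=
    ⟨⟨fun x y => comm_of_card_pow_le_two (p := 2) (j := 2) le_rfl hMcard x y⟩⟩
  obtain ⟨u, hMu⟩ := exists_zpowers_eq_of_isCyclic M (hn M hMn hMc)
  have huo : orderOf u = 4 := by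
    rw [← Nat.card_zpowers, ← hMu, hMcard]; norm_num
  have huN : (Subgroup.zpowers u).Normal := hMu ▸ hMn
  have hu4 : u ^ 4 = 1 := by rw [← huo, pow_orderOf_eq_one]
  have hu22 : (u ^ 2) ^ 2 = 1 := by rw [← pow_mul]; exact hu4
  have hu2ne : u ^ 2 ≠ 1 := by
    apply pow_ne_one_of_lt_orderOf (by norm_num)
    rw [huo]; norm_num
  have hu1 : u ≠ 1 := by
    rintro rfl
    rw [orderOf_one] at huo
    omega
  have hu3 : u ^ 2 * u = u⁻¹ := by
    apply eq_inv_of_mul_eq_one_left
    rw [← pow_succ, ← pow_succ]; exact hu4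
  -- conjugates of `u`
  have hconj_u : ∀ g : P, g * u * g⁻¹ = u ∨ g * u * g⁻¹ = u⁻¹ := by
    intro g
    have h1 : g * u * g⁻¹ ∈ Subgroup.zpowers u := huN.conj_mem u (Subgroup.mem_zpowers u) g
    obtain ⟨i, hi⟩ := Subgroup.mem_zpowers_iff.mp h1
    rcases Int.even_or_odd' i with ⟨j, rfl | rfl⟩
    · exfalso
      have h2 : (g * u * g⁻¹) ^ 2 = 1 := by
        rw [← hi, ← zpow_natCast, ← zpow_mul]
        have h4 : (2 * j * ((2 : ℕ) : ℤ)) = ((4 : ℕ) : ℤ) * j := by push_cast; ring
        rw [h4, zpow_mul, zpow_natCast, hu4, one_zpow]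
      rw [conj_pow] at h2
      have h3 : u ^ 2 = g⁻¹ * (g * u ^ 2 * g⁻¹) * g := by group
      rw [h2] at h3
      apply hu2ne
      rw [h3]; group
    · have h2 : u ^ (2 * j + 1) = (u ^ 2) ^ j * u := by
        rw [zpow_add, zpow_one, zpow_mul]
        norm_cast
      rw [h2] at hi
      rcases zpow_eq_one_or_self_of_sq hu22 j with h | h
      · left
        rw [← hi, h, one_mul]
      · right
        rw [← hi, h, hu3]
  have hu2c : ∀ g : P, g * u ^ 2 = u ^ 2 * g := by
    intro g
    have h1 : g * u ^ 2 * g⁻¹ = u ^ 2 := by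
      rw [← conj_pow]
      rcases hconj_u g with h | h
      · rw [h]
      · rw [h, inv_pow]
        apply inv_eq_of_mul_eq_one_left
        rw [← pow_two]; exact hu22
    calc g * u ^ 2 = g * u ^ 2 * g⁻¹ * g := by group
      _ = u ^ 2 * g := by rw [h1]
  -- the centralizer of `u`
  have hCn : (Subgroup.centralizer ({u} : Set P)).Normal := by
    constructor
    intro x hx g
    rw [Subgroup.mem_centralizer_singleton_iff] at hx ⊢
    have hw : x * (g⁻¹ * u * g) = (g⁻¹ * u * g) * x := by
      have h1 := hconj_u g⁻¹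
      rw [inv_inv] at h1
      rcases h1 with h | h
      · rw [h, hx]
      · rw [h]
        have : Commute x u⁻¹ := (show Commute x u from hx).inv_right
        exact this.eq
    calc g * x * g⁻¹ * u = g * (x * (g⁻¹ * u * g)) * g⁻¹ := by group
      _ = g * ((g⁻¹ * u * g) * x) * g⁻¹ := by rw [hw]
      _ = u * (g * x * g⁻¹) := by group
  have hu2o : orderOf (u ^ 2) = 2 := orderOf_eq_prime hu22 hu2ne
  have hCcard : Nat.card P ≤ Nat.card (Subgroup.centralizer ({u} : Set P)) * 2 := by
    have h1 := card_le_card_centralizer_mul u (Subgroup.zpowers (u ^ 2))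
      (by
        rw [Subgroup.zpowers_le, Subgroup.mem_center_iff]
        exact hu2c)
      (by
        intro x
        rcases hconj_u x with h | h
        · rw [h, mul_inv_cancel]; exact Subgroup.one_mem _
        · rw [h]
          have : u⁻¹ * u⁻¹ = (u ^ 2)⁻¹ := by group
          rw [this]
          exact Subgroup.inv_mem _ (Subgroup.mem_zpowers _))
    rwa [Nat.card_zpowers, hu2o] at h1
  have huC : Subgroup.zpowers u ≤ Subgroup.centralizer ({u} : Set P) := by
    rw [Subgroup.zpowers_le, Subgroup.mem_centralizer_singleton_iff]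
  -- a maximal cyclic normal subgroup between `⟨u⟩` and `C`
  obtain ⟨N, -, ⟨⟨hNn, huN', hNC, hNcyc⟩, hNmax⟩⟩ := Finite.exists_le_maximal
    (p := fun N : Subgroup P => N.Normal ∧ Subgroup.zpowers u ≤ N ∧
      N ≤ Subgroup.centralizer ({u} : Set P) ∧ IsCyclic N) (a := Subgroup.zpowers u)
    ⟨huN, le_rfl, huC, inferInstance⟩
  obtain ⟨a, hNa⟩ := exists_zpowers_eq_of_isCyclic N hNcyc
  have haN : a ∈ N := by rw [hNa]; exact Subgroup.mem_zpowers a
  have haNn : (Subgroup.zpowers a).Normal := hNa ▸ hNn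
  obtain ⟨j, hj⟩ := IsPGroup.iff_card.mp (hP.to_subgroup N)
  have hj2 : 2 ≤ j := by
    have h1 := Subgroup.card_dvd_of_le huN'
    rw [Nat.card_zpowers, huo, hj] at h1
    have h2 : (2 : ℕ) ^ 2 ∣ 2 ^ j := by norm_num; exact h1
    exact (Nat.pow_dvd_pow_iff_le_right (by norm_num)).mp h2
  obtain ⟨l, rfl⟩ : ∃ l, j = l + 2 := ⟨j - 2, by omega⟩
  have hao : orderOf a = 2 ^ (l + 2) := by
    rw [← Nat.card_zpowers, ← hNa, hj]
  have hNeq : N = Subgroup.centralizer ({u} : Set P) := by
    by_contra hne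
    haveI := hNn
    haveI := hCn
    obtain ⟨M', hM'n, hNM', hM'C, hM'card⟩ := exists_normal_step hP N _ hNC hne
    haveI := hM'n
    have hM'N : ¬ M' ≤ N := by
      intro h
      have := Subgroup.card_le_of_le h
      rw [hM'card, hj] at this
      have : 0 < 2 ^ (l + 2) := by positivity
      omega
    have hM'nc : ¬ IsCyclic ↥M' := fun h =>
      hM'N (hNmax ⟨hM'n, huN'.trans hNM', hM'C, h⟩ hNM')
    have hab : ¬ IsMulCommutative ↥M' := fun h => hM'nc (hn M' hM'n h)
    have hna' : commutator ↥M' ≠ ⊥ := by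
      intro h
      apply hab
      have h1 := (commutator_eq_bot_iff_center_eq_top ↥M').mp h
      refine ⟨⟨fun x y => ?_⟩⟩
      have hy : y ∈ Subgroup.center ↥M' := by rw [h1]; trivial
      exact Subgroup.mem_center_iff.mp hy x
    have h2' : IsPGroup 2 ↥M' := hP.to_subgroup M'
    have ha' : orderOf (⟨a, hNM' haN⟩ : ↥M') = 2 ^ (l + 2) := by
      rw [Subgroup.orderOf_mk, hao]
    have hidx' : (Subgroup.zpowers (⟨a, hNM' haN⟩ : ↥M')).index = 2 := by
      have h1 := (Subgroup.zpowers (⟨a, hNM' haN⟩ : ↥M')).card_mul_index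
      rw [Nat.card_zpowers, ha', hM'card, hj] at h1
      exact Nat.eq_of_mul_eq_mul_left (by positivity) h1
    have hu'c : (⟨u, hNM' (huN' (Subgroup.mem_zpowers u))⟩ : ↥M') ∈ Subgroup.center ↥M' := by
      rw [Subgroup.mem_center_iff]
      intro x
      apply Subtype.ext
      exact Subgroup.mem_centralizer_singleton_iff.mp (hM'C x.2)
    by_cases h4 : (commutator ↥M').index = 4
    · obtain ⟨m, a₁, b₁, hm, hcard₁, ha₁, hb₁, hrel, hidx₁, hz₁, hcen⟩ :=
        maximal_class_structure_center ↥M' h2' h4 hna'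
      rcases hcen _ hu'c with h | h
      · exact hu1 (congrArg Subtype.val h)
      · have h5 : (⟨u, hNM' (huN' (Subgroup.mem_zpowers u))⟩ : ↥M') ^ 2 = 1 := by
          rw [h, ← pow_mul, ← pow_succ, show m - 1 + 1 = m by omega, ← ha₁, pow_orderOf_eq_one]
        have h6 : u ^ 2 = 1 := congrArg Subtype.val h5
        exact hu2ne h6
    · obtain ⟨hl, b', hb'A, hb'2, hb'a⟩ :=
        modular_structure (⟨a, hNM' haN⟩ : ↥M') l ha' hidx' hna' h4
      obtain ⟨V, hVn, hVc, hVnc⟩ := exists_normal_four_of_modular M' a (b' : P) l hl hao haNn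
        b'.2
        (by
          intro h
          apply hb'A
          obtain ⟨i, hi⟩ := Subgroup.mem_zpowers_iff.mp h
          exact Subgroup.mem_zpowers_iff.mpr ⟨i, Subtype.ext (by rw [Subgroup.coe_zpow]; exact hi)⟩)
        (congrArg Subtype.val hb'2)
        (congrArg Subtype.val hb'a)
        (by
          intro t htM hta
          have h1 : (⟨t, htM⟩ : ↥M') * b' ∈ Subgroup.zpowers (⟨a, hNM' haN⟩ : ↥M') := by
            rw [Subgroup.mul_mem_iff_of_index_two hidx']
            constructor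
            · intro h
              exfalso
              apply hta
              obtain ⟨i, hi⟩ := Subgroup.mem_zpowers_iff.mp h
              have h2 : a ^ i = t := by
                have := congrArg Subtype.val hi
                rwa [Subgroup.coe_zpow] at this
              rw [← h2]
              exact Subgroup.zpow_mem_zpowers a i
            · intro h
              exact absurd h hb'A
          obtain ⟨i, hi⟩ := Subgroup.mem_zpowers_iff.mp h1
          have h2 : a ^ i = t * (b' : P) := by
            have := congrArg Subtype.val hi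
            rwa [Subgroup.coe_zpow] at this
          rw [← h2]
          exact Subgroup.zpow_mem_zpowers a i)
      exact hVnc (hn V hVn hVc)
  -- `C = ⟨a⟩` has index two
  have hidx : (Subgroup.zpowers a).index = 2 := by
    have h1 := (Subgroup.zpowers a).card_mul_index
    have h2 : Nat.card (Subgroup.centralizer ({u} : Set P)) = 2 ^ (l + 2) := by
      rw [← hNeq, hj]
    rw [h2] at hCcard
    rw [Nat.card_zpowers, hao] at h1
    have h3 : (Subgroup.zpowers a).index ≠ 1 := by
      intro h
      apply hnc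
      have h4 : Subgroup.zpowers a = ⊤ := Subgroup.index_eq_one.mp h
      rw [← hNa] at h4
      rw [h4] at hNcyc
      exact (MulEquiv.isCyclic (Subgroup.topEquiv (G := P))).mp hNcyc
    have h4 : (Subgroup.zpowers a).index ≠ 0 := Subgroup.index_ne_zero_of_finite
    have h5 : 2 ^ (l + 2) * (Subgroup.zpowers a).index ≤ 2 ^ (l + 2) * 2 := by rw [h1]; exact hCcard
    have h6 : (Subgroup.zpowers a).index ≤ 2 := Nat.le_of_mul_le_mul_left h5 (by positivity)
    omega
  by_cases h4 : (commutator P).index = 4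
  · obtain ⟨m, a₁, b₁, hm, hcard₁, ha₁, hb₁, hrel, hidx₁, hz₁, hcen⟩ :=
      maximal_class_structure_center P hP h4 hcomm
    haveI : NeZero (2 ^ m) := ⟨by positivity⟩
    haveI : NeZero (2 ^ (m - 1)) := ⟨by positivity⟩
    rcases hrel with ⟨hba, hb2⟩ | ⟨hba, hb2⟩ | ⟨hm3, hba, hb2⟩
    · by_cases hm3 : 3 ≤ m
      · right; left
        refine ⟨2 ^ m, ?_, ?_⟩
        · calc 8 = 2 ^ 3 := by norm_num
            _ ≤ 2 ^ m := Nat.pow_le_pow_right (by norm_num) hm3
        · exact nonempty_mulEquiv_dihedralGroup (2 ^ m) a₁ b₁ ha₁ hb2 hba hb₁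
            (by rw [hcard₁]; ring)
      · exfalso
        have hm2 : m = 2 := by omega
        subst hm2
        obtain ⟨z, hz⟩ : ∃ z : P, z = a₁ ^ (2 ^ (2 - 1)) := ⟨_, rfl⟩
        rw [← hz] at hz₁
        have hzc : ∀ g : P, g * z = z * g := Subgroup.mem_center_iff.mp hz₁
        have hzA : z ∈ Subgroup.zpowers a₁ := by rw [hz]; exact Subgroup.npow_mem_zpowers a₁ _
        have hz2 : z ^ 2 = 1 := by
          rw [hz, ← pow_mul]
          have h4 : 2 ^ (2 - 1) * 2 = orderOf a₁ := by rw [ha₁]; norm_num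
          rw [h4, pow_orderOf_eq_one]
        have hz1 : z ≠ 1 := by
          rw [hz]
          apply pow_ne_one_of_lt_orderOf (by norm_num)
          rw [ha₁]; norm_num
        have hb1 : b₁ ≠ 1 := by
          rintro rfl
          exact hb₁ (Subgroup.one_mem _)
        haveI : (Subgroup.zpowers z).Normal := zpowers_normal_of_central hzc
        have hcard := card_sup_mul_card_inf (Subgroup.zpowers z) (Subgroup.zpowers b₁)
        rw [Nat.card_zpowers, Nat.card_zpowers, orderOf_eq_prime hz2 hz1,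
          orderOf_eq_prime hb2 hb1] at hcard
        have hinf : Nat.card (Subgroup.zpowers z ⊓ Subgroup.zpowers b₁ : Subgroup P) = 1 := by
          have hd : Nat.card (Subgroup.zpowers z ⊓ Subgroup.zpowers b₁ : Subgroup P) ∣ 2 := by
            have := Subgroup.card_dvd_of_le
              (inf_le_right : Subgroup.zpowers z ⊓ Subgroup.zpowers b₁ ≤ Subgroup.zpowers b₁)
            rwa [Nat.card_zpowers, orderOf_eq_prime hb2 hb1] at this
          rcases (Nat.dvd_prime Nat.prime_two).mp hd with h | h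
          · exact h
          · exfalso
            have heq : Subgroup.zpowers z ⊓ Subgroup.zpowers b₁ = Subgroup.zpowers b₁ :=
              Subgroup.eq_of_le_of_card_ge inf_le_right
                (by rw [h, Nat.card_zpowers, orderOf_eq_prime hb2 hb1])
            have h1 : b₁ ∈ Subgroup.zpowers z ⊓ Subgroup.zpowers b₁ := by
              rw [heq]; exact Subgroup.mem_zpowers b₁
            obtain ⟨i, hi⟩ := Subgroup.mem_zpowers_iff.mp h1.1
            apply hb₁
            rw [← hi]
            exact Subgroup.zpow_mem _ hzA i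
        rw [hinf, mul_one] at hcard
        have hVidx : (Subgroup.zpowers z ⊔ Subgroup.zpowers b₁ : Subgroup P).index = 2 := by
          have h1 := (Subgroup.zpowers z ⊔ Subgroup.zpowers b₁ : Subgroup P).card_mul_index
          rw [hcard, hcard₁] at h1
          omega
        have hzV : z ∈ Subgroup.zpowers z ⊔ Subgroup.zpowers b₁ :=
          (le_sup_left : Subgroup.zpowers z ≤ _) (Subgroup.mem_zpowers z)
        have hbV : b₁ ∈ Subgroup.zpowers z ⊔ Subgroup.zpowers b₁ :=
          (le_sup_right : Subgroup.zpowers b₁ ≤ _) (Subgroup.mem_zpowers b₁)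
        have hVc := hn _ (Subgroup.normal_of_index_eq_two hVidx)
          (isMulCommutative_sup_zpowers z b₁ (hzc b₁).symm)
        revert hVc
        apply not_isCyclic_of_pow_prime Nat.prime_two
          (⟨z, hzV⟩ : ↥(Subgroup.zpowers z ⊔ Subgroup.zpowers b₁)) ⟨b₁, hbV⟩
        · apply Subtype.ext
          rw [Subgroup.coe_pow]; exact hz2
        · intro h
          exact hz1 (congrArg Subtype.val h)
        · apply Subtype.ext
          rw [Subgroup.coe_pow]; exact hb2
        · intro h
          obtain ⟨i, hi⟩ := Subgroup.mem_zpowers_iff.mp h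
          have h1 : z ^ i = b₁ := by
            have := congrArg Subtype.val hi
            rwa [Subgroup.coe_zpow] at this
          apply hb₁
          rw [← h1]
          exact Subgroup.zpow_mem _ hzA i
    · left
      refine ⟨2 ^ (m - 1), ?_⟩
      have e1 : 2 ^ m = 2 * 2 ^ (m - 1) := by
        rw [← pow_succ']; congr 1; omega
      exact nonempty_mulEquiv_quaternionGroup (2 ^ (m - 1)) a₁ b₁ (by rw [ha₁, e1]) hb2 hba hb₁
        (by rw [hcard₁, pow_succ, e1]; ring)
    · right; right
      have hb1 : b₁ ≠ 1 := by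
        rintro rfl
        exact hb₁ (Subgroup.one_mem _)
      exact ⟨m, hm3, hcard₁, a₁, b₁, ha₁, orderOf_eq_prime hb2 hb1, hba⟩
  · exfalso
    obtain ⟨hl, b, hbA, hb2, hba⟩ := modular_structure a l hao hidx hcomm h4
    obtain ⟨V, hVn, hVc, hVnc⟩ := exists_normal_four_of_modular ⊤ a b l hl hao haNn
      (Subgroup.mem_top b) hbA hb2 hba
      (by
        intro t _ hta
        rw [Subgroup.mul_mem_iff_of_index_two hidx]
        exact ⟨fun h => absurd h hta, fun h => absurd h hbA⟩)
    exact hVnc (hn V hVn hVc)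

/-- P. Hall's theorem on `p`-groups all of whose normal abelian subgroups are cyclic. -/
theorem result {P : Type*} [Group P] [Finite P] (p : ℕ) [Fact p.Prime]
    (hP : IsPGroup p P) (hn : ∀ A : Subgroup P, A.Normal → IsMulCommutative A → IsCyclic A)
    (hm : ∃ B : Subgroup P, IsMulCommutative B ∧ ¬ IsCyclic B) :
    p = 2 ∧ ((∃ n : ℕ, Nonempty (P ≃* QuaternionGroup n)) ∨ (∃ n : ℕ, 8 ≤ n ∧ Nonempty (P ≃* DihedralGroup n)) ∨
      Cfsg.IsQuasiDihedral P) := by
  obtain ⟨B, -, hBnc⟩ := hm
  have hnc : ¬ IsCyclic P := by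
    intro h
    exact hBnc inferInstance
  have hp2 : p = 2 := by
    by_contra hp2
    obtain ⟨V, hVn, hVc, hVnc⟩ := exists_normal_noncyclic_of_odd hp2 hP hnc
    exact hVnc (hn V hVn hVc)
  subst hp2
  exact ⟨rfl, two_group hP hn hnc⟩

end Cfsg.Agent.S0519
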