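-- Statement S3762 (P. Hall: structure of p-groups of symplectic type).
import Mathlib
import Cfsg.Statements.S3762
import Cfsg.Agent.S0093
import Cfsg.Agent.S0016
import Cfsg.Agent.S0519
import Cfsg.Agent.Lib.Helper2.FrattiniP
import Cfsg.Agent.Lib.Helper54.SympR

set_option autoImplicit false
open Cfsg

namespace Cfsg.Agent.S3762

open Subgroup Cfsg.Agent.Lib Cfsg.Agent.Lib.Helper54
open scoped commutatorElement

universe u

/-- The case `T = C`: `G = E ∗ R` with `R = C_G(E)`. -/
theorem final_R {G : Type u} [Group G] [Finite G] {p : ℕ} [Fact p.Prime] (hG : IsPGroup p G)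
    {C : Subgroup G} {ζ : G} {k : ℕ} {z : G} (ctx : SympCtx p C ζ k z)
    (R : Subgroup G) (hZR : zpowers ζ ≤ R) (hRC : ∀ r ∈ R, r ∈ C → r ∈ zpowers ζ)
    (hT : sympT z ctx.hzc ζ ≤ C) :
    IsCyclic R ∨ (p = 2 ∧ 16 ≤ Nat.card R ∧
      ((∃ m : ℕ, Nonempty (↥R ≃* DihedralGroup m)) ∨
        (∃ m : ℕ, Nonempty (↥R ≃* QuaternionGroup m)) ∨ Cfsg.IsQuasiDihedral ↥R)) := by
  have hp : p.Prime := Fact.out
  by_cases hRZ : R ≤ zpowers ζ
  · left
    have : R = zpowers ζ := le_antisymm hRZ hZR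
    rw [this]
    infer_instance
  · obtain ⟨r, hrR, hrZ⟩ := SetLike.not_le_iff_exists.mp hRZ
    have hk3 : 3 ≤ k := by
      by_contra hlt
      have hrT := ctx.T_eq_top (by omega) r
      exact hrZ (hRC r hrR (hT hrT))
    have hR : IsPGroup p ↥R := hG.to_subgroup R
    have hn : ∀ A : Subgroup ↥R, A.Normal → IsMulCommutative A → IsCyclic A :=
      fun A hAn hAc => ctx.R_normal_cyclic hG R hZR hRC hT A hAn hAc
    have hcard16 : p = 2 → 16 ≤ Nat.card R := by
      intro hp2
      obtain ⟨s, hs⟩ := IsPGroup.iff_card.mp hR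
      have h1 : Nat.card (zpowers ζ) = p ^ k := by rw [Nat.card_zpowers, ctx.hord]
      have h2 : Nat.card (zpowers ζ) < Nat.card R := by
        by_contra hle
        exact hRZ (Subgroup.eq_of_le_of_card_ge hZR (by omega)).ge
      rw [h1, hs] at h2
      have h3 : k < s := (Nat.pow_lt_pow_iff_right hp.one_lt).mp h2
      rw [hs, hp2]
      calc 16 = 2 ^ 4 := by norm_num
        _ ≤ 2 ^ s := Nat.pow_le_pow_right (by norm_num) (by omega)
    by_cases huniq : ∀ H K : Subgroup ↥R, Nat.card H = p → Nat.card K = p → H = K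
    · rcases Cfsg.Agent.S0016.result p hR huniq with hcyc | ⟨hp2, n, hn⟩
      · exact Or.inl hcyc
      · exact Or.inr ⟨hp2, hcard16 hp2, Or.inr (Or.inl ⟨2 ^ n, hn⟩)⟩
    · have hzR : z ∈ R := hZR ctx.zZ
      obtain ⟨zR, hzRdef⟩ : ∃ zR : ↥R, zR = ⟨z, hzR⟩ := ⟨_, rfl⟩
      have hzRo : orderOf zR = p := by
        rw [hzRdef, ← Subgroup.orderOf_coe]
        exact ctx.hzo
      have hzRc : ∀ x : ↥R, zR * x = x * zR := by
        intro x
        apply Subtype.ext
        rw [hzRdef]
        exact (ctx.hzc x).eq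
      have hH₀ : ∃ H₀ : Subgroup ↥R, Nat.card H₀ = p ∧ H₀ ≠ zpowers zR := by
        push Not at huniq
        obtain ⟨H, K, hH, hK, hne⟩ := huniq
        by_cases h : H = zpowers zR
        · exact ⟨K, hK, fun h' => hne (h.trans h'.symm)⟩
        · exact ⟨H, hH, h⟩
      obtain ⟨H₀, hH₀card, hH₀ne⟩ := hH₀
      have hH₀nt : Nontrivial ↥H₀ := by
        rw [← Finite.one_lt_card_iff_nontrivial, hH₀card]
        exact hp.one_lt
      obtain ⟨h', hh'1⟩ := exists_ne (1 : ↥H₀)
      obtain ⟨h, hhdef⟩ : ∃ h : ↥R, h = (h' : ↥R) := ⟨_, rfl⟩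
      have hhH : h ∈ H₀ := hhdef ▸ h'.2
      have hh1 : h ≠ 1 := by
        intro hcon
        apply hh'1
        apply Subtype.ext
        rw [← hhdef, hcon]
        rfl
      have hhp : h ^ p = 1 := by
        have := pow_card_eq_one' (G := ↥H₀) (x := h')
        rw [hH₀card] at this
        have := congrArg Subtype.val this
        rw [hhdef]
        simpa using this
      have hho : orderOf h = p := orderOf_eq_prime hhp hh1
      have hhH₀ : zpowers h = H₀ :=
        Subgroup.eq_of_le_of_card_ge (zpowers_le.mpr hhH) (by rw [Nat.card_zpowers, hho, hH₀card])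
      have hm : ∃ B : Subgroup ↥R, IsMulCommutative B ∧ ¬ IsCyclic B := by
        refine ⟨closure {h, zR}, Subgroup.isMulCommutative_closure ?_, ?_⟩
        · intro x hx y hy
          rcases hx with rfl | rfl <;> rcases hy with rfl | rfl
          · rfl
          · exact (hzRc x).symm
          · exact hzRc y
          · rfl
        · intro hcyc
          have h1 : zR ∈ closure ({h, zR} : Set ↥R) := subset_closure (by simp)
          have h2 : h ∈ closure ({h, zR} : Set ↥R) := subset_closure (by simp)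
          have h3 := symp_cyclic_unique hR _ hcyc h1 hzRo h2 hhp
          apply hH₀ne
          rw [← hhH₀]
          exact Subgroup.eq_of_le_of_card_ge (zpowers_le.mpr h3)
            (by rw [Nat.card_zpowers, Nat.card_zpowers, hho, hzRo])
      obtain ⟨hp2, hcases⟩ := Cfsg.Agent.S0519.result p hR hn hm
      refine Or.inr ⟨hp2, hcard16 hp2, ?_⟩
      rcases hcases with ⟨n, hn⟩ | ⟨n, _, hn⟩ | hqd
      · exact Or.inr (Or.inl ⟨n, hn⟩)
      · exact Or.inl ⟨n, hn⟩
      · exact Or.inr (Or.inr hqd)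

theorem main {G : Type u} [Group G] [Finite G] {p : ℕ} [Fact p.Prime] (hG : IsPGroup p G)
    (hsymp : ∀ A : Subgroup G, A.Characteristic → IsMulCommutative A → IsCyclic A) :
    ∃ E R : Subgroup G, (∀ e ∈ E, ∀ r ∈ R, e * r = r * e) ∧ E ⊔ R = ⊤ ∧
      (E = ⊥ ∨ Cfsg.IsExtraspecial p ↥E) ∧
      (IsCyclic R ∨ (p = 2 ∧ 16 ≤ Nat.card R ∧
        ((∃ m : ℕ, Nonempty (↥R ≃* DihedralGroup m)) ∨
          (∃ m : ℕ, Nonempty (↥R ≃* QuaternionGroup m)) ∨ Cfsg.IsQuasiDihedral ↥R))) := by
  have hp : p.Prime := Fact.out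
  by_cases hsub : Subsingleton G
  · refine ⟨⊥, ⊤, ?_, bot_sup_eq _, Or.inl rfl, Or.inl inferInstance⟩
    intro e he r _
    rw [mem_bot.mp he]; simp
  rw [not_subsingleton_iff_nontrivial] at hsub
  obtain ⟨C, hCchar, hfrat, hcomm, hcent⟩ := Cfsg.Agent.S0093.result hG
  -- the centre `Z = C_G(C)` is cyclic
  have hZcomm : IsMulCommutative ↥(centralizer (C : Set G)) :=
    ⟨⟨fun u v => Subtype.ext (mem_centralizer_iff.mp v.2 u (hcent u.2))⟩⟩
  have hZchar : (centralizer (C : Set G)).Characteristic := inferInstance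
  have hZcyc := hsymp _ hZchar hZcomm
  obtain ⟨ζ, hζZ, hζgen⟩ := symp_exists_gen _ hZcyc
  have hZeq : ∀ u, u ∈ zpowers ζ ↔ u ∈ centralizer (C : Set G) :=
    fun u => ⟨fun hu => (zpowers_le.mpr hζZ) hu, fun hu => hζgen u hu⟩
  obtain ⟨k, hk⟩ := IsPGroup.iff_orderOf.mp hG ζ
  -- a nontrivial central element in `C`
  have hCne : C ≠ ⊥ := by
    intro h
    rw [h] at hcent
    have htop : (⊤ : Subgroup G) ≤ ⊥ := by
      intro g _
      apply hcent
      rw [mem_centralizer_iff]
      intro x hx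
      have : x = 1 := hx
      rw [this]; simp
    obtain ⟨x, hx⟩ := exists_ne (1 : G)
    exact hx (mem_bot.mp (htop (mem_top x)))
  obtain ⟨z₀, hz₀C, hz₀1, hz₀c⟩ := Helper53.exists_mem_center_of_normal_of_ne_bot hG C hCne
  have hz₀Z : z₀ ∈ zpowers ζ := by
    rw [hZeq, mem_centralizer_iff]
    intro c _
    exact (mem_center_iff.mp hz₀c c)
  have hk1 : 1 ≤ k := by
    by_contra hlt
    have hk0 : k = 0 := by omega
    rw [hk0, pow_zero, orderOf_eq_one_iff] at hk
    rw [hk, zpowers_one_eq_bot, mem_bot] at hz₀Z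
    exact hz₀1 hz₀Z
  obtain ⟨z, hzdef⟩ : ∃ z, z = ζ ^ (p ^ (k - 1)) := ⟨_, rfl⟩
  have hzo : orderOf z = p := hzdef ▸ symp_orderOf_pow_pred hp hk1 hk
  have hzc : ∀ g : G, Commute z g := by
    obtain ⟨j, hj⟩ := IsPGroup.iff_orderOf.mp hG z₀
    have hj1 : 1 ≤ j := by
      by_contra hlt
      have hj0 : j = 0 := by omega
      rw [hj0, pow_zero, orderOf_eq_one_iff] at hj
      exact hz₀1 hj
    have ho := symp_orderOf_pow_pred hp hj1 hj
    have hmem : z₀ ^ (p ^ (j - 1)) ∈ zpowers z := by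
      rw [hzdef]
      apply symp_mem_zpowers_pow hp hk1 hk (pow_mem hz₀Z _)
      have h := pow_orderOf_eq_one (z₀ ^ (p ^ (j - 1)))
      rwa [ho] at h
    have hne : z₀ ^ (p ^ (j - 1)) ≠ 1 := by
      intro h
      rw [h, orderOf_one] at ho
      exact hp.one_lt.ne ho
    have hcardz : Nat.card (zpowers z) = p := by rw [Nat.card_zpowers, hzo]
    obtain ⟨i, hi⟩ := Helper2.exists_pow_eq_of_card_prime (zpowers z) hcardz hmem hne
      (mem_zpowers z)
    intro g
    rw [← hi]
    have h1 : Commute z₀ g := (mem_center_iff.mp hz₀c g).symm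
    exact (h1.pow_left _).pow_left i
  have hCp : IsPGroup p ↥C := hG.to_subgroup C
  have ctx : SympCtx p C ζ k z :=
    { hchar := hCchar
      hZ := by
        intro u
        rw [hZeq, mem_centralizer_iff]
        exact ⟨fun h c hc => (h c hc).symm, fun h c hc => (h c hc).eq.symm⟩
      hZC := fun u hu => hcent ((hZeq u).mp hu)
      hord := hk
      hk := hk1
      hz := hzdef
      hzc := hzc
      hpow := by
        intro x hx
        rw [hZeq]
        apply hfrat
        have h1 := Helper2.pow_mem_frattini hCp (⟨x, hx⟩ : ↥C)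
        exact ⟨_, h1, rfl⟩
      hcomm := by
        intro x hx g
        rw [hZeq]
        exact (hcomm (Subgroup.commutator_mem_commutator hx (mem_top g))).2 }
  have hexp := ctx.hexp hG hsymp
  obtain ⟨E, hEex, hEC, hdecG, hdec, hE5⟩ := ctx.exists_decomp hexp
  have hZR : zpowers ζ ≤ centralizer (E : Set G) := by
    intro u hu
    rw [mem_centralizer_iff]
    intro e he
    exact ((ctx.hZ u).mp hu e (hEC he)).eq.symm
  -- an element commuting with `E` and `ζ` lies in `⟨ζ⟩`
  have hRZ' : ∀ r ∈ centralizer (E : Set G), Commute ζ r → r ∈ zpowers ζ := by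
    intro r hr hζr
    rw [ctx.hZ]
    intro c hc
    obtain ⟨e, he, ζ', hζ', rfl⟩ := hdec c hc
    have h1 : Commute r e := (mem_centralizer_iff.mp hr e he).symm
    obtain ⟨i, rfl⟩ := mem_zpowers_iff.mp hζ'
    exact h1.mul_right ((hζr.zpow_left i).symm)
  have hRC : ∀ r ∈ centralizer (E : Set G), r ∈ C → r ∈ zpowers ζ := by
    intro r hr hrC
    exact hRZ' r hr ((ctx.hZ ζ).mp (mem_zpowers ζ) r hrC)
  have hCZ : ∀ g : G, Commute ζ g → g ∈ C := by
    intro g hg
    obtain ⟨e, he, c, hc, rfl⟩ := hdecG g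
    have h1 : Commute ζ e := (ctx.hZ ζ).mp (mem_zpowers ζ) e (hEC he)
    have h2 : Commute ζ c := by
      have : c = e⁻¹ * (e * c) := by group
      rw [this]
      exact h1.inv_right.mul_right hg
    exact mul_mem (hEC he) (ctx.hZC (hRZ' c hc h2))
  have hTC : ∀ h ∈ sympT z ctx.hzc ζ, ∀ c ∈ C, ⁅h, c⁆ ∈ zpowers z := by
    intro h hh c hc
    obtain ⟨e, he, ζ', hζ', rfl⟩ := hdec c hc
    have m1 : e ∈ sympCommSub z ctx.hzc h := hE5 h e he
    have m2 : ζ' ∈ sympCommSub z ctx.hzc h := by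
      rw [mem_sympCommSub, ← commutatorElement_inv]
      exact inv_mem ((mem_sympT z ctx.hzc ζ h).mp hh ζ' hζ')
    exact (mem_sympCommSub z ctx.hzc h _).mp (mul_mem m1 m2)
  by_cases hT : sympT z ctx.hzc ζ ≤ C
  · refine ⟨E, centralizer (E : Set G), ?_, ?_, hEex, final_R hG ctx _ hZR hRC hT⟩
    · intro e he r hr
      exact mem_centralizer_iff.mp hr e he
    · rw [eq_top_iff]
      intro g _
      obtain ⟨e, he, c, hc, rfl⟩ := hdecG g
      exact Subgroup.mul_mem_sup he hc
  · obtain ⟨g₀, hg₀, hg₀C⟩ := SetLike.not_le_iff_exists.mp hT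
    obtain ⟨hk2, hTT, hZT⟩ := ctx.T_facts hCZ hTC hg₀ hg₀C
    have hz1 : z ≠ 1 := by
      intro h
      rw [h, orderOf_one] at hzo
      exact hp.one_lt.ne hzo
    by_cases hpk : p ≠ 2 ∨ 3 ≤ k
    · exfalso
      have hpm : p ≠ 2 ∨ 2 ≤ k - 1 := by
        rcases hpk with h | h
        · exact Or.inl h
        · exact Or.inr (by omega)
      have h1 := symp_exponent hG hsymp (sympT z ctx.hzc ζ) ctx.T_char (ζ ^ p) (k - 1) (by omega)
        (symp_orderOf_pow_p hp hk1 hk) hZT hpm
        (fun x hx y hy => ⟨fun t _ => ctx.Z1c (hTT x hx y hy) t, ctx.Z1pow (hTT x hx y hy)⟩)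
        ζ (ctx.C_le_T (ctx.hZC (mem_zpowers ζ)))
      exact hz1 (hzdef ▸ h1)
    · push Not at hpk
      have hk2' : k = 2 := by omega
      have hTtop : ∀ g : G, g ∈ sympT z ctx.hzc ζ := ctx.T_eq_top (by omega)
      have hzζp : z = ζ ^ p := by rw [hzdef, hk2']; simp
      have hZtop : (⊤ : Subgroup G) ⊓ centralizer ((⊤ : Subgroup G) : Set G) = zpowers z := by
        ext u
        rw [hzζp, hZT u, mem_inf, mem_centralizer_iff]
        constructor
        · rintro ⟨_, h⟩
          exact ⟨hTtop u, fun t _ => (h t (mem_top t)).symm⟩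
        · rintro ⟨_, h⟩
          exact ⟨mem_top u, fun t _ => (h t (hTtop t)).eq.symm⟩
      have hext : Cfsg.IsExtraspecial p ↥(⊤ : Subgroup G) := by
        apply symp_isExtraspecial_sub
        · rw [hZtop, Nat.card_zpowers, hzo]
        · intro a _ b _
          have h1 := hTT a (hTtop a) b (hTtop b)
          rw [← hZtop] at h1
          exact h1.2
        · intro hle
          have h1 := hle (mem_top ζ)
          rw [mem_centralizer_iff] at h1
          exact hg₀C (hCZ g₀ (h1 g₀ (mem_top g₀)).symm)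
      refine ⟨⊤, ⊥, ?_, sup_bot_eq _, Or.inr hext, Or.inl inferInstance⟩
      intro e _ r hr
      rw [mem_bot.mp hr]; simp

/-- Let G be a finite p-group of symplectic type: every characteristic abelian subgroup of G is cyclic. Then G = E ∗ R is a central product of subgroups E and R (they commute elementwise and generate G) where E is extraspecial or trivial, and R is cyclic, or p = 2 and R is dihedral, semidihedral or generalized quaternion of order at least 16. -/
theorem result {G : Type*} [Group G] [Finite G] {p : ℕ} [Fact p.Prime] (hG : IsPGroup p G) (hsymp : ∀ A : Subgroup G, A.Characteristic → IsMulCommutative A → IsCyclic A) : ∃ E R : Subgroup G, (∀ e ∈ E, ∀ r ∈ R, e * r = r * e) ∧ E ⊔ R = ⊤ ∧ (E = ⊥ ∨ Cfsg.IsExtraspecial p ↥E) ∧ (IsCyclic R ∨ (p = 2 ∧ 16 ≤ Nat.card R ∧ ((∃ m : ℕ, Nonempty (↥R ≃* DihedralGroup m)) ∨ (∃ m : ℕ, Nonempty (↥R ≃* QuaternionGroup m)) ∨ Cfsg.IsQuasiDihedral ↥R))) := by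
  exact main hG hsymp

end Cfsg.Agent.S3762
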