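import Mathlib
import Cfsg.Statements.S1500
import Cfsg.Agent.Lib.Helper25.Dade

set_option autoImplicit false
open Cfsg

namespace Cfsg.Agent.S1500

open Cfsg.Agent.Lib.Helper25 in
open Classical in
theorem part_two {G : Type*} [Group G] [Fintype G] (A : Set G) (L : Subgroup G) [Fintype L]
    (H : G → Subgroup G) (hD : Cfsg.DadeHypothesis A L H) (α : L → ℂ)
    (hα : Cfsg.IsClassFunction L α) (hαA : ∀ x : L, (x : G) ∉ A → α x = 0)
    (χ : G → ℂ) (ψ : L → ℂ) (hχ : Cfsg.IsClassFunction G χ)
    (hψ : ∀ a : L, (a : G) ∈ A →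
      ψ a = (Nat.card (H a) : ℂ)⁻¹ * ∑ᶠ u ∈ (H a : Set G), χ (a * u)) :
    Cfsg.classInner (Cfsg.dadeIsometry A L H α) χ = Cfsg.classInner α ψ := by
  have hF : Cfsg.IsClassFunction G (fun g => (starRingEnd ℂ) (χ g)) := by
    intro g h
    show (starRingEnd ℂ) (χ (h * g * h⁻¹)) = (starRingEnd ℂ) (χ g)
    rw [hχ g h]
  have main := sum_dadeIsometry_mul hD α hα _ hF
  have hterm : ∀ a : L, (∑ u : G, if ((a : G) ∈ A ∧ u ∈ H a) then
      α a * (Nat.card (H (a : G)) : ℂ)⁻¹ * (starRingEnd ℂ) (χ (a * u)) else 0) =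
      α a * (starRingEnd ℂ) (ψ a) := by
    intro a
    by_cases ha : (a : G) ∈ A
    · rw [hψ a ha]
      have hfs : ∑ᶠ u ∈ (H (a : G) : Set G), χ (a * u) =
          ∑ u : G, if u ∈ H (a : G) then χ (a * u) else 0 := by
        rw [finsum_mem_def, finsum_eq_sum_of_fintype]
        apply Finset.sum_congr rfl
        intro u _
        simp [Set.indicator_apply]
      rw [hfs, map_mul, map_inv₀, map_natCast, map_sum, Finset.mul_sum, Finset.mul_sum]
      apply Finset.sum_congr rfl
      intro u _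
      by_cases hu : u ∈ H (a : G)
      · rw [if_pos ⟨ha, hu⟩, if_pos hu]; ring
      · rw [if_neg (fun h => hu h.2), if_neg hu, map_zero, mul_zero, mul_zero]
    · rw [hαA a ha]
      rw [zero_mul (starRingEnd ℂ (ψ a))]
      apply Finset.sum_eq_zero
      intro u _
      rw [if_neg (fun h => ha h.1)]
  simp_rw [hterm] at main
  unfold Cfsg.classInner
  have hG : (Nat.card G : ℂ) ≠ 0 := by exact_mod_cast Nat.card_pos.ne'
  have hL : (Nat.card L : ℂ) ≠ 0 := by exact_mod_cast Nat.card_pos.ne'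
  field_simp
  linear_combination main

/-- Under the Dade hypothesis for (A, L, H), let α be a class function of L vanishing outside A. Then (i) for every class function β of L vanishing outside A, the inner product over G of the Dade images of α and β equals the inner product of α and β over L; and (ii) for every class function χ of G and every function ψ on L whose value at each a ∈ A is the average of χ over the coset a·H(a), the inner product over G of the Dade image of α with χ equals the inner product over L of α with ψ. -/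
theorem result {G : Type*} [Group G] [Fintype G] (A : Set G) (L : Subgroup G) [Fintype L] (H : G → Subgroup G) (hD : Cfsg.DadeHypothesis A L H) (α : L → ℂ) (hα : Cfsg.IsClassFunction L α) (hαA : ∀ x : L, (x : G) ∉ A → α x = 0) : (∀ β : L → ℂ, Cfsg.IsClassFunction L β → (∀ x : L, (x : G) ∉ A → β x = 0) → Cfsg.classInner (Cfsg.dadeIsometry A L H α) (Cfsg.dadeIsometry A L H β) = Cfsg.classInner α β) ∧ (∀ (χ : G → ℂ) (ψ : L → ℂ), Cfsg.IsClassFunction G χ → (∀ a : L, (a : G) ∈ A → ψ a = (Nat.card (H a) : ℂ)⁻¹ * ∑ᶠ u ∈ (H a : Set G), χ (a * u)) → Cfsg.classInner (Cfsg.dadeIsometry A L H α) χ = Cfsg.classInner α ψ) := by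
  have h2 : ∀ (χ : G → ℂ) (ψ : L → ℂ), Cfsg.IsClassFunction G χ → (∀ a : L, (a : G) ∈ A → ψ a = (Nat.card (H a) : ℂ)⁻¹ * ∑ᶠ u ∈ (H a : Set G), χ (a * u)) → Cfsg.classInner (Cfsg.dadeIsometry A L H α) χ = Cfsg.classInner α ψ :=
    fun χ ψ hχ hψ => part_two A L H hD α hα hαA χ ψ hχ hψ
  refine ⟨?_, h2⟩
  intro β hβ hβA
  apply h2 _ β (Cfsg.Agent.Lib.Helper25.isClassFunction_dadeIsometry hD β hβ)
  intro a ha
  have hval : ∀ u ∈ (H (a : G) : Set G), Cfsg.dadeIsometry A L H β (a * u) = β a := by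
    intro u hu
    exact Cfsg.Agent.Lib.Helper25.dadeIsometry_apply hD β hβ _ a ha u 1 hu (by simp)
  rw [finsum_mem_congr rfl hval]
  have hne : (Nat.card (H (a : G)) : ℂ) ≠ 0 := by exact_mod_cast Nat.card_pos.ne'
  rw [finsum_mem_eq_finite_toFinset_sum _ (Set.toFinite _), Finset.sum_const, nsmul_eq_mul]
  have hcard : (Set.toFinite (H (a : G) : Set G)).toFinset.card = Nat.card (H (a : G)) := by
    rw [← Nat.card_eq_card_finite_toFinset]
    rfl
  rw [hcard]
  field_simp

end Cfsg.Agent.S1500
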