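import Mathlib
import Cfsg.Statements.S1525

set_option autoImplicit false
open Cfsg

namespace Cfsg.Agent.S1525

section grp

variable {G : Type*} [Group G]

theorem eq_of_pow_eq_of_coprime {a b : G} {n N : ℕ} (hN : 0 < N) (ha : a ^ N = 1)
    (hb : b ^ N = 1) (hcop : Nat.Coprime n N) (h : a ^ n = b ^ n) : a = b := by
  rcases Nat.lt_or_ge 1 N with h1 | h1
  · obtain ⟨k, -, hk⟩ := Nat.exists_mul_mod_eq_one_of_coprime hcop h1
    have e1 : a ^ (n * k) = a := by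
      rw [pow_eq_pow_mod (n * k) ha, hk, pow_one]
    have e2 : b ^ (n * k) = b := by
      rw [pow_eq_pow_mod (n * k) hb, hk, pow_one]
    rw [← e1, ← e2, pow_mul, pow_mul, h]
  · have hN1 : N = 1 := by omega
    subst hN1
    rw [pow_one] at ha hb
    rw [ha, hb]

theorem exists_mul_of_mem_sup {H K : Subgroup G} (hnorm : ∀ k ∈ K, ∀ h ∈ H, k * h * k⁻¹ ∈ H)
    {z : G} (hz : z ∈ H ⊔ K) : ∃ h ∈ H, ∃ k ∈ K, z = h * k := by
  rw [Subgroup.sup_eq_closure] at hz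
  induction hz using Subgroup.closure_induction with
  | mem x hx =>
    rcases hx with hx | hx
    · exact ⟨x, hx, 1, K.one_mem, by simp⟩
    · exact ⟨1, H.one_mem, x, hx, by simp⟩
  | one => exact ⟨1, H.one_mem, 1, K.one_mem, by simp⟩
  | mul x y _ _ hx hy =>
    obtain ⟨h₁, hh₁, k₁, hk₁, rfl⟩ := hx
    obtain ⟨h₂, hh₂, k₂, hk₂, rfl⟩ := hy
    refine ⟨h₁ * (k₁ * h₂ * k₁⁻¹), H.mul_mem hh₁ (hnorm k₁ hk₁ h₂ hh₂), k₁ * k₂,
      K.mul_mem hk₁ hk₂, ?_⟩
    group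
  | inv x _ hx =>
    obtain ⟨h₁, hh₁, k₁, hk₁, rfl⟩ := hx
    refine ⟨k₁⁻¹ * h₁⁻¹ * k₁⁻¹⁻¹, hnorm k₁⁻¹ (K.inv_mem hk₁) h₁⁻¹ (H.inv_mem hh₁), k₁⁻¹,
      K.inv_mem hk₁, ?_⟩
    group

theorem pow_card_of_mem [Finite G] {K : Subgroup G} {x : G} (hx : x ∈ K) :
    x ^ Nat.card K = 1 := by
  have h : ((⟨x, hx⟩ : K) ^ Nat.card K : K) = 1 := pow_card_eq_one'
  have h2 := congrArg Subtype.val h
  rw [Subgroup.coe_pow, Subgroup.coe_one] at h2
  exact h2

theorem card_centralizer_conj [Finite G] (l a : G) :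
    Nat.card ↥(Subgroup.centralizer ({l * a * l⁻¹} : Set G)) =
      Nat.card ↥(Subgroup.centralizer ({a} : Set G)) := by
  have : Subgroup.centralizer ({l * a * l⁻¹} : Set G) =
      (Subgroup.centralizer ({a} : Set G)).map (MulAut.conj l).toMonoidHom := by
    ext z
    simp only [Subgroup.mem_centralizer_iff, Set.mem_singleton_iff, forall_eq, Subgroup.mem_map,
      MulEquiv.coe_toMonoidHom, MulAut.conj_apply]
    constructor
    · intro hz
      refine ⟨l⁻¹ * z * l, ?_, by group⟩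
      calc a * (l⁻¹ * z * l) = l⁻¹ * (l * a * l⁻¹ * z) * l := by group
        _ = l⁻¹ * (z * (l * a * l⁻¹)) * l := by rw [hz]
        _ = l⁻¹ * z * l * a := by group
    · rintro ⟨c, hc, rfl⟩
      calc l * a * l⁻¹ * (l * c * l⁻¹) = l * (a * c) * l⁻¹ := by group
        _ = l * (c * a) * l⁻¹ := by rw [hc]
        _ = l * c * l⁻¹ * (l * a * l⁻¹) := by group
  rw [this]
  exact Subgroup.card_map_of_injective (MulAut.conj l).injective

theorem card_inf_centralizer_conj [Finite G] (L : Subgroup G) {l : G} (hl : l ∈ L) (a : G) :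
    Nat.card ↥(L ⊓ Subgroup.centralizer ({l * a * l⁻¹} : Set G)) =
      Nat.card ↥(L ⊓ Subgroup.centralizer ({a} : Set G)) := by
  have : L ⊓ Subgroup.centralizer ({l * a * l⁻¹} : Set G) =
      (L ⊓ Subgroup.centralizer ({a} : Set G)).map (MulAut.conj l).toMonoidHom := by
    ext z
    simp only [Subgroup.mem_inf, Subgroup.mem_centralizer_iff, Set.mem_singleton_iff, forall_eq,
      Subgroup.mem_map, MulEquiv.coe_toMonoidHom, MulAut.conj_apply]
    constructor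
    · rintro ⟨hzL, hz⟩
      refine ⟨l⁻¹ * z * l, ⟨L.mul_mem (L.mul_mem (L.inv_mem hl) hzL) hl, ?_⟩, by group⟩
      calc a * (l⁻¹ * z * l) = l⁻¹ * (l * a * l⁻¹ * z) * l := by group
        _ = l⁻¹ * (z * (l * a * l⁻¹)) * l := by rw [hz]
        _ = l⁻¹ * z * l * a := by group
    · rintro ⟨c, ⟨hcL, hc⟩, rfl⟩
      refine ⟨L.mul_mem (L.mul_mem hl hcL) (L.inv_mem hl), ?_⟩
      calc l * a * l⁻¹ * (l * c * l⁻¹) = l * (a * c) * l⁻¹ := by group
        _ = l * (c * a) * l⁻¹ := by rw [hc]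
        _ = l * c * l⁻¹ * (l * a * l⁻¹) := by group
  rw [this]
  exact Subgroup.card_map_of_injective (MulAut.conj l).injective

end grp

section dade

variable {G : Type*} [Group G] [Finite G] {A : Set G} {L : Subgroup G} {H : G → Subgroup G}

omit [Finite G] in
theorem mem_inf_cent (hD : DadeHypothesis A L H) {a : G} (ha : a ∈ A) :
    a ∈ L ⊓ Subgroup.centralizer ({a} : Set G) :=
  ⟨hD.subset ha, by simp [Subgroup.mem_centralizer_iff]⟩

omit [Finite G] in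
theorem card_mul_card (hD : DadeHypothesis A L H) {a : G} (ha : a ∈ A) :
    Nat.card (H a) * Nat.card ↥(L ⊓ Subgroup.centralizer ({a} : Set G)) =
      Nat.card ↥(Subgroup.centralizer ({a} : Set G)) := by
  rw [← Nat.card_prod]
  let f : (H a) × ↥(L ⊓ Subgroup.centralizer ({a} : Set G)) →
      ↥(Subgroup.centralizer ({a} : Set G)) :=
    fun p => ⟨(p.1 : G) * (p.2 : G),
      Subgroup.mul_mem _ (hD.le_centralizer a ha p.1.2) p.2.2.2⟩
  apply Nat.card_congr (Equiv.ofBijective f ⟨?_, ?_⟩)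
  · rintro ⟨⟨h, hh⟩, ⟨k, hk⟩⟩ ⟨⟨h', hh'⟩, ⟨k', hk'⟩⟩ heq
    have e : h * k = h' * k' := congrArg Subtype.val heq
    have e2 : h'⁻¹ * h = k' * k⁻¹ := by
      calc h'⁻¹ * h = h'⁻¹ * (h * k) * k⁻¹ := by group
        _ = h'⁻¹ * (h' * k') * k⁻¹ := by rw [e]
        _ = k' * k⁻¹ := by group
    have m1 : h'⁻¹ * h ∈ H a ⊓ (L ⊓ Subgroup.centralizer ({a} : Set G)) :=
      ⟨(H a).mul_mem ((H a).inv_mem hh') hh, by
        rw [e2]; exact Subgroup.mul_mem _ hk' (Subgroup.inv_mem _ hk)⟩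
    rw [hD.inf_eq_bot a ha, Subgroup.mem_bot] at m1
    have hh_eq : h = h' := by
      have := congrArg (fun t => h' * t) m1
      simpa using this
    subst hh_eq
    have hk_eq : k = k' := by simpa using e
    subst hk_eq
    rfl
  · rintro ⟨c, hc⟩
    have hc' := hc
    rw [← hD.sup_eq a ha] at hc'
    obtain ⟨h, hh, k, hk, rfl⟩ := exists_mul_of_mem_sup (H := H a)
      (K := L ⊓ Subgroup.centralizer ({a} : Set G))
      (fun k hk h hh => hD.conj_mem_H a ha k hk.2 h hh) hc'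
    exact ⟨⟨⟨h, hh⟩, ⟨k, hk⟩⟩, rfl⟩

theorem card_H_conj (hD : DadeHypothesis A L H) {a l : G} (ha : a ∈ A) (hl : l ∈ L) :
    Nat.card (H (l * a * l⁻¹)) = Nat.card (H a) := by
  have h1 := card_mul_card hD ha
  have h2 := card_mul_card hD (hD.conj_mem l hl a ha)
  rw [card_centralizer_conj, card_inf_centralizer_conj L hl] at h2
  have hpos : 0 < Nat.card ↥(L ⊓ Subgroup.centralizer ({a} : Set G)) := Nat.card_pos
  exact Nat.eq_of_mul_eq_mul_right hpos (h2.trans h1.symm)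

theorem fiber_key (hD : DadeHypothesis A L H) {a a₀ u u₀ y : G} (ha : a ∈ A) (ha₀ : a₀ ∈ A)
    (hu : u ∈ H a) (hu₀ : u₀ ∈ H a₀) (h : y * (a * u) * y⁻¹ = a₀ * u₀) :
    y * a * y⁻¹ = a₀ ∧ y * u * y⁻¹ = u₀ := by
  set n := Nat.card (H a) * Nat.card (H a₀) with hn
  set N := Nat.card ↥(L ⊓ Subgroup.centralizer ({a} : Set G)) *
    Nat.card ↥(L ⊓ Subgroup.centralizer ({a₀} : Set G)) with hN
  have hNpos : 0 < N := Nat.mul_pos Nat.card_pos Nat.card_pos
  have hcop : Nat.Coprime n N := by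
    apply Nat.Coprime.mul_left
    · exact Nat.Coprime.mul_right (hD.coprime a ha a ha) (hD.coprime a ha a₀ ha₀)
    · exact Nat.Coprime.mul_right (hD.coprime a₀ ha₀ a ha) (hD.coprime a₀ ha₀ a₀ ha₀)
  have hcomm : Commute a u := by
    have := hD.le_centralizer a ha hu
    rw [Subgroup.mem_centralizer_iff] at this
    exact this a rfl
  have hcomm₀ : Commute a₀ u₀ := by
    have := hD.le_centralizer a₀ ha₀ hu₀
    rw [Subgroup.mem_centralizer_iff] at this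
    exact this a₀ rfl
  have hun : u ^ n = 1 := by rw [hn, pow_mul, pow_card_of_mem hu, one_pow]
  have hu₀n : u₀ ^ n = 1 := by rw [hn, mul_comm, pow_mul, pow_card_of_mem hu₀, one_pow]
  have haN : a ^ N = 1 := by
    rw [hN, pow_mul, pow_card_of_mem (mem_inf_cent hD ha), one_pow]
  have ha₀N : a₀ ^ N = 1 := by
    rw [hN, mul_comm, pow_mul, pow_card_of_mem (mem_inf_cent hD ha₀), one_pow]
  have e1 : (y * a * y⁻¹) ^ n = a₀ ^ n := by
    have : (y * (a * u) * y⁻¹) ^ n = (a₀ * u₀) ^ n := by rw [h]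
    rw [conj_pow, hcomm.mul_pow, hun, mul_one, hcomm₀.mul_pow, hu₀n, mul_one] at this
    rw [conj_pow]; exact this
  have e2 : (y * a * y⁻¹) ^ N = 1 := by rw [conj_pow, haN]; group
  have e3 := eq_of_pow_eq_of_coprime hNpos e2 ha₀N hcop e1
  refine ⟨e3, ?_⟩
  have : y * u * y⁻¹ = (y * a * y⁻¹)⁻¹ * (y * (a * u) * y⁻¹) := by group
  rw [this, h, e3]; group

end dade

/-- Under the Dade hypothesis for (A, L, H), let χ be a class function of G and let ψ be a function on L whose value at each a ∈ A is the average of χ over the coset a·H(a). Then (1/|G|) Σ |χ g|² over the elements g of G conjugate into some coset a·H(a) with a ∈ A is at least (1/|L|) Σ_{a ∈ A ∩ L} |ψ a|². -/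
theorem result {G : Type*} [Group G] [Fintype G] (A : Set G) (L : Subgroup G) [Fintype L] (H : G → Subgroup G) (hD : Cfsg.DadeHypothesis A L H) (χ : G → ℂ) (hχ : Cfsg.IsClassFunction G χ) (ψ : L → ℂ) (hψ : ∀ a : L, (a : G) ∈ A → ψ a = (Nat.card (H a) : ℂ)⁻¹ * ∑ᶠ u ∈ (H a : Set G), χ (a * u)) : (Nat.card L : ℝ)⁻¹ * ∑ᶠ a ∈ {a : L | (a : G) ∈ A}, ‖ψ a‖ ^ 2 ≤ (Nat.card G : ℝ)⁻¹ * ∑ᶠ g ∈ {g : G | ∃ a ∈ A, ∃ u ∈ H a, ∃ x : G, x * g * x⁻¹ = a * u}, ‖χ g‖ ^ 2 := by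
  classical
  set AL : Finset L := Finset.univ.filter (fun a : L => (a : G) ∈ A) with hAL
  set At : Finset G := Finset.univ.filter
    (fun g : G => ∃ a ∈ A, ∃ u ∈ H a, ∃ x : G, x * g * x⁻¹ = a * u) with hAt
  let Hf : G → Finset G := fun a => Finset.univ.filter (fun u => u ∈ H a)
  let Lf : Finset G := Finset.univ.filter (fun u => u ∈ L)
  have hHf : ∀ a, (Hf a).card = Nat.card (H a) := fun a =>
    (Nat.subtype_card (Hf a) (by intro x; simp [Hf])).symm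
  have hLf : Lf.card = Nat.card L :=
    (Nat.subtype_card Lf (by intro x; simp [Lf])).symm
  have hLHS : ∑ᶠ a ∈ {a : L | (a : G) ∈ A}, ‖ψ a‖ ^ 2 = ∑ a ∈ AL, ‖ψ a‖ ^ 2 := by
    have : {a : L | (a : G) ∈ A} = ↑AL := by ext a; simp [hAL]
    rw [this, finsum_mem_coe_finset]
  have hRHS : ∑ᶠ g ∈ {g : G | ∃ a ∈ A, ∃ u ∈ H a, ∃ x : G, x * g * x⁻¹ = a * u}, ‖χ g‖ ^ 2 =
      ∑ g ∈ At, ‖χ g‖ ^ 2 := by
    have : {g : G | ∃ a ∈ A, ∃ u ∈ H a, ∃ x : G, x * g * x⁻¹ = a * u} = ↑At := by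
      ext g; simp [hAt]
    rw [this, finsum_mem_coe_finset]
  rw [hLHS, hRHS]
  have hAmem : ∀ a ∈ AL, (a : G) ∈ A := by
    intro a ha
    simpa [hAL] using ha
  have hψ' : ∀ a ∈ AL, ψ a = (Nat.card (H a) : ℂ)⁻¹ * ∑ u ∈ Hf a, χ (a * u) := by
    intro a ha
    rw [hψ a (hAmem a ha)]
    congr 1
    have : ((H (a : G) : Subgroup G) : Set G) = ↑(Hf a) := by ext u; simp [Hf]
    rw [this, finsum_mem_coe_finset]
  -- Cauchy–Schwarz
  have hA : ∀ a ∈ AL, ‖ψ a‖ ^ 2 ≤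
      (Nat.card (H a) : ℝ)⁻¹ * ∑ u ∈ Hf a, ‖χ (a * u)‖ ^ 2 := by
    intro a ha
    rw [hψ' a ha, norm_mul, mul_pow, norm_inv, Complex.norm_natCast]
    have hpos : (0 : ℝ) < Nat.card (H (a : G)) := by exact_mod_cast Nat.card_pos
    have h1 : ‖∑ u ∈ Hf a, χ (a * u)‖ ^ 2 ≤
        (Nat.card (H (a : G)) : ℝ) * ∑ u ∈ Hf a, ‖χ (a * u)‖ ^ 2 := by
      calc ‖∑ u ∈ Hf a, χ (a * u)‖ ^ 2 ≤ (∑ u ∈ Hf a, ‖χ (a * u)‖) ^ 2 := by
            gcongr; exact norm_sum_le _ _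
        _ ≤ ((Hf a).card : ℝ) * ∑ u ∈ Hf a, ‖χ (a * u)‖ ^ 2 := sq_sum_le_card_mul_sum_sq
        _ = _ := by rw [hHf]
    calc ((Nat.card (H (a : G)) : ℝ)⁻¹) ^ 2 * ‖∑ u ∈ Hf a, χ (a * u)‖ ^ 2
        ≤ ((Nat.card (H (a : G)) : ℝ)⁻¹) ^ 2 *
            ((Nat.card (H (a : G)) : ℝ) * ∑ u ∈ Hf a, ‖χ (a * u)‖ ^ 2) := by
          gcongr
      _ = (Nat.card (H (a : G)) : ℝ)⁻¹ * ∑ u ∈ Hf a, ‖χ (a * u)‖ ^ 2 := by
          field_simp
  -- the triple sum
  let T : Finset (Σ _ : G, Σ _ : L, G) :=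
    Finset.univ.sigma (fun _ => AL.sigma (fun a => Hf a))
  let F : (Σ _ : G, Σ _ : L, G) → ℝ :=
    fun t => (Nat.card (H (t.2.1 : G)) : ℝ)⁻¹ * ‖χ ((t.2.1 : G) * t.2.2)‖ ^ 2
  let Φ : (Σ _ : G, Σ _ : L, G) → G := fun t => t.1 * ((t.2.1 : G) * t.2.2) * t.1⁻¹
  have hTmem : ∀ t ∈ T, (t.2.1 : G) ∈ A ∧ t.2.2 ∈ H (t.2.1 : G) := by
    intro t ht
    simp only [T, Finset.mem_sigma, Finset.mem_univ, true_and] at ht
    exact ⟨hAmem _ ht.1, by simpa [Hf] using ht.2⟩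
  have hB : ∑ t ∈ T, F t = (Nat.card G : ℝ) *
      ∑ a ∈ AL, (Nat.card (H (a : G)) : ℝ)⁻¹ * ∑ u ∈ Hf a, ‖χ ((a : G) * u)‖ ^ 2 := by
    rw [Finset.sum_sigma]
    show ∑ _x : G, ∑ s ∈ AL.sigma (fun a => Hf a),
      (Nat.card (H (s.1 : G)) : ℝ)⁻¹ * ‖χ ((s.1 : G) * s.2)‖ ^ 2 = _
    rw [Finset.sum_const, Finset.card_univ, nsmul_eq_mul, Nat.card_eq_fintype_card]
    congr 1
    rw [Finset.sum_sigma]
    apply Finset.sum_congr rfl
    intro a _
    rw [Finset.mul_sum]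
  have hmaps : ∀ t ∈ T, Φ t ∈ At := by
    intro t ht
    obtain ⟨h1, h2⟩ := hTmem t ht
    simp only [hAt, Finset.mem_filter, Finset.mem_univ, true_and]
    refine ⟨t.2.1, h1, t.2.2, h2, t.1⁻¹, ?_⟩
    simp only [Φ]; group
  have hC : ∑ t ∈ T, F t ≤ (Nat.card L : ℝ) * ∑ g ∈ At, ‖χ g‖ ^ 2 := by
    rw [← Finset.sum_fiberwise_of_maps_to hmaps F, Finset.mul_sum]
    apply Finset.sum_le_sum
    intro g hg
    simp only [hAt, Finset.mem_filter, Finset.mem_univ, true_and] at hg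
    obtain ⟨a₀, ha₀, u₀, hu₀, x₀, hx₀⟩ := hg
    have hfib : ∀ t ∈ T.filter (fun t => Φ t = g),
        (x₀ * t.1) * (t.2.1 : G) * (x₀ * t.1)⁻¹ = a₀ ∧
        (x₀ * t.1) * t.2.2 * (x₀ * t.1)⁻¹ = u₀ := by
      intro t ht
      rw [Finset.mem_filter] at ht
      obtain ⟨htT, htg⟩ := ht
      obtain ⟨h1, h2⟩ := hTmem t htT
      apply fiber_key hD h1 ha₀ h2 hu₀
      rw [← hx₀, ← htg]
      simp only [Φ]; group
    have hfus : ∀ t ∈ T.filter (fun t => Φ t = g),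
        ∃ l ∈ L, l * (t.2.1 : G) * l⁻¹ = a₀ := by
      intro t ht
      obtain ⟨e1, -⟩ := hfib t ht
      rw [Finset.mem_filter] at ht
      obtain ⟨h1, -⟩ := hTmem t ht.1
      obtain ⟨l, hl, hla⟩ := hD.fusion _ h1 (x₀ * t.1) (by rw [e1]; exact ha₀)
      exact ⟨l, hl, hla.trans e1⟩
    have hF : ∀ t ∈ T.filter (fun t => Φ t = g),
        F t = (Nat.card (H a₀) : ℝ)⁻¹ * ‖χ g‖ ^ 2 := by
      intro t ht
      obtain ⟨l, hl, hla⟩ := hfus t ht
      rw [Finset.mem_filter] at ht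
      obtain ⟨htT, htg⟩ := ht
      obtain ⟨h1, -⟩ := hTmem t htT
      have hc : Nat.card (H a₀) = Nat.card (H (t.2.1 : G)) := by
        rw [← hla]; exact card_H_conj hD h1 hl
      have hχg : χ g = χ ((t.2.1 : G) * t.2.2) := by
        rw [← htg]; exact hχ _ _
      simp only [F]
      rw [hc, hχg]
    rw [Finset.sum_congr rfl hF, Finset.sum_const, nsmul_eq_mul]
    have hcard : (T.filter (fun t => Φ t = g)).card ≤ Nat.card (H a₀) * Nat.card L := by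
      have hle : (T.filter (fun t => Φ t = g)).card ≤
          ((Hf a₀ ×ˢ Lf).image (fun p : G × G => x₀⁻¹ * p.1 * p.2)).card := by
        apply Finset.card_le_card_of_injOn (fun t => t.1)
        · intro t ht
          obtain ⟨e1, -⟩ := hfib t ht
          obtain ⟨l, hl, hla⟩ := hfus t ht
          have hcmem : x₀ * t.1 * l⁻¹ ∈ Subgroup.centralizer ({a₀} : Set G) := by
            rw [Subgroup.mem_centralizer_iff]
            intro z hz
            rw [Set.mem_singleton_iff.mp hz]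
            have h3 : (t.2.1 : G) = l⁻¹ * a₀ * l := by rw [← hla]; group
            have e1' := e1
            rw [h3] at e1'
            have h4 : x₀ * t.1 * l⁻¹ * a₀ * (x₀ * t.1 * l⁻¹)⁻¹ = a₀ := by
              calc x₀ * t.1 * l⁻¹ * a₀ * (x₀ * t.1 * l⁻¹)⁻¹
                  = x₀ * t.1 * (l⁻¹ * a₀ * l) * (x₀ * t.1)⁻¹ := by group
                _ = a₀ := e1'
            calc a₀ * (x₀ * t.1 * l⁻¹)
                = (x₀ * t.1 * l⁻¹ * a₀ * (x₀ * t.1 * l⁻¹)⁻¹) * (x₀ * t.1 * l⁻¹) := by rw [h4]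
              _ = x₀ * t.1 * l⁻¹ * a₀ := by group
          rw [← hD.sup_eq a₀ ha₀] at hcmem
          obtain ⟨h, hh, k, hk, hhk⟩ := exists_mul_of_mem_sup (H := H a₀)
            (K := L ⊓ Subgroup.centralizer ({a₀} : Set G))
            (fun k hk h hh => hD.conj_mem_H a₀ ha₀ k hk.2 h hh) hcmem
          rw [Finset.mem_coe, Finset.mem_image]
          refine ⟨(h, k * l), ?_, ?_⟩
          · rw [Finset.mem_product]
            exact ⟨by simpa [Hf] using hh, by simpa [Lf] using L.mul_mem hk.1 hl⟩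
          · show x₀⁻¹ * h * (k * l) = t.1
            have : x₀ * t.1 = h * k * l := by
              rw [← hhk]; group
            calc x₀⁻¹ * h * (k * l) = x₀⁻¹ * (h * k * l) := by group
              _ = x₀⁻¹ * (x₀ * t.1) := by rw [this]
              _ = t.1 := by group
        · intro t ht t' ht' heq
          rw [Finset.mem_coe] at ht ht'
          obtain ⟨e1, e2⟩ := hfib t ht
          obtain ⟨e1', e2'⟩ := hfib t' ht'
          obtain ⟨x, a, u⟩ := t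
          obtain ⟨x', a', u'⟩ := t'
          have hx : x = x' := heq
          subst hx
          have ha : (a : G) = (a' : G) := by
            have := e1.trans e1'.symm
            simpa using this
          have hu : u = u' := by
            have := e2.trans e2'.symm
            simpa using this
          have ha' : a = a' := Subtype.ext ha
          subst ha' hu
          rfl
      calc (T.filter (fun t => Φ t = g)).card
          ≤ ((Hf a₀ ×ˢ Lf).image (fun p : G × G => x₀⁻¹ * p.1 * p.2)).card := hle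
        _ ≤ (Hf a₀ ×ˢ Lf).card := Finset.card_image_le
        _ = Nat.card (H a₀) * Nat.card L := by rw [Finset.card_product, hHf, hLf]
    have hpos : (0 : ℝ) < Nat.card (H a₀) := by exact_mod_cast Nat.card_pos
    have hcardR : ((T.filter (fun t => Φ t = g)).card : ℝ) ≤
        (Nat.card (H a₀) : ℝ) * (Nat.card L : ℝ) := by exact_mod_cast hcard
    calc ((T.filter (fun t => Φ t = g)).card : ℝ) * ((Nat.card (H a₀) : ℝ)⁻¹ * ‖χ g‖ ^ 2)
        ≤ ((Nat.card (H a₀) : ℝ) * (Nat.card L : ℝ)) * ((Nat.card (H a₀) : ℝ)⁻¹ * ‖χ g‖ ^ 2) := by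
          gcongr
      _ = (Nat.card L : ℝ) * ‖χ g‖ ^ 2 := by field_simp
  have key : (Nat.card G : ℝ) * ∑ a ∈ AL, ‖ψ a‖ ^ 2 ≤ (Nat.card L : ℝ) * ∑ g ∈ At, ‖χ g‖ ^ 2 := by
    calc (Nat.card G : ℝ) * ∑ a ∈ AL, ‖ψ a‖ ^ 2
        ≤ (Nat.card G : ℝ) *
            ∑ a ∈ AL, (Nat.card (H (a : G)) : ℝ)⁻¹ * ∑ u ∈ Hf a, ‖χ ((a : G) * u)‖ ^ 2 :=
          mul_le_mul_of_nonneg_left (Finset.sum_le_sum hA) (Nat.cast_nonneg _)
      _ = ∑ t ∈ T, F t := hB.symm
      _ ≤ _ := hC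
  have hG : (0 : ℝ) < Nat.card G := by exact_mod_cast Nat.card_pos
  have hL : (0 : ℝ) < Nat.card L := by exact_mod_cast Nat.card_pos
  rw [inv_mul_le_iff₀ hL]
  calc ∑ a ∈ AL, ‖ψ a‖ ^ 2 = (Nat.card G : ℝ)⁻¹ * ((Nat.card G : ℝ) * ∑ a ∈ AL, ‖ψ a‖ ^ 2) := by
        field_simp
    _ ≤ (Nat.card G : ℝ)⁻¹ * ((Nat.card L : ℝ) * ∑ g ∈ At, ‖χ g‖ ^ 2) := by
        gcongr
    _ = (Nat.card L : ℝ) * ((Nat.card G : ℝ)⁻¹ * ∑ g ∈ At, ‖χ g‖ ^ 2) := by ring

end Cfsg.Agent.S1525
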