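import Cfsg.Statements.S5421
import Cfsg.Agent.Lib.Helper90.Basic
import Cfsg.Agent.Lib.Helper90.Invol

set_option autoImplicit false
open Cfsg

namespace Cfsg.Agent.S5421

/-- Let Q be an extraspecial 2-subgroup of the finite group G whose centralizer in G is its centre Z and which is normal in the centralizer of Z. If some involution b of Q outside Z has Z inside the largest normal 2-subgroup of the centralizer of b, then Q is a large extraspecial 2-subgroup of G. -/
theorem result {G : Type*} [Group G] [Finite G] (Q : Subgroup G) (hL1 : Cfsg.IsExtraspecial 2 ↥Q) (hL2 : Subgroup.centralizer (Q : Set G) = ((Subgroup.center ↥Q).map Q.subtype)) (hL3 : Subgroup.centralizer (((Subgroup.center ↥Q).map Q.subtype) : Set G) ≤ Subgroup.normalizer (Q : Set G)) (b : G) (hbQ : b ∈ Q) (hbZ : b ∉ ((Subgroup.center ↥Q).map Q.subtype)) (hb : orderOf b = 2) (hZ : ((Subgroup.center ↥Q).map Q.subtype) ≤ (Cfsg.pCore 2 ↥(Subgroup.centralizer ({b} : Set G))).map (Subgroup.centralizer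 ({b} : Set G)).subtype) : Cfsg.IsLargeExtraspecial Q := by
  refine ⟨hL1, hL2, hL3, ?_⟩
  intro K hK hQK
  have hfact : Fact (Nat.Prime 2) := ⟨Nat.prime_two⟩
  obtain ⟨z, hzQ, hz1, hzz, hzZ, hzc⟩ := Cfsg.Agent.Lib.Helper90.exists_center_gen Q hL1
  have hKC := Cfsg.Agent.Lib.Helper90.odd_inf_centralizer_center Q hL1 hL2 hL3 K hK hQK
  -- the centralizer of `z` in `K` is trivial
  have hCz : ∀ k ∈ K, z * k = k * z → k = 1 := by
    intro k hk hkz
    have hmem : k ∈ K ⊓ Subgroup.centralizer (((Subgroup.center ↥Q).map Q.subtype) : Set G) := by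
      refine Subgroup.mem_inf.mpr ⟨hk, ?_⟩
      rw [Subgroup.mem_centralizer_iff]
      intro x hx
      rcases (hzZ x).mp hx with rfl | rfl
      · simp
      · exact hkz
    rw [hKC] at hmem
    exact (Subgroup.mem_bot).mp hmem
  have hP2 : IsPGroup 2 ((Cfsg.pCore 2 ↥(Subgroup.centralizer ({b} : Set G))).map
      (Subgroup.centralizer ({b} : Set G)).subtype) :=
    (Cfsg.Agent.Lib.Helper90.pCore_isPGroup 2).map _
  have hKP := Cfsg.Agent.Lib.Helper90.odd_inf_two_group K _ hK hP2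
  have hzP : z ∈ (Cfsg.pCore 2 ↥(Subgroup.centralizer ({b} : Set G))).map
      (Subgroup.centralizer ({b} : Set G)).subtype := hZ ((hzZ z).mpr (Or.inr rfl))
  -- the centralizer of `b` in `K` is trivial
  have hCb : ∀ k ∈ K, b * k = k * b → k = 1 := by
    intro k hk hkb
    apply hCz k hk
    have h1 : z * k * z⁻¹ * k⁻¹ ∈ K := by
      have : z * k * z⁻¹ ∈ K := (Subgroup.mem_normalizer_iff.mp (hQK hzQ) k).mp hk
      exact K.mul_mem this (K.inv_mem hk)
    have h2 : z * k * z⁻¹ * k⁻¹ ∈ (Cfsg.pCore 2 ↥(Subgroup.centralizer ({b} : Set G))).map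
        (Subgroup.centralizer ({b} : Set G)).subtype := by
      obtain ⟨z', hz', hz'eq⟩ := hzP
      have hkC : k ∈ Subgroup.centralizer ({b} : Set G) := by
        rw [Subgroup.mem_centralizer_iff]
        intro x hx
        rw [Set.mem_singleton_iff] at hx
        rw [hx]; exact hkb
      have hn : (Cfsg.pCore 2 ↥(Subgroup.centralizer ({b} : Set G))).Normal := inferInstance
      have h3 : (⟨k, hkC⟩ : ↥(Subgroup.centralizer ({b} : Set G))) * z'⁻¹ *
          (⟨k, hkC⟩ : ↥(Subgroup.centralizer ({b} : Set G)))⁻¹ ∈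
          Cfsg.pCore 2 ↥(Subgroup.centralizer ({b} : Set G)) := hn.conj_mem _ (inv_mem hz') _
      have h4 := mul_mem hz' h3
      refine ⟨_, h4, ?_⟩
      have hz'eq' : (z' : G) = z := hz'eq
      simp only [Subgroup.coe_subtype, Subgroup.coe_mul, Subgroup.coe_inv, hz'eq']
      group
    have h5 : z * k * z⁻¹ * k⁻¹ ∈ K ⊓ (Cfsg.pCore 2 ↥(Subgroup.centralizer ({b} : Set G))).map
        (Subgroup.centralizer ({b} : Set G)).subtype := ⟨h1, h2⟩
    rw [hKP, Subgroup.mem_bot] at h5
    have : z * k * z⁻¹ * k⁻¹ * (k * z) = k * z := by rw [h5, one_mul]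
    rw [← this]; group
  -- the centralizer of `z * b` in `K` is trivial
  obtain ⟨q, hqQ, hq⟩ := Cfsg.Agent.Lib.Helper90.exists_conj_mul_center Q hL1 z hzZ b hbQ hbZ
  have hCzb : ∀ k ∈ K, (z * b) * k = k * (z * b) → k = 1 := by
    intro k hk hkzb
    have hqN := hQK hqQ
    have hk' : q⁻¹ * k * q ∈ K := by
      have := (Subgroup.mem_normalizer_iff.mp (inv_mem hqN) k).mp hk
      rwa [inv_inv] at this
    have hb' : b = q⁻¹ * (z * b) * q := by rw [← hq]; group
    have h1 : b * (q⁻¹ * k * q) = (q⁻¹ * k * q) * b := by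
      calc b * (q⁻¹ * k * q) = q⁻¹ * (z * b) * q * (q⁻¹ * k * q) := by rw [← hb']
        _ = q⁻¹ * ((z * b) * k) * q := by group
        _ = q⁻¹ * (k * (z * b)) * q := by rw [hkzb]
        _ = (q⁻¹ * k * q) * (q⁻¹ * (z * b) * q) := by group
        _ = (q⁻¹ * k * q) * b := by rw [← hb']
    have h2 := hCb _ hk' h1
    have : k = q * (q⁻¹ * k * q) * q⁻¹ := by group
    rw [this, h2]; group
  have hbb : b * b = 1 := by
    rw [← pow_two, ← hb]; exact pow_orderOf_eq_one b
  have hbN : ∀ k ∈ K, b * k * b⁻¹ ∈ K :=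
    fun k hk => (Subgroup.mem_normalizer_iff.mp (hQK hbQ) k).mp hk
  have hzb_comm : b * z = z * b := hzc b hbQ
  have hzbzb : (z * b) * (z * b) = 1 := by
    calc z * b * (z * b) = z * (b * z) * b := by group
      _ = z * (z * b) * b := by rw [hzb_comm]
      _ = (z * z) * (b * b) := by group
      _ = 1 := by rw [hzz, hbb, one_mul]
  have hzbN : ∀ k ∈ K, (z * b) * k * (z * b)⁻¹ ∈ K :=
    fun k hk => (Subgroup.mem_normalizer_iff.mp (hQK (Q.mul_mem hzQ hbQ)) k).mp hk
  have inv_b := Cfsg.Agent.Lib.Helper90.inverts_of_fixed_point_free K b hbb hbN hCb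
  have inv_zb := Cfsg.Agent.Lib.Helper90.inverts_of_fixed_point_free K (z * b) hzbzb hzbN hCzb
  rw [eq_bot_iff]
  intro k hk
  rw [Subgroup.mem_bot]
  apply hCz k hk
  have hb_inv : b⁻¹ = b := inv_eq_of_mul_eq_one_left hbb
  have h2 : b⁻¹ * k * b = k⁻¹ := by
    have := inv_b k hk
    rw [hb_inv] at this ⊢
    exact this
  have h3 : z * k * z⁻¹ = (z * b) * (b⁻¹ * k * b) * (z * b)⁻¹ := by group
  rw [h2, inv_zb k⁻¹ (K.inv_mem hk), inv_inv] at h3
  calc z * k = z * k * z⁻¹ * z := by group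
    _ = k * z := by rw [h3]

end Cfsg.Agent.S5421
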