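import Cfsg.Statements.S5422
import Cfsg.Agent.S5421
import Cfsg.Agent.Lib.Helper90.Extra
import Cfsg.Agent.Lib.Helper90.IndexAux
import Cfsg.Agent.Lib.Helper90.Conj

set_option autoImplicit false
open Cfsg

namespace Cfsg.Agent.S5422

theorem main {G : Type*} [Group G] [Finite G] (Q : Subgroup G) (hL1 : Cfsg.IsExtraspecial 2 ↥Q)
    (Z : Subgroup G) (hZ : Z = (Subgroup.center ↥Q).map Q.subtype)
    (hL2 : Subgroup.centralizer (Q : Set G) = Z)
    (hL3 : Subgroup.centralizer (Z : Set G) ≤ Subgroup.normalizer (Q : Set G))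
    (g : G) (hg : g ∉ Subgroup.normalizer (Z : Set G))
    (hZg : Z.map (MulAut.conj g).toMonoidHom ≤ Q)
    (V : Subgroup G) (hVdef : V = Z ⊔ Z.map (MulAut.conj g).toMonoidHom) :
    Z ≤ Q.map (MulAut.conj g).toMonoidHom ∧
    (Subgroup.centralizer (V : Set G)).relIndex (Subgroup.normalizer (V : Set G)) = 6 ∧
    Cfsg.IsLargeExtraspecial Q := by
  have hfact : Fact (Nat.Prime 2) := ⟨Nat.prime_two⟩
  obtain ⟨z, hzQ, hz1, hzz, hzZ, hzc⟩ := Cfsg.Agent.Lib.Helper90.exists_center_gen Q hL1
  have hzZ0 := hzZ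
  rw [← hZ] at hzZ
  have hzmemZ : z ∈ Z := (hzZ z).mpr (Or.inr rfl)
  have hconj_apply : ∀ x : G, (MulAut.conj g).toMonoidHom x = g * x * g⁻¹ := by
    intro x
    simp [MulAut.conj_apply]
  obtain ⟨s, hs_def⟩ : ∃ s : G, s = g * z * g⁻¹ := ⟨_, rfl⟩
  have hsQ : s ∈ Q := by
    rw [hs_def]
    exact hZg ⟨z, hzmemZ, hconj_apply z⟩
  have hconj_ne1 : ∀ (b x : G), x ≠ 1 → b * x * b⁻¹ ≠ 1 := by
    intro b x hx h
    apply hx
    have : x = b⁻¹ * (b * x * b⁻¹) * b := by group
    rw [this, h]; group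
  have hs1 : s ≠ 1 := by
    rw [hs_def]
    exact hconj_ne1 g z hz1
  have hsz : s ≠ z := by
    intro h
    apply hg
    apply Subgroup.mem_normalizer_fintype
    intro n hn
    rcases (hzZ n).mp hn with h1 | h1
    · rw [h1]
      have : g * 1 * g⁻¹ = 1 := by group
      rw [this]
      exact Subgroup.one_mem _
    · rw [h1, ← hs_def, h]
      exact hzmemZ
  have hss : s * s = 1 := by
    rw [hs_def]
    calc g * z * g⁻¹ * (g * z * g⁻¹) = g * (z * z) * g⁻¹ := by group
      _ = 1 := by rw [hzz]; group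
  have hsZ : s ∉ Z := by
    intro h
    rcases (hzZ s).mp h with h | h
    · exact hs1 h
    · exact hsz h
  have hsZ0 : s ∉ (Subgroup.center ↥Q).map Q.subtype := by rw [← hZ]; exact hsZ
  obtain ⟨q, hqQ, hq⟩ := Cfsg.Agent.Lib.Helper90.exists_conj_mul_center Q hL1 z hzZ0 s hsQ hsZ0
  have ctx : Cfsg.Agent.Lib.Helper90.ExCtx Q z s q := by
    refine ⟨hzQ, hz1, hzz, hzc, ?_, ?_, ?_, hsQ, hss, hqQ, ?_⟩
    · intro x hx y hy
      exact Cfsg.Agent.Lib.Helper90.comm_eq_one_or Q hL1 z hzZ0 x y hx hy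
    · intro c hc
      have : c ∈ Subgroup.centralizer (Q : Set G) := by
        rw [Subgroup.mem_centralizer_iff]
        intro x hx
        exact (hc x hx).symm
      rw [hL2] at this
      exact (hzZ c).mp this
    · intro c hc x hx
      have hcC : c ∈ Subgroup.centralizer (Z : Set G) := by
        rw [Subgroup.mem_centralizer_iff]
        intro t ht
        rcases (hzZ t).mp ht with h1 | h1
        · rw [h1, one_mul, mul_one]
        · rw [h1]; exact hc.symm
      exact (Subgroup.mem_normalizer_iff.mp (hL3 hcC) x).mp hx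
    · calc q * s = q * s * q⁻¹ * q := by group
        _ = z * s * q := by rw [hq]
  have hzs : z * s = s * z := ctx.zs
  -- the four-group V
  have hzV : z ∈ V := by rw [hVdef]; exact Subgroup.mem_sup_left hzmemZ
  have hsV : s ∈ V := by
    rw [hVdef, hs_def]
    exact Subgroup.mem_sup_right ⟨z, hzmemZ, hconj_apply z⟩
  have hzsV : z * s ∈ V := V.mul_mem hzV hsV
  have hV : ∀ v ∈ V, v = 1 ∨ v = z ∨ v = s ∨ v = z * s := by
    have hle : V ≤ Subgroup.centralizer {x : G | x ∈ Q ∧ x * s = s * x} := by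
      rw [hVdef]
      apply sup_le
      · intro v hv
        rw [Subgroup.mem_centralizer_iff]
        rintro x ⟨hxQ, hxs⟩
        rcases (hzZ v).mp hv with h1 | h1
        · rw [h1, one_mul, mul_one]
        · rw [h1]; exact hzc x hxQ
      · rintro v ⟨t, ht, rfl⟩
        rw [Subgroup.mem_centralizer_iff]
        rintro x ⟨hxQ, hxs⟩
        rw [hconj_apply]
        rcases (hzZ t).mp ht with h1 | h1
        · rw [h1]
          have : g * 1 * g⁻¹ = 1 := by group
          rw [this, one_mul, mul_one]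
        · rw [h1, ← hs_def]; exact hxs
    intro v hv
    have h1 := Subgroup.mem_centralizer_iff.mp (hle hv)
    exact ctx.centR v (fun x hx hxs => (h1 x ⟨hx, hxs⟩).symm)
  have hCv : ∀ x, x ∈ Subgroup.centralizer (V : Set G) ↔ x * z = z * x ∧ x * s = s * x := by
    intro x
    rw [Subgroup.mem_centralizer_iff]
    constructor
    · intro h
      exact ⟨(h z hzV).symm, (h s hsV).symm⟩
    · rintro ⟨h1, h2⟩ v hv
      rcases hV v hv with h3 | h3 | h3 | h3
      · rw [h3, one_mul, mul_one]
      · rw [h3]; exact h1.symm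
      · rw [h3]; exact h2.symm
      · rw [h3]
        calc z * s * x = z * (s * x) := by group
          _ = z * (x * s) := by rw [h2]
          _ = (z * x) * s := by group
          _ = (x * z) * s := by rw [h1]
          _ = x * (z * s) := by group
  have hNv : ∀ n, n * z * n⁻¹ ∈ V → n * s * n⁻¹ ∈ V →
      n ∈ Subgroup.normalizer (V : Set G) := by
    intro n h1 h2
    apply Subgroup.mem_normalizer_fintype
    intro v hv
    rcases hV v hv with h3 | h3 | h3 | h3
    · rw [h3]
      have : n * 1 * n⁻¹ = 1 := by group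
      rw [this]
      exact Subgroup.one_mem _
    · rw [h3]; exact h1
    · rw [h3]; exact h2
    · rw [h3]
      have : n * (z * s) * n⁻¹ = (n * z * n⁻¹) * (n * s * n⁻¹) := by group
      rw [this]; exact V.mul_mem h1 h2
  have hqz : q * z * q⁻¹ = z := by
    calc q * z * q⁻¹ = (q * z) * q⁻¹ := by group
      _ = (z * q) * q⁻¹ := by rw [hzc q hqQ]
      _ = z := by group
  have hqNv : q ∈ Subgroup.normalizer (V : Set G) :=
    hNv q (by rw [hqz]; exact hzV) (by rw [hq]; exact hzsV)
  have hmemH : ∀ x, x ∈ Subgroup.centralizer ({z} : Set G) ↔ x * z = z * x := by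
    intro x
    rw [Subgroup.mem_centralizer_iff]
    constructor
    · intro h; exact (h z rfl).symm
    · intro h t ht
      rw [Set.mem_singleton_iff] at ht
      rw [ht]; exact h.symm
  have hmemHs : ∀ x, x ∈ Subgroup.centralizer ({s} : Set G) ↔ x * s = s * x := by
    intro x
    rw [Subgroup.mem_centralizer_iff]
    constructor
    · intro h; exact (h s rfl).symm
    · intro h t ht
      rw [Set.mem_singleton_iff] at ht
      rw [ht]; exact h.symm
  have hCM : Subgroup.centralizer (V : Set G) ≤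
      Subgroup.normalizer (V : Set G) ⊓ Subgroup.centralizer ({z} : Set G) := by
    intro x hx
    exact Subgroup.mem_inf.mpr ⟨Subgroup.centralizer_le_normalizer _ hx,
      (hmemH x).mpr ((hCv x).mp hx).1⟩
  have hconj_ne : ∀ b : G, b * z = z * b → b * s * b⁻¹ ≠ z := by
    intro b hb h
    apply hsz
    have h1 : b * z * b⁻¹ = z := by
      calc b * z * b⁻¹ = (z * b) * b⁻¹ := by rw [hb]
        _ = z := by group
    have h2 : b⁻¹ * (b * s * b⁻¹) * b = b⁻¹ * (b * z * b⁻¹) * b := by rw [h, h1]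
    have e1 : b⁻¹ * (b * s * b⁻¹) * b = s := by group
    have e2 : b⁻¹ * (b * z * b⁻¹) * b = z := by group
    rw [e1, e2] at h2; exact h2
  have hz_ne_zs : z * s ≠ s := by
    intro h
    apply hz1
    have : z * s = 1 * s := by rw [one_mul]; exact h
    exact mul_right_cancel this
  have hidx2 : (Subgroup.centralizer (V : Set G)).relIndex
      (Subgroup.normalizer (V : Set G) ⊓ Subgroup.centralizer ({z} : Set G)) = 2 := by
    rw [Subgroup.relIndex_eq_two_iff]
    refine ⟨q, Subgroup.mem_inf.mpr ⟨hqNv, (hmemH q).mpr (hzc q hqQ)⟩, ?_⟩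
    intro b hb
    obtain ⟨hbN, hbH⟩ := Subgroup.mem_inf.mp hb
    have hbz : b * z = z * b := (hmemH b).mp hbH
    have hbs : b * s * b⁻¹ ∈ V := (Subgroup.mem_normalizer_iff.mp hbN s).mp hsV
    have hbq_s : (b * q) * s * (b * q)⁻¹ = z * (b * s * b⁻¹) := by
      calc (b * q) * s * (b * q)⁻¹ = b * (q * s * q⁻¹) * b⁻¹ := by group
        _ = b * (z * s) * b⁻¹ := by rw [hq]
        _ = (b * z) * s * b⁻¹ := by group
        _ = (z * b) * s * b⁻¹ := by rw [hbz]
        _ = z * (b * s * b⁻¹) := by group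
    have hbqz : (b * q) * z = z * (b * q) := by
      calc b * q * z = b * (q * z) := by group
        _ = b * (z * q) := by rw [hzc q hqQ]
        _ = (b * z) * q := by group
        _ = (z * b) * q := by rw [hbz]
        _ = z * (b * q) := by group
    rcases hV _ hbs with h | h | h | h
    · exact absurd h (hconj_ne1 b s hs1)
    · exact absurd h (hconj_ne b hbz)
    · right
      have hbs' : b * s = s * b := by
        calc b * s = b * s * b⁻¹ * b := by group
          _ = s * b := by rw [h]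
      refine ⟨(hCv b).mpr ⟨hbz, hbs'⟩, ?_⟩
      intro hbq
      have h3 := ((hCv _).mp hbq).2
      have h4 : (b * q) * s * (b * q)⁻¹ = s := by
        calc (b * q) * s * (b * q)⁻¹ = (s * (b * q)) * (b * q)⁻¹ := by rw [h3]
          _ = s := by group
      rw [hbq_s, h] at h4
      exact hz_ne_zs h4
    · left
      refine ⟨(hCv _).mpr ⟨hbqz, ?_⟩, ?_⟩
      · have h4 : (b * q) * s * (b * q)⁻¹ = s := by
          rw [hbq_s, h]
          calc z * (z * s) = (z * z) * s := by group
            _ = s := by rw [hzz, one_mul]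
        calc (b * q) * s = (b * q) * s * (b * q)⁻¹ * (b * q) := by group
          _ = s * (b * q) := by rw [h4]
      · intro hbC
        have h3 := ((hCv b).mp hbC).2
        have h4 : b * s * b⁻¹ = s := by
          calc b * s * b⁻¹ = (s * b) * b⁻¹ := by rw [h3]
            _ = s := by group
        rw [h] at h4
        exact hz_ne_zs h4
  -- a Sylow 2-subgroup of C_G(s) containing C_Q(s)
  have hQ2 : IsPGroup 2 ↥Q := hL1.1.1
  have hR2 : IsPGroup 2 ↥((Q ⊓ Subgroup.centralizer ({s} : Set G)).subgroupOf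
      (Subgroup.centralizer ({s} : Set G))) := (hQ2.to_le inf_le_left).comap_subtype
  obtain ⟨T', hT'⟩ := hR2.exists_le_sylow
  obtain ⟨T, hTdef⟩ : ∃ T : Subgroup G,
      T = (T' : Subgroup ↥(Subgroup.centralizer ({s} : Set G))).map
        (Subgroup.centralizer ({s} : Set G)).subtype := ⟨_, rfl⟩
  have hT2 : IsPGroup 2 ↥T := by rw [hTdef]; exact T'.isPGroup'.map _
  have hTHs : T ≤ Subgroup.centralizer ({s} : Set G) := by
    rw [hTdef]
    rintro x ⟨y, -, rfl⟩
    exact y.2
  have hRT : ∀ x ∈ Q, x * s = s * x → x ∈ T := by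
    intro x hx hxs
    have hxHs : x ∈ Subgroup.centralizer ({s} : Set G) := (hmemHs x).mpr hxs
    rw [hTdef]
    refine ⟨⟨x, hxHs⟩, hT' ?_, rfl⟩
    rw [Subgroup.mem_subgroupOf]
    exact Subgroup.mem_inf.mpr ⟨hx, hxHs⟩
  have hcardT : Nat.card ↥T
      = 2 ^ (Nat.card ↥(Subgroup.centralizer ({s} : Set G))).factorization 2 := by
    rw [hTdef, Subgroup.card_map_of_injective (Subgroup.subtype_injective _)]
    exact T'.card_eq_multiplicity
  have hnotle : ¬ (T ≤ Subgroup.centralizer ({z} : Set G)) := by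
    intro hle
    have hTC : T ≤ Subgroup.centralizer (V : Set G) := by
      intro x hx
      exact (hCv x).mpr ⟨(hmemH x).mp (hle hx), (hmemHs x).mp (hTHs hx)⟩
    have h1 : Nat.card ↥T ∣ Nat.card ↥(Subgroup.centralizer (V : Set G)) :=
      Subgroup.card_dvd_of_le hTC
    have h2 : Nat.card ↥(Subgroup.centralizer (V : Set G)) * 2
        = Nat.card ↥(Subgroup.normalizer (V : Set G) ⊓ Subgroup.centralizer ({z} : Set G)) := by
      rw [← hidx2]
      exact Cfsg.Agent.Lib.Helper90.card_mul_relIndex' _ _ hCM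
    have h3 : Nat.card ↥(Subgroup.normalizer (V : Set G) ⊓ Subgroup.centralizer ({z} : Set G))
        ∣ Nat.card ↥(Subgroup.centralizer ({z} : Set G)) := Subgroup.card_dvd_of_le inf_le_right
    have h4 : Nat.card ↥(Subgroup.centralizer ({s} : Set G))
        = Nat.card ↥(Subgroup.centralizer ({z} : Set G)) := by
      rw [hs_def]
      exact Cfsg.Agent.Lib.Helper90.card_centralizer_conj g z
    have h5 : Nat.card ↥T * 2 ∣ Nat.card ↥(Subgroup.centralizer ({s} : Set G)) := by
      rw [h4]
      exact dvd_trans (dvd_trans (Nat.mul_dvd_mul_right h1 2) (dvd_of_eq h2)) h3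
    rw [hcardT, ← pow_succ] at h5
    exact Nat.pow_succ_factorization_not_dvd Nat.card_pos.ne' Nat.prime_two h5
  obtain ⟨y, hyT, hyD, hyN⟩ := Cfsg.Agent.Lib.Helper90.exists_normalizing_not_mem 2 T
    (T ⊓ Subgroup.centralizer ({z} : Set G)) hT2 inf_le_left (by
      intro h
      apply hnotle
      rw [← h]
      exact inf_le_right)
  have hys : y * s = s * y := (hmemHs y).mp (hTHs hyT)
  have hyz : ¬ (y * z = z * y) := by
    intro h
    exact hyD (Subgroup.mem_inf.mpr ⟨hyT, (hmemH y).mpr h⟩)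
  have hzD : z ∈ T ⊓ Subgroup.centralizer ({z} : Set G) :=
    Subgroup.mem_inf.mpr ⟨hRT z hzQ hzs, (hmemH z).mpr rfl⟩
  have hysy : y * s * y⁻¹ = s := by
    calc y * s * y⁻¹ = (s * y) * y⁻¹ := by rw [hys]
      _ = s := by group
  have hyzy : y * z * y⁻¹ = z * s := by
    have hcent : ∀ x ∈ Q, x * s = s * x → (y * z * y⁻¹) * x = x * (y * z * y⁻¹) := by
      intro x hx hxs
      have hxD : x ∈ T ⊓ Subgroup.centralizer ({z} : Set G) :=
        Subgroup.mem_inf.mpr ⟨hRT x hx hxs, (hmemH x).mpr (hzc x hx)⟩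
      have h1 : y⁻¹ * x * y ∈ T ⊓ Subgroup.centralizer ({z} : Set G) :=
        (Subgroup.mem_normalizer_iff''.mp hyN x).mp hxD
      have h2 : (y⁻¹ * x * y) * z = z * (y⁻¹ * x * y) :=
        (hmemH _).mp (Subgroup.mem_inf.mp h1).2
      calc (y * z * y⁻¹) * x = y * (z * (y⁻¹ * x * y)) * y⁻¹ := by group
        _ = y * ((y⁻¹ * x * y) * z) * y⁻¹ := by rw [h2]
        _ = x * (y * z * y⁻¹) := by group
    rcases ctx.centR _ hcent with h | h | h | h
    · exact absurd h (hconj_ne1 y z hz1)
    · exfalso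
      apply hyz
      calc y * z = y * z * y⁻¹ * y := by group
        _ = z * y := by rw [h]
    · exfalso
      have h2 : y * z * y⁻¹ = y * s * y⁻¹ := by rw [h, hysy]
      have h3 : y⁻¹ * (y * z * y⁻¹) * y = y⁻¹ * (y * s * y⁻¹) * y := by rw [h2]
      have e1 : y⁻¹ * (y * z * y⁻¹) * y = z := by group
      have e2 : y⁻¹ * (y * s * y⁻¹) * y = s := by group
      rw [e1, e2] at h3
      exact hsz h3.symm
    · exact h
  -- the element n = q * y cycles z → s → z s → z
  have hn_z : (q * y) * z * (q * y)⁻¹ = s := by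
    calc (q * y) * z * (q * y)⁻¹ = q * (y * z * y⁻¹) * q⁻¹ := by group
      _ = q * (z * s) * q⁻¹ := by rw [hyzy]
      _ = (q * z * q⁻¹) * (q * s * q⁻¹) := by group
      _ = z * (z * s) := by rw [hqz, hq]
      _ = (z * z) * s := by group
      _ = s := by rw [hzz, one_mul]
  have hn_s : (q * y) * s * (q * y)⁻¹ = z * s := by
    calc (q * y) * s * (q * y)⁻¹ = q * (y * s * y⁻¹) * q⁻¹ := by group
      _ = q * s * q⁻¹ := by rw [hysy]
      _ = z * s := hq
  have hn_zs : (q * y) * (z * s) * (q * y)⁻¹ = z := by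
    calc (q * y) * (z * s) * (q * y)⁻¹
        = ((q * y) * z * (q * y)⁻¹) * ((q * y) * s * (q * y)⁻¹) := by group
      _ = s * (z * s) := by rw [hn_z, hn_s]
      _ = (s * z) * s := by group
      _ = (z * s) * s := by rw [← hzs]
      _ = z * (s * s) := by group
      _ = z := by rw [hss, mul_one]
  -- (1)
  have hzQg : z ∈ Q.map (MulAut.conj g).toMonoidHom := by
    rw [Cfsg.Agent.Lib.Helper90.mem_map_conj_iff]
    have hc : (g⁻¹ * (q * y)) * z = z * (g⁻¹ * (q * y)) := by
      have h0 : (g⁻¹ * (q * y)) * z * (g⁻¹ * (q * y))⁻¹ = z := by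
        calc (g⁻¹ * (q * y)) * z * (g⁻¹ * (q * y))⁻¹
            = g⁻¹ * ((q * y) * z * (q * y)⁻¹) * g := by group
          _ = g⁻¹ * s * g := by rw [hn_z]
          _ = z := by rw [hs_def]; group
      calc (g⁻¹ * (q * y)) * z
          = (g⁻¹ * (q * y)) * z * (g⁻¹ * (q * y))⁻¹ * (g⁻¹ * (q * y)) := by group
        _ = z * (g⁻¹ * (q * y)) := by rw [h0]
    have h1 := ctx.norm _ hc (z * s) (Q.mul_mem hzQ hsQ)
    have e : (g⁻¹ * (q * y)) * (z * s) * (g⁻¹ * (q * y))⁻¹ = g⁻¹ * z * g := by
      calc (g⁻¹ * (q * y)) * (z * s) * (g⁻¹ * (q * y))⁻¹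
          = g⁻¹ * ((q * y) * (z * s) * (q * y)⁻¹) * g := by group
        _ = g⁻¹ * z * g := by rw [hn_zs]
    rw [e] at h1
    exact h1
  -- (2)
  have hyNv : y ∈ Subgroup.normalizer (V : Set G) :=
    hNv y (by rw [hyzy]; exact hzsV) (by rw [hysy]; exact hsV)
  have hnNv : q * y ∈ Subgroup.normalizer (V : Set G) := Subgroup.mul_mem _ hqNv hyNv
  have hidx3 : (Subgroup.normalizer (V : Set G) ⊓ Subgroup.centralizer ({z} : Set G)).relIndex
      (Subgroup.normalizer (V : Set G)) = 3 := by
    apply Cfsg.Agent.Lib.Helper90.relIndex_eq_three _ _ (q * y) y hnNv hyNv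
    · intro h
      have h1 := (hmemH _).mp (Subgroup.mem_inf.mp h).2
      have h2 : (q * y) * z * (q * y)⁻¹ = z := by
        calc (q * y) * z * (q * y)⁻¹ = (z * (q * y)) * (q * y)⁻¹ := by rw [h1]
          _ = z := by group
      rw [hn_z] at h2
      exact hsz h2
    · intro h
      exact hyz ((hmemH _).mp (Subgroup.mem_inf.mp h).2)
    · intro h
      have h1 := (hmemH _).mp (Subgroup.mem_inf.mp h).2
      have h2 : ((q * y)⁻¹ * y) * z * ((q * y)⁻¹ * y)⁻¹ = s := by
        calc ((q * y)⁻¹ * y) * z * ((q * y)⁻¹ * y)⁻¹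
            = (q * y)⁻¹ * (y * z * y⁻¹) * (q * y) := by group
          _ = (q * y)⁻¹ * (z * s) * (q * y) := by rw [hyzy]
          _ = (q * y)⁻¹ * ((q * y) * s * (q * y)⁻¹) * (q * y) := by rw [hn_s]
          _ = s := by group
      have h3 : ((q * y)⁻¹ * y) * z * ((q * y)⁻¹ * y)⁻¹ = z := by
        calc ((q * y)⁻¹ * y) * z * ((q * y)⁻¹ * y)⁻¹
            = (z * ((q * y)⁻¹ * y)) * ((q * y)⁻¹ * y)⁻¹ := by rw [h1]
          _ = z := by group
      rw [h2] at h3
      exact hsz h3
    · intro k hk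
      have hkz : k * z * k⁻¹ ∈ V := (Subgroup.mem_normalizer_iff.mp hk z).mp hzV
      rcases hV _ hkz with h | h | h | h
      · exact absurd h (hconj_ne1 k z hz1)
      · left
        refine Subgroup.mem_inf.mpr ⟨hk, (hmemH k).mpr ?_⟩
        calc k * z = k * z * k⁻¹ * k := by group
          _ = z * k := by rw [h]
      · right; left
        refine Subgroup.mem_inf.mpr
          ⟨Subgroup.mul_mem _ (Subgroup.inv_mem _ hnNv) hk, (hmemH _).mpr ?_⟩
        have h2 : ((q * y)⁻¹ * k) * z * ((q * y)⁻¹ * k)⁻¹ = z := by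
          calc ((q * y)⁻¹ * k) * z * ((q * y)⁻¹ * k)⁻¹
              = (q * y)⁻¹ * (k * z * k⁻¹) * (q * y) := by group
            _ = (q * y)⁻¹ * s * (q * y) := by rw [h]
            _ = (q * y)⁻¹ * ((q * y) * z * (q * y)⁻¹) * (q * y) := by rw [hn_z]
            _ = z := by group
        calc ((q * y)⁻¹ * k) * z
            = ((q * y)⁻¹ * k) * z * ((q * y)⁻¹ * k)⁻¹ * ((q * y)⁻¹ * k) := by group
          _ = z * ((q * y)⁻¹ * k) := by rw [h2]
      · right; right
        refine Subgroup.mem_inf.mpr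
          ⟨Subgroup.mul_mem _ (Subgroup.inv_mem _ hyNv) hk, (hmemH _).mpr ?_⟩
        have h2 : (y⁻¹ * k) * z * (y⁻¹ * k)⁻¹ = z := by
          calc (y⁻¹ * k) * z * (y⁻¹ * k)⁻¹ = y⁻¹ * (k * z * k⁻¹) * y := by group
            _ = y⁻¹ * (z * s) * y := by rw [h]
            _ = y⁻¹ * (y * z * y⁻¹) * y := by rw [hyzy]
            _ = z := by group
        calc (y⁻¹ * k) * z = (y⁻¹ * k) * z * (y⁻¹ * k)⁻¹ * (y⁻¹ * k) := by group
          _ = z * (y⁻¹ * k) := by rw [h2]
  have hidx6 : (Subgroup.centralizer (V : Set G)).relIndex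
      (Subgroup.normalizer (V : Set G)) = 6 := by
    rw [← Subgroup.relIndex_mul_relIndex _ _ _ hCM inf_le_left, hidx2, hidx3]
  -- (3)
  have hL2' : Subgroup.centralizer (Q : Set G) = (Subgroup.center ↥Q).map Q.subtype := by
    rw [← hZ]; exact hL2
  have hL3' : Subgroup.centralizer (((Subgroup.center ↥Q).map Q.subtype : Subgroup G) : Set G)
      ≤ Subgroup.normalizer (Q : Set G) := by
    rw [← hZ]; exact hL3
  have hlarge : Cfsg.IsLargeExtraspecial Q := by
    apply Cfsg.Agent.S5421.result Q hL1 hL2' hL3' s hsQ hsZ0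
    · exact orderOf_eq_prime (by rw [pow_two]; exact hss) hs1
    · intro x hx
      rcases (hzZ0 x).mp hx with h | h
      · rw [h]; exact Subgroup.one_mem _
      · rw [h]
        have hzHs : z ∈ Subgroup.centralizer ({s} : Set G) := (hmemHs z).mpr hzs
        refine ⟨⟨z, hzHs⟩, ?_, rfl⟩
        have hNle : (Q.map (MulAut.conj g).toMonoidHom).subgroupOf
            (Subgroup.centralizer ({s} : Set G))
            ≤ Cfsg.pCore 2 ↥(Subgroup.centralizer ({s} : Set G)) := by
          apply le_sSup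
          refine ⟨?_, ?_⟩
          · constructor
            intro n hn h
            rw [Subgroup.mem_subgroupOf] at hn ⊢
            rw [Cfsg.Agent.Lib.Helper90.mem_map_conj_iff] at hn ⊢
            have hh : (h : G) * s = s * h := (hmemHs _).mp h.2
            have hc : (g⁻¹ * (h : G) * g) * z = z * (g⁻¹ * (h : G) * g) := by
              calc (g⁻¹ * (h : G) * g) * z = g⁻¹ * ((h : G) * (g * z * g⁻¹)) * g := by group
                _ = g⁻¹ * ((g * z * g⁻¹) * (h : G)) * g := by rw [← hs_def, hh]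
                _ = z * (g⁻¹ * (h : G) * g) := by group
            have h1 := ctx.norm _ hc _ hn
            have e : (g⁻¹ * (h : G) * g) * (g⁻¹ * (n : G) * g) * (g⁻¹ * (h : G) * g)⁻¹
                = g⁻¹ * ((h * n * h⁻¹ : ↥(Subgroup.centralizer ({s} : Set G))) : G) * g := by
              simp only [Subgroup.coe_mul, Subgroup.coe_inv]
              group
            rw [e] at h1
            exact h1
          · exact (hQ2.map _).comap_subtype
        apply hNle
        rw [Subgroup.mem_subgroupOf]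
        exact hzQg
  refine ⟨?_, hidx6, hlarge⟩
  intro x hx
  rcases (hzZ x).mp hx with h | h
  · rw [h]; exact Subgroup.one_mem _
  · rw [h]; exact hzQg

/-- Let Q be an extraspecial 2-subgroup of the finite group G whose centralizer in G is its centre Z and which is normal in the centralizer of Z; suppose Q has width at least 2 (order 2^(2w+1) with w ≥ 2) and g is an element of G not normalizing Z with g Z g⁻¹ inside Q. Then Z lies inside g Q g⁻¹; writing V for the subgroup generated by Z and g Z g⁻¹ (a four-group), the normalizer of V induces on V its full automorphism group, that is, the centralizer of V has index 6 in the normalizer of V; and Q is a large extraspecial 2-subgroup of G. -/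
theorem result {G : Type*} [Group G] [Finite G] (Q : Subgroup G) (hL1 : Cfsg.IsExtraspecial 2 ↥Q) (hL2 : Subgroup.centralizer (Q : Set G) = ((Subgroup.center ↥Q).map Q.subtype)) (hL3 : Subgroup.centralizer (((Subgroup.center ↥Q).map Q.subtype) : Set G) ≤ Subgroup.normalizer (Q : Set G)) (w : ℕ) (hw : 2 ≤ w) (hcard : Nat.card ↥Q = 2 ^ (2 * w + 1)) (g : G) (hg : g ∉ Subgroup.normalizer (((Subgroup.center ↥Q).map Q.subtype) : Set G)) (hZg : (((Subgroup.center ↥Q).map Q.subtype)).map (MulAut.conj g).toMonoidHom ≤ Q) : ((Subgroup.center ↥Q).map Q.subtype) ≤ (Q).map (MulAut.conj g).toMonoidHom ∧ (Subgroup.centralizer ((((Subgroup.center ↥Q).map Q.subtype) ⊔ (((Subgroup.center ↥Q).map Q.subtype)).map (MulAut.conj g).toMonoidHom : Subgroup G) : Set G)).relIndex (Subgroup.normalizer ((((Subgroup.center ↥Q).map Q.subtype) ⊔ (((Subgroup.center ↥Q).map Q.subtype)).map (MulAut.conj g).toMonoidHom : Subgroup G) : Set G)) = 6 ∧ Cfsg.IsLargeExtraspecial Q := by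
  exact main Q hL1 _ rfl hL2 hL3 g hg hZg _ rfl

end Cfsg.Agent.S5422
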