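import Cfsg.Statements.S1755
import Mathlib
import Cfsg.Agent.Lib.Helper29.Fstar
-- import your own Cfsg.Agent.* helpers here

set_option autoImplicit false
open Cfsg

namespace Cfsg.Agent.S1755

/-- A finite cyclic group has at most one element of order 2. -/
theorem involution_unique_of_isCyclic {H : Type*} [Group H] [Finite H] [IsCyclic H] {x y : H}
    (hx : orderOf x = 2) (hy : orderOf y = 2) : x = y := by
  classical
  have := Fintype.ofFinite H
  by_contra hne
  have h := IsCyclic.card_pow_eq_one_le (α := H) (n := 2) (by norm_num)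
  have hx1 : x ≠ 1 := by
    intro h1
    rw [h1, orderOf_one] at hx
    omega
  have hy1 : y ≠ 1 := by
    intro h1
    rw [h1, orderOf_one] at hy
    omega
  have hsub : ({1, x, y} : Finset H) ⊆ Finset.univ.filter (fun a : H => a ^ 2 = 1) := by
    intro a ha
    simp only [Finset.mem_insert, Finset.mem_singleton] at ha
    rw [Finset.mem_filter]
    refine ⟨Finset.mem_univ _, ?_⟩
    rcases ha with rfl | rfl | rfl
    · simp
    · rw [← hx]; exact pow_orderOf_eq_one _
    · rw [← hy]; exact pow_orderOf_eq_one _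
  have hcard : ({1, x, y} : Finset H).card = 3 := by
    rw [Finset.card_insert_of_notMem, Finset.card_insert_of_notMem, Finset.card_singleton]
    · simpa using hne
    · simp only [Finset.mem_insert, Finset.mem_singleton, not_or]
      exact ⟨fun h => hx1 h.symm, fun h => hy1 h.symm⟩
  have := Finset.card_le_card hsub
  omega

/-- In a 2-group every nontrivial element has a power of order 2. -/
theorem exists_pow_orderOf_two {H : Type*} [Group H] (hH : IsPGroup 2 H) {x : H} (hx : x ≠ 1) :
    ∃ k : ℕ, orderOf (x ^ k) = 2 := by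
  have : Fact (Nat.Prime 2) := ⟨Nat.prime_two⟩
  obtain ⟨k, hk⟩ := (IsPGroup.iff_orderOf.mp hH) x
  have hk0 : k ≠ 0 := by
    intro h0
    rw [h0, pow_zero, orderOf_eq_one_iff] at hk
    exact hx hk
  obtain ⟨m, rfl⟩ := Nat.exists_eq_succ_of_ne_zero hk0
  refine ⟨2 ^ m, ?_⟩
  rw [orderOf_pow_of_dvd (by positivity) (by rw [hk]; exact pow_dvd_pow 2 (Nat.le_succ m)), hk,
    pow_succ, Nat.mul_div_cancel_left _ (by positivity)]

/-- Conjugate elements have the same order. -/
theorem orderOf_conj_eq {H : Type*} [Group H] (a x : H) : orderOf (a * x * a⁻¹) = orderOf x :=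
  (SemiconjBy.orderOf_eq a (show SemiconjBy a x (a * x * a⁻¹) by simp [SemiconjBy])).symm

/-- Let G be a finite group and let z be an involution of G such that Q, the generalized Fitting subgroup of the centralizer C of z, is a 2-group of symplectic type (every characteristic abelian subgroup of Q is cyclic). Let B be a characteristic abelian subgroup of Q, viewed as a subgroup of G. Then for every g in G, the conjugate of B by g either equals B or meets B trivially. -/
theorem result {G : Type*} [Group G] [Finite G] (z : G) (hz : orderOf z = 2) (hQ : Cfsg.IsOfSymplecticType ↥(Cfsg.generalizedFittingSubgroup ↥(Subgroup.centralizer ({z} : Set G))))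
    (B : Subgroup ↥(Cfsg.generalizedFittingSubgroup ↥(Subgroup.centralizer ({z} : Set G)))) (hBc : B.Characteristic) (hBa : IsMulCommutative ↥B) (g : G) :
    ((B.map (Cfsg.generalizedFittingSubgroup ↥(Subgroup.centralizer ({z} : Set G))).subtype).map (Subgroup.centralizer ({z} : Set G)).subtype).map (MulAut.conj g).toMonoidHom =
        (B.map (Cfsg.generalizedFittingSubgroup ↥(Subgroup.centralizer ({z} : Set G))).subtype).map (Subgroup.centralizer ({z} : Set G)).subtype ∨
      ((B.map (Cfsg.generalizedFittingSubgroup ↥(Subgroup.centralizer ({z} : Set G))).subtype).map (Subgroup.centralizer ({z} : Set G)).subtype).map (MulAut.conj g).toMonoidHom ⊓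
        (B.map (Cfsg.generalizedFittingSubgroup ↥(Subgroup.centralizer ({z} : Set G))).subtype).map (Subgroup.centralizer ({z} : Set G)).subtype = ⊥ := by
  classical
  obtain ⟨hQp, hQs⟩ := hQ
  -- z as an element of the centralizer and of its generalized Fitting subgroup
  have hzC : z ∈ Subgroup.centralizer ({z} : Set G) :=
    Subgroup.mem_centralizer_iff.mpr (by
      intro x hx
      rw [Set.mem_singleton_iff] at hx
      rw [hx])
  have hzCcenter : (⟨z, hzC⟩ : ↥(Subgroup.centralizer ({z} : Set G))) ∈
      Subgroup.center ↥(Subgroup.centralizer ({z} : Set G)) := by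
    rw [Subgroup.mem_center_iff]
    intro c
    apply Subtype.ext
    exact (Subgroup.mem_centralizer_iff.mp c.2 z (Set.mem_singleton z)).symm
  have hzQ : (⟨z, hzC⟩ : ↥(Subgroup.centralizer ({z} : Set G))) ∈
      Cfsg.generalizedFittingSubgroup ↥(Subgroup.centralizer ({z} : Set G)) :=
    Cfsg.Agent.Lib.Helper29.mem_generalizedFittingSubgroup_of_mem_center hzCcenter
  have hzQcenter : (⟨⟨z, hzC⟩, hzQ⟩ :
      ↥(Cfsg.generalizedFittingSubgroup ↥(Subgroup.centralizer ({z} : Set G)))) ∈
      Subgroup.center ↥(Cfsg.generalizedFittingSubgroup ↥(Subgroup.centralizer ({z} : Set G))) := by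
    rw [Subgroup.mem_center_iff]
    intro q
    apply Subtype.ext
    exact (Subgroup.mem_center_iff.mp hzCcenter) q.1
  have hzQord : orderOf (⟨⟨z, hzC⟩, hzQ⟩ :
      ↥(Cfsg.generalizedFittingSubgroup ↥(Subgroup.centralizer ({z} : Set G)))) = 2 := by
    rw [Subgroup.orderOf_mk, Subgroup.orderOf_mk]
    exact hz
  have hcenCyc : IsCyclic (Subgroup.center
      ↥(Cfsg.generalizedFittingSubgroup ↥(Subgroup.centralizer ({z} : Set G)))) :=
    hQs _ inferInstance inferInstance
  have hBcyc : IsCyclic B := hQs B hBc hBa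
  have hBnorm : B.Normal := inferInstance
  have hBCnorm : (B.map (Cfsg.generalizedFittingSubgroup
      ↥(Subgroup.centralizer ({z} : Set G))).subtype).Normal := inferInstance
  by_cases hB : B = ⊥
  · left
    rw [hB, Subgroup.map_bot, Subgroup.map_bot, Subgroup.map_bot]
  -- the involution z lies in B
  have hzB : (⟨⟨z, hzC⟩, hzQ⟩ :
      ↥(Cfsg.generalizedFittingSubgroup ↥(Subgroup.centralizer ({z} : Set G)))) ∈ B := by
    rw [Subgroup.eq_bot_iff_forall] at hB
    push Not at hB
    obtain ⟨b, hbB, hb1⟩ := hB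
    obtain ⟨k, hk⟩ := exists_pow_orderOf_two hQp hb1
    have hb0B : b ^ k ∈ B := B.pow_mem hbB k
    have hb0cen : b ^ k ∈ Subgroup.center
        ↥(Cfsg.generalizedFittingSubgroup ↥(Subgroup.centralizer ({z} : Set G))) := by
      rw [Subgroup.mem_center_iff]
      intro q
      have hconj : q * b ^ k * q⁻¹ ∈ B := hBnorm.conj_mem _ hb0B q
      have hord : orderOf (q * b ^ k * q⁻¹) = 2 := by
        rw [orderOf_conj_eq]
        exact hk
      have heq : (⟨q * b ^ k * q⁻¹, hconj⟩ : B) = ⟨b ^ k, hb0B⟩ :=
        involution_unique_of_isCyclic (by rw [Subgroup.orderOf_mk]; exact hord)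
          (by rw [Subgroup.orderOf_mk]; exact hk)
      have heq' : q * b ^ k * q⁻¹ = b ^ k := congrArg Subtype.val heq
      have := congrArg (fun x => x * q) heq'
      simpa using this
    have heq : (⟨b ^ k, hb0cen⟩ : Subgroup.center
        ↥(Cfsg.generalizedFittingSubgroup ↥(Subgroup.centralizer ({z} : Set G)))) =
        ⟨_, hzQcenter⟩ :=
      involution_unique_of_isCyclic (by rw [Subgroup.orderOf_mk]; exact hk)
        (by rw [Subgroup.orderOf_mk]; exact hzQord)
    have heq' : b ^ k = ⟨⟨z, hzC⟩, hzQ⟩ := congrArg Subtype.val heq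
    rw [← heq']
    exact hb0B
  -- every involution of the image of B in G equals z
  have hF2 : ∀ x ∈ (B.map (Cfsg.generalizedFittingSubgroup
      ↥(Subgroup.centralizer ({z} : Set G))).subtype).map
      (Subgroup.centralizer ({z} : Set G)).subtype, orderOf x = 2 → x = z := by
    rintro x ⟨c, ⟨b, hbB, rfl⟩, rfl⟩ hx
    have hbord : orderOf b = 2 := by
      rw [← Subgroup.orderOf_coe, ← Subgroup.orderOf_coe]
      exact hx
    have heq : (⟨b, hbB⟩ : B) = ⟨_, hzB⟩ :=
      involution_unique_of_isCyclic (by rw [Subgroup.orderOf_mk]; exact hbord)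
        (by rw [Subgroup.orderOf_mk]; exact hzQord)
    have heq' : b = ⟨⟨z, hzC⟩, hzQ⟩ := congrArg Subtype.val heq
    rw [heq']
    rfl
  -- nontrivial elements of the image of B have a power of order 2
  have hF3 : ∀ x ∈ (B.map (Cfsg.generalizedFittingSubgroup
      ↥(Subgroup.centralizer ({z} : Set G))).subtype).map
      (Subgroup.centralizer ({z} : Set G)).subtype, x ≠ 1 → ∃ k : ℕ, orderOf (x ^ k) = 2 := by
    rintro x ⟨c, ⟨b, hbB, rfl⟩, rfl⟩ hx
    have hb1 : b ≠ 1 := by
      rintro rfl
      exact hx rfl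
    obtain ⟨k, hk⟩ := exists_pow_orderOf_two hQp hb1
    refine ⟨k, ?_⟩
    rw [← hk, ← Subgroup.orderOf_coe, ← Subgroup.orderOf_coe]
    rfl
  -- elements of the centralizer normalize the image of B
  have hF4 : ∀ g : G, g ∈ Subgroup.centralizer ({z} : Set G) → ∀ x ∈ (B.map (Cfsg.generalizedFittingSubgroup
      ↥(Subgroup.centralizer ({z} : Set G))).subtype).map
      (Subgroup.centralizer ({z} : Set G)).subtype, g * x * g⁻¹ ∈ (B.map (Cfsg.generalizedFittingSubgroup
      ↥(Subgroup.centralizer ({z} : Set G))).subtype).map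
      (Subgroup.centralizer ({z} : Set G)).subtype := by
    rintro g hg x ⟨c, hc, rfl⟩
    exact ⟨⟨g, hg⟩ * c * ⟨g, hg⟩⁻¹, hBCnorm.conj_mem c hc ⟨g, hg⟩, rfl⟩
  by_cases hint : ((B.map (Cfsg.generalizedFittingSubgroup ↥(Subgroup.centralizer ({z} : Set G))).subtype).map (Subgroup.centralizer ({z} : Set G)).subtype).map (MulAut.conj g).toMonoidHom ⊓
        (B.map (Cfsg.generalizedFittingSubgroup ↥(Subgroup.centralizer ({z} : Set G))).subtype).map (Subgroup.centralizer ({z} : Set G)).subtype = ⊥
  · right
    exact hint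
  left
  rw [Subgroup.eq_bot_iff_forall] at hint
  push Not at hint
  obtain ⟨w, ⟨hw1, hw2⟩, hwne⟩ := hint
  obtain ⟨k, hk⟩ := hF3 w hw2 hwne
  have hwk : w ^ k = z := hF2 _ (Subgroup.pow_mem _ hw2 k) hk
  have hwk1 := Subgroup.pow_mem _ hw1 k
  rw [hwk] at hwk1
  obtain ⟨u, hu, huz⟩ := hwk1
  have huz' : g * u * g⁻¹ = z := huz
  have hu2 : orderOf u = 2 := by
    rw [← orderOf_conj_eq g u, huz']
    exact hz
  have huz2 : u = z := hF2 u hu hu2
  rw [huz2] at huz'
  have hgC : g ∈ Subgroup.centralizer ({z} : Set G) := by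
    rw [Subgroup.mem_centralizer_iff]
    intro x hx
    rw [Set.mem_singleton_iff] at hx
    subst hx
    have := congrArg (fun y => y * g) huz'
    simpa using this.symm
  apply le_antisymm
  · rintro x ⟨y, hy, rfl⟩
    exact hF4 g hgC y hy
  · intro x hx
    refine ⟨g⁻¹ * x * g, ?_, ?_⟩
    · have := hF4 g⁻¹ (Subgroup.inv_mem _ hgC) x hx
      simpa using this
    · change g * (g⁻¹ * x * g) * g⁻¹ = x
      group

end Cfsg.Agent.S1755
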