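import Mathlib
import Cfsg.Statements.S0058
import Cfsg.Agent.Lib.Helper48.Generation
import Cfsg.Agent.Lib.Helper48.Noncyclic

set_option autoImplicit false
open Cfsg

namespace Cfsg.Agent.S0058

open Cfsg.Agent.Lib.Helper48 in
open scoped IsMulCommutative in
/-- Generation by centralisers: when a noncyclic abelian group A normalises K with coprime orders, K is generated by the fixed-point subgroups of the nonidentity elements of A. -/
theorem result {G : Type*} [Group G] [Finite G] (A K : Subgroup G)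
    [IsMulCommutative A] (hA : ¬ IsCyclic A) (hAK : A ≤ Subgroup.normalizer (K : Set G)) (hcop : (Nat.card A).Coprime (Nat.card K)) :
    (⨆ a ∈ {a : G | a ∈ A ∧ a ≠ 1}, K ⊓ Subgroup.centralizer {a}) = K := by
  apply le_antisymm (iSup₂_le fun a _ => inf_le_left)
  obtain ⟨p, hp, a, b, hap, hbp, hb1, hab⟩ := exists_rank_two hA
  have : Fact p.Prime := ⟨hp⟩
  -- the p-torsion of A as a subgroup of G
  set U : Subgroup G := ((powMonoidHom p : A →* A).ker).map A.subtype with hUdef
  have hU : IsPGroup p U := by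
    rintro ⟨_, ⟨x, hx, rfl⟩⟩
    refine ⟨1, Subtype.ext ?_⟩
    rw [pow_one]
    have h1 : x ^ p = 1 := by simpa [MonoidHom.mem_ker] using hx
    have h2 := congrArg Subtype.val h1
    simpa using h2
  have hUA : U ≤ A := by
    rintro _ ⟨x, -, rfl⟩
    exact x.2
  have haU : (a : G) ∈ U := ⟨a, by simpa [MonoidHom.mem_ker] using hap, rfl⟩
  have hbU : (b : G) ∈ U := ⟨b, by simpa [MonoidHom.mem_ker] using hbp, rfl⟩
  have hpA : p ∣ Nat.card A := by
    have hbo : orderOf b = p := orderOf_eq_prime hbp hb1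
    rw [← hbo]
    exact orderOf_dvd_natCard b
  have hpK : ¬ p ∣ Nat.card K := by
    intro h
    have := Nat.Coprime.eq_one_of_dvd (Nat.Coprime.coprime_dvd_left hpA hcop) h
    exact hp.one_lt.ne' this
  have hgen := coprime_generation K U hU hpK (hUA.trans hAK) (a : G) (b : G) haU hbU
    (congrArg Subtype.val (mul_comm a b))
    (by have := congrArg Subtype.val hap; simpa using this)
    (by have := congrArg Subtype.val hbp; simpa using this)
  refine hgen.trans (sup_le ?_ (iSup_le fun i => ?_))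
  · exact le_iSup₂ (f := fun (u : G) (_ : u ∈ {a : G | a ∈ A ∧ a ≠ 1}) =>
      K ⊓ Subgroup.centralizer {u}) (b : G) ⟨b.2, fun h => hb1 (Subtype.ext h)⟩
  · refine le_iSup₂ (f := fun (u : G) (_ : u ∈ {a : G | a ∈ A ∧ a ≠ 1}) =>
      K ⊓ Subgroup.centralizer {u}) ((a : G) * (b : G) ^ i) ⟨A.mul_mem a.2 (A.pow_mem b.2 i), ?_⟩
    intro h
    apply hab
    have h2 : a = (b ^ i)⁻¹ := by
      apply Subtype.ext
      have : (a : G) * (b : G) ^ i * ((b : G) ^ i)⁻¹ = ((b : G) ^ i)⁻¹ := by rw [h, one_mul]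
      simpa using this
    rw [h2]
    exact (Subgroup.zpowers b).inv_mem (Subgroup.npow_mem_zpowers b i)

end Cfsg.Agent.S0058
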