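import Mathlib
import Cfsg.Statements.S0687
import Cfsg.Agent.S0684

set_option autoImplicit false
open Cfsg

namespace Cfsg.Agent.S0687

section aux

variable {p : ℕ} [Fact p.Prime] {V : Type*} [AddCommGroup V] [Module (ZMod p) V] [Finite V]

/-- a non-abelian normal subgroup of a linear group regular on non-zero vectors is
irreducible: otherwise it lies in the kernel of a spread, which is a finite domain -/
theorem irreducible_of_normal (H : Subgroup (V ≃ₗ[ZMod p] V))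
    (hreg : ∀ v w : V, v ≠ 0 → w ≠ 0 → ∃! h : H, (h : V ≃ₗ[ZMod p] V) v = w)
    (N : Subgroup H) (hNn : N.Normal) (hNna : ¬ IsMulCommutative N)
    (W : Submodule (ZMod p) V)
    (hW : ∀ n ∈ N, ∀ v ∈ W, ((n : H) : V ≃ₗ[ZMod p] V) v ∈ W) : W = ⊥ ∨ W = ⊤ := by
  classical
  by_contra hcon
  push Not at hcon
  obtain ⟨hWbot, hWtop⟩ := hcon
  have hfinE := S0684.finite_end (p := p) (V := V)
  obtain ⟨W₁, hW₁le, hW₁bot, hW₁inv, hW₁min⟩ := S0684.exists_minimal H N W hWbot hW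
  have hW₁top : W₁ ≠ ⊤ := by
    intro h
    apply hWtop
    rw [eq_top_iff, ← h]
    exact hW₁le
  obtain ⟨w₀, hw₀W, hw₀⟩ := (Submodule.ne_bot_iff _).mp hW₁bot
  have hnt : Nontrivial V := ⟨⟨w₀, 0, hw₀⟩⟩
  -- components
  let comp : H → Submodule (ZMod p) V := fun h => W₁.map ((h : V ≃ₗ[ZMod p] V) : V →ₗ[ZMod p] V)
  have hcomp : ∀ (h : H) (v : V), v ∈ comp h ↔ ∃ u ∈ W₁, (h : V ≃ₗ[ZMod p] V) u = v := by
    intro h v
    exact Submodule.mem_map
  -- (P)
  have hP : ∀ g : H, (∃ v : V, v ≠ 0 ∧ v ∈ W₁ ∧ v ∈ comp g) → comp g = W₁ := by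
    intro g ⟨v, hv0, hvW, hvg⟩
    have hinv' : ∀ a ∈ N, ∀ u ∈ W₁ ⊓ comp g, ((a : H) : V ≃ₗ[ZMod p] V) u ∈ W₁ ⊓ comp g := by
      intro a ha u hu
      obtain ⟨u', hu', rfl⟩ := (hcomp g u).mp hu.2
      have hmem : g⁻¹ * a * g ∈ N := by
        have := hNn.conj_mem a ha g⁻¹
        simpa using this
      refine ⟨hW₁inv a ha _ hu.1, (hcomp g _).mpr
        ⟨((g⁻¹ * a * g : H) : V ≃ₗ[ZMod p] V) u', hW₁inv _ hmem u' hu', ?_⟩⟩
      show (g : V ≃ₗ[ZMod p] V) ((g : V ≃ₗ[ZMod p] V).symm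
        (((a : H) : V ≃ₗ[ZMod p] V) ((g : V ≃ₗ[ZMod p] V) u'))) = _
      rw [LinearEquiv.apply_symm_apply]
    rcases hW₁min (W₁ ⊓ comp g) inf_le_left hinv' with h1 | h1
    · exfalso
      have : v ∈ W₁ ⊓ comp g := ⟨hvW, hvg⟩
      rw [h1] at this
      exact hv0 ((Submodule.mem_bot _).mp this)
    · have hle : W₁ ≤ comp g := by
        rw [← h1]
        exact inf_le_right
      have hfr : Module.finrank (ZMod p) (comp g) = Module.finrank (ZMod p) W₁ :=
        LinearEquiv.finrank_map_eq _ W₁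
      exact (Submodule.eq_of_le_of_finrank_eq hle hfr.symm).symm
  -- (F1)
  have hF1 : ∀ v : V, v ≠ 0 → ∃ h : H, v ∈ comp h := by
    intro v hv
    obtain ⟨h, hh, -⟩ := hreg w₀ v hw₀ hv
    exact ⟨h, (hcomp h v).mpr ⟨w₀, hw₀W, hh⟩⟩
  -- (F2)
  have hF2 : ∀ (h h' : H) (v : V), v ≠ 0 → v ∈ comp h → v ∈ comp h' → comp h = comp h' := by
    intro h h' v hv hvh hvh'
    obtain ⟨u₁, hu₁, rfl⟩ := (hcomp h _).mp hvh
    obtain ⟨u₂, hu₂, hu₂'⟩ := (hcomp h' _).mp hvh'
    have hu₁0 : u₁ ≠ 0 := by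
      rintro rfl
      apply hv
      simp
    have hg : comp (h⁻¹ * h') = W₁ := by
      apply hP
      refine ⟨u₁, hu₁0, hu₁, ?_⟩
      rw [hcomp]
      refine ⟨u₂, hu₂, ?_⟩
      show (h : V ≃ₗ[ZMod p] V).symm ((h' : V ≃ₗ[ZMod p] V) u₂) = u₁
      rw [hu₂', LinearEquiv.symm_apply_apply]
    apply le_antisymm
    · intro w hw
      obtain ⟨u₄, hu₄, rfl⟩ := (hcomp h _).mp hw
      rw [← hg] at hu₄
      obtain ⟨u₅, hu₅, rfl⟩ := (hcomp _ _).mp hu₄
      rw [hcomp]
      refine ⟨u₅, hu₅, ?_⟩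
      show _ = (h : V ≃ₗ[ZMod p] V) ((h : V ≃ₗ[ZMod p] V).symm ((h' : V ≃ₗ[ZMod p] V) u₅))
      rw [LinearEquiv.apply_symm_apply]
    · intro w hw
      obtain ⟨u₃, hu₃, rfl⟩ := (hcomp h' _).mp hw
      rw [hcomp]
      refine ⟨((h⁻¹ * h' : H) : V ≃ₗ[ZMod p] V) u₃, ?_, ?_⟩
      · rw [← hg, hcomp]
        exact ⟨u₃, hu₃, rfl⟩
      · show (h : V ≃ₗ[ZMod p] V) ((h : V ≃ₗ[ZMod p] V).symm ((h' : V ≃ₗ[ZMod p] V) u₃)) = _
        rw [LinearEquiv.apply_symm_apply]
  -- (F3)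
  have hF3 : ∀ h : H, ∃ u : V, u ∉ comp h := by
    intro h
    by_contra hall
    push Not at hall
    apply hW₁top
    rw [eq_top_iff]
    intro v _
    obtain ⟨u, hu, hu'⟩ := (hcomp h _).mp (hall ((h : V ≃ₗ[ZMod p] V) v))
    have : u = v := (h : V ≃ₗ[ZMod p] V).injective hu'
    rw [← this]
    exact hu
  -- the kernel ring
  let R : Subring (Module.End (ZMod p) V) :=
    { carrier := {φ | ∀ h : H, ∀ v ∈ comp h, φ v ∈ comp h}
      mul_mem' := fun {a b} ha hb h v hv => ha h _ (hb h v hv)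
      one_mem' := fun h v hv => hv
      add_mem' := fun {a b} ha hb h v hv => (comp h).add_mem (ha h v hv) (hb h v hv)
      zero_mem' := fun h v hv => (comp h).zero_mem
      neg_mem' := fun {a} ha h v hv => (comp h).neg_mem (ha h v hv) }
  have hRmem : ∀ φ : Module.End (ZMod p) V, φ ∈ R ↔ ∀ h : H, ∀ v ∈ comp h, φ v ∈ comp h :=
    fun φ => Iff.rfl
  -- Step A
  have hA : ∀ φ ∈ R, ∀ v : V, v ≠ 0 → φ v = 0 → ∀ h : H, v ∈ comp h →
      ∀ w : V, w ∉ comp h → φ w = 0 := by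
    intro φ hφ v hv hφv h hvh w hw
    have hw0 : w ≠ 0 := by
      rintro rfl
      exact hw (comp h).zero_mem
    have hvw : v + w ≠ 0 := by
      intro h0
      apply hw
      have : w = -v := eq_neg_of_add_eq_zero_right h0
      rw [this]
      exact (comp h).neg_mem hvh
    obtain ⟨h', hh'⟩ := hF1 (v + w) hvw
    obtain ⟨h'', hh''⟩ := hF1 w hw0
    have e : φ (v + w) = φ w := by rw [map_add, hφv, zero_add]
    have m1 : φ w ∈ comp h' := by
      rw [← e]; exact (hRmem φ).mp hφ h' _ hh'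
    have m2 : φ w ∈ comp h'' := (hRmem φ).mp hφ h'' _ hh''
    by_contra hne
    have e1 : comp h' = comp h'' := hF2 h' h'' _ hne m1 m2
    have hv'' : v ∈ comp h'' := by
      have : v = (v + w) - w := by abel
      rw [this]
      exact (comp h'').sub_mem (e1 ▸ hh') hh''
    have e2 : comp h = comp h'' := hF2 h h'' v hv hvh hv''
    exact hw (e2 ▸ hh'')
  -- Step B
  have hB : ∀ φ ∈ R, ∀ v : V, v ≠ 0 → φ v = 0 → φ = 0 := by
    intro φ hφ v hv hφv
    obtain ⟨h, hvh⟩ := hF1 v hv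
    obtain ⟨u, hu⟩ := hF3 h
    have hφu : φ u = 0 := hA φ hφ v hv hφv h hvh u hu
    have hu0 : u ≠ 0 := by
      rintro rfl
      exact hu (comp h).zero_mem
    obtain ⟨hu', huh'⟩ := hF1 u hu0
    apply LinearMap.ext
    intro w
    rw [LinearMap.zero_apply]
    by_cases hwh : w ∈ comp h
    · by_cases hw0 : w = 0
      · rw [hw0, map_zero]
      · apply hA φ hφ u hu0 hφu hu' huh' w
        intro hwu
        have e : comp h = comp hu' := hF2 h hu' w hw0 hwh hwu
        exact hu (e ▸ huh')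
    · exact hA φ hφ v hv hφv h hvh w hwh
  -- domain
  have hnzd : NoZeroDivisors R := by
    refine ⟨fun {a b} hab => ?_⟩
    by_cases hb : b = 0
    · right; exact hb
    · left
      have hb' : (b : Module.End (ZMod p) V) ≠ 0 := fun h => hb (Subtype.ext h)
      obtain ⟨v, hv⟩ : ∃ v, (b : Module.End (ZMod p) V) v ≠ 0 := by
        by_contra hall
        push Not at hall
        exact hb' (LinearMap.ext hall)
      have h0 : (a : Module.End (ZMod p) V) ((b : Module.End (ZMod p) V) v) = 0 := by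
        have := congrArg (fun c : R => (c : Module.End (ZMod p) V) v) hab
        exact this
      exact Subtype.ext (hB a a.2 _ hv h0)
  have hntR : Nontrivial R := by
    refine ⟨⟨0, 1, fun h => ?_⟩⟩
    have := congrArg (fun c : R => (c : Module.End (ZMod p) V) w₀) h
    exact hw₀ this.symm
  have hdom : IsDomain R := NoZeroDivisors.to_isDomain R
  have hfld : IsField R := Finite.isDomain_to_isField R
  -- elements of N lie in R
  have hNR : ∀ n ∈ N, (((n : H) : V ≃ₗ[ZMod p] V) : Module.End (ZMod p) V) ∈ R := by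
    intro n hn h v hv
    obtain ⟨u, hu, rfl⟩ := (hcomp h _).mp hv
    have hmem : h⁻¹ * n * h ∈ N := by
      have := hNn.conj_mem n hn h⁻¹
      simpa using this
    rw [hcomp]
    refine ⟨((h⁻¹ * n * h : H) : V ≃ₗ[ZMod p] V) u, hW₁inv _ hmem u hu, ?_⟩
    show (h : V ≃ₗ[ZMod p] V) ((h : V ≃ₗ[ZMod p] V).symm
      (((n : H) : V ≃ₗ[ZMod p] V) ((h : V ≃ₗ[ZMod p] V) u))) = _
    rw [LinearEquiv.apply_symm_apply]
    rfl
  apply hNna
  refine ⟨⟨fun a b => ?_⟩⟩
  apply Subtype.ext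
  apply Subtype.ext
  apply LinearEquiv.ext
  intro v
  have := hfld.mul_comm (⟨_, hNR a a.2⟩ : R) ⟨_, hNR b b.2⟩
  exact congrArg (fun c : R => (c : Module.End (ZMod p) V) v) this

end aux

/-- In a linear group over the prime field that is regular on non-zero vectors and has no irreducible cyclic normal subgroup, a normal subgroup `N` minimal among the non-abelian normal subgroups centralising a maximal normal abelian subgroup `A` is irreducible on `V`, and its centraliser is `A`. -/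
theorem result {p : ℕ} [Fact p.Prime] {V : Type*} [AddCommGroup V] [Module (ZMod p) V] [Finite V] (H : Subgroup (V ≃ₗ[ZMod p] V)) (hreg : ∀ v w : V, v ≠ 0 → w ≠ 0 → ∃! h : H, (h : V ≃ₗ[ZMod p] V) v = w) (hI : ∀ A : Subgroup H, A.Normal → IsCyclic A → ∃ W : Submodule (ZMod p) V, W ≠ ⊥ ∧ W ≠ ⊤ ∧ ∀ a ∈ A, ∀ v ∈ W, ((a : H) : V ≃ₗ[ZMod p] V) v ∈ W) (A : Subgroup H) (hAn : A.Normal) (hAc : IsMulCommutative A) (hAmax : ∀ B : Subgroup H, B.Normal → IsMulCommutative B → A ≤ B → B = A) (N : Subgroup H) (hNn : N.Normal) (hNle : N ≤ Subgroup.centralizer (A : Set H)) (hNna : ¬ IsMulCommutative N) (hNmin : ∀ M : Subgroup H, M.Normal → M ≤ N → ¬ IsMulCommutative M → M = N) : (∀ W : Submodule (ZMod p) V, (∀ n ∈ N, ∀ v ∈ W, ((n : H) : V ≃ₗ[ZMod p] V) v ∈ W) → W = ⊥ ∨ W = ⊤) ∧ Subgroup.centralizer (N : Set H) = A := by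
  classical
  have hirr : ∀ W : Submodule (ZMod p) V,
      (∀ n ∈ N, ∀ v ∈ W, ((n : H) : V ≃ₗ[ZMod p] V) v ∈ W) → W = ⊥ ∨ W = ⊤ :=
    fun W hW => irreducible_of_normal H hreg N hNn hNna W hW
  refine ⟨hirr, ?_⟩
  have hfinE := S0684.finite_end (p := p) (V := V)
  have hnt : Nontrivial V := by
    obtain ⟨W, hW, -, -⟩ := hI ⊥ inferInstance inferInstance
    obtain ⟨v, -, hv⟩ := (Submodule.ne_bot_iff _).mp hW
    exact ⟨⟨v, 0, hv⟩⟩
  have hAle : A ≤ Subgroup.centralizer (N : Set H) := Subgroup.le_centralizer_iff.mp hNle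
  have := hNn
  have hCn : (Subgroup.centralizer (N : Set H)).Normal := inferInstance
  apply hAmax _ hCn _ hAle
  -- the centraliser of `N` is abelian
  let S : Set (Module.End (ZMod p) V) :=
    {φ | ∃ n ∈ N, φ = (((n : H) : V ≃ₗ[ZMod p] V) : Module.End (ZMod p) V)}
  let E : Subring (Module.End (ZMod p) V) := Subring.centralizer S
  have hnzd : NoZeroDivisors E := by
    refine ⟨fun {a b} hab => ?_⟩
    by_cases hb : b = 0
    · right; exact hb
    · left
      have hb' : (b : Module.End (ZMod p) V) ≠ 0 := fun h => hb (Subtype.ext h)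
      have hrinv : ∀ n ∈ N, ∀ v ∈ LinearMap.range (b : Module.End (ZMod p) V),
          ((n : H) : V ≃ₗ[ZMod p] V) v ∈ LinearMap.range (b : Module.End (ZMod p) V) := by
        intro n hn v hv
        obtain ⟨u, rfl⟩ := hv
        refine ⟨((n : H) : V ≃ₗ[ZMod p] V) u, ?_⟩
        have h1 := Subring.mem_centralizer_iff.mp b.2 _ ⟨n, hn, rfl⟩
        exact (congrArg (fun c : Module.End (ZMod p) V => c u) h1).symm
      rcases hirr _ hrinv with h1 | h1
      · exfalso
        apply hb'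
        exact LinearMap.range_eq_bot.mp h1
      · apply Subtype.ext
        apply LinearMap.ext
        intro v
        have hv : v ∈ LinearMap.range (b : Module.End (ZMod p) V) := by rw [h1]; trivial
        obtain ⟨u, rfl⟩ := hv
        have := congrArg (fun c : E => (c : Module.End (ZMod p) V) u) hab
        exact this
  have hntE : Nontrivial E := by
    obtain ⟨w₀, hw₀⟩ := exists_ne (0 : V)
    refine ⟨⟨0, 1, fun h => ?_⟩⟩
    have := congrArg (fun c : E => (c : Module.End (ZMod p) V) w₀) h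
    exact hw₀ this.symm
  have hdom : IsDomain E := NoZeroDivisors.to_isDomain E
  have hfld : IsField E := Finite.isDomain_to_isField E
  have hCE : ∀ c ∈ Subgroup.centralizer (N : Set H),
      (((c : H) : V ≃ₗ[ZMod p] V) : Module.End (ZMod p) V) ∈ E := by
    intro c hc
    rw [Subring.mem_centralizer_iff]
    rintro _ ⟨n, hn, rfl⟩
    have h1 : n * c = c * n := Subgroup.mem_centralizer_iff.mp hc n hn
    apply LinearMap.ext
    intro v
    exact congrArg (fun g : H => (g : V ≃ₗ[ZMod p] V) v) h1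
  refine ⟨⟨fun a b => ?_⟩⟩
  apply Subtype.ext
  apply Subtype.ext
  apply LinearEquiv.ext
  intro v
  have := hfld.mul_comm (⟨_, hCE a a.2⟩ : E) ⟨_, hCE b b.2⟩
  exact congrArg (fun c : E => (c : Module.End (ZMod p) V) v) this

end Cfsg.Agent.S0687
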