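import Mathlib
import Cfsg.Statements.S3780

set_option autoImplicit false
open Cfsg

namespace Cfsg.Agent.S3780

theorem card_ker_comp_le {A : Type*} [AddCommGroup A] [Finite A] (f g : A →+ A) :
    Nat.card {x : A // f (g x) = 0} ≤ Nat.card {x : A // f x = 0} * Nat.card {x : A // g x = 0} := by
  have e1 : Nat.card {x : A // f (g x) = 0} = Nat.card (f.comp g).ker :=
    Nat.card_congr (Equiv.subtypeEquivRight (fun x => by rw [AddMonoidHom.mem_ker]; rfl))
  have e2 : Nat.card {x : A // f x = 0} = Nat.card f.ker :=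
    Nat.card_congr (Equiv.subtypeEquivRight (fun x => by rw [AddMonoidHom.mem_ker]))
  have e3 : Nat.card {x : A // g x = 0} = Nat.card g.ker :=
    Nat.card_congr (Equiv.subtypeEquivRight (fun x => by rw [AddMonoidHom.mem_ker]))
  rw [e1, e2, e3]
  have h1 : Nat.card (g.comp (f.comp g).ker.subtype).ker * (g.comp (f.comp g).ker.subtype).ker.index =
      Nat.card (f.comp g).ker := AddSubgroup.card_mul_index _
  rw [AddSubgroup.index_ker] at h1
  have h2 : Nat.card (g.comp (f.comp g).ker.subtype).range ≤ Nat.card f.ker := by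
    apply AddSubgroup.card_le_of_le
    rintro _ ⟨x, rfl⟩
    have := x.2
    rw [AddMonoidHom.mem_ker] at this ⊢
    exact this
  have h3 : Nat.card (g.comp (f.comp g).ker.subtype).ker ≤ Nat.card g.ker := by
    apply Nat.card_le_card_of_injective
      (fun x : (g.comp (f.comp g).ker.subtype).ker => (⟨((x : (f.comp g).ker) : A), by
        have := x.2
        rw [AddMonoidHom.mem_ker] at this ⊢
        exact this⟩ : g.ker))
    intro x y hxy
    have := congrArg Subtype.val hxy
    exact Subtype.ext (Subtype.ext this)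
  calc Nat.card (f.comp g).ker
      = Nat.card (g.comp (f.comp g).ker.subtype).ker * Nat.card (g.comp (f.comp g).ker.subtype).range := h1.symm
    _ ≤ Nat.card g.ker * Nat.card f.ker := Nat.mul_le_mul h3 h2
    _ = Nat.card f.ker * Nat.card g.ker := Nat.mul_comm _ _

theorem exists_iter_hom {A : Type*} [AddCommGroup A] (N : A →+ A) (i : ℕ) :
    ∃ F : A →+ A, ∀ x, F x = (⇑N)^[i] x := by
  induction i with
  | zero => exact ⟨AddMonoidHom.id A, fun x => rfl⟩
  | succ i ih =>
    obtain ⟨F, hF⟩ := ih
    exact ⟨F.comp N, fun x => by rw [Function.iterate_succ_apply, ← hF]; rfl⟩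

theorem card_iter_le {A : Type*} [AddCommGroup A] [Finite A] (N : A →+ A) (i : ℕ) :
    Nat.card {x : A // (⇑N)^[i] x = 0} ≤ Nat.card {x : A // N x = 0} ^ i := by
  induction i with
  | zero =>
    have : Nat.card {x : A // (⇑N)^[0] x = 0} = 1 := by
      rw [Nat.card_eq_one_iff_unique]
      refine ⟨⟨fun x y => Subtype.ext ?_⟩, ⟨⟨0, rfl⟩⟩⟩
      have hx := x.2
      have hy := y.2
      simp only [Function.iterate_zero, id] at hx hy
      rw [hx, hy]
    rw [this, pow_zero]
  | succ i ih =>
    obtain ⟨F, hF⟩ := exists_iter_hom N i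
    have e1 : Nat.card {x : A // (⇑N)^[i + 1] x = 0} = Nat.card {x : A // F (N x) = 0} :=
      Nat.card_congr (Equiv.subtypeEquivRight (fun x => by rw [Function.iterate_succ_apply, hF]))
    have e2 : Nat.card {x : A // F x = 0} = Nat.card {x : A // (⇑N)^[i] x = 0} :=
      Nat.card_congr (Equiv.subtypeEquivRight (fun x => by rw [hF]))
    rw [e1, pow_succ]
    refine (card_ker_comp_le F N).trans ?_
    rw [e2]
    exact Nat.mul_le_mul_right _ ih

theorem exists_pow_eq {A : Type*} [AddCommGroup A] {p : ℕ} (hp : p.Prime)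
    (a : AddMonoid.End A) (ha : a ^ p = 1) : ∃ r : AddMonoid.End A, (a - 1) ^ p = (p : AddMonoid.End A) * r := by
  have hc : Commute a (-1 : AddMonoid.End A) := (Commute.one_right a).neg_right
  obtain ⟨r, hr⟩ := hc.exists_add_pow_prime_eq hp
  rw [← sub_eq_add_neg, ha] at hr
  rcases hp.eq_two_or_odd' with h2 | hodd
  · subst h2
    refine ⟨1 + a * (-1) * r, ?_⟩
    rw [hr]
    have : ((-1 : AddMonoid.End A)) ^ 2 = 1 := by simp
    rw [this, mul_add, mul_one, mul_assoc, mul_assoc]
    norm_num
  · refine ⟨a * (-1) * r, ?_⟩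
    rw [hr, hodd.neg_one_pow]
    simp [mul_assoc]

theorem card_torsion_le {A : Type*} [AddCommGroup A] [Finite A] {p : ℕ} (hp : p.Prime)
    (a : A →+ A) (ha : ∀ x, (⇑a)^[p] x = x) :
    Nat.card {u : A // p • u = 0} ≤ (Nat.card {v : A // a v = v}) ^ p := by
  let a' : AddMonoid.End A := a
  have ha' : a' ^ p = 1 := by
    ext x
    exact ha x
  obtain ⟨r, hr⟩ := exists_pow_eq hp a' ha'
  have hiter : ∀ x : A, (⇑(a - AddMonoidHom.id A))^[p] x = p • (r x) := by
    intro x
    have h := congrArg (fun f : AddMonoid.End A => f x) hr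
    exact h
  have h1 : Nat.card {u : A // p • u = 0} ≤ Nat.card {x : A // (⇑(a - AddMonoidHom.id A))^[p] x = 0} := by
    apply Nat.card_le_card_of_injective (fun u : {u : A // p • u = 0} =>
      (⟨(u : A), by
        rw [hiter, ← map_nsmul, u.2, map_zero]⟩ : {x : A // (⇑(a - AddMonoidHom.id A))^[p] x = 0}))
    intro x y hxy
    have h3 : (x : A) = (y : A) := congrArg (fun z => z.val) hxy
    exact Subtype.ext h3
  have h2 : Nat.card {x : A // (a - AddMonoidHom.id A) x = 0} = Nat.card {v : A // a v = v} := by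
    apply Nat.card_congr
    refine Equiv.subtypeEquivRight ?_
    intro v
    change a v - v = 0 ↔ a v = v
    exact sub_eq_zero
  calc Nat.card {u : A // p • u = 0} ≤ _ := h1
    _ ≤ Nat.card {x : A // (a - AddMonoidHom.id A) x = 0} ^ p := card_iter_le _ _
    _ = _ := by rw [h2]

theorem card_lt_of_lt {R : Type*} [Group R] [Finite R] (H K : Subgroup R) (hle : H ≤ K)
    (x : R) (hxK : x ∈ K) (hxH : x ∉ H) : Nat.card H < Nat.card K := by
  have h1 : Nat.card H ≤ Nat.card K := Subgroup.card_le_of_le hle
  have h2 : Nat.card H ≠ Nat.card K := by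
    intro h
    have := Subgroup.eq_of_le_of_card_ge hle h.ge
    exact hxH (this ▸ hxK)
  omega

theorem exists_gen {W : Type*} [Group W] [Finite W] {p : ℕ} [Fact p.Prime] (hW : IsPGroup p W)
    (m : ℕ) (hm : Nat.card W = p ^ m) :
    ∃ S : Finset W, S.card ≤ m ∧ Subgroup.closure (S : Set W) = ⊤ := by
  classical
  have hp : p.Prime := Fact.out
  have key : ∀ j ≤ m, ∃ S : Finset W, S.card ≤ j ∧ p ^ j ≤ Nat.card (Subgroup.closure (S : Set W)) := by
    intro j
    induction j with
    | zero => intro _; exact ⟨∅, by simp, by simp⟩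
    | succ j ih =>
      intro hj
      obtain ⟨S, hS, hc⟩ := ih (by omega)
      by_cases htop : Subgroup.closure (S : Set W) = ⊤
      · refine ⟨S, by omega, ?_⟩
        rw [htop, Subgroup.card_top, hm]
        exact Nat.pow_le_pow_right hp.pos hj
      · obtain ⟨x, hx⟩ : ∃ x, x ∉ Subgroup.closure (S : Set W) := by
          by_contra h
          push Not at h
          exact htop (eq_top_iff.mpr fun y _ => h y)
        refine ⟨insert x S, (Finset.card_insert_le x S).trans (by omega), ?_⟩
        have hle : Subgroup.closure (S : Set W) ≤ Subgroup.closure ((insert x S : Finset W) : Set W) :=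
          Subgroup.closure_mono (by simp)
        have hlt := card_lt_of_lt _ _ hle x (Subgroup.subset_closure (by simp)) hx
        obtain ⟨a, ha⟩ := IsPGroup.iff_card.mp (hW.to_subgroup (Subgroup.closure (S : Set W)))
        obtain ⟨b, hb⟩ := IsPGroup.iff_card.mp
          (hW.to_subgroup (Subgroup.closure ((insert x S : Finset W) : Set W)))
        rw [ha] at hc
        rw [ha, hb] at hlt
        rw [hb]
        have h1 : j ≤ a := (Nat.pow_le_pow_iff_right hp.one_lt).mp hc
        have h2 : a < b := (Nat.pow_lt_pow_iff_right hp.one_lt).mp hlt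
        exact Nat.pow_le_pow_right hp.pos (by omega)
  obtain ⟨S, hS, hc⟩ := key m le_rfl
  refine ⟨S, hS, ?_⟩
  apply Subgroup.eq_top_of_card_eq
  apply le_antisymm (Subgroup.card_le_card_group _)
  rw [hm]; exact hc

theorem eq_top_of_sup_range_pow {V : Type*} [CommGroup V] [Finite V] {p : ℕ} [Fact p.Prime]
    (hV : IsPGroup p V) (H : Subgroup V) (h : H ⊔ (powMonoidHom p : V →* V).range = ⊤) : H = ⊤ := by
  have hp : p.Prime := Fact.out
  -- the p-power map on V ⧸ H is surjective
  have hsurj : Function.Surjective (powMonoidHom p : (V ⧸ H) →* (V ⧸ H)) := by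
    intro w
    obtain ⟨v, rfl⟩ := QuotientGroup.mk_surjective w
    have hv : v ∈ H ⊔ (powMonoidHom p : V →* V).range := by rw [h]; trivial
    rw [Subgroup.mem_sup] at hv
    obtain ⟨y, hy, z, ⟨x, rfl⟩, rfl⟩ := hv
    refine ⟨(x : V ⧸ H), ?_⟩
    simp only [powMonoidHom_apply]
    rw [QuotientGroup.mk_mul, (QuotientGroup.eq_one_iff y).mpr hy, one_mul]
    rfl
  have hinj : Function.Injective (powMonoidHom p : (V ⧸ H) →* (V ⧸ H)) :=
    Finite.injective_iff_surjective.mpr hsurj
  have hcard : Nat.card (V ⧸ H) = 1 := by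
    rcases (hV.to_quotient H).card_eq_or_dvd with h1 | h1
    · exact h1
    · exfalso
      obtain ⟨w, hw⟩ := exists_prime_orderOf_dvd_card' p h1
      have h2 : (powMonoidHom p : (V ⧸ H) →* (V ⧸ H)) w = (powMonoidHom p : (V ⧸ H) →* (V ⧸ H)) 1 := by
        simp only [powMonoidHom_apply, one_pow]
        rw [← hw]; exact pow_orderOf_eq_one w
      have h3 := hinj h2
      rw [h3, orderOf_one] at hw
      exact hp.one_lt.ne hw
  exact Subgroup.index_eq_one.mp hcard

theorem card_quot_range_eq_card_ker {V : Type*} [CommGroup V] [Finite V] (f : V →* V) :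
    Nat.card (V ⧸ f.range) = Nat.card f.ker := by
  have h1 : Nat.card f.ker * f.ker.index = Nat.card V := Subgroup.card_mul_index _
  rw [Subgroup.index_ker] at h1
  have h2 := Subgroup.card_eq_card_quotient_mul_card_subgroup f.range
  rw [← h1] at h2
  have hpos : 0 < Nat.card f.range := Nat.card_pos
  exact (Nat.eq_of_mul_eq_mul_right hpos h2).symm

/-- Let V be a finite abelian p-group and α an automorphism of V of order p whose fixed-point subgroup has order p^n. Then V can be generated by pn elements: some subset of V with at most pn elements generates V. -/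
theorem result {V : Type*} [CommGroup V] [Finite V] {p : ℕ} [Fact p.Prime] (hV : IsPGroup p V) (α : MulAut V) (hα : orderOf α = p) (n : ℕ) (hfix : Nat.card {v : V // α v = v} = p ^ n) : ∃ S : Finset V, S.card ≤ p * n ∧ Subgroup.closure (S : Set V) = ⊤ := by
  classical
  have hp : p.Prime := Fact.out
  set φ : V →* V := powMonoidHom p with hφ
  have hαp : α ^ p = 1 := by rw [← hα]; exact pow_orderOf_eq_one α
  have hiter : ∀ k : ℕ, ∀ v : V, (α ^ k) v = (⇑α)^[k] v := by
    intro k
    induction k with
    | zero => intro v; rfl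
    | succ k ih => intro v; rw [pow_succ, MulAut.mul_apply, ih, Function.iterate_succ_apply]
  let a : Additive V →+ Additive V := MonoidHom.toAdditive α.toMonoidHom
  have ha : ∀ x : Additive V, (⇑a)^[p] x = x := by
    intro x
    have h1 : ∀ k : ℕ, ∀ y : Additive V,
        (⇑a)^[k] y = Additive.ofMul ((⇑α)^[k] (Additive.toMul y)) := by
      intro k
      induction k with
      | zero => intro y; rfl
      | succ k ih =>
        intro y
        rw [Function.iterate_succ_apply, ih, Function.iterate_succ_apply]; rfl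
    rw [h1, ← hiter, hαp]; rfl
  have hC := card_torsion_le hp a ha
  have e1 : Nat.card {u : Additive V // p • u = 0} = Nat.card φ.ker := by
    apply Nat.card_congr
    refine Additive.toMul.subtypeEquiv ?_
    intro u
    rw [MonoidHom.mem_ker, hφ, powMonoidHom_apply, ← toMul_nsmul]
    exact ⟨fun h => by rw [h]; rfl, fun h => Additive.toMul.injective (by rw [h]; rfl)⟩
  have e2 : Nat.card {v : Additive V // a v = v} = Nat.card {v : V // α v = v} := by
    apply Nat.card_congr
    refine Additive.toMul.subtypeEquiv ?_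
    intro u
    exact Iff.rfl
  rw [e1, e2, hfix, ← pow_mul] at hC
  have hB := card_quot_range_eq_card_ker φ
  obtain ⟨k, hk⟩ := IsPGroup.iff_card.mp (hV.to_quotient φ.range)
  have hkn : k ≤ p * n := by
    rw [← hB, hk] at hC
    have := (Nat.pow_le_pow_iff_right hp.one_lt).mp hC
    rw [mul_comm]; exact this
  obtain ⟨T, hT, hTgen⟩ := exists_gen (hV.to_quotient φ.range) k hk
  let s : V ⧸ φ.range → V := Function.surjInv (QuotientGroup.mk_surjective)
  have hs : ∀ q, (QuotientGroup.mk (s q) : V ⧸ φ.range) = q := Function.surjInv_eq _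
  refine ⟨T.image s, (Finset.card_image_le).trans (hT.trans hkn), ?_⟩
  apply eq_top_of_sup_range_pow hV
  have h1 : (Subgroup.closure ((T.image s : Finset V) : Set V)).map (QuotientGroup.mk' φ.range) = ⊤ := by
    rw [MonoidHom.map_closure, ← hTgen]
    congr 1
    ext q
    simp only [Finset.coe_image, Set.mem_image, Finset.mem_coe, QuotientGroup.mk'_apply,
      exists_exists_and_eq_and, hs]
    simp
  have h2 := Subgroup.comap_map_eq (QuotientGroup.mk' φ.range)
    (Subgroup.closure ((T.image s : Finset V) : Set V))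
  rw [h1, Subgroup.comap_top, QuotientGroup.ker_mk'] at h2
  exact h2.symm

end Cfsg.Agent.S3780
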