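import Cfsg.Statements.S0685
import Mathlib
import Cfsg.Agent.S0684

set_option autoImplicit false
open Cfsg

namespace Cfsg.Agent.S0685


/-- In a linear group over the prime field that is regular on non-zero vectors and has no irreducible cyclic normal subgroup, a maximal normal abelian subgroup is properly contained in its centraliser, which is non-abelian. -/
theorem result {p : ℕ} [Fact p.Prime] {V : Type*} [AddCommGroup V] [Module (ZMod p) V] [Finite V] (H : Subgroup (V ≃ₗ[ZMod p] V)) (hreg : ∀ v w : V, v ≠ 0 → w ≠ 0 → ∃! h : H, (h : V ≃ₗ[ZMod p] V) v = w) (hI : ∀ A : Subgroup H, A.Normal → IsCyclic A → ∃ W : Submodule (ZMod p) V, W ≠ ⊥ ∧ W ≠ ⊤ ∧ ∀ a ∈ A, ∀ v ∈ W, ((a : H) : V ≃ₗ[ZMod p] V) v ∈ W) (A : Subgroup H) (hAn : A.Normal) (hAc : IsMulCommutative A) (hAmax : ∀ B : Subgroup H, B.Normal → IsMulCommutative B → A ≤ B → B = A) : A < Subgroup.centralizer (A : Set H) ∧ ¬ IsMulCommutative (Subgroup.centralizer (A : Set H)) := by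
  classical
  obtain ⟨hcyc, W, hWbot, hWtop, hWinv, hWmin, hdvd⟩ :=
    Cfsg.Agent.S0684.result H hreg hI A hAn hAc hAmax
  haveI hfinL : Finite (V ≃ₗ[ZMod p] V) := Cfsg.Agent.S0684.finite_linEquiv (p := p) (V := V)
  haveI := hAn
  have hAle : A ≤ Subgroup.centralizer (A : Set H) := by
    intro a ha
    rw [Subgroup.mem_centralizer_iff]
    intro b hb
    exact congrArg Subtype.val (hAc.is_comm.comm ⟨b, hb⟩ ⟨a, ha⟩)
  have hne : Subgroup.centralizer (A : Set H) ≠ A := by
    intro heq
    obtain ⟨w, hwW, hw0⟩ := (Submodule.ne_bot_iff _).mp hWbot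
    obtain ⟨v, hvW⟩ : ∃ v : V, v ∉ W := by
      by_contra hcon
      push Not at hcon
      exact hWtop (Submodule.eq_top_iff'.mpr hcon)
    have hv0 : v ≠ 0 := fun h => hvW (h ▸ W.zero_mem)
    obtain ⟨h, hh, -⟩ := hreg w v hw0 hv0
    set W' : Submodule (ZMod p) V := W.map ((h : V ≃ₗ[ZMod p] V) : V →ₗ[ZMod p] V) with hW'
    have hfr : Module.finrank (ZMod p) W' = Module.finrank (ZMod p) W :=
      LinearEquiv.finrank_map_eq _ W
    have hW'inv : ∀ a ∈ A, ∀ u ∈ W ⊓ W', ((a : H) : V ≃ₗ[ZMod p] V) u ∈ W ⊓ W' := by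
      intro a ha u hu
      refine ⟨hWinv a ha u hu.1, ?_⟩
      obtain ⟨u', hu', rfl⟩ := hu.2
      have hmem : h⁻¹ * a * h ∈ A := by
        have := hAn.conj_mem a ha h⁻¹
        simpa using this
      refine ⟨((h⁻¹ * a * h : H) : V ≃ₗ[ZMod p] V) u', hWinv _ hmem u' hu', ?_⟩
      show (h : V ≃ₗ[ZMod p] V) ((h : V ≃ₗ[ZMod p] V).symm
        (((a : H) : V ≃ₗ[ZMod p] V) ((h : V ≃ₗ[ZMod p] V) u'))) = _
      rw [LinearEquiv.apply_symm_apply]
      rfl
    have hinf : W ⊓ W' = ⊥ := by
      rcases hWmin (W ⊓ W') inf_le_left hW'inv with h1 | h1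
      · exact h1
      · exfalso
        have hle : W ≤ W' := by
          rw [← h1]
          exact inf_le_right
        have heq' : W = W' := Submodule.eq_of_le_of_finrank_eq hle hfr.symm
        apply hvW
        rw [heq']
        exact ⟨w, hwW, hh⟩
    have hdim : 2 * Module.finrank (ZMod p) W ≤ Module.finrank (ZMod p) V := by
      have h1 := Submodule.finrank_sup_add_finrank_inf_eq W W'
      rw [hinf, finrank_bot, add_zero, hfr] at h1
      have h2 := Submodule.finrank_le (W ⊔ W')
      omega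
    have hk : 1 ≤ Module.finrank (ZMod p) W := by
      by_contra hcon
      have h0 : Module.finrank (ZMod p) W = 0 := by omega
      exact hWbot (Submodule.finrank_eq_zero.mp h0)
    have hcV : Nat.card V = p ^ Module.finrank (ZMod p) V := by
      rw [Module.natCard_eq_pow_finrank (K := ZMod p), Nat.card_zmod]
    have hcH : Nat.card H = Nat.card V - 1 := by
      have hinj : Function.Injective (fun g : H => (⟨(g : V ≃ₗ[ZMod p] V) w, by simpa using hw0⟩ :
          {u : V // u ≠ 0})) := by
        intro g₁ g₂ hg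
        have hg' : (g₁ : V ≃ₗ[ZMod p] V) w = (g₂ : V ≃ₗ[ZMod p] V) w := congrArg Subtype.val hg
        have hne' : (g₂ : V ≃ₗ[ZMod p] V) w ≠ 0 := by simpa using hw0
        exact (hreg w _ hw0 hne').unique hg' rfl
      have hsurj : Function.Surjective (fun g : H => (⟨(g : V ≃ₗ[ZMod p] V) w, by simpa using hw0⟩ :
          {u : V // u ≠ 0})) := by
        rintro ⟨u, hu⟩
        obtain ⟨g, hg, -⟩ := hreg w u hw0 hu
        exact ⟨g, Subtype.ext hg⟩
      rw [Nat.card_congr (Equiv.ofBijective _ ⟨hinj, hsurj⟩)]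
      haveI := Fintype.ofFinite V
      rw [Nat.card_eq_fintype_card, Nat.card_eq_fintype_card, Fintype.card_subtype_compl,
        Fintype.card_subtype_eq]
    have hker : (MulAut.conjNormal : H →* MulAut A).ker = Subgroup.centralizer (A : Set H) := by
      ext g
      rw [MonoidHom.mem_ker, Subgroup.mem_centralizer_iff]
      constructor
      · intro hg a ha
        have h1 := congrArg (fun φ : MulAut A => ((φ ⟨a, ha⟩ : A) : H)) hg
        have h2 : g * a * g⁻¹ = a := h1
        calc a * g = (g * a * g⁻¹) * g := by rw [h2]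
        _ = g * a := by group
      · intro hg
        apply MulEquiv.ext
        intro a
        apply Subtype.ext
        show g * (a : H) * g⁻¹ = a
        calc g * (a : H) * g⁻¹ = (a : H) * g * g⁻¹ := by rw [hg a a.2]
        _ = a := by group
    have hcard1 : Nat.card H ≤ Nat.card A * Nat.card A := by
      have h1 := Subgroup.card_mul_index (MulAut.conjNormal : H →* MulAut A).ker
      rw [Subgroup.index_ker, hker, heq] at h1
      have h2 : Nat.card (MulAut.conjNormal : H →* MulAut A).range ≤ Nat.card (MulAut A) :=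
        Subgroup.card_le_card_group _
      have h3 : Nat.card (MulAut A) ≤ Nat.card A := by
        rw [IsCyclic.card_mulAut A]
        exact Nat.totient_le _
      calc Nat.card H = Nat.card A * Nat.card (MulAut.conjNormal : H →* MulAut A).range := h1.symm
      _ ≤ Nat.card A * Nat.card A := Nat.mul_le_mul_left _ (h2.trans h3)
    have hp2 : 2 ≤ p := (Fact.out : p.Prime).two_le
    have hP : 2 ≤ p ^ Module.finrank (ZMod p) W := by
      calc 2 ≤ p := hp2
      _ = p ^ 1 := (pow_one p).symm
      _ ≤ p ^ Module.finrank (ZMod p) W := Nat.pow_le_pow_right (by omega) hk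
    have hA : Nat.card A ≤ p ^ Module.finrank (ZMod p) W - 1 := Nat.le_of_dvd (by omega) hdvd
    have hV : (p ^ Module.finrank (ZMod p) W) ^ 2 ≤ Nat.card V := by
      rw [hcV, ← pow_mul]
      exact Nat.pow_le_pow_right (by omega) (by omega)
    have h4 : Nat.card A * Nat.card A ≤
        (p ^ Module.finrank (ZMod p) W - 1) * (p ^ Module.finrank (ZMod p) W - 1) :=
      Nat.mul_le_mul hA hA
    generalize p ^ Module.finrank (ZMod p) W = P at hP hA hV h4
    have h5 : Nat.card V - 1 ≤ (P - 1) * (P - 1) := by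
      rw [← hcH]
      exact hcard1.trans h4
    obtain ⟨Q, rfl⟩ : ∃ Q, P = Q + 1 := ⟨P - 1, by omega⟩
    simp only [Nat.add_sub_cancel] at h5
    have h6 : (Q + 1) ^ 2 = Q * Q + 2 * Q + 1 := by ring
    omega
  refine ⟨lt_of_le_of_ne hAle (Ne.symm hne), ?_⟩
  intro hcomm
  exact hne (hAmax _ inferInstance hcomm hAle)

end Cfsg.Agent.S0685
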