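import Mathlib
import Cfsg.Statements.S0688
import Cfsg.Agent.S0684
import Cfsg.Agent.S0685
import Cfsg.Agent.Lib.Helper12.Fpf

set_option autoImplicit false
open Cfsg

namespace Cfsg.Agent.S0688

open Cfsg.Agent.Lib.Helper12

section lin

variable {p : ℕ} [Fact p.Prime] {V : Type*} [AddCommGroup V] [Module (ZMod p) V] [Finite V]

omit [Finite V] in
/-- linear algebra: a quaternion pair splits `V` as `U ⊕ XY U` -/
theorem card_sq (X Y : V ≃ₗ[ZMod p] V) (h2 : (2 : ZMod p) ≠ 0)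
    (hXX : ∀ v, X (X v) = -v) (hYY : ∀ v, Y (Y v) = -v) (hYX : ∀ v, Y (X v) = -X (Y v)) :
    ∃ U : Submodule (ZMod p) V, Nat.card V = Nat.card U * Nat.card U ∧
      ∀ g : V ≃ₗ[ZMod p] V, (∀ v, g (X v) = X (g v)) → (∀ v, g (Y v) = Y (g v)) →
        ∀ u ∈ U, g u ∈ U := by
  obtain ⟨α, β, hαβ⟩ := ZMod.sq_add_sq p (-1)
  let J : V →ₗ[ZMod p] V := α • (X : V →ₗ[ZMod p] V) + β • (Y : V →ₗ[ZMod p] V)
  have hJ : ∀ v, J v = α • X v + β • Y v := fun v => rfl
  have hJJ : ∀ v, J (J v) = v := by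
    intro v
    have e : J (J v) = (-(α ^ 2 + β ^ 2)) • v := by
      simp only [hJ, map_add, map_smul, hXX, hYY, hYX]
      module
    rw [e, hαβ]; simp
  have hDJ : ∀ v, J (X (Y v)) = -(X (Y (J v))) := by
    intro v
    simp only [hJ, map_add, map_smul, map_neg, hXX, hYY, hYX, neg_neg]
    module
  let U : Submodule (ZMod p) V := LinearMap.ker (J - LinearMap.id)
  have hU : ∀ v, v ∈ U ↔ J v = v := by
    intro v
    simp only [U, LinearMap.mem_ker, LinearMap.sub_apply, LinearMap.id_apply, sub_eq_zero]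
  refine ⟨U, ?_, ?_⟩
  · let f : U × U → V := fun q => (q.1 : V) + X (Y (q.2 : V))
    have hf_inj : Function.Injective f := by
      rintro ⟨⟨a, ha⟩, ⟨b, hb⟩⟩ ⟨⟨a', ha'⟩, ⟨b', hb'⟩⟩ h
      have h1 : a + X (Y b) = a' + X (Y b') := h
      rw [hU] at ha hb ha' hb'
      have h2' : a - X (Y b) = a' - X (Y b') := by
        have := congrArg J h1
        rw [map_add, map_add, hDJ, hDJ, ha, hb, ha', hb'] at this
        rw [sub_eq_add_neg, sub_eq_add_neg]; exact this
      have h3 : a + a = a' + a' := by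
        calc a + a = (a + X (Y b)) + (a - X (Y b)) := by abel
        _ = (a' + X (Y b')) + (a' - X (Y b')) := by rw [h1, h2']
        _ = a' + a' := by abel
      have h4 : a = a' := by
        have : (2 : ZMod p) • a = (2 : ZMod p) • a' := by rw [two_smul, two_smul, h3]
        exact smul_right_injective V h2 this
      subst h4
      have h5 : X (Y b) = X (Y b') := add_left_cancel h1
      have h6 : b = b' := Y.injective (X.injective h5)
      subst h6
      rfl
    have hf_surj : Function.Surjective f := by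
      intro v
      have hc2 : (2 : ZMod p)⁻¹ * 2 = 1 := inv_mul_cancel₀ h2
      have hu₁U : (2 : ZMod p)⁻¹ • (v + J v) ∈ U := by
        rw [hU, map_smul, map_add, hJJ, add_comm]
      have hJw : J ((2 : ZMod p)⁻¹ • (v - J v)) = -((2 : ZMod p)⁻¹ • (v - J v)) := by
        rw [map_smul, map_sub, hJJ, ← smul_neg, neg_sub]
      have hu₂U : -(X (Y ((2 : ZMod p)⁻¹ • (v - J v)))) ∈ U := by
        rw [hU, map_neg, hDJ, hJw]
        simp only [map_neg, neg_neg]
      refine ⟨(⟨_, hu₁U⟩, ⟨_, hu₂U⟩), ?_⟩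
      show (2 : ZMod p)⁻¹ • (v + J v) + X (Y (-(X (Y ((2 : ZMod p)⁻¹ • (v - J v)))))) = v
      have hDD : ∀ w : V, X (Y (-(X (Y w)))) = w := by
        intro w
        simp only [map_neg, hYX, hYY, hXX, neg_neg]
      rw [hDD, ← smul_add]
      have : v + J v + (v - J v) = (2 : ZMod p) • v := by rw [two_smul]; abel
      rw [this, smul_smul, hc2, one_smul]
    have := Nat.card_congr (Equiv.ofBijective f ⟨hf_inj, hf_surj⟩)
    rw [← this, Nat.card_prod]
  · intro g hgX hgY u hu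
    rw [hU] at hu ⊢
    have : g (J u) = J (g u) := by
      rw [hJ, hJ, map_add, map_smul, map_smul, hgX, hgY]
    rw [← this, hu]

theorem card_H [Nontrivial V] (H : Subgroup (V ≃ₗ[ZMod p] V))
    (hreg : ∀ v w : V, v ≠ 0 → w ≠ 0 → ∃! h : H, (h : V ≃ₗ[ZMod p] V) v = w) :
    Nat.card H = Nat.card V - 1 := by
  classical
  obtain ⟨w, hw0⟩ := exists_ne (0 : V)
  have hinj : Function.Injective (fun g : H => (⟨(g : V ≃ₗ[ZMod p] V) w, by simpa using hw0⟩ :
      {u : V // u ≠ 0})) := by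
    intro g₁ g₂ hg
    have hg' : (g₁ : V ≃ₗ[ZMod p] V) w = (g₂ : V ≃ₗ[ZMod p] V) w := congrArg Subtype.val hg
    have hne' : (g₂ : V ≃ₗ[ZMod p] V) w ≠ 0 := by simpa using hw0
    exact (hreg w _ hw0 hne').unique hg' rfl
  have hsurj : Function.Surjective (fun g : H => (⟨(g : V ≃ₗ[ZMod p] V) w, by simpa using hw0⟩ :
      {u : V // u ≠ 0})) := by
    rintro ⟨u, hu⟩
    obtain ⟨g, hg, -⟩ := hreg w u hw0 hu
    exact ⟨g, Subtype.ext hg⟩
  rw [Nat.card_congr (Equiv.ofBijective _ ⟨hinj, hsurj⟩)]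
  have := Fintype.ofFinite V
  rw [Nat.card_eq_fintype_card, Nat.card_eq_fintype_card, Fintype.card_subtype_compl,
    Fintype.card_subtype_eq]

theorem card_dvd_of_free (H : Subgroup (V ≃ₗ[ZMod p] V)) (K : Subgroup H)
    (U : Submodule (ZMod p) V)
    (hinv : ∀ k ∈ K, ∀ u ∈ U, ((k : H) : V ≃ₗ[ZMod p] V) u ∈ U)
    (hsemi : ∀ (h : H) (v : V), v ≠ 0 → (h : V ≃ₗ[ZMod p] V) v = v → h = 1) :
    Nat.card K ∣ Nat.card U - 1 := by
  classical
  have hfinL := S0684.finite_linEquiv (p := p) (V := V)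
  let X := {w : U // w ≠ 0}
  let _ : MulAction K X :=
    { smul := fun a x => ⟨⟨((a : H) : V ≃ₗ[ZMod p] V) x.1.1, hinv a a.2 x.1.1 x.1.2⟩, by
        intro h
        apply x.2
        have h' : ((a : H) : V ≃ₗ[ZMod p] V) x.1.1 = 0 := congrArg Subtype.val h
        have h'' : (x.1 : V) = 0 := by
          simpa using h'
        exact Subtype.ext h''⟩
      one_smul := fun x => rfl
      mul_smul := fun a b x => rfl }
  have hfree : ∀ x : X, MulAction.stabilizer K x = ⊥ := by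
    intro x
    rw [eq_bot_iff]
    intro a ha
    rw [MulAction.mem_stabilizer_iff] at ha
    rw [Subgroup.mem_bot]
    apply Subtype.ext
    apply hsemi a x.1.1
    · intro h
      exact x.2 (Subtype.ext h)
    · exact congrArg (fun y : X => (y.1 : V)) ha
  have e := MulAction.selfEquivOrbitsQuotientProd hfree
  have hcard : Nat.card X = Nat.card (Quotient (MulAction.orbitRel K X)) * Nat.card K := by
    rw [Nat.card_congr e, Nat.card_prod]
  have hX : Nat.card X = Nat.card U - 1 := by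
    have := Fintype.ofFinite U
    show Nat.card {w : U // w ≠ 0} = Nat.card U - 1
    rw [Nat.card_eq_fintype_card, Nat.card_eq_fintype_card, Fintype.card_subtype_compl,
      Fintype.card_subtype_eq]
  rw [← hX, hcard]
  exact dvd_mul_left _ _

theorem no_sqrt_three : ∀ c : ZMod 3, c * c + 1 ≠ 0 := by decide

theorem no_sqrt_aux {q : ℕ} (hq : q = 3) (c : ZMod q) : c * c + 1 ≠ 0 := by
  subst hq
  exact no_sqrt_three c

theorem num_cases (n : ℕ) (h1 : 2 ≤ n) (h2 : n ≤ 23) (h3 : (n + 1) ∣ 24 ∨ (n + 1) ∣ 16) :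
    n = 2 ∨ n = 3 ∨ n = 5 ∨ n = 7 ∨ n = 11 ∨ n = 15 ∨ n = 23 := by
  interval_cases n <;> omega

end lin

/-- Degrees of the soluble exceptional sharply doubly transitive groups: if a solvable linear group over the prime field is regular on the non-zero vectors of `V` and has no irreducible cyclic normal subgroup, then `V` has 25, 49, 121 or 529 elements. -/
theorem result {p : ℕ} [Fact p.Prime] {V : Type*} [AddCommGroup V] [Module (ZMod p) V] [Finite V] (H : Subgroup (V ≃ₗ[ZMod p] V)) (hreg : ∀ v w : V, v ≠ 0 → w ≠ 0 → ∃! h : H, (h : V ≃ₗ[ZMod p] V) v = w) (hI : ∀ A : Subgroup H, A.Normal → IsCyclic A → ∃ W : Submodule (ZMod p) V, W ≠ ⊥ ∧ W ≠ ⊤ ∧ ∀ a ∈ A, ∀ v ∈ W, ((a : H) : V ≃ₗ[ZMod p] V) v ∈ W) (hsolv : Group.IsSolvable H) : Nat.card V = 25 ∨ Nat.card V = 49 ∨ Nat.card V = 121 ∨ Nat.card V = 529 := by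
  classical
  have hp : p.Prime := Fact.out
  have hfinL := S0684.finite_linEquiv (p := p) (V := V)
  have hnt : Nontrivial V := by
    obtain ⟨W, hW, -, -⟩ := hI ⊥ inferInstance inferInstance
    obtain ⟨v, -, hv⟩ := (Submodule.ne_bot_iff _).mp hW
    exact ⟨⟨v, 0, hv⟩⟩
  have hsemi : ∀ (h : H) (v : V), v ≠ 0 → (h : V ≃ₗ[ZMod p] V) v = v → h = 1 :=
    S0684.semireg H hreg
  have hAC : Fpf.AC H := fun A hA => S0684.cyclic_of_semireg H A hA
    (fun a v hv hfix => Subtype.ext (hsemi a v hv hfix))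
  have hneg : ∀ h : H, h * h = 1 → h ≠ 1 → ∀ v, (h : V ≃ₗ[ZMod p] V) v = -v := by
    intro h hh hne v
    by_contra hcon
    apply hne
    apply hsemi h (v + (h : V ≃ₗ[ZMod p] V) v)
    · intro h0
      apply hcon
      exact eq_neg_of_add_eq_zero_right h0
    · rw [map_add]
      have h1 : (h : V ≃ₗ[ZMod p] V) ((h : V ≃ₗ[ZMod p] V) v) = v :=
        congrArg (fun g : H => (g : V ≃ₗ[ZMod p] V) v) hh
      rw [h1, add_comm]
  have hUI : Fpf.UI H := by
    intro a b ha ha1 hb hb1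
    apply Subtype.ext
    apply LinearEquiv.ext
    intro v
    rw [hneg a ha ha1 v, hneg b hb hb1 v]
  obtain ⟨A, -, hAmaxl⟩ := (Set.toFinite {A : Subgroup H | A.Normal ∧ IsMulCommutative A}).exists_le_maximal
    (a := ⊥) ⟨inferInstance, inferInstance⟩
  obtain ⟨⟨hAn, hAc⟩, hAm⟩ := hAmaxl
  have hAmax : ∀ B : Subgroup H, B.Normal → IsMulCommutative B → A ≤ B → B = A :=
    fun B hBn hBc hle => le_antisymm (hAm ⟨hBn, hBc⟩ hle) hle
  obtain ⟨-, hnc⟩ := S0685.result H hreg hI A hAn hAc hAmax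
  obtain ⟨x, y, z, K, hz1, hzz, hxx, hyy, hxy, hK, hidx⟩ :=
    Fpf.main_abstract hAC hUI A hAn hAc hAmax hnc
  have hzneg := hneg z hzz hz1
  have h2 : (2 : ZMod p) ≠ 0 := by
    intro h0
    apply hz1
    apply Subtype.ext
    apply LinearEquiv.ext
    intro v
    have h1 : v + v = 0 := by rw [← two_smul (ZMod p) v, h0, zero_smul]
    show (z : V ≃ₗ[ZMod p] V) v = v
    rw [hzneg v]
    exact neg_eq_of_add_eq_zero_left h1
  have hXX : ∀ v, (x : V ≃ₗ[ZMod p] V) ((x : V ≃ₗ[ZMod p] V) v) = -v := by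
    intro v
    have h1 : (x : V ≃ₗ[ZMod p] V) ((x : V ≃ₗ[ZMod p] V) v) = (z : V ≃ₗ[ZMod p] V) v :=
      congrArg (fun g : H => (g : V ≃ₗ[ZMod p] V) v) hxx
    exact h1.trans (hzneg v)
  have hYY : ∀ v, (y : V ≃ₗ[ZMod p] V) ((y : V ≃ₗ[ZMod p] V) v) = -v := by
    intro v
    have h1 : (y : V ≃ₗ[ZMod p] V) ((y : V ≃ₗ[ZMod p] V) v) = (z : V ≃ₗ[ZMod p] V) v :=
      congrArg (fun g : H => (g : V ≃ₗ[ZMod p] V) v) hyy
    exact h1.trans (hzneg v)
  have hYX : ∀ v, (y : V ≃ₗ[ZMod p] V) ((x : V ≃ₗ[ZMod p] V) v)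
      = -((x : V ≃ₗ[ZMod p] V) ((y : V ≃ₗ[ZMod p] V) v)) := by
    intro v
    have h1 : (x : V ≃ₗ[ZMod p] V) ((y : V ≃ₗ[ZMod p] V) v)
        = (z : V ≃ₗ[ZMod p] V) ((y : V ≃ₗ[ZMod p] V) ((x : V ≃ₗ[ZMod p] V) v)) :=
      congrArg (fun g : H => (g : V ≃ₗ[ZMod p] V) v) hxy
    rw [h1, hzneg, neg_neg]
  obtain ⟨U, hVU, hUinv⟩ := card_sq (x : V ≃ₗ[ZMod p] V) (y : V ≃ₗ[ZMod p] V) h2 hXX hYY hYX
  have hKinv : ∀ k ∈ K, ∀ u ∈ U, ((k : H) : V ≃ₗ[ZMod p] V) u ∈ U := by
    intro k hk u hu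
    obtain ⟨hkx, hky⟩ := hK k hk
    apply hUinv _ _ _ u hu
    · intro v
      exact congrArg (fun g : H => (g : V ≃ₗ[ZMod p] V) v) hkx.eq
    · intro v
      exact congrArg (fun g : H => (g : V ≃ₗ[ZMod p] V) v) hky.eq
  have hKdvd : Nat.card K ∣ Nat.card U - 1 := card_dvd_of_free H K U hKinv hsemi
  have hcH : Nat.card H = Nat.card V - 1 := card_H H hreg
  have hcV : Nat.card V = p ^ Module.finrank (ZMod p) V := by
    rw [Module.natCard_eq_pow_finrank (K := ZMod p), Nat.card_zmod]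
  have hn0 : 0 < Nat.card U := Nat.card_pos
  have hV1 : 1 < Nat.card V := Finite.one_lt_card
  have hindex : Nat.card K * K.index = Nat.card H := Subgroup.card_mul_index K
  have hKpos : 0 < Nat.card K := Nat.card_pos
  have ho4 : orderOf x = 4 := Fpf.orderOf_eq_four hz1 hzz hxx
  have h4H : 4 ∣ Nat.card H := ho4 ▸ orderOf_dvd_natCard x
  generalize Nat.card U = n at hVU hKdvd hn0
  have hn1 : 2 ≤ n := by
    by_contra hlt
    have : n = 1 := by omega
    rw [hVU, this] at hV1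
    omega
  have hdiv : (n + 1) ∣ K.index := by
    obtain ⟨j, hj⟩ := hKdvd
    have e : Nat.card K * K.index = Nat.card K * (j * (n + 1)) := by
      rw [hindex, hcH, hVU]
      obtain ⟨n', rfl⟩ : ∃ n', n = n' + 1 := ⟨n - 1, by omega⟩
      simp only [Nat.add_sub_cancel] at hj
      have h3 : (n' + 1) * (n' + 1) - 1 = n' * (n' + 1 + 1) := by
        have : (n' + 1) * (n' + 1) = n' * (n' + 1 + 1) + 1 := by ring
        omega
      rw [h3, hj]; ring
    have := Nat.eq_of_mul_eq_mul_left hKpos e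
    exact ⟨j, by rw [this]; ring⟩
  have hn24 : (n + 1) ∣ 24 ∨ (n + 1) ∣ 16 := by
    rcases hidx with h | h
    · left; exact hdiv.trans h
    · right; exact hdiv.trans h
  have hle : n ≤ 23 := by
    rcases hn24 with h | h
    · have := Nat.le_of_dvd (by norm_num) h; omega
    · have := Nat.le_of_dvd (by norm_num) h; omega
  rcases num_cases n hn1 hle hn24 with h | h | h | h | h | h | h
  · exfalso
    rw [hcH, hVU, h] at h4H
    omega
  · exfalso
    have h9 : Nat.card V = 9 := by rw [hVU, h]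
    have hH8 : Nat.card H = 8 := by rw [hcH, h9]
    have hzp : Nat.card (Subgroup.zpowers x) = 4 := by rw [Nat.card_zpowers, ho4]
    have hidx2 : (Subgroup.zpowers x).index = 2 := by
      have := Subgroup.card_mul_index (Subgroup.zpowers x)
      rw [hzp, hH8] at this
      omega
    have hnorm : (Subgroup.zpowers x).Normal := Subgroup.normal_of_index_eq_two hidx2
    obtain ⟨W, hWbot, hWtop, hWinv⟩ := hI (Subgroup.zpowers x) hnorm inferInstance
    have h3 : 3 ∣ p ^ Module.finrank (ZMod p) V := by rw [← hcV, h9]; norm_num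
    have hp3 : p = 3 :=
      ((Nat.prime_dvd_prime_iff_eq Nat.prime_three hp).mp (Nat.prime_three.dvd_of_dvd_pow h3)).symm
    have hd : Module.finrank (ZMod p) V = 2 := by
      have h4 : 3 ^ Module.finrank (ZMod p) V = 3 ^ 2 := by
        rw [← hp3, ← hcV, h9, hp3]; norm_num
      exact Nat.pow_right_injective (le_refl 2 |>.trans (by norm_num)) h4
    have hW1 : Module.finrank (ZMod p) W = 1 := by
      have hlt : Module.finrank (ZMod p) W < Module.finrank (ZMod p) V :=
        Submodule.finrank_lt hWtop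
      have hpos : 0 < Module.finrank (ZMod p) W := by
        rw [Nat.pos_iff_ne_zero]
        intro h0
        exact hWbot (Submodule.finrank_eq_zero.mp h0)
      omega
    obtain ⟨w, hwW, hw0⟩ := (Submodule.ne_bot_iff _).mp hWbot
    have hxw : (x : V ≃ₗ[ZMod p] V) w ∈ W := hWinv x (Subgroup.mem_zpowers x) w hwW
    have hspan := (finrank_eq_one_iff_of_nonzero' (⟨w, hwW⟩ : W)
      (by intro h0; exact hw0 (congrArg Subtype.val h0))).mp hW1 ⟨_, hxw⟩
    obtain ⟨c, hc⟩ := hspan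
    have hc' : c • w = (x : V ≃ₗ[ZMod p] V) w := congrArg Subtype.val hc
    have h5 : (c * c + 1) • w = 0 := by
      have h6 := hXX w
      rw [← hc', map_smul, ← hc', smul_smul] at h6
      rw [add_smul, one_smul, h6, neg_add_cancel]
    have h6 : c * c + 1 = 0 := by
      rcases smul_eq_zero.mp h5 with h | h
      · exact h
      · exact absurd h hw0
    exact no_sqrt_aux hp3 c h6
  · left; rw [hVU, h]
  · right; left; rw [hVU, h]
  · right; right; left; rw [hVU, h]
  · exfalso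
    have h225 : p ^ Module.finrank (ZMod p) V = 225 := by rw [← hcV, hVU, h]
    have h3 : 3 ∣ p ^ Module.finrank (ZMod p) V := by rw [h225]; norm_num
    have h5 : 5 ∣ p ^ Module.finrank (ZMod p) V := by rw [h225]; norm_num
    have hp3 : p = 3 :=
      ((Nat.prime_dvd_prime_iff_eq Nat.prime_three hp).mp (Nat.prime_three.dvd_of_dvd_pow h3)).symm
    have hp5 : p = 5 :=
      ((Nat.prime_dvd_prime_iff_eq Nat.prime_five hp).mp (Nat.prime_five.dvd_of_dvd_pow h5)).symm
    omega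
  · right; right; right; rw [hVU, h]

end Cfsg.Agent.S0688
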