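import Mathlib
import Cfsg.Statements.S0710

set_option autoImplicit false
open Cfsg

namespace Cfsg.Agent.S0710

/-- There is no sharply 6-transitive group of degree 13; more generally no transitive permutation group on 13 points has order 13·12·11·10·9·8. -/
theorem result {α : Type*} [Fintype α] [DecidableEq α] (hα : Fintype.card α = 13) (G : Subgroup (Equiv.Perm α)) [MulAction.IsPretransitive G α] : Nat.card G ≠ 13 * 12 * 11 * 10 * 9 * 8 := by
  intro hcard
  have hp : Fact (Nat.Prime 13) := ⟨by norm_num⟩
  obtain ⟨P⟩ : Nonempty (Sylow 13 G) := inferInstance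
  have hP : Nat.card P = 13 := by
    obtain ⟨n, hn⟩ := P.2.exists_card_eq
    have hidx := P.not_dvd_index
    have hmul := (P : Subgroup G).card_mul_index
    rw [hn, hcard] at hmul
    rcases n with _ | _ | k
    · exfalso; apply hidx
      rw [pow_zero, one_mul] at hmul; rw [hmul]; norm_num
    · simpa using hn
    · exfalso
      have : 169 ∣ 13 * 12 * 11 * 10 * 9 * 8 :=
        ⟨13 ^ k * (P : Subgroup G).index, by rw [← hmul]; ring⟩
      norm_num at this
  have hcyc : IsCyclic P := isCyclic_of_prime_card hP
  have key := Subgroup.card_dvd_of_injective _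
    (QuotientGroup.kerLift_injective (P : Subgroup G).normalizerMonoidHom)
  rw [Subgroup.normalizerMonoidHom_ker, ← Subgroup.index, ← Subgroup.relIndex] at key
  rw [IsCyclic.card_mulAut, hP] at key
  have htot : Nat.totient 13 = 12 := by rw [Nat.totient_prime (by norm_num)]
  rw [htot] at key
  have hC : Nat.card (Subgroup.centralizer ((P : Subgroup G) : Set G)) = 13 := by
    apply le_antisymm
    · have hnt : Nontrivial P := by
        rw [← Finite.one_lt_card_iff_nontrivial, hP]; norm_num
      obtain ⟨g, hg⟩ := exists_ne (1 : P)
      have hord : orderOf g = 13 := by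
        have h1 : orderOf g ∣ 13 := (orderOf_dvd_natCard g).trans (dvd_of_eq hP)
        rcases (Nat.dvd_prime (by norm_num)).mp h1 with h | h
        · exact absurd (orderOf_eq_one_iff.mp h) hg
        · exact h
      set g' : Equiv.Perm α := ((g : G) : Equiv.Perm α) with hg'
      have hord' : orderOf g' = 13 := by
        rw [hg', Subgroup.orderOf_coe, Subgroup.orderOf_coe, hord]
      have hct : g'.cycleType = {13} := by
        obtain ⟨n, hn⟩ := Equiv.Perm.cycleType_prime_order (σ := g') (by rw [hord']; norm_num)
        have hs := Equiv.Perm.sum_cycleType_le g'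
        rw [hn, Multiset.sum_replicate, hord', hα] at hs
        have : n = 0 := by
          simp only [smul_eq_mul] at hs
          omega
        rw [hn, this, hord']; rfl
      have hcent : Nat.card (Subgroup.centralizer {g'}) = 13 := by
        rw [Equiv.Perm.nat_card_centralizer, hct, hα]
        simp
      refine le_of_le_of_eq ?_ hcent
      let f : Subgroup.centralizer ((P : Subgroup G) : Set G) →
          Subgroup.centralizer ({g'} : Set (Equiv.Perm α)) := fun c =>
        ⟨((c : G) : Equiv.Perm α), by
          rw [Subgroup.mem_centralizer_iff]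
          intro h hh
          rw [Set.mem_singleton_iff] at hh
          subst hh
          have := (Subgroup.mem_centralizer_iff.mp c.2) g g.2
          exact congrArg Subtype.val this⟩
      apply Nat.card_le_card_of_injective f
      intro c₁ c₂ h
      have h' : ((c₁ : G) : Equiv.Perm α) = ((c₂ : G) : Equiv.Perm α) :=
        congrArg (fun x : Subgroup.centralizer ({g'} : Set (Equiv.Perm α)) => (x : Equiv.Perm α)) h
      exact Subtype.ext (Subtype.ext h')
    · have hcomm : IsMulCommutative (P : Subgroup G) := inferInstance
      have : (P : Subgroup G) ≤ Subgroup.centralizer ((P : Subgroup G) : Set G) :=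
        Subgroup.le_centralizer _
      exact hP.symm.le.trans (Subgroup.card_le_of_le this)
  have hCN : Subgroup.centralizer ((P : Subgroup G) : Set G) ≤
      Subgroup.normalizer ((P : Subgroup G) : Set G) := Subgroup.centralizer_le_normalizer _
  have h1 := Subgroup.relIndex_mul_index hCN
  have h2 := (Subgroup.centralizer ((P : Subgroup G) : Set G)).card_mul_index
  have h3 := (Subgroup.normalizer ((P : Subgroup G) : Set G)).card_mul_index
  have h4 : Nat.card (Sylow 13 G) ≡ 1 [MOD 13] := card_sylow_modEq_one 13 G
  rw [P.card_eq_index_normalizer] at h4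
  rw [hC, ← h1, hcard] at h2
  set d := (Subgroup.centralizer ((P : Subgroup G) : Set G)).relIndex
    (Subgroup.normalizer ((P : Subgroup G) : Set G)) with hd
  set idx := (Subgroup.normalizer ((P : Subgroup G) : Set G)).index with hidx
  have h5 : idx % 13 = 1 := h4
  have hd12 : d ≤ 12 := Nat.le_of_dvd (by norm_num) key
  have h6 : d * idx = 95040 := by
    have : 13 * (d * idx) = 13 * 95040 := by rw [h2]
    omega
  interval_cases d <;> omega

end Cfsg.Agent.S0710
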