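import Cfsg.Statements.S2160
import Cfsg.Agent.Lib.Helper36.ChevGen

set_option autoImplicit false
open Cfsg

namespace Cfsg.Agent.S2160

/-- In a Chevalley group of type G₂, B₂, D₄, F₄, E₆, E₇ or E₈ over a finite field, every field automorphism commutes with every graph automorphism. -/
theorem result {F : Type*} [Field F] [Finite F] (D : Cfsg.Lie.ChevalleyDatum) (hD : D ∈ [Cfsg.Lie.chevG2, Cfsg.Lie.chevB2, Cfsg.Lie.chevD4, Cfsg.Lie.chevF4, Cfsg.Lie.chevE6, Cfsg.Lie.chevE7, Cfsg.Lie.chevE8]) (f g : ↥(D.group F) ≃* ↥(D.group F))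
    (hf : D.IsFieldAut f) (hg : D.IsGraphAut g) (y : ↥(D.group F)) : f (g y) = g (f y) := by
  obtain ⟨σ, hσ⟩ := hf
  obtain ⟨π, -, hg'⟩ := hg
  have hE : D.group F ≤ ((f.toMonoidHom.comp g.toMonoidHom).eqLocus
      (g.toMonoidHom.comp f.toMonoidHom)).map (D.group F).subtype := by
    apply Cfsg.Agent.Lib.Helper36.group_le_of_simple D hD
    intro i hi t u hu
    have hs := Cfsg.Agent.Lib.Helper36.simple_lt D hD i hi
    have hns := (Cfsg.Agent.Lib.Helper36.neg_lt D hD _ hs).1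
    have hs' := Cfsg.Agent.Lib.Helper36.simple_lt D hD _ (π ⟨i, hi⟩).isLt
    have hns' := (Cfsg.Agent.Lib.Helper36.neg_lt D hD _ hs').1
    have hmem : u ∈ D.group F := by
      apply Subgroup.subset_closure
      rcases hu with hu | hu
      · exact ⟨⟨D.simple i, hs⟩, t, by rw [hu, Cfsg.Lie.ChevalleyDatum.x, dif_pos hs]⟩
      · exact ⟨⟨D.neg (D.simple i), hns⟩, t, by rw [hu, Cfsg.Lie.ChevalleyDatum.x, dif_pos hns]⟩
    refine ⟨⟨u, hmem⟩, ?_, rfl⟩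
    show f (g ⟨u, hmem⟩) = g (f ⟨u, hmem⟩)
    apply Subtype.ext
    apply Units.ext
    rcases hu with hu | hu
    · have h1 := (hg' ⟨u, hmem⟩ ⟨i, hi⟩ t).1 hu
      have h2 := hσ (g ⟨u, hmem⟩) _ _ hs' h1
      have h3 := hσ ⟨u, hmem⟩ _ t hs hu
      have h4 := (hg' (f ⟨u, hmem⟩) ⟨i, hi⟩ (σ t)).1 h3
      rw [h2, h4, map_pow]
    · have h1 := (hg' ⟨u, hmem⟩ ⟨i, hi⟩ t).2 hu
      have h2 := hσ (g ⟨u, hmem⟩) _ _ hns' h1
      have h3 := hσ ⟨u, hmem⟩ _ t hns hu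
      have h4 := (hg' (f ⟨u, hmem⟩) ⟨i, hi⟩ (σ t)).2 h3
      rw [h2, h4, map_pow]
  obtain ⟨y', hy', hyy⟩ := hE y.2
  have hy : y' = y := Subtype.ext hyy
  rw [← hy]
  exact hy'

end Cfsg.Agent.S2160
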