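import Cfsg.Statements.S1056
import Cfsg.Agent.Lib.Helper36.ChevSimple

set_option autoImplicit false
open Cfsg

namespace Cfsg.Agent.S1056

/-- B₂(F) is simple for every field `F` other than the field with two elements. -/
theorem result {F : Type*} [Field F] (hF : ∃ a : F, a ≠ 0 ∧ a ≠ 1) : IsSimpleGroup ↥(Cfsg.Lie.chevB2.group F) ∧ ¬ IsMulCommutative ↥(Cfsg.Lie.chevB2.group F) := by
  have hD7 : Cfsg.Lie.chevB2 ∈ [Cfsg.Lie.chevG2, Cfsg.Lie.chevB2, Cfsg.Lie.chevD4, Cfsg.Lie.chevF4,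
      Cfsg.Lie.chevE6, Cfsg.Lie.chevE7, Cfsg.Lie.chevE8] :=
    List.mem_cons_of_mem _ List.mem_cons_self
  exact Cfsg.Agent.Lib.Helper36.simple_of_bnpair _ hD7 (fun _ => hF)
    (Cfsg.Agent.Lib.Helper36.exists_bnpair _ hD7)

end Cfsg.Agent.S1056
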