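import Cfsg.Statements.S1054
import Cfsg.Agent.Lib.Helper36.ChevSimple

set_option autoImplicit false
open Cfsg

namespace Cfsg.Agent.S1054

/-- The Chevalley groups of types D₄, F₄, E₆, E₇, E₈ are simple over every field. -/
theorem result {F : Type*} [Field F] (D : Cfsg.Lie.ChevalleyDatum)
    (hD : D ∈ [Cfsg.Lie.chevD4, Cfsg.Lie.chevF4, Cfsg.Lie.chevE6, Cfsg.Lie.chevE7, Cfsg.Lie.chevE8]) :
    IsSimpleGroup ↥(D.group F) ∧ ¬ IsMulCommutative ↥(D.group F) := by
  have hD7 : D ∈ [Cfsg.Lie.chevG2, Cfsg.Lie.chevB2, Cfsg.Lie.chevD4, Cfsg.Lie.chevF4,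
      Cfsg.Lie.chevE6, Cfsg.Lie.chevE7, Cfsg.Lie.chevE8] := by
    simp only [List.mem_cons, List.mem_nil_iff, or_false] at hD ⊢
    exact Or.inr (Or.inr hD)
  have hrank : 4 ≤ D.rank := by
    simp only [List.mem_cons, List.mem_nil_iff, or_false] at hD
    rcases hD with rfl | rfl | rfl | rfl | rfl <;> decide
  refine Cfsg.Agent.Lib.Helper36.simple_of_bnpair D hD7 (fun h => ?_)
    (Cfsg.Agent.Lib.Helper36.exists_bnpair D hD7)
  exfalso
  rcases h with rfl | rfl <;> revert hrank <;> decide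

end Cfsg.Agent.S1054
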