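import Cfsg.Statements.S2326
import Cfsg.Agent.Lib.Helper17.ChevOrder

set_option autoImplicit false
open Cfsg

namespace Cfsg.Agent.S2326

/-- In a Chevalley group of type G₂, B₂, D₄, F₄, E₆, E₇ or E₈ over a finite field of characteristic p, the subgroup U generated by the positive root elements is a Sylow p-subgroup. -/
theorem result {F : Type*} [Field F] [Fintype F] (p : ℕ) [Fact p.Prime] [CharP F p] (D : Cfsg.Lie.ChevalleyDatum) (hD : D ∈ [Cfsg.Lie.chevG2, Cfsg.Lie.chevB2, Cfsg.Lie.chevD4, Cfsg.Lie.chevF4, Cfsg.Lie.chevE6, Cfsg.Lie.chevE7, Cfsg.Lie.chevE8]) :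
    ∃ P : Sylow p ↥(D.group F), (P : Subgroup ↥(D.group F)) = (D.posUnipotent F).subgroupOf (D.group F) := by
  classical
  obtain ⟨d, degs, hdegs, hcard⟩ := Cfsg.Agent.Lib.Helper17.exists_card_group (F := F) D hD
  obtain ⟨n, -, hq⟩ := FiniteField.card F p
  have hp : p.Prime := Fact.out
  have hn : 1 ≤ (n : ℕ) := n.pos
  have hU : Nat.card (D.posUnipotent F) = Fintype.card F ^ (D.nroots / 2) :=
    Cfsg.Agent.Lib.Helper17.card_posUnipotent D hD
  have hUG : D.posUnipotent F ≤ D.group F := Cfsg.Agent.Lib.Helper18.posUnipotent_le_group D hD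
  have e1 : Nat.card ((D.posUnipotent F).subgroupOf (D.group F)) =
      p ^ ((n : ℕ) * (D.nroots / 2)) := by
    rw [Nat.card_congr (Subgroup.subgroupOfEquivOfLe hUG).toEquiv, hU, hq, pow_mul]
  have hfin : Finite (D.group F) := inferInstance
  have hgpos : Nat.card (D.group F) ≠ 0 := Nat.card_pos.ne'
  -- the product of the `q^x - 1` is prime to `p`
  have hM : ¬ p ∣ (degs.map (fun x => Fintype.card F ^ x - 1)).prod := by
    intro hdvd
    rw [Prime.dvd_prod_iff (Nat.Prime.prime hp)] at hdvd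
    obtain ⟨a, ha, hpa⟩ := hdvd
    obtain ⟨x, hx, rfl⟩ := List.mem_map.mp ha
    have hx1 := hdegs x hx
    have h1 : p ∣ Fintype.card F ^ x := by
      rw [hq, ← pow_mul]
      exact dvd_pow_self p (by positivity)
    have h2 : 1 ≤ Fintype.card F ^ x := Nat.one_le_pow _ _ Fintype.card_pos
    have h3 : p ∣ 1 := by
      have := (Nat.dvd_sub h1 hpa)
      rwa [Nat.sub_sub_self h2] at this
    exact hp.one_lt.ne' (Nat.dvd_one.mp h3)
  have hMne : (degs.map (fun x => Fintype.card F ^ x - 1)).prod ≠ 0 := fun h0 => hM (h0 ▸ dvd_zero p)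
  have hqN : Fintype.card F ^ (D.nroots / 2) ≠ 0 := pow_ne_zero _ Fintype.card_pos.ne'
  have hd0 : d ≠ 0 := by
    rintro rfl
    rw [zero_mul] at hcard
    exact mul_ne_zero hqN hMne hcard.symm
  have key : (Nat.card (D.group F)).factorization p = (n : ℕ) * (D.nroots / 2) := by
    apply le_antisymm
    · have h1 : (d * Nat.card (D.group F)).factorization p = (n : ℕ) * (D.nroots / 2) := by
        rw [hcard, Nat.factorization_mul hqN hMne, Finsupp.add_apply,
          Nat.factorization_eq_zero_of_not_dvd hM, add_zero, hq, ← pow_mul,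
          Nat.Prime.factorization_pow hp, Finsupp.single_eq_same]
      rw [Nat.factorization_mul hd0 hgpos, Finsupp.add_apply] at h1
      omega
    · rw [← Nat.Prime.pow_dvd_iff_le_factorization hp hgpos, ← e1]
      exact Subgroup.card_subgroup_dvd_card _
  exact ⟨Sylow.ofCard _ (by rw [e1, key]), Sylow.coe_ofCard _ _⟩

end Cfsg.Agent.S2326
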