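import Mathlib
import Cfsg.Statements.S0237

set_option autoImplicit false
open Cfsg

namespace Cfsg.Agent.S0237

/-- If x is real (conjugate to x⁻¹) in a finite group G, the number of g with g x g⁻¹ = x⁻¹ equals |C_G(x)|. -/
theorem result {G : Type*} [Group G] [Finite G] (x : G) (hreal : IsConj x x⁻¹) : Nat.card {g : G // g * x * g⁻¹ = x⁻¹} = Nat.card (Subgroup.centralizer ({x} : Set G)) := by
  obtain ⟨c, hc⟩ := isConj_iff.mp hreal
  refine Nat.card_congr ?_
  refine
    { toFun := fun g => ⟨c⁻¹ * g.1, ?_⟩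
      invFun := fun z => ⟨c * z.1, ?_⟩
      left_inv := fun g => by simp
      right_inv := fun z => by simp }
  · rw [Subgroup.mem_centralizer_iff]
    intro h hh
    rw [Set.mem_singleton_iff] at hh
    have hg : (g : G) * x * (g : G)⁻¹ = x⁻¹ := g.2
    have h1 : (g : G) * x = x⁻¹ * g := mul_inv_eq_iff_eq_mul.mp hg
    have h2 : c⁻¹ * x⁻¹ = x * c⁻¹ := by rw [← hc]; group
    rw [hh, ← mul_assoc, ← h2, mul_assoc, ← h1, mul_assoc]
  · have hz : x * (z : G) = z * x := Subgroup.mem_centralizer_iff.mp z.2 x rfl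
    show c * z.1 * x * (c * z.1)⁻¹ = x⁻¹
    rw [← hc, mul_assoc c, ← hz]; group

end Cfsg.Agent.S0237
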