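import Mathlib
import Cfsg.Statements.S0238
import Cfsg.Agent.S0237

set_option autoImplicit false
open Cfsg

namespace Cfsg.Agent.S0238

lemma sq_of_order_two {G : Type*} [Group G] {u : G} (hu : orderOf u = 2) : u * u = 1 := by
  rw [← pow_two, ← hu]; exact pow_orderOf_eq_one u

lemma inv_of_order_two {G : Type*} [Group G] {u : G} (hu : orderOf u = 2) : u⁻¹ = u :=
  inv_eq_of_mul_eq_one_left (sq_of_order_two hu)

lemma ne_one_of_order_two {G : Type*} [Group G] {u : G} (hu : orderOf u = 2) : u ≠ 1 := by
  intro h; rw [h, orderOf_one] at hu; omega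

lemma conj_of_pair {G : Type*} [Group G] {u v x : G} (hu : orderOf u = 2) (hv : orderOf v = 2)
    (huv : u * v = x) : u * x * u⁻¹ = x⁻¹ := by
  rw [← huv, mul_inv_rev, inv_of_order_two hu, inv_of_order_two hv, ← mul_assoc,
    sq_of_order_two hu, one_mul]

/-- For every x in a finite group G, the number c of ordered pairs (u, v) of involutions with uv = x is at most |C_G(x)|; c = 0 when x is not conjugate to x⁻¹; and c + 2 ≤ |C_G(x)| when x is an involution. -/
theorem result {G : Type*} [Group G] [Finite G] (x : G) : Nat.card {p : G × G // orderOf p.1 = 2 ∧ orderOf p.2 = 2 ∧ p.1 * p.2 = x} ≤ Nat.card (Subgroup.centralizer ({x} : Set G)) ∧ (¬ IsConj x x⁻¹ → Nat.card {p : G × G // orderOf p.1 = 2 ∧ orderOf p.2 = 2 ∧ p.1 * p.2 = x} = 0) ∧ (orderOf x = 2 → Nat.card {p : G × G // orderOf p.1 = 2 ∧ orderOf p.2 = 2 ∧ p.1 * p.2 = x} + 2 ≤ Nat.card (Subgroup.centralizer ({x} : Set G))) := by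
  classical
  have hinj : Function.Injective
      (fun p : {p : G × G // orderOf p.1 = 2 ∧ orderOf p.2 = 2 ∧ p.1 * p.2 = x} =>
        (⟨p.1.1, conj_of_pair p.2.1 p.2.2.1 p.2.2.2⟩ : {g : G // g * x * g⁻¹ = x⁻¹})) := by
    rintro ⟨⟨u, v⟩, hu, hv, huv⟩ ⟨⟨u', v'⟩, hu', hv', huv'⟩ h
    simp only [Subtype.mk.injEq] at h
    simp only at huv huv'
    subst h
    have : v = v' := mul_left_cancel (huv.trans huv'.symm)
    subst this
    rfl
  have hnr : ¬ IsConj x x⁻¹ →
      Nat.card {p : G × G // orderOf p.1 = 2 ∧ orderOf p.2 = 2 ∧ p.1 * p.2 = x} = 0 := by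
    intro hn
    have : IsEmpty {p : G × G // orderOf p.1 = 2 ∧ orderOf p.2 = 2 ∧ p.1 * p.2 = x} := by
      constructor
      rintro ⟨⟨u, v⟩, hu, hv, huv⟩
      exact hn (isConj_iff.mpr ⟨u, conj_of_pair hu hv huv⟩)
    exact Nat.card_of_isEmpty
  refine ⟨?_, hnr, ?_⟩
  · by_cases hreal : IsConj x x⁻¹
    · rw [← Cfsg.Agent.S0237.result x hreal]
      exact Nat.card_le_card_of_injective _ hinj
    · rw [hnr hreal]; exact Nat.zero_le _
  · intro hx
    have hxc : x ∈ Subgroup.centralizer ({x} : Set G) := by
      rw [Subgroup.mem_centralizer_iff]; intro h hh; rw [Set.mem_singleton_iff] at hh; rw [hh]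
    let f : Option (Option {p : G × G // orderOf p.1 = 2 ∧ orderOf p.2 = 2 ∧ p.1 * p.2 = x}) →
        Subgroup.centralizer ({x} : Set G) := fun o => match o with
      | none => 1
      | some none => ⟨x, hxc⟩
      | some (some p) => ⟨p.1.1, by
          rw [Subgroup.mem_centralizer_iff]; intro h hh; rw [Set.mem_singleton_iff] at hh; rw [hh]
          have := conj_of_pair p.2.1 p.2.2.1 p.2.2.2
          rw [inv_of_order_two hx] at this
          exact (mul_inv_eq_iff_eq_mul.mp this).symm⟩
    have hf : Function.Injective f := by
      intro a b hab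
      match a, b with
      | none, none => rfl
      | none, some none =>
        exfalso
        have : (1 : G) = x := congrArg Subtype.val hab
        exact ne_one_of_order_two hx this.symm
      | none, some (some p) =>
        exfalso
        have : (1 : G) = p.1.1 := congrArg Subtype.val hab
        exact ne_one_of_order_two p.2.1 this.symm
      | some none, none =>
        exfalso
        have : x = (1 : G) := congrArg Subtype.val hab
        exact ne_one_of_order_two hx this
      | some none, some none => rfl
      | some none, some (some p) =>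
        exfalso
        have h1 : x = p.1.1 := congrArg Subtype.val hab
        have h2 := p.2.2.2
        rw [← h1] at h2
        exact ne_one_of_order_two p.2.2.1 (mul_eq_left.mp h2)
      | some (some p), none =>
        exfalso
        have : p.1.1 = (1 : G) := congrArg Subtype.val hab
        exact ne_one_of_order_two p.2.1 this
      | some (some p), some none =>
        exfalso
        have h1 : p.1.1 = x := congrArg Subtype.val hab
        have h2 := p.2.2.2
        rw [h1] at h2
        exact ne_one_of_order_two p.2.2.1 (mul_eq_left.mp h2)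
      | some (some p), some (some q) =>
        have h1 : p.1.1 = q.1.1 := congrArg Subtype.val hab
        have h2 : p.1.2 = q.1.2 := by
          have hp := p.2.2.2
          have hq := q.2.2.2
          rw [h1] at hp
          exact mul_left_cancel (hp.trans hq.symm)
        have : p = q := Subtype.ext (Prod.ext h1 h2)
        rw [this]
    have := Nat.card_le_card_of_injective f hf
    rw [Finite.card_option, Finite.card_option] at this
    exact this

end Cfsg.Agent.S0238
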