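import Mathlib
import Cfsg.Statements.S1536
import Cfsg.Agent.Lib.Helper75.Glaub4
import Cfsg.Agent.Lib.Helper75.CliffordCorr
import Cfsg.Agent.Lib.Helper82.CharCount
import Cfsg.Agent.Lib.Helper3.Burnside

set_option autoImplicit false
open Cfsg

namespace Cfsg.Agent.S1536

open Cfsg.Agent.Lib.Helper75

theorem card_inv_inertia {M : Type*} [Group M] [Finite M] (H : Subgroup M) [hN : H.Normal]
    (s : M) (hcop : (Nat.card H).Coprime (orderOf s)) :
    Nat.card {χ : Cfsg.IrrCharacter H // s ∈ inertia H (χ : H → ℂ)} =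
      Nat.card (ConjClasses ↥(H ⊓ Subgroup.centralizer ({s} : Set M))) := by
  have hC' : ∀ c : M, c ∈ H ⊓ Subgroup.centralizer ({s} : Set M) ↔ c ∈ H ∧ c * s = s * c := by
    intro c
    rw [Subgroup.mem_inf, Subgroup.mem_centralizer_singleton_iff]
  have h1 := card_inv_irr_eq H s hcop _ hC'
  rw [← Cfsg.Agent.Lib.Helper82.card_irr_eq_card_conjClasses, ← h1]
  apply Nat.card_congr
  apply Equiv.subtypeEquivRight
  intro χ
  rw [mem_inertia_iff']
  constructor
  · intro h g
    rw [← h g]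
    congr 1
  · intro h g
    rw [← h g]
    congr 1

theorem split {M : Type*} [Group M] [Finite M] (H : Subgroup M) [hN : H.Normal]
    (hHall : Nat.Coprime (Nat.card H) H.index) (x : M) :
    ∃ k : ℕ, (Nat.card H).Coprime (orderOf (x ^ k)) ∧ x * (x ^ k)⁻¹ ∈ H := by
  have hk0 := (Nat.chineseRemainder hHall 0 1).2.1
  have hk1 := (Nat.chineseRemainder hHall 0 1).2.2
  set k : ℕ := (Nat.chineseRemainder hHall 0 1 : ℕ) with hk
  refine ⟨k, ?_, ?_⟩
  · have h1 : (x ^ k) ^ H.index = 1 := by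
      rw [← pow_mul]
      have hdvd : Nat.card M ∣ k * H.index := by
        rw [← Subgroup.card_mul_index H]
        exact Nat.mul_dvd_mul_right ((Nat.modEq_zero_iff_dvd).1 hk0) _
      obtain ⟨c, hc⟩ := hdvd
      rw [hc, pow_mul, pow_card_eq_one', one_pow]
    exact Nat.Coprime.coprime_dvd_right (orderOf_dvd_of_pow_eq_one h1) hHall
  · have h2 : (QuotientGroup.mk' H x) ^ k = (QuotientGroup.mk' H x) ^ 1 := by
      rw [pow_eq_pow_iff_modEq]
      have hdvd : orderOf (QuotientGroup.mk' H x) ∣ H.index := by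
        have := orderOf_dvd_natCard (QuotientGroup.mk' H x)
        rwa [← Subgroup.index_eq_card] at this
      exact hk1.of_dvd hdvd
    have h3 : QuotientGroup.mk' H (x * (x ^ k)⁻¹) = 1 := by
      rw [map_mul, map_inv, map_pow, h2, pow_one, mul_inv_cancel]
    exact (QuotientGroup.eq_one_iff _).1 h3

/-- Let H be a normal subgroup of the finite group M whose order is coprime to its index. For x ∈ M: some non-principal irreducible character of H is unchanged under h ↦ θ(x h x⁻¹) if and only if some non-identity element of H commutes with x. -/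
theorem result {M : Type*} [Group M] [Finite M] (H : Subgroup M) [hN : H.Normal] (hHall : Nat.Coprime (Nat.card H) H.index) (x : M) : (∃ θ : H → ℂ, Cfsg.IsIrrCharacter H θ ∧ θ ≠ (fun _ => 1) ∧ (fun h : H => θ ⟨x * h * x⁻¹, hN.conj_mem h h.2 x⟩) = θ) ↔ ∃ h ∈ H, h ≠ 1 ∧ x * h = h * x := by
  classical
  obtain ⟨k, hcop, hu⟩ := split H hHall x
  have hcount := card_inv_inertia H (x ^ k) hcop
  have hxs : ∀ θ : H → ℂ, Cfsg.IsIrrCharacter H θ →
      (x ∈ inertia H θ ↔ x ^ k ∈ inertia H θ) := by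
    intro θ hθ
    have hθcf := Cfsg.Agent.Lib.Helper3.isClassFunction_of_isCharacter
      (Cfsg.Agent.Lib.Helper3.isCharacter_of_irr hθ)
    have hHT : H ≤ inertia H θ := le_inertia H hθcf
    constructor
    · intro h; exact Subgroup.pow_mem _ h k
    · intro h
      have : x = (x * (x ^ k)⁻¹) * x ^ k := by group
      rw [this]
      exact Subgroup.mul_mem _ (hHT hu) h
  have hcommx : x * (x * (x ^ k)⁻¹) = (x * (x ^ k)⁻¹) * x := by
    have h1 : Commute x (x ^ k) := (Commute.refl x).pow_right k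
    have h2 : Commute x (x * (x ^ k)⁻¹) := (Commute.refl x).mul_right h1.inv_right
    exact h2.eq
  constructor
  · rintro ⟨θ, hθ, hθ1, hθx⟩
    have hx : x ∈ inertia H θ := by
      rw [mem_inertia_iff']
      exact fun n => congrFun hθx n
    have hs : x ^ k ∈ inertia H θ := (hxs θ hθ).1 hx
    have hone : x ^ k ∈ inertia H (fun _ : H => (1 : ℂ)) := by
      rw [mem_inertia_iff']; intro n; rfl
    have hnt : Nontrivial {χ : Cfsg.IrrCharacter H // x ^ k ∈ inertia H (χ : H → ℂ)} :=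
      ⟨⟨⟨⟨θ, hθ⟩, hs⟩, ⟨⟨_, Cfsg.Agent.Lib.Helper3.isIrrCharacter_one⟩, hone⟩, by
        intro h
        exact hθ1 (congrArg (fun t => (t.1 : H → ℂ)) h)⟩⟩
    have hlt : 1 < Nat.card {χ : Cfsg.IrrCharacter H // x ^ k ∈ inertia H (χ : H → ℂ)} :=
      Finite.one_lt_card_iff_nontrivial.2 hnt
    rw [hcount] at hlt
    have hnt2 : Nontrivial (ConjClasses ↥(H ⊓ Subgroup.centralizer ({x ^ k} : Set M))) :=
      Finite.one_lt_card_iff_nontrivial.1 hlt
    obtain ⟨c, hc⟩ : ∃ c : ↥(H ⊓ Subgroup.centralizer ({x ^ k} : Set M)), c ≠ 1 := by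
      by_contra hcon
      push Not at hcon
      obtain ⟨a, b, hab⟩ := hnt2
      apply hab
      obtain ⟨a', rfl⟩ := ConjClasses.mk_surjective a
      obtain ⟨b', rfl⟩ := ConjClasses.mk_surjective b
      rw [hcon a', hcon b']
    obtain ⟨c0, hcH, hcs, hc1⟩ : ∃ c0 : M, c0 ∈ H ∧ c0 * x ^ k = x ^ k * c0 ∧ c0 ≠ 1 :=
      ⟨c, c.2.1, Subgroup.mem_centralizer_singleton_iff.1 c.2.2, fun h => hc (Subtype.ext h)⟩
    by_cases hu1 : x * (x ^ k)⁻¹ = 1
    · have hxk : x = x ^ k := by
        have : x = (x * (x ^ k)⁻¹) * x ^ k := by group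
        rw [hu1, one_mul] at this
        exact this
      refine ⟨c0, hcH, hc1, ?_⟩
      rw [hxk]; exact hcs.symm
    · exact ⟨x * (x ^ k)⁻¹, hu, hu1, hcommx⟩
  · rintro ⟨h, hhH, hh1, hxh⟩
    have hhs : h * x ^ k = x ^ k * h := by
      have h1 : Commute h x := hxh.symm
      exact (h1.pow_right k).eq
    have hhC : h ∈ H ⊓ Subgroup.centralizer ({x ^ k} : Set M) :=
      ⟨hhH, Subgroup.mem_centralizer_singleton_iff.2 hhs⟩
    have hnt2 : Nontrivial (ConjClasses ↥(H ⊓ Subgroup.centralizer ({x ^ k} : Set M))) := by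
      refine ⟨⟨ConjClasses.mk ⟨h, hhC⟩, ConjClasses.mk 1, ?_⟩⟩
      intro heq
      have h1 : IsConj (1 : ↥(H ⊓ Subgroup.centralizer ({x ^ k} : Set M))) ⟨h, hhC⟩ :=
        (ConjClasses.mk_eq_mk_iff_isConj.1 heq).symm
      rw [isConj_one_right] at h1
      exact hh1 (congrArg Subtype.val h1)
    have hlt : 1 < Nat.card (ConjClasses ↥(H ⊓ Subgroup.centralizer ({x ^ k} : Set M))) :=
      Finite.one_lt_card_iff_nontrivial.2 hnt2
    rw [← hcount] at hlt
    obtain ⟨a, b, hab⟩ := Finite.one_lt_card_iff_nontrivial.1 hlt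
    have hex : ∃ χ : {χ : Cfsg.IrrCharacter H // x ^ k ∈ inertia H (χ : H → ℂ)},
        ((χ : Cfsg.IrrCharacter H) : H → ℂ) ≠ (fun _ => 1) := by
      by_contra hcon
      push Not at hcon
      apply hab
      apply Subtype.ext
      apply Subtype.ext
      rw [hcon a, hcon b]
    obtain ⟨χ, hχ⟩ := hex
    refine ⟨(χ : Cfsg.IrrCharacter H), χ.1.2, hχ, ?_⟩
    have hx : x ∈ inertia H ((χ : Cfsg.IrrCharacter H) : H → ℂ) := (hxs _ χ.1.2).2 χ.2
    rw [mem_inertia_iff'] at hx
    exact funext hx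

end Cfsg.Agent.S1536
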