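import Cfsg.Statements.S0824
import Cfsg.Agent.Lib.Helper43.OrthMinus
import Cfsg.Agent.Lib.Helper43.OrthIso
-- import your own Cfsg.Agent.* helpers here

set_option autoImplicit false
open Cfsg
open Cfsg.Agent.Lib.Helper43

namespace Cfsg.Agent.S0824

/-- O⁻_4(2) ≅ S_5: the isometry group of the form x y + z_1² + z_1 z_2 + z_2² over the field with 2 elements is isomorphic to the symmetric group on 5 letters. -/
theorem result {F : Type*} [Field F] [Fintype F] (hF : Fintype.card F = 2) : Nonempty (↥(Cfsg.isometryGroup F (Cfsg.quadFormMinus 1 F 1 1)) ≃* Equiv.Perm (Fin 5)) := by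
  classical
  have h2 : (2 : F) = 0 := by
    have := Nat.cast_card_eq_zero F
    rw [hF] at this
    exact_mod_cast this
  have h11 : (1 : F) + 1 = 0 := by rw [one_add_one_eq_two]; exact h2
  have h01 : ∀ x : F, x = 0 ∨ x = 1 := by
    intro x
    by_contra hx
    push Not at hx
    have hcard : ({0, 1, x} : Finset F).card = 3 := by
      rw [Finset.card_insert_of_notMem, Finset.card_insert_of_notMem, Finset.card_singleton]
      · rw [Finset.mem_singleton]
        exact fun h => hx.2 h.symm
      · rw [Finset.mem_insert, Finset.mem_singleton]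
        rintro (h | h)
        · exact zero_ne_one h
        · exact hx.1 h.symm
    have := Finset.card_le_univ ({0, 1, x} : Finset F)
    rw [hcard, hF] at this
    omega
  have hab : ∀ z₁ z₂ : F, z₁ ^ 2 + 1 * z₁ * z₂ + 1 * z₂ ^ 2 = 0 → z₁ = 0 ∧ z₂ = 0 := by
    intro z₁ z₂ h
    rcases h01 z₁ with rfl | rfl <;> rcases h01 z₂ with rfl | rfl
    · exact ⟨rfl, rfl⟩
    · exfalso
      simp at h
    · exfalso
      simp at h
    · exfalso
      have : (1 : F) = 0 := by linear_combination h - h11
      exact one_ne_zero this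
  have hG : Nat.card (isoGroup (qMinus (1 : F) 1 1)) = 120 := by
    have := isoCard_minusTower (1 : F) 1 hab 1
    rw [← isoCard_qMinus, hF] at this
    show isoCard (qMinus (1 : F) 1 1) = 120
    rw [this]
    norm_num [Finset.prod_range_succ]
  have hZ : zeros (qMinus (1 : F) 1 1) = 6 := by
    have h1 := zeros_qGen_succ (qBin (1 : F) 1) 0
    rw [zeros_qGen_zero, zeros_qBin 1 1 hab, hF, Fintype.card_fin] at h1
    have h3 : zeros (qMinus (1 : F) 1 1) = zeros (qGen (qBin (1 : F) 1) 1) :=
      zeros_congr _ _ (LinearEquiv.funCongrLeft F F (Equiv.sumComm (Fin 2) (Fin 1 ⊕ Fin 1)))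
        (fun _ => rfl)
    rw [h3, h1]
    norm_num
  have hS : Nat.card {v : (Fin 1 ⊕ Fin 1) ⊕ Fin 2 → F // v ≠ 0 ∧ qMinus (1 : F) 1 1 v = 0} = 5 := by
    rw [card_sing, hZ]
  have hinj : Function.Injective (singPerm (qMinus (1 : F) 1 1)) := by
    rw [injective_iff_map_eq_one]
    intro g hg
    have hfix : ∀ v : (Fin 1 ⊕ Fin 1) ⊕ Fin 2 → F, v ≠ 0 → qMinus (1 : F) 1 1 v = 0 → g.1 v = v := by
      intro v hv0 hv
      have := congrArg (fun σ : Equiv.Perm {v : (Fin 1 ⊕ Fin 1) ⊕ Fin 2 → F //
        v ≠ 0 ∧ qMinus (1 : F) 1 1 v = 0} => (σ ⟨v, hv0, hv⟩ : (Fin 1 ⊕ Fin 1) ⊕ Fin 2 → F)) hg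
      exact this
    have he : g.1 (Pi.single (Sum.inl (Sum.inl 0)) 1) = Pi.single (Sum.inl (Sum.inl 0)) 1 := by
      apply hfix
      · intro h
        have := congrFun h (Sum.inl (Sum.inl 0))
        simp at this
      · rw [qMinus_apply]
        simp [Cfsg.quadFormMinus]
    have hf : g.1 (Pi.single (Sum.inl (Sum.inr 0)) 1) = Pi.single (Sum.inl (Sum.inr 0)) 1 := by
      apply hfix
      · intro h
        have := congrFun h (Sum.inl (Sum.inr 0))
        simp at this
      · rw [qMinus_apply]
        simp [Cfsg.quadFormMinus]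
    have hz1 : g.1 (Pi.single (Sum.inr 0) 1) = Pi.single (Sum.inr 0) 1 := by
      have h3 := hfix (Pi.single (Sum.inl (Sum.inl 0)) 1 + Pi.single (Sum.inl (Sum.inr 0)) 1
          + Pi.single (Sum.inr 0) 1)
        (by
          intro h
          have := congrFun h (Sum.inr 0)
          simp at this)
        (by
          rw [qMinus_apply]
          simp [Cfsg.quadFormMinus]
          exact h11)
      rw [map_add, map_add, he, hf] at h3
      exact add_left_cancel h3
    have hz2 : g.1 (Pi.single (Sum.inr 1) 1) = Pi.single (Sum.inr 1) 1 := by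
      have h3 := hfix (Pi.single (Sum.inl (Sum.inl 0)) 1 + Pi.single (Sum.inl (Sum.inr 0)) 1
          + Pi.single (Sum.inr 1) 1)
        (by
          intro h
          have := congrFun h (Sum.inr 1)
          simp at this)
        (by
          rw [qMinus_apply]
          simp [Cfsg.quadFormMinus]
          exact h11)
      rw [map_add, map_add, he, hf] at h3
      exact add_left_cancel h3
    have hall : ∀ i : (Fin 1 ⊕ Fin 1) ⊕ Fin 2, g.1 (Pi.single i 1) = Pi.single i 1 := by
      rintro ((i | i) | i)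
      · rw [Subsingleton.elim i 0]
        exact he
      · rw [Subsingleton.elim i 0]
        exact hf
      · fin_cases i
        · exact hz1
        · exact hz2
    apply Subtype.ext
    apply LinearEquiv.toLinearMap_injective
    apply LinearMap.pi_ext
    intro i x
    have hx : (Pi.single i x : (Fin 1 ⊕ Fin 1) ⊕ Fin 2 → F) = x • Pi.single i 1 := by
      rw [← Pi.single_smul, smul_eq_mul, mul_one]
    show g.1 (Pi.single i x) = Pi.single i x
    rw [hx, map_smul, hall]
  have hbij : Function.Bijective (singPerm (qMinus (1 : F) 1 1)) :=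
    hinj.bijective_of_nat_card_le (by rw [Nat.card_perm, hS, hG]; decide)
  have hS' : Fintype.card {v : (Fin 1 ⊕ Fin 1) ⊕ Fin 2 → F // v ≠ 0 ∧ qMinus (1 : F) 1 1 v = 0} = 5 := by
    rw [← Nat.card_eq_fintype_card]
    exact hS
  exact ⟨(isoMulEquiv _ (qMinus (1 : F) 1 1) (qMinus_apply 1 1 1)).trans
    ((MulEquiv.ofBijective (singPerm (qMinus (1 : F) 1 1)) hbij).trans
      (Equiv.permCongrHom (Fintype.equivFinOfCardEq hS')))⟩

end Cfsg.Agent.S0824
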