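import Cfsg.Statements.S2573

set_option autoImplicit false
open Cfsg

namespace Cfsg.Agent.S2573

open Module in
/-- kernel dimension of a composite -/
theorem finrank_ker_comp_le {K V : Type*} [Field K] [AddCommGroup V] [Module K V]
    [FiniteDimensional K V] (f g : V →ₗ[K] V) :
    finrank K (LinearMap.ker (f ∘ₗ g)) ≤ finrank K (LinearMap.ker f) + finrank K (LinearMap.ker g) := by
  -- restrict g to ker (f ∘ g), landing in ker f
  let g' : LinearMap.ker (f ∘ₗ g) →ₗ[K] LinearMap.ker f :=
    (g.domRestrict (LinearMap.ker (f ∘ₗ g))).codRestrict (LinearMap.ker f) (by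
      intro x
      exact LinearMap.mem_ker.mp x.2)
  have h1 := g'.finrank_range_add_finrank_ker
  have h2 : finrank K (LinearMap.range g') ≤ finrank K (LinearMap.ker f) :=
    Submodule.finrank_le _
  have h3 : finrank K (LinearMap.ker g') ≤ finrank K (LinearMap.ker g) := by
    let ι : LinearMap.ker g' →ₗ[K] LinearMap.ker g :=
      ((LinearMap.ker (f ∘ₗ g)).subtype.domRestrict (LinearMap.ker g')).codRestrict
        (LinearMap.ker g) (by
          intro x
          have hx := x.2
          rw [LinearMap.mem_ker] at hx
          exact congrArg Subtype.val hx)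
    have hinj : Function.Injective ι := by
      intro x y hxy
      have := congrArg Subtype.val hxy
      simp only [ι] at this
      exact Subtype.ext (Subtype.ext this)
    exact LinearMap.finrank_le_finrank_of_injective hinj
  omega

open Module in
theorem finrank_ker_pow_le {K V : Type*} [Field K] [AddCommGroup V] [Module K V]
    [FiniteDimensional K V] (T : V →ₗ[K] V) (h : finrank K (LinearMap.ker T) ≤ 1) (k : ℕ) :
    finrank K (LinearMap.ker (T ^ k)) ≤ k := by
  induction k with
  | zero =>
    have : LinearMap.ker (T ^ 0) = ⊥ := by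
      rw [pow_zero]; exact LinearMap.ker_id
    rw [this]; simp
  | succ k ih =>
    have := finrank_ker_comp_le T (T ^ k)
    rw [pow_succ']
    have h2 : T * T ^ k = T ∘ₗ T ^ k := rfl
    rw [h2]
    omega

open Module in
theorem invariant_eq_ker {K V : Type*} [Field K] [AddCommGroup V] [Module K V]
    [FiniteDimensional K V] (T : V →ₗ[K] V) (hT : IsNilpotent T)
    (h : finrank K (LinearMap.ker T) ≤ 1)
    (W : Submodule K V) (hW : ∀ v ∈ W, T v ∈ W) :
    W = LinearMap.ker (T ^ finrank K W) := by
  have hle : W ≤ LinearMap.ker (T ^ finrank K W) := by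
    let TW : W →ₗ[K] W := T.restrict hW
    have hTWnil : IsNilpotent TW := by
      obtain ⟨n, hn⟩ := hT
      refine ⟨n, ?_⟩
      ext x
      have : ((TW ^ n) x : V) = (T ^ n) x := by
        rw [Module.End.pow_restrict n hW]
        rfl
      simp [this, hn]
    have hTWd : TW ^ finrank K W = 0 := by
      have h1 := IsNilpotent.charpoly_eq_X_pow_finrank hTWnil
      have h2 := TW.aeval_self_charpoly
      rw [h1] at h2
      simpa using h2
    intro x hx
    rw [LinearMap.mem_ker]
    have : ((TW ^ finrank K W) ⟨x, hx⟩ : V) = (T ^ finrank K W) x := by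
      rw [Module.End.pow_restrict (finrank K W) hW]
      rfl
    rw [← this, hTWd]
    rfl
  exact Submodule.eq_of_le_of_finrank_le hle (finrank_ker_pow_le T h _)

/-- The invariant subspaces of a regular unipotent matrix form a chain: over a finite field, if u is an n × n matrix with (u − 1)^n = 0 and rank(u − 1) = n − 1, then every subspace W of F^n with u W ⊆ W is the kernel of (u − 1)^(dim W); so u has at most one invariant subspace of each dimension. -/
theorem result {F : Type*} [Field F] [Finite F] {n : ℕ} (u : Matrix (Fin n) (Fin n) F) (hnil : (u - 1) ^ n = 0) (hreg : (u - 1).rank = n - 1) (W : Submodule F (Fin n → F)) (hW : ∀ v ∈ W, u.mulVec v ∈ W) : W = LinearMap.ker (Matrix.mulVecLin ((u - 1) ^ Module.finrank F W)) := by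
  have hpow : ∀ k, Matrix.mulVecLin ((u - 1) ^ k) = (Matrix.mulVecLin (u - 1)) ^ k := by
    intro k
    induction k with
    | zero => simp [Matrix.mulVecLin_one]; rfl
    | succ k ih => rw [pow_succ, Matrix.mulVecLin_mul, ih, pow_succ]; rfl
  rw [hpow]
  apply invariant_eq_ker
  · refine ⟨n, ?_⟩
    rw [← hpow, hnil]
    simp
  · have h1 := (Matrix.mulVecLin (u - 1)).finrank_range_add_finrank_ker
    have h2 : Module.finrank F (LinearMap.range (Matrix.mulVecLin (u - 1))) = n - 1 := hreg
    simp only [Module.finrank_pi, Fintype.card_fin] at h1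
    omega
  · intro v hv
    have : Matrix.mulVecLin (u - 1) v = u.mulVec v - v := by
      simp
    rw [this]
    exact W.sub_mem (hW v hv) hv

end Cfsg.Agent.S2573
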