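import Mathlib
import Cfsg.Statements.S4212
import Cfsg.Agent.Lib.Helper70.Frattini

set_option autoImplicit false
open Cfsg

namespace Cfsg.Agent.S4212

universe u

/-! ### Counting by fibres -/

theorem card_eq_sum_fiber {α β : Type*} [Finite α] [Fintype β] (f : α → β) :
    Nat.card α = ∑ b : β, Nat.card {a : α // f a = b} := by
  rw [← Nat.card_sigma]
  exact Nat.card_congr (Equiv.sigmaFiberEquiv f).symm

theorem dvd_card_of_fiber {α β : Type*} [Finite α] [Finite β] (f : α → β) (d : ℕ)
    (h : ∀ b, d ∣ Nat.card {a : α // f a = b}) : d ∣ Nat.card α := by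
  have := Fintype.ofFinite β
  rw [card_eq_sum_fiber f]
  exact Finset.dvd_sum (fun b _ => h b)

theorem card_eq_mul_of_fiber {α β : Type*} [Finite α] [Finite β] (f : α → β) (m : ℕ)
    (h : ∀ b, Nat.card {a : α // f a = b} = m) : Nat.card α = Nat.card β * m := by
  have := Fintype.ofFinite β
  rw [card_eq_sum_fiber f, Finset.sum_congr rfl (fun b _ => h b), Finset.sum_const,
    Finset.card_univ, smul_eq_mul, Nat.card_eq_fintype_card]

/-! ### Conjugacy classes -/

theorem card_class_mul {G : Type*} [Group G] [Finite G] (c : G) :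
    Nat.card G = Nat.card {y : G // IsConj c y} *
      Nat.card (Subgroup.centralizer ({c} : Set G)) := by
  apply card_eq_mul_of_fiber
    (fun g : G => (⟨g * c * g⁻¹, isConj_iff.mpr ⟨g, rfl⟩⟩ : {y : G // IsConj c y}))
  rintro ⟨y, hy⟩
  obtain ⟨g₀, hg₀⟩ := isConj_iff.mp hy
  apply Nat.card_congr
  refine
    { toFun := fun a => ⟨g₀⁻¹ * a.1, ?_⟩
      invFun := fun z => ⟨g₀ * z.1, ?_⟩
      left_inv := fun a => Subtype.ext (by simp)
      right_inv := fun z => Subtype.ext (by simp) }
  · rw [Subgroup.mem_centralizer_iff]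
    intro h hh
    rw [Set.mem_singleton_iff] at hh
    subst hh
    have ha : a.1 * h * a.1⁻¹ = y := congrArg Subtype.val a.2
    have h3 : a.1 * h * a.1⁻¹ = g₀ * h * g₀⁻¹ := ha.trans hg₀.symm
    calc h * (g₀⁻¹ * a.1) = g₀⁻¹ * (g₀ * h * g₀⁻¹) * a.1 := by group
      _ = g₀⁻¹ * (a.1 * h * a.1⁻¹) * a.1 := by rw [h3]
      _ = g₀⁻¹ * a.1 * h := by group
  · apply Subtype.ext
    show g₀ * z.1 * c * (g₀ * z.1)⁻¹ = y
    have hz : c * z.1 = z.1 * c := Subgroup.mem_centralizer_iff.mp z.2 c rfl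
    calc g₀ * z.1 * c * (g₀ * z.1)⁻¹ = g₀ * (z.1 * c) * z.1⁻¹ * g₀⁻¹ := by group
      _ = g₀ * (c * z.1) * z.1⁻¹ * g₀⁻¹ := by rw [hz]
      _ = g₀ * c * g₀⁻¹ := by group
      _ = y := hg₀

theorem class_fib {G : Type*} [Group G] [Finite G] (R : G → G → Prop)
    (hR : ∀ g y z, R y z → R (g * y * g⁻¹) (g * z * g⁻¹)) (y₀ : G) :
    Nat.card {w : G × G // IsConj y₀ w.1 ∧ R w.1 w.2}
      = Nat.card {y : G // IsConj y₀ y} * Nat.card {z : G // R y₀ z} := by
  apply card_eq_mul_of_fiber
    (fun w : {w : G × G // IsConj y₀ w.1 ∧ R w.1 w.2} => (⟨w.1.1, w.2.1⟩ : {y : G // IsConj y₀ y}))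
  rintro ⟨y, hy⟩
  obtain ⟨g, hg⟩ := isConj_iff.mp hy
  apply Nat.card_congr
  refine
    { toFun := fun a => ⟨g⁻¹ * a.1.1.2 * g, ?_⟩
      invFun := fun z => ⟨⟨(y, g * z.1 * g⁻¹), ⟨hy, ?_⟩⟩, rfl⟩
      left_inv := ?_
      right_inv := ?_ }
  · have h1 : a.1.1.1 = y := congrArg Subtype.val a.2
    have h2 := hR g⁻¹ _ _ a.1.2.2
    have e1 : g⁻¹ * a.1.1.1 * g⁻¹⁻¹ = y₀ := by
      rw [h1, ← hg]
      group
    have e2 : g⁻¹ * a.1.1.2 * g⁻¹⁻¹ = g⁻¹ * a.1.1.2 * g := by group
    rw [e1, e2] at h2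
    exact h2
  · have h2 := hR g _ _ z.2
    rw [hg] at h2
    exact h2
  · rintro ⟨⟨⟨y', z'⟩, hw⟩, ha⟩
    have h1 : y' = y := congrArg Subtype.val ha
    subst h1
    apply Subtype.ext
    apply Subtype.ext
    show (y', g * (g⁻¹ * z' * g) * g⁻¹) = (y', z')
    congr 1
    group
  · intro z
    apply Subtype.ext
    show g⁻¹ * (g * z.1 * g⁻¹) * g = z.1
    group

/-! ### Cyclic subgroups and `p`-power cosets -/

theorem nt1 {p e o : ℕ} (hp : p.Prime) (h : p ∣ o / Nat.gcd o (p ^ e)) :
    Nat.gcd o (p ^ e) = p ^ e := by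
  obtain ⟨j, hj, hg⟩ := (Nat.dvd_prime_pow hp).mp (Nat.gcd_dvd_right o (p ^ e))
  rw [hg] at h ⊢
  by_contra hne
  have hjlt : j < e := lt_of_le_of_ne hj (fun h' => hne (by rw [h']))
  have h1 : p ^ j ∣ o := hg ▸ Nat.gcd_dvd_left o (p ^ e)
  have h2 : p ^ (j + 1) ∣ o := by
    obtain ⟨t, ht⟩ := h
    have h3 : o = p ^ j * (o / p ^ j) := (Nat.mul_div_cancel' h1).symm
    rw [h3, ht, pow_succ]
    exact ⟨t, by ring⟩
  have h3 : p ^ (j + 1) ∣ Nat.gcd o (p ^ e) := Nat.dvd_gcd h2 (pow_dvd_pow p hjlt)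
  rw [hg] at h3
  have h4 := Nat.le_of_dvd (pow_pos hp.pos j) h3
  have h5 : p ^ j < p ^ (j + 1) := Nat.pow_lt_pow_right hp.one_lt (Nat.lt_succ_self j)
  omega

theorem zpowers_mul_eq {G : Type*} [Group G] [Finite G] {p e : ℕ} (hp : p.Prime) (x u : G)
    (h1 : p ^ (e + 1) ∣ orderOf x) (hu : u ∈ Subgroup.zpowers x) (hue : u ^ p ^ e = 1) :
    Subgroup.zpowers (x * u) = Subgroup.zpowers x := by
  have hle : Subgroup.zpowers (x * u) ≤ Subgroup.zpowers x := by
    rw [Subgroup.zpowers_le]
    exact Subgroup.mul_mem _ (Subgroup.mem_zpowers x) hu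
  apply Subgroup.eq_of_le_of_card_ge hle
  rw [Nat.card_zpowers, Nat.card_zpowers]
  have hcomm : Commute x u := by
    obtain ⟨k, rfl⟩ := Subgroup.mem_zpowers_iff.mp hu
    exact (Commute.refl x).zpow_right k
  have hpe : p ^ e ∣ orderOf x := (pow_dvd_pow p (Nat.le_succ e)).trans h1
  have hpow : (x * u) ^ p ^ e = x ^ p ^ e := by rw [hcomm.mul_pow, hue, mul_one]
  have ho1 : orderOf (x ^ p ^ e) = orderOf x / p ^ e :=
    orderOf_pow_of_dvd (pow_ne_zero e hp.ne_zero) hpe
  have ho2 : orderOf ((x * u) ^ p ^ e) = orderOf (x * u) / Nat.gcd (orderOf (x * u)) (p ^ e) :=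
    orderOf_pow' _ (pow_ne_zero e hp.ne_zero)
  rw [hpow, ho1] at ho2
  have hdvd : p ∣ orderOf x / p ^ e := by
    obtain ⟨t, ht⟩ := h1
    rw [ht, pow_succ, mul_assoc, Nat.mul_div_cancel_left _ (pow_pos hp.pos e)]
    exact Dvd.intro _ rfl
  have hg := nt1 hp (ho2 ▸ hdvd)
  rw [hg] at ho2
  have hpe' : p ^ e ∣ orderOf (x * u) := hg ▸ Nat.gcd_dvd_left _ _
  have h3 : orderOf x = orderOf (x * u) := by
    rw [← Nat.div_mul_cancel hpe, ← Nat.div_mul_cancel hpe', ho2]
  rw [h3]

theorem lemmaP {G : Type*} [Group G] [Finite G] (p e : ℕ) (hp : p.Prime) (S : Set G)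
    (h1 : ∀ x ∈ S, p ^ (e + 1) ∣ orderOf x)
    (h2 : ∀ x ∈ S, ∀ u ∈ Subgroup.zpowers x, u ^ p ^ e = 1 → x * u ∈ S) :
    p ^ e ∣ Nat.card S := by
  apply dvd_card_of_fiber (fun x : S => Subgroup.zpowers (x : G))
  intro C
  by_cases hne : Nonempty {a : S // Subgroup.zpowers (a : G) = C}
  · obtain ⟨⟨⟨x₀, hx₀S⟩, hx₀C⟩⟩ := hne
    obtain ⟨w, hw⟩ : ∃ w, w = x₀ ^ (orderOf x₀ / p ^ e) := ⟨_, rfl⟩
    have hpe : p ^ e ∣ orderOf x₀ := (pow_dvd_pow p (Nat.le_succ e)).trans (h1 x₀ hx₀S)
    have hwC : w ∈ C := by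
      rw [← hx₀C, hw]
      exact Subgroup.pow_mem _ (Subgroup.mem_zpowers x₀) _
    have hwe : w ^ p ^ e = 1 := by
      rw [hw, ← pow_mul, Nat.div_mul_cancel hpe, pow_orderOf_eq_one]
    have hpos : 0 < orderOf x₀ := orderOf_pos x₀
    have hword : orderOf w = p ^ e := by
      have hne0 : orderOf x₀ / p ^ e ≠ 0 := by
        have h3 := Nat.div_pos (Nat.le_of_dvd hpos hpe) (pow_pos hp.pos e)
        omega
      rw [hw, orderOf_pow_of_dvd hne0 (Nat.div_dvd_of_dvd hpe), Nat.div_div_self hpe hpos.ne']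
    have hU : ∀ u ∈ Subgroup.zpowers w, u ∈ C ∧ u ^ p ^ e = 1 := by
      intro u hu
      obtain ⟨j, rfl⟩ := Subgroup.mem_zpowers_iff.mp hu
      refine ⟨Subgroup.zpow_mem _ hwC j, ?_⟩
      rw [← zpow_natCast, ← zpow_mul, mul_comm, zpow_mul, zpow_natCast, hwe, one_zpow]
    have hU' : ∀ (u : Subgroup.zpowers w) (a : {a : S // Subgroup.zpowers (a : G) = C}),
        (u : G)⁻¹ ∈ Subgroup.zpowers (a.1 : G) ∧ ((u : G)⁻¹) ^ p ^ e = 1 := by
      intro u a
      refine ⟨?_, ?_⟩
      · rw [a.2]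
        exact C.inv_mem (hU u u.2).1
      · rw [inv_pow, (hU u u.2).2, inv_one]
    let _ : MulAction (Subgroup.zpowers w) {a : S // Subgroup.zpowers (a : G) = C} :=
      { smul := fun u a => ⟨⟨a.1.1 * (u : G)⁻¹, h2 a.1.1 a.1.2 _ (hU' u a).1 (hU' u a).2⟩, by
            show Subgroup.zpowers (a.1.1 * (u : G)⁻¹) = C
            rw [zpowers_mul_eq hp _ _ (h1 a.1.1 a.1.2) (hU' u a).1 (hU' u a).2]
            exact a.2⟩
        one_smul := fun a => Subtype.ext (Subtype.ext (by
          show a.1.1 * ((1 : Subgroup.zpowers w) : G)⁻¹ = a.1.1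
          simp))
        mul_smul := fun u v a => Subtype.ext (Subtype.ext (by
          show a.1.1 * ((u * v : Subgroup.zpowers w) : G)⁻¹ = a.1.1 * (v : G)⁻¹ * (u : G)⁻¹
          simp [mul_assoc])) }
    have hfree : ∀ a : {a : S // Subgroup.zpowers (a : G) = C},
        MulAction.stabilizer (Subgroup.zpowers w) a = ⊥ := by
      intro a
      rw [eq_bot_iff]
      intro u hu
      rw [MulAction.mem_stabilizer_iff] at hu
      have h3 : a.1.1 * (u : G)⁻¹ = a.1.1 := congrArg (fun b => b.1.1) hu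
      rw [Subgroup.mem_bot]
      apply Subtype.ext
      have h4 : (u : G)⁻¹ = 1 := mul_eq_left.mp h3
      rw [inv_eq_one] at h4
      exact h4
    have hdvd := Cfsg.Agent.Lib.Helper70.card_dvd_of_free hfree
    rw [Nat.card_zpowers, hword] at hdvd
    exact hdvd
  · rw [not_nonempty_iff] at hne
    rw [Nat.card_of_isEmpty]
    exact dvd_zero _

/-! ### Quotient by a central subgroup of coprime order -/

theorem lemmaQ {G : Type*} [Group G] [Finite G] (Z : Subgroup G) [Z.Normal]
    (hZc : ∀ z ∈ Z, ∀ g : G, g * z = z * g) (k : ℕ) (hk : (Nat.card Z).Coprime k) :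
    Nat.card {x : G ⧸ Z // x ^ k = 1} = Nat.card {x : G // x ^ k = 1} := by
  symm
  apply Nat.card_congr
  apply Equiv.ofBijective (fun x : {x : G // x ^ k = 1} =>
    (⟨(QuotientGroup.mk x.1 : G ⧸ Z), by rw [← QuotientGroup.mk_pow, x.2]; rfl⟩ :
      {x : G ⧸ Z // x ^ k = 1}))
  constructor
  · rintro ⟨x, hx⟩ ⟨x', hx'⟩ h
    have h1 : (QuotientGroup.mk x : G ⧸ Z) = QuotientGroup.mk x' := congrArg Subtype.val h
    rw [QuotientGroup.eq] at h1
    apply Subtype.ext
    show x = x'
    have hc : Commute x (x⁻¹ * x') := hZc _ h1 x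
    have h2 : (x⁻¹ * x') ^ k = 1 := by
      have e : x' = x * (x⁻¹ * x') := by group
      have h3 : (x * (x⁻¹ * x')) ^ k = 1 := by
        rw [← e]
        exact hx'
      rw [hc.mul_pow, hx, one_mul] at h3
      exact h3
    have h4 : orderOf (x⁻¹ * x') ∣ Nat.card Z := by
      have h5 := orderOf_dvd_natCard (⟨x⁻¹ * x', h1⟩ : Z)
      rwa [Subgroup.orderOf_mk] at h5
    have h5 : orderOf (x⁻¹ * x') ∣ k := orderOf_dvd_of_pow_eq_one h2
    have h6 : orderOf (x⁻¹ * x') = 1 := Nat.eq_one_of_dvd_coprimes hk h4 h5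
    have h7 := orderOf_eq_one_iff.mp h6
    exact inv_mul_eq_one.mp h7
  · rintro ⟨q, hq⟩
    induction q using QuotientGroup.induction_on with
    | H x =>
      have h1 : x ^ k ∈ Z := by
        rw [← QuotientGroup.eq_one_iff, QuotientGroup.mk_pow]
        exact hq
      have hcop : k.Coprime (orderOf (x ^ k)) := by
        have h5 : orderOf (x ^ k) ∣ Nat.card Z := by
          have h6 := orderOf_dvd_natCard (⟨x ^ k, h1⟩ : Z)
          rwa [Subgroup.orderOf_mk] at h6
        exact (Nat.Coprime.coprime_dvd_left h5 hk).symm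
      obtain ⟨m, hm⟩ := exists_pow_eq_self_of_coprime hcop
      have hz : ((x ^ k) ^ m) ^ k = x ^ k := by
        rw [pow_right_comm]
        exact hm
      have hzZ : (x ^ k) ^ m ∈ Z := Z.pow_mem h1 m
      refine ⟨⟨x * ((x ^ k) ^ m)⁻¹, ?_⟩, ?_⟩
      · have hc : Commute x ((x ^ k) ^ m)⁻¹ :=
          (((Commute.refl x).pow_right k).pow_right m).inv_right
        rw [hc.mul_pow, inv_pow, hz, mul_inv_cancel]
      · apply Subtype.ext
        show (QuotientGroup.mk (x * ((x ^ k) ^ m)⁻¹) : G ⧸ Z) = QuotientGroup.mk x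
        rw [QuotientGroup.eq]
        have e : (x * ((x ^ k) ^ m)⁻¹)⁻¹ * x = (x ^ k) ^ m := by
          rw [mul_inv_rev, inv_inv, inv_mul_cancel_right]
        rw [e]
        exact hzZ

theorem card_split {α : Type*} [Finite α] (P Q : α → Prop) (hPQ : ∀ a, P a → Q a) :
    Nat.card {a // Q a} = Nat.card {a // P a} + Nat.card {a // Q a ∧ ¬ P a} := by
  classical
  have := Fintype.ofFinite α
  rw [Nat.card_eq_fintype_card, Nat.card_eq_fintype_card, Nat.card_eq_fintype_card,
    Fintype.card_subtype, Fintype.card_subtype, Fintype.card_subtype]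
  have h := Finset.card_filter_add_card_filter_not (s := Finset.univ.filter Q) P
  rw [Finset.filter_filter, Finset.filter_filter] at h
  have e1 : (Finset.univ.filter fun a => Q a ∧ P a) = Finset.univ.filter P := by
    ext a
    simp only [Finset.mem_filter, Finset.mem_univ, true_and]
    exact ⟨fun h => h.2, fun h => ⟨hPQ a h, h⟩⟩
  rw [e1] at h
  rw [← h]

theorem pow_of_modEq {G : Type*} [Group G] (x : G) (N m m' : ℕ) (hx : x ^ N = 1)
    (h : m ≡ m' [MOD N]) : x ^ m = x ^ m' :=
  pow_eq_pow_iff_modEq.mpr (h.of_dvd (orderOf_dvd_of_pow_eq_one hx))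

theorem nt2 {p a k o : ℕ} (hp : p.Prime) (hk : ¬ p ∣ k) (ho : o ∣ p ^ (a + 1) * k)
    (hno : ¬ o ∣ p ^ a * k) : p ^ (a + 1) ∣ o := by
  by_contra hcon
  apply hno
  have ho0 : o ≠ 0 := by
    rintro rfl
    rw [zero_dvd_iff] at ho
    have h1 : p ^ (a + 1) ≠ 0 := pow_ne_zero _ hp.ne_zero
    have h2 : k ≠ 0 := by
      rintro rfl
      exact hk (dvd_zero p)
    exact (mul_ne_zero h1 h2) ho
  obtain ⟨j, t, ht, hjt⟩ := Nat.exists_eq_pow_mul_and_not_dvd ho0 p hp.ne_one
  have hj : j ≤ a := by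
    by_contra hja
    apply hcon
    rw [hjt]
    exact (pow_dvd_pow p (by omega)).trans (Dvd.intro _ rfl)
  have htk : t ∣ k := by
    have h1 : t ∣ p ^ (a + 1) * k := (Dvd.intro_left _ hjt.symm).trans ho
    have hcop : Nat.Coprime t (p ^ (a + 1)) :=
      (Nat.Coprime.pow_right _ ((Nat.Prime.coprime_iff_not_dvd hp).mpr ht).symm)
    exact hcop.dvd_of_dvd_mul_left h1
  rw [hjt]
  exact Nat.mul_dvd_mul (pow_dvd_pow p hj) htk

/-- Splitting elements into their `p`-part and `p'`-part. -/
theorem card_Y_eq_W {G : Type*} [Group G] [Finite G] (p a k : ℕ) (hp : p.Prime) (hk : ¬ p ∣ k) :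
    Nat.card {x : G // x ^ (p ^ a * k * p) = 1 ∧ ¬ x ^ (p ^ a * k) = 1}
    = Nat.card {w : G × G // (w.1 ^ p ^ (a + 1) = 1 ∧ ¬ w.1 ^ p ^ a = 1) ∧
        (w.2 ^ k = 1 ∧ w.1 * w.2 = w.2 * w.1)} := by
  obtain ⟨q, hq⟩ : ∃ q, q = p ^ (a + 1) := ⟨_, rfl⟩
  have hqk : p ^ a * k * p = q * k := by
    rw [hq, pow_succ]
    ring
  have hqa : q = p ^ a * p := by rw [hq, pow_succ]
  have co : Nat.Coprime q k := by
    rw [hq]
    exact Nat.Coprime.pow_left _ ((Nat.Prime.coprime_iff_not_dvd hp).mpr hk)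
  obtain ⟨A, hA1, hA0⟩ := Nat.chineseRemainder co 1 0
  obtain ⟨B, hB0, hB1⟩ := Nat.chineseRemainder co 0 1
  have hkA : k ∣ A := (Nat.modEq_zero_iff_dvd).mp hA0
  have hqB : q ∣ B := (Nat.modEq_zero_iff_dvd).mp hB0
  have hAB : A + B ≡ 1 [MOD q * k] := by
    apply (Nat.modEq_and_modEq_iff_modEq_mul co).mp
    constructor
    · have h := hA1.add hB0
      simpa using h
    · have h := hA0.add hB1
      simpa using h
  rw [← hq, hqk]
  apply Nat.card_congr
  refine
    { toFun := fun x => ⟨(x.1 ^ A, x.1 ^ B), ⟨⟨?_, ?_⟩, ⟨?_, ?_⟩⟩⟩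
      invFun := fun w => ⟨w.1.1 * w.1.2, ⟨?_, ?_⟩⟩
      left_inv := ?_
      right_inv := ?_ }
  · -- (x^A)^q = 1
    show (x.1 ^ A) ^ q = 1
    rw [← pow_mul]
    have h1 : A * q ≡ 0 [MOD q * k] := by
      apply (Nat.modEq_zero_iff_dvd).mpr
      rw [mul_comm q k]
      exact Nat.mul_dvd_mul hkA dvd_rfl
    rw [pow_of_modEq x.1 (q * k) _ _ x.2.1 h1, pow_zero]
  · -- (x^A)^(p^a) ≠ 1
    show ¬ (x.1 ^ A) ^ p ^ a = 1
    intro h
    apply x.2.2
    have h1 : (A + B) * (p ^ a * k) ≡ 1 * (p ^ a * k) [MOD q * k] := hAB.mul_right _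
    rw [one_mul] at h1
    rw [← pow_of_modEq x.1 (q * k) _ _ x.2.1 h1, add_mul, pow_add]
    have h2 : x.1 ^ (A * (p ^ a * k)) = 1 := by
      rw [← mul_assoc, pow_mul, pow_mul, h, one_pow]
    have h3 : x.1 ^ (B * (p ^ a * k)) = 1 := by
      have h4 : B * (p ^ a * k) ≡ 0 [MOD q * k] := by
        apply (Nat.modEq_zero_iff_dvd).mpr
        exact Nat.mul_dvd_mul hqB (Dvd.intro_left _ rfl)
      rw [pow_of_modEq x.1 (q * k) _ _ x.2.1 h4, pow_zero]
    rw [h2, h3, one_mul]
  · -- (x^B)^k = 1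
    show (x.1 ^ B) ^ k = 1
    rw [← pow_mul]
    have h1 : B * k ≡ 0 [MOD q * k] := by
      apply (Nat.modEq_zero_iff_dvd).mpr
      exact Nat.mul_dvd_mul hqB dvd_rfl
    rw [pow_of_modEq x.1 (q * k) _ _ x.2.1 h1, pow_zero]
  · show x.1 ^ A * x.1 ^ B = x.1 ^ B * x.1 ^ A
    exact pow_mul_comm x.1 A B
  · -- (y z)^(q k) = 1
    have hc : Commute w.1.1 w.1.2 := w.2.2.2
    rw [hc.mul_pow, pow_mul, w.2.1.1, one_pow, one_mul, mul_comm q k, pow_mul, w.2.2.1, one_pow]
  · have hc : Commute w.1.1 w.1.2 := w.2.2.2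
    rw [hc.mul_pow]
    have h1 : w.1.2 ^ (p ^ a * k) = 1 := by
      rw [mul_comm, pow_mul, w.2.2.1, one_pow]
    rw [h1, mul_one, pow_mul]
    intro h
    have hv1 : (w.1.1 ^ p ^ a) ^ p = 1 := by
      rw [← pow_mul, ← hqa]
      exact w.2.1.1
    have hpf : Fact p.Prime := ⟨hp⟩
    have hord : orderOf (w.1.1 ^ p ^ a) = p := orderOf_eq_prime hv1 w.2.1.2
    have h2 := orderOf_dvd_of_pow_eq_one h
    rw [hord] at h2
    exact hk h2
  · intro x
    apply Subtype.ext
    show x.1 ^ A * x.1 ^ B = x.1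
    rw [← pow_add, pow_of_modEq x.1 (q * k) _ _ x.2.1 hAB, pow_one]
  · rintro ⟨⟨y, z⟩, ⟨⟨hy1, hy2⟩, ⟨hz, hc⟩⟩⟩
    apply Subtype.ext
    show ((y * z) ^ A, (y * z) ^ B) = (y, z)
    have hc' : Commute y z := hc
    have e1 : y ^ A = y := by
      rw [pow_of_modEq y q _ _ hy1 hA1, pow_one]
    have e2 : z ^ A = 1 := by
      rw [pow_of_modEq z k _ _ hz hA0, pow_zero]
    have e3 : y ^ B = 1 := by
      rw [pow_of_modEq y q _ _ hy1 hB0, pow_zero]
    have e4 : z ^ B = z := by
      rw [pow_of_modEq z k _ _ hz hB1, pow_one]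
    rw [hc'.mul_pow, hc'.mul_pow, e1, e2, e3, e4, mul_one, one_mul]

/-! ### The basic theorem: solutions of `x ^ n = 1` -/

theorem zpowers_normal_of_central {G : Type*} [Group G] (y : G) (hy : ∀ g : G, g * y = y * g) :
    (Subgroup.zpowers y).Normal := by
  constructor
  intro z hz g
  obtain ⟨j, rfl⟩ := Subgroup.mem_zpowers_iff.mp hz
  have hc : Commute g (y ^ j) := (show Commute g y from hy g).zpow_right j
  have e : g * y ^ j * g⁻¹ = y ^ j := by
    rw [hc.eq, mul_inv_cancel_right]
  rw [e]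
  exact Subgroup.zpow_mem_zpowers y j

theorem k_dvd_W {G : Type u} [Group G] [Finite G] (p a k : ℕ) (hp : p.Prime) (hk : ¬ p ∣ k)
    (hkg : p ^ (a + 1) * k ∣ Nat.card G)
    (ih : ∀ m < Nat.card G, ∀ (H : Type u) [Group H] [Finite H], Nat.card H = m →
      ∀ n : ℕ, Nat.gcd n m ∣ Nat.card {x : H // x ^ n = 1}) :
    k ∣ Nat.card {w : G × G // (w.1 ^ p ^ (a + 1) = 1 ∧ ¬ w.1 ^ p ^ a = 1) ∧
        (w.2 ^ k = 1 ∧ w.1 * w.2 = w.2 * w.1)} := by
  have hkG : k ∣ Nat.card G := (Dvd.intro_left _ rfl).trans hkg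
  apply dvd_card_of_fiber (fun w : {w : G × G // (w.1 ^ p ^ (a + 1) = 1 ∧ ¬ w.1 ^ p ^ a = 1) ∧
        (w.2 ^ k = 1 ∧ w.1 * w.2 = w.2 * w.1)} => ConjClasses.mk w.1.1)
  intro K
  by_cases hne : Nonempty {b : {w : G × G // (w.1 ^ p ^ (a + 1) = 1 ∧ ¬ w.1 ^ p ^ a = 1) ∧
        (w.2 ^ k = 1 ∧ w.1 * w.2 = w.2 * w.1)} // ConjClasses.mk b.1.1 = K}
  · obtain ⟨⟨⟨⟨y₀, z₀⟩, ⟨⟨hy1, hy2⟩, _⟩⟩, hK⟩⟩ := hne
    have hK' : ConjClasses.mk y₀ = K := hK
    -- the fibre is a class fibration
    have hfib : Nat.card {b : {w : G × G // (w.1 ^ p ^ (a + 1) = 1 ∧ ¬ w.1 ^ p ^ a = 1) ∧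
        (w.2 ^ k = 1 ∧ w.1 * w.2 = w.2 * w.1)} // ConjClasses.mk b.1.1 = K}
        = Nat.card {w : G × G // IsConj y₀ w.1 ∧ (w.2 ^ k = 1 ∧ w.1 * w.2 = w.2 * w.1)} := by
      apply Nat.card_congr
      refine
        { toFun := fun b => ⟨b.1.1, ⟨?_, b.1.2.2⟩⟩
          invFun := fun w => ⟨⟨w.1, ⟨?_, w.2.2⟩⟩, ?_⟩
          left_inv := fun b => rfl
          right_inv := fun w => rfl }
      · have h1 : ConjClasses.mk b.1.1.1 = ConjClasses.mk y₀ := b.2.trans hK'.symm
        exact (ConjClasses.mk_eq_mk_iff_isConj.mp h1).symm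
      · obtain ⟨g, hg⟩ := isConj_iff.mp w.2.1
        rw [← hg, conj_pow, conj_pow, hy1]
        refine ⟨by group, ?_⟩
        intro h
        apply hy2
        have h3 : y₀ ^ p ^ a = g⁻¹ * (g * y₀ ^ p ^ a * g⁻¹) * g := by group
        rw [h3, h]
        group
      · show ConjClasses.mk w.1.1 = K
        rw [← hK']
        exact ConjClasses.mk_eq_mk_iff_isConj.mpr w.2.1.symm
    rw [hfib, class_fib (fun y z => z ^ k = 1 ∧ y * z = z * y) ?_ y₀]
    · -- k ∣ h * c
      have hcl := card_class_mul y₀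
      by_cases htop : Subgroup.centralizer ({y₀} : Set G) = ⊤
      · -- y₀ central
        have hcen : ∀ g : G, g * y₀ = y₀ * g := by
          intro g
          have hg : g ∈ Subgroup.centralizer ({y₀} : Set G) := by
            rw [htop]
            trivial
          exact (Subgroup.mem_centralizer_iff.mp hg y₀ rfl).symm
        have hZn : (Subgroup.zpowers y₀).Normal := zpowers_normal_of_central y₀ hcen
        have hpf : Fact p.Prime := ⟨hp⟩
        have hZcard : Nat.card (Subgroup.zpowers y₀) = p ^ (a + 1) := by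
          rw [Nat.card_zpowers]
          exact orderOf_eq_prime_pow hy2 hy1
        have hZc : ∀ z ∈ Subgroup.zpowers y₀, ∀ g : G, g * z = z * g := by
          intro z hz g
          obtain ⟨j, rfl⟩ := Subgroup.mem_zpowers_iff.mp hz
          exact ((show Commute g y₀ from hcen g).zpow_right j).eq
        have hcop : (Nat.card (Subgroup.zpowers y₀)).Coprime k := by
          rw [hZcard]
          exact Nat.Coprime.pow_left _ ((Nat.Prime.coprime_iff_not_dvd hp).mpr hk)
        have hQ := lemmaQ (Subgroup.zpowers y₀) hZc k hcop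
        have hidx : Nat.card (Subgroup.zpowers y₀) * (Subgroup.zpowers y₀).index = Nat.card G :=
          Subgroup.card_mul_index _
        rw [hZcard] at hidx
        have hlt : (Subgroup.zpowers y₀).index < Nat.card G := by
          have h1 : 0 < (Subgroup.zpowers y₀).index := Nat.pos_of_ne_zero Subgroup.index_ne_zero_of_finite
          have h2 : 2 ≤ p ^ (a + 1) := by
            calc 2 ≤ p := hp.two_le
              _ = p ^ 1 := (pow_one p).symm
              _ ≤ p ^ (a + 1) := Nat.pow_le_pow_right hp.pos (by omega)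
          rw [← hidx]
          nlinarith
        have hih := ih _ hlt (G ⧸ Subgroup.zpowers y₀) rfl k
        have hkidx : k ∣ (Subgroup.zpowers y₀).index := by
          have h1 : p ^ (a + 1) * k ∣ p ^ (a + 1) * (Subgroup.zpowers y₀).index := by
            rw [hidx]
            exact hkg
          exact (Nat.mul_dvd_mul_iff_left (pow_pos hp.pos _)).mp h1
        rw [Nat.gcd_eq_left hkidx, hQ] at hih
        have hc : Nat.card {z : G // z ^ k = 1 ∧ y₀ * z = z * y₀} = Nat.card {z : G // z ^ k = 1} := by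
          apply Nat.card_congr
          apply Equiv.subtypeEquivRight
          intro z
          exact ⟨fun h => h.1, fun h => ⟨h, (hcen z).symm⟩⟩
        rw [hc]
        exact hih.mul_left _
      · -- proper centralizer
        have hlt : Nat.card (Subgroup.centralizer ({y₀} : Set G)) < Nat.card G := by
          apply lt_of_le_of_ne (Subgroup.card_le_card_group _)
          intro h
          exact htop (Subgroup.eq_top_of_card_eq _ h)
        have hih := ih _ hlt (Subgroup.centralizer ({y₀} : Set G)) rfl k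
        have hc : Nat.card {z : G // z ^ k = 1 ∧ y₀ * z = z * y₀}
            = Nat.card {z : Subgroup.centralizer ({y₀} : Set G) // z ^ k = 1} := by
          apply Nat.card_congr
          refine
            { toFun := fun z => ⟨⟨z.1, ?_⟩, ?_⟩
              invFun := fun z => ⟨z.1.1, ⟨?_, ?_⟩⟩
              left_inv := fun z => rfl
              right_inv := fun z => rfl }
          · rw [Subgroup.mem_centralizer_iff]
            intro h hh
            rw [Set.mem_singleton_iff] at hh
            rw [hh]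
            exact z.2.2
          · apply Subtype.ext
            rw [Subgroup.coe_pow]
            exact z.2.1
          · have h1 := congrArg Subtype.val z.2
            rw [Subgroup.coe_pow] at h1
            exact h1
          · exact Subgroup.mem_centralizer_iff.mp z.1.2 y₀ rfl
        rw [hc]
        have h1 : k ∣ Nat.gcd (Nat.card {y : G // IsConj y₀ y} * k)
            (Nat.card {y : G // IsConj y₀ y} * Nat.card (Subgroup.centralizer ({y₀} : Set G))) := by
          apply Nat.dvd_gcd (Dvd.intro_left _ rfl)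
          rw [← hcl]
          exact hkG
        rw [Nat.gcd_mul_left] at h1
        exact h1.trans (Nat.mul_dvd_mul_left _ hih)
    · -- invariance of the relation
      rintro g y z ⟨hz, hyz⟩
      refine ⟨by rw [conj_pow, hz]; group, ?_⟩
      calc g * y * g⁻¹ * (g * z * g⁻¹) = g * (y * z) * g⁻¹ := by group
        _ = g * (z * y) * g⁻¹ := by rw [hyz]
        _ = g * z * g⁻¹ * (g * y * g⁻¹) := by group
  · rw [not_nonempty_iff] at hne
    rw [Nat.card_of_isEmpty]
    exact dvd_zero _

theorem frob_one_aux : ∀ (g : ℕ) (G : Type u) [Group G] [Finite G], Nat.card G = g →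
    ∀ n : ℕ, Nat.gcd n g ∣ Nat.card {x : G // x ^ n = 1} := by
  intro g
  induction g using Nat.strong_induction_on with
  | _ g ih =>
  intro G _ _ hG
  have hg0 : g ≠ 0 := by
    rw [← hG]
    exact Nat.card_pos.ne'
  have hdiv : ∀ d n : ℕ, n * d = g → n ∣ Nat.card {x : G // x ^ n = 1} := by
    intro d
    induction d using Nat.strong_induction_on with
    | _ d ihd =>
    intro n hnd
    have hn0 : n ≠ 0 := by
      rintro rfl
      rw [zero_mul] at hnd
      exact hg0 hnd.symm
    have hd0 : d ≠ 0 := by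
      rintro rfl
      rw [mul_zero] at hnd
      exact hg0 hnd.symm
    by_cases hd1 : d = 1
    · subst hd1
      rw [mul_one] at hnd
      have h1 : Nat.card {x : G // x ^ n = 1} = n := by
        have hn : n = Nat.card G := hnd.trans hG.symm
        rw [hn]
        apply Nat.card_congr
        exact Equiv.subtypeUnivEquiv (fun x => pow_card_eq_one')
      rw [h1]
    · obtain ⟨p, hp, hpd⟩ := Nat.exists_prime_and_dvd hd1
      obtain ⟨d', rfl⟩ := hpd
      have hd'0 : d' ≠ 0 := by
        rintro rfl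
        exact hd0 (mul_zero p)
      have hd'lt : d' < p * d' := by
        have h1 := hp.two_le
        have h2 : 0 < d' := Nat.pos_of_ne_zero hd'0
        nlinarith
      have hnp : (n * p) ∣ Nat.card {x : G // x ^ (n * p) = 1} :=
        ihd d' hd'lt (n * p) (by rw [mul_assoc]; exact hnd)
      obtain ⟨a, k, hk, hnak⟩ := Nat.exists_eq_pow_mul_and_not_dvd hn0 p hp.ne_one
      have hsplit := card_split (fun x : G => x ^ n = 1) (fun x : G => x ^ (n * p) = 1)
        (fun x hx => by rw [pow_mul, hx, one_pow])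
      have hY : n ∣ Nat.card {x : G // x ^ (n * p) = 1 ∧ ¬ x ^ n = 1} := by
        rw [hnak]
        apply Nat.Coprime.mul_dvd_of_dvd_of_dvd
          (Nat.Coprime.pow_left a ((Nat.Prime.coprime_iff_not_dvd hp).mpr hk))
        · -- `p ^ a` divides `|Y|`
          apply lemmaP p a hp {x : G | x ^ (p ^ a * k * p) = 1 ∧ ¬ x ^ (p ^ a * k) = 1}
          · rintro x ⟨hx1, hx2⟩
            apply nt2 hp hk
            · have e : p ^ (a + 1) * k = p ^ a * k * p := by
                rw [pow_succ]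
                ring
              rw [e]
              exact orderOf_dvd_of_pow_eq_one hx1
            · intro h
              exact hx2 (orderOf_dvd_iff_pow_eq_one.mp h)
          · rintro x ⟨hx1, hx2⟩ u hu hue
            have hcomm : Commute x u := by
              obtain ⟨j, rfl⟩ := Subgroup.mem_zpowers_iff.mp hu
              exact (Commute.refl x).zpow_right j
            have hu1 : u ^ (p ^ a * k) = 1 := by rw [pow_mul, hue, one_pow]
            have hu2 : u ^ (p ^ a * k * p) = 1 := by rw [pow_mul, hu1, one_pow]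
            refine ⟨?_, ?_⟩
            · rw [hcomm.mul_pow, hx1, hu2, one_mul]
            · rw [hcomm.mul_pow, hu1, mul_one]
              exact hx2
        · -- `k` divides `|Y|`
          rw [card_Y_eq_W p a k hp hk]
          apply k_dvd_W p a k hp hk
          · rw [hG, ← hnd, hnak]
            refine ⟨d', ?_⟩
            rw [pow_succ]
            ring
          · intro m hm H _ _ hH n'
            rw [hG] at hm
            exact ih m hm H hH n'
      rw [hsplit] at hnp
      exact (Nat.dvd_add_left hY).mp ((Dvd.intro _ rfl : n ∣ n * p).trans hnp)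
  intro n
  obtain ⟨d, hd⟩ := Nat.gcd_dvd_right n g
  have h2 := hdiv d (Nat.gcd n g) hd.symm
  have h3 : Nat.card {x : G // x ^ n = 1} = Nat.card {x : G // x ^ (Nat.gcd n g) = 1} := by
    apply Nat.card_congr
    apply Equiv.subtypeEquivRight
    intro x
    rw [← orderOf_dvd_iff_pow_eq_one, ← orderOf_dvd_iff_pow_eq_one]
    constructor
    · intro h
      exact Nat.dvd_gcd h (hG ▸ orderOf_dvd_natCard x)
    · intro h
      exact h.trans (Nat.gcd_dvd_left n g)
  rw [h3]
  exact h2

/-- **Frobenius**: the number of solutions of `x ^ n = 1` is a multiple of `gcd(n, |G|)`. -/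
theorem frob_one {G : Type u} [Group G] [Finite G] (n : ℕ) :
    Nat.gcd n (Nat.card G) ∣ Nat.card {x : G // x ^ n = 1} :=
  frob_one_aux _ G rfl n

/-! ### The general theorem -/

/-- Central case, coprime splitting step. -/
theorem central_split {G : Type u} [Group G] [Finite G] (c : G) (hcen : ∀ g : G, g * c = c * g)
    (n₁ n₂ : ℕ)
    (ih : ∀ y : G, Nat.gcd (Nat.card {z : G // IsConj y z} * n₁) (Nat.card G) ∣
      Nat.card {x : G // IsConj y (x ^ n₁)}) :
    Nat.gcd n₁ (Nat.card G) ∣ Nat.card {x : G // x ^ (n₁ * n₂) = c} := by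
  apply dvd_card_of_fiber (fun x : {x : G // x ^ (n₁ * n₂) = c} => ConjClasses.mk (x.1 ^ n₁))
  intro K
  by_cases hne : Nonempty {b : {x : G // x ^ (n₁ * n₂) = c} // ConjClasses.mk (b.1 ^ n₁) = K}
  · obtain ⟨⟨⟨x₀, hx₀⟩, hK⟩⟩ := hne
    have hK' : ConjClasses.mk (x₀ ^ n₁) = K := hK
    have hfib : Nat.card {b : {x : G // x ^ (n₁ * n₂) = c} // ConjClasses.mk (b.1 ^ n₁) = K}
        = Nat.card {x : G // IsConj (x₀ ^ n₁) (x ^ n₁)} := by
      apply Nat.card_congr
      refine
        { toFun := fun b => ⟨b.1.1, ?_⟩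
          invFun := fun x => ⟨⟨x.1, ?_⟩, ?_⟩
          left_inv := fun b => rfl
          right_inv := fun x => rfl }
      · have h1 : ConjClasses.mk (b.1.1 ^ n₁) = ConjClasses.mk (x₀ ^ n₁) := b.2.trans hK'.symm
        exact (ConjClasses.mk_eq_mk_iff_isConj.mp h1).symm
      · obtain ⟨g, hg⟩ := isConj_iff.mp x.2
        rw [pow_mul, ← hg, conj_pow, ← pow_mul, hx₀]
        rw [hcen g, mul_inv_cancel_right]
      · show ConjClasses.mk (x.1 ^ n₁) = K
        rw [← hK']
        exact ConjClasses.mk_eq_mk_iff_isConj.mpr x.2.symm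
    rw [hfib]
    exact (Nat.gcd_dvd_gcd_of_dvd_left _ (Dvd.intro_left _ rfl)).trans (ih (x₀ ^ n₁))
  · rw [not_nonempty_iff] at hne
    rw [@Nat.card_of_isEmpty _ hne]
    exact dvd_zero _

theorem main_aux : ∀ (g : ℕ) (G : Type u) [Group G] [Finite G], Nat.card G = g →
    ∀ (n : ℕ) (c : G), Nat.gcd (Nat.card {y : G // IsConj c y} * n) (Nat.card G) ∣
      Nat.card {x : G // IsConj c (x ^ n)} := by
  intro g
  induction g using Nat.strong_induction_on with
  | _ g ih =>
  intro G _ _ hG n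
  induction n using Nat.strong_induction_on with
  | _ n ihn =>
  intro c
  have hfib : Nat.card {x : G // IsConj c (x ^ n)}
      = Nat.card {y : G // IsConj c y} * Nat.card {x : G // x ^ n = c} := by
    rw [← class_fib (fun y x => x ^ n = y) (fun g y z h => by rw [conj_pow, h]) c]
    apply Nat.card_congr
    refine
      { toFun := fun x => ⟨(x.1 ^ n, x.1), ⟨x.2, rfl⟩⟩
        invFun := fun w => ⟨w.1.2, by rw [w.2.2]; exact w.2.1⟩
        left_inv := fun x => rfl
        right_inv := ?_ }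
    rintro ⟨⟨y, x⟩, ⟨hy, hx⟩⟩
    apply Subtype.ext
    exact Prod.ext hx rfl
  have hcl := card_class_mul c
  rw [hfib]
  suffices hsuff : Nat.gcd n (Nat.card (Subgroup.centralizer ({c} : Set G))) ∣
      Nat.card {x : G // x ^ n = c} by
    have h1 : Nat.gcd (Nat.card {y : G // IsConj c y} * n) (Nat.card G)
        = Nat.card {y : G // IsConj c y} *
          Nat.gcd n (Nat.card (Subgroup.centralizer ({c} : Set G))) := by
      conv_lhs => rw [hcl]
      exact Nat.gcd_mul_left _ _ _
    rw [h1]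
    exact Nat.mul_dvd_mul_left _ hsuff
  by_cases htop : Subgroup.centralizer ({c} : Set G) = ⊤
  · -- `c` is central
    have hcen : ∀ g : G, g * c = c * g := by
      intro g
      have hg : g ∈ Subgroup.centralizer ({c} : Set G) := by
        rw [htop]
        trivial
      exact (Subgroup.mem_centralizer_iff.mp hg c rfl).symm
    have hcardC : Nat.card (Subgroup.centralizer ({c} : Set G)) = Nat.card G := by
      rw [htop]
      exact Subgroup.card_top
    rw [hcardC]
    by_cases hn0 : n = 0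
    · subst hn0
      rw [Nat.gcd_zero_left]
      by_cases hc1 : c = 1
      · subst hc1
        have h1 : Nat.card {x : G // x ^ 0 = 1} = Nat.card G := by
          apply Nat.card_congr
          exact Equiv.subtypeUnivEquiv (fun x => pow_zero x)
        rw [h1]
      · have h1 : IsEmpty {x : G // x ^ 0 = c} := by
          constructor
          rintro ⟨x, hx⟩
          rw [pow_zero] at hx
          exact hc1 hx.symm
        rw [@Nat.card_of_isEmpty _ h1]
        exact dvd_zero _
    by_cases hn1 : n = 1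
    · subst hn1
      rw [Nat.gcd_one_left]
      exact one_dvd _
    obtain ⟨p, hp, hpn⟩ := Nat.exists_prime_and_dvd hn1
    obtain ⟨e, m, hm, hnem⟩ := Nat.exists_eq_pow_mul_and_not_dvd hn0 p hp.ne_one
    have he : e ≠ 0 := by
      rintro rfl
      rw [pow_zero, one_mul] at hnem
      exact hm (hnem ▸ hpn)
    have hm0 : m ≠ 0 := by
      rintro rfl
      exact hm (dvd_zero p)
    by_cases hm1 : m = 1
    · -- prime power
      subst hm1
      rw [mul_one] at hnem
      subst hnem
      by_cases hpc : p ∣ orderOf c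
      · have h1 : p ^ e ∣ Nat.card {x : G // x ^ p ^ e = c} := by
          apply lemmaP p e hp {x : G | x ^ p ^ e = c}
          · intro x hx
            have hx' : x ^ p ^ e = c := hx
            have ho : orderOf (x ^ p ^ e) = orderOf x / Nat.gcd (orderOf x) (p ^ e) :=
              orderOf_pow' _ (pow_ne_zero e hp.ne_zero)
            rw [hx'] at ho
            rw [ho] at hpc
            have hg := nt1 hp hpc
            rw [hg] at hpc
            have hpe : p ^ e ∣ orderOf x := hg ▸ Nat.gcd_dvd_left _ _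
            obtain ⟨t, ht⟩ := hpc
            have h3 : orderOf x = p ^ e * (orderOf x / p ^ e) := (Nat.mul_div_cancel' hpe).symm
            rw [h3, ht, pow_succ]
            exact ⟨t, by ring⟩
          · intro x hx u hu hue
            have hx' : x ^ p ^ e = c := hx
            have hcomm : Commute x u := by
              obtain ⟨j, rfl⟩ := Subgroup.mem_zpowers_iff.mp hu
              exact (Commute.refl x).zpow_right j
            show (x * u) ^ p ^ e = c
            rw [hcomm.mul_pow, hue, mul_one, hx']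
        exact (Nat.gcd_dvd_left _ _).trans h1
      · have hcop : (p ^ e).Coprime (orderOf c) :=
          Nat.Coprime.pow_left _ ((Nat.Prime.coprime_iff_not_dvd hp).mpr hpc)
        obtain ⟨m', hm'⟩ := exists_pow_eq_self_of_coprime hcop
        have hc₁ : (c ^ m') ^ p ^ e = c := by
          rw [pow_right_comm]
          exact hm'
        have hcomm : ∀ x : G, Commute x (c ^ m') := fun x =>
          (show Commute x c from hcen x).pow_right m'
        have h1 : Nat.card {x : G // x ^ p ^ e = c} = Nat.card {x : G // x ^ p ^ e = 1} := by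
          apply Nat.card_congr
          refine
            { toFun := fun x => ⟨x.1 * (c ^ m')⁻¹, ?_⟩
              invFun := fun x => ⟨x.1 * c ^ m', ?_⟩
              left_inv := fun x => Subtype.ext (by simp)
              right_inv := fun x => Subtype.ext (by simp) }
          · rw [(hcomm x.1).inv_right.mul_pow, inv_pow, hc₁, x.2, mul_inv_cancel]
          · rw [(hcomm x.1).mul_pow, hc₁, x.2, one_mul]
        rw [h1]
        exact frob_one (p ^ e)
    · -- coprime splitting
      have hpe1 : 1 < p ^ e := Nat.one_lt_pow he hp.one_lt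
      have hm2 : 1 < m := by omega
      have hlt1 : p ^ e < n := by
        rw [hnem]
        nlinarith [pow_pos hp.pos e]
      have hlt2 : m < n := by
        rw [hnem]
        nlinarith [pow_pos hp.pos e]
      have hcop : Nat.Coprime (p ^ e) m :=
        Nat.Coprime.pow_left _ ((Nat.Prime.coprime_iff_not_dvd hp).mpr hm)
      have hd1 : Nat.gcd (p ^ e) (Nat.card G) ∣ Nat.card {x : G // x ^ n = c} := by
        rw [hnem]
        exact central_split c hcen (p ^ e) m (fun y => ihn (p ^ e) hlt1 y)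
      have hd2 : Nat.gcd m (Nat.card G) ∣ Nat.card {x : G // x ^ n = c} := by
        rw [hnem, mul_comm]
        exact central_split c hcen m (p ^ e) (fun y => ihn m hlt2 y)
      have hcop' : Nat.Coprime (Nat.gcd (p ^ e) (Nat.card G)) (Nat.gcd m (Nat.card G)) :=
        Nat.Coprime.coprime_dvd_left (Nat.gcd_dvd_left _ _)
          (Nat.Coprime.coprime_dvd_right (Nat.gcd_dvd_left _ _) hcop)
      have h3 := Nat.Coprime.mul_dvd_of_dvd_of_dvd hcop' hd1 hd2
      have h4 : Nat.gcd n (Nat.card G) ∣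
          Nat.gcd (p ^ e) (Nat.card G) * Nat.gcd m (Nat.card G) := by
        rw [hnem]
        exact Nat.gcd_mul_left_dvd_mul_gcd _ _ _
      exact h4.trans h3
  · -- proper centralizer: induction
    have hlt : Nat.card (Subgroup.centralizer ({c} : Set G)) < g := by
      rw [← hG]
      apply lt_of_le_of_ne (Subgroup.card_le_card_group _)
      intro h
      exact htop (Subgroup.eq_top_of_card_eq _ h)
    have hcmem : c ∈ Subgroup.centralizer ({c} : Set G) := by
      rw [Subgroup.mem_centralizer_iff]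
      intro h hh
      rw [Set.mem_singleton_iff] at hh
      rw [hh]
    have hih := ih _ hlt (Subgroup.centralizer ({c} : Set G)) rfl n ⟨c, hcmem⟩
    have hconj : ∀ y : Subgroup.centralizer ({c} : Set G),
        IsConj (⟨c, hcmem⟩ : Subgroup.centralizer ({c} : Set G)) y ↔ y = ⟨c, hcmem⟩ := by
      intro y
      rw [isConj_iff]
      constructor
      · rintro ⟨t, ht⟩
        rw [← ht]
        apply Subtype.ext
        show (t : G) * c * (t : G)⁻¹ = c
        have h1 : c * (t : G) = (t : G) * c := Subgroup.mem_centralizer_iff.mp t.2 c rfl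
        rw [← h1, mul_inv_cancel_right]
      · intro h
        exact ⟨1, by rw [h]; simp⟩
    have h1 : Nat.card {y : Subgroup.centralizer ({c} : Set G) //
        IsConj (⟨c, hcmem⟩ : Subgroup.centralizer ({c} : Set G)) y} = 1 := by
      rw [Nat.card_congr (Equiv.subtypeEquivRight hconj)]
      exact Nat.card_unique
    have h2 : Nat.card {x : Subgroup.centralizer ({c} : Set G) //
        IsConj (⟨c, hcmem⟩ : Subgroup.centralizer ({c} : Set G)) (x ^ n)}
        = Nat.card {x : G // x ^ n = c} := by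
      rw [Nat.card_congr (Equiv.subtypeEquivRight (fun x => hconj (x ^ n)))]
      apply Nat.card_congr
      refine
        { toFun := fun x => ⟨x.1.1, ?_⟩
          invFun := fun x => ⟨⟨x.1, ?_⟩, ?_⟩
          left_inv := fun x => rfl
          right_inv := fun x => rfl }
      · have h3 := congrArg Subtype.val x.2
        rw [Subgroup.coe_pow] at h3
        exact h3
      · rw [Subgroup.mem_centralizer_iff]
        intro h hh
        rw [Set.mem_singleton_iff] at hh
        rw [hh]
        calc c * x.1 = x.1 ^ n * x.1 := by rw [x.2]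
          _ = x.1 * x.1 ^ n := pow_mul_comm' x.1 n
          _ = x.1 * c := by rw [x.2]
      · apply Subtype.ext
        rw [Subgroup.coe_pow]
        exact x.2
    rw [h1, one_mul, h2] at hih
    exact hih

/-- Let `G` be a finite group of order `g`, `c` an element whose conjugacy class has `h` elements, and `n` a natural number. Then the number of elements `x` of `G` with `x^n` conjugate to `c` is a multiple of `gcd(hn, g)`. -/
theorem result {G : Type*} [Group G] [Finite G] (c : G) (n : ℕ) : Nat.gcd (Nat.card {y : G // IsConj c y} * n) (Nat.card G) ∣ Nat.card {x : G // IsConj c (x ^ n)} := by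
  exact main_aux _ G rfl n c


end Cfsg.Agent.S4212
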