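import Mathlib
import Cfsg.Statements.S3977

set_option autoImplicit false
open Cfsg

namespace Cfsg.Agent.S3977

universe u

private lemma pow_mul_comm_aux {G : Type*} [Group G] (u v c : G) (h : v * u = u * v * c)
    (hcv : c * v = v * c) (n : ℕ) : v ^ n * u = u * v ^ n * c ^ n := by
  induction n with
  | zero => simp
  | succ n ih =>
    have hc : c * v ^ n = v ^ n * c := (Commute.pow_right (show Commute c v from hcv) n).eq
    calc v ^ (n + 1) * u = v * (v ^ n * u) := by rw [pow_succ', mul_assoc]
      _ = v * (u * v ^ n * c ^ n) := by rw [ih]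
      _ = (v * u) * v ^ n * c ^ n := by simp only [mul_assoc]
      _ = u * v * c * v ^ n * c ^ n := by rw [h]
      _ = u * v * (c * v ^ n) * c ^ n := by simp only [mul_assoc]
      _ = u * v * (v ^ n * c) * c ^ n := by rw [hc]
      _ = u * (v * v ^ n) * (c * c ^ n) := by simp only [mul_assoc]
      _ = u * v ^ (n + 1) * c ^ (n + 1) := by rw [← pow_succ', ← pow_succ']

private lemma mul_pow_aux {G : Type*} [Group G] (u v c : G) (h : v * u = u * v * c)
    (hcv : c * v = v * c) (hcu : c * u = u * c) (n : ℕ) :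
    (u * v) ^ n = u ^ n * v ^ n * c ^ (n * (n - 1) / 2) := by
  induction n with
  | zero => simp
  | succ n ih =>
    rw [Nat.triangle_succ]
    have h1 := pow_mul_comm_aux u v c h hcv n
    have hcuv : Commute c (u * v) := Commute.mul_right (show Commute c u from hcu) (show Commute c v from hcv)
    have hc1 : c ^ (n * (n - 1) / 2) * (u * v) = (u * v) * c ^ (n * (n - 1) / 2) :=
      (Commute.pow_left hcuv _).eq
    have hc2 : c ^ n * v = v * c ^ n := (Commute.pow_left (show Commute c v from hcv) n).eq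
    have hc3 : c ^ n * c ^ (n * (n - 1) / 2) = c ^ (n * (n - 1) / 2) * c ^ n :=
      (Commute.pow_pow (Commute.refl c) _ _).eq
    calc (u * v) ^ (n + 1) = u ^ n * v ^ n * c ^ (n * (n - 1) / 2) * (u * v) := by
          rw [pow_succ, ih]
      _ = u ^ n * v ^ n * (c ^ (n * (n - 1) / 2) * (u * v)) := by simp only [mul_assoc]
      _ = u ^ n * v ^ n * ((u * v) * c ^ (n * (n - 1) / 2)) := by rw [hc1]
      _ = u ^ n * (v ^ n * u) * v * c ^ (n * (n - 1) / 2) := by simp only [mul_assoc]
      _ = u ^ n * (u * v ^ n * c ^ n) * v * c ^ (n * (n - 1) / 2) := by rw [h1]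
      _ = u ^ n * u * v ^ n * (c ^ n * v) * c ^ (n * (n - 1) / 2) := by simp only [mul_assoc]
      _ = u ^ n * u * v ^ n * (v * c ^ n) * c ^ (n * (n - 1) / 2) := by rw [hc2]
      _ = u ^ n * u * (v ^ n * v) * (c ^ n * c ^ (n * (n - 1) / 2)) := by simp only [mul_assoc]
      _ = u ^ (n + 1) * v ^ (n + 1) * c ^ (n * (n - 1) / 2 + n) := by
          rw [← pow_succ, ← pow_succ, hc3, ← pow_add c]

private lemma comm_of_mem_zpowers {G : Type*} [Group G] {a x y : G}
    (hx : x ∈ Subgroup.zpowers a) (hy : y ∈ Subgroup.zpowers a) : x * y = y * x := by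
  obtain ⟨n1, rfl⟩ := Subgroup.mem_zpowers_iff.1 hx
  obtain ⟨n2, rfl⟩ := Subgroup.mem_zpowers_iff.1 hy
  exact (Commute.zpow_zpow (Commute.refl a) n1 n2).eq

private lemma dvd_tri {p : ℕ} (hp : p.Prime) (hp2 : p ≠ 2) (e : ℕ) (he : 1 ≤ e) :
    p ∣ p ^ e * (p ^ e - 1) / 2 := by
  have h2 : 2 ∣ p ^ e * (p ^ e - 1) := (Nat.even_mul_pred_self _).two_dvd
  have h3 : p ∣ p ^ e * (p ^ e - 1) := Dvd.dvd.mul_right (dvd_pow_self p (by omega)) _
  obtain ⟨t, ht⟩ := h2
  rw [ht, Nat.mul_div_cancel_left _ (by norm_num : 0 < 2)]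
  rw [ht] at h3
  exact (Nat.Coprime.dvd_of_dvd_mul_left ((Nat.coprime_primes hp Nat.prime_two).2 hp2) h3)

private theorem aux (p : ℕ) (hp : p.Prime) : ∀ (m : ℕ) (G : Type u) [Group G] [Finite G] (s : ℕ),
    Nat.card G = p ^ m → 1 ≤ s → s < m → (p ≠ 2 ∨ 2 ≤ s) →
    (∀ H K : Subgroup G, Nat.card H = p ^ s → Nat.card K = p ^ s → H = K) → IsCyclic G := by
  intro m
  induction m with
  | zero => intro G _ _ s _ _ hsm; omega
  | succ k ih =>
    intro G _ _ s hG hs hsm h2 huniq
    have : Fact p.Prime := ⟨hp⟩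
    by_contra hnc
    rw [isCyclic_iff_exists_zpowers_eq_top] at hnc
    push Not at hnc
    obtain ⟨H, hH⟩ := Sylow.exists_subgroup_card_pow_prime p (n := s) (G := G)
      (by rw [hG]; exact pow_dvd_pow p (by omega))
    have star : ∀ (K : Subgroup G) (t : ℕ), t ≤ s → Nat.card K = p ^ t → K ≤ H := by
      intro K t hts hK
      obtain ⟨K', hK', hle⟩ := Sylow.exists_subgroup_card_pow_prime_le p
        (by rw [hG]; exact pow_dvd_pow p (by omega)) K hK hts
      rw [huniq H K' hH hK']; exact hle
    have hcov : ∀ x : G, ∃ M : Subgroup G, Nat.card M = p ^ k ∧ x ∈ M := by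
      intro x
      have hd : Nat.card (Subgroup.zpowers x) ∣ p ^ (k + 1) := by
        rw [← hG]; exact Subgroup.card_subgroup_dvd_card _
      obtain ⟨t, ht, hct⟩ := (Nat.dvd_prime_pow hp).1 hd
      have htk : t ≤ k := by
        by_contra hcon
        have : t = k + 1 := by omega
        apply hnc x
        apply Subgroup.eq_top_of_card_eq
        rw [hct, hG, this]
      obtain ⟨M, hM, hle⟩ := Sylow.exists_subgroup_card_pow_prime_le p
        (by rw [hG]; exact pow_dvd_pow p (by omega)) _ hct htk
      exact ⟨M, hM, hle (Subgroup.mem_zpowers x)⟩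
    have hHM : ∀ M : Subgroup G, Nat.card M = p ^ k → H ≤ M := by
      intro M hM
      obtain ⟨L, hL⟩ := Sylow.exists_subgroup_card_pow_prime p (n := s) (G := M)
        (by rw [hM]; exact pow_dvd_pow p (by omega))
      have h1 : Nat.card (L.map M.subtype) = p ^ s := by rw [Subgroup.card_subtype, hL]
      rw [huniq H _ hH h1]
      exact Subgroup.map_subtype_le L
    have hsk : s < k := by
      by_contra hcon
      have hsk : s = k := by omega
      have htop : H = ⊤ := by
        rw [eq_top_iff]
        intro x _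
        obtain ⟨M, hM, hx⟩ := hcov x
        have : H = M := Subgroup.eq_of_le_of_card_ge (hHM M hM) (by rw [hM, hH, hsk])
        rw [this]; exact hx
      have : Nat.card H = Nat.card G := by rw [htop, Subgroup.card_top]
      rw [hH, hG] at this
      have := Nat.pow_right_injective hp.two_le this
      omega
    have hcyc : ∀ M : Subgroup G, Nat.card M = p ^ k → ∃ a : G, Subgroup.zpowers a = M := by
      intro M hM
      have hMc : IsCyclic M := by
        apply ih M s hM hs hsk h2
        intro L1 L2 hL1 hL2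
        apply Subgroup.map_injective M.subtype_injective
        apply huniq
        · rw [Subgroup.card_subtype, hL1]
        · rw [Subgroup.card_subtype, hL2]
      obtain ⟨g, hg⟩ := IsCyclic.exists_generator (α := M)
      refine ⟨(g : G), le_antisymm ?_ ?_⟩
      · rw [Subgroup.zpowers_le]; exact g.2
      · intro x hx
        obtain ⟨n, hn⟩ := Subgroup.mem_zpowers_iff.1 (hg ⟨x, hx⟩)
        rw [Subgroup.mem_zpowers_iff]
        refine ⟨n, ?_⟩
        have := congrArg (fun z : M => (z : G)) hn
        simpa using this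
    have hidx : ∀ M : Subgroup G, Nat.card M = p ^ k → M.index = p := by
      intro M hM
      have := M.card_mul_index
      rw [hM, hG, pow_succ] at this
      exact Nat.eq_of_mul_eq_mul_left (pow_pos hp.pos k) this
    have hnormal : ∀ M : Subgroup G, Nat.card M = p ^ k → M.Normal := by
      intro M hM
      apply Subgroup.normal_of_index_eq_minFac_card
      rw [hidx M hM, hG, Nat.pow_minFac (by omega), hp.minFac_eq]
    obtain ⟨M1, hM1, -⟩ := hcov 1
    have hx : ∃ x : G, x ∉ M1 := by
      by_contra hcon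
      push Not at hcon
      have htop : M1 = ⊤ := by rw [eq_top_iff]; intro x _; exact hcon x
      have : Nat.card M1 = Nat.card G := by rw [htop, Subgroup.card_top]
      rw [hM1, hG] at this
      have := Nat.pow_right_injective hp.two_le this
      omega
    obtain ⟨x, hxM1⟩ := hx
    obtain ⟨M2, hM2, hxM2⟩ := hcov x
    obtain ⟨a, ha⟩ := hcyc M1 hM1
    obtain ⟨b, hb⟩ := hcyc M2 hM2
    have hbM1 : b ∉ M1 := by
      intro hbm
      apply hxM1
      have : Subgroup.zpowers b ≤ M1 := by rw [Subgroup.zpowers_le]; exact hbm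
      rw [hb] at this
      exact this hxM2
    have hN1 := hnormal M1 hM1
    have hN2 := hnormal M2 hM2
    have hbp : b ^ p ∈ M1 := by
      have := M1.pow_index_mem b
      rwa [hidx M1 hM1] at this
    rw [← ha, ← mem_powers_iff_mem_zpowers] at hbp
    obtain ⟨i, hi⟩ := hbp
    have hoa : orderOf a = p ^ k := by rw [← Nat.card_zpowers, ha, hM1]
    have hob : orderOf b = p ^ k := by rw [← Nat.card_zpowers, hb, hM2]
    have hpi : p ∣ i := by
      by_contra hcon
      have hcop : (orderOf a).Coprime i := by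
        rw [hoa]; exact Nat.Coprime.pow_left k ((Nat.Prime.coprime_iff_not_dvd hp).2 hcon)
      have h1 : orderOf (a ^ i) = p ^ k := by rw [hcop.orderOf_pow, hoa]
      have h2 : orderOf (b ^ p) ∣ p ^ (k - 1) := by
        apply orderOf_dvd_of_pow_eq_one
        rw [← pow_mul, ← pow_succ', show k - 1 + 1 = k by omega, ← hob, pow_orderOf_eq_one]
      rw [← hi, h1] at h2
      have := (Nat.pow_dvd_pow_iff_le_right hp.one_lt).1 h2
      omega
    obtain ⟨j, rfl⟩ := hpi
    have hv0 : (a ^ j)⁻¹ ∈ M1 := by
      rw [← ha]; exact inv_mem (pow_mem (Subgroup.mem_zpowers a) j)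
    have hu0 : b ∈ M2 := by rw [← hb]; exact Subgroup.mem_zpowers b
    generalize hv : (a ^ j)⁻¹ = v at hv0
    set c : G := v⁻¹ * b⁻¹ * v * b with hc
    have h : v * b = b * v * c := by rw [hc]; group
    have hcM1 : c ∈ M1 := by
      have h1 := hN1.conj_mem v hv0 b⁻¹
      rw [inv_inv] at h1
      have : c = v⁻¹ * (b⁻¹ * v * b) := by rw [hc]; group
      rw [this]
      exact mul_mem (inv_mem hv0) h1
    have hcM2 : c ∈ M2 := by
      have h1 := hN2.conj_mem b⁻¹ (inv_mem hu0) v⁻¹
      rw [inv_inv] at h1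
      exact mul_mem h1 hu0
    have hcv : c * v = v * c := by
      rw [← ha] at hcM1 hv0
      exact comm_of_mem_zpowers hcM1 hv0
    have hcu : c * b = b * c := by
      rw [← hb] at hcM2 hu0
      exact comm_of_mem_zpowers hcM2 hu0
    have hvp : v ^ p = (b ^ p)⁻¹ := by
      rw [← hv, ← hi, inv_pow, ← pow_mul, mul_comm]
    have hcp : c ^ p = 1 := by
      have h1 := pow_mul_comm_aux b v c h hcv p
      rw [hvp] at h1
      have h3 : (b ^ p)⁻¹ * b = b * (b ^ p)⁻¹ := by
        have : Commute (b ^ p) b := Commute.pow_left (Commute.refl b) p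
        exact (this.inv_left).eq
      rw [h3] at h1
      have h4 : b * (b ^ p)⁻¹ * 1 = b * (b ^ p)⁻¹ * c ^ p := by rw [mul_one]; exact h1
      exact (mul_left_cancel h4).symm
    have key : ∀ e : ℕ, 1 ≤ e → e ≤ s → p ∣ (p ^ e * (p ^ e - 1) / 2) → False := by
      intro e he hes hdvd
      have hy := mul_pow_aux b v c h hcv hcu (p ^ e)
      obtain ⟨t, ht⟩ := hdvd
      have hpe : p ^ e = p * p ^ (e - 1) := by rw [← pow_succ', show e - 1 + 1 = e by omega]
      have hy1 : (b * v) ^ (p ^ e) = 1 := by
        rw [hy, ht, pow_mul c, hcp, one_pow, mul_one, hpe, pow_mul, pow_mul, hvp, inv_pow,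
          mul_inv_cancel]
      have hdo : orderOf (b * v) ∣ p ^ e := orderOf_dvd_of_pow_eq_one hy1
      obtain ⟨r, hr, hor⟩ := (Nat.dvd_prime_pow hp).1 hdo
      have hle : Subgroup.zpowers (b * v) ≤ H :=
        star _ r (le_trans hr hes) (by rw [Nat.card_zpowers, hor])
      have hyM1 : b * v ∈ M1 := hHM M1 hM1 (hle (Subgroup.mem_zpowers _))
      apply hbM1
      have : b = (b * v) * v⁻¹ := by group
      rw [this]
      exact mul_mem hyM1 (inv_mem hv0)
    by_cases hp2 : p = 2
    · have hs2 : 2 ≤ s := by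
        rcases h2 with h | h
        · exact absurd hp2 h
        · exact h
      apply key 2 (by norm_num) hs2
      rw [hp2]
      decide
    · exact key 1 le_rfl hs (dvd_tri hp hp2 1 le_rfl)

/-- Let `p` be a prime and `G` a group of order `p ^ m` which has exactly one subgroup of order `p ^ s`, where `1 ≤ s < m`, and where `s ≥ 2` if `p = 2`. Then `G` is cyclic. (For `p = 2` and `s = 1` the generalized quaternion groups also occur; that case is the classical criterion for a unique involution.) -/
theorem result {G : Type*} [Group G] [Finite G] (p m s : ℕ) (hp : p.Prime) (hG : Nat.card G = p ^ m) (hs : 1 ≤ s) (hsm : s < m) (h2 : p ≠ 2 ∨ 2 ≤ s) (huniq : ∀ H K : Subgroup G, Nat.card H = p ^ s → Nat.card K = p ^ s → H = K) : IsCyclic G := by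
  exact aux p hp m G s hG hs hsm h2 huniq

end Cfsg.Agent.S3977
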