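import Mathlib
import Cfsg.Statements.S1467

set_option autoImplicit false
open Cfsg

namespace Cfsg.Agent.S1467

theorem step_anti {G : Type*} [Group G] {X Y : Subgroup G} (h : X ≤ Y) :
    Cfsg.puigStep Y ≤ Cfsg.puigStep X :=
  sSup_le_sSup (fun _ hA => ⟨hA.1, h.trans hA.2⟩)

theorem seq_succ {G : Type*} [Group G] (n : ℕ) :
    Cfsg.puigSeq G (n + 1) = Cfsg.puigStep (Cfsg.puigSeq G n) := rfl

theorem seq_one {G : Type*} [Group G] : Cfsg.puigSeq G 1 = ⊤ := by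
  rw [eq_top_iff]
  intro g _
  have h : Subgroup.zpowers g ≤ Cfsg.puigSeq G 1 := by
    apply le_sSup
    refine ⟨inferInstance, ?_⟩
    show Cfsg.puigSeq G 0 ≤ _
    exact bot_le
  exact h (Subgroup.mem_zpowers g)

theorem zig {G : Type*} [Group G] (n : ℕ) :
    Cfsg.puigSeq G (2 * n) ≤ Cfsg.puigSeq G (2 * n + 1) ∧
      Cfsg.puigSeq G (2 * n + 2) ≤ Cfsg.puigSeq G (2 * n + 1) := by
  induction n with
  | zero =>
    refine ⟨bot_le, ?_⟩
    show Cfsg.puigSeq G 2 ≤ Cfsg.puigSeq G 1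
    rw [seq_one]; exact le_top
  | succ n ih =>
    have h1 : Cfsg.puigSeq G (2 * n + 2) ≤ Cfsg.puigSeq G (2 * n + 3) := step_anti ih.2
    have h2 : Cfsg.puigSeq G (2 * n + 4) ≤ Cfsg.puigSeq G (2 * n + 3) := step_anti h1
    exact ⟨h1, h2⟩

theorem mono2 {G : Type*} [Group G] (n : ℕ) :
    Cfsg.puigSeq G (2 * n) ≤ Cfsg.puigSeq G (2 * n + 2) ∧
      Cfsg.puigSeq G (2 * n + 3) ≤ Cfsg.puigSeq G (2 * n + 1) := by
  induction n with
  | zero =>
    have h0 : Cfsg.puigSeq G 0 ≤ Cfsg.puigSeq G 2 := bot_le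
    exact ⟨h0, step_anti h0⟩
  | succ n ih =>
    have h1 : Cfsg.puigSeq G (2 * n + 2) ≤ Cfsg.puigSeq G (2 * n + 4) := step_anti ih.2
    have h2 : Cfsg.puigSeq G (2 * n + 5) ≤ Cfsg.puigSeq G (2 * n + 3) := step_anti h1
    exact ⟨h1, h2⟩

theorem even_mono {G : Type*} [Group G] : Monotone (fun n => Cfsg.puigSeq G (2 * n)) :=
  monotone_nat_of_le_succ (fun n => (mono2 n).1)

theorem odd_anti {G : Type*} [Group G] : Antitone (fun n => Cfsg.puigSeq G (2 * n + 1)) :=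
  antitone_nat_of_succ_le (fun n => (mono2 n).2)

theorem even_le_odd {G : Type*} [Group G] (n m : ℕ) :
    Cfsg.puigSeq G (2 * n) ≤ Cfsg.puigSeq G (2 * m + 1) := by
  rcases le_total n m with h | h
  · exact (even_mono h).trans (zig m).1
  · exact (zig n).1.trans (odd_anti h)

/-- Let G be a finite group with Puig series L_n(G). Then L_0 = 1, L_1 = G; L_{2n} ≤ L_{2n+2} ≤ L_{2m+3} ≤ L_{2m+1} for all n, m; there is k with L_{2n}(G) = L_*(G) and L_{2n+1}(G) = L(G) for all n ≥ k; L_*(G) ≤ L(G); and applying one Puig step to L_*(G) gives L(G) and to L(G) gives L_*(G). -/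
theorem result {G : Type*} [Group G] [Finite G] :
    Cfsg.puigSeq G 0 = ⊥ ∧ Cfsg.puigSeq G 1 = ⊤ ∧
      (∀ n m : ℕ, Cfsg.puigSeq G (2 * n) ≤ Cfsg.puigSeq G (2 * n + 2) ∧ Cfsg.puigSeq G (2 * n) ≤ Cfsg.puigSeq G (2 * m + 1) ∧
        Cfsg.puigSeq G (2 * m + 3) ≤ Cfsg.puigSeq G (2 * m + 1)) ∧
      (∃ k : ℕ, ∀ n : ℕ, k ≤ n → Cfsg.puigSeq G (2 * n) = Cfsg.puigLower G ∧ Cfsg.puigSeq G (2 * n + 1) = Cfsg.puigSubgroup G) ∧
      Cfsg.puigLower G ≤ Cfsg.puigSubgroup G ∧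
      Cfsg.puigStep (Cfsg.puigLower G) = Cfsg.puigSubgroup G ∧ Cfsg.puigStep (Cfsg.puigSubgroup G) = Cfsg.puigLower G := by
  obtain ⟨k₁, hk₁⟩ := WellFoundedGT.monotone_chain_condition
    (⟨fun n => Cfsg.puigSeq G (2 * n), even_mono⟩ : ℕ →o Subgroup G)
  obtain ⟨k₂, hk₂⟩ := WellFoundedLT.antitone_chain_condition (odd_anti (G := G))
  simp only [OrderHom.coe_mk] at hk₁
  have hL : Cfsg.puigLower G = Cfsg.puigSeq G (2 * k₁) := by
    apply le_antisymm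
    · apply iSup_le
      intro n
      rcases le_total n k₁ with h | h
      · exact even_mono h
      · exact (hk₁ n h).ge
    · exact le_iSup (fun n => Cfsg.puigSeq G (2 * n)) k₁
  have hU : Cfsg.puigSubgroup G = Cfsg.puigSeq G (2 * k₂ + 1) := by
    apply le_antisymm
    · exact iInf_le (fun n => Cfsg.puigSeq G (2 * n + 1)) k₂
    · apply le_iInf
      intro n
      rcases le_total n k₂ with h | h
      · exact odd_anti h
      · exact (hk₂ n h).le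
  have hstab : ∀ n : ℕ, max k₁ k₂ ≤ n →
      Cfsg.puigSeq G (2 * n) = Cfsg.puigLower G ∧ Cfsg.puigSeq G (2 * n + 1) = Cfsg.puigSubgroup G := by
    intro n hn
    refine ⟨?_, ?_⟩
    · rw [hL]; exact (hk₁ n ((le_max_left _ _).trans hn)).symm
    · rw [hU]; exact (hk₂ n ((le_max_right _ _).trans hn)).symm
  refine ⟨rfl, seq_one, ?_, ⟨max k₁ k₂, hstab⟩, ?_, ?_, ?_⟩
  · intro n m
    exact ⟨(mono2 n).1, even_le_odd n m, (mono2 m).2⟩
  · exact iSup_le fun n => le_iInf fun m => even_le_odd n m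
  · obtain ⟨h1, h2⟩ := hstab (max k₁ k₂) le_rfl
    rw [← h1, ← h2]; rfl
  · obtain ⟨_, h2⟩ := hstab (max k₁ k₂) le_rfl
    obtain ⟨h3, _⟩ := hstab (max k₁ k₂ + 1) (Nat.le_succ _)
    rw [← h2, ← h3]; rfl

end Cfsg.Agent.S1467
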