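import Mathlib
import Cfsg.Statements.S1690
import Cfsg.Agent.Lib.Helper56.TCCox
import Cfsg.Agent.Lib.Helper56.Fi24a.Cert
-- import your own Cfsg.Agent.* helpers here

set_option autoImplicit false
open Cfsg

namespace Cfsg.Agent.S1690

open Cfsg.Agent.Lib.Helper56.TC Cfsg.Agent.Lib.Helper56.Fi24a in
/-- In the presented group Fi₂₄ = Fi₂₄′:2, the subgroup generated by the images of a, b, c, d, e, f, g, h, i, j and l (every generator but k) has index 306936. -/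
theorem result : (((Subgroup.closure ({Cfsg.Spor.Fi24.a, Cfsg.Spor.Fi24.b, Cfsg.Spor.Fi24.c, Cfsg.Spor.Fi24.d, Cfsg.Spor.Fi24.e, Cfsg.Spor.Fi24.f, Cfsg.Spor.Fi24.g, Cfsg.Spor.Fi24.h, Cfsg.Spor.Fi24.i, Cfsg.Spor.Fi24.j, Cfsg.Spor.Fi24.l} : Set (FreeGroup Cfsg.Spor.Fi24.Gen))).map (PresentedGroup.mk (Cfsg.Spor.coxRelators Cfsg.Spor.Fi24.edges ∪ {r | r ∈ Cfsg.Spor.Fi24.extra})))).index = 306936 := by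
  have hS : (({Cfsg.Spor.Fi24.a, Cfsg.Spor.Fi24.b, Cfsg.Spor.Fi24.c, Cfsg.Spor.Fi24.d, Cfsg.Spor.Fi24.e, Cfsg.Spor.Fi24.f, Cfsg.Spor.Fi24.g, Cfsg.Spor.Fi24.h, Cfsg.Spor.Fi24.i, Cfsg.Spor.Fi24.j, Cfsg.Spor.Fi24.l} : Set (FreeGroup Cfsg.Spor.Fi24.Gen))) = {r | r ∈ [Cfsg.Spor.Fi24.a, Cfsg.Spor.Fi24.b, Cfsg.Spor.Fi24.c, Cfsg.Spor.Fi24.d, Cfsg.Spor.Fi24.e, Cfsg.Spor.Fi24.f, Cfsg.Spor.Fi24.g, Cfsg.Spor.Fi24.h, Cfsg.Spor.Fi24.i, Cfsg.Spor.Fi24.j, Cfsg.Spor.Fi24.l]} := by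
    ext r; simp
  rw [hS]
  obtain ⟨h1, h2⟩ := cox_main Cfsg.Spor.Fi24.edges Cfsg.Spor.Fi24.extra T [Cfsg.Spor.Fi24.Gen.l, Cfsg.Spor.Fi24.Gen.k, Cfsg.Spor.Fi24.Gen.a, Cfsg.Spor.Fi24.Gen.b, Cfsg.Spor.Fi24.Gen.c, Cfsg.Spor.Fi24.Gen.d, Cfsg.Spor.Fi24.Gen.e, Cfsg.Spor.Fi24.Gen.f, Cfsg.Spor.Fi24.Gen.g, Cfsg.Spor.Fi24.Gen.j, Cfsg.Spor.Fi24.Gen.h, Cfsg.Spor.Fi24.Gen.i] [Cfsg.Spor.Fi24.a, Cfsg.Spor.Fi24.b, Cfsg.Spor.Fi24.c, Cfsg.Spor.Fi24.d, Cfsg.Spor.Fi24.e, Cfsg.Spor.Fi24.f, Cfsg.Spor.Fi24.g, Cfsg.Spor.Fi24.h, Cfsg.Spor.Fi24.i, Cfsg.Spor.Fi24.j, Cfsg.Spor.Fi24.l] cert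
    (by decide +kernel) (by decide) (by intro x; cases x <;> decide) (by decide)
    (fun l _ => rfl) (by decide +kernel) (by decide +kernel)
  exact h1

end Cfsg.Agent.S1690
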