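import Cfsg.Statements.S1691
import Mathlib

set_option autoImplicit false
open Cfsg

namespace Cfsg.Agent.S1691

open Cfsg.Spor

/-- The relators of the presented group. -/
abbrev rels : Set (FreeGroup Fi24.Gen) :=
  coxRelators Fi24.edges ∪ {r | r ∈ Fi24.extra}

/-- The sign homomorphism: every generator goes to the nontrivial element. -/
noncomputable def sgn : Fi24 →* Multiplicative (ZMod 2) :=
  PresentedGroup.toGroup (rels := rels) (f := fun _ => Multiplicative.ofAdd (1 : ZMod 2)) (by
    intro r hr
    rcases hr with hr | hr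
    · obtain ⟨x, -, y, -, rfl⟩ := hr
      have h2 : (Multiplicative.ofAdd (1 : ZMod 2)) * (Multiplicative.ofAdd (1 : ZMod 2)) = 1 := by
        decide
      simp [h2]
    · have hr' : r ∈ Fi24.extra := hr
      simp only [Fi24.extra, List.mem_cons, List.not_mem_nil, or_false] at hr'
      rcases hr' with rfl | rfl
      · simp only [map_mul, map_inv, map_pow, FreeGroup.lift_apply_of]
        decide
      · simp only [map_mul, map_pow, FreeGroup.lift_apply_of]
        decide)

theorem sgn_of (x : Fi24.Gen) :
    sgn (PresentedGroup.of x) = Multiplicative.ofAdd (1 : ZMod 2) := by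
  simp [sgn]

/-- A node squares to one in the presented group. -/
theorem sq_one (x : Fi24.Gen) (hx : x ∈ coxNodes Fi24.edges) :
    (PresentedGroup.of (rels := rels) x) * PresentedGroup.of x = 1 := by
  have h : (FreeGroup.of x * FreeGroup.of x) ∈ rels := by
    left
    refine ⟨x, hx, x, hx, ?_⟩
    simp [coxLabel]
  have := (PresentedGroup.mk_eq_one_iff (rels := rels)).2 (Subgroup.subset_normalClosure h)
  rw [map_mul] at this
  exact this

/-- Along an edge with label three, the product cubes to one. -/
theorem cube_one (x y : Fi24.Gen) (hx : x ∈ coxNodes Fi24.edges) (hy : y ∈ coxNodes Fi24.edges)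
    (hl : coxLabel Fi24.edges x y = 3) :
    ((PresentedGroup.of (rels := rels) x) * PresentedGroup.of y) ^ 3 = 1 := by
  have h : (FreeGroup.of x * FreeGroup.of y) ^ 3 ∈ rels := by
    left
    refine ⟨x, hx, y, hy, ?_⟩
    rw [hl]
  have := (PresentedGroup.mk_eq_one_iff (rels := rels)).2 (Subgroup.subset_normalClosure h)
  rw [map_pow, map_mul] at this
  exact this

/-- Images of the generators in the abelianization. -/
noncomputable def ab (x : Fi24.Gen) : Abelianization Fi24 :=
  Abelianization.of (PresentedGroup.of (rels := rels) x)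

theorem ab_sq (x : Fi24.Gen) (hx : x ∈ coxNodes Fi24.edges) : ab x * ab x = 1 := by
  unfold ab
  rw [← map_mul, sq_one x hx, map_one]

theorem ab_edge (x y : Fi24.Gen) (hx : x ∈ coxNodes Fi24.edges) (hy : y ∈ coxNodes Fi24.edges)
    (hl : coxLabel Fi24.edges x y = 3) : ab x = ab y := by
  have h3 : (ab x * ab y) ^ 3 = 1 := by
    unfold ab
    rw [← map_mul, ← map_pow, cube_one x y hx hy hl, map_one]
  have hx2 := ab_sq x hx
  have hy2 := ab_sq y hy
  have h : ab x * ab y = 1 := by
    have e : (ab x * ab y) ^ 3 = (ab x * ab x) * (ab y * ab y) * (ab x * ab y) := by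
      rw [mul_pow]
      simp only [pow_succ, pow_zero, one_mul]
      simp only [mul_assoc, mul_left_comm, mul_comm]
    rw [e, hx2, hy2, one_mul, one_mul] at h3
    exact h3
  calc ab x = ab x * (ab y * ab y) := by rw [hy2, mul_one]
    _ = (ab x * ab y) * ab y := by rw [mul_assoc]
    _ = ab y := by rw [h, one_mul]

theorem all_nodes (x : Fi24.Gen) : x ∈ coxNodes Fi24.edges := by
  cases x <;> decide

theorem ab_eq (x : Fi24.Gen) : ab x = ab Fi24.Gen.d := by
  have n := all_nodes
  have e1 : ab Fi24.Gen.c = ab Fi24.Gen.d := ab_edge _ _ (n _) (n _) (by decide)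
  have e2 : ab Fi24.Gen.b = ab Fi24.Gen.c := ab_edge _ _ (n _) (n _) (by decide)
  have e3 : ab Fi24.Gen.a = ab Fi24.Gen.b := ab_edge _ _ (n _) (n _) (by decide)
  have e4 : ab Fi24.Gen.k = ab Fi24.Gen.a := ab_edge _ _ (n _) (n _) (by decide)
  have e5 : ab Fi24.Gen.l = ab Fi24.Gen.k := ab_edge _ _ (n _) (n _) (by decide)
  have e6 : ab Fi24.Gen.d = ab Fi24.Gen.e := ab_edge _ _ (n _) (n _) (by decide)
  have e7 : ab Fi24.Gen.e = ab Fi24.Gen.f := ab_edge _ _ (n _) (n _) (by decide)
  have e8 : ab Fi24.Gen.f = ab Fi24.Gen.g := ab_edge _ _ (n _) (n _) (by decide)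
  have e9 : ab Fi24.Gen.g = ab Fi24.Gen.j := ab_edge _ _ (n _) (n _) (by decide)
  have e10 : ab Fi24.Gen.d = ab Fi24.Gen.h := ab_edge _ _ (n _) (n _) (by decide)
  have e11 : ab Fi24.Gen.h = ab Fi24.Gen.i := ab_edge _ _ (n _) (n _) (by decide)
  cases x
  · rw [e5, e4, e3, e2, e1]
  · rw [e4, e3, e2, e1]
  · rw [e3, e2, e1]
  · rw [e2, e1]
  · rw [e1]
  · rfl
  · rw [← e6]
  · rw [← e7, ← e6]
  · rw [← e8, ← e7, ← e6]
  · rw [← e9, ← e8, ← e7, ← e6]
  · rw [← e10]
  · rw [← e11, ← e10]

/-- Every element of the abelianization is trivial or the common image of the generators,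
according to its sign. -/
theorem key (g : Fi24) :
    (sgn g = 1 → Abelianization.of g = 1) ∧
    (sgn g ≠ 1 → Abelianization.of g = ab Fi24.Gen.d) := by
  have ht : ab Fi24.Gen.d * ab Fi24.Gen.d = 1 := ab_sq _ (all_nodes _)
  have hne : (Multiplicative.ofAdd (1 : ZMod 2)) ≠ 1 := by decide
  have hdich : ∀ u : Multiplicative (ZMod 2), u = 1 ∨ u = Multiplicative.ofAdd (1 : ZMod 2) := by
    decide
  have hmul : (Multiplicative.ofAdd (1 : ZMod 2)) * (Multiplicative.ofAdd (1 : ZMod 2)) = 1 := by
    decide
  induction g using PresentedGroup.induction_on with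
  | _ w =>
    induction w using FreeGroup.induction_on with
    | C1 =>
      refine ⟨fun _ => ?_, fun h => ?_⟩
      · exact map_one _
      · exact absurd (map_one _) h
    | of x =>
      refine ⟨fun h => ?_, fun _ => ?_⟩
      · exact absurd (h.symm.trans (sgn_of x)).symm hne
      · exact ab_eq x
    | inv_of x ih =>
      refine ⟨fun h => ?_, fun _ => ?_⟩
      · have h' : sgn (PresentedGroup.of x) = 1 := by
          have : sgn ((PresentedGroup.of x)⁻¹) = 1 := h
          rw [map_inv, inv_eq_one] at this
          exact this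
        exact absurd (h'.symm.trans (sgn_of x)).symm hne
      · have h1 : Abelianization.of (PresentedGroup.of (rels := rels) x) = ab Fi24.Gen.d := ab_eq x
        have : Abelianization.of ((PresentedGroup.of (rels := rels) x)⁻¹) = ab Fi24.Gen.d := by
          rw [map_inv, h1]
          exact inv_eq_of_mul_eq_one_left ht
        exact this
    | mul x y ihx ihy =>
      have hxy : (PresentedGroup.mk rels (x * y)) = PresentedGroup.mk rels x * PresentedGroup.mk rels y :=
        map_mul _ _ _
      rw [hxy]
      rcases hdich (sgn (PresentedGroup.mk rels x)) with hx | hx <;>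
      rcases hdich (sgn (PresentedGroup.mk rels y)) with hy | hy
      · refine ⟨fun _ => ?_, fun h => ?_⟩
        · rw [map_mul, ihx.1 hx, ihy.1 hy, one_mul]
        · exact absurd (by rw [map_mul, hx, hy, one_mul]) h
      · refine ⟨fun h => ?_, fun _ => ?_⟩
        · rw [map_mul, hx, hy, one_mul] at h
          exact absurd h hne
        · rw [map_mul, ihx.1 hx, ihy.2 (by rw [hy]; exact hne), one_mul]
      · refine ⟨fun h => ?_, fun _ => ?_⟩
        · rw [map_mul, hx, hy, mul_one] at h
          exact absurd h hne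
        · rw [map_mul, ihx.2 (by rw [hx]; exact hne), ihy.1 hy, mul_one]
      · refine ⟨fun _ => ?_, fun h => ?_⟩
        · rw [map_mul, ihx.2 (by rw [hx]; exact hne), ihy.2 (by rw [hy]; exact hne), ht]
        · exact absurd (by rw [map_mul, hx, hy, hmul]) h

theorem ker_eq : sgn.ker = commutator Fi24 := by
  apply le_antisymm
  · intro g hg
    have h := (key g).1 (MonoidHom.mem_ker.1 hg)
    have : (QuotientGroup.mk g : Fi24 ⧸ commutator Fi24) = 1 := h
    exact (QuotientGroup.eq_one_iff g).1 this
  · exact Abelianization.commutator_subset_ker sgn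

theorem sgn_surj : Function.Surjective sgn := by
  intro u
  have hdich : ∀ u : Multiplicative (ZMod 2), u = 1 ∨ u = Multiplicative.ofAdd (1 : ZMod 2) := by
    decide
  rcases hdich u with rfl | rfl
  · exact ⟨1, map_one _⟩
  · exact ⟨PresentedGroup.of Fi24.Gen.d, sgn_of _⟩

/-- The commutator subgroup of the presented group Fi₂₄ has index 2 (the presented group is Fi₂₄′:2 with Fi₂₄′ its derived subgroup). -/
theorem result : (commutator Cfsg.Spor.Fi24).index = 2 := by
  rw [← ker_eq, Subgroup.index_ker, MonoidHom.range_eq_top.2 sgn_surj]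
  rw [Nat.card_congr (Subgroup.topEquiv (G := Multiplicative (ZMod 2))).toEquiv]
  simp [Nat.card_eq_fintype_card]

end Cfsg.Agent.S1691
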