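import Mathlib
import Cfsg.Statements.S0019

set_option autoImplicit false
open Cfsg

namespace Cfsg.Agent.S0019

/-- a nontrivial finite solvable group has a nontrivial normal subgroup of prime exponent -/
theorem exists_normal_pgroup' (H : Type*) [Group H] [Finite H] [hs : Group.IsSolvable H] [Nontrivial H] :
    ∃ (N : Subgroup H) (r : ℕ), r.Prime ∧ N.Normal ∧ N ≠ ⊥ ∧ IsPGroup r N := by
  classical
  have hex : ∃ n, derivedSeries H n = ⊥ := hs.solvable
  have hfind := Nat.find_spec hex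
  have hmin : ∀ m, m < Nat.find hex → derivedSeries H m ≠ ⊥ := fun m hm => Nat.find_min hex hm
  have h0 : Nat.find hex ≠ 0 := by
    intro h
    rw [h, derivedSeries_zero] at hfind
    exact top_ne_bot hfind
  obtain ⟨k, hk⟩ := Nat.exists_eq_succ_of_ne_zero h0
  set A := derivedSeries H k with hA
  have hAne : A ≠ ⊥ := hmin k (by omega)
  have hAnorm : A.Normal := derivedSeries_normal H k
  have hAcomm : ∀ a ∈ A, ∀ b ∈ A, a * b = b * a := by
    have h1 : ⁅A, A⁆ = ⊥ := by
      rw [hA, ← derivedSeries_succ, ← Nat.succ_eq_add_one, ← hk]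
      exact hfind
    rw [Subgroup.commutator_eq_bot_iff_le_centralizer] at h1
    intro a ha b hb
    exact (Subgroup.mem_centralizer_iff.mp (h1 hb) a ha)
  have hcard : Nat.card A ≠ 1 := by
    intro h
    exact hAne (Subgroup.card_eq_one.mp h)
  set r := (Nat.card A).minFac with hr
  have hrp : r.Prime := Nat.minFac_prime hcard
  have : Fact r.Prime := ⟨hrp⟩
  have hrdvd : r ∣ Nat.card A := Nat.minFac_dvd _
  obtain ⟨a, ha⟩ := exists_prime_orderOf_dvd_card' r hrdvd
  let N : Subgroup H :=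
    { carrier := {x | x ∈ A ∧ x ^ r = 1}
      mul_mem' := by
        intro x y hx hy
        refine ⟨A.mul_mem hx.1 hy.1, ?_⟩
        have hc : Commute x y := hAcomm x hx.1 y hy.1
        rw [hc.mul_pow, hx.2, hy.2, one_mul]
      one_mem' := ⟨A.one_mem, one_pow r⟩
      inv_mem' := by
        intro x hx
        refine ⟨A.inv_mem hx.1, ?_⟩
        rw [inv_pow, hx.2, inv_one] }
  refine ⟨N, r, hrp, ?_, ?_, ?_⟩
  · constructor
    intro x hx g
    refine ⟨hAnorm.conj_mem x hx.1 g, ?_⟩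
    rw [conj_pow, hx.2, mul_one, mul_inv_cancel]
  · intro hbot
    have h1 : (a : H) ∈ N := by
      refine ⟨a.2, ?_⟩
      have h2 : a ^ r = 1 := by rw [← ha]; exact pow_orderOf_eq_one a
      have h3 := congrArg Subtype.val h2
      simpa using h3
    rw [hbot, Subgroup.mem_bot] at h1
    have h4 : a = 1 := Subtype.ext h1
    rw [h4, orderOf_one] at ha
    exact hrp.ne_one ha.symm
  · intro x
    refine ⟨1, ?_⟩
    apply Subtype.ext
    have := x.2.2
    simpa using this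

/-- the same inside an ambient group -/
theorem exists_normal_pgroup {G : Type*} [Group G] [Finite G] (H : Subgroup G)
    (hs : Group.IsSolvable H) (hne : H ≠ ⊥) :
    ∃ (N : Subgroup G) (r : ℕ), r.Prime ∧ N ≠ ⊥ ∧ IsPGroup r N ∧
      (∀ x ∈ H, ∀ a ∈ N, x * a * x⁻¹ ∈ N) := by
  have : Nontrivial H := (Subgroup.nontrivial_iff_ne_bot H).mpr hne
  obtain ⟨N, r, hr, hNn, hNne, hNp⟩ := exists_normal_pgroup' H
  refine ⟨N.map H.subtype, r, hr, ?_, ?_, ?_⟩
  · intro h
    exact hNne ((Subgroup.map_eq_bot_iff_of_injective N H.subtype_injective).mp h)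
  · exact hNp.map H.subtype
  · intro x hx a ha
    obtain ⟨b, hb, rfl⟩ := Subgroup.mem_map.mp ha
    refine Subgroup.mem_map.mpr ⟨⟨x, hx⟩ * b * ⟨x, hx⟩⁻¹, hNn.conj_mem b hb ⟨x, hx⟩, ?_⟩
    simp

/-- the normal closure of a normal `r`-subgroup of `H₁` lies in a factor of index prime to `r` -/
theorem closure_le {G : Type*} [Group G] [Finite G] (H₁ K N : Subgroup G) (r : ℕ) [Fact r.Prime]
    (hNr : IsPGroup r N) (hnorm : ∀ x ∈ H₁, ∀ a ∈ N, x * a * x⁻¹ ∈ N)
    (hprod : ∀ g : G, ∃ x ∈ H₁, ∃ y ∈ K, g = x * y) (hr : ¬ r ∣ K.index) :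
    Subgroup.normalClosure (N : Set G) ≤ K := by
  -- a fixed point of N on the cosets of K
  have hfix : ∃ g : G, ∀ a ∈ N, g⁻¹ * a * g ∈ K := by
    have hcard : ¬ r ∣ Nat.card (G ⧸ K) := by
      rw [← Subgroup.index_eq_card]; exact hr
    obtain ⟨q, hq⟩ := hNr.nonempty_fixed_point_of_prime_not_dvd_card (G ⧸ K) hcard
    induction q using QuotientGroup.induction_on with
    | H g =>
      refine ⟨g, fun a ha => ?_⟩
      have h1 : (⟨a⁻¹, N.inv_mem ha⟩ : N) • (g : G ⧸ K) = (g : G ⧸ K) := hq ⟨a⁻¹, N.inv_mem ha⟩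
      have h2 : ((a⁻¹ * g : G) : G ⧸ K) = (g : G ⧸ K) := h1
      have h3 := QuotientGroup.eq.mp h2
      have h4 : (a⁻¹ * g)⁻¹ * g = g⁻¹ * a * g := by group
      rw [h4] at h3
      exact h3
  obtain ⟨g, hg⟩ := hfix
  obtain ⟨x, hx, y, hy, rfl⟩ := hprod g
  have hNK : ∀ a ∈ N, a ∈ K := by
    intro a ha
    have h1 : x * a * x⁻¹ ∈ N := hnorm x hx a ha
    have h2 := hg _ h1
    have h3 : (x * y)⁻¹ * (x * a * x⁻¹) * (x * y) = y⁻¹ * a * y := by group
    rw [h3] at h2
    have h4 : a = y * (y⁻¹ * a * y) * y⁻¹ := by group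
    rw [h4]
    exact K.mul_mem (K.mul_mem hy h2) (K.inv_mem hy)
  rw [Subgroup.normalClosure, Subgroup.closure_le]
  intro c hc
  obtain ⟨a, ha, hconj⟩ := Group.mem_conjugatesOfSet_iff.mp hc
  obtain ⟨t, rfl⟩ := isConj_iff.mp hconj
  obtain ⟨x', hx', y', hy', ht⟩ := hprod t⁻¹
  have ht' : t = y'⁻¹ * x'⁻¹ := by
    have : t = (t⁻¹)⁻¹ := by group
    rw [this, ht]; group
  have h1 : x'⁻¹ * a * x'⁻¹⁻¹ ∈ N := hnorm x'⁻¹ (H₁.inv_mem hx') a ha
  have h2 : t * a * t⁻¹ = y'⁻¹ * (x'⁻¹ * a * x'⁻¹⁻¹) * y' := by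
    rw [ht']; group
  show t * a * t⁻¹ ∈ K
  rw [h2]
  exact K.mul_mem (K.mul_mem (K.inv_mem hy') (hNK _ h1)) hy'

/-- the induction -/
theorem aux (n : ℕ) : ∀ (G : Type*) [Group G] [Finite G], Nat.card G = n →
    ∀ (H₁ H₂ H₃ : Subgroup G), Group.IsSolvable H₁ → Group.IsSolvable H₂ → Group.IsSolvable H₃ →
    (∀ g : G, ∃ x ∈ H₁, ∃ y ∈ H₂, g = x * y) → (∀ g : G, ∃ x ∈ H₁, ∃ y ∈ H₃, g = x * y) →
    H₂.index.Coprime H₃.index → Group.IsSolvable G := by
  induction n using Nat.strong_induction_on with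
  | _ n ih =>
    intro G _ _ hn H₁ H₂ H₃ h₁ h₂ h₃ h12 h13 hcop
    by_cases hH1 : H₁ = ⊥
    · have htop : ∀ g : G, g ∈ H₂ := by
        intro g
        obtain ⟨x, hx, y, hy, rfl⟩ := h12 g
        rw [hH1, Subgroup.mem_bot] at hx
        rw [hx, one_mul]; exact hy
      have hsurj : Function.Surjective H₂.subtype := fun g => ⟨⟨g, htop g⟩, rfl⟩
      exact Group.isSolvable_of_surjective hsurj
    obtain ⟨N, r, hr, hNne, hNr, hnorm⟩ := exists_normal_pgroup H₁ h₁ hH1
    have : Fact r.Prime := ⟨hr⟩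
    -- the normal closure M of N lies in a solvable subgroup
    have hM : ∃ K : Subgroup G, Group.IsSolvable K ∧ Subgroup.normalClosure (N : Set G) ≤ K := by
      by_cases h2 : r ∣ H₂.index
      · have h3 : ¬ r ∣ H₃.index := by
          intro h3
          have := Nat.dvd_gcd h2 h3
          rw [hcop] at this
          exact hr.one_lt.ne' (Nat.dvd_one.mp this)
        exact ⟨H₃, h₃, closure_le H₁ H₃ N r hNr hnorm h13 h3⟩
      · exact ⟨H₂, h₂, closure_le H₁ H₂ N r hNr hnorm h12 h2⟩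
    obtain ⟨K, hKs, hMK⟩ := hM
    set M := Subgroup.normalClosure (N : Set G) with hMdef
    have hMn : M.Normal := Subgroup.normalClosure_normal
    have hMne : M ≠ ⊥ := by
      intro h
      apply hNne
      rw [eq_bot_iff, ← h]
      exact Subgroup.subset_normalClosure
    have hMsol : Group.IsSolvable M :=
      Group.isSolvable_of_isSolvable_injective (Subgroup.inclusion_injective hMK)
    -- the quotient
    have hcard : Nat.card (G ⧸ M) < n := by
      rw [← hn, ← Subgroup.index_eq_card]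
      have h1 := M.card_mul_index
      have h2 : 1 < Nat.card M := by
        rw [Subgroup.one_lt_card_iff_ne_bot]
        exact hMne
      have h3 : 0 < M.index := Nat.pos_of_ne_zero Subgroup.index_ne_zero_of_finite
      nlinarith
    have hsurj : Function.Surjective (QuotientGroup.mk' M) := QuotientGroup.mk'_surjective M
    have hsol : ∀ H : Subgroup G, Group.IsSolvable H → Group.IsSolvable (H.map (QuotientGroup.mk' M)) := by
      intro H hH
      exact Group.isSolvable_of_surjective ((QuotientGroup.mk' M).subgroupMap_surjective H)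
    have hprod : ∀ H H' : Subgroup G, (∀ g : G, ∃ x ∈ H, ∃ y ∈ H', g = x * y) →
        ∀ q : G ⧸ M, ∃ x ∈ H.map (QuotientGroup.mk' M), ∃ y ∈ H'.map (QuotientGroup.mk' M),
          q = x * y := by
      intro H H' hHH' q
      obtain ⟨g, rfl⟩ := hsurj q
      obtain ⟨x, hx, y, hy, rfl⟩ := hHH' g
      exact ⟨_, Subgroup.mem_map_of_mem _ hx, _, Subgroup.mem_map_of_mem _ hy, map_mul _ _ _⟩
    have hcop' : (H₂.map (QuotientGroup.mk' M)).index.Coprime (H₃.map (QuotientGroup.mk' M)).index :=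
      Nat.Coprime.of_dvd (Subgroup.index_map_dvd H₂ hsurj) (Subgroup.index_map_dvd H₃ hsurj) hcop
    have hQ : Group.IsSolvable (G ⧸ M) :=
      ih _ hcard (G ⧸ M) rfl _ _ _ (hsol H₁ h₁) (hsol H₂ h₂) (hsol H₃ h₃) (hprod H₁ H₂ h12)
        (hprod H₁ H₃ h13) hcop'
    exact Group.isSolvable_of_ker_le_range M.subtype (QuotientGroup.mk' M) (by simp)

/-- If a finite group G is the product H₁H₂ and also the product H₁H₃ of solvable subgroups, where H₂ and H₃ have coprime indices in G, then G is solvable. -/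
theorem result {G : Type*} [Group G] [Finite G] (H₁ H₂ H₃ : Subgroup G)
    (h₁ : Group.IsSolvable H₁) (h₂ : Group.IsSolvable H₂) (h₃ : Group.IsSolvable H₃)
    (h12 : ∀ g : G, ∃ x ∈ H₁, ∃ y ∈ H₂, g = x * y) (h13 : ∀ g : G, ∃ x ∈ H₁, ∃ y ∈ H₃, g = x * y)
    (hcop : H₂.index.Coprime H₃.index) : Group.IsSolvable G := by
  exact aux (Nat.card G) G rfl H₁ H₂ H₃ h₁ h₂ h₃ h12 h13 hcop

end Cfsg.Agent.S0019
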