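import Mathlib
import Cfsg.Statements.S1281
import Cfsg.Agent.Lib.Helper22.Coprime

set_option autoImplicit false
open Cfsg

namespace Cfsg.Agent.S1281

/-- Let θ be a solvable A-signalizer functor on the finite group G (A a noncyclic elementary abelian p-subgroup) and N a normal subgroup of order prime to p. Then for all non-identity a, b ∈ A, the image of θ a in G / N meets the centralizer of the image of b inside the image of θ b. -/
theorem result {G : Type*} [Group G] [Finite G] (p : ℕ) [Fact p.Prime] (A : Subgroup G) (hA : Cfsg.IsElementaryAbelian p A) (hA2 : p ^ 2 ≤ Nat.card ↥A) (θ : G → Subgroup G) (hθ : Cfsg.IsSolvableSignalizerFunctor p A θ) (N : Subgroup G) [N.Normal] (hN : ¬ p ∣ Nat.card ↥N) (a b : G) (ha : a ∈ A) (ha1 : a ≠ 1) (hb : b ∈ A) (hb1 : b ≠ 1) : (θ a).map (QuotientGroup.mk' N) ⊓ Subgroup.centralizer {QuotientGroup.mk' N b} ≤ (θ b).map (QuotientGroup.mk' N) := by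
  obtain ⟨⟨-, hcard, hinv, hbal⟩, -⟩ := hθ
  have hp : p.Prime := Fact.out
  rintro y ⟨hy1, hy2⟩
  obtain ⟨x, hx, rfl⟩ := Subgroup.mem_map.mp hy1
  have hx : x ∈ θ a := hx
  have hy2 : QuotientGroup.mk' N x ∈ Subgroup.centralizer {QuotientGroup.mk' N b} := hy2
  rw [Subgroup.mem_centralizer_iff] at hy2
  have hcomm : QuotientGroup.mk' N b * QuotientGroup.mk' N x = QuotientGroup.mk' N x * QuotientGroup.mk' N b :=
    hy2 _ (Set.mem_singleton _)
  -- the p-group generated by b
  have hob : orderOf b = p := orderOf_eq_prime (hA.2 b hb) hb1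
  have hP : IsPGroup p (Subgroup.zpowers b) := by
    apply IsPGroup.of_card (n := 1)
    rw [Nat.card_zpowers, hob, pow_one]
  have hM : ¬ p ∣ Nat.card (N ⊓ θ a : Subgroup G) := by
    intro hdvd
    exact hcard a ha ha1 (dvd_trans hdvd (Subgroup.card_dvd_of_le inf_le_right))
  have hzA : Subgroup.zpowers b ≤ A := by
    rw [Subgroup.zpowers_le]; exact hb
  have hstab : ∀ g ∈ Subgroup.zpowers b, ∀ m ∈ (N ⊓ θ a : Subgroup G),
      x⁻¹ * (g * (x * m) * g⁻¹) ∈ (N ⊓ θ a : Subgroup G) := by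
    intro g hg m hm
    have hgcomm : QuotientGroup.mk' N g * QuotientGroup.mk' N x =
        QuotientGroup.mk' N x * QuotientGroup.mk' N g := by
      obtain ⟨k, rfl⟩ := Subgroup.mem_zpowers_iff.mp hg
      rw [map_zpow]
      exact ((Commute.zpow_left (show Commute (QuotientGroup.mk' N b) (QuotientGroup.mk' N x) from hcomm) k)).eq
    refine Subgroup.mem_inf.mpr ⟨?_, ?_⟩
    · have hmN : QuotientGroup.mk' N m = 1 := by
        rw [QuotientGroup.mk'_apply, QuotientGroup.eq_one_iff]; exact hm.1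
      have : QuotientGroup.mk' N (x⁻¹ * (g * (x * m) * g⁻¹)) = 1 := by
        rw [map_mul, map_mul, map_mul, map_mul, map_inv, map_inv, hmN, mul_one, hgcomm]
        group
      rw [QuotientGroup.mk'_apply, QuotientGroup.eq_one_iff] at this
      exact this
    · exact (θ a).mul_mem ((θ a).inv_mem hx)
        (hinv a ha ha1 g (hzA hg) (x * m) ((θ a).mul_mem hx hm.2))
  obtain ⟨m, hm, hfix⟩ := Cfsg.Agent.Lib.Helper22.exists_fixed_in_coset
    (Subgroup.zpowers b) (N ⊓ θ a) hP hM x hstab
  have hfixb := hfix b (Subgroup.mem_zpowers b)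
  have hmem : x * m ∈ θ a ⊓ Subgroup.centralizer {b} := by
    refine Subgroup.mem_inf.mpr ⟨(θ a).mul_mem hx hm.2, ?_⟩
    rw [Subgroup.mem_centralizer_iff]
    intro h hh
    rw [Set.mem_singleton_iff] at hh
    subst hh
    calc h * (x * m) = h * (x * m) * h⁻¹ * h := by group
      _ = x * m * h := by rw [hfixb]
  have hθb : x * m ∈ θ b := hbal a ha ha1 b hb hb1 hmem
  refine Subgroup.mem_map.mpr ⟨x * m, hθb, ?_⟩
  have hmN : QuotientGroup.mk' N m = 1 := by
    rw [QuotientGroup.mk'_apply, QuotientGroup.eq_one_iff]; exact hm.1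
  rw [map_mul, hmN, mul_one]

end Cfsg.Agent.S1281
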