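import Mathlib
import Cfsg.Statements.S1285
import Cfsg.Agent.S1283

set_option autoImplicit false
open Cfsg

namespace Cfsg.Agent.S1285

/-- Let θ be a solvable A-signalizer functor on the finite group G with A elementary abelian of rank at least 3, and suppose that for some prime q every θ a (a ∈ A non-identity) is a q-group. Then θ is complete. -/
theorem result {G : Type*} [Group G] [Finite G] (p : ℕ) [Fact p.Prime] (A : Subgroup G) (hA : Cfsg.IsElementaryAbelian p A) (hA3 : p ^ 3 ≤ Nat.card ↥A) (θ : G → Subgroup G) (hθ : Cfsg.IsSolvableSignalizerFunctor p A θ) (q : ℕ) [Fact q.Prime] (hq : ∀ a ∈ A, a ≠ 1 → IsPGroup q ↥(θ a)) : Cfsg.IsCompleteSignalizerFunctor p A θ := by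
  have hθ' := hθ
  obtain ⟨⟨h1, h2, h3, h4⟩, hsolv⟩ := hθ
  refine ⟨⟨h1, h2, h3, h4⟩, ?_⟩
  have hfam : ∀ a ∈ A, a ≠ 1 → θ a ∈ Cfsg.signalizerFamily p A θ := by
    intro a ha ha1
    exact ⟨hsolv a ha ha1, h2 a ha ha1, fun b hb u hu => h3 a ha ha1 b hb u hu,
      fun b hb hb1 => h4 a ha ha1 b hb hb1⟩
  by_cases hex : ∃ a ∈ A, a ≠ 1 ∧ q ∣ Nat.card ↥(θ a)
  · have hex' := hex
    obtain ⟨a₀, ha₀, ha₀1, -⟩ := hex
    obtain ⟨Q, -, hQmax⟩ := Cfsg.Agent.S1283.exists_maxQ (hfam a₀ ha₀ ha₀1) (hq a₀ ha₀ ha₀1)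
    obtain ⟨hQF, hQq, hQm⟩ := hQmax
    refine ⟨Q, hQF.2.2.1, hQF.2.1, ?_⟩
    intro a ha ha1
    apply le_antisymm (hQF.2.2.2 a ha ha1)
    apply le_inf _ (h1 a ha ha1)
    obtain ⟨Q', hQ'le, hQ'F, hQ'q, hQ'm⟩ :=
      Cfsg.Agent.S1283.exists_maxQ (hfam a ha ha1) (hq a ha ha1)
    obtain ⟨c, hc, hcQ⟩ := Cfsg.Agent.S1283.result p A hA hA3 θ hθ' q hex' Q' Q hQ'F hQ'q hQ'm
      hQF hQq hQm
    have hca : c ∈ θ a := (Subgroup.mem_iInf.mp hc) ⟨a, ha, ha1⟩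
    intro x hx
    rw [← hcQ, Cfsg.Agent.Lib.Helper90.mem_map_conj_iff]
    apply hQ'le
    exact (θ a).mul_mem ((θ a).mul_mem ((θ a).inv_mem hca) hx) hca
  · refine ⟨⊥, ?_, ?_, ?_⟩
    · intro b _ x hx
      rw [Subgroup.mem_bot] at hx ⊢
      rw [hx]; group
    · rw [Subgroup.card_bot]
      exact (Nat.Prime.one_lt Fact.out).ne' ∘ Nat.dvd_one.mp
    · intro a ha ha1
      have hbot : θ a = ⊥ := by
        obtain ⟨k, hk⟩ := (hq a ha ha1).exists_card_eq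
        have hnd : ¬ q ∣ Nat.card ↥(θ a) := fun h => hex ⟨a, ha, ha1, h⟩
        rw [← Subgroup.card_eq_one]
        rw [hk] at hnd ⊢
        rcases Nat.eq_zero_or_pos k with h0 | h0
        · rw [h0, pow_zero]
        · exact absurd (dvd_pow_self q h0.ne') hnd
      rw [hbot, bot_inf_eq]

end Cfsg.Agent.S1285
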