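import Mathlib
import Cfsg.Agent.Lib.Helper22.Layer
import Cfsg.Agent.S1324
import Cfsg.Statements.S1331

set_option autoImplicit false
open Cfsg

namespace Cfsg.Agent.S1331

/-- Let θ be a solvable A-signalizer functor on the finite group G for the prime p, A elementary abelian of rank at least 3, X a member of the family of θ, and B ≤ A with |B| ≥ p². Then X is generated by the subgroups X ∩ ⋂_{d ∈ D, d ≠ 1} θ d, D ranging over the subgroups of index p in B. -/
theorem result {G : Type*} [Group G] [Finite G] (p : ℕ) [Fact p.Prime] (A : Subgroup G) (hA : Cfsg.IsElementaryAbelian p A) (hA3 : p ^ 3 ≤ Nat.card ↥A) (θ : G → Subgroup G) (hθ : Cfsg.IsSolvableSignalizerFunctor p A θ) (X : Subgroup G) (hX : X ∈ Cfsg.signalizerFamily p A θ) (B : Subgroup G) (hB : B ≤ A) (hB2 : p ^ 2 ≤ Nat.card ↥B) : X = ⨆ D : {D : Subgroup G // D ≤ B ∧ D.relIndex B = p}, X ⊓ Cfsg.signalizerInf (D : Subgroup G) θ := by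
  classical
  obtain ⟨hsolv, hXp, hXA, hXθ⟩ := hX
  have hpp : p.Prime := Fact.out
  have hBea : Cfsg.IsElementaryAbelian p B := by
    refine ⟨⟨⟨fun a b => ?_⟩⟩, fun a ha => hA.2 a (hB ha)⟩
    have h1 := hA.1.is_comm.comm (⟨a.1, hB a.2⟩ : A) ⟨b.1, hB b.2⟩
    exact Subtype.ext (congrArg (fun w : A => (w : G)) h1)
  have hBX : B ≤ Subgroup.normalizer (X : Set G) :=
    Cfsg.Agent.Lib.Helper22.le_normalizer_of_conj_mem (fun g hg n hn => hXA g (hB hg) n hn)
  have h24 := Cfsg.Agent.S1324.result p B X hBea hB2 hXp hBX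
  have hBpg : IsPGroup p B := by
    intro x
    refine ⟨1, Subtype.ext ?_⟩
    rw [pow_one]
    exact hBea.2 x x.2
  apply le_antisymm
  · refine h24.le.trans (iSup_le ?_)
    rintro ⟨B', hB'B, hB'idx⟩
    obtain ⟨D, hDB', hDB, hDidx⟩ : ∃ D : Subgroup G, D ≤ B' ∧ D ≤ B ∧ D.relIndex B = p := by
      obtain ⟨n, hn⟩ := hBpg.index (B'.subgroupOf B)
      have hn' : B'.relIndex B = p ^ n := hn
      have hn1 : n ≤ 1 := by
        by_contra hcon
        push Not at hcon
        have h1 : p ^ 2 ≤ p ^ n := Nat.pow_le_pow_right hpp.pos hcon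
        have h2 : p < p ^ 2 := by
          calc p = p ^ 1 := (pow_one p).symm
            _ < p ^ 2 := Nat.pow_lt_pow_right hpp.one_lt (by norm_num)
        omega
      interval_cases n
      · -- B' = B
        have hBB' : B ≤ B' := Subgroup.relIndex_eq_one.mp (by rw [hn', pow_zero])
        obtain ⟨k, hk⟩ := hBpg.exists_card_eq
        have hk2 : 2 ≤ k := by
          by_contra hcon
          push Not at hcon
          have h1 : p ^ k ≤ p ^ 1 := Nat.pow_le_pow_right hpp.pos (by omega)
          have h2 : p < p ^ 2 := by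
            calc p = p ^ 1 := (pow_one p).symm
              _ < p ^ 2 := Nat.pow_lt_pow_right hpp.one_lt (by norm_num)
          rw [hk] at hB2
          rw [pow_one] at h1
          omega
        obtain ⟨K, hK⟩ := Sylow.exists_subgroup_card_pow_prime p
          (G := ↥B) (n := k - 1) (by rw [hk]; exact pow_dvd_pow p (by omega))
        refine ⟨K.map B.subtype, (Subgroup.map_subtype_le K).trans hBB', Subgroup.map_subtype_le K, ?_⟩
        rw [Subgroup.relIndex, Subgroup.subgroupOf,
          Subgroup.comap_map_eq_self_of_injective B.subtype_injective]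
        have h3 : Nat.card K * K.index = Nat.card B := Subgroup.card_mul_index K
        rw [hK, hk] at h3
        have h4 : p ^ k = p ^ (k - 1) * p := by
          rw [← pow_succ]; congr 1; omega
        rw [h4] at h3
        exact Nat.eq_of_mul_eq_mul_left (pow_pos hpp.pos _) h3
      · exact ⟨B', le_rfl, hB'B, by rw [hn', pow_one]⟩
    refine le_trans ?_ (le_iSup (fun D : {D : Subgroup G // D ≤ B ∧ D.relIndex B = p} =>
      X ⊓ Cfsg.signalizerInf (D : Subgroup G) θ) ⟨D, hDB, hDidx⟩)
    refine le_inf inf_le_left ?_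
    unfold Cfsg.signalizerInf
    refine le_iInf ?_
    rintro ⟨d, hdD, hd1⟩
    refine le_trans ?_ (hXθ d (hB (hDB hdD)) hd1)
    refine le_inf inf_le_left (inf_le_right.trans ?_)
    apply Subgroup.centralizer_le
    intro y hy
    rw [Set.mem_singleton_iff] at hy
    rw [hy]
    exact hDB' hdD
  · exact iSup_le fun D => inf_le_left

end Cfsg.Agent.S1331
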