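import Mathlib
import Cfsg.Statements.S3784

set_option autoImplicit false
open Cfsg

namespace Cfsg.Agent.S3784

open Finset

theorem geom_parity (x : ℤ) (hx : Odd x) (n : ℕ) :
    (Odd n → Odd (∑ i ∈ range n, x ^ i)) ∧ (Even n → Even (∑ i ∈ range n, x ^ i)) := by
  induction n with
  | zero => simp
  | succ n ih =>
    rw [Finset.sum_range_succ]
    constructor
    · intro h
      have hn : Even n := by
        rcases Nat.even_or_odd n with h' | h'
        · exact h'
        · exact absurd h (Nat.not_odd_iff_even.mpr (Nat.even_add_one.mpr (Nat.not_even_iff_odd.mpr h')))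
      exact (ih.2 hn).add_odd hx.pow
    · intro h
      have hn : Odd n := by
        rcases Nat.even_or_odd n with h' | h'
        · exact absurd h (Nat.not_even_iff_odd.mpr (Even.add_one h'))
        · exact h'
      exact (ih.1 hn).add_odd hx.pow

/-- an odd integer dividing a power of two is `1` or `-1` -/
theorem odd_dvd_two_pow (s : ℤ) (hs : Odd s) (a : ℕ) (h : s ∣ 2 ^ a) : s = 1 ∨ s = -1 := by
  have h1 : s.natAbs ∣ 2 ^ a := by
    have := Int.natAbs_dvd_natAbs.mpr h
    simpa [Int.natAbs_pow] using this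
  obtain ⟨j, -, hj⟩ := (Nat.dvd_prime_pow Nat.prime_two).mp h1
  have hodd : Odd s.natAbs := Int.natAbs_odd.mpr hs
  have hj0 : j = 0 := by
    by_contra hne
    rw [hj] at hodd
    exact (Nat.not_even_iff_odd.mpr hodd) (Nat.even_pow.mpr ⟨even_two, hne⟩)
  rw [hj0, pow_zero] at hj
  exact Int.natAbs_eq_natAbs_iff.mp (by simpa using hj)

theorem key1 (q a b : ℕ) (hq : Odd q) (hb : Odd b) (h : 2 ^ a = q ^ b + 1) (hq2 : 2 ≤ q) : b = 1 := by
  have hx : Odd (-(q : ℤ)) := by
    rw [odd_neg]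
    exact_mod_cast hq
  have hS := (geom_parity (-(q : ℤ)) hx b).1 hb
  have hmul := mul_neg_geom_sum (-(q : ℤ)) b
  rw [Odd.neg_pow hb] at hmul
  have h' : ((2 : ℤ)) ^ a = (q : ℤ) ^ b + 1 := by exact_mod_cast h
  have hmul' : (1 + (q : ℤ)) * ∑ i ∈ range b, (-(q : ℤ)) ^ i = 2 ^ a := by
    rw [h']
    have : (1 : ℤ) - -(q : ℤ) = 1 + q := by ring
    rw [← this, hmul]
    ring
  have hdvd : (∑ i ∈ range b, (-(q : ℤ)) ^ i) ∣ 2 ^ a := Dvd.intro_left _ hmul'
  rcases odd_dvd_two_pow _ hS a hdvd with h1 | h1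
  · rw [h1, mul_one, h'] at hmul'
    have h2 : (q : ℤ) ^ b = q := by linarith
    have h3 : q ^ b = q := by exact_mod_cast h2
    exact (Nat.pow_eq_self_iff (by omega)).mp h3
  · rw [h1] at hmul'
    have : (0 : ℤ) < 2 ^ a := by positivity
    have hq0 : (0 : ℤ) ≤ q := by positivity
    nlinarith

theorem key2 (p a b : ℕ) (hp : Odd p) (ha : Odd a) (h : p ^ a = 2 ^ b + 1) (hp2 : 2 ≤ p) : a = 1 := by
  have hx : Odd ((p : ℤ)) := by exact_mod_cast hp
  have hS := (geom_parity (p : ℤ) hx a).1 ha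
  have hmul := mul_geom_sum (p : ℤ) a
  have h' : ((p : ℤ)) ^ a = (2 : ℤ) ^ b + 1 := by exact_mod_cast h
  have hmul' : ((p : ℤ) - 1) * ∑ i ∈ range a, (p : ℤ) ^ i = 2 ^ b := by
    rw [hmul, h']
    ring
  have hdvd : (∑ i ∈ range a, (p : ℤ) ^ i) ∣ 2 ^ b := Dvd.intro_left _ hmul'
  have hp2' : (2 : ℤ) ≤ p := by exact_mod_cast hp2
  rcases odd_dvd_two_pow _ hS b hdvd with h1 | h1
  · rw [h1, mul_one] at hmul'
    have h2 : (p : ℤ) ^ a = p := by linarith
    have h3 : p ^ a = p := by exact_mod_cast h2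
    exact (Nat.pow_eq_self_iff (by omega)).mp h3
  · rw [h1] at hmul'
    have : (0 : ℤ) < 2 ^ b := by positivity
    nlinarith

/-- if `x^2 = 2^b + 1` then `x = 3` -/
theorem key3 (x b : ℕ) (h : x ^ 2 = 2 ^ b + 1) : x = 3 ∧ b = 3 := by
  have hx1 : 1 ≤ x := by
    rcases Nat.eq_zero_or_pos x with h0 | h0
    · rw [h0] at h
      simp at h
    · exact h0
  have hfac : (x - 1) * (x + 1) = 2 ^ b := by
    have : (x - 1) * (x + 1) + 1 = x ^ 2 := by
      obtain ⟨y, rfl⟩ : ∃ y, x = y + 1 := ⟨x - 1, by omega⟩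
      simp only [Nat.add_sub_cancel]
      ring
    omega
  obtain ⟨i, -, hi⟩ := (Nat.dvd_prime_pow Nat.prime_two).mp (Dvd.intro _ hfac)
  obtain ⟨j, -, hj⟩ := (Nat.dvd_prime_pow Nat.prime_two).mp (Dvd.intro_left _ hfac)
  have hij : 2 ^ i + 2 = 2 ^ j := by omega
  have hi1 : i = 1 := by
    rcases Nat.lt_or_ge i 2 with hlt | hge
    · interval_cases i
      · -- 2^j = 3
        exfalso
        have : 2 ^ j = 3 := by omega
        rcases Nat.lt_or_ge j 2 with hj2 | hj2
        · interval_cases j <;> omega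
        · have : 4 ∣ 2 ^ j := by
            obtain ⟨k, rfl⟩ : ∃ k, j = 2 + k := ⟨j - 2, by omega⟩
            exact Dvd.intro _ (pow_add 2 2 k).symm
          omega
      · rfl
    · exfalso
      have h4i : 4 ∣ 2 ^ i := by
        obtain ⟨k, rfl⟩ : ∃ k, i = 2 + k := ⟨i - 2, by omega⟩
        exact Dvd.intro _ (pow_add 2 2 k).symm
      have hj2 : 2 ≤ j := by
        by_contra hlt
        have : j < 2 := by omega
        have h1 : 2 ^ i ≥ 4 := Nat.le_of_dvd (by positivity) h4i
        interval_cases j <;> omega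
      have h4j : 4 ∣ 2 ^ j := by
        obtain ⟨k, rfl⟩ : ∃ k, j = 2 + k := ⟨j - 2, by omega⟩
        exact Dvd.intro _ (pow_add 2 2 k).symm
      omega
  subst hi1
  have hx3 : x = 3 := by omega
  subst hx3
  refine ⟨rfl, ?_⟩
  have : 2 ^ b = 2 ^ 3 := by omega
  exact Nat.pow_right_injective le_rfl this

/-- Let p, q be primes and a, b positive integers with p^a = q^b + 1. Then either p = 2, b = 1, a is prime and q = 2^a − 1; or q = 2, a = 1, b is a power of 2 and p = 2^b + 1; or p^a = 9 and q^b = 8. -/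
theorem result (p q a b : ℕ) (hp : p.Prime) (hq : q.Prime) (ha : 1 ≤ a) (hb : 1 ≤ b) (h : p ^ a = q ^ b + 1) : (p = 2 ∧ b = 1 ∧ a.Prime ∧ q + 1 = 2 ^ a) ∨ (q = 2 ∧ a = 1 ∧ (∃ m : ℕ, b = 2 ^ m) ∧ p = 2 ^ b + 1) ∨ (p ^ a = 9 ∧ q ^ b = 8) := by
  have ha0 : a ≠ 0 := by omega
  have hb0 : b ≠ 0 := by omega
  rcases hp.eq_two_or_odd' with hp2 | hpodd
  · -- p = 2
    subst hp2
    left
    have hqodd : Odd q := by
      rcases hq.eq_two_or_odd' with hq2 | hqo
      · exfalso
        subst hq2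
        have h1 : Even (2 ^ a) := Nat.even_pow.mpr ⟨even_two, ha0⟩
        have h2 : Even (2 ^ b) := Nat.even_pow.mpr ⟨even_two, hb0⟩
        rw [h] at h1
        exact (Nat.not_even_iff_odd.mpr (Even.add_one h2)) h1
      · exact hqo
    have hb1 : b = 1 := by
      rcases Nat.even_or_odd b with hbe | hbo
      · exfalso
        obtain ⟨c, rfl⟩ := hbe
        have hc : Odd (q ^ c) := hqodd.pow
        have hsq : (q ^ (c + c)) % 4 = 1 := by
          rw [pow_add, ← sq]
          obtain ⟨k, hk⟩ := hc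
          rw [hk]
          have : (2 * k + 1) ^ 2 = 4 * (k * k + k) + 1 := by ring
          rw [this]
          omega
        have h2a : 2 ^ a % 4 = 2 := by omega
        have ha1 : a = 1 := by
          by_contra hne
          obtain ⟨k, rfl⟩ : ∃ k, a = 2 + k := ⟨a - 2, by omega⟩
          have : 4 ∣ 2 ^ (2 + k) := Dvd.intro _ (pow_add 2 2 k).symm
          omega
        subst ha1
        have : q ^ (c + c) = 1 := by omega
        have hq2 := hq.two_le
        have : 2 ≤ q ^ (c + c) := by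
          calc 2 ≤ q := hq2
            _ = q ^ 1 := (pow_one q).symm
            _ ≤ q ^ (c + c) := Nat.pow_le_pow_right (by omega) (by omega)
        omega
      · exact key1 q a b hqodd hbo h hq.two_le
    subst hb1
    rw [pow_one] at h
    refine ⟨rfl, rfl, ?_, h.symm⟩
    have ha1 : a ≠ 1 := by
      intro ha1
      subst ha1
      have : q = 1 := by omega
      exact hq.ne_one this
    have hP : (2 ^ a - 1).Prime := by
      have : 2 ^ a - 1 = q := by omega
      rw [this]; exact hq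
    exact (Nat.prime_of_pow_sub_one_prime ha1 hP).2
  · -- p odd, so q = 2
    right
    have hq2 : q = 2 := by
      rcases hq.eq_two_or_odd' with hq2 | hqo
      · exact hq2
      · exfalso
        have h1 : Odd (p ^ a) := hpodd.pow
        have h2 : Odd (q ^ b) := hqo.pow
        rw [h] at h1
        exact (Nat.not_even_iff_odd.mpr h1) (Odd.add_one h2)
    subst hq2
    rcases Nat.even_or_odd a with hae | hao
    · right
      obtain ⟨c, rfl⟩ := hae
      have hx : (p ^ c) ^ 2 = 2 ^ b + 1 := by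
        rw [← h]; ring
      obtain ⟨hx3, hb3⟩ := key3 _ _ hx
      subst hb3
      rw [h]
      norm_num
    · left
      have ha1 := key2 p a b hpodd hao h hp.two_le
      subst ha1
      rw [pow_one] at h
      refine ⟨rfl, rfl, ?_, h⟩
      apply Nat.pow_of_pow_add_prime (a := 2) (by norm_num) hb0
      rw [← h]; exact hp

end Cfsg.Agent.S3784
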