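import Cfsg.Statements.S0894
import Cfsg.Agent.S0133
import Cfsg.Agent.S0187
import Cfsg.Agent.Lib.Helper80.Schur
import Cfsg.Agent.Lib.Helper80.CharKer
import Cfsg.Agent.Lib.Helper3.CharRegular

set_option autoImplicit false
open Cfsg
open scoped ComplexConjugate commutatorElement

namespace Cfsg.Agent.S0894

/-- A central element acts as a scalar (a root of unity) in an irreducible character. -/
theorem central_scalar {G : Type*} [Group G] [Finite G] {χ : G → ℂ}
    (hχ : Cfsg.IsIrrCharacter G χ) (z : G) (hz : z ∈ Subgroup.center G) :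
    ∃ c : ℂ, (∀ g, χ (g * z) = c * χ g) ∧ c ^ (orderOf z) = 1 := by
  obtain ⟨d, ρ, hirr, rfl⟩ := hχ
  have := hirr
  have hcomm : ∀ g, ρ z * ρ g = ρ g * ρ z := by
    intro g
    rw [← map_mul, ← map_mul, Subgroup.mem_center_iff.mp hz g]
  obtain ⟨c, hc⟩ := Cfsg.Agent.Lib.Helper80.schur_scalar ρ (ρ z) hcomm
  refine ⟨c, ?_, ?_⟩
  · intro g
    unfold Representation.character
    rw [map_mul, hc, mul_smul_comm, mul_one, map_smul, smul_eq_mul]
  · have hnt := Cfsg.Agent.Lib.Helper80.nontrivial_of_isIrreducible ρ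
    obtain ⟨v, hv⟩ := exists_ne (0 : Fin d → ℂ)
    have h1 : (ρ z) ^ (orderOf z) = 1 := by
      rw [← map_pow, pow_orderOf_eq_one, map_one]
    rw [hc, smul_pow, one_pow] at h1
    have h2 := congrArg (fun f : Module.End ℂ (Fin d → ℂ) => f v) h1
    simp only [LinearMap.smul_apply, Module.End.one_apply] at h2
    have h3 : (c ^ orderOf z - 1) • v = 0 := by rw [sub_smul, h2, one_smul, sub_self]
    rcases smul_eq_zero.mp h3 with h | h
    · exact sub_eq_zero.mp h
    · exact absurd h hv

/-- the dichotomy for irreducible characters of an extraspecial group -/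
theorem degree_cases {P : Type*} [Group P] [Finite P] (p n : ℕ) [Fact p.Prime]
    (hP : Cfsg.IsExtraspecial p P) (hcard : Nat.card P = p ^ (2 * n + 1))
    (χ : P → ℂ) (hχ : Cfsg.IsIrrCharacter P χ) :
    ((∀ z ∈ Subgroup.center P, χ z = χ 1) → χ 1 = 1) ∧
    ((¬ ∀ z ∈ Subgroup.center P, χ z = χ 1) → χ 1 = (p : ℂ) ^ n) := by
  classical
  have hp : p.Prime := Fact.out
  obtain ⟨⟨hpg, hfr, hcomm⟩, hZp⟩ := hP
  constructor
  · intro hker
    obtain ⟨ψ, hψ, hψχ⟩ :=
      Cfsg.Agent.Lib.Helper80.exists_isIrrCharacter_deflate (Subgroup.center P) hχ hker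
    have hab : ∀ a b : P ⧸ Subgroup.center P, a * b = b * a := by
      intro a b
      induction a using QuotientGroup.induction_on with
      | H x =>
        induction b using QuotientGroup.induction_on with
        | H y =>
          rw [← QuotientGroup.mk_mul, ← QuotientGroup.mk_mul, QuotientGroup.eq]
          have : (x * y)⁻¹ * (y * x) = ⁅y⁻¹, x⁻¹⁆ := by
            rw [commutatorElement_def]; group
          rw [this, ← hcomm, commutator_def]
          exact Subgroup.commutator_mem_commutator (Subgroup.mem_top _) (Subgroup.mem_top _)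
    have h1 := (Cfsg.Agent.S0187.result (G := P ⧸ Subgroup.center P)).mp hab ⟨ψ, hψ⟩
    have h2 := hψχ 1
    rw [QuotientGroup.mk_one] at h2
    rw [← h2]; exact h1
  · intro hnk
    have hnk' : ∃ z₀ ∈ Subgroup.center P, χ z₀ ≠ χ 1 := by
      by_contra hcon
      exact hnk fun z hz => not_not.mp fun h => hcon ⟨z, hz, h⟩
    obtain ⟨z₀, hz₀, hz₀χ⟩ := hnk'
    have hchar : Cfsg.IsCharacter P χ := Cfsg.Agent.Lib.Helper80.isCharacter_of_isIrrCharacter hχ
    -- central scalars
    have hsc : ∀ z : P, z ∈ Subgroup.center P →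
        ∃ c : ℂ, (∀ g, χ (g * z) = c * χ g) ∧ c ^ (orderOf z) = 1 :=
      fun z hz => central_scalar hχ z hz
    -- a nontrivial central element is never invisible
    have hvis : ∀ z : P, z ∈ Subgroup.center P → z ≠ 1 → ¬ ∀ g, χ (g * z) = χ g := by
      intro z hz hz1 hinv
      have hz1' : (⟨z, hz⟩ : Subgroup.center P) ≠ 1 := fun h => hz1 (congrArg Subtype.val h)
      have htop := zpowers_eq_top_of_prime_card hZp hz1'
      have hmem : (⟨z₀, hz₀⟩ : Subgroup.center P) ∈
          Subgroup.zpowers (⟨z, hz⟩ : Subgroup.center P) := by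
        rw [htop]; trivial
      rw [← mem_powers_iff_mem_zpowers] at hmem
      obtain ⟨k, hk⟩ := hmem
      have hk' : z ^ k = z₀ := by
        have := congrArg Subtype.val hk
        simpa using this
      have hpow : ∀ k : ℕ, ∀ g, χ (g * z ^ k) = χ g := by
        intro k
        induction k with
        | zero => intro g; simp
        | succ k ih =>
          intro g
          rw [pow_succ, ← mul_assoc, hinv, ih]
      apply hz₀χ
      have := hpow k 1
      rw [one_mul, hk'] at this
      exact this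
    -- vanishing off the centre
    have hvanish : ∀ x : P, x ∉ Subgroup.center P → χ x = 0 := by
      intro x hx
      have : ∃ y : P, y * x ≠ x * y := by
        by_contra hcon
        exact hx (Subgroup.mem_center_iff.mpr fun g => not_not.mp fun h => hcon ⟨g, h⟩)
      obtain ⟨y, hy⟩ := this
      set z : P := ⁅x⁻¹, y⁻¹⁆ with hzdef
      have hzZ : z ∈ Subgroup.center P := by
        rw [← hcomm, commutator_def]
        exact Subgroup.commutator_mem_commutator (Subgroup.mem_top _) (Subgroup.mem_top _)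
      have hz1 : z ≠ 1 := by
        intro h
        rw [hzdef, commutatorElement_eq_one_iff_mul_comm] at h
        apply hy
        have h2 : (x⁻¹ * y⁻¹)⁻¹ = (y⁻¹ * x⁻¹)⁻¹ := by rw [h]
        simpa [mul_inv_rev] using h2
      have hconj : y⁻¹ * x * y⁻¹⁻¹ = x * z := by
        rw [hzdef, commutatorElement_def]; group
      have e1 : χ (x * z) = χ x := by
        rw [← hconj]; exact Cfsg.Agent.Lib.Helper80.char_conj_eq hchar x y⁻¹
      obtain ⟨c, hc, -⟩ := hsc z hzZ
      have hc1 : c ≠ 1 := by
        intro h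
        apply hvis z hzZ hz1
        intro g
        rw [hc g, h, one_mul]
      rw [hc x] at e1
      have : (c - 1) * χ x = 0 := by rw [sub_mul, e1, one_mul, sub_self]
      rcases mul_eq_zero.mp this with h | h
      · exact absurd (sub_eq_zero.mp h) hc1
      · exact h
    -- norm on the centre
    have hnormZ : ∀ z : P, z ∈ Subgroup.center P → ‖χ z‖ = ‖χ 1‖ := by
      intro z hz
      obtain ⟨c, hc, hcpow⟩ := hsc z hz
      have hpos : orderOf z ≠ 0 := (orderOf_pos z).ne'
      have hn1 : ‖c‖ = 1 := Complex.norm_eq_one_of_pow_eq_one hcpow hpos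
      have := hc 1
      rw [one_mul] at this
      rw [this, norm_mul, hn1, one_mul]
    have := Fintype.ofFinite P
    have hsum := Cfsg.Agent.Lib.Helper80.sum_norm_sq_eq_card hχ
    have hterm : ∀ g : P, ‖χ g‖ ^ 2 = if g ∈ Subgroup.center P then ‖χ 1‖ ^ 2 else 0 := by
      intro g
      by_cases hg : g ∈ Subgroup.center P
      · rw [if_pos hg, hnormZ g hg]
      · rw [if_neg hg, hvanish g hg]; simp
    rw [Finset.sum_congr rfl (fun g _ => hterm g), Finset.sum_ite, Finset.sum_const_zero,
      add_zero, Finset.sum_const, nsmul_eq_mul] at hsum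
    have hcardZ : (Finset.univ.filter (fun g : P => g ∈ Subgroup.center P)).card = p := by
      rw [← hZp, Nat.card_eq_fintype_card, Fintype.card_subtype]
    rw [hcardZ, hcard] at hsum
    -- χ 1 is a natural number d
    have hd := Cfsg.Agent.Lib.Helper80.char_one_eq_charDegree hchar
    set d := Cfsg.charDegree χ with hddef
    rw [hd] at hsum ⊢
    rw [Complex.norm_natCast] at hsum
    have hnat : p * d ^ 2 = p ^ (2 * n + 1) := by
      have : ((p * d ^ 2 : ℕ) : ℝ) = ((p ^ (2 * n + 1) : ℕ) : ℝ) := by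
        push_cast at hsum ⊢; exact hsum
      exact_mod_cast this
    have hd2 : d ^ 2 = (p ^ n) ^ 2 := by
      have : p * d ^ 2 = p * (p ^ n) ^ 2 := by rw [hnat]; ring
      exact Nat.eq_of_mul_eq_mul_left hp.pos this
    have hdn : d = p ^ n := by
      exact Nat.pow_left_injective (by norm_num : 2 ≠ 0) hd2
    rw [hdn]; push_cast; rfl

/-- Let P be an extraspecial p-group of order p ^ (2 * n + 1). Then every irreducible character of P has degree 1 or p ^ n, and exactly p - 1 of them have degree p ^ n. -/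
theorem result {P : Type*} [Group P] [Finite P] (p n : ℕ) [Fact p.Prime] (hP : Cfsg.IsExtraspecial p P) (hcard : Nat.card P = p ^ (2 * n + 1)) : (∀ χ : Cfsg.IrrCharacter P, (χ : P → ℂ) 1 = 1 ∨ (χ : P → ℂ) 1 = (p : ℂ) ^ n) ∧ Nat.card {χ : Cfsg.IrrCharacter P // (χ : P → ℂ) 1 = (p : ℂ) ^ n} = p - 1 := by
  classical
  have hp : p.Prime := Fact.out
  have hcases := fun χ : Cfsg.IrrCharacter P => degree_cases p n hP hcard χ.1 χ.2
  obtain ⟨⟨hpg, hfr, hcomm⟩, hZp⟩ := hP
  refine ⟨fun χ => ?_, ?_⟩
  · by_cases h : ∀ z ∈ Subgroup.center P, (χ : P → ℂ) z = (χ : P → ℂ) 1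
    · exact Or.inl ((hcases χ).1 h)
    · exact Or.inr ((hcases χ).2 h)
  -- n ≠ 0
  have hn : n ≠ 0 := by
    rintro rfl
    have hcP : Nat.card P = p := by simpa using hcard
    have htop : Subgroup.center P = ⊤ := Subgroup.eq_top_of_card_eq _ (by rw [hZp, hcP])
    have hbot : commutator P = ⊥ := (_root_.commutator_eq_bot_iff_center_eq_top (G := P)).mpr htop
    rw [hcomm, htop] at hbot
    have h1 : Nat.card P = 1 := by
      have := Subgroup.card_top (G := P)
      rw [hbot, Subgroup.card_bot] at this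
      exact this.symm
    rw [hcP] at h1
    exact hp.one_lt.ne' h1
  have hpn1 : (p : ℂ) ^ n ≠ 1 := by
    have h2 : 1 < p ^ n := Nat.one_lt_pow hn hp.one_lt
    intro h
    have : ((p ^ n : ℕ) : ℂ) = ((1 : ℕ) : ℂ) := by push_cast; exact h
    have := Nat.cast_injective this
    omega
  have := Fintype.ofFinite P
  have := Fintype.ofFinite (Cfsg.IrrCharacter P)
  -- the characters trivial on the centre
  have hT : Nat.card {χ : Cfsg.IrrCharacter P // ∀ x ∈ Subgroup.center P,
      (χ : P → ℂ) x = (χ : P → ℂ) 1} = p ^ (2 * n) := by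
    rw [← Nat.card_congr (Cfsg.Agent.Lib.Helper80.irrQuotientEquiv (Subgroup.center P)),
      Cfsg.Agent.S0133.result]
    have hab : ∀ a b : P ⧸ Subgroup.center P, a * b = b * a := by
      intro a b
      induction a using QuotientGroup.induction_on with
      | H x =>
        induction b using QuotientGroup.induction_on with
        | H y =>
          rw [← QuotientGroup.mk_mul, ← QuotientGroup.mk_mul, QuotientGroup.eq]
          have : (x * y)⁻¹ * (y * x) = ⁅y⁻¹, x⁻¹⁆ := by
            rw [commutatorElement_def]; group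
          rw [this, ← hcomm, commutator_def]
          exact Subgroup.commutator_mem_commutator (Subgroup.mem_top _) (Subgroup.mem_top _)
    rw [Cfsg.Agent.S0187.comm_iff_card_conjClasses.mp hab]
    have h := Subgroup.card_eq_card_quotient_mul_card_subgroup (Subgroup.center P)
    rw [hcard, hZp, pow_succ] at h
    exact (Nat.eq_of_mul_eq_mul_right hp.pos h).symm
  have hsum := Cfsg.Agent.Lib.Helper3.sum_degree_sq (G := P)
  have hterm : ∀ χ : Cfsg.IrrCharacter P, (χ : P → ℂ) 1 ^ 2 =
      if (∀ x ∈ Subgroup.center P, (χ : P → ℂ) x = (χ : P → ℂ) 1) then (1 : ℂ)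
      else ((p : ℂ) ^ n) ^ 2 := by
    intro χ
    by_cases h : ∀ z ∈ Subgroup.center P, (χ : P → ℂ) z = (χ : P → ℂ) 1
    · rw [if_pos h, (hcases χ).1 h, one_pow]
    · rw [if_neg h, (hcases χ).2 h]
  rw [Finset.sum_congr rfl (fun χ _ => hterm χ), Finset.sum_ite, Finset.sum_const,
    Finset.sum_const, nsmul_eq_mul, nsmul_eq_mul, mul_one, hcard] at hsum
  have hcT : (Finset.univ.filter (fun χ : Cfsg.IrrCharacter P => ∀ x ∈ Subgroup.center P,
      (χ : P → ℂ) x = (χ : P → ℂ) 1)).card = p ^ (2 * n) := by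
    rw [← hT, Nat.card_eq_fintype_card, Fintype.card_subtype]
  rw [hcT] at hsum
  set U := (Finset.univ.filter (fun χ : Cfsg.IrrCharacter P => ¬ ∀ x ∈ Subgroup.center P,
      (χ : P → ℂ) x = (χ : P → ℂ) 1)).card with hU
  have hnat : p ^ (2 * n) + U * p ^ (2 * n) = p ^ (2 * n + 1) := by
    have : ((p ^ (2 * n) + U * p ^ (2 * n) : ℕ) : ℂ) = ((p ^ (2 * n + 1) : ℕ) : ℂ) := by
      push_cast at hsum ⊢
      linear_combination hsum
    exact_mod_cast this
  have hUp : U = p - 1 := by
    have h2 : (1 + U) * p ^ (2 * n) = p * p ^ (2 * n) := by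
      calc (1 + U) * p ^ (2 * n) = p ^ (2 * n) + U * p ^ (2 * n) := by ring
        _ = p ^ (2 * n + 1) := hnat
        _ = p * p ^ (2 * n) := by ring
    have h3 := Nat.eq_of_mul_eq_mul_right (pow_pos hp.pos _) h2
    omega
  rw [← hUp, hU, ← Fintype.card_subtype, ← Nat.card_eq_fintype_card]
  apply Nat.card_congr
  apply Equiv.subtypeEquivRight
  intro χ
  constructor
  · intro h hk
    exact hpn1 (h ▸ (hcases χ).1 hk)
  · intro h
    exact (hcases χ).2 h

end Cfsg.Agent.S0894
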