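import Cfsg.Statements.S2588
import Cfsg.Agent.Lib.Helper40.UnitarySim

set_option autoImplicit false
open Cfsg

namespace Cfsg.Agent.S2588

/-- An invertible matrix A over the field with q² elements is conjugate in GL_n(q²) to an element of the general unitary group GU_n(q) (isometries of the Hermitian form Σ u_i v_i^q) if and only if A is similar to the inverse transpose of its entrywise q-th power (A ~ A^(−qT), the image of A under the map sending a matrix to the inverse transpose of its entrywise q-th power — inverse transpose composed with the field automorphism — whose fixed points form GU_n(q)). -/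
theorem result {K : Type*} [Field K] [Fintype K] {q n : ℕ} (hK : Fintype.card K = q ^ 2) (A : GL (Fin n) K) : (∃ B : ↥(Cfsg.GU n K q), IsConj A (B : GL (Fin n) K)) ↔ IsConj (A : Matrix (Fin n) (Fin n) K) (((A : Matrix (Fin n) (Fin n) K).map (fun x : K => x ^ q)).transpose)⁻¹ := by
  classical
  rw [Cfsg.Agent.Lib.Helper40.UnitaryWall.conj_gu_iff hK A]
  obtain ⟨Am, hAm⟩ : ∃ Am, Am = (A : Matrix (Fin n) (Fin n) K) := ⟨_, rfl⟩
  rw [← hAm]
  have e : ((Am.map (fun x : K => x ^ q)).transpose) =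
      Cfsg.Agent.Lib.Helper40.UnitaryWall.cstar (Cfsg.Agent.Lib.Helper45.sigmaQ hK) Am := rfl
  rw [e]
  obtain ⟨CA, hCA⟩ : ∃ CA, CA =
      Cfsg.Agent.Lib.Helper40.UnitaryWall.cstar (Cfsg.Agent.Lib.Helper45.sigmaQ hK) Am := ⟨_, rfl⟩
  rw [← hCA]
  have hAdet : Am.det ≠ 0 := by
    rw [hAm]
    exact ((Matrix.isUnit_iff_isUnit_det _).mp (Units.isUnit A)).ne_zero
  have hCAdet : IsUnit CA.det := by
    rw [hCA, Cfsg.Agent.Lib.Helper40.UnitaryWall.det_cstar]
    exact ((map_ne_zero _).mpr hAdet).isUnit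
  constructor
  · rintro ⟨y, ⟨yu, rfl⟩, hinv⟩
    refine ⟨yu, ?_⟩
    show (yu : Matrix (Fin n) (Fin n) K) * Am = CA⁻¹ * (yu : Matrix (Fin n) (Fin n) K)
    calc (yu : Matrix (Fin n) (Fin n) K) * Am
        = (CA⁻¹ * CA) * ((yu : Matrix (Fin n) (Fin n) K) * Am) := by
          rw [Matrix.nonsing_inv_mul _ hCAdet, one_mul]
      _ = CA⁻¹ * (CA * (yu : Matrix (Fin n) (Fin n) K) * Am) := by simp only [mul_assoc]
      _ = CA⁻¹ * (yu : Matrix (Fin n) (Fin n) K) := by rw [hinv]
  · rintro ⟨c, hc⟩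
    have hc' : (c : Matrix (Fin n) (Fin n) K) * Am = CA⁻¹ * (c : Matrix (Fin n) (Fin n) K) := hc
    refine ⟨(c : Matrix (Fin n) (Fin n) K), Units.isUnit c, ?_⟩
    calc CA * (c : Matrix (Fin n) (Fin n) K) * Am
        = CA * ((c : Matrix (Fin n) (Fin n) K) * Am) := by simp only [mul_assoc]
      _ = (CA * CA⁻¹) * (c : Matrix (Fin n) (Fin n) K) := by rw [hc']; simp only [mul_assoc]
      _ = (c : Matrix (Fin n) (Fin n) K) := by rw [Matrix.mul_nonsing_inv _ hCAdet, one_mul]

end Cfsg.Agent.S2588
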