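import Mathlib
import Cfsg.Statements.S1457
import Cfsg.Agent.Lib.Helper54.PStableOdd2

set_option autoImplicit false
open Cfsg

namespace Cfsg.Agent.S1457

open Cfsg.Agent.Lib.Helper54
open scoped commutatorElement

theorem main {G : Type*} [Group G] [Finite G] [Group.IsSolvable G] (hodd : Odd (Nat.card G))
    (p : ℕ) [Fact p.Prime] (S : Sylow p G) (A : Subgroup G) (hA : A ≤ (S : Subgroup G))
    (hAc : IsMulCommutative A) (hAn : (S : Subgroup G) ≤ Subgroup.normalizer (A : Set G)) :
    A ≤ Cfsg.pPrimePCore p G := by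
  intro a ha
  by_cases hp : p = 2
  · -- `a` is a `2`-element of a group of odd order
    subst hp
    have h1 : a = 1 := by
      obtain ⟨k, hk⟩ := (Cfsg.Agent.Lib.Helper64.isPGroup_iff_mem.mp S.isPGroup') a (hA ha)
      have h2 : orderOf a ∣ 2 ^ k := orderOf_dvd_of_pow_eq_one hk
      have h3 : orderOf a ∣ Nat.card G := orderOf_dvd_natCard a
      have hcop : (2 ^ k).Coprime (Nat.card G) :=
        Nat.Coprime.pow_left k (Nat.coprime_two_left.mpr hodd)
      have h4 : orderOf a = 1 := Nat.eq_one_of_dvd_coprimes hcop h2 h3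
      exact orderOf_eq_one_iff.mp h4
    rw [h1]
    exact Subgroup.one_mem _
  · set K : Subgroup G := Cfsg.pPrimeCore p G with hK
    set π : G →* G ⧸ K := QuotientGroup.mk' K with hπ
    have hsurj : Function.Surjective π := QuotientGroup.mk'_surjective K
    have hodd' : Odd (Nat.card (G ⧸ K)) := Odd.of_dvd_nat hodd (Subgroup.card_quotient_dvd_card K)
    have hO : Cfsg.pPrimeCore p (G ⧸ K) = ⊥ :=
      Cfsg.Agent.Lib.Helper63.pPrimeCore_quotient_eq_bot p G
    have hPp : IsPGroup p (Cfsg.pCore p (G ⧸ K)) := Cfsg.Agent.Lib.Helper55.pCore_isPGroup p _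
    have hC : Subgroup.centralizer (Cfsg.pCore p (G ⧸ K) : Set (G ⧸ K)) ≤ Cfsg.pCore p (G ⧸ K) :=
      centralizer_le_of_pCore_inf_le p hO _ inf_le_left
    have hq : Quad (Cfsg.pCore p (G ⧸ K)) (π a) := by
      intro x hx
      have hxS : x ∈ ((S.mapSurjective hsurj : Sylow p (G ⧸ K)) : Subgroup (G ⧸ K)) :=
        Cfsg.Agent.Lib.Helper55.pCore_le_sylow _ hx
      rw [Sylow.coe_mapSurjective] at hxS
      obtain ⟨s, hs, rfl⟩ := hxS
      have h1 := quad_of_abelian_normalized hAc hAn ha s hs
      rw [← map_commutatorElement, ← map_mul, ← map_mul, h1]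
    exact quad_mem_pCore_of_centralizer_le hodd' p hp _ hPp hC (π a) hq

/-- Let G be a solvable group of odd order, p a prime, S a Sylow p-subgroup of G and A an abelian subgroup of S normal in S. Then A ≤ O_{p',p}(G). -/
theorem result {G : Type*} [Group G] [Finite G] [Group.IsSolvable G] (hodd : Odd (Nat.card G)) (p : ℕ) [Fact p.Prime] (S : Sylow p G) (A : Subgroup G) (hA : A ≤ (S : Subgroup G)) (hAc : IsMulCommutative A)
    (hAn : (S : Subgroup G) ≤ Subgroup.normalizer (A : Set G)) :
    A ≤ Cfsg.pPrimePCore p G := by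
  exact main hodd p S A hA hAc hAn

end Cfsg.Agent.S1457
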