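import Mathlib
import Cfsg.Statements.S2034
import Cfsg.Agent.Lib.Helper86.MathieuSmall
import Cfsg.Agent.Lib.Helper35.SchurLocal
-- import your own Cfsg.Agent.* helpers here

set_option autoImplicit false
set_option linter.unusedSimpArgs false
open Cfsg

namespace Cfsg.Agent.S2034

open Cfsg.Agent.Lib.Helper6.M12 Cfsg.Agent.Lib.Helper86 Cfsg.Agent.Lib.Helper35

/-- an element of order `8` of `M11` -/
def tr : List ℕ := [0, 1, 3, 2, 8, 17, 13, 19, 6, 18, 15, 21, 16, 12, 23, 11, 9, 14, 4, 22, 10, 7, 20, 5]
/-- an involution with `s r s⁻¹ = r³` -/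
def ts : List ℕ := [0, 1, 3, 2, 4, 5, 9, 10, 13, 6, 7, 11, 12, 8, 14, 20, 18, 23, 16, 21, 15, 19, 22, 17]
/-- an element of order `3` -/
def tu : List ℕ := [0, 1, 2, 4, 12, 15, 16, 7, 9, 13, 10, 22, 3, 8, 21, 19, 18, 17, 6, 5, 14, 20, 23, 11]
/-- an element of order `3` commuting with `u` -/
def tv : List ℕ := [0, 1, 2, 13, 8, 19, 4, 17, 6, 16, 7, 22, 9, 18, 14, 5, 12, 10, 3, 15, 20, 21, 23, 11]
/-- an involution inverting `u` and centralizing `v` -/
def tt : List ℕ := [0, 2, 1, 3, 12, 23, 16, 7, 9, 8, 10, 19, 4, 13, 14, 22, 6, 17, 18, 11, 21, 20, 15, 5]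
/-- an element of order `5` -/
def t5 : List ℕ := [0, 1, 3, 4, 8, 19, 12, 22, 9, 2, 17, 7, 18, 6, 20, 14, 13, 11, 16, 15, 5, 21, 10, 23]
/-- an element of order `11` -/
def t11 : List ℕ := [0, 2, 3, 4, 6, 22, 12, 19, 16, 1, 17, 10, 13, 8, 20, 14, 18, 15, 9, 11, 23, 21, 7, 5]

theorem hr : tabPermD tr ∈ Cfsg.Spor.M11 := tabPermD_mem_M11 (by decide +kernel)
theorem hs : tabPermD ts ∈ Cfsg.Spor.M11 := tabPermD_mem_M11 (by decide +kernel)
theorem hu : tabPermD tu ∈ Cfsg.Spor.M11 := tabPermD_mem_M11 (by decide +kernel)
theorem hv : tabPermD tv ∈ Cfsg.Spor.M11 := tabPermD_mem_M11 (by decide +kernel)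
theorem ht : tabPermD tt ∈ Cfsg.Spor.M11 := tabPermD_mem_M11 (by decide +kernel)
theorem h5 : tabPermD t5 ∈ Cfsg.Spor.M11 := tabPermD_mem_M11 (by decide +kernel)
theorem h11 : tabPermD t11 ∈ Cfsg.Spor.M11 := tabPermD_mem_M11 (by decide +kernel)

theorem rel_r8 : tabPermD tr ^ 8 = 1 := by
  have := word_eq (L := List.replicate 8 tr) (L' := []) (by decide +kernel) (by decide +kernel)
    (by decide +kernel)
  simp only [List.map_replicate, List.prod_replicate, List.map_append, List.prod_append,
    List.map_cons, List.map_nil, List.prod_cons, List.prod_nil, mul_one] at this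
  exact this

theorem rel_r4 : tabPermD tr ^ 4 ≠ 1 := by
  have := word_ne (L := List.replicate 4 tr) (L' := []) (by decide +kernel) (by decide +kernel)
    (by decide +kernel) (by decide +kernel) (by decide +kernel)
  simp only [List.map_replicate, List.prod_replicate, List.map_append, List.prod_append,
    List.map_cons, List.map_nil, List.prod_cons, List.prod_nil, mul_one] at this
  exact this

theorem rel_s2 : tabPermD ts * tabPermD ts = 1 := by
  have := word_eq (L := [ts, ts]) (L' := []) (by decide +kernel) (by decide +kernel)
    (by decide +kernel)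
  simp only [List.map_replicate, List.prod_replicate, List.map_append, List.prod_append,
    List.map_cons, List.map_nil, List.prod_cons, List.prod_nil, mul_one] at this
  exact this

theorem rel_sr : tabPermD ts * tabPermD tr = tabPermD tr ^ 3 * tabPermD ts := by
  have := word_eq (L := [ts, tr]) (L' := List.replicate 3 tr ++ [ts]) (by decide +kernel)
    (by decide +kernel) (by decide +kernel)
  simp only [List.map_replicate, List.prod_replicate, List.map_append, List.prod_append,
    List.map_cons, List.map_nil, List.prod_cons, List.prod_nil, mul_one] at this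
  exact this

theorem rel_u3 : tabPermD tu ^ 3 = 1 := by
  have := word_eq (L := List.replicate 3 tu) (L' := []) (by decide +kernel) (by decide +kernel)
    (by decide +kernel)
  simp only [List.map_replicate, List.prod_replicate, List.map_append, List.prod_append,
    List.map_cons, List.map_nil, List.prod_cons, List.prod_nil, mul_one] at this
  exact this

theorem rel_u1 : tabPermD tu ≠ 1 := by
  have := word_ne (L := [tu]) (L' := []) (by decide +kernel) (by decide +kernel)
    (by decide +kernel) (by decide +kernel) (by decide +kernel)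
  simp only [List.map_replicate, List.prod_replicate, List.map_append, List.prod_append,
    List.map_cons, List.map_nil, List.prod_cons, List.prod_nil, mul_one] at this
  exact this

theorem rel_v3 : tabPermD tv ^ 3 = 1 := by
  have := word_eq (L := List.replicate 3 tv) (L' := []) (by decide +kernel) (by decide +kernel)
    (by decide +kernel)
  simp only [List.map_replicate, List.prod_replicate, List.map_append, List.prod_append,
    List.map_cons, List.map_nil, List.prod_cons, List.prod_nil, mul_one] at this
  exact this

theorem rel_v1 : tabPermD tv ≠ 1 := by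
  have := word_ne (L := [tv]) (L' := []) (by decide +kernel) (by decide +kernel)
    (by decide +kernel) (by decide +kernel) (by decide +kernel)
  simp only [List.map_replicate, List.prod_replicate, List.map_append, List.prod_append,
    List.map_cons, List.map_nil, List.prod_cons, List.prod_nil, mul_one] at this
  exact this

theorem rel_uv : tabPermD tu * tabPermD tv = tabPermD tv * tabPermD tu := by
  have := word_eq (L := [tu, tv]) (L' := [tv, tu]) (by decide +kernel) (by decide +kernel)
    (by decide +kernel)
  simp only [List.map_replicate, List.prod_replicate, List.map_append, List.prod_append,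
    List.map_cons, List.map_nil, List.prod_cons, List.prod_nil, mul_one] at this
  exact this

theorem rel_utu : tabPermD tu * (tabPermD tt * tabPermD tu) = tabPermD tt := by
  have := word_eq (L := [tu, tt, tu]) (L' := [tt]) (by decide +kernel) (by decide +kernel)
    (by decide +kernel)
  simp only [List.map_replicate, List.prod_replicate, List.map_append, List.prod_append,
    List.map_cons, List.map_nil, List.prod_cons, List.prod_nil, mul_one] at this
  exact this

theorem rel_tv : tabPermD tt * tabPermD tv = tabPermD tv * tabPermD tt := by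
  have := word_eq (L := [tt, tv]) (L' := [tv, tt]) (by decide +kernel) (by decide +kernel)
    (by decide +kernel)
  simp only [List.map_replicate, List.prod_replicate, List.map_append, List.prod_append,
    List.map_cons, List.map_nil, List.prod_cons, List.prod_nil, mul_one] at this
  exact this

theorem rel_5 : tabPermD t5 ^ 5 = 1 := by
  have := word_eq (L := List.replicate 5 t5) (L' := []) (by decide +kernel) (by decide +kernel)
    (by decide +kernel)
  simp only [List.map_replicate, List.prod_replicate, List.map_append, List.prod_append,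
    List.map_cons, List.map_nil, List.prod_cons, List.prod_nil, mul_one] at this
  exact this

theorem rel_51 : tabPermD t5 ≠ 1 := by
  have := word_ne (L := [t5]) (L' := []) (by decide +kernel) (by decide +kernel)
    (by decide +kernel) (by decide +kernel) (by decide +kernel)
  simp only [List.map_replicate, List.prod_replicate, List.map_append, List.prod_append,
    List.map_cons, List.map_nil, List.prod_cons, List.prod_nil, mul_one] at this
  exact this

theorem rel_11 : tabPermD t11 ^ 11 = 1 := by
  have := word_eq (L := List.replicate 11 t11) (L' := []) (by decide +kernel) (by decide +kernel)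
    (by decide +kernel)
  simp only [List.map_replicate, List.prod_replicate, List.map_append, List.prod_append,
    List.map_cons, List.map_nil, List.prod_cons, List.prod_nil, mul_one] at this
  exact this

theorem rel_111 : tabPermD t11 ≠ 1 := by
  have := word_ne (L := [t11]) (L' := []) (by decide +kernel) (by decide +kernel)
    (by decide +kernel) (by decide +kernel) (by decide +kernel)
  simp only [List.map_replicate, List.prod_replicate, List.map_append, List.prod_append,
    List.map_cons, List.map_nil, List.prod_cons, List.prod_nil, mul_one] at this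
  exact this


/-- The Schur multiplier of the Mathieu group M₁₁ (the stabiliser of a dodecad and one of its points in the automorphism group of the length-24 binary code) is trivial; here the Schur multiplier is described through stem extensions, as in the definitions: surjective homomorphisms onto the group from a finite group, whose kernel is central in that finite group and contained in that finite group's commutator subgroup. -/
theorem result : Cfsg.HasCyclicSchurMultiplier ↥Cfsg.Spor.M11 1 := by
  have hfin : Finite ↥Cfsg.Spor.M11 := Nat.finite_of_card_ne_zero (by rw [card_M11]; norm_num)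
  apply hasCyclicSchurMultiplier_one_of
  intro Y _ _ τ hτ
  rw [eq_bot_iff]
  intro z hzk
  rw [Subgroup.mem_bot]
  -- the 2-part: a semidihedral Sylow 2-subgroup
  have e2 : z ^ 495 = 1 :=
    stem_pow_eq_one_of_sd16 τ hτ hzk (r := ⟨tabPermD tr, hr⟩) (s := ⟨tabPermD ts, hs⟩)
      (Subtype.ext rel_r8) (fun h => rel_r4 (congrArg Subtype.val h)) (Subtype.ext rel_s2)
      (Subtype.ext rel_sr) 495 (by rw [card_M11])
  -- the 3-part: an elementary abelian Sylow 3-subgroup
  have e3 : z ^ 880 = 1 := by
    refine stem_pow_eq_one_of_c3sq τ hτ hzk (u := ⟨tabPermD tu, hu⟩) (v := ⟨tabPermD tv, hv⟩)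
      (t := ⟨tabPermD tt, ht⟩) (Subtype.ext rel_u3) (fun h => rel_u1 (congrArg Subtype.val h))
      (Subtype.ext rel_v3) (fun h => rel_v1 (congrArg Subtype.val h)) (Subtype.ext rel_uv)
      ?_ ?_ 880 (by rw [card_M11])
    · apply Subtype.ext
      show tabPermD tt * tabPermD tu * (tabPermD tt)⁻¹ = (tabPermD tu)⁻¹
      have h : tabPermD tt * tabPermD tu = (tabPermD tu)⁻¹ * tabPermD tt := by
        rw [eq_inv_mul_iff_mul_eq]; exact rel_utu
      rw [h]; group
    · apply Subtype.ext
      show tabPermD tt * tabPermD tv * (tabPermD tt)⁻¹ = tabPermD tv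
      rw [rel_tv]; group
  -- cyclic Sylow subgroups for 5 and 11
  have hp5 : Fact (Nat.Prime 5) := ⟨by norm_num⟩
  have hp11 : Fact (Nat.Prime 11) := ⟨by norm_num⟩
  have e5 : z ^ 1584 = 1 :=
    stem_pow_eq_one_of_orderOf τ hτ hzk (⟨tabPermD t5, h5⟩ : ↥Cfsg.Spor.M11) 5 1584 (by norm_num)
      (orderOf_eq_prime (Subtype.ext rel_5) (fun h => rel_51 (congrArg Subtype.val h)))
      (by rw [card_M11])
  have e11 : z ^ 720 = 1 :=
    stem_pow_eq_one_of_orderOf τ hτ hzk (⟨tabPermD t11, h11⟩ : ↥Cfsg.Spor.M11) 11 720
      (by norm_num)
      (orderOf_eq_prime (Subtype.ext rel_11) (fun h => rel_111 (congrArg Subtype.val h)))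
      (by rw [card_M11])
  have d1 : orderOf z ∣ 495 := orderOf_dvd_of_pow_eq_one e2
  have d2 : orderOf z ∣ 880 := orderOf_dvd_of_pow_eq_one e3
  have d3 : orderOf z ∣ 1584 := orderOf_dvd_of_pow_eq_one e5
  have d4 : orderOf z ∣ 720 := orderOf_dvd_of_pow_eq_one e11
  have d5 : orderOf z ∣ Nat.gcd (Nat.gcd 495 880) (Nat.gcd 1584 720) :=
    Nat.dvd_gcd (Nat.dvd_gcd d1 d2) (Nat.dvd_gcd d3 d4)
  have d6 : Nat.gcd (Nat.gcd 495 880) (Nat.gcd 1584 720) = 1 := by norm_num
  rw [d6, Nat.dvd_one] at d5
  exact orderOf_eq_one_iff.mp d5

end Cfsg.Agent.S2034
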