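import Mathlib
import Cfsg.Statements.S3781

set_option autoImplicit false
open Cfsg

namespace Cfsg.Agent.S3781

/-- three subgroups lemma modulo a normal subgroup -/
theorem three_subgroups_le {G : Type*} [Group G] (H₁ H₂ H₃ M : Subgroup G) [M.Normal]
    (h1 : ⁅⁅H₂, H₃⁆, H₁⁆ ≤ M) (h2 : ⁅⁅H₃, H₁⁆, H₂⁆ ≤ M) : ⁅⁅H₁, H₂⁆, H₃⁆ ≤ M := by
  have key : ∀ (K₁ K₂ K₃ : Subgroup G), ⁅⁅K₁, K₂⁆, K₃⁆ ≤ M ↔
      ⁅⁅K₁.map (QuotientGroup.mk' M), K₂.map (QuotientGroup.mk' M)⁆,
        K₃.map (QuotientGroup.mk' M)⁆ = ⊥ := by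
    intro K₁ K₂ K₃
    rw [← Subgroup.map_commutator, ← Subgroup.map_commutator, Subgroup.map_eq_bot_iff,
      QuotientGroup.ker_mk']
  rw [key] at h1 h2 ⊢
  exact Subgroup.commutator_commutator_eq_bot_of_rotate h1 h2

/-- iterated commutator with the whole group -/
def iter {G : Type*} [Group G] (A : Subgroup G) : ℕ → Subgroup G
  | 0 => A
  | j + 1 => ⁅iter A j, ⊤⁆

theorem iter_normal {G : Type*} [Group G] (A : Subgroup G) [hA : A.Normal] (j : ℕ) :
    (iter A j).Normal := by
  induction j with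
  | zero => exact hA
  | succ j ih =>
    have := ih
    show (⁅iter A j, ⊤⁆ : Subgroup G).Normal
    infer_instance

theorem iter_succ_le {G : Type*} [Group G] (A : Subgroup G) [hA : A.Normal] (j : ℕ) :
    iter A (j + 1) ≤ iter A j := by
  have := iter_normal A j
  exact Subgroup.commutator_le_left (H₁ := iter A j) (H₂ := ⊤)

theorem iter_antitone {G : Type*} [Group G] (A : Subgroup G) [hA : A.Normal] :
    Antitone (iter A) := antitone_nat_of_succ_le (iter_succ_le A)

theorem iter_comm {G : Type*} [Group G] (A : Subgroup G) (j : ℕ) :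
    iter (⁅A, ⊤⁆) j = iter A (j + 1) := by
  induction j with
  | zero => rfl
  | succ j ih =>
    show ⁅iter (⁅A, ⊤⁆) j, ⊤⁆ = ⁅iter A (j + 1), ⊤⁆
    rw [ih]

theorem comm_lcs_le_iter {G : Type*} [Group G] (k : ℕ) :
    ∀ (A : Subgroup G) [A.Normal], ⁅A, (⊤ : Subgroup G).lowerCentralSeries k⁆ ≤ iter A (k + 1) := by
  induction k with
  | zero =>
    intro A _
    exact le_refl _
  | succ k ih =>
    intro A hA
    have := iter_normal A (k + 2)
    have : (⁅A, (⊤ : Subgroup G)⁆ : Subgroup G).Normal := inferInstance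
    rw [Subgroup.lowerCentralSeries_succ, Subgroup.commutator_comm]
    -- ⁅⁅γ_k, ⊤⁆, A⁆ ≤ iter A (k+2)
    apply three_subgroups_le
    · -- ⁅⁅⊤, A⁆, γ_k⁆
      rw [Subgroup.commutator_comm ⊤ A]
      have := ih (⁅A, ⊤⁆)
      rw [iter_comm] at this
      exact this
    · -- ⁅⁅A, γ_k⁆, ⊤⁆
      have := ih A
      exact Subgroup.commutator_mono this le_rfl

theorem eq_bot_of_comm_eq {G : Type*} [Group G] [Group.IsNilpotent G] (H : Subgroup G)
    (h : H ≤ ⁅H, ⊤⁆) : H = ⊥ := by
  have key : ∀ k, H ≤ (⊤ : Subgroup G).lowerCentralSeries k := by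
    intro k
    induction k with
    | zero => simp
    | succ k ih =>
      refine h.trans ?_
      rw [Subgroup.lowerCentralSeries_succ]
      exact Subgroup.commutator_mono ih le_rfl
  obtain ⟨n, hn⟩ := (Subgroup.nilpotent_iff_lowerCentralSeries (G := G)).1 inferInstance
  have := key n
  rw [hn] at this
  exact le_bot_iff.1 this

theorem result {G : Type*} [Group G] [Finite G] {p : ℕ} [Fact p.Prime] (hG : IsPGroup p G) (n : ℕ) (hn : 1 ≤ n) (N : Subgroup G) [N.Normal] (hN : N ≤ (⊤ : Subgroup G).lowerCentralSeries (n - 1)) (i : ℕ) (hi : 1 < i) (hne : N.lowerCentralSeries i ≠ ⊥) : p ^ n ≤ (N.lowerCentralSeries i).relIndex (N.lowerCentralSeries (i - 1)) := by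
  have : Group.IsNilpotent G := hG.isNilpotent
  have hp : p.Prime := Fact.out
  obtain ⟨i, rfl⟩ : ∃ i', i = i' + 1 := ⟨i - 1, by omega⟩
  obtain ⟨n, rfl⟩ : ∃ n', n = n' + 1 := ⟨n - 1, by omega⟩
  simp only [Nat.add_sub_cancel] at hN ⊢
  set A := N.lowerCentralSeries i with hA
  have hB : N.lowerCentralSeries (i + 1) = ⁅A, N⁆ := rfl
  rw [hB] at hne ⊢
  have hAn : A.Normal := by
    rw [hA]
    exact Subgroup.lowerCentralSeries_normal N i
  have hBle : ⁅A, N⁆ ≤ iter A (n + 1) :=
    (Subgroup.commutator_mono le_rfl hN).trans (comm_lcs_le_iter n A)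
  have hstrict : ∀ j, j ≤ n → iter A (j + 1) < iter A j := by
    intro j hj
    refine lt_of_le_of_ne (iter_succ_le A j) ?_
    intro heq
    have h0 : iter A j = ⊥ := eq_bot_of_comm_eq (iter A j) (le_of_eq heq.symm)
    have h1 : iter A (n + 1) ≤ iter A j := iter_antitone A (by omega)
    rw [h0] at h1
    exact hne (le_bot_iff.1 (hBle.trans h1))
  have hidx : ∀ j, j ≤ n + 1 → p ^ j ≤ (iter A j).relIndex A := by
    intro j
    induction j with
    | zero => intro _; simp [iter]
    | succ j ih =>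
      intro hj
      have h1 := ih (by omega)
      have h2 := hstrict j (by omega)
      have h3 : iter A j ≤ A := iter_antitone A (Nat.zero_le j)
      have h4 := Subgroup.relIndex_mul_relIndex (iter A (j + 1)) (iter A j) A h2.le h3
      rw [← h4, pow_succ, mul_comm]
      have h5 : p ≤ (iter A (j + 1)).relIndex (iter A j) := by
        have hpg : IsPGroup p (iter A j) := hG.to_subgroup _
        obtain ⟨k, hk⟩ := hpg.index ((iter A (j + 1)).subgroupOf (iter A j))
        have hk' : (iter A (j + 1)).relIndex (iter A j) = p ^ k := hk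
        rw [hk']
        rcases Nat.eq_zero_or_pos k with hk0 | hkpos
        · exfalso
          rw [hk0, pow_zero, Subgroup.relIndex_eq_one] at hk'
          exact absurd (le_antisymm h2.le hk') (ne_of_lt h2)
        · calc p = p ^ 1 := (pow_one p).symm
            _ ≤ p ^ k := Nat.pow_le_pow_right hp.pos hkpos
      exact Nat.mul_le_mul h5 h1
  have h6 := hidx (n + 1) le_rfl
  have h7 : iter A (n + 1) ≤ A := iter_antitone A (Nat.zero_le _)
  have h8 := Subgroup.relIndex_mul_relIndex (⁅A, N⁆) (iter A (n + 1)) A hBle h7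
  rw [← h8]
  have h9 : 0 < (⁅A, N⁆ : Subgroup G).relIndex (iter A (n + 1)) := by
    have : (⁅A, N⁆ : Subgroup G).relIndex (iter A (n + 1)) ≠ 0 := by
      unfold Subgroup.relIndex
      exact Subgroup.index_ne_zero_of_finite
    omega
  calc p ^ (n + 1) ≤ (iter A (n + 1)).relIndex A := h6
    _ ≤ _ := Nat.le_mul_of_pos_left _ h9

end Cfsg.Agent.S3781
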