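import Cfsg.Statements.S0193
import Cfsg.Agent.Lib.Helper75.Clifford

set_option autoImplicit false
open Cfsg

namespace Cfsg.Agent.S0193

open Cfsg.Agent.Lib.Helper3 Cfsg.Agent.Lib.Helper75
open scoped ComplexConjugate

/-- The norm of the character induced from an irreducible character of a normal subgroup. -/
theorem result {G : Type*} [Group G] [Fintype G] (H : Subgroup G) [hN : H.Normal] (θ : H → ℂ) (hθ : Cfsg.IsIrrCharacter H θ) : (Nat.card H : ℂ) * Cfsg.classInner (Cfsg.indFun H θ) (Cfsg.indFun H θ) = (Nat.card {g : G // ∀ h : H, θ ⟨g * h * g⁻¹, hN.conj_mem h h.2 g⟩ = θ h} : ℂ) := by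
  classical
  have : Fintype H := Fintype.ofFinite H
  have hcf := indFun_isClassFunction H θ
  have hconj : ∀ g : G, (fun n : H => θ ⟨g * n * g⁻¹, hN.conj_mem n n.2 g⟩) = conjChar H θ g⁻¹ := by
    intro g
    funext n
    have hmem : g⁻¹⁻¹ * (n : G) * g⁻¹ ∈ H := by
      rw [inv_inv]; exact hN.conj_mem n n.2 g
    rw [conjChar_val H θ g⁻¹ n hmem]
    congr 1
    apply Subtype.ext
    simp
  have h1 : ∀ x : G, Cfsg.classInner (conjChar H θ x) θ = if conjChar H θ x = θ then 1 else 0 := by
    intro x
    by_cases hx : conjChar H θ x = θ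
    · rw [if_pos hx, hx, classInner_irr_self hθ]
    · rw [if_neg hx, classInner_irr_ne (isIrrCharacter_conjChar H hθ x) hθ hx]
  have hcard : Nat.card {g : G // ∀ h : H, θ ⟨g * h * g⁻¹, hN.conj_mem h h.2 g⟩ = θ h}
      = (Finset.univ.filter (fun x : G => conjChar H θ x = θ)).card := by
    rw [← Fintype.card_subtype, ← Nat.card_eq_fintype_card]
    refine Nat.card_congr ((Equiv.inv G).subtypeEquiv (fun g => ?_))
    rw [Equiv.inv_apply, ← hconj g]
    constructor
    · intro h
      funext n
      exact h n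
    · intro h n
      exact congrFun h n
  rw [frobenius_reciprocity H θ hcf, indFun_res H θ, classInner_conj_symm, classInner_smul_left,
    classInner_sum_left]
  simp_rw [h1]
  rw [Finset.sum_boole, hcard]
  have hH : (Nat.card H : ℂ) ≠ 0 := by
    have : Nat.card H ≠ 0 := Nat.card_pos.ne'
    exact_mod_cast this
  rw [map_mul, map_inv₀, Complex.conj_natCast, Complex.conj_natCast, ← mul_assoc,
    mul_inv_cancel₀ hH, one_mul]

end Cfsg.Agent.S0193
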