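import Mathlib
import Cfsg.Statements.S1505
import Cfsg.Agent.Lib.Helper25.IrrComp
import Cfsg.Agent.Lib.Helper25.LinChar
import Cfsg.Agent.Lib.Helper25.CyclicTI

set_option autoImplicit false
open Cfsg

namespace Cfsg.Agent.S1505

open Cfsg.Agent.Lib.Helper25

open scoped ComplexConjugate


open Classical in
/-- Let W₁, W₂ ≤ G form a self-normalising cyclic subgroup W = W₁ ⊔ W₂. For nontrivial linear characters φ, φ' of W trivial on W₂ and ψ, ψ' trivial on W₁, put α = (1 − φ)(1 − ψ) and α' = (1 − φ')(1 − ψ'). Then the function induced from α to G has inner product 1 with the principal character, and the inner product of the functions induced from α and α' is 1 + a + b + ab where a = 1 if φ = φ' (else 0) and b = 1 if ψ = ψ' (else 0). -/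
theorem result {G : Type*} [Group G] [Fintype G] (W₁ W₂ : Subgroup G) (hW : Cfsg.IsSelfNormalizingCyclic W₁ W₂) (φ φ' ψ ψ' : ↥(W₁ ⊔ W₂) →* ℂˣ) (hφ : φ ≠ 1) (hφ' : φ' ≠ 1) (hψ : ψ ≠ 1) (hψ' : ψ' ≠ 1) (hφ₂ : ∀ w : ↥(W₁ ⊔ W₂), (w : G) ∈ W₂ → φ w = 1 ∧ φ' w = 1) (hψ₁ : ∀ w : ↥(W₁ ⊔ W₂), (w : G) ∈ W₁ → ψ w = 1 ∧ ψ' w = 1) : Cfsg.classInner (Cfsg.indFun (W₁ ⊔ W₂) (fun w => 1 - (φ w : ℂ) - (ψ w : ℂ) + (φ w : ℂ) * (ψ w : ℂ))) (fun _ => 1) = 1 ∧ Cfsg.classInner (Cfsg.indFun (W₁ ⊔ W₂) (fun w => 1 - (φ w : ℂ) - (ψ w : ℂ) + (φ w : ℂ) * (ψ w : ℂ))) (Cfsg.indFun (W₁ ⊔ W₂) (fun w => 1 - (φ' w : ℂ) - (ψ' w : ℂ) + (φ' w : ℂ) * (ψ' w : ℂ))) = 1 + (if φ = φ' then 1 else 0) + (if ψ = ψ' then 1 else 0) + (if φ = φ' then 1 else 0) * (if ψ = ψ' then 1 else 0) := by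
  classical
  let _ : Fintype ↥(W₁ ⊔ W₂) := Fintype.ofFinite _
  have hcomm := hW.2.2.2.1
  have a1 := fun w h => (hφ₂ w h).1
  have a2 := fun w h => (hφ₂ w h).2
  have b1 := fun w h => (hψ₁ w h).1
  have b2 := fun w h => (hψ₁ w h).2
  have hvan : ∀ (f p : ↥(W₁ ⊔ W₂) →* ℂˣ), (∀ w : ↥(W₁ ⊔ W₂), (w : G) ∈ W₂ → f w = 1) →
      (∀ w : ↥(W₁ ⊔ W₂), (w : G) ∈ W₁ → p w = 1) → ∀ w : ↥(W₁ ⊔ W₂),
      ((w : G) ∈ W₁ ∨ (w : G) ∈ W₂) → (1 - (f w : ℂ) - (p w : ℂ) + (f w : ℂ) * (p w : ℂ)) = 0 := by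
    intro f p hf hp w hw
    rcases hw with hw | hw
    · rw [hp w hw]; simp
    · rw [hf w hw]; simp
  have hcardne : (Nat.card ↥(W₁ ⊔ W₂) : ℂ) ≠ 0 := by
    exact_mod_cast (Nat.card_pos (α := ↥(W₁ ⊔ W₂))).ne'
  constructor
  · have hcf : Cfsg.IsClassFunction G (fun _ => (1 : ℂ)) := fun _ _ => rfl
    rw [classInner_indFun_left _ _ _ hcf, sum_extendByZero_mul]
    simp only [map_one, mul_one]
    rw [sum_alpha W₁ W₂ hcomm φ ψ a1 b1 hφ hψ, ← Nat.card_eq_fintype_card]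
    exact inv_mul_cancel₀ hcardne
  · rw [classInner_indFun_left _ _ _ (isClassFunction_indFun _ _), sum_extendByZero_mul]
    have hterm : ∀ w : ↥(W₁ ⊔ W₂),
        (1 - (φ w : ℂ) - (ψ w : ℂ) + (φ w : ℂ) * (ψ w : ℂ)) *
          conj (Cfsg.indFun (W₁ ⊔ W₂)
            (fun w => 1 - (φ' w : ℂ) - (ψ' w : ℂ) + (φ' w : ℂ) * (ψ' w : ℂ)) w) =
        (1 - (φ w : ℂ) - (ψ w : ℂ) + (φ w : ℂ) * (ψ w : ℂ)) *
          conj (1 - (φ' w : ℂ) - (ψ' w : ℂ) + (φ' w : ℂ) * (ψ' w : ℂ)) := by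
      intro w
      by_cases hw : (w : G) ∈ W₁ ∨ (w : G) ∈ W₂
      · rw [hvan φ ψ a1 b1 w hw, zero_mul, zero_mul]
      · rw [not_or] at hw
        rw [indFun_eq_on_V W₁ W₂ hW _ (hvan φ' ψ' a2 b2) w hw.1 hw.2]
    simp_rw [hterm]
    rw [sum_alpha_mul_conj W₁ W₂ hcomm φ ψ φ' ψ' a1 b1 a2 b2 hφ hψ hφ' hψ',
      ← Nat.card_eq_fintype_card, ← mul_assoc, inv_mul_cancel₀ hcardne, one_mul]
    by_cases h1 : φ = φ' <;> by_cases h2 : ψ = ψ' <;> simp [h1, h2]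

end Cfsg.Agent.S1505
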