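import Cfsg.Statements.S4633
import Cfsg.Agent.Lib.Helper77.IndBridge
import Cfsg.Agent.Lib.Helper77.NilControl

set_option autoImplicit false
open Cfsg

namespace Cfsg.Agent.S4633

/-- an element whose powers by two coprime exponents lie in a subgroup lies in the subgroup -/
theorem mem_of_pow_mem_of_coprime {G : Type*} [Group G] (K : Subgroup G) {t : G} {a b : ℕ}
    (hab : Nat.Coprime a b) (ha : t ^ a ∈ K) (hb : t ^ b ∈ K) : t ∈ K := by
  have hbez := Int.gcd_eq_gcd_ab (a : ℕ) b
  rw [Int.gcd_natCast_natCast, hab] at hbez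
  have hx : t = (t ^ a) ^ (Int.gcdA a b) * (t ^ b) ^ (Int.gcdB a b) := by
    rw [← zpow_natCast t a, ← zpow_natCast t b, ← zpow_mul, ← zpow_mul, ← zpow_add, ← hbez]
    simp
  rw [hx]
  exact K.mul_mem (K.zpow_mem ha _) (K.zpow_mem hb _)

/-- in a cyclic group of order `p ^ n`, an element `g` of the ambient group normalizing it
and fixing a non-identity element satisfies `g ^ (p ^ (n - 1)) ∈ C_G(P)` -/
theorem pow_mem_centralizer_of_fix {G : Type*} [Group G] [Finite G] (p : ℕ) [Fact p.Prime]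
    (P : Subgroup G) (hcyc : IsCyclic P) {n : ℕ} (hn : 0 < n) (hcard : Nat.card P = p ^ n)
    {g : G} (hg : g ∈ Subgroup.normalizer (P : Set G)) {x : G} (hxP : x ∈ P) (hx1 : x ≠ 1)
    (hgx : g * x * g⁻¹ = x) : g ^ (p ^ (n - 1)) ∈ Subgroup.centralizer (P : Set G) := by
  have hp : p.Prime := Fact.out
  obtain ⟨z, hz⟩ := IsCyclic.exists_generator (α := P)
  have hgz : g * (z : G) * g⁻¹ ∈ P := (Subgroup.mem_normalizer_iff.mp hg (z : G)).mp z.2
  obtain ⟨a, ha⟩ := Subgroup.mem_zpowers_iff.mp (hz ⟨g * (z : G) * g⁻¹, hgz⟩)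
  have ha' : (z : G) ^ a = g * (z : G) * g⁻¹ := by
    have := congrArg (Subtype.val : P → G) ha
    simpa using this
  have hconj : ∀ y ∈ P, g * y * g⁻¹ = y ^ a := by
    intro y hy
    obtain ⟨i, hi⟩ := Subgroup.mem_zpowers_iff.mp (hz ⟨y, hy⟩)
    have hi' : (z : G) ^ i = y := by
      have := congrArg (Subtype.val : P → G) hi
      simpa using this
    rw [← hi', ← conj_zpow, ← ha', ← zpow_mul, ← zpow_mul, mul_comm]
  have hpow : ∀ (j : ℕ), ∀ y ∈ P, g ^ j * y * (g ^ j)⁻¹ = y ^ (a ^ j) := by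
    intro j
    induction j with
    | zero =>
      intro y _
      simp
    | succ j ih =>
      intro y hy
      have h1 : g ^ (j + 1) * y * (g ^ (j + 1))⁻¹ = g * (g ^ j * y * (g ^ j)⁻¹) * g⁻¹ := by
        rw [pow_succ']; group
      rw [h1, ih y hy, hconj _ (P.zpow_mem hy _), ← zpow_mul, pow_succ]
  -- `p` divides `a - 1`
  have hxa : x ^ (a - 1) = 1 := by
    have h1 := hconj x hxP
    rw [hgx] at h1
    rw [zpow_sub, zpow_one, ← h1]
    group
  have hord : (orderOf x : ℤ) ∣ a - 1 := orderOf_dvd_iff_zpow_eq_one.mpr hxa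
  have hpx : p ∣ orderOf x := by
    have h1 : orderOf x ∣ p ^ n := by
      rw [← hcard]
      have h2 : orderOf (⟨x, hxP⟩ : P) ∣ Nat.card P := orderOf_dvd_natCard _
      rwa [← Subgroup.orderOf_coe] at h2
    obtain ⟨i, -, hi⟩ := (Nat.dvd_prime_pow hp).mp h1
    rw [hi]
    have hi0 : i ≠ 0 := by
      rintro rfl
      rw [pow_zero, orderOf_eq_one_iff] at hi
      exact hx1 hi
    exact dvd_pow_self p hi0
  have hpa : ((p : ℕ) : ℤ) ∣ a - 1 := (Int.natCast_dvd_natCast.mpr hpx).trans hord
  have hkey := dvd_sub_pow_of_dvd_sub (R := ℤ) (p := p) (a := a) (b := 1) hpa (n - 1)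
  rw [one_pow, Nat.sub_add_cancel hn] at hkey
  obtain ⟨c, hc⟩ := hkey
  rw [Subgroup.mem_centralizer_iff]
  intro y hy
  have h1 := hpow (p ^ (n - 1)) y hy
  have h2 : a ^ p ^ (n - 1) = 1 + (p : ℤ) ^ n * c := by rw [← hc]; ring
  have h3 : y ^ ((p : ℤ) ^ n) = 1 := by
    have h4 : (⟨y, hy⟩ : P) ^ Nat.card P = 1 := pow_card_eq_one'
    rw [hcard] at h4
    have h5 := congrArg (Subtype.val : P → G) h4
    have h6 : y ^ (p ^ n) = 1 := by simpa using h5
    have h7 : ((p : ℤ) ^ n) = ((p ^ n : ℕ) : ℤ) := by push_cast; ring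
    rw [h7, zpow_natCast, h6]
  rw [h2, zpow_add, zpow_one, zpow_mul, h3, one_zpow, mul_one] at h1
  calc y * g ^ (p ^ (n - 1)) = g ^ (p ^ (n - 1)) * y * (g ^ (p ^ (n - 1)))⁻¹ * g ^ (p ^ (n - 1)) := by
        rw [h1]
    _ = g ^ (p ^ (n - 1)) * y := by group

open Cfsg.Agent.Lib.Helper77 Cfsg.Agent.Lib.Helper16 in
/-- Let B be a block of the finite group G relative to a maximal ideal M of the algebraic integers containing the prime p, with a nontrivial cyclic defect group P. Let c be a block of C_G(P) inducing B and T the stabilizer of c in N_G(P) (the elements of N_G(P) conjugating c to itself); T contains C_G(P). Then T/C_G(P) is cyclic of order dividing p − 1, and it acts freely on the non-identity elements of P: an element of T fixing some non-identity element of P under conjugation lies in C_G(P). -/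
theorem result {G : Type*} [Group G] [Finite G] (p : ℕ) [Fact p.Prime] (M : Ideal Cfsg.AlgInt) (hM : Cfsg.IsPModular p M) (B : Set (Cfsg.IrrCharacter G)) (hB : Cfsg.IsPBlock M B) (P : Subgroup G) (hPD : Cfsg.IsDefectGroup p M B P) (hP1 : P ≠ ⊥) (hcyc : IsCyclic P) (c : Set (Cfsg.IrrCharacter (Subgroup.centralizer (P : Set G)))) (hc : Cfsg.IsInducedBlock M (Subgroup.centralizer (P : Set G)) c B) (T : Subgroup G) (hT : ∀ g : G, g ∈ T ↔ (g ∈ Subgroup.normalizer (P : Set G) ∧ Cfsg.StabilizesBlock (Subgroup.centralizer (P : Set G)) c g)) [hn : ((Subgroup.centralizer (P : Set G)).subgroupOf T).Normal] : IsCyclic (T ⧸ (Subgroup.centralizer (P : Set G)).subgroupOf T) ∧ (Subgroup.centralizer (P : Set G)).relIndex T ∣ p - 1 ∧ ∀ g ∈ T, ∀ x ∈ P, x ≠ 1 → g * x * g⁻¹ = x → g ∈ Subgroup.centralizer (P : Set G) := by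
  classical
  have hfin : Fintype G := Fintype.ofFinite G
  have hMp := isPrime_of_isPModular hM
  have hp : p.Prime := Fact.out
  have hP : IsPGroup p P := isPGroup_of_isDefectGroup hPD
  have hPab : ∀ x ∈ P, ∀ y ∈ P, x * y = y * x := by
    intro x hx y hy
    have h1 := isMulCommutative_iff.mp hcyc.commutative (⟨x, hx⟩ : P) ⟨y, hy⟩
    exact congrArg (Subtype.val : P → G) h1
  have hPC : P ≤ Subgroup.centralizer (P : Set G) := by
    intro x hx
    rw [Subgroup.mem_centralizer_iff]
    intro y hy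
    exact hPab y hy x hx
  have hPc := isBrauerPairOf_of_isInducedBlock hM hP hc
  have hmax := isMaximalBrauerPair_of_isDefectGroup hM hPc hPD
  have hTN : T ≤ Subgroup.normalizer (P : Set G) := fun t ht => ((hT t).mp ht).1
  -- no `p`-torsion in the quotient
  have htors : ∀ t ∈ T, ∀ j : ℕ, t ^ (p ^ j) ∈ Subgroup.centralizer (P : Set G) →
      t ∈ Subgroup.centralizer (P : Set G) := by
    intro t ht j htj
    obtain ⟨k, m, A, B', hpm, hord, -⟩ := exists_pow_decomp (p := p) t
    have htm : t ^ m ∈ T := T.pow_mem ht m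
    have hv := mem_sup_centralizer_of_isMaximalBrauerPair hM hmax ((hT _).mp htm).1
      ((hT _).mp htm).2 (isPGroup_zpowers_pow_of_orderOf hord)
    rw [sup_eq_right.mpr hPC] at hv
    exact mem_of_pow_mem_of_coprime _
      (Nat.Coprime.pow_left j ((Nat.Prime.coprime_iff_not_dvd hp).mpr hpm)) htj hv
  -- the order of `P`
  obtain ⟨n, hcard⟩ := IsPGroup.iff_card.mp hP
  have hn : 0 < n := by
    rcases Nat.eq_zero_or_pos n with h0 | h0
    · rw [h0, pow_zero] at hcard
      exact absurd (Subgroup.card_eq_one.mp hcard) hP1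
    · exact h0
  -- the free action
  have hfree : ∀ g ∈ T, ∀ x ∈ P, x ≠ 1 → g * x * g⁻¹ = x →
      g ∈ Subgroup.centralizer (P : Set G) := by
    intro g hg x hxP hx1 hgx
    exact htors g hg (n - 1) (pow_mem_centralizer_of_fix p P hcyc hn hcard (hTN hg) hxP hx1 hgx)
  -- the homomorphism to the automorphism group
  have hker : (P.normalizerMonoidHom.comp (Subgroup.inclusion hTN)).ker =
      (Subgroup.centralizer (P : Set G)).subgroupOf T := by
    ext t
    rw [MonoidHom.mem_ker, MonoidHom.comp_apply, ← MonoidHom.mem_ker,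
      Subgroup.normalizerMonoidHom_ker, Subgroup.mem_subgroupOf, Subgroup.mem_subgroupOf]
    rfl
  have hinj := QuotientGroup.kerLift_injective (P.normalizerMonoidHom.comp (Subgroup.inclusion hTN))
  have hcardE : Nat.card (T ⧸ (Subgroup.centralizer (P : Set G)).subgroupOf T) ∣ p - 1 := by
    have h1 : Nat.card (T ⧸ (Subgroup.centralizer (P : Set G)).subgroupOf T) ∣
        Nat.card (MulAut P) := by
      rw [← Nat.card_congr (QuotientGroup.quotientMulEquivOfEq hker).toEquiv]
      exact Subgroup.card_dvd_of_injective _ hinj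
    rw [IsCyclic.card_mulAut, hcard, Nat.totient_prime_pow hp hn] at h1
    have h2 : ¬ p ∣ Nat.card (T ⧸ (Subgroup.centralizer (P : Set G)).subgroupOf T) := by
      intro hdvd
      obtain ⟨ebar, he⟩ := exists_prime_orderOf_dvd_card' p hdvd
      obtain ⟨t, rfl⟩ := QuotientGroup.mk_surjective ebar
      have h3 : (QuotientGroup.mk t : T ⧸ (Subgroup.centralizer (P : Set G)).subgroupOf T) ^ p = 1 := by
        rw [← he]
        exact pow_orderOf_eq_one _
      rw [← QuotientGroup.mk_pow, QuotientGroup.eq_one_iff, Subgroup.mem_subgroupOf] at h3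
      have h4 : (t : G) ^ (p ^ 1) ∈ Subgroup.centralizer (P : Set G) := by
        rw [pow_one]
        exact_mod_cast h3
      have h5 := htors (t : G) t.2 1 h4
      have h6 : (QuotientGroup.mk t : T ⧸ (Subgroup.centralizer (P : Set G)).subgroupOf T) = 1 := by
        rw [QuotientGroup.eq_one_iff, Subgroup.mem_subgroupOf]
        exact h5
      rw [h6, orderOf_one] at he
      exact hp.one_lt.ne he
    have h3 : Nat.Coprime (Nat.card (T ⧸ (Subgroup.centralizer (P : Set G)).subgroupOf T))
        (p ^ (n - 1)) :=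
      Nat.Coprime.pow_right _ ((Nat.coprime_comm.mp ((Nat.Prime.coprime_iff_not_dvd hp).mpr h2)))
    exact h3.dvd_of_dvd_mul_left h1
  refine ⟨?_, hcardE, hfree⟩
  by_cases hp2 : p = 2
  · have h1 : Nat.card (T ⧸ (Subgroup.centralizer (P : Set G)).subgroupOf T) = 1 := by
      rw [hp2] at hcardE
      exact Nat.dvd_one.mp hcardE
    have : Subsingleton (T ⧸ (Subgroup.centralizer (P : Set G)).subgroupOf T) :=
      (Nat.card_eq_one_iff_unique.mp h1).1
    exact isCyclic_of_subsingleton
  · have h1 : IsCyclic (ZMod (Nat.card P))ˣ := by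
      rw [hcard]
      exact ZMod.isCyclic_units_of_prime_pow p hp hp2 n
    have h2 : IsCyclic (MulAut P) := (IsCyclic.mulAutMulEquiv P).isCyclic.mpr h1
    have h3 : IsCyclic (T ⧸ (P.normalizerMonoidHom.comp (Subgroup.inclusion hTN)).ker) :=
      isCyclic_of_injective _ hinj
    exact (QuotientGroup.quotientMulEquivOfEq hker).isCyclic.mp h3

end Cfsg.Agent.S4633
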