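import Mathlib
import Cfsg.Statements.S4666
import Cfsg.Agent.Lib.Helper76.PRegBlock2

set_option autoImplicit false
open Cfsg

namespace Cfsg.Agent.S4666

/-- Fix a prime p and a maximal ideal M of the algebraic integers containing p, and a p-block B of the finite group G of defect d. For every integer combination χ of the irreducible characters in B, p^d times the function that agrees with χ on p-regular elements and vanishes elsewhere is again an integer combination of the irreducible characters in B. -/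
theorem result {G : Type*} [Group G] [Fintype G] (p : ℕ) [Fact p.Prime] (M : Ideal Cfsg.AlgInt) (hM : Cfsg.IsPModular p M) (B : Set (Cfsg.IrrCharacter G)) (hB : Cfsg.IsPBlock M B) (χ : G → ℂ) (hχ : (∃ n : Cfsg.IrrCharacter G → ℤ, ∀ g : G, χ g = ∑ᶠ ψ ∈ B, (n ψ : ℂ) * (ψ : G → ℂ) g)) : (∃ n : Cfsg.IrrCharacter G → ℤ, ∀ g : G, (p ^ Cfsg.blockDefect p B : ℂ) * Cfsg.pRegularPart p χ g = ∑ᶠ ψ ∈ B, (n ψ : ℂ) * (ψ : G → ℂ) g) := by
  classical
  have hp : p.Prime := Fact.out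
  have hp0 : (p : ℂ) ≠ 0 := by exact_mod_cast hp.ne_zero
  have := Cfsg.Agent.Lib.Helper81.irr_finite G
  have := Fintype.ofFinite (Cfsg.IrrCharacter G)
  obtain ⟨n, hn⟩ := hχ
  have hex := fun (ψ : Cfsg.IrrCharacter G) (hψ : ψ ∈ B) =>
    Cfsg.Agent.Lib.Helper76.pRegular_block_expansion_min p M hM B hB ψ hψ
  let A : Cfsg.IrrCharacter G → Cfsg.IrrCharacter G → ℤ :=
    fun ψ => if h : ψ ∈ B then Classical.choose (hex ψ h) else 0
  set a := (Nat.card G).factorization p with ha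
  set d := Cfsg.blockDefect p B with hd
  have hA0 : ∀ ψ ∈ B, ∀ ξ, ξ ∉ B → A ψ ξ = 0 := by
    intro ψ hψ ξ hξ
    have := (Classical.choose_spec (hex ψ hψ)).1 ξ hξ
    simp only [A, dif_pos hψ]
    exact this
  have hA1 : ∀ ψ ∈ B, ∀ x : G, (if p ∣ orderOf x then (0 : ℂ) else
      ((p ^ (a - (Cfsg.charDegree (ψ : G → ℂ)).factorization p) : ℕ) : ℂ) * (ψ : G → ℂ) x) =
      ∑ ξ : Cfsg.IrrCharacter G, (A ψ ξ : ℂ) * (ξ : G → ℂ) x := by
    intro ψ hψ x
    have := (Classical.choose_spec (hex ψ hψ)).2 x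
    simp only [A, dif_pos hψ]
    exact this
  have hle : ∀ ψ ∈ B, a - (Cfsg.charDegree (ψ : G → ℂ)).factorization p ≤ d := by
    intro ψ hψ
    have hmem : (Cfsg.charDegree (ψ : G → ℂ)).factorization p ∈
        ((fun χ : Cfsg.IrrCharacter G => (Cfsg.charDegree (χ : G → ℂ)).factorization p) '' B) :=
      ⟨ψ, hψ, rfl⟩
    have := Nat.sInf_le hmem
    rw [hd]
    unfold Cfsg.blockDefect
    omega
  refine ⟨fun ξ => ∑ ψ : Cfsg.IrrCharacter G, if ψ ∈ B then
    n ψ * (p : ℤ) ^ (d - (a - (Cfsg.charDegree (ψ : G → ℂ)).factorization p)) * A ψ ξ else 0,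
    fun g => ?_⟩
  rw [Cfsg.Agent.Lib.Helper16.finsum_mem_eq_sum_ite]
  have hL : (p ^ d : ℂ) * Cfsg.pRegularPart p χ g = ∑ ψ : Cfsg.IrrCharacter G, if ψ ∈ B then
      (n ψ : ℂ) * ((p : ℂ) ^ (d - (a - (Cfsg.charDegree (ψ : G → ℂ)).factorization p)) *
        ∑ ξ : Cfsg.IrrCharacter G, (A ψ ξ : ℂ) * (ξ : G → ℂ) g) else 0 := by
    have hpr : Cfsg.pRegularPart p χ g = if p ∣ orderOf g then 0 else χ g := by
      unfold Cfsg.pRegularPart
      by_cases hg : p ∣ orderOf g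
      · rw [if_neg (show ¬ Cfsg.IsPRegular p g from fun h => h hg), if_pos hg]
      · rw [if_pos (show Cfsg.IsPRegular p g from hg), if_neg hg]
    rw [hpr]
    by_cases hg : p ∣ orderOf g
    · rw [if_pos hg, mul_zero]
      symm
      refine Finset.sum_eq_zero fun ψ _ => ?_
      by_cases hψ : ψ ∈ B
      · rw [if_pos hψ, ← hA1 ψ hψ g, if_pos hg, mul_zero, mul_zero]
      · rw [if_neg hψ]
    · rw [if_neg hg, hn g, Cfsg.Agent.Lib.Helper16.finsum_mem_eq_sum_ite, Finset.mul_sum]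
      refine Finset.sum_congr rfl fun ψ _ => ?_
      by_cases hψ : ψ ∈ B
      · rw [if_pos hψ, if_pos hψ, ← hA1 ψ hψ g, if_neg hg]
        have e : (p : ℂ) ^ d = (p : ℂ) ^ (d - (a - (Cfsg.charDegree (ψ : G → ℂ)).factorization p)) *
            (p : ℂ) ^ (a - (Cfsg.charDegree (ψ : G → ℂ)).factorization p) := by
          rw [← pow_add, Nat.sub_add_cancel (hle ψ hψ)]
        rw [e]
        push_cast
        ring
      · rw [if_neg hψ, if_neg hψ, mul_zero]
  rw [hL]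
  have hR : ∀ ξ : Cfsg.IrrCharacter G, (if ξ ∈ B then
      ((∑ ψ : Cfsg.IrrCharacter G, if ψ ∈ B then
        n ψ * (p : ℤ) ^ (d - (a - (Cfsg.charDegree (ψ : G → ℂ)).factorization p)) * A ψ ξ else 0 : ℤ) : ℂ)
        * (ξ : G → ℂ) g else 0) =
      ∑ ψ : Cfsg.IrrCharacter G, if ψ ∈ B then
        (n ψ : ℂ) * ((p : ℂ) ^ (d - (a - (Cfsg.charDegree (ψ : G → ℂ)).factorization p)) *
          ((A ψ ξ : ℂ) * (ξ : G → ℂ) g)) else 0 := by
    intro ξ
    by_cases hξ : ξ ∈ B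
    · rw [if_pos hξ]
      push_cast
      rw [Finset.sum_mul]
      refine Finset.sum_congr rfl fun ψ _ => ?_
      by_cases hψ : ψ ∈ B
      · rw [if_pos hψ, if_pos hψ]; ring
      · rw [if_neg hψ, if_neg hψ, zero_mul]
    · rw [if_neg hξ]
      symm
      refine Finset.sum_eq_zero fun ψ _ => ?_
      by_cases hψ : ψ ∈ B
      · rw [if_pos hψ, hA0 ψ hψ ξ hξ]; simp
      · rw [if_neg hψ]
  simp only [hR]
  rw [Finset.sum_comm]
  refine Finset.sum_congr rfl fun ψ _ => ?_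
  by_cases hψ : ψ ∈ B
  · simp only [if_pos hψ]
    rw [Finset.mul_sum, Finset.mul_sum]
  · simp only [if_neg hψ, Finset.sum_const_zero]

end Cfsg.Agent.S4666
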