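import Cfsg.Statements.S0174
import Cfsg.Agent.Lib.Helper75.Clifford

set_option autoImplicit false
open Cfsg

namespace Cfsg.Agent.S0174

open Cfsg.Agent.Lib.Helper3 Cfsg.Agent.Lib.Helper75

/-- **Clifford's theorem**. -/
theorem result {G : Type*} [Group G] [Fintype G] (N : Subgroup G) [Fintype N] (hN : N.Normal) (θ : G → ℂ) (hθ : Cfsg.IsIrrCharacter G θ) (χ : N → ℂ) (hχ : Cfsg.IsIrrCharacter N χ) (hconst : Cfsg.classInner (fun n : N => θ n) χ ≠ 0) : (fun n : N => θ n) = Cfsg.classInner (fun n : N => θ n) χ • ∑ᶠ ψ ∈ {ψ : N → ℂ | ∃ g : G, ψ = fun n : N => χ ⟨g * n * g⁻¹, hN.conj_mem n n.2 g⟩}, ψ := by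
  classical
  have := hN
  have : Fintype (Cfsg.IrrCharacter N) := Fintype.ofFinite _
  have hθc : Cfsg.IsClassFunction G θ := isClassFunction_of_isCharacter (isCharacter_of_irr hθ)
  have hcf : Cfsg.IsClassFunction N (fun n : N => θ n) := isClassFunction_res N hθc
  -- description of the set of conjugates
  have hconj : ∀ g : G, (fun n : N => χ ⟨g * n * g⁻¹, hN.conj_mem n n.2 g⟩) = conjChar N χ g⁻¹ := by
    intro g
    funext n
    have hmem : g⁻¹⁻¹ * (n : G) * g⁻¹ ∈ N := by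
      rw [inv_inv]; exact hN.conj_mem n n.2 g
    rw [conjChar_val N χ g⁻¹ n hmem]
    congr 1
    apply Subtype.ext
    simp
  set S : Set (N → ℂ) := {ψ : N → ℂ | ∃ g : G, ψ = fun n : N => χ ⟨g * n * g⁻¹, hN.conj_mem n n.2 g⟩} with hS
  have hSmem : ∀ ψ : N → ℂ, ψ ∈ S ↔ ∃ g : G, ψ = conjChar N χ g := by
    intro ψ
    constructor
    · rintro ⟨g, hg⟩
      exact ⟨g⁻¹, by rw [hg, hconj]⟩
    · rintro ⟨g, hg⟩
      refine ⟨g⁻¹, ?_⟩
      rw [hg, hconj, inv_inv]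
  have hSirr : ∀ ψ ∈ S, Cfsg.IsIrrCharacter N ψ := by
    intro ψ hψ
    obtain ⟨g, rfl⟩ := (hSmem ψ).1 hψ
    exact isIrrCharacter_conjChar N hχ g
  -- rewrite the finsum as a sum over irreducible characters
  have himg : S = (Subtype.val : Cfsg.IrrCharacter N → (N → ℂ)) '' {ψ : Cfsg.IrrCharacter N | (ψ : N → ℂ) ∈ S} := by
    ext ψ
    constructor
    · intro hψ
      exact ⟨⟨ψ, hSirr ψ hψ⟩, hψ, rfl⟩
    · rintro ⟨ψ', hψ', rfl⟩
      exact hψ'
  have hfin : (∑ᶠ ψ ∈ S, ψ) = ∑ ψ : Cfsg.IrrCharacter N, if (ψ : N → ℂ) ∈ S then (ψ : N → ℂ) else 0 := by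
    conv_lhs => rw [himg]
    rw [finsum_mem_image (fun a _ b _ h => Subtype.ext h)]
    rw [finsum_mem_def, finsum_eq_sum_of_fintype]
    refine Finset.sum_congr rfl (fun ψ _ => ?_)
    by_cases hψ : (ψ : N → ℂ) ∈ S
    · rw [Set.indicator_of_mem (by exact hψ), if_pos hψ]
    · rw [Set.indicator_of_notMem (by exact hψ), if_neg hψ]
  rw [hfin, Finset.smul_sum]
  conv_lhs => rw [classFunction_expansion' hcf]
  refine Finset.sum_congr rfl (fun ψ _ => ?_)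
  by_cases hψ : (ψ : N → ℂ) ∈ S
  · rw [if_pos hψ]
    obtain ⟨g, hg⟩ := (hSmem _).1 hψ
    rw [hg, classInner_res_conjChar N hθc χ g]
  · rw [if_neg hψ, smul_zero]
    by_cases h0 : Cfsg.classInner (fun n : N => θ n) (ψ : N → ℂ) = 0
    · rw [h0, zero_smul]
    · exfalso
      obtain ⟨g, hg⟩ := clifford_conj N hθ hχ ψ.2 hconst h0
      exact hψ ((hSmem _).2 ⟨g, hg.symm⟩)

end Cfsg.Agent.S0174
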