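import Cfsg.Statements.S0927
import Cfsg.Agent.Lib.Helper78.HeightZero

set_option autoImplicit false
open Cfsg

namespace Cfsg.Agent.S0927

/-- Let B be a block of the finite group G relative to a maximal ideal M of the algebraic integers containing p, let y represent a defect class of B and let P be a Sylow p-subgroup of the centralizer of y. (a) If x ∈ P and χ ∈ B has height zero, then χ (x * y) is not in the local ideal at M. (b) If x lies in the centre of P, then for every χ ∈ B the central character of χ at x * y is not in the local ideal at M. -/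
theorem result {G : Type*} [Group G] [Finite G] (p : ℕ) [Fact p.Prime] (M : Ideal Cfsg.AlgInt) (hM : Cfsg.IsPModular p M) (B : Set (Cfsg.IrrCharacter G)) (hB : Cfsg.IsPBlock M B) (y : G) (hy : Cfsg.IsDefectClass M B y) (P : Sylow p (Subgroup.centralizer ({y} : Set G))) (x : Subgroup.centralizer ({y} : Set G)) (hx : x ∈ (P : Subgroup (Subgroup.centralizer ({y} : Set G)))) : (∀ χ ∈ B, Cfsg.blockHeight p B (χ : G → ℂ) = 0 → ¬ Cfsg.MemLocalIdeal M ((χ : G → ℂ) ((x : G) * y))) ∧ ((∀ w ∈ (P : Subgroup (Subgroup.centralizer ({y} : Set G))), x * w = w * x) → ∀ χ ∈ B, ¬ Cfsg.MemLocalIdeal M (Cfsg.centralChar (χ : G → ℂ) ((x : G) * y))) := by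
  classical
  have := Fintype.ofFinite G
  have hP := Cfsg.Agent.Lib.Helper16.isPrime_of_isPModular hM
  have hp : p.Prime := hM.1
  have hxy : Commute (x : G) y := by
    have h := x.2
    rw [Subgroup.mem_centralizer_iff] at h
    exact (h y (Set.mem_singleton y)).symm
  obtain ⟨k, hk⟩ : ∃ k, orderOf (x : G) = p ^ k := by
    have hPg : IsPGroup p (P : Subgroup (Subgroup.centralizer ({y} : Set G))) := P.isPGroup'
    obtain ⟨k, hk⟩ := hPg ⟨x, hx⟩
    have h1 : x ^ (p ^ k) = 1 := by
      have := congrArg Subtype.val hk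
      simpa using this
    have hdvd : orderOf (x : G) ∣ p ^ k := by
      rw [Subgroup.orderOf_coe]; exact orderOf_dvd_of_pow_eq_one h1
    obtain ⟨j, -, hj⟩ := (Nat.dvd_prime_pow hp).1 hdvd
    exact ⟨j, hj⟩
  refine ⟨fun χ hχ h0 => Cfsg.Agent.Lib.Helper78.not_memLocalIdeal_irr_mul_defect_class hM B hB
    y hy χ hχ h0 x hxy k hk, ?_⟩
  intro hcen χ hχ
  obtain ⟨ψ, hψ, hψ0⟩ := Cfsg.Agent.Lib.Helper78.exists_height_zero p B ⟨χ, hχ⟩
  have h1 := Cfsg.Agent.Lib.Helper78.not_memLocalIdeal_irr_mul_defect_class hM B hB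
    y hy ψ hψ hψ0 x hxy k hk
  have hreg := Cfsg.Agent.Lib.Helper78.isDefectClass_regular hM B hB y hy
  obtain ⟨a, b, hua, hub, -, -⟩ := Cfsg.Agent.Lib.Helper78.exists_pow_split hp hxy hk hreg
  have hzy : Subgroup.centralizer ({(x : G) * y} : Set G) ≤ Subgroup.centralizer ({y} : Set G) := by
    intro g hg
    rw [Subgroup.mem_centralizer_iff] at hg ⊢
    intro h hh
    rw [Set.mem_singleton_iff] at hh
    have h2 : Commute ((x : G) * y) g := hg _ (Set.mem_singleton _)
    have h3 := h2.pow_left b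
    rw [hub] at h3
    rw [hh]
    exact h3.eq
  have hPz : ∀ w ∈ (P : Subgroup (Subgroup.centralizer ({y} : Set G))),
      (w : G) * ((x : G) * y) = (x : G) * y * w := by
    intro w hw
    have e1 : (x : G) * (w : G) = (w : G) * (x : G) := by
      have := congrArg Subtype.val (hcen w hw)
      simpa using this
    have e2 : y * (w : G) = (w : G) * y := by
      have h := w.2
      rw [Subgroup.mem_centralizer_iff] at h
      exact h y (Set.mem_singleton y)
    rw [← mul_assoc, ← e1, mul_assoc, ← e2, mul_assoc]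
  have hfac : (Cfsg.charDegree (ψ : G → ℂ)).factorization p =
      ((Subgroup.centralizer ({(x : G) * y} : Set G)).index).factorization p := by
    rw [Cfsg.Agent.Lib.Helper78.factorization_eq_of_height_zero hM B hB y hy ψ hψ hψ0]
    exact Cfsg.Agent.Lib.Helper78.factorization_index_centralizer_eq hp y _ hzy P hPz
  have h2 : ¬ Cfsg.MemLocalIdeal M (Cfsg.centralChar (ψ : G → ℂ) ((x : G) * y)) := by
    rw [Cfsg.Agent.Lib.Helper78.memLocalIdeal_centralChar_iff hM ψ _ hfac]
    exact h1
  intro hcon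
  apply h2
  have hsame := Cfsg.Agent.Lib.Helper16.IsPBlock.sameBlock hP hB hχ hψ ((x : G) * y)
  have e : Cfsg.centralChar (ψ : G → ℂ) ((x : G) * y) =
      Cfsg.centralChar (χ : G → ℂ) ((x : G) * y) -
        (Cfsg.centralChar (χ : G → ℂ) ((x : G) * y) -
          Cfsg.centralChar (ψ : G → ℂ) ((x : G) * y)) := by ring
  rw [e]
  exact Cfsg.Agent.Lib.Helper16.memLocalIdeal_sub hP hcon hsame

end Cfsg.Agent.S0927
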