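import Cfsg.Statements.S0971
import Cfsg.Agent.S0919
import Cfsg.Agent.S0965
import Cfsg.Agent.Lib.Helper77.NormalP

set_option autoImplicit false
open Cfsg

namespace Cfsg.Agent.S0971

/-- Let Q be a normal p-subgroup of the finite group G, let N = Q ⊔ C_G(Q) (a normal subgroup) and let b be a block of N relative to a maximal ideal M of the algebraic integers containing p. Then b induces some block of G, and every block B of G containing a character whose restriction to N has a constituent in b is induced by b. -/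
theorem result {G : Type*} [Group G] [Fintype G] (p : ℕ) [Fact p.Prime] (M : Ideal Cfsg.AlgInt) (hM : Cfsg.IsPModular p M) (Q : Subgroup G) [Q.Normal] (hQ : IsPGroup p Q) [Fintype ↥(Q ⊔ Subgroup.centralizer (Q : Set G))] (b : Set (Cfsg.IrrCharacter ↥(Q ⊔ Subgroup.centralizer (Q : Set G)))) (hb : Cfsg.IsPBlock M b) : Cfsg.InducedBlockDefined M (Q ⊔ Subgroup.centralizer (Q : Set G)) b ∧ ∀ B : Set (Cfsg.IrrCharacter G), Cfsg.IsPBlock M B → (∃ χ ∈ B, ∃ θ ∈ b, Cfsg.classInner (fun n : ↥(Q ⊔ Subgroup.centralizer (Q : Set G)) => (χ : G → ℂ) n) (θ : ↥(Q ⊔ Subgroup.centralizer (Q : Set G)) → ℂ) ≠ 0) → Cfsg.IsInducedBlock M (Q ⊔ Subgroup.centralizer (Q : Set G)) b B := by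
  classical
  have hMp := Cfsg.Agent.Lib.Helper16.isPrime_of_isPModular hM
  haveI : (Subgroup.centralizer (Q : Set G)).Normal := Subgroup.normal_centralizer
  haveI hN : (Q ⊔ Subgroup.centralizer (Q : Set G)).Normal := Subgroup.sup_normal _ _
  refine ⟨Cfsg.Agent.S0919.result p M hM Q _ hQ le_sup_left le_sup_right ?_ b hb, ?_⟩
  · rw [Subgroup.normalizer_eq_top]; exact le_top
  · intro B hB hcov
    refine ⟨hb, hB, ?_⟩
    intro ξ hξ χ hχ g
    by_cases hg : g ∈ Q ⊔ Subgroup.centralizer (Q : Set G)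
    · have h := (Cfsg.Agent.S0965.result p M hM _ B hB b hb).mp hcov χ hχ ξ hξ ⟨g, hg⟩
      have h2 := Cfsg.Agent.Lib.Helper16.memLocalIdeal_neg h
      rwa [neg_sub] at h2
    · have h0 : Cfsg.inducedCentralChar (Q ⊔ Subgroup.centralizer (Q : Set G))
          (ξ : ↥(Q ⊔ Subgroup.centralizer (Q : Set G)) → ℂ) g = 0 := by
        unfold Cfsg.inducedCentralChar
        apply finsum_mem_eq_zero_of_forall_eq_zero
        intro h hh
        exfalso
        apply hg
        obtain ⟨c, hc⟩ := isConj_iff.mp hh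
        have h3 : c⁻¹ * (h : G) * c⁻¹⁻¹ ∈ Q ⊔ Subgroup.centralizer (Q : Set G) :=
          hN.conj_mem _ h.2 c⁻¹
        rw [← hc] at h3
        simpa [mul_assoc] using h3
      rw [h0, zero_sub]
      exact Cfsg.Agent.Lib.Helper16.memLocalIdeal_neg
        (Cfsg.Agent.Lib.Helper77.memLocalIdeal_centralChar_of_not_mem_centralizer hM Q hQ g
          (fun h => hg (le_sup_right (a := Q) h)) χ)

end Cfsg.Agent.S0971
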