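import Mathlib
import Cfsg.Statements.S4470
import Cfsg.Agent.Lib.Helper74.JordanC
import Cfsg.Agent.Lib.Helper74.FrobSchur
import Cfsg.Agent.Lib.Helper80.CharOps
import Cfsg.Agent.Lib.Helper80.CharKer
import Cfsg.Agent.Lib.Helper15.LinChar
import Cfsg.Agent.Lib.Helper82.AbelianSylow
import Cfsg.Agent.Lib.Helper3.CharCore

set_option autoImplicit false
open Cfsg
open scoped Matrix

namespace Cfsg.Agent.S4470

theorem result {G : Type*} [Group G] [Finite G] (χ : G → ℂ) (hχ : Cfsg.IsCharacter G χ) (hfaith : ∀ g : G, χ g = χ 1 → g = 1) (n : ℕ) (hn : Cfsg.charDegree χ = n) : ∃ A : Subgroup G, A.Normal ∧ (∀ x ∈ A, ∀ y ∈ A, x * y = y * x) ∧ ∀ H : Subgroup G, (∀ x ∈ H, ∀ y ∈ H, x * y = y * x) → (A.subgroupOf H).index ≤ 12 ^ n := by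
  classical
  haveI := Fintype.ofFinite G
  have hχ0 := hχ
  obtain ⟨n', ρ, hρ⟩ := hχ
  have hM : ∀ g, χ g = (Lib.Helper74.matHom ρ (Pi.basisFun ℂ (Fin n')) g).trace := fun g => by
    rw [← hρ]; exact Lib.Helper74.character_eq_trace ρ (Pi.basisFun ℂ (Fin n')) g
  obtain ⟨U, hUu, hUtr⟩ := Lib.Helper74.Jordan.exists_unitary_hom
    (Lib.Helper74.matHom ρ (Pi.basisFun ℂ (Fin n')))
  have hχU : ∀ g, χ g = (U g).trace := fun g => by rw [hM, hUtr]
  have hinj : ∀ g, U g = 1 → g = 1 := by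
    intro g hg
    apply hfaith
    rw [hχU, hχU, hg, map_one]
  refine ⟨Lib.Helper74.Jordan.jordanSubgroup U, Lib.Helper74.Jordan.jordanSubgroup_normal U,
    Lib.Helper74.Jordan.jordanSubgroup_comm U hUu hinj, ?_⟩
  intro H hH
  haveI : Fintype (IrrCharacter H) := Fintype.ofFinite _
  have hχH : IsCharacter H (fun x : H => χ x) := Lib.Helper80.isCharacter_restrict H hχ0
  obtain ⟨m, hm, hexp⟩ := Lib.Helper80.character_expansion hχH
  have hsum := Lib.Helper80.charDegree_eq_sum hχH m hexp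
  have hcommH : ∀ a b : H, a * b = b * a := fun a b => Subtype.ext (hH a a.2 b b.2)
  have hlin : ∀ θ : IrrCharacter H, (θ : H → ℂ) 1 = 1 :=
    fun θ => Lib.Helper82.irr_one_eq_one_of_comm hcommH θ.2
  have hch : ∀ θ : IrrCharacter H, IsCharacter H (θ : H → ℂ) :=
    fun θ => Lib.Helper80.isCharacter_of_isIrrCharacter θ.2
  have hdeg1 : ∀ θ : IrrCharacter H, charDegree (θ : H → ℂ) = 1 := by
    intro θ
    have h1 := Lib.Helper80.char_one_eq_charDegree (hch θ)
    rw [hlin θ] at h1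
    exact_mod_cast h1.symm
  have hdegH : charDegree (fun x : H => χ x) = n := by rw [← hn]; rfl
  have hsum' : ∑ θ : IrrCharacter H, m θ = n := by
    rw [← hdegH, hsum]
    exact Finset.sum_congr rfl fun θ _ => by rw [hdeg1 θ, mul_one]
  have hT : Fintype.card {θ : IrrCharacter H // m θ ≠ 0} ≤ n := by
    rw [Fintype.card_subtype, ← hsum', Finset.card_eq_sum_ones]
    calc ∑ θ ∈ Finset.univ.filter (fun θ : IrrCharacter H => m θ ≠ 0), 1
        ≤ ∑ θ ∈ Finset.univ.filter (fun θ : IrrCharacter H => m θ ≠ 0), m θ :=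
          Finset.sum_le_sum fun θ hθ => Nat.one_le_iff_ne_zero.2 (Finset.mem_filter.1 hθ).2
      _ ≤ ∑ θ : IrrCharacter H, m θ :=
          Finset.sum_le_sum_of_subset (Finset.filter_subset _ _)
  -- powers of linear characters
  have hpow : ∀ (θ : IrrCharacter H) (k : H) (l : ℕ), (θ : H → ℂ) (k ^ l) = (θ : H → ℂ) k ^ l := by
    intro θ k l
    induction l with
    | zero => simp [hlin θ]
    | succ l ih => rw [pow_succ, Lib.Helper15.linChar_mul (hch θ) (hlin θ), ih, pow_succ]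
  have hroot : ∀ (θ : IrrCharacter H) (k : H), (θ : H → ℂ) k ^ Nat.card G = 1 := by
    intro θ k
    rw [← hpow]
    have : k ^ Nat.card G = 1 := by
      apply Subtype.ext
      rw [Subgroup.coe_pow, pow_card_eq_one', Subgroup.coe_one]
    rw [this, hlin θ]
  have hnorm : ∀ (θ : IrrCharacter H) (k : H), ‖(θ : H → ℂ) k‖ = 1 := fun θ k =>
    Complex.norm_eq_one_of_pow_eq_one (hroot θ k) Nat.card_pos.ne'
  -- the box map
  have hbox : ∀ h h' : H,
      (∀ t : {θ : IrrCharacter H // m θ ≠ 0},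
        Lib.Helper74.Jordan.sector ((t.1 : H → ℂ) h) = Lib.Helper74.Jordan.sector ((t.1 : H → ℂ) h')) →
      h⁻¹ * h' ∈ (Lib.Helper74.Jordan.jordanSubgroup U).subgroupOf H := by
    intro h h' hsec
    rw [Subgroup.mem_subgroupOf]
    apply Subgroup.subset_closure
    refine Lib.Helper74.Jordan.mem_nearSet_of_decomp U hUu m
      (fun θ => (θ : H → ℂ) (h⁻¹ * h')) _ (fun θ _ => hroot θ _) ?_ ?_
    · intro l
      rw [← hχU]
      have h1 := congrFun hexp ((h⁻¹ * h') ^ l)
      simp only [Finset.sum_apply, Pi.smul_apply, smul_eq_mul] at h1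
      rw [← Subgroup.coe_pow, h1]
      exact Finset.sum_congr rfl fun θ _ => by rw [hpow]
    · intro θ hθ
      have h1 := hsec ⟨θ, hθ⟩
      have h2 := Lib.Helper74.Jordan.sector_re (hnorm θ h) (hnorm θ h') h1
      rw [Lib.Helper15.linChar_mul (hch θ) (hlin θ), Lib.Helper15.linChar_inv (hch θ) (hlin θ)]
      exact h2
  -- counting
  let f : H ⧸ (Lib.Helper74.Jordan.jordanSubgroup U).subgroupOf H →
      ({θ : IrrCharacter H // m θ ≠ 0} → Fin 12) :=
    fun q t => Lib.Helper74.Jordan.sector ((t.1 : H → ℂ) q.out)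
  have hf : Function.Injective f := by
    intro q q' hqq
    have h1 := hbox q.out q'.out (fun t => congrFun hqq t)
    have h2 : (q.out : H ⧸ (Lib.Helper74.Jordan.jordanSubgroup U).subgroupOf H) = q'.out :=
      QuotientGroup.eq.2 h1
    rwa [QuotientGroup.out_eq', QuotientGroup.out_eq'] at h2
  have hcard := Nat.card_le_card_of_injective f hf
  rw [Nat.card_eq_fintype_card (α := {θ : IrrCharacter H // m θ ≠ 0} → Fin 12), Fintype.card_fun,
    Fintype.card_fin] at hcard
  calc ((Lib.Helper74.Jordan.jordanSubgroup U).subgroupOf H).index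
      = Nat.card (H ⧸ (Lib.Helper74.Jordan.jordanSubgroup U).subgroupOf H) := rfl
    _ ≤ 12 ^ Fintype.card {θ : IrrCharacter H // m θ ≠ 0} := hcard
    _ ≤ 12 ^ n := Nat.pow_le_pow_right (by norm_num) hT

end Cfsg.Agent.S4470
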