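import Mathlib
import Cfsg.Statements.S4468
import Cfsg.Agent.S0887
import Cfsg.Agent.S0187
import Cfsg.Agent.Lib.Helper96.ItoGroup
import Cfsg.Agent.Lib.Helper96.ItoChar

set_option autoImplicit false
open Cfsg

namespace Cfsg.Agent.S4468

open Cfsg.Agent.Lib
open Cfsg.Agent.Lib.Helper96

universe u

/-- The minimal configuration: every proper subgroup is `p`-closed and the character is
irreducible. -/
theorem core {G : Type u} [Group G] [Finite G] (p : ℕ) (hp : p.Prime)
    (hmin : ∀ H : Subgroup G, H ≠ ⊤ → ∀ S : Sylow p H, (S : Subgroup H).Normal)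
    {ψ : G → ℂ} (hψ : IsIrrCharacter G ψ) (hfaith : ∀ g : G, ψ g = ψ 1 → g = 1)
    (hsolv : IsPSolvable p G) (hdeg : charDegree ψ + 1 ≤ p) (P : Sylow p G)
    (hP : ¬ (P : Subgroup G).Normal) :
    charDegree ψ + 1 = p ∧ ∃ k : ℕ, charDegree ψ = 2 ^ k := by
  classical
  haveI : Fact p.Prime := ⟨hp⟩
  haveI : Fintype G := Fintype.ofFinite G
  have hψc := Helper80.isCharacter_of_isIrrCharacter hψ
  obtain ⟨hψ1, hpos, hdvd⟩ := Helper79.irr_charDegree hψ
  have hab := Ito.comm_of_faithful p hp hψc hfaith (by omega) (P : Subgroup G) P.isPGroup'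
  have hm2 : 2 ≤ charDegree ψ := by
    by_contra hlt
    have h1 : charDegree ψ = 1 := by omega
    apply hP
    have hcomm : ∀ a b : G, a * b = b * a := by
      intro a b
      have hc : a * b * a⁻¹ * b⁻¹ ∈ commutator G := by
        rw [commutator_def]
        have := Subgroup.commutator_mem_commutator (Subgroup.mem_top a) (Subgroup.mem_top b)
        rwa [commutatorElement_def] at this
      have hψ1' : ψ 1 = 1 := by rw [hψ1, h1]; simp
      have h2 := Helper79.linear_irr_commutator hψ hψ1' hc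
      have h3 := hfaith _ (by rw [h2, hψ1'])
      calc a * b = (a * b * a⁻¹ * b⁻¹) * (b * a) := by group
        _ = b * a := by rw [h3, one_mul]
    exact ⟨fun n hn g => by rw [hcomm g n, mul_assoc, mul_inv_cancel, mul_one]; exact hn⟩
  haveI : (pPrimeCore p G).Characteristic := Helper63.pPrimeCore_characteristic' p G
  haveI hKn : (pPrimeCore p G).Normal := Subgroup.normal_of_characteristic _
  have htop := Ito.sup_pPrimeCore_eq_top p P hmin hP hsolv hab
  obtain ⟨q, hq, hqK⟩ := Ito.pPrimeCore_isPGroup p P hmin hP hsolv hab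
  have hcop := Helper63.card_pPrimeCore_coprime' p G
  set K := pPrimeCore p G with hK
  haveI : Fact q.Prime := ⟨hq⟩
  have hcopPK : (Nat.card (P : Subgroup G)).Coprime (Nat.card K) := by
    obtain ⟨n, hn⟩ := IsPGroup.iff_card.mp P.isPGroup'
    rw [hn]
    exact Nat.Coprime.pow_left n hcop.symm
  have hPK : (P : Subgroup G) ⊓ K = ⊥ := Subgroup.inf_eq_bot_of_coprime hcopPK
  haveI : Fintype K := Fintype.ofFinite K
  haveI : Fintype (IrrCharacter K) := Fintype.ofFinite _
  have hresK : IsCharacter K (fun k : K => ψ k) := Helper75.isCharacter_res K hψc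
  have hψK : IsIrrCharacter K (fun k : K => ψ k) := by
    obtain ⟨m, hm, hsum⟩ := Helper75.char_eq_sum_irr hresK
    have hex : ∃ ϑ : IrrCharacter K, m ϑ ≠ 0 := by
      by_contra hcon
      push Not at hcon
      have h1 := congrFun hsum 1
      simp only [hcon, Nat.cast_zero, zero_smul, Finset.sum_const_zero, Pi.zero_apply] at h1
      have h2 : ψ 1 = 0 := h1
      rw [hψ1] at h2
      have h3 : charDegree ψ = 0 := by exact_mod_cast h2
      omega
    obtain ⟨ϑ, hϑ⟩ := hex
    have hne : classInner (fun k : K => ψ k) (ϑ : K → ℂ) ≠ 0 := by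
      rw [hm ϑ]
      exact_mod_cast hϑ
    obtain ⟨hϑ1, hϑpos, -⟩ := Helper79.irr_charDegree ϑ.2
    obtain ⟨hd1, hd2⟩ := Cfsg.Agent.S0887.result K ψ hψ (ϑ : K → ℂ) ϑ.2 hne (charDegree ψ)
      (charDegree (ϑ : K → ℂ)) hψ1 hϑ1
    have hidx : K.index = Nat.card (P : Subgroup G) := by
      rw [← Subgroup.relIndex_top_right, ← htop, Subgroup.relIndex_sup_right,
        ← Subgroup.inf_relIndex_right, inf_comm, hPK, Subgroup.relIndex_bot_left]
    have hquot : charDegree ψ / charDegree (ϑ : K → ℂ) = 1 := by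
      rw [hidx] at hd2
      obtain ⟨n, hn⟩ := IsPGroup.iff_card.mp P.isPGroup'
      rw [hn] at hd2
      obtain ⟨j, -, hj⟩ := (Nat.dvd_prime_pow hp).mp hd2
      have hj0 : j = 0 := by
        by_contra hne0
        have h2 : p ^ 1 ≤ p ^ j := Nat.pow_le_pow_right hp.pos (Nat.pos_of_ne_zero hne0)
        rw [pow_one] at h2
        have h3 : charDegree ψ / charDegree (ϑ : K → ℂ) ≤ charDegree ψ := Nat.div_le_self _ _
        omega
      rw [hj, hj0, pow_zero]
    have hdeq : charDegree ψ = charDegree (ϑ : K → ℂ) := by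
      obtain ⟨t, ht⟩ := hd1
      rw [ht, Nat.mul_div_cancel_left _ hϑpos] at hquot
      rw [ht, hquot, mul_one]
    have hres_eq := Ito.eq_irr_of_degree_le hresK ϑ hne (by
        have h4 : charDegree (fun k : K => ψ k) = charDegree ψ := rfl
        rw [h4, hdeq])
    rw [hres_eq]
    exact ϑ.2
  have hna : ∃ a ∈ K, ∃ b ∈ K, a * b ≠ b * a := by
    by_contra hcon
    push Not at hcon
    have hKab : ∀ a b : K, a * b = b * a := fun a b => Subtype.ext (hcon a a.2 b b.2)
    have h1 := (Cfsg.Agent.S0187.result (G := K)).mp hKab ⟨_, hψK⟩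
    have h2 : ψ 1 = 1 := h1
    rw [hψ1] at h2
    have h3 : charDegree ψ = 1 := by exact_mod_cast h2
    omega
  have hKbot : K ≠ ⊥ := by
    intro h0
    obtain ⟨a, ha, b, hb, hne⟩ := hna
    rw [h0, Subgroup.mem_bot] at ha hb
    rw [ha, hb] at hne
    exact hne rfl
  have hsetup : Ito.Setup p P K :=
    { normal := hKn, hmin := hmin, notNormal := hP, hab := hab, htop := htop, hcop := hcopPK,
      hder := Ito.commutator_ne_self_of_isPGroup q K hqK hKbot, hna := hna }
  have h1 := Ito.degree_succ_eq p hp P K hPK htop hψ hψK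
    (fun y hy hyc a ha => hsetup.exists_conj hy hyc ha) hsetup.exists_noncentral hm2 hdeg
  refine ⟨h1, ?_⟩
  obtain ⟨-, -, hdvdK⟩ := Helper79.irr_charDegree hψK
  have hdK : charDegree ψ ∣ Nat.card K := hdvdK
  obtain ⟨r, hr⟩ := IsPGroup.iff_card.mp hqK
  rw [hr] at hdK
  obtain ⟨s, -, hs⟩ := (Nat.dvd_prime_pow hq).mp hdK
  by_cases hq2 : q = 2
  · exact ⟨s, by rw [hs, hq2]⟩
  · exfalso
    have hqodd : Odd q := hq.odd_of_ne_two hq2
    have hodd : Odd (charDegree ψ) := by rw [hs]; exact hqodd.pow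
    have hpeven : Even p := by rw [← h1]; exact hodd.add_one
    have hp2 : p = 2 := (Nat.Prime.even_iff hp).mp hpeven
    omega

/-- The irreducible case, given the statement for all smaller groups. -/
theorem irr_case {G : Type u} [Group G] [Finite G] (p : ℕ) (hp : p.Prime)
    (IH : ∀ (H : Type u) [Group H] [Finite H], Nat.card H < Nat.card G →
      ∀ χ : H → ℂ, IsCharacter H χ → (∀ g : H, χ g = χ 1 → g = 1) → IsPSolvable p H →
      charDegree χ + 1 ≤ p → ∀ S : Sylow p H, ¬ (S : Subgroup H).Normal →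
      charDegree χ + 1 = p ∧ (∃ k : ℕ, charDegree χ = 2 ^ k) ∧ IsIrrCharacter H χ)
    {ψ : G → ℂ} (hψ : IsIrrCharacter G ψ) (hfaith : ∀ g : G, ψ g = ψ 1 → g = 1)
    (hsolv : IsPSolvable p G) (hdeg : charDegree ψ + 1 ≤ p) (P : Sylow p G)
    (hP : ¬ (P : Subgroup G).Normal) :
    charDegree ψ + 1 = p ∧ ∃ k : ℕ, charDegree ψ = 2 ^ k := by
  haveI : Fact p.Prime := ⟨hp⟩
  by_cases hex : ∃ H : Subgroup G, H ≠ ⊤ ∧ ∃ S : Sylow p H, ¬ (S : Subgroup H).Normal
  · obtain ⟨H, hH, S, hS⟩ := hex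
    have hlt : Nat.card H < Nat.card G := by
      have h1 := Subgroup.card_le_card_group H
      have h2 : Nat.card H ≠ Nat.card G := fun h => hH ((Subgroup.card_eq_iff_eq_top H).mp h)
      omega
    have hψc := Helper80.isCharacter_of_isIrrCharacter hψ
    have h3 := IH H hlt (fun h : H => ψ h) (Helper75.isCharacter_res H hψc)
      (fun g hg => Subtype.ext (hfaith g hg)) (Helper69.isPSolvable_subgroup p hsolv H) hdeg S hS
    exact ⟨h3.1, h3.2.1⟩
  · push Not at hex
    exact core p hp hex hψ hfaith hsolv hdeg P hP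

/-- Some irreducible constituent `ψ` of a faithful character has `P ker ψ` not normal. -/
theorem exists_constituent {G : Type u} [Group G] [Finite G] (p : ℕ) [Fact p.Prime]
    [Fintype (IrrCharacter G)] {χ : G → ℂ} (hfaith : ∀ g : G, χ g = χ 1 → g = 1)
    (m : IrrCharacter G → ℕ) (hsum : χ = ∑ ψ : IrrCharacter G, (m ψ : ℂ) • (ψ : G → ℂ))
    (P : Sylow p G) (hP : ¬ (P : Subgroup G).Normal) :
    ∃ ψ : IrrCharacter G, m ψ ≠ 0 ∧ ¬ ((P : Subgroup G) ⊔ Helper80.irrKer ψ).Normal := by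
  by_contra hcon
  push Not at hcon
  apply hP
  obtain ⟨M, hMdef⟩ : ∃ M : Subgroup G, M = ⨅ ψ : {ψ : IrrCharacter G // m ψ ≠ 0},
      (P : Subgroup G) ⊔ Helper80.irrKer ψ.1 := ⟨_, rfl⟩
  have hMle : ∀ ψ : IrrCharacter G, m ψ ≠ 0 → M ≤ (P : Subgroup G) ⊔ Helper80.irrKer ψ := by
    intro ψ hψ
    rw [hMdef]
    exact iInf_le (fun ψ : {ψ : IrrCharacter G // m ψ ≠ 0} =>
      (P : Subgroup G) ⊔ Helper80.irrKer ψ.1) ⟨ψ, hψ⟩
  have hMn : M.Normal := by
    rw [hMdef]
    haveI : ∀ ψ : {ψ : IrrCharacter G // m ψ ≠ 0},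
        ((P : Subgroup G) ⊔ Helper80.irrKer ψ.1).Normal := fun ψ => hcon ψ.1 ψ.2
    exact Subgroup.normal_iInf_normal this
  have hPM : (P : Subgroup G) ≤ M := by
    rw [hMdef]
    exact le_iInf (fun ψ => le_sup_left)
  obtain ⟨k, hk⟩ := IsPGroup.iff_card.mp P.isPGroup'
  have hpow : ∀ g ∈ M, g ^ p ^ k = 1 := by
    intro g hgM
    apply hfaith
    have hker : ∀ ψ : IrrCharacter G, m ψ ≠ 0 → g ^ p ^ k ∈ Helper80.irrKer ψ := by
      intro ψ hψ
      have hg : g ∈ (P : Subgroup G) ⊔ Helper80.irrKer ψ := hMle ψ hψ hgM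
      rw [← SetLike.mem_coe, Subgroup.mul_normal] at hg
      obtain ⟨a, ha, b, hb, hab⟩ := Set.mem_mul.mp hg
      have ha1 : a ^ p ^ k = 1 := by
        have h1 := pow_card_eq_one' (G := (P : Subgroup G)) (x := ⟨a, ha⟩)
        rw [hk] at h1
        exact congrArg Subtype.val h1
      have h2 : ((g ^ p ^ k : G) : G ⧸ Helper80.irrKer ψ) = 1 := by
        rw [QuotientGroup.mk_pow, ← hab, QuotientGroup.mk_mul,
          (QuotientGroup.eq_one_iff b).mpr hb, mul_one, ← QuotientGroup.mk_pow, ha1]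
        rfl
      exact (QuotientGroup.eq_one_iff _).mp h2
    have e1 := congrFun hsum (g ^ p ^ k)
    have e2 := congrFun hsum 1
    simp only [Finset.sum_apply, Pi.smul_apply, smul_eq_mul] at e1 e2
    have hval : ∀ ψ : IrrCharacter G, (m ψ : ℂ) * (ψ : G → ℂ) (g ^ p ^ k) =
        (m ψ : ℂ) * (ψ : G → ℂ) 1 := by
      intro ψ
      by_cases h0 : m ψ = 0
      · rw [h0]; simp
      · rw [(Helper80.mem_irrKer ψ (g ^ p ^ k)).mp (hker ψ h0)]
    rw [e1, e2]
    exact Finset.sum_congr rfl (fun ψ _ => hval ψ)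
  have hMp : IsPGroup p M := by
    intro g
    refine ⟨k, ?_⟩
    apply Subtype.ext
    exact hpow g g.2
  have hMP := P.is_maximal' hMp hPM
  rw [← hMP]
  exact hMn

theorem main (p : ℕ) (hp : p.Prime) : ∀ (n : ℕ) (G : Type u) [Group G] [Finite G],
    Nat.card G = n → ∀ χ : G → ℂ, IsCharacter G χ → (∀ g : G, χ g = χ 1 → g = 1) →
    IsPSolvable p G → charDegree χ + 1 ≤ p → ∀ P : Sylow p G, ¬ (P : Subgroup G).Normal →
    charDegree χ + 1 = p ∧ (∃ k : ℕ, charDegree χ = 2 ^ k) ∧ IsIrrCharacter G χ := by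
  intro n
  induction n using Nat.strong_induction_on with
  | _ n ih =>
  intro G _ _ hn χ hχ hfaith hsolv hdeg P hP
  classical
  haveI : Fact p.Prime := ⟨hp⟩
  haveI : Fintype G := Fintype.ofFinite G
  haveI : Fintype (IrrCharacter G) := Fintype.ofFinite _
  have IH : ∀ (H : Type u) [Group H] [Finite H], Nat.card H < Nat.card G →
      ∀ χ : H → ℂ, IsCharacter H χ → (∀ g : H, χ g = χ 1 → g = 1) → IsPSolvable p H →
      charDegree χ + 1 ≤ p → ∀ S : Sylow p H, ¬ (S : Subgroup H).Normal →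
      charDegree χ + 1 = p ∧ (∃ k : ℕ, charDegree χ = 2 ^ k) ∧ IsIrrCharacter H χ := by
    intro H _ _ hlt
    exact ih (Nat.card H) (by omega) H rfl
  obtain ⟨m, hm, hsum⟩ := Helper75.char_eq_sum_irr hχ
  have hd := Ito.charDegree_eq_sum hχ m hsum
  have hex := exists_constituent p hfaith m hsum P hP
  obtain ⟨ψ₀, hψ₀m, hψ₀N⟩ := hex
  have hle : charDegree (ψ₀ : G → ℂ) ≤ charDegree χ := by
    rw [hd]
    calc charDegree (ψ₀ : G → ℂ) ≤ m ψ₀ * charDegree (ψ₀ : G → ℂ) :=
          Nat.le_mul_of_pos_left _ (Nat.pos_of_ne_zero hψ₀m)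
      _ ≤ ∑ ψ : IrrCharacter G, m ψ * charDegree (ψ : G → ℂ) :=
          Finset.single_le_sum (f := fun ψ : IrrCharacter G => m ψ * charDegree (ψ : G → ℂ))
            (fun _ _ => Nat.zero_le _) (Finset.mem_univ ψ₀)
  have hkey : charDegree (ψ₀ : G → ℂ) + 1 = p ∧ ∃ k : ℕ, charDegree (ψ₀ : G → ℂ) = 2 ^ k := by
    set N := Helper80.irrKer ψ₀ with hN
    by_cases hNbot : N = ⊥
    · have hfaith₀ : ∀ g : G, (ψ₀ : G → ℂ) g = (ψ₀ : G → ℂ) 1 → g = 1 := by
        intro g hg
        have h1 : g ∈ N := (Helper80.mem_irrKer ψ₀ g).mpr hg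
        rw [hNbot, Subgroup.mem_bot] at h1
        exact h1
      exact irr_case p hp IH ψ₀.2 hfaith₀ hsolv (by omega) P hP
    · obtain ⟨ψbar, hψbar, hval⟩ := Helper80.exists_isIrrCharacter_deflate N ψ₀.2
        (fun x hx => (Helper80.mem_irrKer ψ₀ x).mp hx)
      have hlt : Nat.card (G ⧸ N) < Nat.card G := by
        have h1 := Subgroup.card_eq_card_quotient_mul_card_subgroup N
        have h2 : 1 < Nat.card N := (Subgroup.one_lt_card_iff_ne_bot N).mpr hNbot
        rw [h1]
        exact lt_mul_of_one_lt_right Nat.card_pos h2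
      have hfaithbar : ∀ g : G ⧸ N, ψbar g = ψbar 1 → g = 1 := by
        intro g hg
        obtain ⟨x, rfl⟩ := QuotientGroup.mk_surjective g
        rw [hval, ← QuotientGroup.mk_one, hval] at hg
        exact (QuotientGroup.eq_one_iff x).mpr ((Helper80.mem_irrKer ψ₀ x).mpr hg)
      have hdegbar : charDegree ψbar = charDegree (ψ₀ : G → ℂ) := by
        unfold charDegree
        rw [← QuotientGroup.mk_one, hval]
      have hπ : Function.Surjective (QuotientGroup.mk' N) := QuotientGroup.mk'_surjective N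
      have hPbar : ¬ ((P.mapSurjective hπ : Sylow p (G ⧸ N)) : Subgroup (G ⧸ N)).Normal := by
        intro hn
        rw [Sylow.coe_mapSurjective] at hn
        have h1 : (((P : Subgroup G).map (QuotientGroup.mk' N)).comap
            (QuotientGroup.mk' N)).Normal := hn.comap _
        rw [Subgroup.comap_map_eq, QuotientGroup.ker_mk'] at h1
        exact hψ₀N h1
      have h2 := IH (G ⧸ N) hlt ψbar (Helper80.isCharacter_of_isIrrCharacter hψbar) hfaithbar
        (Helper69.isPSolvable_of_surj p _ hπ hsolv) (by rw [hdegbar]; omega)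
        (P.mapSurjective hπ) hPbar
      rw [hdegbar] at h2
      exact ⟨h2.1, h2.2.1⟩
  have heq : χ = (ψ₀ : G → ℂ) := by
    apply Ito.eq_irr_of_degree_le hχ ψ₀
    · rw [hm ψ₀]
      exact_mod_cast hψ₀m
    · omega
  rw [heq]
  exact ⟨hkey.1, hkey.2, ψ₀.2⟩

/-- Let the finite p-solvable group G have a faithful character χ of degree n ≤ p − 1 and suppose that a Sylow p-subgroup of G is not normal. Then n = p − 1, n is a power of 2, and χ is irreducible. -/
theorem result {G : Type*} [Group G] [Finite G] (χ : G → ℂ) (hχ : Cfsg.IsCharacter G χ) (hfaith : ∀ g : G, χ g = χ 1 → g = 1) (n : ℕ) (hn : Cfsg.charDegree χ = n) (p : ℕ) (hp : p.Prime) (hsolv : Cfsg.IsPSolvable p G) (hnp : n + 1 ≤ p) (P : Sylow p G) (hP : ¬ (P : Subgroup G).Normal) : n + 1 = p ∧ (∃ k : ℕ, n = 2 ^ k) ∧ Cfsg.IsIrrCharacter G χ := by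
  have h := main p hp (Nat.card G) G rfl χ hχ hfaith hsolv (by rw [hn]; exact hnp) P hP
  rw [hn] at h
  exact h

end Cfsg.Agent.S4468
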