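import Cfsg.Statements.S5034
import Cfsg.Agent.Lib.Helper83.RootSet7
open Cfsg.Agent.Lib.Helper83

set_option autoImplicit false
open Cfsg

namespace Cfsg.Agent.S5034

/-- Let S be a non-degenerate class of abstract root subgroups of G, A ∈ S and B a rank one partner of A. Then some line partner C of A has ⁅B, C⁆ ∈ S, and the rank one pair A, B is special. -/
theorem result {G : Type*} [Group G] {S : Set (Subgroup G)} (hS : Cfsg.IsRootSubgroupClass S) (hnd : Cfsg.IsNondegenerateRootSet S)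
    {A B : Subgroup G} (hA : A ∈ S) (hB : B ∈ Cfsg.rankOnePartners S A) :
    (∃ C ∈ Cfsg.linePartners S A, C ∈ Cfsg.commutatorPartners S B) ∧ Cfsg.IsSpecialRankOnePair A B := by
  obtain ⟨hSet, -, hconj⟩ := hS
  obtain ⟨hBS, hAB⟩ := hB
  obtain ⟨-, -, ⟨A₁, hA₁, T₁, hT₁, hc₁⟩⟩ := hnd
  obtain ⟨g, hg⟩ := hconj A₁ hA₁ A hA
  have hT : conjBy T₁ g ∈ S := hSet.conj_mem T₁ hT₁ g
  have hAT : ⁅A, conjBy T₁ g⁆ ∈ S := by
    rw [hg, ← conjBy_commutator]; exact hSet.conj_mem _ hc₁.1 g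
  have hc := root_commCase_of_commutator_mem hSet hA hT hAT
  have hD : ⁅A, conjBy T₁ g⁆ ∈ linePartners S A :=
    linePartners_symm hAT (root_mem_linePartners_commutator hSet hA hBS hAB hc)
  obtain ⟨C, hCline, hBC, -⟩ := root_line_special hSet hA hBS hAB hD
  have hCS : C ∈ S := hCline.1.1
  refine ⟨⟨C, hCline, hCS, hBC⟩, hAB, ?_⟩
  intro a ha ha1 b hb hb1 r
  have hAC : ⁅A, C⁆ = ⊥ := hCline.1.2.2
  have hCA : C ≠ A := hCline.1.2.1
  have hline : ∀ c ∈ C, ∀ a' ∈ A, c * a' ≠ 1 → ∃ E ∈ S, c * a' ∈ E := by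
    intro c hc a' ha' hne'
    obtain ⟨E, hE, hm⟩ := hCline.2.2.1 (c * a')
      (mul_mem (Subgroup.mem_sup_right hc) (Subgroup.mem_sup_left ha')) hne'
    exact ⟨E, hE.1, hm⟩
  have hAF : ⁅A, ⁅B, C⁆⁆ = C := root_comm_comm_eq hSet hA hBS hCS hAB hAC hCA hBC hline
  have hCB : ⁅C, B⁆ ∈ S := by rw [Subgroup.commutator_comm]; exact hBC
  have hAF' : ⁅A, ⁅C, B⁆⁆ = C := by rw [Subgroup.commutator_comm C B]; exact hAF
  have hmain := (root_opposite_main hSet hCS hBS hCB hA rfl hAF').2.2.2.2.2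
  have hcBC := root_commCase_of_commutator_mem hSet hBS hCS hBC
  have cF : ∀ f ∈ ⁅B, C⁆, ∀ x ∈ B ⊔ C, f * x = x * f := hcBC.2.1
  obtain ⟨w, hwdef⟩ : ∃ w, w = (a⁻¹ * b⁻¹ * a)⁻¹ * (b⁻¹ * a * b) := ⟨_, rfl⟩
  have hu : b⁻¹ * a * b ∈ conjBy A b⁻¹ := by
    have := conj_mem_conjBy ha b⁻¹
    rwa [inv_inv] at this
  have hv : a⁻¹ * b⁻¹ * a ∈ conjBy A b⁻¹ := by
    rw [r]
    have := conj_mem_conjBy (inv_mem hb) a⁻¹
    rwa [inv_inv] at this
  have hwA₁ : w ∈ conjBy A b⁻¹ := by rw [hwdef]; exact mul_mem (inv_mem hv) hu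
  have hwX : w ∈ B ⊔ A := by
    rw [hwdef]
    have hA' : a ∈ B ⊔ A := Subgroup.mem_sup_right ha
    have hB' : b ∈ B ⊔ A := Subgroup.mem_sup_left hb
    exact mul_mem (inv_mem (mul_mem (mul_mem (inv_mem hA') (inv_mem hB')) hA'))
      (mul_mem (mul_mem (inv_mem hB') hA') hB')
  have cAC : A ≤ Subgroup.centralizer (C : Set G) :=
    Subgroup.commutator_eq_bot_iff_le_centralizer.mp hAC
  have hA₁C : conjBy A b⁻¹ ≤ Subgroup.centralizer ((conjBy C b⁻¹ : Subgroup G) : Set G) := by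
    rw [← conjBy_centralizer]; exact conjBy_mono cAC b⁻¹
  have hwc : ∀ c ∈ C, w * c = c * w := by
    intro c hc
    obtain ⟨f, hfdef⟩ : ∃ f, f = c⁻¹ * b⁻¹ * c * b := ⟨_, rfl⟩
    have hfF : f ∈ ⁅B, C⁆ := by
      rw [hfdef, Subgroup.commutator_comm]; exact commCase_map_mem hc hb
    have hbf : b * f = f * b := (cF f hfF b (Subgroup.mem_sup_left hb)).symm
    have hdef : b⁻¹ * c * b = c * f := by rw [hfdef]; group
    have hψ : f⁻¹ * a * f * a⁻¹ = c⁻¹ := by
      have := root_natural_rel hSet hA hBS hCS hAB hAC hCA hBC hline ha ha1 hb r hc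
      rw [← hfdef] at this; exact this
    have hac : a * c = c * a := commute_of_commutator_eq_bot hAC ha hc
    have h1 := nat_conj_u hbf hdef hψ
    have h2 := nat_conj_v hac hbf hdef hψ
    have hwf : w * f = f * w := by
      rw [hwdef]
      exact conj_eq_comm (h1.trans h2.symm)
    have hwk : w * (b⁻¹ * c * b) = (b⁻¹ * c * b) * w := by
      have hk : b⁻¹ * c * b ∈ conjBy C b⁻¹ := by
        have := conj_mem_conjBy hc b⁻¹
        rwa [inv_inv] at this
      exact ((Subgroup.mem_centralizer_iff.mp (hA₁C hwA₁)) _ hk).symm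
    rw [hdef] at hwk
    have h3 : w * c * f = c * w * f := by
      calc w * c * f = w * (c * f) := mul_assoc _ _ _
        _ = c * f * w := hwk
        _ = c * (f * w) := mul_assoc _ _ _
        _ = c * (w * f) := by rw [hwf]
        _ = c * w * f := (mul_assoc _ _ _).symm
    exact mul_right_cancel h3
  have hwN : ∀ x ∈ C ⊔ conjBy C b⁻¹, w * x = x * w := by
    apply commute_sup hwc
    intro x hx
    exact ((Subgroup.mem_centralizer_iff.mp (hA₁C hwA₁)) x hx).symm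
  have hFle : ⁅C, B⁆ ≤ C ⊔ conjBy C b⁻¹ := by
    rw [Subgroup.commutator_comm]; exact commCase_le_sup_conj hSet hBS hCS hBC hb hb1
  have hwcent : w ∈ Subgroup.centralizer ((C ⊔ ⁅C, B⁆ : Subgroup G) : Set G) := by
    rw [Subgroup.mem_centralizer_iff]
    intro y hy
    exact (hwN y ((sup_le le_sup_left hFle) hy)).symm
  have hwZ := hmain w ⟨hwX, hwcent⟩
  have hwA : w ∈ A := by
    have := mem_conjBy.mp hwA₁
    rw [inv_inv] at this
    have e : b * w * b⁻¹ = w := by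
      rw [mul_assoc, hwZ b⁻¹ (inv_mem (Subgroup.mem_sup_left hb)), ← mul_assoc, mul_inv_cancel,
        one_mul]
    rwa [e] at this
  have hwnorm : w ∈ Subgroup.normalizer (B : Set G) := by
    rw [mem_normalizer_iff_conjBy]
    exact conjBy_eq_of_commute (fun y hy => hwZ y (Subgroup.mem_sup_left hy))
  have hw1 : w = 1 := by
    have : w ∈ A ⊓ Subgroup.normalizer (B : Set G) := ⟨hwA, hwnorm⟩
    rw [rankOne_inf_normalizer hAB, Subgroup.mem_bot] at this
    exact this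
  rw [hwdef, inv_mul_eq_one] at hw1
  exact hw1.symm

end Cfsg.Agent.S5034
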