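import Cfsg.Statements.S5030
import Cfsg.Agent.Lib.Helper83.RootSet5
open Cfsg.Agent.Lib.Helper83

set_option autoImplicit false
open Cfsg

namespace Cfsg.Agent.S5030

/-- Let S be a set of abstract root subgroups of G and A, B, C ∈ S with ⁅A, B⁆ ∈ S and ⁅B, C⁆ ∈ S, where A and C are different and commute. For a non-identity b ∈ B put X = ⟨A, b⁻¹ C b⟩ and Y = ⟨b⁻¹ A b, C⟩ and R = ⟨A, B, C⟩. Then X and Y are either both abelian or both nilpotent of class exactly two; X and Y commute elementwise; XY is normal in R with R = (XY) B; and R is nilpotent. -/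
theorem result {G : Type*} [Group G] {S : Set (Subgroup G)} (hS : Cfsg.IsRootSubgroupSet S)
    {A B C : Subgroup G} (hA : A ∈ S) (hB : B ∈ S) (hC : C ∈ S) (hAB : ⁅A, B⁆ ∈ S) (hBC : ⁅B, C⁆ ∈ S)
    (hAC : C ∈ Cfsg.commutingPartners S A)
    {b : G} (hb : b ∈ B) (hb1 : b ≠ 1) :
    ((IsMulCommutative ↥(A ⊔ Cfsg.conjBy C b⁻¹) ∧ IsMulCommutative ↥(Cfsg.conjBy A b⁻¹ ⊔ C)) ∨
      ((¬ IsMulCommutative ↥(A ⊔ Cfsg.conjBy C b⁻¹) ∧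
          ⁅⁅A ⊔ Cfsg.conjBy C b⁻¹, A ⊔ Cfsg.conjBy C b⁻¹⁆, A ⊔ Cfsg.conjBy C b⁻¹⁆ = ⊥) ∧
        (¬ IsMulCommutative ↥(Cfsg.conjBy A b⁻¹ ⊔ C) ∧
          ⁅⁅Cfsg.conjBy A b⁻¹ ⊔ C, Cfsg.conjBy A b⁻¹ ⊔ C⁆, Cfsg.conjBy A b⁻¹ ⊔ C⁆ = ⊥))) ∧
    ⁅A ⊔ Cfsg.conjBy C b⁻¹, Cfsg.conjBy A b⁻¹ ⊔ C⁆ = ⊥ ∧
    (∀ r ∈ A ⊔ B ⊔ C, Cfsg.conjBy ((A ⊔ Cfsg.conjBy C b⁻¹) ⊔ (Cfsg.conjBy A b⁻¹ ⊔ C)) r =
      (A ⊔ Cfsg.conjBy C b⁻¹) ⊔ (Cfsg.conjBy A b⁻¹ ⊔ C)) ∧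
    ((A ⊔ Cfsg.conjBy C b⁻¹) ⊔ (Cfsg.conjBy A b⁻¹ ⊔ C)) ⊔ B = A ⊔ B ⊔ C ∧
    Group.IsNilpotent ↥(A ⊔ B ⊔ C) := by
  have hBA : ⁅B, A⁆ ∈ S := by rw [Subgroup.commutator_comm]; exact hAB
  have hcAB := root_commCase_of_commutator_mem hS hA hB hAB
  have hcBC := root_commCase_of_commutator_mem hS hB hC hBC
  have hbi : b⁻¹ ∈ B := inv_mem hb
  have hbi1 : b⁻¹ ≠ 1 := fun e => hb1 (inv_eq_one.mp e)
  have hAp : conjBy A b⁻¹ ∈ S := hS.conj_mem A hA b⁻¹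
  have hCp : conjBy C b⁻¹ ∈ S := hS.conj_mem C hC b⁻¹
  -- centralizer facts
  have cAA : A ≤ Subgroup.centralizer ((A : Subgroup G) : Set G) := Subgroup.le_centralizer_iff_isMulCommutative.mpr (hS.commutative A hA)
  have cBB : B ≤ Subgroup.centralizer ((B : Subgroup G) : Set G) := Subgroup.le_centralizer_iff_isMulCommutative.mpr (hS.commutative B hB)
  have cCC : C ≤ Subgroup.centralizer ((C : Subgroup G) : Set G) := Subgroup.le_centralizer_iff_isMulCommutative.mpr (hS.commutative C hC)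
  have cApAp : conjBy A b⁻¹ ≤ Subgroup.centralizer ((conjBy A b⁻¹ : Subgroup G) : Set G) :=
    Subgroup.le_centralizer_iff_isMulCommutative.mpr (hS.commutative _ hAp)
  have cCpCp : conjBy C b⁻¹ ≤ Subgroup.centralizer ((conjBy C b⁻¹ : Subgroup G) : Set G) :=
    Subgroup.le_centralizer_iff_isMulCommutative.mpr (hS.commutative _ hCp)
  have cAC : A ≤ Subgroup.centralizer ((C : Subgroup G) : Set G) := Subgroup.commutator_eq_bot_iff_le_centralizer.mp hAC.2.2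
  have cCA : C ≤ Subgroup.centralizer ((A : Subgroup G) : Set G) := le_centralizer_symm cAC
  have cDA : ⁅A, B⁆ ≤ Subgroup.centralizer ((A : Subgroup G) : Set G) := le_centralizer_of_le (commCase_le_centralizer hcAB) le_sup_left
  have cDB : ⁅A, B⁆ ≤ Subgroup.centralizer ((B : Subgroup G) : Set G) := le_centralizer_of_le (commCase_le_centralizer hcAB) le_sup_right
  have cEB : ⁅B, C⁆ ≤ Subgroup.centralizer ((B : Subgroup G) : Set G) := le_centralizer_of_le (commCase_le_centralizer hcBC) le_sup_left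
  have cEC : ⁅B, C⁆ ≤ Subgroup.centralizer ((C : Subgroup G) : Set G) := le_centralizer_of_le (commCase_le_centralizer hcBC) le_sup_right
  have cAD : A ≤ Subgroup.centralizer ((⁅A, B⁆ : Subgroup G) : Set G) := le_centralizer_symm cDA
  have cBD : B ≤ Subgroup.centralizer ((⁅A, B⁆ : Subgroup G) : Set G) := le_centralizer_symm cDB
  have cBE : B ≤ Subgroup.centralizer ((⁅B, C⁆ : Subgroup G) : Set G) := le_centralizer_symm cEB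
  have cCE : C ≤ Subgroup.centralizer ((⁅B, C⁆ : Subgroup G) : Set G) := le_centralizer_symm cEC
  -- conjugates
  have hAconj : ∀ b' ∈ B, conjBy A b' ≤ A ⊔ ⁅A, B⁆ := fun b' hb' => conjBy_le_sup_commutator hb'
  have hCconj : ∀ b' ∈ B, conjBy C b' ≤ C ⊔ ⁅B, C⁆ := fun b' hb' => conjBy_inv_le_sup_commutator hb'
  have hAple : conjBy A b⁻¹ ≤ A ⊔ ⁅A, B⁆ := hAconj _ hbi
  have hCple : conjBy C b⁻¹ ≤ C ⊔ ⁅B, C⁆ := hCconj _ hbi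
  have hDle : ⁅A, B⁆ ≤ A ⊔ conjBy A b⁻¹ := by
    have := commCase_le_sup_conj hS hB hA hBA hb hb1
    rwa [Subgroup.commutator_comm] at this
  have hEle : ⁅B, C⁆ ≤ C ⊔ conjBy C b⁻¹ := commCase_le_sup_conj hS hB hC hBC hb hb1
  have cApA : conjBy A b⁻¹ ≤ Subgroup.centralizer ((A : Subgroup G) : Set G) := hAple.trans (sup_le cAA cDA)
  have cAAp : A ≤ Subgroup.centralizer ((conjBy A b⁻¹ : Subgroup G) : Set G) := le_centralizer_symm cApA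
  have cCpC : conjBy C b⁻¹ ≤ Subgroup.centralizer ((C : Subgroup G) : Set G) := hCple.trans (sup_le cCC cEC)
  have cCCp : C ≤ Subgroup.centralizer ((conjBy C b⁻¹ : Subgroup G) : Set G) := le_centralizer_symm cCpC
  have cCpAp : conjBy C b⁻¹ ≤ Subgroup.centralizer ((conjBy A b⁻¹ : Subgroup G) : Set G) := by
    rw [← Subgroup.commutator_eq_bot_iff_le_centralizer, ← conjBy_commutator,
      comm_eq_bot_of_le_centralizer cCA, conjBy_bot]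
  have cApCp : conjBy A b⁻¹ ≤ Subgroup.centralizer ((conjBy C b⁻¹ : Subgroup G) : Set G) := le_centralizer_symm cCpAp
  have cXY : (A ⊔ conjBy C b⁻¹) ≤ Subgroup.centralizer (((conjBy A b⁻¹ ⊔ C) : Subgroup G) : Set G) :=
    sup_le (le_centralizer_sup cAAp cAC) (le_centralizer_sup cCpAp cCpC)
  have cYX : (conjBy A b⁻¹ ⊔ C) ≤ Subgroup.centralizer (((A ⊔ conjBy C b⁻¹) : Subgroup G) : Set G) := le_centralizer_symm cXY
  -- no rank one pairs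
  have hnr1 : ¬ IsRankOnePair A (conjBy C b⁻¹) := root_not_rankOne_conj_of_central hS hA hC hBC hb cCA cCCp
  have hnr2 : ¬ IsRankOnePair C (conjBy A b⁻¹) := root_not_rankOne_conj_of_central hS hC hA hBA hb cAC cAAp
  have cF1X : ⁅A, conjBy C b⁻¹⁆ ≤ Subgroup.centralizer (((A ⊔ conjBy C b⁻¹) : Subgroup G) : Set G) := by
    rcases hS.pair A hA _ hCp with h0 | h1 | h2
    · rw [h0]; exact bot_le
    · exact absurd h1 hnr1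
    · exact commCase_le_centralizer h2
  have cF2pY : ⁅conjBy A b⁻¹, C⁆ ≤ Subgroup.centralizer (((conjBy A b⁻¹ ⊔ C) : Subgroup G) : Set G) := by
    rcases hS.pair _ hAp C hC with h0 | h1 | h2
    · rw [h0]; exact bot_le
    · exact absurd (rankOne_symm h1) hnr2
    · exact commCase_le_centralizer h2
  have hF1X : ⁅A, conjBy C b⁻¹⁆ ≤ (A ⊔ conjBy C b⁻¹) := Subgroup.commutator_le_sup _ _
  have hF2pY : ⁅conjBy A b⁻¹, C⁆ ≤ (conjBy A b⁻¹ ⊔ C) := Subgroup.commutator_le_sup _ _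
  have cF1M : ⁅A, conjBy C b⁻¹⁆ ≤ Subgroup.centralizer ((((A ⊔ conjBy C b⁻¹) ⊔ (conjBy A b⁻¹ ⊔ C)) : Subgroup G) : Set G) := le_centralizer_sup cF1X (hF1X.trans cXY)
  have cF2pM : ⁅conjBy A b⁻¹, C⁆ ≤ Subgroup.centralizer ((((A ⊔ conjBy C b⁻¹) ⊔ (conjBy A b⁻¹ ⊔ C)) : Subgroup G) : Set G) := le_centralizer_sup (hF2pY.trans cYX) cF2pY
  -- identification of the commutators
  have hF : ⁅A, conjBy C b⁻¹⁆ = ⁅A, ⁅B, C⁆⁆ := root_commutator_conj_eq hS hB hC hBC cAC hb hb1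
  have hF2 : ⁅conjBy A b⁻¹, C⁆ = ⁅⁅A, B⁆, C⁆ := by
    have := root_commutator_conj_eq hS hB hA hBA cCA hb hb1
    rw [Subgroup.commutator_comm (conjBy A b⁻¹) C, this, Subgroup.commutator_comm C,
      Subgroup.commutator_comm B A]
  have hF2b : ⁅conjBy A b, C⁆ = ⁅⁅A, B⁆, C⁆ := by
    have := root_commutator_conj_eq hS hB hA hBA cCA hbi hbi1
    rw [inv_inv] at this
    rw [Subgroup.commutator_comm (conjBy A b) C, this, Subgroup.commutator_comm C,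
      Subgroup.commutator_comm B A]
  have hconj : conjBy (⁅A, conjBy C b⁻¹⁆) b = ⁅conjBy A b⁻¹, C⁆ := by
    rw [conjBy_commutator, conjBy_conjBy, mul_inv_cancel, conjBy_one, hF2b, ← hF2]
  rw [hF] at cF1M cF1X hF1X
  rw [hF2] at cF2pM cF2pY hF2pY
  -- the subgroup M
  have hAM : A ≤ ((A ⊔ conjBy C b⁻¹) ⊔ (conjBy A b⁻¹ ⊔ C)) := le_sup_left.trans le_sup_left
  have hCpM : conjBy C b⁻¹ ≤ ((A ⊔ conjBy C b⁻¹) ⊔ (conjBy A b⁻¹ ⊔ C)) := le_sup_right.trans le_sup_left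
  have hApM : conjBy A b⁻¹ ≤ ((A ⊔ conjBy C b⁻¹) ⊔ (conjBy A b⁻¹ ⊔ C)) := le_sup_left.trans le_sup_right
  have hCM : C ≤ ((A ⊔ conjBy C b⁻¹) ⊔ (conjBy A b⁻¹ ⊔ C)) := le_sup_right.trans le_sup_right
  have hDM : ⁅A, B⁆ ≤ ((A ⊔ conjBy C b⁻¹) ⊔ (conjBy A b⁻¹ ⊔ C)) := hDle.trans (sup_le hAM hApM)
  have hEM : ⁅B, C⁆ ≤ ((A ⊔ conjBy C b⁻¹) ⊔ (conjBy A b⁻¹ ⊔ C)) := hEle.trans (sup_le hCM hCpM)
  have hFM : ⁅A, ⁅B, C⁆⁆ ≤ ((A ⊔ conjBy C b⁻¹) ⊔ (conjBy A b⁻¹ ⊔ C)) := hF1X.trans le_sup_left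
  have hF2M : ⁅⁅A, B⁆, C⁆ ≤ ((A ⊔ conjBy C b⁻¹) ⊔ (conjBy A b⁻¹ ⊔ C)) := hF2pY.trans le_sup_right
  have cZM : (⁅A, ⁅B, C⁆⁆ ⊔ ⁅⁅A, B⁆, C⁆) ≤ Subgroup.centralizer ((((A ⊔ conjBy C b⁻¹) ⊔ (conjBy A b⁻¹ ⊔ C)) : Subgroup G) : Set G) := sup_le cF1M cF2pM
  have cMZ : ((A ⊔ conjBy C b⁻¹) ⊔ (conjBy A b⁻¹ ⊔ C)) ≤ Subgroup.centralizer (((⁅A, ⁅B, C⁆⁆ ⊔ ⁅⁅A, B⁆, C⁆) : Subgroup G) : Set G) := le_centralizer_symm cZM
  have hBM : B ≤ Subgroup.normalizer ((((A ⊔ conjBy C b⁻¹) ⊔ (conjBy A b⁻¹ ⊔ C)) : Subgroup G) : Set G) := by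
    apply le_normalizer_of_conjBy_le
    intro b' hb'
    have h1 : conjBy A b' ≤ ((A ⊔ conjBy C b⁻¹) ⊔ (conjBy A b⁻¹ ⊔ C)) := (hAconj b' hb').trans (sup_le hAM hDM)
    have h2 : conjBy (conjBy C b⁻¹) b' ≤ ((A ⊔ conjBy C b⁻¹) ⊔ (conjBy A b⁻¹ ⊔ C)) := by
      rw [conjBy_conjBy]
      exact (hCconj _ (mul_mem hb' hbi)).trans (sup_le hCM hEM)
    have h3 : conjBy (conjBy A b⁻¹) b' ≤ ((A ⊔ conjBy C b⁻¹) ⊔ (conjBy A b⁻¹ ⊔ C)) := by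
      rw [conjBy_conjBy]
      exact (hAconj _ (mul_mem hb' hbi)).trans (sup_le hAM hDM)
    have h4 : conjBy C b' ≤ ((A ⊔ conjBy C b⁻¹) ⊔ (conjBy A b⁻¹ ⊔ C)) := (hCconj b' hb').trans (sup_le hCM hEM)
    rw [conjBy_sup, conjBy_sup, conjBy_sup]
    exact sup_le (sup_le h1 h2) (sup_le h3 h4)
  have hAnM : A ≤ Subgroup.normalizer ((((A ⊔ conjBy C b⁻¹) ⊔ (conjBy A b⁻¹ ⊔ C)) : Subgroup G) : Set G) := hAM.trans Subgroup.le_normalizer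
  have hCnM : C ≤ Subgroup.normalizer ((((A ⊔ conjBy C b⁻¹) ⊔ (conjBy A b⁻¹ ⊔ C)) : Subgroup G) : Set G) := hCM.trans Subgroup.le_normalizer
  have hRM : (A ⊔ B ⊔ C) ≤ Subgroup.normalizer ((((A ⊔ conjBy C b⁻¹) ⊔ (conjBy A b⁻¹ ⊔ C)) : Subgroup G) : Set G) := sup_le (sup_le hAnM hBM) hCnM
  have hBR : B ≤ (A ⊔ B ⊔ C) := le_sup_right.trans le_sup_left
  have hAR : A ≤ (A ⊔ B ⊔ C) := le_sup_left.trans le_sup_left
  have hCR : C ≤ (A ⊔ B ⊔ C) := le_sup_right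
  refine ⟨?_, comm_eq_bot_of_le_centralizer cXY, fun r hr => conjBy_eq_of_le_normalizer hRM hr,
    ?_, ?_⟩
  · -- part (1)
    by_cases h0 : ⁅A, conjBy C b⁻¹⁆ = ⊥
    · left
      have h0' : ⁅conjBy A b⁻¹, C⁆ = ⊥ := by rw [← hconj, h0, conjBy_bot]
      exact ⟨isMulCommutative_sup (hS.commutative A hA) (hS.commutative _ hCp)
          (Subgroup.commutator_eq_bot_iff_le_centralizer.mp h0),
        isMulCommutative_sup (hS.commutative _ hAp) (hS.commutative C hC)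
          (Subgroup.commutator_eq_bot_iff_le_centralizer.mp h0')⟩
    · right
      have h0' : ⁅conjBy A b⁻¹, C⁆ ≠ ⊥ := by rw [← hconj]; exact conjBy_ne_bot h0 b
      refine ⟨⟨?_, ?_⟩, ⟨?_, ?_⟩⟩
      · intro hcomm
        apply h0
        rw [Subgroup.commutator_eq_bot_iff_le_centralizer]
        exact le_sup_left.trans (le_centralizer_of_le
          (Subgroup.le_centralizer_iff_isMulCommutative.mpr hcomm) le_sup_right)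
      · have nA : A ≤ Subgroup.normalizer ((⁅A, conjBy C b⁻¹⁆ : Subgroup G) : Set G) := Subgroup.normalizer_commutator_ge_left A _
        have nCp : conjBy C b⁻¹ ≤ Subgroup.normalizer ((⁅A, conjBy C b⁻¹⁆ : Subgroup G) : Set G) := Subgroup.normalizer_commutator_ge_right A _
        have hXX : ⁅(A ⊔ conjBy C b⁻¹), (A ⊔ conjBy C b⁻¹)⁆ ≤ ⁅A, conjBy C b⁻¹⁆ :=
          comm_sup_left
            (comm_sup_right (comm_le_of_le_centralizer cAA) le_rfl nA nCp)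
            (comm_sup_right (by rw [Subgroup.commutator_comm])
              (comm_le_of_le_centralizer cCpCp) nA nCp) nA nCp
        rw [eq_bot_iff]
        refine (Subgroup.commutator_mono hXX le_rfl).trans ?_
        rw [hF]
        exact comm_le_of_le_centralizer cF1X
      · intro hcomm
        apply h0'
        rw [Subgroup.commutator_eq_bot_iff_le_centralizer]
        exact le_sup_left.trans (le_centralizer_of_le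
          (Subgroup.le_centralizer_iff_isMulCommutative.mpr hcomm) le_sup_right)
      · have nAp : conjBy A b⁻¹ ≤ Subgroup.normalizer ((⁅conjBy A b⁻¹, C⁆ : Subgroup G) : Set G) := Subgroup.normalizer_commutator_ge_left _ C
        have nC : C ≤ Subgroup.normalizer ((⁅conjBy A b⁻¹, C⁆ : Subgroup G) : Set G) := Subgroup.normalizer_commutator_ge_right _ C
        have hYY : ⁅(conjBy A b⁻¹ ⊔ C), (conjBy A b⁻¹ ⊔ C)⁆ ≤ ⁅conjBy A b⁻¹, C⁆ :=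
          comm_sup_left
            (comm_sup_right (comm_le_of_le_centralizer cApAp) le_rfl nAp nC)
            (comm_sup_right (by rw [Subgroup.commutator_comm])
              (comm_le_of_le_centralizer cCC) nAp nC) nAp nC
        rw [eq_bot_iff]
        refine (Subgroup.commutator_mono hYY le_rfl).trans ?_
        rw [hF2]
        exact comm_le_of_le_centralizer cF2pY
  · -- part (4)
    apply le_antisymm
    · refine sup_le (sup_le (sup_le hAR ?_) (sup_le ?_ hCR)) hBR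
      · exact conjBy_le_of_mem hCR (hBR hbi)
      · exact conjBy_le_of_mem hAR (hBR hbi)
    · exact sup_le (sup_le (hAM.trans le_sup_left) le_sup_right) (hCM.trans le_sup_left)
  · -- part (5): nilpotency
    have hFZ : ⁅A, ⁅B, C⁆⁆ ≤ (⁅A, ⁅B, C⁆⁆ ⊔ ⁅⁅A, B⁆, C⁆) := le_sup_left
    have hF2Z : ⁅⁅A, B⁆, C⁆ ≤ (⁅A, ⁅B, C⁆⁆ ⊔ ⁅⁅A, B⁆, C⁆) := le_sup_right
    have hEA : ⁅⁅B, C⁆, A⁆ = ⁅A, ⁅B, C⁆⁆ := Subgroup.commutator_comm _ _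
    have hCB : ⁅C, B⁆ = ⁅B, C⁆ := Subgroup.commutator_comm _ _
    have hBAD : ⁅B, A⁆ = ⁅A, B⁆ := Subgroup.commutator_comm _ _
    -- everything in M centralizes Z
    have cAZ : A ≤ Subgroup.centralizer (((⁅A, ⁅B, C⁆⁆ ⊔ ⁅⁅A, B⁆, C⁆) : Subgroup G) : Set G) := hAM.trans cMZ
    have cCZ : C ≤ Subgroup.centralizer (((⁅A, ⁅B, C⁆⁆ ⊔ ⁅⁅A, B⁆, C⁆) : Subgroup G) : Set G) := hCM.trans cMZ
    have cDZ : ⁅A, B⁆ ≤ Subgroup.centralizer (((⁅A, ⁅B, C⁆⁆ ⊔ ⁅⁅A, B⁆, C⁆) : Subgroup G) : Set G) := hDM.trans cMZ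
    have cEZ : ⁅B, C⁆ ≤ Subgroup.centralizer (((⁅A, ⁅B, C⁆⁆ ⊔ ⁅⁅A, B⁆, C⁆) : Subgroup G) : Set G) := hEM.trans cMZ
    have cApZ : conjBy A b⁻¹ ≤ Subgroup.centralizer (((⁅A, ⁅B, C⁆⁆ ⊔ ⁅⁅A, B⁆, C⁆) : Subgroup G) : Set G) := hApM.trans cMZ
    have cCpZ : conjBy C b⁻¹ ≤ Subgroup.centralizer (((⁅A, ⁅B, C⁆⁆ ⊔ ⁅⁅A, B⁆, C⁆) : Subgroup G) : Set G) := hCpM.trans cMZ
    have nAZ : A ≤ Subgroup.normalizer (((⁅A, ⁅B, C⁆⁆ ⊔ ⁅⁅A, B⁆, C⁆) : Subgroup G) : Set G) := le_normalizer_of_le_centralizer cAZ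
    have nCZ : C ≤ Subgroup.normalizer (((⁅A, ⁅B, C⁆⁆ ⊔ ⁅⁅A, B⁆, C⁆) : Subgroup G) : Set G) := le_normalizer_of_le_centralizer cCZ
    have nDZ : ⁅A, B⁆ ≤ Subgroup.normalizer (((⁅A, ⁅B, C⁆⁆ ⊔ ⁅⁅A, B⁆, C⁆) : Subgroup G) : Set G) := le_normalizer_of_le_centralizer cDZ
    have nEZ : ⁅B, C⁆ ≤ Subgroup.normalizer (((⁅A, ⁅B, C⁆⁆ ⊔ ⁅⁅A, B⁆, C⁆) : Subgroup G) : Set G) := le_normalizer_of_le_centralizer cEZ
    have nApZ : conjBy A b⁻¹ ≤ Subgroup.normalizer (((⁅A, ⁅B, C⁆⁆ ⊔ ⁅⁅A, B⁆, C⁆) : Subgroup G) : Set G) := le_normalizer_of_le_centralizer cApZ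
    have nCpZ : conjBy C b⁻¹ ≤ Subgroup.normalizer (((⁅A, ⁅B, C⁆⁆ ⊔ ⁅⁅A, B⁆, C⁆) : Subgroup G) : Set G) := le_normalizer_of_le_centralizer cCpZ
    -- W ≤ Z
    have hWZ : ⁅⁅A, B⁆, ⁅B, C⁆⁆ ≤ (⁅A, ⁅B, C⁆⁆ ⊔ ⁅⁅A, B⁆, C⁆) := by
      refine (Subgroup.commutator_mono hDle hEle).trans ?_
      refine comm_sup_left
        (comm_sup_right (comm_le_of_le_centralizer cAC) ?_ nCZ nCpZ)
        (comm_sup_right ?_ (comm_le_of_le_centralizer cApCp) nCZ nCpZ) nAZ nApZ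
      · rw [hF]; exact hFZ
      · rw [hF2]; exact hF2Z
    have cMW : ((A ⊔ conjBy C b⁻¹) ⊔ (conjBy A b⁻¹ ⊔ C)) ≤ Subgroup.centralizer ((⁅⁅A, B⁆, ⁅B, C⁆⁆ : Subgroup G) : Set G) := le_centralizer_of_le cMZ hWZ
    have cBW : B ≤ Subgroup.centralizer ((⁅⁅A, B⁆, ⁅B, C⁆⁆ : Subgroup G) : Set G) := le_centralizer_commutator cBD cBE
    have cAW : A ≤ Subgroup.centralizer ((⁅⁅A, B⁆, ⁅B, C⁆⁆ : Subgroup G) : Set G) := hAM.trans cMW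
    have cCW : C ≤ Subgroup.centralizer ((⁅⁅A, B⁆, ⁅B, C⁆⁆ : Subgroup G) : Set G) := hCM.trans cMW
    have hFBW : ⁅⁅A, ⁅B, C⁆⁆, B⁆ ≤ ⁅⁅A, B⁆, ⁅B, C⁆⁆ := by
      have := comm3_le (A := A) (B := B) (E := ⁅B, C⁆) cBE
        (by rw [hBAD]; exact hDM.trans (le_centralizer_of_le cMZ hFZ))
        (by rw [hBAD]; exact le_normalizer_of_le_centralizer (hFM.trans cMW))
      rwa [hBAD] at this
    have hF2BW : ⁅⁅⁅A, B⁆, C⁆, B⁆ ≤ ⁅⁅A, B⁆, ⁅B, C⁆⁆ := by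
      have := comm3_le (A := C) (B := B) (E := ⁅A, B⁆) cBD
        (by rw [Subgroup.commutator_comm C (⁅A, B⁆)]
            exact hEM.trans (le_centralizer_of_le cMZ hF2Z))
        (by rw [Subgroup.commutator_comm C (⁅A, B⁆), Subgroup.commutator_comm (⁅B, C⁆) (⁅A, B⁆)]
            exact le_normalizer_of_le_centralizer (hF2M.trans cMW))
      rwa [Subgroup.commutator_comm C (⁅A, B⁆), Subgroup.commutator_comm (⁅B, C⁆) (⁅A, B⁆)] at this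
    have nBZ : B ≤ Subgroup.normalizer (((⁅A, ⁅B, C⁆⁆ ⊔ ⁅⁅A, B⁆, C⁆) : Subgroup G) : Set G) := by
      apply le_normalizer_of_conjBy_le
      intro b' hb'
      rw [conjBy_sup]
      refine sup_le ?_ ?_
      · exact (conjBy_le_sup_commutator hb').trans (sup_le hFZ (hFBW.trans hWZ))
      · exact (conjBy_le_sup_commutator hb').trans (sup_le hF2Z (hF2BW.trans hWZ))
    -- normalizers of K2
    have hDK : ⁅A, B⁆ ≤ (⁅A, B⁆ ⊔ ⁅B, C⁆ ⊔ (⁅A, ⁅B, C⁆⁆ ⊔ ⁅⁅A, B⁆, C⁆)) := le_sup_left.trans le_sup_left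
    have hEK : ⁅B, C⁆ ≤ (⁅A, B⁆ ⊔ ⁅B, C⁆ ⊔ (⁅A, ⁅B, C⁆⁆ ⊔ ⁅⁅A, B⁆, C⁆)) := le_sup_right.trans le_sup_left
    have hZK : (⁅A, ⁅B, C⁆⁆ ⊔ ⁅⁅A, B⁆, C⁆) ≤ (⁅A, B⁆ ⊔ ⁅B, C⁆ ⊔ (⁅A, ⁅B, C⁆⁆ ⊔ ⁅⁅A, B⁆, C⁆)) := le_sup_right
    have nAK : A ≤ Subgroup.normalizer (((⁅A, B⁆ ⊔ ⁅B, C⁆ ⊔ (⁅A, ⁅B, C⁆⁆ ⊔ ⁅⁅A, B⁆, C⁆)) : Subgroup G) : Set G) := by
      apply le_normalizer_of_conjBy_le
      intro a ha
      rw [conjBy_sup, conjBy_sup]
      refine sup_le (sup_le ?_ ?_) ?_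
      · rw [conjBy_eq_of_le_normalizer (le_normalizer_of_le_centralizer cAD) ha]; exact hDK
      · refine (conjBy_le_sup_commutator ha).trans (sup_le hEK ?_)
        rw [hEA]; exact hFZ.trans hZK
      · rw [conjBy_eq_of_le_normalizer nAZ ha]; exact hZK
    have nCK : C ≤ Subgroup.normalizer (((⁅A, B⁆ ⊔ ⁅B, C⁆ ⊔ (⁅A, ⁅B, C⁆⁆ ⊔ ⁅⁅A, B⁆, C⁆)) : Subgroup G) : Set G) := by
      apply le_normalizer_of_conjBy_le
      intro c hc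
      rw [conjBy_sup, conjBy_sup]
      refine sup_le (sup_le ?_ ?_) ?_
      · exact (conjBy_le_sup_commutator hc).trans (sup_le hDK (hF2Z.trans hZK))
      · rw [conjBy_eq_of_le_normalizer (le_normalizer_of_le_centralizer cCE) hc]; exact hEK
      · rw [conjBy_eq_of_le_normalizer nCZ hc]; exact hZK
    have nBK : B ≤ Subgroup.normalizer (((⁅A, B⁆ ⊔ ⁅B, C⁆ ⊔ (⁅A, ⁅B, C⁆⁆ ⊔ ⁅⁅A, B⁆, C⁆)) : Subgroup G) : Set G) := by
      apply le_normalizer_of_conjBy_le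
      intro b' hb'
      rw [conjBy_sup, conjBy_sup]
      refine sup_le (sup_le ?_ ?_) ?_
      · rw [conjBy_eq_of_le_normalizer (le_normalizer_of_le_centralizer cBD) hb']; exact hDK
      · rw [conjBy_eq_of_le_normalizer (le_normalizer_of_le_centralizer cBE) hb']; exact hEK
      · rw [conjBy_eq_of_le_normalizer nBZ hb']; exact hZK
    have nDK : ⁅A, B⁆ ≤ Subgroup.normalizer (((⁅A, B⁆ ⊔ ⁅B, C⁆ ⊔ (⁅A, ⁅B, C⁆⁆ ⊔ ⁅⁅A, B⁆, C⁆)) : Subgroup G) : Set G) := hDK.trans Subgroup.le_normalizer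
    have nEK : ⁅B, C⁆ ≤ Subgroup.normalizer (((⁅A, B⁆ ⊔ ⁅B, C⁆ ⊔ (⁅A, ⁅B, C⁆⁆ ⊔ ⁅⁅A, B⁆, C⁆)) : Subgroup G) : Set G) := hEK.trans Subgroup.le_normalizer
    -- step 0
    have s0 : ⁅(A ⊔ B ⊔ C), (A ⊔ B ⊔ C)⁆ ≤ ((A ⊔ conjBy C b⁻¹) ⊔ (conjBy A b⁻¹ ⊔ C)) :=
      comm_R3_right
        (comm_R3_left (comm_le_of_le_centralizer cAA) (by rw [hBAD]; exact hDM)
          (comm_le_of_le_centralizer cCA) hAnM hBM hCnM)
        (comm_R3_left hDM (comm_le_of_le_centralizer cBB) (by rw [hCB]; exact hEM)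
          hAnM hBM hCnM)
        (comm_R3_left (comm_le_of_le_centralizer cAC) hEM (comm_le_of_le_centralizer cCC)
          hAnM hBM hCnM)
        hAnM hBM hCnM
    -- step 1
    have hMM0 : ((A ⊔ conjBy C b⁻¹) ⊔ (conjBy A b⁻¹ ⊔ C)) ≤ (A ⊔ C ⊔ ⁅A, B⁆ ⊔ ⁅B, C⁆) := by
      have h1 : A ≤ (A ⊔ C ⊔ ⁅A, B⁆ ⊔ ⁅B, C⁆) := le_sup_left.trans (le_sup_left.trans le_sup_left)
      have h2 : C ≤ (A ⊔ C ⊔ ⁅A, B⁆ ⊔ ⁅B, C⁆) := le_sup_right.trans (le_sup_left.trans le_sup_left)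
      have h3 : ⁅A, B⁆ ≤ (A ⊔ C ⊔ ⁅A, B⁆ ⊔ ⁅B, C⁆) := le_sup_right.trans le_sup_left
      have h4 : ⁅B, C⁆ ≤ (A ⊔ C ⊔ ⁅A, B⁆ ⊔ ⁅B, C⁆) := le_sup_right
      exact sup_le (sup_le h1 (hCple.trans (sup_le h2 h4))) (sup_le (hAple.trans (sup_le h1 h3)) h2)
    have s1 : ⁅((A ⊔ conjBy C b⁻¹) ⊔ (conjBy A b⁻¹ ⊔ C)), (A ⊔ B ⊔ C)⁆ ≤ (⁅A, B⁆ ⊔ ⁅B, C⁆ ⊔ (⁅A, ⁅B, C⁆⁆ ⊔ ⁅⁅A, B⁆, C⁆)) := by
      refine (Subgroup.commutator_mono hMM0 le_rfl).trans ?_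
      exact comm_R3_right
        (comm_R4_left (comm_le_of_le_centralizer cAA) (comm_le_of_le_centralizer cCA)
          (comm_le_of_le_centralizer cDA) (by rw [hEA]; exact hFZ.trans hZK) nAK nCK nDK nEK)
        (comm_R4_left hDK (by rw [hCB]; exact hEK)
          (comm_le_of_le_centralizer cDB) (comm_le_of_le_centralizer cEB) nAK nCK nDK nEK)
        (comm_R4_left (comm_le_of_le_centralizer cAC) (comm_le_of_le_centralizer cCC)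
          (hF2Z.trans hZK) (comm_le_of_le_centralizer cEC) nAK nCK nDK nEK)
        nAK nBK nCK
    -- step 2
    have nZZ : (⁅A, ⁅B, C⁆⁆ ⊔ ⁅⁅A, B⁆, C⁆) ≤ Subgroup.normalizer (((⁅A, ⁅B, C⁆⁆ ⊔ ⁅⁅A, B⁆, C⁆) : Subgroup G) : Set G) := Subgroup.le_normalizer
    have s2 : ⁅(⁅A, B⁆ ⊔ ⁅B, C⁆ ⊔ (⁅A, ⁅B, C⁆⁆ ⊔ ⁅⁅A, B⁆, C⁆)), (A ⊔ B ⊔ C)⁆ ≤ (⁅A, ⁅B, C⁆⁆ ⊔ ⁅⁅A, B⁆, C⁆) :=
      comm_R3_right
        (comm_R3_left (comm_le_of_le_centralizer cDA) (by rw [hEA]; exact hFZ)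
          (comm_le_of_le_centralizer (le_centralizer_symm cAZ)) nDZ nEZ nZZ)
        (comm_R3_left (comm_le_of_le_centralizer cDB) (comm_le_of_le_centralizer cEB)
          (commutator_le_of_le_normalizer nBZ) nDZ nEZ nZZ)
        (comm_R3_left hF2Z (comm_le_of_le_centralizer cEC)
          (comm_le_of_le_centralizer (le_centralizer_symm cCZ)) nDZ nEZ nZZ)
        nAZ nBZ nCZ
    -- step 3
    have nAW : A ≤ Subgroup.normalizer ((⁅⁅A, B⁆, ⁅B, C⁆⁆ : Subgroup G) : Set G) := le_normalizer_of_le_centralizer cAW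
    have nBW : B ≤ Subgroup.normalizer ((⁅⁅A, B⁆, ⁅B, C⁆⁆ : Subgroup G) : Set G) := le_normalizer_of_le_centralizer cBW
    have nCW : C ≤ Subgroup.normalizer ((⁅⁅A, B⁆, ⁅B, C⁆⁆ : Subgroup G) : Set G) := le_normalizer_of_le_centralizer cCW
    have nFW : ⁅A, ⁅B, C⁆⁆ ≤ Subgroup.normalizer ((⁅⁅A, B⁆, ⁅B, C⁆⁆ : Subgroup G) : Set G) := le_normalizer_of_le_centralizer (hFM.trans cMW)
    have nF2W : ⁅⁅A, B⁆, C⁆ ≤ Subgroup.normalizer ((⁅⁅A, B⁆, ⁅B, C⁆⁆ : Subgroup G) : Set G) := le_normalizer_of_le_centralizer (hF2M.trans cMW)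
    have s3 : ⁅(⁅A, ⁅B, C⁆⁆ ⊔ ⁅⁅A, B⁆, C⁆), (A ⊔ B ⊔ C)⁆ ≤ ⁅⁅A, B⁆, ⁅B, C⁆⁆ :=
      comm_R3_right
        (comm_sup_left
          (comm_le_of_le_centralizer (le_centralizer_symm (le_centralizer_of_le cAZ hFZ)))
          (comm_le_of_le_centralizer (le_centralizer_symm (le_centralizer_of_le cAZ hF2Z)))
          nFW nF2W)
        (comm_sup_left hFBW hF2BW nFW nF2W)
        (comm_sup_left
          (comm_le_of_le_centralizer (le_centralizer_symm (le_centralizer_of_le cCZ hFZ)))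
          (comm_le_of_le_centralizer (le_centralizer_symm (le_centralizer_of_le cCZ hF2Z)))
          nFW nF2W)
        nAW nBW nCW
    -- step 4
    have s4 : ⁅⁅⁅A, B⁆, ⁅B, C⁆⁆, (A ⊔ B ⊔ C)⁆ = ⊥ :=
      comm_eq_bot_of_le_centralizer
        (le_centralizer_sup (le_centralizer_sup (le_centralizer_symm cAW)
          (le_centralizer_symm cBW)) (le_centralizer_symm cCW))
    exact isNilpotent_of_chain5 s0 s1 s2 s3 s4

end Cfsg.Agent.S5030
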