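import Cfsg.Statements.S5017
import Cfsg.Agent.Lib.Helper83.RankOne2
open Cfsg.Agent.Lib.Helper83

set_option autoImplicit false
open Cfsg

namespace Cfsg.Agent.S5017

/-- Let X be a rank one group with unipotent subgroups A and B and N a normal subgroup of X. Then either X = N A or N lies in the centre of X. Consequently a perfect rank one group is quasisimple. -/
theorem result {X : Type*} [Group X] {A B : Subgroup X} (h : Cfsg.IsRankOneGroup X A B) :
    (∀ N : Subgroup X, N.Normal → N ⊔ A = ⊤ ∨ N ≤ Subgroup.center X) ∧
    (Group.IsPerfect X → Cfsg.IsQuasisimple X) := by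
  refine ⟨fun N hN => rankOneGroup_normal_dichotomy h N hN, fun hperf => ⟨hperf, ?_⟩⟩
  have hnt : Nontrivial (X ⧸ Subgroup.center X) :=
    QuotientGroup.nontrivial_iff.mpr (rankOneGroup_center_ne_top h)
  refine @IsSimpleGroup.mk _ _ hnt ?_
  intro H hH
  have hNn : (H.comap (QuotientGroup.mk' (Subgroup.center X))).Normal := hH.comap _
  rcases rankOneGroup_normal_dichotomy h _ hNn with h1 | h1
  · right
    have hNtop : H.comap (QuotientGroup.mk' (Subgroup.center X)) = ⊤ := by
      by_contra hne
      have hnt' : Nontrivial (X ⧸ H.comap (QuotientGroup.mk' (Subgroup.center X))) :=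
        QuotientGroup.nontrivial_iff.mpr hne
      have hnil : Group.IsNilpotent (X ⧸ H.comap (QuotientGroup.mk' (Subgroup.center X))) := by
        have hA := h.2.nilpotent_left
        refine Group.nilpotent_of_surjective
          ((QuotientGroup.mk' (H.comap (QuotientGroup.mk' (Subgroup.center X)))).comp A.subtype) ?_
        intro q
        obtain ⟨x, rfl⟩ := QuotientGroup.mk'_surjective _ q
        have hx : x ∈ H.comap (QuotientGroup.mk' (Subgroup.center X)) ⊔ A := by rw [h1]; trivial
        obtain ⟨n, hn, a, ha, e⟩ := exists_mul_of_mem_normal_sup hNn hx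
        refine ⟨⟨a, ha⟩, ?_⟩
        rw [e, MonoidHom.comp_apply, Subgroup.subtype_apply, map_mul]
        have hn1 : (QuotientGroup.mk' (H.comap (QuotientGroup.mk' (Subgroup.center X)))) n = 1 :=
          (QuotientGroup.eq_one_iff n).mpr hn
        rw [hn1, one_mul]
      exact Group.IsPerfect.not_isNilpotent
        (X ⧸ H.comap (QuotientGroup.mk' (Subgroup.center X))) hnil
    rw [eq_top_iff]
    intro q _
    obtain ⟨x, rfl⟩ := QuotientGroup.mk'_surjective _ q
    have : x ∈ H.comap (QuotientGroup.mk' (Subgroup.center X)) := by rw [hNtop]; trivial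
    exact this
  · left
    rw [eq_bot_iff]
    intro q hq
    obtain ⟨x, rfl⟩ := QuotientGroup.mk'_surjective _ q
    have hx : x ∈ Subgroup.center X := h1 hq
    rw [Subgroup.mem_bot]
    exact (QuotientGroup.eq_one_iff x).mpr hx

end Cfsg.Agent.S5017
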