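import Mathlib
import Cfsg.Statements.S2941

set_option autoImplicit false
open Cfsg
open scoped commutatorElement

namespace Cfsg.Agent.S2941

/-- Let G be a finite group of characteristic 2 type in which every 2-local subgroup is solvable and the centralizer of Ω₁(Z(S)) lies in N_G(S) for every Sylow 2-subgroup S, and let T be a nontrivial 2-subgroup and K a J(T)-component (J the Thompson subgroup generated by the elementary abelian 2-subgroups of largest order). If a subgroup Q is normalized by ⟨K, J(T)⟩ and normalizes J(T), then Q normalizes K. -/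
theorem result {G : Type*} [Group G] [Finite G] (hL : Cfsg.IsCharacteristicTwoType G) (hN : ∀ N : Subgroup G, Cfsg.IsTwoLocal N → Group.IsSolvable ↥N)
    (hZ : ∀ S : Sylow 2 G, Subgroup.centralizer (Cfsg.omegaCenterOf (S : Subgroup G) : Set G) ≤ Subgroup.normalizer ((S : Subgroup G) : Set G)) (T : Subgroup G) (hT : IsPGroup 2 ↥T) (hT1 : T ≠ ⊥) (K : Subgroup G) (hK : Cfsg.IsJComponent T K)
    (Q : Subgroup G) (hQ1 : K ⊔ Cfsg.thompsonSubgroupOf 2 T ≤ Subgroup.normalizer (Q : Set G)) (hQ2 : Q ≤ Subgroup.normalizer (Cfsg.thompsonSubgroupOf 2 T : Set G)) :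
    Q ≤ Subgroup.normalizer (K : Set G) := by
  classical
  obtain ⟨hKodd, hKJ, -⟩ := hK
  set J : Subgroup G := Cfsg.thompsonSubgroupOf 2 T with hJdef
  -- J is a 2-group
  have hJ2 : IsPGroup 2 J := by
    rw [hJdef]
    unfold Cfsg.thompsonSubgroupOf
    exact (hT.to_subgroup _).map _
  -- J normalizes K
  have hJK : ∀ z ∈ J, ∀ w ∈ K, z * w * z⁻¹ ∈ K := by
    intro z hz
    have hle : ⁅K, J⁆ ≤ K.comap (MulAut.conj z).toMonoidHom := by
      rw [Subgroup.commutator_le]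
      intro k hk j hj
      show z * ⁅k, j⁆ * z⁻¹ ∈ K
      have h1 : ⁅k, z⁆ ∈ K := by
        rw [← hKJ]; exact Subgroup.commutator_mem_commutator hk hz
      have h2 : ⁅k, z * j⁆ ∈ K := by
        rw [← hKJ]; exact Subgroup.commutator_mem_commutator hk (J.mul_mem hz hj)
      have h3 : z * ⁅k, j⁆ * z⁻¹ = ⁅k, z⁆⁻¹ * ⁅k, z * j⁆ := by
        simp only [commutatorElement_def]; group
      rw [h3]
      exact K.mul_mem (K.inv_mem h1) h2
    intro w hw
    have : w ∈ ⁅K, J⁆ := by rw [hKJ]; exact hw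
    exact hle this
  -- every element of K ⊔ J is k * j
  have hsup : ∀ h ∈ K ⊔ J, ∃ j ∈ J, h * j ∈ K := by
    intro h hh
    rw [sup_eq_iSup] at hh
    refine Subgroup.iSup_induction (C := fun h => ∃ j ∈ J, h * j ∈ K) _ hh ?_ ?_ ?_
    · intro b x hx
      cases b
      · exact ⟨x⁻¹, J.inv_mem (by simpa using hx), by simp⟩
      · exact ⟨1, J.one_mem, by simpa using hx⟩
    · exact ⟨1, J.one_mem, by simp⟩
    · rintro x y ⟨j₁, hj₁, hx⟩ ⟨j₂, hj₂, hy⟩
      refine ⟨j₂ * j₁, J.mul_mem hj₂ hj₁, ?_⟩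
      have h1 : j₁⁻¹ * (y * j₂) * j₁⁻¹⁻¹ ∈ K := hJK _ (J.inv_mem hj₁) _ hy
      have h2 : x * y * (j₂ * j₁) = (x * j₁) * (j₁⁻¹ * (y * j₂) * j₁⁻¹⁻¹) := by group
      rw [h2]
      exact K.mul_mem hx h1
  -- elements of odd order of K ⊔ J lie in K
  have hoddK : ∀ h ∈ K ⊔ J, Odd (orderOf h) → h ∈ K := by
    intro h hh hodd
    obtain ⟨j, hj, hk⟩ := hsup h hh
    -- powers: h ^ n * j ^ n ∈ K
    have hpow : ∀ n : ℕ, ∃ j' ∈ J, h ^ n * j' ∈ K ∧ j' = j ^ n := by
      intro n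
      induction n with
      | zero => exact ⟨1, J.one_mem, by simp, by simp⟩
      | succ n ih =>
        obtain ⟨j', hj', hmem, rfl⟩ := ih
        refine ⟨j ^ (n + 1), J.pow_mem hj _, ?_, rfl⟩
        have h1 : (j ^ n)⁻¹ * (h * j) * (j ^ n)⁻¹⁻¹ ∈ K := hJK _ (J.inv_mem (J.pow_mem hj n)) _ hk
        have h2 : h ^ (n + 1) * j ^ (n + 1) = (h ^ n * j ^ n) * ((j ^ n)⁻¹ * (h * j) * (j ^ n)⁻¹⁻¹) := by
          rw [pow_succ, pow_succ]; group
        rw [h2]
        exact K.mul_mem hmem h1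
    obtain ⟨a, ha⟩ := (IsPGroup.iff_orderOf.mp hJ2) ⟨j, hj⟩
    have hja : j ^ (2 ^ a) = 1 := by
      have h1 : (⟨j, hj⟩ : J) ^ (2 ^ a) = 1 := by rw [← ha]; exact pow_orderOf_eq_one _
      exact congrArg Subtype.val h1
    obtain ⟨j', -, hmem, rfl⟩ := hpow (2 ^ a)
    rw [hja, mul_one] at hmem
    have hcop : (2 ^ a).Coprime (orderOf h) :=
      Nat.Coprime.pow_left a (Nat.coprime_two_left.mpr hodd)
    obtain ⟨m, hm⟩ := exists_pow_eq_self_of_coprime hcop
    rw [← hm]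
    exact K.pow_mem hmem m
  -- Q maps K into K ⊔ J
  have hQKJ : ∀ q ∈ Q, ∀ w ∈ K, q * w * q⁻¹ ∈ K ⊔ J := by
    intro q hq
    have hle : ⁅K, J⁆ ≤ (K ⊔ J).comap (MulAut.conj q).toMonoidHom := by
      rw [Subgroup.commutator_le]
      intro k hk j hj
      show q * ⁅k, j⁆ * q⁻¹ ∈ K ⊔ J
      -- q' = k⁻¹ q k ∈ Q
      have hkN : k ∈ Subgroup.normalizer (Q : Set G) := hQ1 (Subgroup.mem_sup_left hk)
      have hq' : k⁻¹ * q * k ∈ Q := (Subgroup.mem_normalizer_iff''.mp hkN q).mp hq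
      have hq'N : k⁻¹ * q * k ∈ Subgroup.normalizer (J : Set G) := hQ2 hq'
      have hj' : (k⁻¹ * q * k) * j * (k⁻¹ * q * k)⁻¹ ∈ J := (Subgroup.mem_normalizer_iff.mp hq'N j).mp hj
      have hj'' : q * j⁻¹ * q⁻¹ ∈ J := (Subgroup.mem_normalizer_iff.mp (hQ2 hq) j⁻¹).mp (J.inv_mem hj)
      have h3 : q * ⁅k, j⁆ * q⁻¹ = k * ((k⁻¹ * q * k) * j * (k⁻¹ * q * k)⁻¹) * k⁻¹ * (q * j⁻¹ * q⁻¹) := by
        simp only [commutatorElement_def]; group
      rw [h3]
      exact Subgroup.mul_mem _ (Subgroup.mul_mem _ (Subgroup.mul_mem _ (Subgroup.mem_sup_left hk)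
        (Subgroup.mem_sup_right hj')) (Subgroup.mem_sup_left (K.inv_mem hk))) (Subgroup.mem_sup_right hj'')
    intro w hw
    have : w ∈ ⁅K, J⁆ := by rw [hKJ]; exact hw
    exact hle this
  -- Q maps K into K
  have hQK : ∀ q ∈ Q, ∀ w ∈ K, q * w * q⁻¹ ∈ K := by
    intro q hq
    have hle : Subgroup.closure {g : G | g ∈ K ∧ Odd (orderOf g)} ≤ K.comap (MulAut.conj q).toMonoidHom := by
      rw [Subgroup.closure_le]
      rintro g ⟨hgK, hgodd⟩
      show q * g * q⁻¹ ∈ K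
      refine hoddK _ (hQKJ q hq g hgK) ?_
      have : orderOf (q * g * q⁻¹) = orderOf g := by
        have := orderOf_injective (MulAut.conj q).toMonoidHom (MulAut.conj q).injective g
        simpa using this
      rw [this]; exact hgodd
    intro w hw
    have : w ∈ Subgroup.closure {g : G | g ∈ K ∧ Odd (orderOf g)} := by rw [hKodd]; exact hw
    exact hle this
  intro q hq
  rw [Subgroup.mem_normalizer_iff]
  intro h
  constructor
  · exact hQK q hq h
  · intro hh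
    have := hQK q⁻¹ (Q.inv_mem hq) _ hh
    simpa [mul_assoc] using this

end Cfsg.Agent.S2941
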