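import Mathlib
import Cfsg.Statements.S0079
import Cfsg.Agent.Lib.Helper54.Stability

set_option autoImplicit false
open Cfsg

namespace Cfsg.Agent.S0079

open Cfsg.Agent.Lib.Helper54

/-- If `G` has a normal `p`-complement for every prime `p` dividing the order of the Hall
subgroup `H`, then `H` has a normal complement (the set of elements of order prime to `|H|`). -/
theorem exists_normal_complement_of_forall_prime {G : Type*} [Group G] [Finite G]
    (H : Subgroup G) (hHall : Nat.Coprime (Nat.card H) H.index)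
    (h : ∀ p : ℕ, p.Prime → p ∣ Nat.card H → ∃ N : Subgroup G, IsNormalPComplement p N) :
    ∃ N : Subgroup G, N.Normal ∧ N.IsComplement' H := by
  classical
  choose f hf using fun q : {p : ℕ // p.Prime ∧ p ∣ Nat.card H} => h q.1 q.2.1 q.2.2
  set N : Subgroup G := ⨅ q, f q with hN
  have hNn : N.Normal := Subgroup.normal_iInf_normal (fun q => (hf q).1)
  have hmem : ∀ g : G, g ∈ N ↔ (orderOf g).Coprime (Nat.card H) := by
    intro g
    rw [hN, Subgroup.mem_iInf]
    constructor
    · intro hg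
      apply Nat.coprime_of_dvd
      intro k hk hkg hkH
      have : Fact k.Prime := ⟨hk⟩
      have h1 : (orderOf g).Coprime k := (hf ⟨k, hk, hkH⟩).coprime_of_mem (hg ⟨k, hk, hkH⟩)
      have h2 : k ∣ Nat.gcd (orderOf g) k := Nat.dvd_gcd hkg dvd_rfl
      rw [h1] at h2
      exact hk.one_lt.ne' (Nat.dvd_one.mp h2)
    · intro hg q
      have : Fact q.1.Prime := ⟨q.2.1⟩
      exact (hf q).mem_of_coprime (Nat.Coprime.coprime_dvd_right q.2.2 hg)
  have hcop : (Nat.card N).Coprime (Nat.card H) := by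
    apply Nat.coprime_of_dvd
    intro k hk hkN hkH
    have : Fact k.Prime := ⟨hk⟩
    obtain ⟨x, hx⟩ := exists_prime_orderOf_dvd_card' k hkN
    have h1 := (hmem (x : G)).mp x.2
    rw [Subgroup.orderOf_coe, hx] at h1
    have h2 : k ∣ Nat.gcd k (Nat.card H) := Nat.dvd_gcd dvd_rfl hkH
    rw [h1] at h2
    exact hk.one_lt.ne' (Nat.dvd_one.mp h2)
  have hinj : Function.Injective ((QuotientGroup.mk' N).comp H.subtype) := by
    rw [injective_iff_map_eq_one]
    intro a ha
    have haN : (a : G) ∈ N := by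
      rw [← QuotientGroup.eq_one_iff]; exact ha
    have h1 := (hmem _).mp haN
    have h2 : orderOf (a : G) ∣ Nat.card H := Subgroup.orderOf_dvd_natCard H a.2
    have h3 : orderOf (a : G) = 1 := Nat.eq_one_of_dvd_coprimes h1 dvd_rfl h2
    exact Subtype.ext (orderOf_eq_one_iff.mp h3)
  have hd1 : Nat.card H ∣ N.index := by
    rw [Subgroup.index_eq_card]; exact Subgroup.card_dvd_of_injective _ hinj
  have hcop2 : N.index.Coprime H.index := by
    apply Nat.coprime_of_dvd
    intro q hq hqN hqH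
    have : Fact q.Prime := ⟨hq⟩
    have hqH' : ¬ q ∣ Nat.card H := by
      intro hh
      have h2 : q ∣ Nat.gcd (Nat.card H) H.index := Nat.dvd_gcd hh hqH
      rw [hHall] at h2
      exact hq.one_lt.ne' (Nat.dvd_one.mp h2)
    let S : Sylow q G := default
    have hSN : (S : Subgroup G) ≤ N := by
      intro s hs
      rw [hmem]
      obtain ⟨k, hk⟩ := S.2 ⟨s, hs⟩
      have hk' : s ^ q ^ k = 1 := by simpa using congrArg Subtype.val hk
      exact Nat.Coprime.coprime_dvd_left (orderOf_dvd_of_pow_eq_one hk')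
        (Nat.Coprime.pow_left k ((Nat.Prime.coprime_iff_not_dvd hq).mpr hqH'))
    exact S.not_dvd_index (hqN.trans (Subgroup.index_dvd_of_le hSN))
  have hd2 : N.index ∣ Nat.card H := by
    have : N.index ∣ Nat.card H * H.index := by
      rw [Subgroup.card_mul_index]; exact Subgroup.index_dvd_card N
    exact hcop2.dvd_of_dvd_mul_right this
  have hidx : N.index = Nat.card H := Nat.dvd_antisymm hd2 hd1
  refine ⟨N, hNn, Subgroup.isComplement'_of_coprime ?_ hcop⟩
  rw [← hidx]; exact N.card_mul_index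

theorem main {G : Type*} [Group G] [Finite G] (H : Subgroup G) (hH : Group.IsNilpotent H)
    (hHall : Nat.Coprime (Nat.card H) H.index) :
    (∃ N : Subgroup G, N.Normal ∧ N.IsComplement' H) ↔
      ∀ x ∈ H, ∀ y ∈ H, (∃ g : G, g * x * g⁻¹ = y) → ∃ h ∈ H, h * x * h⁻¹ = y := by
  constructor
  · rintro ⟨N, hN, hc⟩ x hx y hy ⟨g, rfl⟩
    have hg : g ∈ N ⊔ H := by rw [hc.sup_eq_top]; exact Subgroup.mem_top _
    rw [Subgroup.mem_sup_of_normal_left] at hg
    obtain ⟨n, hn, h, hh, rfl⟩ := hg
    refine ⟨h, hh, ?_⟩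
    have hx' : h * x * h⁻¹ ∈ H := H.mul_mem (H.mul_mem hh hx) (H.inv_mem hh)
    have hcN : (n * h) * x * (n * h)⁻¹ * (h * x * h⁻¹)⁻¹ ∈ N := by
      have e : (n * h) * x * (n * h)⁻¹ * (h * x * h⁻¹)⁻¹ =
          n * ((h * x * h⁻¹) * n⁻¹ * (h * x * h⁻¹)⁻¹) := by group
      rw [e]
      exact N.mul_mem hn (hN.conj_mem _ (N.inv_mem hn) _)
    have hcH : (n * h) * x * (n * h)⁻¹ * (h * x * h⁻¹)⁻¹ ∈ H := H.mul_mem hy (H.inv_mem hx')
    have hmem : (n * h) * x * (n * h)⁻¹ * (h * x * h⁻¹)⁻¹ ∈ N ⊓ H := ⟨hcN, hcH⟩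
    rw [hc.disjoint.eq_bot, Subgroup.mem_bot] at hmem
    exact (mul_inv_eq_one.mp hmem).symm
  · intro hfus
    apply exists_normal_complement_of_forall_prime H hHall
    intro p hp hpH
    have : Fact p.Prime := ⟨hp⟩
    let PH : Sylow p H := default
    have hPp : IsPGroup p ((PH : Subgroup H).map H.subtype) := PH.2.map _
    have hidx : ¬ p ∣ ((PH : Subgroup H).map H.subtype).index := by
      rw [Subgroup.index_map_subtype]
      intro hd
      rcases (Nat.Prime.dvd_mul hp).mp hd with h1 | h1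
      · exact PH.not_dvd_index h1
      · have h2 : p ∣ Nat.gcd (Nat.card H) H.index := Nat.dvd_gcd hpH h1
        rw [hHall] at h2
        exact hp.one_lt.ne' (Nat.dvd_one.mp h2)
    have hF : FrobeniusCondition p G := by
      have := hH
      refine frobeniusCondition_of_nilpotent_fusion_control H (hPp.toSylow hidx) ?_ ?_
      · rw [IsPGroup.toSylow_coe]; exact Subgroup.map_subtype_le _
      · intro x hx g hgx
        obtain ⟨u, hu, hux⟩ := hfus x hx _ hgx ⟨g, rfl⟩
        exact ⟨u, hu, hux.symm⟩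
    exact exists_isNormalPComplement_of_frobeniusCondition hF

/-- A nilpotent Hall subgroup has a normal complement exactly when elements of it that are conjugate in the whole group are already conjugate inside it. -/
theorem result {G : Type*} [Group G] [Finite G] (H : Subgroup G) (hH : Group.IsNilpotent H) (hHall : Nat.Coprime (Nat.card H) H.index) : (∃ N : Subgroup G, N.Normal ∧ N.IsComplement' H) ↔ ∀ x ∈ H, ∀ y ∈ H, (∃ g : G, g * x * g⁻¹ = y) → ∃ h ∈ H, h * x * h⁻¹ = y :=
  main H hH hHall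

end Cfsg.Agent.S0079
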