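import Mathlib
import Cfsg.Statements.S0558
import Cfsg.Agent.Lib.Helper54.Stability
import Cfsg.Agent.S0079

set_option autoImplicit false
open Cfsg

namespace Cfsg.Agent.S0558

open Cfsg.Agent.Lib.Helper54

/-- A `p`-element lies in a normal Sylow `p`-subgroup. -/
theorem mem_sylow_of_normal {K : Type*} [Group K] [Finite K] {p : ℕ} [Fact p.Prime]
    (P : Sylow p K) (hP : (P : Subgroup K).Normal) {y : K} {k : ℕ} (hy : y ^ p ^ k = 1) :
    y ∈ (P : Subgroup K) := by
  have hz : IsPGroup p (Subgroup.zpowers y) := by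
    rintro ⟨z, hz⟩
    obtain ⟨i, rfl⟩ := Subgroup.mem_zpowers_iff.mp hz
    refine ⟨k, Subtype.ext ?_⟩
    simp only [Subgroup.coe_pow, Subgroup.coe_one]
    rw [← zpow_natCast, ← zpow_mul, mul_comm, zpow_mul, zpow_natCast, hy, one_zpow]
  obtain ⟨P', hP'⟩ := hz.exists_le_sylow
  obtain ⟨x, hx⟩ := MulAction.exists_smul_eq K P P'
  have h1 : P' = P := by rw [← hx]; exact Sylow.smul_eq_of_normal
  rw [← h1]; exact hP' (Subgroup.mem_zpowers y)

theorem main {G : Type*} [Group G] [Finite G] (H : Subgroup G)
    (hnot : ∀ p : ℕ, p.Prime → ∀ P : Sylow p G, (P : Subgroup G) ≠ H)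
    (hnorm : ∀ p : ℕ, p.Prime → p ∣ Nat.card H → ∀ P : Sylow p H,
      Subgroup.normalizer (((P : Subgroup H).map H.subtype : Subgroup G) : Set G) = H) :
    ∃ N : Subgroup G, N.Normal ∧ Subgroup.IsComplement' N H := by
  -- Sylow subgroups of `H` are normal in `H`
  have hSylN : ∀ (p : ℕ) [Fact p.Prime] (P : Sylow p H), (P : Subgroup H).Normal := by
    intro p _ P
    by_cases hpH : p ∣ Nat.card H
    · have h1 := hnorm p Fact.out hpH P
      rw [← Subgroup.normalizer_eq_top_iff, eq_top_iff]
      intro h _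
      have hh : (h : G) ∈ Subgroup.normalizer
          (((P : Subgroup H).map H.subtype : Subgroup G) : Set G) := by rw [h1]; exact h.2
      rw [Subgroup.mem_normalizer_iff] at hh ⊢
      intro x
      have hx' := hh (x : G)
      constructor
      · intro hx
        obtain ⟨y, hy, hyx⟩ := hx'.mp ⟨x, hx, rfl⟩
        have hyeq : y = h * x * h⁻¹ := Subtype.ext (by simpa using hyx)
        rw [← hyeq]; exact hy
      · intro hx
        obtain ⟨y, hy, hyx⟩ := hx'.mpr ⟨h * x * h⁻¹, hx, by simp⟩
        have hyeq : y = x := Subtype.ext (by simpa using hyx)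
        rw [← hyeq]; exact hy
    · have hbot : (P : Subgroup H) = ⊥ := by
        obtain ⟨k, hk⟩ := IsPGroup.iff_card.mp P.2
        have hdvd : Nat.card (P : Subgroup H) ∣ Nat.card H := Subgroup.card_subgroup_dvd_card _
        cases k with
        | zero => exact Subgroup.eq_bot_of_card_eq _ (by simpa using hk)
        | succ k =>
          exfalso
          apply hpH
          rw [hk] at hdvd
          exact (dvd_pow_self p (Nat.succ_ne_zero k)).trans hdvd
      rw [hbot]; exact Subgroup.normal_bot
  have hnil : Group.IsNilpotent H :=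
    (Group.isNilpotent_of_finite_tfae.out 0 3 rfl rfl).mpr (fun p hp P => hSylN p P)
  -- Sylow subgroups of `H` are Sylow subgroups of `G`
  have hSylG : ∀ (p : ℕ) [Fact p.Prime], p ∣ Nat.card H → ∀ P : Sylow p H,
      ¬ p ∣ ((P : Subgroup H).map H.subtype).index := by
    intro p _ hpH P hdiv
    have hPp : IsPGroup p ((P : Subgroup H).map H.subtype) := P.2.map _
    obtain ⟨S, hS⟩ := hPp.exists_le_sylow
    have hne : ((P : Subgroup H).map H.subtype) ≠ (S : Subgroup G) := by
      intro h; rw [h] at hdiv; exact S.not_dvd_index hdiv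
    obtain ⟨y, hyS, hyN, hyP⟩ := exists_mem_normalizer_not_mem S.2 (lt_of_le_of_ne hS hne)
    rw [hnorm p Fact.out hpH P] at hyN
    apply hyP
    obtain ⟨k, hk⟩ := S.2 ⟨y, hyS⟩
    have hk' : (⟨y, hyN⟩ : H) ^ p ^ k = 1 := by
      apply Subtype.ext
      simpa using congrArg Subtype.val hk
    exact ⟨⟨y, hyN⟩, mem_sylow_of_normal P (hSylN p P) hk', rfl⟩
  have hHall : Nat.Coprime (Nat.card H) H.index := by
    apply Nat.coprime_of_dvd
    intro k hk hkH hki
    have : Fact k.Prime := ⟨hk⟩
    apply hSylG k hkH default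
    rw [Subgroup.index_map_subtype]
    exact hki.mul_left _
  -- a second prime
  have hsecond : ∀ p : ℕ, p.Prime → p ∣ Nat.card H → ∃ q : ℕ, q.Prime ∧ q ≠ p ∧ q ∣ Nat.card H := by
    intro p hp hpH
    by_contra hcon
    have : Fact p.Prime := ⟨hp⟩
    have hall : ∀ {d : ℕ}, d.Prime → d ∣ Nat.card H → d = p := by
      intro d hd hdH
      by_contra hne
      exact hcon ⟨d, hd, hne, hdH⟩
    have hcard := Nat.eq_prime_pow_of_unique_prime_dvd (Nat.card_pos (α := H)).ne' hall
    have hHp : IsPGroup p H := IsPGroup.of_card hcard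
    let P : Sylow p H := default
    have hPtop : (P : Subgroup H) = ⊤ := by
      have h1 : IsPGroup p (⊤ : Subgroup H) := by
        rintro ⟨z, -⟩
        obtain ⟨k, hk⟩ := hHp z
        exact ⟨k, Subtype.ext (by simpa using hk)⟩
      exact (P.is_maximal' h1 le_top).symm
    have hidx := hSylG p hpH P
    have hPp : IsPGroup p ((P : Subgroup H).map H.subtype) := P.2.map _
    apply hnot p hp (hPp.toSylow hidx)
    rw [IsPGroup.toSylow_coe, hPtop, ← MonoidHom.range_eq_map, Subgroup.range_subtype]
  apply Cfsg.Agent.S0079.exists_normal_complement_of_forall_prime H hHall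
  intro p hp hpH
  have : Fact p.Prime := ⟨hp⟩
  let PH : Sylow p H := default
  have hPp : IsPGroup p ((PH : Subgroup H).map H.subtype) := PH.2.map _
  have hidx := hSylG p hpH PH
  obtain ⟨q, hq, hqp, hqH⟩ := hsecond p hp hpH
  have : Fact q.Prime := ⟨hq⟩
  let QH : Sylow q H := default
  have hQq : IsPGroup q ((QH : Subgroup H).map H.subtype) := QH.2.map _
  have hQidx := hSylG q hqH QH
  have hQN : Subgroup.normalizer (((QH : Subgroup H).map H.subtype : Subgroup G) : Set G) = H :=
    hnorm q hq hqH QH
  -- `Q` centralizes `P`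
  have hcomm : ∀ x ∈ (PH : Subgroup H).map H.subtype, ∀ z ∈ (QH : Subgroup H).map H.subtype,
      x * z = z * x := by
    rintro _ ⟨x, hx, rfl⟩ _ ⟨z, hz, rfl⟩
    obtain ⟨a, ha⟩ := PH.2 ⟨x, hx⟩
    obtain ⟨b, hb⟩ := QH.2 ⟨z, hz⟩
    have ha' : x ^ p ^ a = 1 := by simpa using congrArg Subtype.val ha
    have hb' : z ^ q ^ b = 1 := by simpa using congrArg Subtype.val hb
    have hpq : Nat.Coprime p q := (Nat.coprime_primes hp hq).mpr (Ne.symm hqp)
    have hco : (orderOf x).Coprime (orderOf z) :=
      Nat.Coprime.coprime_dvd_left (orderOf_dvd_of_pow_eq_one ha')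
        (Nat.Coprime.coprime_dvd_right (orderOf_dvd_of_pow_eq_one hb')
          (Nat.Coprime.pow a b hpq))
    have h1 := (commute_of_coprime_of_nilpotent H x z hco).eq
    simpa using congrArg Subtype.val h1
  have hF : FrobeniusCondition p G := by
    refine frobeniusCondition_of_nilpotent_fusion_control' H (hPp.toSylow hidx) ?_ ?_
    · rw [IsPGroup.toSylow_coe]; exact Subgroup.map_subtype_le _
    · intro x hx g hgx
      rw [IsPGroup.toSylow_coe] at hx hgx
      -- the two Sylow `q`-subgroups `Q` and `g Q g⁻¹` of the centralizer of `g x g⁻¹`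
      have h1 : ((hQq.toSylow hQidx : Sylow q G) : Subgroup G) ≤
          Subgroup.centralizer ({g * x * g⁻¹} : Set G) := by
        intro z hz
        rw [IsPGroup.toSylow_coe] at hz
        rw [Subgroup.mem_centralizer_singleton_iff]
        exact (hcomm _ hgx z hz).symm
      have h2 : (((g • (hQq.toSylow hQidx : Sylow q G) : Sylow q G)) : Subgroup G) ≤
          Subgroup.centralizer ({g * x * g⁻¹} : Set G) := by
        intro w hw
        rw [mem_sylow_smul_iff, IsPGroup.toSylow_coe] at hw
        rw [Subgroup.mem_centralizer_singleton_iff]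
        have h3 := hcomm x hx _ hw
        calc w * (g * x * g⁻¹) = g * ((g⁻¹ * w * g) * x) * g⁻¹ := by group
          _ = g * (x * (g⁻¹ * w * g)) * g⁻¹ := by rw [h3]
          _ = g * x * g⁻¹ * w := by group
      obtain ⟨c, hc⟩ := MulAction.exists_smul_eq
        (Subgroup.centralizer ({g * x * g⁻¹} : Set G))
        ((g • (hQq.toSylow hQidx : Sylow q G) : Sylow q G).subtype h2)
        ((hQq.toSylow hQidx : Sylow q G).subtype h1)
      rw [Sylow.smul_subtype] at hc
      have hc' := Sylow.subtype_injective hc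
      have hcg : (c : G) * g ∈ H := by
        rw [← hQN]
        have h4 : ((c : G) * g) • (hQq.toSylow hQidx : Sylow q G) = hQq.toSylow hQidx := by
          rw [mul_smul]; exact hc'
        exact Sylow.smul_eq_iff_mem_normalizer.mp h4
      refine ⟨(c : G) * g, hcg, ?_⟩
      have hcc : (c : G) * (g * x * g⁻¹) = g * x * g⁻¹ * (c : G) :=
        Subgroup.mem_centralizer_singleton_iff.mp c.2
      calc g * x * g⁻¹ = (c : G) * (g * x * g⁻¹) * (c : G)⁻¹ := by rw [hcc]; group
        _ = (c : G) * g * x * ((c : G) * g)⁻¹ := by group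
  exact exists_isNormalPComplement_of_frobeniusCondition hF

/-- Let H be a subgroup of a finite group G that is not a Sylow subgroup of G for any prime, and suppose that for every prime p dividing the order of H and every Sylow p-subgroup P of H the normalizer of P in G is exactly H. Then some normal subgroup of G is a complement to H. -/
theorem result {G : Type*} [Group G] [Finite G] (H : Subgroup G) (hnot : ∀ p : ℕ, p.Prime → ∀ P : Sylow p G, (P : Subgroup G) ≠ H) (hnorm : ∀ p : ℕ, p.Prime → p ∣ Nat.card H → ∀ P : Sylow p H, Subgroup.normalizer (((P : Subgroup H).map H.subtype : Subgroup G) : Set G) = H) : ∃ N : Subgroup G, N.Normal ∧ Subgroup.IsComplement' N H :=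
  main H hnot hnorm

end Cfsg.Agent.S0558
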