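import Cfsg.Statements.S0739
import Cfsg.Agent.Lib.Helper83.ZassInv2

set_option autoImplicit false
open Cfsg

namespace Cfsg.Agent.S0739

/-- In a finite Zassenhaus group whose two-point stabiliser `H = G_{a,b}` has odd order `d`, and which has no normal `q`-complement for any prime `q ∣ d`, `H` is cyclic, `C_G(H) = H`, and every element swapping `a` and `b` inverts each element of `H`. -/
theorem result {G Ω : Type*} [Group G] [Finite G] [MulAction G Ω] [Fintype Ω] (hZ : Cfsg.IsZassenhausGroup G Ω) {a b : Ω} (hab : a ≠ b) (hodd : Odd (Nat.card ↥(MulAction.stabilizer G a ⊓ MulAction.stabilizer G b))) (hnil : ∀ q : ℕ, q.Prime → q ∣ Nat.card ↥(MulAction.stabilizer G a ⊓ MulAction.stabilizer G b) → ¬ ∃ N : Subgroup G, N.Normal ∧ N.index = q ^ (Nat.card G).factorization q) : IsCyclic ↥(MulAction.stabilizer G a ⊓ MulAction.stabilizer G b) ∧ Subgroup.centralizer ((MulAction.stabilizer G a ⊓ MulAction.stabilizer G b : Subgroup G) : Set G) = MulAction.stabilizer G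 a ⊓ MulAction.stabilizer G b ∧ ∀ s : G, s • a = b → s • b = a → ∀ h ∈ MulAction.stabilizer G a ⊓ MulAction.stabilizer G b, s * h * s⁻¹ = h⁻¹ := by
  classical
  obtain ⟨hfaith, h2, h3, hfix, -⟩ := hZ
  have hne : ∃ g : G, g ≠ 1 ∧ g • a = a ∧ g • b = b := by
    obtain ⟨g, hg1, a', b', hab', hga, hgb⟩ := hfix
    obtain ⟨t, hta, htb⟩ := MulAction.is_two_pretransitive_iff.mp h2 hab' hab
    refine ⟨t * g * t⁻¹, ?_, ?_, ?_⟩
    · intro h
      apply hg1
      have h4 : g = t⁻¹ * (t * g * t⁻¹) * t := by group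
      rw [h4, h]; group
    · rw [mul_smul, mul_smul, ← hta, inv_smul_smul, hga]
    · rw [mul_smul, mul_smul, ← htb, inv_smul_smul, hgb]
  have hc : ∃ c : Ω, c ≠ a ∧ c ≠ b := by
    obtain ⟨g, hg1, hga, hgb⟩ := hne
    by_contra hno
    push Not at hno
    apply hg1
    apply hfaith.eq_of_smul_eq_smul
    intro c
    rw [one_smul]
    by_cases hca : c = a
    · rw [hca, hga]
    · rw [hno c hca, hgb]
  have Z := Cfsg.Agent.Lib.Helper83.zass_zinv hab h2 h3 hne hc hodd hnil
  obtain ⟨-, hcycH⟩ := Cfsg.Agent.Lib.Helper83.zass_sylow_cyclic hab h2 h3 hne hc hodd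
  obtain ⟨s₀, hs₀a, hs₀b⟩ := MulAction.is_two_pretransitive_iff.mp h2 hab (Ne.symm hab)
  have hs₀ : s₀ ∈ {s : G | s • a = b ∧ s • b = a} := ⟨hs₀a, hs₀b⟩
  have hcomm := Z.comm hs₀
  have hinv := Z.inverts
  refine ⟨hcycH hcomm, ?_, ?_⟩
  · apply le_antisymm
    · intro g hg
      obtain ⟨g₀, hg₀1, hg₀a, hg₀b⟩ := hne
      have hg₀H : g₀ ∈ MulAction.stabilizer G a ⊓ MulAction.stabilizer G b := by
        rw [Subgroup.mem_inf, MulAction.mem_stabilizer_iff, MulAction.mem_stabilizer_iff]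
        exact ⟨hg₀a, hg₀b⟩
      have hgg : g * g₀ * g⁻¹ = g₀ := by
        have h4 := Subgroup.mem_centralizer_iff.mp hg g₀ hg₀H
        rw [← h4]; group
      rcases Z.norm g g₀ hg₀H hg₀1 (by rw [hgg]; exact hg₀H) with h | h
      · exact h
      · exfalso
        have h1 := hinv g h g₀ hg₀H
        rw [hgg] at h1
        have hx2 : g₀ ^ 2 = 1 := by
          rw [pow_two]
          calc g₀ * g₀ = g₀ * g₀⁻¹ := by rw [← h1]
            _ = 1 := mul_inv_cancel g₀
        have h5 : orderOf g₀ ∣ 2 := orderOf_dvd_of_pow_eq_one hx2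
        have h6 := Z.odd_orderOf hg₀H
        rcases (Nat.dvd_prime Nat.prime_two).mp h5 with h7 | h7
        · exact hg₀1 (orderOf_eq_one_iff.mp h7)
        · rw [h7] at h6
          exact absurd h6 (by decide)
    · intro h hh
      rw [Subgroup.mem_centralizer_iff]
      intro k hk
      exact hcomm k hk h hh
  · intro s hsa hsb h hh
    exact hinv s ⟨hsa, hsb⟩ h hh

end Cfsg.Agent.S0739
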