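import Cfsg.Statements.S5628
import Cfsg.Agent.Lib.Helper93.P4d

set_option autoImplicit false
open Cfsg

namespace Cfsg.Agent.S5628

/-- In a projective plane of order 4 (a Steiner system S(2, 5, 21)), every permutation of the six points of a hyperoval (a 6-set met by no line in more than two points) is the restriction of exactly one automorphism of the plane. In particular the stabiliser of a hyperoval in the automorphism group is isomorphic to the symmetric group of degree 6 acting faithfully on the hyperoval. -/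
theorem result {α : Type*} [Fintype α] [DecidableEq α] (hα : Fintype.card α = 21) (L : Set (Finset α)) (hL : Cfsg.IsSteinerSystem 2 5 L) (H : Finset α) (hH : (H.card = 6 ∧ ∀ l ∈ L, (l ∩ H).card ≤ 2)) (σ : Equiv.Perm ↥H) : ∃! g : Equiv.Perm α, g ∈ Cfsg.setSystemAut L ∧ ∀ p : ↥H, g p = σ p := by
  classical
  have P : Cfsg.Agent.Lib.Helper93.P4.Plane L := ⟨hα, hL⟩
  have Q : Cfsg.Agent.Lib.Helper93.P4.Hyp L H := ⟨P, hH.1, hH.2⟩
  let s : α → α := fun x => if h : x ∈ H then ((σ ⟨x, h⟩ : ↥H) : α) else x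
  have hs : ∀ a (ha : a ∈ H), s a = ((σ ⟨a, ha⟩ : ↥H) : α) := fun a ha => dif_pos ha
  have M : Cfsg.Agent.Lib.Helper93.P4.HypMap L L H H s := by
    refine ⟨Q, Q, ?_, ?_⟩
    · intro a ha
      rw [hs a ha]
      exact (σ ⟨a, ha⟩).2
    · intro a ha b hb h
      rw [hs a ha, hs b hb] at h
      exact congrArg Subtype.val (σ.injective (Subtype.ext h))
  obtain ⟨e, he, himg⟩ := M.exists_iso
  have heL : e ∈ Cfsg.setSystemAut L := (Cfsg.Agent.Lib.Helper93.P4.aut_iff e).mpr himg
  refine ⟨e, ⟨heL, fun p => by rw [he p p.2, hs p p.2]⟩, ?_⟩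
  rintro g ⟨hg, hgσ⟩
  refine Q.aut_unique (fun l hl => Cfsg.Agent.Lib.Helper93.P4.aut_image hg hl)
    (fun l hl => Cfsg.Agent.Lib.Helper93.P4.aut_image heL hl) (fun a ha => ?_) (fun a ha => ?_)
  · rw [hgσ ⟨a, ha⟩]
    exact (σ ⟨a, ha⟩).2
  · rw [hgσ ⟨a, ha⟩, he a ha, hs a ha]

end Cfsg.Agent.S5628
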