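import Cfsg.Statements.S1018
import Mathlib

set_option autoImplicit false
open Cfsg

namespace Cfsg.Agent.S1018

theorem mem_smul_sylow' {G : Type*} [Group G] {p : ℕ} (g x : G) (P : Sylow p G) :
    x ∈ ((g • P : Sylow p G) : Subgroup G) ↔ g⁻¹ * x * g ∈ (P : Subgroup G) := by
  rw [Sylow.coe_subgroup_smul, Subgroup.mem_pointwise_smul_iff_inv_smul_mem]
  simp [MulAut.smul_def]

/-- an element of prime order p in a subgroup of order p generates it -/
theorem zpowers_eq_of_mem {G : Type*} [Group G] {p : ℕ} (hp : p.Prime) (K : Subgroup G)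
    (hK : Nat.card K = p) (y : G) (hy : y ∈ K) (hy1 : y ≠ 1) : Subgroup.zpowers y = K := by
  have : Finite K := Nat.finite_of_card_ne_zero (by rw [hK]; exact hp.ne_zero)
  have hord : orderOf y = p := by
    have hd : orderOf y ∣ p := by
      have := Subgroup.orderOf_dvd_natCard K hy
      rwa [hK] at this
    rcases (Nat.dvd_prime hp).mp hd with h | h
    · exact absurd (orderOf_eq_one_iff.mp h) hy1
    · exact h
  exact Subgroup.eq_of_le_of_card_ge ((Subgroup.zpowers_le).mpr hy)
    (by rw [Nat.card_zpowers, hord, hK])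

/-- Let P be a Sylow p-subgroup of order p of a finite group G, and consider the action of G on the left cosets of the normalizer N of P. Then every element of order p fixes exactly one coset, and an element of N that does not centralize P fixes at most as many cosets as there are orbits of P. -/
theorem result {G : Type*} [Group G] [Finite G] (p : ℕ) [Fact p.Prime] (P : Sylow p G) (hP : Nat.card ↥(P : Subgroup G) = p) : (∀ y : G, orderOf y = p → Nat.card (MulAction.fixedBy (G ⧸ Subgroup.normalizer ((P : Subgroup G) : Set G)) y) = 1) ∧ ∀ x : G, x ∈ Subgroup.normalizer ((P : Subgroup G) : Set G) → x ∉ Subgroup.centralizer ((P : Subgroup G) : Set G) → Nat.card (MulAction.fixedBy (G ⧸ Subgroup.normalizer ((P : Subgroup G) : Set G)) x) ≤ Nat.card (MulAction.orbitRel.Quotient ↥(P : Subgroup G) (G ⧸ Subgroup.normalizer ((P : Subgroup G) : Set G))) := by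
  have hpp : p.Prime := Fact.out
  set N : Subgroup G := Subgroup.normalizer ((P : Subgroup G) : Set G) with hN
  have hPN : (P : Subgroup G) ≤ N := Subgroup.le_normalizer
  -- a coset gN is fixed by z iff g⁻¹ z g ∈ N
  have hfix : ∀ (z g : G), z • (g : G ⧸ N) = (g : G ⧸ N) ↔ g⁻¹ * z * g ∈ N := by
    intro z g
    have h1 : z • (g : G ⧸ N) = ((z * g : G) : G ⧸ N) := rfl
    rw [h1, QuotientGroup.eq]
    constructor
    · intro h
      have := N.inv_mem h
      simpa [mul_assoc] using this
    · intro h
      have := N.inv_mem h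
      simpa [mul_assoc] using this
  constructor
  · intro y hy
    have hy1 : y ≠ 1 := by
      rintro rfl
      rw [orderOf_one] at hy
      exact hpp.one_lt.ne hy
    -- p-elements of N lie in P
    have hpel : ∀ z : G, orderOf z = p → z ∈ N → z ∈ (P : Subgroup G) := by
      intro z hz hzN
      have hpg : IsPGroup p (Subgroup.zpowers z) := by
        apply IsPGroup.of_card (n := 1)
        rw [Nat.card_zpowers, hz, pow_one]
      have h1 := hpg.inf_normalizer_sylow P
      have h2 : z ∈ Subgroup.zpowers z ⊓ Subgroup.normalizer ((P : Subgroup G) : Set G) :=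
        ⟨Subgroup.mem_zpowers z, hzN⟩
      have h3 : z ∈ Subgroup.zpowers z ⊓ (P : Subgroup G) := by
        have h1' : Subgroup.zpowers z ⊓ Subgroup.normalizer ((P : Subgroup G) : Set G)
            = Subgroup.zpowers z ⊓ (P : Subgroup G) := h1
        rw [← h1']; exact h2
      exact h3.2
    have hconjord : ∀ g : G, orderOf (g⁻¹ * y * g) = p := by
      intro g
      have : g⁻¹ * y * g = (MulAut.conj g⁻¹) y := by simp
      rw [this, MulEquiv.orderOf_eq, hy]
    rw [Nat.card_eq_one_iff_unique]
    constructor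
    · constructor
      rintro ⟨c₁, hc₁⟩ ⟨c₂, hc₂⟩
      obtain ⟨g₁, rfl⟩ := QuotientGroup.mk_surjective c₁
      obtain ⟨g₂, rfl⟩ := QuotientGroup.mk_surjective c₂
      apply Subtype.ext
      have h1 : g₁⁻¹ * y * g₁ ∈ (P : Subgroup G) := hpel _ (hconjord g₁) ((hfix y g₁).mp hc₁)
      have h2 : g₂⁻¹ * y * g₂ ∈ (P : Subgroup G) := hpel _ (hconjord g₂) ((hfix y g₂).mp hc₂)
      -- both conjugates of P contain y, so they coincide
      have e1 : Subgroup.zpowers y = ((g₁ • P : Sylow p G) : Subgroup G) := by
        apply zpowers_eq_of_mem hpp _ _ y ((mem_smul_sylow' _ _ _).mpr h1) hy1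
        rw [Sylow.card_eq_multiplicity, ← Sylow.card_eq_multiplicity P, hP]
      have e2 : Subgroup.zpowers y = ((g₂ • P : Sylow p G) : Subgroup G) := by
        apply zpowers_eq_of_mem hpp _ _ y ((mem_smul_sylow' _ _ _).mpr h2) hy1
        rw [Sylow.card_eq_multiplicity, ← Sylow.card_eq_multiplicity P, hP]
      have e3 : g₁ • P = g₂ • P := Sylow.ext (e1.symm.trans e2)
      have e4 : (g₁⁻¹ * g₂) • P = P := by
        rw [mul_smul, ← e3, inv_smul_smul]
      have e5 : g₁⁻¹ * g₂ ∈ N := Sylow.smul_eq_iff_mem_normalizer.mp e4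
      exact (QuotientGroup.eq.mpr e5)
    · -- existence
      have hpg : IsPGroup p (Subgroup.zpowers y) := by
        apply IsPGroup.of_card (n := 1)
        rw [Nat.card_zpowers, hy, pow_one]
      obtain ⟨Q, hQ⟩ := hpg.exists_le_sylow
      obtain ⟨g, hg⟩ := MulAction.exists_smul_eq G P Q
      have hyQ : y ∈ ((g • P : Sylow p G) : Subgroup G) := by
        rw [hg]; exact hQ (Subgroup.mem_zpowers y)
      have := (mem_smul_sylow' _ _ _).mp hyQ
      exact ⟨⟨(g : G ⧸ N), (hfix y g).mpr (hPN this)⟩⟩
  · intro x hxN hxC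
    have : Finite (MulAction.orbitRel.Quotient ↥(P : Subgroup G) (G ⧸ N)) := Quotient.finite _
    let f : MulAction.fixedBy (G ⧸ N) x → MulAction.orbitRel.Quotient ↥(P : Subgroup G) (G ⧸ N) :=
      fun c => Quotient.mk'' c.1
    apply Nat.card_le_card_of_injective f
    rintro ⟨c₁, hc₁⟩ ⟨c₂, hc₂⟩ hcc
    apply Subtype.ext
    show c₁ = c₂
    have hrel : c₁ ∈ MulAction.orbit ↥(P : Subgroup G) c₂ := Quotient.exact' hcc
    obtain ⟨u, hu⟩ := hrel
    have hu' : (u : G) • c₂ = c₁ := hu
    have hx1 : x • c₁ = c₁ := hc₁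
    have hx2 : x • c₂ = c₂ := hc₂
    -- w = x⁻¹ u⁻¹ x u fixes c₂
    set w : G := x⁻¹ * (u : G)⁻¹ * x * (u : G) with hw
    have hwP : w ∈ (P : Subgroup G) := by
      have h1 : x⁻¹ * (u : G)⁻¹ * x ∈ (P : Subgroup G) := by
        have hx' : x⁻¹ ∈ N := N.inv_mem hxN
        have := (Subgroup.mem_normalizer_iff.mp hx' ((u : G)⁻¹)).mp (inv_mem u.2)
        simpa using this
      exact (P : Subgroup G).mul_mem h1 u.2
    have hwfix : w • c₂ = c₂ := by
      rw [hw, mul_smul, mul_smul, mul_smul, hu', hx1, ← hu', inv_smul_smul]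
      conv_lhs => rw [← hx2]
      rw [inv_smul_smul]
    by_cases hw1 : w = 1
    · -- x commutes with u
      have hcomm : x * (u : G) = (u : G) * x := by
        have := congrArg (fun z => (u : G) * x * z) hw1
        simp only [hw, mul_one] at this
        rw [← this]; group
      by_cases hu1 : (u : G) = 1
      · rw [← hu', hu1, one_smul]
      · exfalso
        apply hxC
        have hz := zpowers_eq_of_mem hpp (P : Subgroup G) hP (u : G) u.2 hu1
        rw [Subgroup.mem_centralizer_iff]
        intro z hz'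
        have hz'' : z ∈ Subgroup.zpowers (u : G) := by rw [hz]; exact hz'
        obtain ⟨k, rfl⟩ := Subgroup.mem_zpowers_iff.mp hz''
        have hc : Commute x (u : G) := hcomm
        exact (hc.zpow_right k).eq.symm
    · -- w generates P, so P fixes c₂
      have hz := zpowers_eq_of_mem hpp (P : Subgroup G) hP w hwP hw1
      have hu'' : (u : G) ∈ Subgroup.zpowers w := by rw [hz]; exact u.2
      obtain ⟨k, hk⟩ := Subgroup.mem_zpowers_iff.mp hu''
      have hstab : w ∈ MulAction.stabilizer G c₂ := hwfix
      have : w ^ k ∈ MulAction.stabilizer G c₂ := Subgroup.zpow_mem _ hstab k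
      rw [hk] at this
      rw [← hu']
      exact this

end Cfsg.Agent.S1018
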