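-- Statement S0126: for odd p, a non-cyclic p-group has a normal elementary abelian subgroup of order p^2.
import Mathlib
import Cfsg.Statements.S0126
import Cfsg.Agent.S0065

set_option autoImplicit false
open Cfsg

namespace Cfsg.Agent.S0126

universe u

section lemmas

variable {R : Type u} [Group R]

lemma pow_mul_comm_aux (x y c : R) (h : y * x = x * y * c) (hcy : Commute c y) (n : ℕ) :
    y ^ n * x = x * y ^ n * c ^ n := by
  induction n with
  | zero => simp
  | succ n ih =>
    calc y ^ (n + 1) * x = y * (y ^ n * x) := by rw [pow_succ', mul_assoc]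
      _ = y * (x * y ^ n * c ^ n) := by rw [ih]
      _ = (y * x) * y ^ n * c ^ n := by simp only [mul_assoc]
      _ = x * y * c * y ^ n * c ^ n := by rw [h]
      _ = x * y * (c * y ^ n) * c ^ n := by simp only [mul_assoc]
      _ = x * y * (y ^ n * c) * c ^ n := by rw [(hcy.pow_right n).eq]
      _ = x * (y * y ^ n) * (c * c ^ n) := by simp only [mul_assoc]
      _ = x * y ^ (n + 1) * c ^ (n + 1) := by rw [← pow_succ', ← pow_succ']

/-- `(x y)^n = x^n y^n c^m` with `2 m + n = n * n`, when `y x = x y c` with `c` commuting with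
`x` and `y`. -/
lemma mul_pow_aux (x y c : R) (h : y * x = x * y * c) (hcy : Commute c y) (hcx : Commute c x)
    (n : ℕ) : ∃ m, 2 * m + n = n * n ∧ (x * y) ^ n = x ^ n * y ^ n * c ^ m := by
  induction n with
  | zero => exact ⟨0, by simp, by simp⟩
  | succ n ih =>
    obtain ⟨m, hm, hpow⟩ := ih
    refine ⟨m + n, ?_, ?_⟩
    · have h2 : (n + 1) * (n + 1) = n * n + 2 * n + 1 := by ring
      omega
    have h1 := pow_mul_comm_aux x y c h hcy n
    have hcxy : Commute c (x * y) := hcx.mul_right hcy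
    calc (x * y) ^ (n + 1) = x ^ n * y ^ n * c ^ m * (x * y) := by rw [pow_succ, hpow]
      _ = x ^ n * y ^ n * (c ^ m * (x * y)) := by simp only [mul_assoc]
      _ = x ^ n * y ^ n * ((x * y) * c ^ m) := by rw [(hcxy.pow_left m).eq]
      _ = x ^ n * (y ^ n * x) * y * c ^ m := by simp only [mul_assoc]
      _ = x ^ n * (x * y ^ n * c ^ n) * y * c ^ m := by rw [h1]
      _ = x ^ n * x * y ^ n * (c ^ n * y) * c ^ m := by simp only [mul_assoc]
      _ = x ^ n * x * y ^ n * (y * c ^ n) * c ^ m := by rw [(hcy.pow_left n).eq]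
      _ = x ^ n * x * (y ^ n * y) * (c ^ n * c ^ m) := by simp only [mul_assoc]
      _ = x ^ (n + 1) * y ^ (n + 1) * c ^ (m + n) := by
          rw [← pow_succ, ← pow_succ, ← pow_add, add_comm n m]

/-- For odd `p`, the `p`-th power map is multiplicative on two elements whose commutator is
central of order dividing `p`. -/
lemma pow_p_mul (p : ℕ) (hp : p.Prime) (hp2 : p ≠ 2) (x y c : R) (h : y * x = x * y * c)
    (hc : c ∈ Subgroup.center R) (hcp : c ^ p = 1) : (x * y) ^ p = x ^ p * y ^ p := by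
  have hcc : ∀ g : R, Commute c g := fun g => (Subgroup.mem_center_iff.mp hc g).symm
  obtain ⟨m, hm, hpow⟩ := mul_pow_aux x y c h (hcc y) (hcc x) p
  have hpm : p ∣ m := by
    have h1 : p ∣ 2 * m := by
      have h2 : p ∣ 2 * m + p := by
        rw [hm]
        exact Dvd.intro _ rfl
      exact (Nat.dvd_add_left dvd_rfl).mp h2
    exact Nat.Coprime.dvd_of_dvd_mul_left ((Nat.coprime_primes hp Nat.prime_two).2 hp2) h1
  obtain ⟨t, rfl⟩ := hpm
  rw [hpow, pow_mul, hcp, one_pow, mul_one]

lemma normal_of_le_center' (Z : Subgroup R) (hZ : Z ≤ Subgroup.center R) : Z.Normal := by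
  constructor
  intro n hn g
  have h1 : g * n * g⁻¹ = n := by
    rw [Subgroup.mem_center_iff.mp (hZ hn) g, mul_inv_cancel_right]
  rw [h1]
  exact hn

/-- The order of a preimage under a quotient map. -/
lemma card_comap_mk [Finite R] (Z : Subgroup R) [Z.Normal] (K : Subgroup (R ⧸ Z)) :
    Nat.card (K.comap (QuotientGroup.mk' Z)) = Nat.card K * Nat.card Z := by
  have h1 : (K.comap (QuotientGroup.mk' Z)).index = K.index :=
    Subgroup.index_comap_of_surjective K (QuotientGroup.mk'_surjective Z)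
  have h2 := Subgroup.card_mul_index (K.comap (QuotientGroup.mk' Z))
  have h3 := Subgroup.card_mul_index K
  have h4 : Nat.card R = Nat.card (R ⧸ Z) * Nat.card Z :=
    Subgroup.card_eq_card_quotient_mul_card_subgroup Z
  have hpos : 0 < K.index := Nat.pos_of_ne_zero Subgroup.index_ne_zero_of_finite
  rw [h1] at h2
  apply Nat.eq_of_mul_eq_mul_right hpos
  rw [h2, h4, ← h3]
  ring

/-- From a normal subgroup of exponent `p` properly containing a central subgroup `Z` of order
`p`, we get a normal elementary abelian subgroup of order `p ^ 2`. -/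
lemma ending [Finite R] (p : ℕ) [Fact p.Prime] (hR : IsPGroup p R) (Z : Subgroup R) [Z.Normal]
    (hZcard : Nat.card Z = p) (Ω : Subgroup R) [Ω.Normal] (hZΩ : Z ≤ Ω)
    (hexp : ∀ x ∈ Ω, x ^ p = 1) (w : R) (hw : w ∈ Ω) (hwz : w ∉ Z) :
    ∃ A : Subgroup R, A.Normal ∧ Cfsg.IsElementaryAbelian p A ∧ Nat.card A = p ^ 2 := by
  have hp : p.Prime := Fact.out
  have hQ : IsPGroup p (R ⧸ Z) := hR.to_quotient _
  have hnil : Group.IsNilpotent (R ⧸ Z) := hQ.isNilpotent
  have hMn : (Ω.map (QuotientGroup.mk' Z)).Normal :=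
    Subgroup.Normal.map inferInstance _ (QuotientGroup.mk'_surjective _)
  have hMne : Ω.map (QuotientGroup.mk' Z) ≠ ⊥ := by
    intro h
    have h1 : QuotientGroup.mk' Z w ∈ Ω.map (QuotientGroup.mk' Z) := Subgroup.mem_map_of_mem _ hw
    rw [h, Subgroup.mem_bot] at h1
    exact hwz ((QuotientGroup.eq_one_iff w).mp h1)
  have hne := Cfsg.Agent.S0065.result (Ω.map (QuotientGroup.mk' Z)) hMne
  have hIp : IsPGroup p ↥(Ω.map (QuotientGroup.mk' Z) ⊓ Subgroup.center (R ⧸ Z)) :=
    hQ.to_subgroup _
  have hdvd : p ∣ Nat.card ↥(Ω.map (QuotientGroup.mk' Z) ⊓ Subgroup.center (R ⧸ Z)) := by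
    obtain ⟨k, hk⟩ := IsPGroup.iff_card.mp hIp
    rw [hk]
    have hk0 : k ≠ 0 := by
      rintro rfl
      rw [pow_zero] at hk
      exact hne (Subgroup.card_eq_one.mp hk)
    exact dvd_pow_self p hk0
  obtain ⟨v, hv⟩ := exists_prime_orderOf_dvd_card' p hdvd
  have hvo : orderOf (v : R ⧸ Z) = p := by rw [Subgroup.orderOf_coe, hv]
  have hvM : (v : R ⧸ Z) ∈ Ω.map (QuotientGroup.mk' Z) := v.2.1
  have hvc : (v : R ⧸ Z) ∈ Subgroup.center (R ⧸ Z) := v.2.2
  generalize (v : R ⧸ Z) = v' at hvo hvM hvc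
  have hBn : (Subgroup.zpowers v').Normal :=
    normal_of_le_center' _ (by rw [Subgroup.zpowers_le]; exact hvc)
  have hBcard : Nat.card (Subgroup.zpowers v') = p := by rw [Nat.card_zpowers, hvo]
  have hAcard : Nat.card ((Subgroup.zpowers v').comap (QuotientGroup.mk' Z)) = p ^ 2 := by
    rw [card_comap_mk, hBcard, hZcard, pow_two]
  have hAΩ : (Subgroup.zpowers v').comap (QuotientGroup.mk' Z) ≤ Ω := by
    intro x hx
    have h1 : QuotientGroup.mk' Z x ∈ Ω.map (QuotientGroup.mk' Z) :=
      (Subgroup.zpowers_le.mpr hvM) (Subgroup.mem_comap.mp hx)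
    obtain ⟨y, hy, hyx⟩ := Subgroup.mem_map.mp h1
    have h2 : y⁻¹ * x ∈ Z := QuotientGroup.eq.mp hyx
    have h3 : x = y * (y⁻¹ * x) := by group
    rw [h3]
    exact mul_mem hy (hZΩ h2)
  refine ⟨(Subgroup.zpowers v').comap (QuotientGroup.mk' Z), hBn.comap _, ⟨?_, ?_⟩, hAcard⟩
  · exact IsPGroup.isMulCommutative_of_card_eq_prime_sq hAcard
  · intro a ha
    exact hexp a (hAΩ ha)

end lemmas

theorem main (p : ℕ) [Fact p.Prime] (hp2 : p ≠ 2) :
    ∀ (n : ℕ) (R : Type u) [Group R] [Finite R], Nat.card R = n → IsPGroup p R → ¬ IsCyclic R →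
      ∃ A : Subgroup R, A.Normal ∧ Cfsg.IsElementaryAbelian p A ∧ Nat.card A = p ^ 2 := by
  intro n
  induction n using Nat.strong_induction_on with
  | _ n ih =>
  intro R _ _ hn hR hnc
  have hp : p.Prime := Fact.out
  have hnt : Nontrivial R := by
    by_contra h
    rw [not_nontrivial_iff_subsingleton] at h
    exact hnc inferInstance
  -- a central element of order p
  have hcn : Nontrivial (Subgroup.center R) := hR.center_nontrivial
  have hcp : IsPGroup p (Subgroup.center R) := hR.to_subgroup _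
  have hdvd : p ∣ Nat.card (Subgroup.center R) := by
    obtain ⟨k, hk⟩ := IsPGroup.iff_card.mp hcp
    rw [hk]
    have hk0 : k ≠ 0 := by
      rintro rfl
      rw [pow_zero] at hk
      have h1 := Finite.one_lt_card (α := Subgroup.center R)
      omega
    exact dvd_pow_self p hk0
  obtain ⟨z0, hz0⟩ := exists_prime_orderOf_dvd_card' p hdvd
  have hzc : (z0 : R) ∈ Subgroup.center R := z0.2
  have hzo : orderOf (z0 : R) = p := by rw [Subgroup.orderOf_coe, hz0]
  generalize (z0 : R) = z at hzc hzo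
  have hZle : Subgroup.zpowers z ≤ Subgroup.center R := by
    rw [Subgroup.zpowers_le]
    exact hzc
  have hZn : (Subgroup.zpowers z).Normal := normal_of_le_center' _ hZle
  have hZcard : Nat.card (Subgroup.zpowers z) = p := by rw [Nat.card_zpowers, hzo]
  have hzp : ∀ c ∈ Subgroup.zpowers z, c ^ p = 1 := by
    intro c hc
    obtain ⟨i, rfl⟩ := Subgroup.mem_zpowers_iff.mp hc
    rw [← zpow_natCast, ← zpow_mul, mul_comm, zpow_mul, zpow_natCast, ← hzo, pow_orderOf_eq_one,
      one_zpow]
  have key : ∃ N : Subgroup R, N.Normal ∧ Subgroup.zpowers z ≤ N ∧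
      (∀ x ∈ N, ∀ y ∈ N, (x * y) ^ p = x ^ p * y ^ p) ∧
      ∃ w ∈ N, w ^ p = 1 ∧ w ∉ Subgroup.zpowers z := by
    by_cases hcyc : IsCyclic (R ⧸ Subgroup.zpowers z)
    · -- the abelian case
      have hcomm : ∀ a b : R, a * b = b * a :=
        (MonoidHom.isMulCommutative_of_isCyclic_of_ker_le_center
          (QuotientGroup.mk' (Subgroup.zpowers z))
          (by rw [QuotientGroup.ker_mk']; exact hZle)).is_comm.comm
      refine ⟨⊤, inferInstance, le_top, fun x _ y _ => (show Commute x y from hcomm x y).mul_pow p,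
        ?_⟩
      obtain ⟨a', ha'⟩ := hcyc.exists_generator
      obtain ⟨a, rfl⟩ := QuotientGroup.mk'_surjective _ a'
      have hgen : ∀ g : R, ∃ i : ℤ, (a ^ i)⁻¹ * g ∈ Subgroup.zpowers z := by
        intro g
        obtain ⟨i, hi⟩ := Subgroup.mem_zpowers_iff.mp (ha' (QuotientGroup.mk' _ g))
        refine ⟨i, ?_⟩
        rw [← map_zpow] at hi
        exact QuotientGroup.eq.mp hi
      have ha1 : a ≠ 1 := by
        rintro rfl
        apply hnc
        refine ⟨⟨z, fun g => ?_⟩⟩
        obtain ⟨i, hi⟩ := hgen g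
        rw [one_zpow, inv_one, one_mul] at hi
        exact hi
      obtain ⟨e, he⟩ := (IsPGroup.iff_orderOf.mp hR) a
      have he0 : e ≠ 0 := by
        rintro rfl
        rw [pow_zero, orderOf_eq_one_iff] at he
        exact ha1 he
      have hbp : (a ^ (p ^ (e - 1))) ^ p = 1 := by
        rw [← pow_mul, ← pow_succ, Nat.sub_add_cancel (Nat.pos_of_ne_zero he0), ← he]
        exact pow_orderOf_eq_one a
      have hb1 : a ^ (p ^ (e - 1)) ≠ 1 := by
        intro h
        rw [← orderOf_dvd_iff_pow_eq_one, he, Nat.pow_dvd_pow_iff_le_right hp.one_lt] at h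
        omega
      refine ⟨a ^ (p ^ (e - 1)), Subgroup.mem_top _, hbp, ?_⟩
      intro hbZ
      have hbo : orderOf (a ^ (p ^ (e - 1))) = p := orderOf_eq_prime hbp hb1
      have heq : Subgroup.zpowers (a ^ (p ^ (e - 1))) = Subgroup.zpowers z :=
        Subgroup.eq_of_le_of_card_ge (Subgroup.zpowers_le.mpr hbZ) (by
          rw [Nat.card_zpowers, Nat.card_zpowers, hbo, hzo])
      have hza : Subgroup.zpowers z ≤ Subgroup.zpowers a := by
        rw [← heq, Subgroup.zpowers_le]
        exact Subgroup.npow_mem_zpowers a _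
      apply hnc
      refine ⟨⟨a, fun g => ?_⟩⟩
      obtain ⟨i, hi⟩ := hgen g
      have h1 : g = a ^ i * ((a ^ i)⁻¹ * g) := by group
      rw [h1]
      exact mul_mem (Subgroup.zpow_mem_zpowers a i) (hza hi)
    · -- the inductive case
      have hmulcard : Nat.card R = Nat.card (R ⧸ Subgroup.zpowers z) * Nat.card (Subgroup.zpowers z) :=
        Subgroup.card_eq_card_quotient_mul_card_subgroup _
      rw [hZcard] at hmulcard
      have hlt : Nat.card (R ⧸ Subgroup.zpowers z) < n := by
        rw [← hn, hmulcard]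
        have h1 : 0 < Nat.card (R ⧸ Subgroup.zpowers z) := Nat.card_pos
        have h2 := hp.two_le
        nlinarith
      obtain ⟨A', hA'n, ⟨hA'c, hA'e⟩, hA'card⟩ :=
        ih _ hlt (R ⧸ Subgroup.zpowers z) rfl (hR.to_quotient _) hcyc
      have hZN : Subgroup.zpowers z ≤ A'.comap (QuotientGroup.mk' (Subgroup.zpowers z)) := by
        intro c hc
        rw [Subgroup.mem_comap]
        have h1 : QuotientGroup.mk' (Subgroup.zpowers z) c = 1 := (QuotientGroup.eq_one_iff c).mpr hc
        rw [h1]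
        exact one_mem _
      have hmul : ∀ x ∈ A'.comap (QuotientGroup.mk' (Subgroup.zpowers z)),
          ∀ y ∈ A'.comap (QuotientGroup.mk' (Subgroup.zpowers z)),
          (x * y) ^ p = x ^ p * y ^ p := by
        intro x hx y hy
        have hcZ : y⁻¹ * x⁻¹ * y * x ∈ Subgroup.zpowers z := by
          rw [← QuotientGroup.eq_one_iff]
          have h1 := hA'c.is_comm.comm ⟨_, Subgroup.mem_comap.mp hx⟩ ⟨_, Subgroup.mem_comap.mp hy⟩
          have h2 : QuotientGroup.mk' (Subgroup.zpowers z) x * QuotientGroup.mk' (Subgroup.zpowers z) y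
              = QuotientGroup.mk' (Subgroup.zpowers z) y * QuotientGroup.mk' (Subgroup.zpowers z) x :=
            congrArg Subtype.val h1
          change QuotientGroup.mk' (Subgroup.zpowers z) (y⁻¹ * x⁻¹ * y * x) = 1
          rw [map_mul, map_mul, map_mul, map_inv, map_inv, mul_assoc, ← h2]
          group
        exact pow_p_mul p hp hp2 x y (y⁻¹ * x⁻¹ * y * x) (by group) (hZle hcZ) (hzp _ hcZ)
      refine ⟨A'.comap (QuotientGroup.mk' (Subgroup.zpowers z)), hA'n.comap _, hZN, hmul, ?_⟩
      by_contra hno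
      push Not at hno
      let ψ : ↥(A'.comap (QuotientGroup.mk' (Subgroup.zpowers z))) →* R :=
        { toFun := fun x => x.1 ^ p
          map_one' := one_pow p
          map_mul' := fun x y => hmul x.1 x.2 y.1 y.2 }
      have hrange : ψ.range ≤ Subgroup.zpowers z := by
        rintro _ ⟨x, rfl⟩
        change x.1 ^ p ∈ Subgroup.zpowers z
        rw [← QuotientGroup.eq_one_iff]
        have h1 := hA'e _ (Subgroup.mem_comap.mp x.2)
        rw [← map_pow] at h1
        exact h1
      have hrcard : Nat.card ψ.range ≤ p := by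
        rw [← hZcard]
        exact Subgroup.card_le_of_le hrange
      have hkcard : Nat.card ψ.ker ≤ p := by
        rw [← hZcard]
        apply Nat.card_le_card_of_injective
          (fun x : ψ.ker => (⟨x.1.1, hno x.1.1 x.1.2 (MonoidHom.mem_ker.mp x.2)⟩ :
            Subgroup.zpowers z))
        intro x y hxy
        apply Subtype.ext
        apply Subtype.ext
        exact congrArg (fun t : Subgroup.zpowers z => (t : R)) hxy
      have h1 := Subgroup.card_mul_index ψ.ker
      rw [Subgroup.index_ker, card_comap_mk, hA'card, hZcard] at h1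
      have h2 : Nat.card ψ.ker * Nat.card ψ.range ≤ p * p := Nat.mul_le_mul hkcard hrcard
      have h3 := hp.two_le
      rw [h1] at h2
      nlinarith
  obtain ⟨N, hNn, hZN, hmul, w, hwN, hwp, hwZ⟩ := key
  let Ω : Subgroup R :=
    { carrier := {x | x ∈ N ∧ x ^ p = 1}
      mul_mem' := fun {x y} hx hy => ⟨mul_mem hx.1 hy.1, by
        rw [hmul x hx.1 y hy.1, hx.2, hy.2, one_mul]⟩
      one_mem' := ⟨one_mem N, one_pow p⟩
      inv_mem' := fun {x} hx => ⟨inv_mem hx.1, by rw [inv_pow, hx.2, inv_one]⟩ }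
  have hΩn : Ω.Normal := by
    constructor
    intro x hx g
    refine ⟨hNn.conj_mem x hx.1 g, ?_⟩
    rw [conj_pow, hx.2, mul_one, mul_inv_cancel]
  exact ending p hR (Subgroup.zpowers z) hZcard Ω (fun c hc => ⟨hZN hc, hzp c hc⟩)
    (fun x hx => hx.2) w ⟨hwN, hwp⟩ hwZ

/-- For odd p, every non-cyclic p-group contains a normal elementary abelian subgroup of order p^2. -/
theorem result {R : Type*} [Group R] [Finite R] {p : ℕ} [Fact p.Prime] (hp : p ≠ 2) (hR : IsPGroup p R) (hnc : ¬ IsCyclic R) : ∃ A : Subgroup R, A.Normal ∧ Cfsg.IsElementaryAbelian p A ∧ Nat.card A = p ^ 2 := by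
  exact main p hp (Nat.card R) R rfl hR hnc

end Cfsg.Agent.S0126
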