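import Mathlib
import Cfsg.Statements.S0007

set_option autoImplicit false
open Cfsg

namespace Cfsg.Agent.S0007

/-- Subgroups of coprime index: the intersection has index equal to the product of the indices, and every element is a product of an element of the first subgroup and an element of the second. -/
theorem result {G : Type*} [Group G] [Finite G] (H K : Subgroup G)
    (h : H.index.Coprime K.index) :
    (H ⊓ K).index = H.index * K.index ∧ ∀ g : G, ∃ x ∈ H, ∃ y ∈ K, g = x * y := by
  have hne : (H ⊓ K).index ≠ 0 := Subgroup.index_ne_zero_of_finite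
  have h1 : H.index ∣ (H ⊓ K).index := Subgroup.index_dvd_of_le inf_le_left
  have h2 : K.index ∣ (H ⊓ K).index := Subgroup.index_dvd_of_le inf_le_right
  have h3 : H.index * K.index ∣ (H ⊓ K).index := h.mul_dvd_of_dvd_of_dvd h1 h2
  have h4 : (H ⊓ K).index = H.index * K.index :=
    Nat.le_antisymm Subgroup.index_inf_le (Nat.le_of_dvd (Nat.pos_of_ne_zero hne) h3)
  refine ⟨h4, ?_⟩
  have hH : H.index ≠ 0 := Subgroup.index_ne_zero_of_finite
  have h5 : K.relIndex H = K.index := by
    have := Subgroup.relIndex_mul_index (inf_le_left : H ⊓ K ≤ H)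
    rw [Subgroup.inf_relIndex_left, h4, mul_comm] at this
    exact Nat.eq_of_mul_eq_mul_left (Nat.pos_of_ne_zero hH) this
  -- the map H / (K ∩ H) → G / K is injective, hence surjective
  let f : H ⧸ K.subgroupOf H → G ⧸ K :=
    Quotient.map' (fun x : H => (x : G)) (by
      intro a b hab
      rw [QuotientGroup.leftRel_apply] at hab ⊢
      simpa [Subgroup.mem_subgroupOf] using hab)
  have hf : Function.Injective f := by
    intro a b
    induction a using QuotientGroup.induction_on
    induction b using QuotientGroup.induction_on
    intro hab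
    simp only [f, Quotient.map'_mk''] at hab
    rw [QuotientGroup.eq] at hab ⊢
    simpa [Subgroup.mem_subgroupOf] using hab
  have hcard : Nat.card (H ⧸ K.subgroupOf H) = Nat.card (G ⧸ K) := h5
  have hsurj : Function.Surjective f := by
    have := (Nat.bijective_iff_injective_and_card f).mpr ⟨hf, hcard⟩
    exact this.2
  intro g
  obtain ⟨q, hq⟩ := hsurj (QuotientGroup.mk g)
  induction q using QuotientGroup.induction_on with
  | H x =>
    simp only [f, Quotient.map'_mk''] at hq
    have hq' : ((x : G) : G ⧸ K) = (g : G ⧸ K) := hq
    rw [QuotientGroup.eq] at hq'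
    exact ⟨x, x.2, (x : G)⁻¹ * g, hq', by group⟩

end Cfsg.Agent.S0007
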