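import Mathlib
import Cfsg.Statements.S0011

set_option autoImplicit false
open Cfsg

namespace Cfsg.Agent.S0011

/-- If the Frattini quotient of a finite group is nilpotent then the group is nilpotent. -/
theorem result {G : Type*} [Group G] [Finite G]
    (h : Group.IsNilpotent (G ⧸ frattini G)) : Group.IsNilpotent G := by
  have q := (Group.isNilpotent_of_finite_tfae (G := G)).out 0 2
  rw [q]; clear q
  have q' := (Group.isNilpotent_of_finite_tfae (G := G ⧸ frattini G)).out 0 2
  rw [q'] at h; clear q'
  intro H hH
  set π := QuotientGroup.mk' (frattini G) with hπ
  have hsurj : Function.Surjective π := QuotientGroup.mk'_surjective _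
  have hle : frattini G ≤ H := frattini_le_coatom hH
  have hcm : (H.map π).comap π = H := by
    rw [Subgroup.comap_map_eq, QuotientGroup.ker_mk']
    exact sup_eq_left.mpr hle
  have hM : IsCoatom (H.map π) := by
    constructor
    · intro htop
      rw [htop, Subgroup.comap_top] at hcm
      exact hH.1 hcm.symm
    · intro L hL
      have h1 : H ≤ L.comap π := by
        rw [← hcm]; exact Subgroup.comap_mono hL.le
      have h2 : H ≠ L.comap π := by
        intro heq
        have : L = H.map π := by
          rw [heq, Subgroup.map_comap_eq_self_of_surjective hsurj]
        exact hL.ne this.symm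
      have h3 : L.comap π = ⊤ := hH.2 _ (lt_of_le_of_ne h1 h2)
      have : L = (L.comap π).map π := (Subgroup.map_comap_eq_self_of_surjective hsurj L).symm
      rw [this, h3]
      exact Subgroup.map_top_of_surjective π hsurj
  have hn : (H.map π).Normal := h _ hM
  rw [← hcm]
  exact hn.comap π

end Cfsg.Agent.S0011
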