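import Mathlib
import Cfsg.Statements.S0015
import Cfsg.Agent.S0065
-- import your own Cfsg.Agent.* helpers here

set_option autoImplicit false
open Cfsg

namespace Cfsg.Agent.S0015

/-- In a finite nilpotent group, an abelian normal subgroup that is maximal among abelian normal subgroups equals its own centralizer. -/
theorem result {G : Type*} [Group G] [Finite G] [Group.IsNilpotent G]
    (N : Subgroup G) [N.Normal] [IsMulCommutative N]
    (hmax : ∀ M : Subgroup G, M.Normal → IsMulCommutative M → N ≤ M → M = N) :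
    Subgroup.centralizer (N : Set G) = N := by
  have hNcomm : ∀ a ∈ N, ∀ b ∈ N, a * b = b * a := by
    intro a ha b hb
    have := (IsMulCommutative.is_comm (M := N)).comm ⟨a, ha⟩ ⟨b, hb⟩
    exact congrArg Subtype.val this
  have hNC : N ≤ Subgroup.centralizer (N : Set G) := by
    intro a ha
    rw [Subgroup.mem_centralizer_iff]
    intro b hb
    exact hNcomm b hb a ha
  refine le_antisymm ?_ hNC
  by_contra hcon
  obtain ⟨c0, hc0C, hc0N⟩ := SetLike.not_le_iff_exists.1 hcon
  have hCn : (Subgroup.centralizer (N : Set G)).Normal := inferInstance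
  have hCbar : ((Subgroup.centralizer (N : Set G)).map (QuotientGroup.mk' N)) ≠ ⊥ := by
    intro hbot
    have : (QuotientGroup.mk' N) c0 ∈ ((Subgroup.centralizer (N : Set G)).map (QuotientGroup.mk' N)) :=
      Subgroup.mem_map_of_mem _ hc0C
    rw [hbot, Subgroup.mem_bot, QuotientGroup.mk'_apply, QuotientGroup.eq_one_iff] at this
    exact hc0N this
  have hCbarN : ((Subgroup.centralizer (N : Set G)).map (QuotientGroup.mk' N)).Normal :=
    Subgroup.Normal.map hCn _ (QuotientGroup.mk'_surjective N)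
  have hne := Cfsg.Agent.S0065.result _ hCbar
  obtain ⟨y, hy, hy1⟩ : ∃ y ∈ ((Subgroup.centralizer (N : Set G)).map (QuotientGroup.mk' N)) ⊓
      Subgroup.center (G ⧸ N), y ≠ 1 := by
    by_contra hh
    push Not at hh
    apply hne
    rw [eq_bot_iff]
    intro y hy
    rw [Subgroup.mem_bot]
    exact hh y hy
  obtain ⟨hyC, hyZ⟩ := Subgroup.mem_inf.1 hy
  obtain ⟨c, hcC, rfl⟩ := Subgroup.mem_map.1 hyC
  have hcN : c ∉ N := by
    intro h
    apply hy1
    rw [QuotientGroup.mk'_apply, QuotientGroup.eq_one_iff]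
    exact h
  have hzn : (Subgroup.zpowers ((QuotientGroup.mk' N) c)).Normal := by
    constructor
    intro x hx g
    obtain ⟨k, rfl⟩ := Subgroup.mem_zpowers_iff.1 hx
    have h1 : g * ((QuotientGroup.mk' N) c) ^ k * g⁻¹ = ((QuotientGroup.mk' N) c) ^ k := by
      have h2 : Commute g ((QuotientGroup.mk' N) c) := by
        have := Subgroup.mem_center_iff.1 hyZ g
        exact this
      have h3 := (h2.zpow_right k).eq
      rw [h3, mul_assoc, mul_inv_cancel, mul_one]
    rw [h1]
    exact Subgroup.zpow_mem_zpowers _ k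
  have hMn : ((Subgroup.zpowers ((QuotientGroup.mk' N) c)).comap (QuotientGroup.mk' N)).Normal :=
    Subgroup.Normal.comap hzn _
  have hcc : ∀ n ∈ N, Commute c n := by
    intro n hn
    exact (Subgroup.mem_centralizer_iff.1 hcC n hn).symm
  have hMc : IsMulCommutative ((Subgroup.zpowers ((QuotientGroup.mk' N) c)).comap (QuotientGroup.mk' N)) := by
    have key : ∀ a ∈ ((Subgroup.zpowers ((QuotientGroup.mk' N) c)).comap (QuotientGroup.mk' N)),
        ∃ k : ℤ, ∃ n ∈ N, a = c ^ k * n := by
      intro a ha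
      rw [Subgroup.mem_comap] at ha
      obtain ⟨k, hk⟩ := Subgroup.mem_zpowers_iff.1 ha
      refine ⟨k, (c ^ k)⁻¹ * a, ?_, by group⟩
      rw [← QuotientGroup.eq_one_iff, ← QuotientGroup.mk'_apply, map_mul, map_inv, map_zpow, hk,
        inv_mul_cancel]
    refine ⟨⟨?_⟩⟩
    rintro ⟨a, ha⟩ ⟨b, hb⟩
    obtain ⟨k, n, hn, rfl⟩ := key a ha
    obtain ⟨l, n', hn', rfl⟩ := key b hb
    apply Subtype.ext
    have h1 : Commute (c ^ k) (c ^ l) := Commute.zpow_zpow (Commute.refl c) k l
    have h2 : Commute (c ^ k) n' := (hcc n' hn').zpow_left k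
    have h3 : Commute n (c ^ l) := ((hcc n hn).zpow_left l).symm
    have h4 : Commute n n' := hNcomm n hn n' hn'
    exact (Commute.mul_left (Commute.mul_right h1 h2) (Commute.mul_right h3 h4)).eq
  have hNM : N ≤ ((Subgroup.zpowers ((QuotientGroup.mk' N) c)).comap (QuotientGroup.mk' N)) := by
    intro n hn
    rw [Subgroup.mem_comap]
    have h1 : (QuotientGroup.mk' N) n = 1 := by
      rw [QuotientGroup.mk'_apply]; exact (QuotientGroup.eq_one_iff n).2 hn
    rw [h1]
    exact one_mem _
  have hMN := hmax _ hMn hMc hNM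
  apply hcN
  rw [← hMN, Subgroup.mem_comap]
  exact Subgroup.mem_zpowers _

end Cfsg.Agent.S0015
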