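import Mathlib
import Cfsg.Statements.S0018
import Cfsg.Agent.Lib.Helper55.Cores
-- import your own Cfsg.Agent.* helpers here

set_option autoImplicit false
open Cfsg

namespace Cfsg.Agent.S0018

/-- A finite solvable group whose Sylow p-subgroups are abelian has p-length one: a Sylow p-subgroup together with the largest normal subgroup of order prime to p generates a normal subgroup. -/
theorem result {G : Type*} [Group G] [Finite G] [Group.IsSolvable G]
    (p : ℕ) [Fact p.Prime] (P : Sylow p G) (hP : IsMulCommutative P) :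
    ((P : Subgroup G) ⊔ Cfsg.pPrimeCore p G).Normal := by
  have hsurj : Function.Surjective (QuotientGroup.mk' (Cfsg.pPrimeCore p G)) :=
    QuotientGroup.mk'_surjective _
  have hcent : Subgroup.centralizer (Cfsg.pCore p (G ⧸ Cfsg.pPrimeCore p G) : Set (G ⧸ Cfsg.pPrimeCore p G))
      ≤ Cfsg.pCore p (G ⧸ Cfsg.pPrimeCore p G) := by
    apply Cfsg.Agent.Lib.Helper55.centralizer_pCore_le
    intro N hN hcop
    exact Cfsg.Agent.Lib.Helper55.eq_bot_of_normal_coprime_quotient p G N hN hcop
  have hle : Cfsg.pCore p (G ⧸ Cfsg.pPrimeCore p G) ≤ (P : Subgroup G).map (QuotientGroup.mk' (Cfsg.pPrimeCore p G)) := by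
    have := Cfsg.Agent.Lib.Helper55.pCore_le_sylow (P.mapSurjective hsurj)
    rwa [Sylow.coe_mapSurjective] at this
  have hPcomm : ∀ a ∈ (P : Subgroup G), ∀ b ∈ (P : Subgroup G), a * b = b * a := by
    intro a ha b hb
    have := (IsMulCommutative.is_comm (M := P)).comm ⟨a, ha⟩ ⟨b, hb⟩
    exact congrArg Subtype.val this
  have hle2 : (P : Subgroup G).map (QuotientGroup.mk' (Cfsg.pPrimeCore p G)) ≤
      Subgroup.centralizer (Cfsg.pCore p (G ⧸ Cfsg.pPrimeCore p G) : Set (G ⧸ Cfsg.pPrimeCore p G)) := by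
    intro x hx
    rw [Subgroup.mem_centralizer_iff]
    intro y hy
    obtain ⟨a, ha, rfl⟩ := Subgroup.mem_map.1 hx
    obtain ⟨b, hb, rfl⟩ := Subgroup.mem_map.1 (hle hy)
    rw [← map_mul, ← map_mul, hPcomm b hb a ha]
  have heq : (P : Subgroup G).map (QuotientGroup.mk' (Cfsg.pPrimeCore p G)) =
      Cfsg.pCore p (G ⧸ Cfsg.pPrimeCore p G) := le_antisymm (hle2.trans hcent) hle
  have hcm : ((P : Subgroup G).map (QuotientGroup.mk' (Cfsg.pPrimeCore p G))).comap
      (QuotientGroup.mk' (Cfsg.pPrimeCore p G)) = (P : Subgroup G) ⊔ Cfsg.pPrimeCore p G := by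
    rw [Subgroup.comap_map_eq, QuotientGroup.ker_mk']
  rw [← hcm, heq]
  exact Subgroup.Normal.comap (Cfsg.pCore_normal p _) _

end Cfsg.Agent.S0018
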