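import Cfsg.Statements.S0021
import Mathlib
import Cfsg.Agent.S0006

set_option autoImplicit false
open Cfsg

namespace Cfsg.Agent.S0021

open Subgroup
open scoped Pointwise

/-- If two subgroups permute as sets, their join is their set product. -/
theorem coe_sup_of_mul_comm {G : Type*} [Group G] (H K : Subgroup G)
    (h : (H : Set G) * (K : Set G) = (K : Set G) * (H : Set G)) :
    ((H ⊔ K : Subgroup G) : Set G) = (H : Set G) * (K : Set G) := by
  let P : Subgroup G :=
    { carrier := (H : Set G) * (K : Set G)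
      one_mem' := ⟨1, H.one_mem, 1, K.one_mem, mul_one 1⟩
      mul_mem' := by
        rintro _ _ ⟨h₁, hh₁, k₁, hk₁, rfl⟩ ⟨h₂, hh₂, k₂, hk₂, rfl⟩
        have h3 : k₁ * h₂ ∈ (H : Set G) * (K : Set G) := by
          rw [h]
          exact ⟨k₁, hk₁, h₂, hh₂, rfl⟩
        obtain ⟨h₃, hh₃, k₃, hk₃, e⟩ := h3
        have e' : h₃ * k₃ = k₁ * h₂ := e
        refine ⟨h₁ * h₃, H.mul_mem hh₁ hh₃, k₃ * k₂, K.mul_mem hk₃ hk₂, ?_⟩
        calc h₁ * h₃ * (k₃ * k₂) = h₁ * (h₃ * k₃) * k₂ := by group
          _ = h₁ * (k₁ * h₂) * k₂ := by rw [e']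
          _ = h₁ * k₁ * (h₂ * k₂) := by group
      inv_mem' := by
        rintro _ ⟨h₁, hh₁, k₁, hk₁, rfl⟩
        show (h₁ * k₁)⁻¹ ∈ (H : Set G) * (K : Set G)
        rw [h, mul_inv_rev]
        exact ⟨k₁⁻¹, K.inv_mem hk₁, h₁⁻¹, H.inv_mem hh₁, rfl⟩ }
  have hP : H ⊔ K = P := by
    apply le_antisymm
    · apply sup_le
      · intro x hx
        exact ⟨x, hx, 1, K.one_mem, mul_one x⟩
      · intro x hx
        exact ⟨1, H.one_mem, x, hx, one_mul x⟩
    · rintro _ ⟨h₁, hh₁, k₁, hk₁, rfl⟩
      exact mul_mem (le_sup_left (a := H) (b := K) hh₁) (le_sup_right (a := H) (b := K) hk₁)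
  rw [hP]
  rfl

theorem result {G : Type*} [Group G] [Finite G]
    (S : (p : Nat.Primes) → Sylow (p : ℕ) G)
    (hS : ∀ p q : Nat.Primes, (S p : Set G) * (S q : Set G) = (S q : Set G) * (S p : Set G)) :
    Group.IsSolvable G := by
  classical
  let S' : ℕ → Subgroup G := fun q => if h : q.Prime then (S ⟨q, h⟩ : Subgroup G) else ⊥
  have hS'pos : ∀ (q : ℕ) (hq : q.Prime), S' q = (S ⟨q, hq⟩ : Subgroup G) := fun q hq => dif_pos hq
  have hS'neg : ∀ (q : ℕ), ¬ q.Prime → S' q = ⊥ := fun q hq => dif_neg hq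
  have hbot : ((⊥ : Subgroup G) : Set G) = {1} := Subgroup.coe_bot
  have hS' : ∀ q r : ℕ, (S' q : Set G) * (S' r : Set G) = (S' r : Set G) * (S' q : Set G) := by
    intro q r
    by_cases hq : q.Prime
    · by_cases hr : r.Prime
      · rw [hS'pos q hq, hS'pos r hr]
        exact hS ⟨q, hq⟩ ⟨r, hr⟩
      · rw [hS'neg r hr, hbot, Set.mul_singleton, Set.singleton_mul]
        simp
    · rw [hS'neg q hq, hbot, Set.mul_singleton, Set.singleton_mul]
      simp
  have hcardS' : ∀ q : ℕ, Nat.card (S' q) = q ^ (Nat.card G).factorization q := by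
    intro q
    by_cases hq : q.Prime
    · rw [hS'pos q hq]
      exact @Sylow.card_eq_multiplicity G _ _ q ⟨hq⟩ (S ⟨q, hq⟩)
    · rw [hS'neg q hq, Nat.factorization_eq_zero_of_not_prime _ hq, pow_zero, Subgroup.card_bot]
  have key : ∀ T : Finset ℕ, (∀ q ∈ T, q.Prime) →
      (∀ r : ℕ, (S' r : Set G) * ((T.sup S' : Subgroup G) : Set G)
        = ((T.sup S' : Subgroup G) : Set G) * (S' r : Set G)) ∧
      Nat.card (T.sup S' : Subgroup G) = ∏ q ∈ T, q ^ (Nat.card G).factorization q := by
    intro T
    induction T using Finset.induction_on with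
    | empty =>
      intro _
      refine ⟨fun r => ?_, ?_⟩
      · rw [Finset.sup_empty, hbot, Set.mul_singleton, Set.singleton_mul]
        simp
      · rw [Finset.sup_empty, Finset.prod_empty, Subgroup.card_bot]
    | insert q T hqT ih =>
      intro hT
      obtain ⟨ih1, ih2⟩ := ih (fun x hx => hT x (Finset.mem_insert_of_mem hx))
      have hq : q.Prime := hT q (Finset.mem_insert_self q T)
      have hcoe : (((insert q T).sup S' : Subgroup G) : Set G)
          = (S' q : Set G) * ((T.sup S' : Subgroup G) : Set G) := by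
        rw [Finset.sup_insert]
        exact coe_sup_of_mul_comm _ _ (ih1 q)
      refine ⟨fun r => ?_, ?_⟩
      · rw [hcoe, ← mul_assoc, hS' r q, mul_assoc, ih1 r, mul_assoc]
      · rw [Finset.prod_insert hqT]
        apply le_antisymm
        · rw [← ih2, ← hcardS' q]
          have h1 : Nat.card ((insert q T).sup S' : Subgroup G)
              = Nat.card ((S' q : Set G) * ((T.sup S' : Subgroup G) : Set G) : Set G) := by
            have h2 : Nat.card ((insert q T).sup S' : Subgroup G)
                = Nat.card ((((insert q T).sup S' : Subgroup G) : Set G)) := rfl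
            rw [h2, hcoe]
          rw [h1]
          exact Set.natCard_mul_le
        · apply Nat.le_of_dvd Nat.card_pos
          apply Nat.Coprime.mul_dvd_of_dvd_of_dvd
          · apply Nat.Coprime.prod_right
            intro r hr
            exact Nat.Coprime.pow _ _ ((Nat.coprime_primes hq
              (hT r (Finset.mem_insert_of_mem hr))).mpr (ne_of_mem_of_not_mem hr hqT).symm)
          · rw [← hcardS' q]
            exact card_dvd_of_le (by rw [Finset.sup_insert]; exact le_sup_left)
          · rw [← ih2]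
            exact card_dvd_of_le (by rw [Finset.sup_insert]; exact le_sup_right)
  apply Cfsg.Agent.S0006.result
  intro p hp
  have hG0 : Nat.card G ≠ 0 := Nat.card_pos.ne'
  obtain ⟨-, hcard⟩ := key ((Nat.card G).primeFactors.erase p)
    (fun q hq => Nat.prime_of_mem_primeFactors (Finset.mem_of_mem_erase hq))
  refine ⟨((Nat.card G).primeFactors.erase p).sup S', ?_⟩
  have h1 := card_mul_index (((Nat.card G).primeFactors.erase p).sup S' : Subgroup G)
  have h3 : ∏ q ∈ (Nat.card G).primeFactors, q ^ (Nat.card G).factorization q = Nat.card G := by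
    have h4 := Nat.prod_factorization_pow_eq_self hG0
    rw [Finsupp.prod, Nat.support_factorization] at h4
    exact h4
  have h2 : Nat.card (((Nat.card G).primeFactors.erase p).sup S' : Subgroup G)
      * p ^ (Nat.card G).factorization p = Nat.card G := by
    rw [hcard]
    by_cases hpG : p ∈ (Nat.card G).primeFactors
    · rw [Finset.prod_erase_mul _ _ hpG, h3]
    · have h5 : ¬ p ∣ Nat.card G := fun hd => hpG (Nat.mem_primeFactors.mpr ⟨hp, hd, hG0⟩)
      rw [Finset.erase_eq_of_notMem hpG, h3, Nat.factorization_eq_zero_of_not_dvd h5, pow_zero,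
        mul_one]
  exact Nat.eq_of_mul_eq_mul_left Nat.card_pos (h1.trans h2.symm)

end Cfsg.Agent.S0021
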