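import Mathlib
import Cfsg.Statements.S0032

set_option autoImplicit false
open Cfsg

namespace Cfsg.Agent.S0032

/-- If an automorphism of a finite group fixes only the identity and maps a normal subgroup N into itself, then the only cosets of N it fixes are those in N: a fixed coset xN forces x ∈ N. -/
theorem result {G : Type*} [Group G] [Finite G] (φ : G ≃* G)
    (hφ : MonoidHom.FixedPointFree (φ : G →* G)) (N : Subgroup G) [N.Normal] (hN : ∀ n ∈ N, φ n ∈ N)
    (x : G) (hx : (φ x)⁻¹ * x ∈ N) : x ∈ N := by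
  let g : N → N := fun n => ⟨(φ n)⁻¹ * n, N.mul_mem (N.inv_mem (hN n n.2)) n.2⟩
  have key : ∀ a b : G, (φ a)⁻¹ * a = (φ b)⁻¹ * b → a = b := by
    intro a b hab
    have h1 : φ (a * b⁻¹) = a * b⁻¹ := by
      rw [map_mul, map_inv]
      have : a = φ a * ((φ b)⁻¹ * b) := by rw [← hab]; group
      calc φ a * (φ b)⁻¹ = φ a * ((φ b)⁻¹ * b) * b⁻¹ := by group
        _ = a * b⁻¹ := by rw [← this]
    have h2 := hφ (a * b⁻¹) h1
    exact mul_inv_eq_one.mp h2
  have hg : Function.Injective g := by
    intro a b hab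
    have : (φ a)⁻¹ * (a : G) = (φ b)⁻¹ * (b : G) := congrArg Subtype.val hab
    exact Subtype.ext (key _ _ this)
  have hs : Function.Surjective g := Finite.surjective_of_injective hg
  obtain ⟨n, hn⟩ := hs ⟨(φ x)⁻¹ * x, hx⟩
  have : (φ n)⁻¹ * (n : G) = (φ x)⁻¹ * x := congrArg Subtype.val hn
  have := key _ _ this
  rw [← this]
  exact n.2

end Cfsg.Agent.S0032
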