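-- Statement S0047 (Ito): a product of two abelian subgroups is metabelian, hence solvable.
import Mathlib
import Cfsg.Statements.S0047

set_option autoImplicit false
open Cfsg
open scoped commutatorElement

namespace Cfsg.Agent.S0047

variable {G : Type*} [Group G]

theorem comm_mul_left_of_commute {x y z : G} (h : y * z = z * y) : ⁅x * y, z⁆ = ⁅x, z⁆ := by
  have h1 : y * z * y⁻¹ = z := by rw [h]; group
  calc ⁅x * y, z⁆ = x * (y * z * y⁻¹) * x⁻¹ * z⁻¹ := by rw [commutatorElement_def]; group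
    _ = ⁅x, z⁆ := by rw [h1, commutatorElement_def]

theorem comm_mul_right_of_commute {x y z : G} (h : x * z = z * x) : ⁅x, y * z⁆ = ⁅x, y⁆ := by
  have h1 : z * x⁻¹ * z⁻¹ = x⁻¹ := by
    have : z * x⁻¹ * z⁻¹ = (z * x * z⁻¹)⁻¹ := by group
    rw [this, ← h]; group
  calc ⁅x, y * z⁆ = x * y * (z * x⁻¹ * z⁻¹) * y⁻¹ := by rw [commutatorElement_def]; group
    _ = ⁅x, y⁆ := by rw [h1, commutatorElement_def]

theorem conj_comm (g x y : G) : g * ⁅x, y⁆ * g⁻¹ = ⁅g * x * g⁻¹, g * y * g⁻¹⁆ := by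
  simp only [commutatorElement_def]; group

theorem conj_of_comm {g x : G} (h : g * x = x * g) : g * x * g⁻¹ = x := by rw [h]; group

/-- the key identity -/
theorem key (A B : Subgroup G) [IsMulCommutative A] [IsMulCommutative B]
    (hAB : ∀ g : G, ∃ a ∈ A, ∃ b ∈ B, g = a * b)
    {a a1 b b1 : G} (ha : a ∈ A) (ha1 : a1 ∈ A) (hb : b ∈ B) (hb1 : b1 ∈ B) :
    a1 * b1 * ⁅a, b⁆ * (a1 * b1)⁻¹ = b1 * a1 * ⁅a, b⁆ * (b1 * a1)⁻¹ := by
  have cA : ∀ {x y : G}, x ∈ A → y ∈ A → x * y = y * x :=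
    fun hx hy => setLike_mul_comm hx hy
  have cB : ∀ {x y : G}, x ∈ B → y ∈ B → x * y = y * x :=
    fun hx hy => setLike_mul_comm hx hy
  obtain ⟨a3, ha3, b3, hb3, h3⟩ := hAB (b1 * a * b1⁻¹)
  obtain ⟨a2', ha2', b2', hb2', h2'⟩ := hAB ((a1 * b * a1⁻¹)⁻¹)
  -- a1 b a1⁻¹ = b2 * a2 with b2 = b2'⁻¹, a2 = a2'⁻¹
  have h2 : a1 * b * a1⁻¹ = b2'⁻¹ * a2'⁻¹ := by
    rw [← mul_inv_rev, ← h2', inv_inv]
  have hb2 : b2'⁻¹ ∈ B := B.inv_mem hb2'
  have ha2 : a2'⁻¹ ∈ A := A.inv_mem ha2'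
  have lhs : a1 * b1 * ⁅a, b⁆ * (a1 * b1)⁻¹ = ⁅a3, b2'⁻¹⁆ := by
    calc a1 * b1 * ⁅a, b⁆ * (a1 * b1)⁻¹ = a1 * (b1 * ⁅a, b⁆ * b1⁻¹) * a1⁻¹ := by group
      _ = a1 * ⁅a3 * b3, b⁆ * a1⁻¹ := by
          rw [conj_comm, h3, conj_of_comm (cB hb1 hb)]
      _ = a1 * ⁅a3, b⁆ * a1⁻¹ := by rw [comm_mul_left_of_commute (cB hb3 hb)]
      _ = ⁅a3, b2'⁻¹ * a2'⁻¹⁆ := by rw [conj_comm, conj_of_comm (cA ha1 ha3), h2]
      _ = ⁅a3, b2'⁻¹⁆ := by rw [comm_mul_right_of_commute (cA ha3 ha2)]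
  have rhs : b1 * a1 * ⁅a, b⁆ * (b1 * a1)⁻¹ = ⁅a3, b2'⁻¹⁆ := by
    calc b1 * a1 * ⁅a, b⁆ * (b1 * a1)⁻¹ = b1 * (a1 * ⁅a, b⁆ * a1⁻¹) * b1⁻¹ := by group
      _ = b1 * ⁅a, b2'⁻¹ * a2'⁻¹⁆ * b1⁻¹ := by
          rw [conj_comm, h2, conj_of_comm (cA ha1 ha)]
      _ = b1 * ⁅a, b2'⁻¹⁆ * b1⁻¹ := by rw [comm_mul_right_of_commute (cA ha ha2)]
      _ = ⁅a3 * b3, b2'⁻¹⁆ := by rw [conj_comm, conj_of_comm (cB hb1 hb2), h3]
      _ = ⁅a3, b2'⁻¹⁆ := by rw [comm_mul_left_of_commute (cB hb3 hb2)]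
  rw [lhs, rhs]

theorem comm_comm (A B : Subgroup G) [IsMulCommutative A] [IsMulCommutative B]
    (hAB : ∀ g : G, ∃ a ∈ A, ∃ b ∈ B, g = a * b)
    {a a1 b b1 : G} (ha : a ∈ A) (ha1 : a1 ∈ A) (hb : b ∈ B) (hb1 : b1 ∈ B) :
    ⁅a1, b1⁆ * ⁅a, b⁆ = ⁅a, b⁆ * ⁅a1, b1⁆ := by
  have h := key A B hAB ha (A.inv_mem ha1) hb (B.inv_mem hb1)
  have e : ⁅a1, b1⁆ = (b1⁻¹ * a1⁻¹)⁻¹ * (a1⁻¹ * b1⁻¹) := by
    rw [commutatorElement_def]; group
  set c := ⁅a, b⁆ with hc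
  set g := a1⁻¹ * b1⁻¹ with hg
  set k := b1⁻¹ * a1⁻¹ with hk
  rw [e]
  calc k⁻¹ * g * c = k⁻¹ * (g * c * g⁻¹) * g := by group
    _ = k⁻¹ * (k * c * k⁻¹) * g := by rw [h]
    _ = c * (k⁻¹ * g) := by group

/-- A finite group which is the product AB of two abelian subgroups A and B is solvable. -/
theorem result {G : Type*} [Group G] [Finite G] (A B : Subgroup G)
    [IsMulCommutative A] [IsMulCommutative B] (hAB : ∀ g : G, ∃ a ∈ A, ∃ b ∈ B, g = a * b) :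
    Group.IsSolvable G := by
  have cA : ∀ {x y : G}, x ∈ A → y ∈ A → x * y = y * x :=
    fun hx hy => setLike_mul_comm hx hy
  have cB : ∀ {x y : G}, x ∈ B → y ∈ B → x * y = y * x :=
    fun hx hy => setLike_mul_comm hx hy
  -- the set of basic commutators
  set C : Set G := {c | ∃ a ∈ A, ∃ b ∈ B, c = ⁅a, b⁆} with hC
  set N : Subgroup G := Subgroup.closure C with hN
  have hCN : ∀ {a b : G}, a ∈ A → b ∈ B → ⁅a, b⁆ ∈ N :=
    fun {a b} ha hb => Subgroup.subset_closure ⟨a, ha, b, hb, rfl⟩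
  -- C is a commuting set
  have hcomm : ∀ x ∈ C, ∀ y ∈ C, x * y = y * x := by
    rintro x ⟨a1, ha1, b1, hb1, rfl⟩ y ⟨a, ha, b, hb, rfl⟩
    exact comm_comm A B hAB ha ha1 hb hb1
  -- N is abelian
  have hNab : ⁅N, N⁆ = ⊥ := by
    rw [Subgroup.commutator_eq_bot_iff_le_centralizer, hN, Subgroup.centralizer_closure,
      Subgroup.closure_le]
    intro x hx y hy
    exact hcomm y hy x hx
  -- N is normal
  have hnorm : N.Normal := by
    constructor
    intro n hn g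
    obtain ⟨a1, ha1, b1, hb1, rfl⟩ := hAB g
    -- conjugation by a1 and by b1 preserve N
    have hA1 : ∀ a1 ∈ A, ∀ n ∈ N, a1 * n * a1⁻¹ ∈ N := by
      intro a1 ha1 n hn
      induction hn using Subgroup.closure_induction with
      | mem x hx =>
        obtain ⟨a, ha, b, hb, rfl⟩ := hx
        have : a1 * ⁅a, b⁆ * a1⁻¹ = ⁅a1 * a, b⁆ * ⁅a1, b⁆⁻¹ := by
          simp only [commutatorElement_def]; group
        rw [this]
        exact N.mul_mem (hCN (A.mul_mem ha1 ha) hb) (N.inv_mem (hCN ha1 hb))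
      | one => simp
      | mul x y _ _ hx hy =>
        have : a1 * (x * y) * a1⁻¹ = (a1 * x * a1⁻¹) * (a1 * y * a1⁻¹) := by group
        rw [this]; exact N.mul_mem hx hy
      | inv x _ hx =>
        have : a1 * x⁻¹ * a1⁻¹ = (a1 * x * a1⁻¹)⁻¹ := by group
        rw [this]; exact N.inv_mem hx
    have hB1 : ∀ b1 ∈ B, ∀ n ∈ N, b1 * n * b1⁻¹ ∈ N := by
      intro b1 hb1 n hn
      induction hn using Subgroup.closure_induction with
      | mem x hx =>
        obtain ⟨a, ha, b, hb, rfl⟩ := hx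
        have : b1 * ⁅a, b⁆ * b1⁻¹ = ⁅a, b1⁆⁻¹ * ⁅a, b1 * b⁆ := by
          simp only [commutatorElement_def]; group
        rw [this]
        exact N.mul_mem (N.inv_mem (hCN ha hb1)) (hCN ha (B.mul_mem hb1 hb))
      | one => simp
      | mul x y _ _ hx hy =>
        have : b1 * (x * y) * b1⁻¹ = (b1 * x * b1⁻¹) * (b1 * y * b1⁻¹) := by group
        rw [this]; exact N.mul_mem hx hy
      | inv x _ hx =>
        have : b1 * x⁻¹ * b1⁻¹ = (b1 * x * b1⁻¹)⁻¹ := by group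
        rw [this]; exact N.inv_mem hx
    have : a1 * b1 * n * (a1 * b1)⁻¹ = a1 * (b1 * n * b1⁻¹) * a1⁻¹ := by group
    rw [this]
    exact hA1 a1 ha1 _ (hB1 b1 hb1 n hn)
  -- the quotient is abelian
  have hle : commutator G ≤ N := by
    rw [← Subgroup.Normal.quotient_commutative_iff_commutator_le]
    constructor
    constructor
    intro x y
    induction x using QuotientGroup.induction_on with
    | H x =>
    induction y using QuotientGroup.induction_on with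
    | H y =>
    obtain ⟨a1, ha1, b1, hb1, rfl⟩ := hAB x
    obtain ⟨a2, ha2, b2, hb2, rfl⟩ := hAB y
    have hq : ∀ {a b : G}, a ∈ A → b ∈ B →
        (QuotientGroup.mk a : G ⧸ N) * QuotientGroup.mk b = QuotientGroup.mk b * QuotientGroup.mk a := by
      intro a b ha hb
      rw [← QuotientGroup.mk_mul, ← QuotientGroup.mk_mul, QuotientGroup.eq]
      have : (a * b)⁻¹ * (b * a) = ⁅b⁻¹, a⁻¹⁆ := by rw [commutatorElement_def]; group
      rw [this, ← commutatorElement_inv]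
      exact N.inv_mem (hCN (A.inv_mem ha) (B.inv_mem hb))
    have hqA : ∀ {a a' : G}, a ∈ A → a' ∈ A →
        (QuotientGroup.mk a : G ⧸ N) * QuotientGroup.mk a' = QuotientGroup.mk a' * QuotientGroup.mk a := by
      intro a a' ha ha'
      rw [← QuotientGroup.mk_mul, ← QuotientGroup.mk_mul, cA ha ha']
    have hqB : ∀ {b b' : G}, b ∈ B → b' ∈ B →
        (QuotientGroup.mk b : G ⧸ N) * QuotientGroup.mk b' = QuotientGroup.mk b' * QuotientGroup.mk b := by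
      intro b b' hb hb'
      rw [← QuotientGroup.mk_mul, ← QuotientGroup.mk_mul, cB hb hb']
    show (QuotientGroup.mk (a1 * b1) : G ⧸ N) * QuotientGroup.mk (a2 * b2)
      = QuotientGroup.mk (a2 * b2) * QuotientGroup.mk (a1 * b1)
    rw [QuotientGroup.mk_mul, QuotientGroup.mk_mul]
    set p : G ⧸ N := QuotientGroup.mk a1
    set q : G ⧸ N := QuotientGroup.mk b1
    set r : G ⧸ N := QuotientGroup.mk a2
    set s : G ⧸ N := QuotientGroup.mk b2
    have hqr : q * r = r * q := (hq ha2 hb1).symm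
    have hpr : p * r = r * p := hqA ha1 ha2
    have hqs : q * s = s * q := hqB hb1 hb2
    have hps : p * s = s * p := hq ha1 hb2
    calc p * q * (r * s) = p * (q * r) * s := by group
      _ = p * (r * q) * s := by rw [hqr]
      _ = (p * r) * (q * s) := by group
      _ = (r * p) * (s * q) := by rw [hpr, hqs]
      _ = r * (p * s) * q := by group
      _ = r * (s * p) * q := by rw [hps]
      _ = r * s * (p * q) := by group
  rw [Group.isSolvable_def]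
  refine ⟨2, ?_⟩
  rw [derivedSeries_succ, derivedSeries_one, eq_bot_iff, ← hNab]
  exact Subgroup.commutator_mono hle hle

end Cfsg.Agent.S0047
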