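import Mathlib
import Cfsg.Statements.S0048
import Cfsg.Agent.Lib.Helper71.MaxSolv
-- import your own Cfsg.Agent.* helpers here

set_option autoImplicit false
open Cfsg

namespace Cfsg.Agent.S0048

/-- In a finite solvable group every maximal subgroup has index a prime power. -/
theorem result {G : Type*} [Group G] [Finite G] [Group.IsSolvable G]
    (M : Subgroup G) (hM : IsCoatom M) : IsPrimePow M.index := by
  obtain ⟨p, k, hp, hk⟩ := Cfsg.Agent.Lib.Helper71.index_eq_prime_pow_of_isCoatom M hM
  rw [isPrimePow_nat_iff]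
  refine ⟨p, k, hp, ?_, hk.symm⟩
  rcases Nat.eq_zero_or_pos k with h0 | h0
  · exfalso
    rw [h0, pow_zero, Subgroup.index_eq_one] at hk
    exact hM.1 hk
  · exact h0

end Cfsg.Agent.S0048
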