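import Mathlib
import Cfsg.Statements.S0049

set_option autoImplicit false
open Cfsg

namespace Cfsg.Agent.S0049

/-- A prime divisor of the order of a finite group also divides the index of the Frattini subgroup. -/
theorem result {G : Type*} [Group G] [Finite G] (p : ℕ) (hp : p.Prime) (hdvd : p ∣ Nat.card G) :
    p ∣ (frattini G).index := by
  have : Fact p.Prime := ⟨hp⟩
  by_contra hnd
  obtain ⟨P⟩ : Nonempty (Sylow p G) := inferInstance
  have : (frattini G).Normal := inferInstance
  -- P ≤ Φ
  have hPle : (P : Subgroup G) ≤ frattini G := by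
    rw [← Subgroup.relIndex_eq_one]
    have h1 : (frattini G).relIndex P ∣ (frattini G).index := Subgroup.relIndex_dvd_index_of_normal _ _
    have h2 : (frattini G).relIndex P ∣ Nat.card P := Subgroup.relIndex_dvd_card _ _
    obtain ⟨n, hn⟩ := IsPGroup.iff_card.mp P.isPGroup'
    rw [hn] at h2
    obtain ⟨k, -, hk⟩ := (Nat.dvd_prime_pow hp).mp h2
    rcases Nat.eq_zero_or_pos k with h0 | hpos
    · rw [hk, h0, pow_zero]
    · exfalso
      apply hnd
      rw [hk] at h1
      exact (dvd_pow_self p hpos.ne').trans h1
  have h3 : Subgroup.normalizer (P : Set G) ⊔ frattini G = ⊤ := Sylow.normalizer_sup_eq_top' P hPle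
  have h4 : Subgroup.normalizer (P : Set G) = ⊤ := frattini_nongenerating h3
  have hPn : (P : Subgroup G).Normal := Subgroup.normalizer_eq_top_iff.mp h4
  obtain ⟨H, hH⟩ := Subgroup.exists_right_complement'_of_coprime P.card_coprime_index
  have h5 : H ⊔ frattini G = ⊤ := by
    rw [eq_top_iff, ← hH.sup_eq_top, sup_comm]
    exact sup_le_sup_left hPle H
  have h6 : H = ⊤ := frattini_nongenerating h5
  have h7 : (P : Subgroup G) = ⊥ := by
    have := hH.disjoint
    rw [h6] at this
    exact disjoint_top.mp this
  exact P.ne_bot_of_dvd_card hdvd h7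

end Cfsg.Agent.S0049
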