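import Mathlib
import Cfsg.Statements.S0050
import Cfsg.Agent.Lib.Helper1.HallConj

set_option autoImplicit false
open Cfsg

namespace Cfsg.Agent.S0050

open Cfsg.Agent.Lib.Helper1 Pointwise in
/-- Frattini argument for Hall subgroups: if L is a solvable normal subgroup and H a subgroup of L of order coprime to its index in L, then L together with the normaliser of H generates the whole group. -/
theorem result {G : Type*} [Group G] [Finite G] (L : Subgroup G) [L.Normal] (hL : Group.IsSolvable L)
    (H : Subgroup G) (hHL : H ≤ L) (hHall : (Nat.card H).Coprime (H.relIndex L)) :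
    L ⊔ Subgroup.normalizer (H : Set G) = ⊤ := by
  rw [eq_top_iff]
  intro g _
  have hgHL : MulAut.conj g • H ≤ L := by
    have : MulAut.conj g • H ≤ MulAut.conj g • L :=
      Subgroup.pointwise_smul_le_pointwise_smul_iff.mpr hHL
    rwa [Subgroup.Normal.conj_smul_eq_self g L] at this
  have hcardL : Nat.card L = Nat.card H * H.relIndex L := card_eq_card_mul_relIndex hHL
  obtain ⟨l, hl⟩ := hall_conj (G := L) (Nat.card H) (H.relIndex L) hcardL hHall
    (H.subgroupOf L) ((MulAut.conj g • H).subgroupOf L)
    (card_subgroupOf_of_le hHL) (by rw [card_subgroupOf_of_le hgHL, card_conj_smul])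
  have h3 := conj_smul_of_subgroupOf hHL hgHL l hl
  have h4 : MulAut.conj ((l : G)⁻¹ * g) • H = H := by
    rw [map_mul, mul_smul, ← h3, ← mul_smul, ← map_mul, inv_mul_cancel, map_one, one_smul]
  have h5 : (l : G)⁻¹ * g ∈ Subgroup.normalizer (H : Set G) := by
    rw [Subgroup.mem_normalizer_iff_map_conj_eq]
    exact h4
  have h6 : g = (l : G) * ((l : G)⁻¹ * g) := by group
  rw [h6]
  exact Subgroup.mul_mem_sup l.2 h5

end Cfsg.Agent.S0050
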