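-- Statement S0052: Gaschütz's theorem, conjugacy part.
import Cfsg.Statements.S0052
import Cfsg.Agent.Lib.Helper90.Gaschutz

set_option autoImplicit false
open Pointwise
open Cfsg

namespace Cfsg.Agent.S0052

open scoped IsMulCommutative
open Cfsg.Agent.Lib.Helper90

/-- Gaschütz's Theorem, conjugacy: for an abelian normal subgroup K ≤ U with the order of K coprime to the index of U, two complements of K in G having the same intersection with U are conjugate. -/
theorem result {G : Type*} [Group G] [Finite G] (K U : Subgroup G) [K.Normal] [IsMulCommutative K]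
    (hKU : K ≤ U) (hcop : (Nat.card K).Coprime U.index)
    (H₀ H₁ : Subgroup G) (h₀ : Subgroup.IsComplement' K H₀) (h₁ : Subgroup.IsComplement' K H₁) (hU : H₀ ⊓ U = H₁ ⊓ U) :
    ∃ g : G, MulAut.conj g • H₀ = H₁ := by
  obtain ⟨π₀, hπ₀, hu₀, hc₀⟩ := exists_proj K H₀ h₀
  obtain ⟨π₁, hπ₁, hu₁, hc₁⟩ := exists_proj K H₁ h₁
  -- the crossed homomorphism comparing the two complements
  have hγ : ∀ x g, (π₀ (x * g))⁻¹ * π₁ (x * g)
      = ((π₀ x)⁻¹ * π₁ x) * MulAut.conjNormal x ((π₀ g)⁻¹ * π₁ g) := by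
    intro x g
    rw [hc₀, hc₁, map_mul, map_inv, mul_inv, mul_mul_mul_comm]
  have hγU : ∀ u ∈ U, (π₀ u)⁻¹ * π₁ u = 1 := by
    intro u hu
    have h1 : (π₀ u : G)⁻¹ * u ∈ H₀ ⊓ U :=
      Subgroup.mem_inf.mpr ⟨hπ₀ u, U.mul_mem (U.inv_mem (hKU (π₀ u).2)) hu⟩
    rw [hU] at h1
    rw [hu₁ (π₀ u) u (Subgroup.mem_inf.mp h1).1, inv_mul_cancel]
  obtain ⟨f, hf⟩ := crossed_hom_principal U K hcop (fun g => (π₀ g)⁻¹ * π₁ g) hγ hγU
  have hconj : ∀ h ∈ H₀, (f : G)⁻¹ * h * f ∈ H₁ := by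
    intro h hh
    have h1 : π₀ h = 1 := by
      apply hu₀
      rw [Subgroup.coe_one, inv_one, one_mul]
      exact hh
    have h2 := hf h
    simp only [h1, inv_one, one_mul] at h2
    have h3 := hπ₁ h
    rw [h2, mul_comm f] at h3
    have h4 : (((MulAut.conjNormal h f⁻¹ * f : K) : G))⁻¹ * h = (f : G)⁻¹ * h * f := by
      rw [Subgroup.coe_mul, MulAut.conjNormal_apply, Subgroup.coe_inv]
      group
    rw [h4] at h3
    exact h3
  refine ⟨(f : G)⁻¹, ?_⟩
  have hle : MulAut.conj (f : G)⁻¹ • H₀ ≤ H₁ := by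
    intro x hx
    rw [Subgroup.mem_smul_pointwise_iff_exists] at hx
    obtain ⟨h, hh, rfl⟩ := hx
    have := hconj h hh
    rw [MulAut.smul_def, MulAut.conj_apply, inv_inv]
    exact this
  apply Subgroup.eq_of_le_of_card_ge hle
  have hc1 : Nat.card (MulAut.conj (f : G)⁻¹ • H₀ : Subgroup G) = Nat.card H₀ :=
    (Nat.card_congr (Subgroup.equivSMul (MulAut.conj (f : G)⁻¹) H₀).toEquiv).symm
  rw [hc1]
  have e0 := h₀.card_mul_card
  have e1 := h₁.card_mul_card
  have hpos : 0 < Nat.card K := Nat.card_pos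
  have : Nat.card K * Nat.card H₁ = Nat.card K * Nat.card H₀ := by rw [e0, e1]
  exact (Nat.eq_of_mul_eq_mul_left hpos this).le

end Cfsg.Agent.S0052
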