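import Mathlib
import Cfsg.Statements.S0053

set_option autoImplicit false
open Cfsg

namespace Cfsg.Agent.S0053

/-- An abelian minimal normal subgroup N of a finite group is complemented exactly when N is not inside the Frattini subgroup. -/
theorem result {G : Type*} [Group G] [Finite G]
    (N : Subgroup G) [N.Normal] [IsMulCommutative N] (hN : N ≠ ⊥)
    (hmin : ∀ M : Subgroup G, M.Normal → M ≤ N → M = ⊥ ∨ M = N) :
    (∃ H : Subgroup G, Subgroup.IsComplement' N H) ↔ ¬ N ≤ frattini G := by
  constructor
  · rintro ⟨H, hH⟩ hle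
    have h5 : H ⊔ frattini G = ⊤ := by
      rw [eq_top_iff, ← hH.sup_eq_top, sup_comm]
      exact sup_le_sup_left hle H
    have h6 : H = ⊤ := frattini_nongenerating h5
    have := hH.disjoint
    rw [h6] at this
    exact hN (disjoint_top.mp this)
  · intro hnle
    have : ∃ M : Subgroup G, IsCoatom M ∧ ¬ N ≤ M := by
      by_contra hcon
      push Not at hcon
      apply hnle
      unfold frattini Order.radical
      exact le_iInf₂ hcon
    obtain ⟨M, hM, hNM⟩ := this
    have hsup : N ⊔ M = ⊤ := by
      apply hM.2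
      exact lt_of_le_of_ne le_sup_right (fun h => hNM (h ▸ le_sup_left))
    have hnormal : (N ⊓ M).Normal := by
      constructor
      intro x hx g
      have hg : g ∈ N ⊔ M := by rw [hsup]; exact Subgroup.mem_top g
      obtain ⟨n, hn, m, hm, rfl⟩ := Subgroup.mem_sup_of_normal_left.mp hg
      have h1 : m * x * m⁻¹ ∈ N ⊓ M :=
        ⟨Subgroup.Normal.conj_mem inferInstance x hx.1 m,
          M.mul_mem (M.mul_mem hm hx.2) (M.inv_mem hm)⟩
      have h2 : n * m * x * (n * m)⁻¹ = m * x * m⁻¹ := by
        have hc := setLike_mul_comm (s := N) hn h1.1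
        calc n * m * x * (n * m)⁻¹ = n * (m * x * m⁻¹) * n⁻¹ := by group
          _ = (m * x * m⁻¹) * n * n⁻¹ := by rw [hc]
          _ = m * x * m⁻¹ := by group
      rw [h2]; exact h1
    rcases hmin (N ⊓ M) hnormal inf_le_left with h | h
    · refine ⟨M, Subgroup.isComplement'_of_disjoint_and_mul_eq_univ (disjoint_iff.mpr h) ?_⟩
      rw [← Subgroup.normal_mul, hsup]; rfl
    · exfalso
      exact hNM (h ▸ inf_le_right)

end Cfsg.Agent.S0053
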