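import Mathlib
import Cfsg.Statements.S0054

set_option autoImplicit false
open Cfsg

namespace Cfsg.Agent.S0054

/-- A regular normal subgroup of a finite 2-transitive group is elementary abelian: it is commutative and all its elements have order dividing one prime. -/
theorem result {G : Type*} [Group G] [Finite G]
    {X : Type*} [Nonempty X] [MulAction G X] (h2 : MulAction.IsMultiplyPretransitive G X 2)
    (N : Subgroup G) [N.Normal] (htrans : MulAction.IsPretransitive N X) (hreg : ∀ x : X, MulAction.stabilizer N x = ⊥) :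
    IsMulCommutative N ∧ ∃ p : ℕ, p.Prime ∧ ∀ n ∈ N, n ^ p = 1 := by
  classical
  rw [MulAction.is_two_pretransitive_iff] at h2
  obtain ⟨α⟩ := ‹Nonempty X›
  have hNn : N.Normal := inferInstance
  have hfree : ∀ (x : X) (n : G), n ∈ N → n • x = x → n = 1 := by
    intro x n hn hx
    have : (⟨n, hn⟩ : N) ∈ MulAction.stabilizer N x := by
      rw [MulAction.mem_stabilizer_iff]; exact hx
    rw [hreg x, Subgroup.mem_bot] at this
    exact congrArg Subtype.val this
  have hconj : ∀ n m : G, n ∈ N → m ∈ N → n ≠ 1 → m ≠ 1 → ∃ g : G, g * n * g⁻¹ = m := by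
    intro n m hn hm hn1 hm1
    have h1 : α ≠ n • α := fun h => hn1 (hfree α n hn h.symm)
    have h2' : α ≠ m • α := fun h => hm1 (hfree α m hm h.symm)
    obtain ⟨g, hg1, hg2⟩ := h2 h1 h2'
    refine ⟨g, ?_⟩
    have h3 : (g * n * g⁻¹) • α = m • α := by
      rw [mul_smul, mul_smul]
      have : g⁻¹ • α = α := by rw [inv_smul_eq_iff, hg1]
      rw [this, hg2]
    have h4 : (m⁻¹ * (g * n * g⁻¹)) • α = α := by rw [mul_smul, h3, inv_smul_smul]
    have h5 := hfree α _ (N.mul_mem (N.inv_mem hm) (hNn.conj_mem n hn g)) h4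
    exact (inv_mul_eq_one.1 h5).symm
  by_cases hN : N = ⊥
  · refine ⟨⟨⟨fun a b => ?_⟩⟩, 2, Nat.prime_two, ?_⟩
    · have hbot : ∀ y ∈ N, y = 1 := by
        intro y hy
        rw [hN] at hy
        exact Subgroup.mem_bot.1 hy
      have ha : (a : G) = 1 := hbot a a.2
      have hb : (b : G) = 1 := hbot b b.2
      apply Subtype.ext
      show (a : G) * b = b * a
      rw [ha, hb]
    · intro n hn
      rw [hN, Subgroup.mem_bot] at hn
      rw [hn, one_pow]
  · have hcard : Nat.card N ≠ 1 := fun h => hN (Subgroup.card_eq_one.1 h)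
    obtain ⟨p, hp, hpd⟩ := Nat.exists_prime_and_dvd hcard
    have hfact : Fact p.Prime := ⟨hp⟩
    obtain ⟨x, hx⟩ := exists_prime_orderOf_dvd_card' (G := N) p hpd
    have hxo : orderOf (x : G) = p := by rw [Subgroup.orderOf_coe]; exact hx
    have hx1 : (x : G) ≠ 1 := by
      intro h
      rw [h, orderOf_one] at hxo
      exact hp.one_lt.ne hxo
    have hxp : (x : G) ^ p = 1 := by rw [← hxo]; exact pow_orderOf_eq_one _
    have hall : ∀ n ∈ N, n ^ p = 1 := by
      intro n hn
      by_cases hn1 : n = 1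
      · rw [hn1, one_pow]
      · obtain ⟨g, hg⟩ := hconj x n x.2 hn hx1 hn1
        rw [← hg, conj_pow, hxp]
        group
    have hpN : IsPGroup p N := by
      intro y
      refine ⟨1, ?_⟩
      rw [pow_one]
      apply Subtype.ext
      simpa using hall y y.2
    have hnt : Nontrivial N := (Subgroup.nontrivial_iff_ne_bot N).2 hN
    obtain ⟨z, hz, hz1⟩ : ∃ z : N, z ∈ Subgroup.center N ∧ z ≠ 1 := by
      have := hpN.center_nontrivial
      obtain ⟨⟨z, hz⟩, hz1⟩ := exists_ne (1 : Subgroup.center N)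
      exact ⟨z, hz, fun h => hz1 (Subtype.ext h)⟩
    refine ⟨⟨⟨fun a b => ?_⟩⟩, p, hp, hall⟩
    by_cases ha : a = 1
    · rw [ha]; simp
    · obtain ⟨g, hg⟩ := hconj z a z.2 a.2 (fun h => hz1 (Subtype.ext h))
        (fun h => ha (Subtype.ext h))
      have hzc := Subgroup.mem_center_iff.1 hz
      have h1 := hzc ⟨g⁻¹ * b * g, by
        have := hNn.conj_mem b b.2 g⁻¹
        simpa using this⟩
      have h1' : (g⁻¹ * (b : G) * g) * (z : G) = z * (g⁻¹ * b * g) := congrArg Subtype.val h1
      apply Subtype.ext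
      show (a : G) * b = b * a
      rw [← hg]
      calc g * z * g⁻¹ * b = g * (z * (g⁻¹ * b * g)) * g⁻¹ := by group
        _ = g * ((g⁻¹ * b * g) * z) * g⁻¹ := by rw [h1']
        _ = b * (g * z * g⁻¹) := by group

end Cfsg.Agent.S0054
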