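import Mathlib
import Cfsg.Statements.S0057
import Cfsg.Agent.Lib.Helper91.Coprime2
import Cfsg.Agent.Lib.Helper1.Commutator
import Cfsg.Agent.Lib.Helper1.CoprimeAbelian
import Cfsg.Agent.S0023

set_option autoImplicit false
open Cfsg

namespace Cfsg.Agent.S0057

open scoped commutatorElement

/-- If `C.relIndex P = C.relIndex K` (finite, nonzero) with `P ≤ K`, then `K = P C` as sets. -/
theorem exists_mul_of_relIndex_eq {G : Type*} [Group G] [Finite G] (C P K : Subgroup G)
    (hPK : P ≤ K) (h : C.relIndex P = C.relIndex K) (k : G) (hk : k ∈ K) :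
    ∃ x ∈ P, x⁻¹ * k ∈ C := by
  let e := Subgroup.quotientSubgroupOfEmbeddingOfLE C hPK
  have hbij : Function.Bijective e := by
    apply Function.Injective.bijective_of_nat_card_le e.injective
    have h1 : Nat.card (P ⧸ C.subgroupOf P) = C.relIndex P := (Subgroup.index_eq_card _).symm
    have h2 : Nat.card (K ⧸ C.subgroupOf K) = C.relIndex K := (Subgroup.index_eq_card _).symm
    rw [h1, h2, h]
  obtain ⟨q, hq⟩ := hbij.2 (QuotientGroup.mk (⟨k, hk⟩ : K))
  obtain ⟨x, rfl⟩ := QuotientGroup.mk_surjective q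
  rw [Subgroup.quotientSubgroupOfEmbeddingOfLE_apply_mk, QuotientGroup.eq] at hq
  exact ⟨x, x.2, hq⟩

theorem key {G : Type*} [Group G] [Finite G] (A N : Subgroup G)
    (hAN : A ≤ Subgroup.normalizer (N : Set G))
    (hcop : (Nat.card A).Coprime (Nat.card N)) (hsolv : Group.IsSolvable A ∨ Group.IsSolvable N)
    (hNN : ⁅N, A⁆ = N)
    (p : ℕ) (hp : p.Prime) (hidx : (N ⊓ Subgroup.centralizer (A : Set G)).relIndex N = p) :
    Nat.card N = p := by
  have : Fact p.Prime := ⟨hp⟩
  set C : Subgroup G := N ⊓ Subgroup.centralizer (A : Set G) with hC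
  have hCN : C ≤ N := inf_le_left
  have hCA : C ≤ Subgroup.centralizer (A : Set G) := inf_le_right
  obtain ⟨P, hPA⟩ := Cfsg.Agent.S0023.result A N hAN hcop hsolv p
  set P' : Subgroup G := (P : Subgroup N).map N.subtype with hP'
  have hP'N : P' ≤ N := by rw [hP']; exact Subgroup.map_subtype_le _
  have hP'p : IsPGroup p P' := P.isPGroup'.map N.subtype
  -- `C.relIndex P' = p`
  have hle : C.relIndex P' ≤ p := by
    rw [← hidx]
    exact Subgroup.relIndex_le_of_le_right hP'N (by rw [hidx]; exact hp.ne_zero)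
  obtain ⟨n, hn⟩ := hP'p.index (C.subgroupOf P')
  have hn' : C.relIndex P' = p ^ n := hn
  have hne1 : C.relIndex P' ≠ 1 := by
    intro h1
    rw [Subgroup.relIndex_eq_one] at h1
    have h2 : P'.relIndex C * C.relIndex N = P'.relIndex N :=
      Subgroup.relIndex_mul_relIndex _ _ _ h1 hCN
    have h3 : P'.relIndex N = (P : Subgroup N).index := by
      unfold Subgroup.relIndex Subgroup.subgroupOf
      rw [hP', Subgroup.comap_map_eq_self_of_injective N.subtype_injective]
    have h4 : p ∣ (P : Subgroup N).index := by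
      rw [← h3, ← h2, hidx]; exact dvd_mul_left _ _
    exact P.not_dvd_index h4
  have hrel : C.relIndex P' = p := by
    rw [hn'] at hle hne1 ⊢
    rcases Nat.lt_or_ge 1 n with h | h
    · exfalso
      have : p ^ 2 ≤ p ^ n := Nat.pow_le_pow_right hp.pos h
      have h2 : p * p ≤ p := by rw [← sq]; exact this.trans hle
      have := hp.two_le
      nlinarith
    · interval_cases n
      · simp at hne1
      · simp
  -- `N ≤ P'`
  have hNP : N ≤ P' := by
    rw [← hNN, Subgroup.commutator_le]
    intro k hk a ha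
    obtain ⟨x, hx, hxc⟩ := exists_mul_of_relIndex_eq C P' N hP'N (by rw [hrel, hidx]) k hk
    have hc : a * (x⁻¹ * k) = (x⁻¹ * k) * a := (Subgroup.mem_centralizer_iff.mp (hCA hxc)) a ha
    have h1 : ⁅k, a⁆ = x * (a * x⁻¹ * a⁻¹) := by
      have hk' : k = x * (x⁻¹ * k) := by group
      rw [commutatorElement_def]
      have e1 : k * a = x * (a * (x⁻¹ * k)) := by
        rw [hc]; group
      have e2 : k * a * k⁻¹ * a⁻¹ = x * (a * (x⁻¹ * k)) * k⁻¹ * a⁻¹ := by rw [e1]
      rw [e2]; group
    rw [h1]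
    exact P'.mul_mem hx ((Subgroup.mem_normalizer_iff.mp (hPA ha) _).mp (P'.inv_mem hx))
  have hNeq : N = P' := le_antisymm hNP hP'N
  have hNp : IsPGroup p N := by rw [hNeq]; exact hP'p
  -- `C` is normal in `N`
  have hcardN : Nat.card N = Nat.card C * C.relIndex N :=
    Cfsg.Agent.Lib.Helper1.card_eq_card_mul_relIndex hCN
  have hCnormal : (C.subgroupOf N).Normal := by
    apply Subgroup.normal_of_index_eq_minFac_card
    obtain ⟨m, hm⟩ := IsPGroup.iff_card.mp hNp
    have hm0 : m ≠ 0 := by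
      rintro rfl
      rw [pow_zero] at hm
      rw [hm, hidx] at hcardN
      have : p ∣ 1 := by rw [hcardN]; exact dvd_mul_left _ _
      exact hp.one_lt.ne' (Nat.dvd_one.mp this)
    rw [hm, hp.pow_minFac hm0]
    exact hidx
  have hNC : N ≤ Subgroup.normalizer (C : Set G) :=
    (Subgroup.normal_subgroupOf_iff_le_normalizer hCN).mp hCnormal
  -- three subgroups lemma: `N` centralises `C`
  have h1 : ⁅⁅A, C⁆, N⁆ = ⊥ := by
    have : ⁅A, C⁆ = ⊥ := by
      rw [Subgroup.commutator_comm, Subgroup.commutator_eq_bot_iff_le_centralizer]; exact hCA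
    rw [this, Subgroup.commutator_bot_left]
  have h2 : ⁅⁅C, N⁆, A⁆ = ⊥ := by
    have hCNle : ⁅C, N⁆ ≤ C := by
      rw [Subgroup.commutator_le]
      intro c hc k hk
      have h3 : k * c⁻¹ * k⁻¹ ∈ C := (Subgroup.mem_normalizer_iff.mp (hNC hk) _).mp (C.inv_mem hc)
      have : ⁅c, k⁆ = c * (k * c⁻¹ * k⁻¹) := by rw [commutatorElement_def]; group
      rw [this]; exact C.mul_mem hc h3
    have h4 : ⁅C, A⁆ = ⊥ := by
      rw [Subgroup.commutator_eq_bot_iff_le_centralizer]; exact hCA
    rw [eq_bot_iff, ← h4]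
    exact Subgroup.commutator_mono hCNle le_rfl
  have h3 : ⁅⁅N, A⁆, C⁆ = ⊥ := Subgroup.commutator_commutator_eq_bot_of_rotate h1 h2
  rw [hNN, Subgroup.commutator_eq_bot_iff_le_centralizer] at h3
  -- `N` is abelian
  have hcyc : IsCyclic (N ⧸ C.subgroupOf N) := by
    apply isCyclic_of_prime_card (p := p)
    rw [← Subgroup.index_eq_card]; exact hidx
  have hcomm : IsMulCommutative N := by
    apply (QuotientGroup.mk' (C.subgroupOf N)).isMulCommutative_of_isCyclic_of_ker_le_center
    rw [QuotientGroup.ker_mk']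
    intro c hc
    rw [Subgroup.mem_center_iff]
    intro k
    have := Subgroup.mem_centralizer_iff.mp (h3 k.2) (c : G) hc
    exact Subtype.ext this.symm
  have h5 := Cfsg.Agent.Lib.Helper1.abelian_centralizer_inf_commutator A N hAN hcop
  rw [hNN, ← hC, inf_of_le_left hCN] at h5
  rw [hcardN, hidx, h5, Subgroup.card_bot, one_mul]

/-- Under coprime action, if the centraliser of A in K has prime index p in K then the commutator subgroup [K, A] has order exactly p. -/
theorem result {G : Type*} [Group G] [Finite G] (A K : Subgroup G) (hAK : A ≤ Subgroup.normalizer (K : Set G))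
    (hcop : (Nat.card A).Coprime (Nat.card K)) (hsolv : Group.IsSolvable A ∨ Group.IsSolvable K)
    (p : ℕ) (hp : p.Prime) (hidx : (K ⊓ Subgroup.centralizer (A : Set G)).relIndex K = p) :
    Nat.card (⁅K, A⁆ : Subgroup G) = p := by
  set N : Subgroup G := ⁅K, A⁆ with hN
  set C : Subgroup G := K ⊓ Subgroup.centralizer (A : Set G) with hC
  have hNK : N ≤ K := Cfsg.Agent.Lib.Helper1.commutator_le_of_le_normalizer hAK
  have hAN : A ≤ Subgroup.normalizer (N : Set G) :=
    Cfsg.Agent.Lib.Helper1.le_normalizer_commutator_right K A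
  have hKN : K ≤ Subgroup.normalizer (N : Set G) :=
    Cfsg.Agent.Lib.Helper1.le_normalizer_commutator_left K A
  have hNN : ⁅N, A⁆ = N := Cfsg.Agent.Lib.Helper1.coprime_commutator_commutator A K hAK hcop hsolv
  have hsup : N ⊔ C = K := Cfsg.Agent.Lib.Helper1.coprime_commutator_sup_centralizer A K hAK hcop hsolv
  have hcopN : (Nat.card A).Coprime (Nat.card N) :=
    Nat.Coprime.coprime_dvd_right (Subgroup.card_dvd_of_le hNK) hcop
  have hsolvN : Group.IsSolvable A ∨ Group.IsSolvable N := by
    rcases hsolv with h | h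
    · exact Or.inl h
    · exact Or.inr (Group.isSolvable_of_isSolvable_injective (Subgroup.inclusion_injective hNK))
  apply key A N hAN hcopN hsolvN hNN p hp
  have hCK : C ≤ K := inf_le_left
  have hinf : N ⊓ Subgroup.centralizer (A : Set G) = N ⊓ C := by
    rw [hC, ← inf_assoc, inf_of_le_left hNK]
  rw [hinf]
  have e1 := Cfsg.Agent.Lib.Helper91.card_sup_mul_card_inf_of_le_normalizer N C (hCK.trans hKN)
  rw [hsup] at e1
  have e2 : Nat.card K = Nat.card C * C.relIndex K :=
    Cfsg.Agent.Lib.Helper1.card_eq_card_mul_relIndex hCK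
  have e3 : Nat.card N = Nat.card (N ⊓ C : Subgroup G) * (N ⊓ C).relIndex N :=
    Cfsg.Agent.Lib.Helper1.card_eq_card_mul_relIndex inf_le_left
  rw [hidx] at e2
  rw [e2, e3] at e1
  have hpos1 : 0 < Nat.card C := Nat.card_pos
  have hpos2 : 0 < Nat.card (N ⊓ C : Subgroup G) := Nat.card_pos
  have e4 : Nat.card C * Nat.card (N ⊓ C : Subgroup G) * p =
      Nat.card C * Nat.card (N ⊓ C : Subgroup G) * (N ⊓ C).relIndex N := by
    calc Nat.card C * Nat.card (N ⊓ C : Subgroup G) * p
        = Nat.card C * p * Nat.card (N ⊓ C : Subgroup G) := by ring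
      _ = Nat.card (N ⊓ C : Subgroup G) * (N ⊓ C).relIndex N * Nat.card C := e1
      _ = _ := by ring
  exact (Nat.eq_of_mul_eq_mul_left (Nat.mul_pos hpos1 hpos2) e4).symm

end Cfsg.Agent.S0057
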