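import Mathlib
import Cfsg.Statements.S0059
import Cfsg.Agent.Lib.Helper1.SZInternal

set_option autoImplicit false
open Cfsg

namespace Cfsg.Agent.S0059

open Cfsg.Agent.Lib.Helper1 Pointwise in
/-- Let a finite group act on a set on which a normal subgroup K of coprime order and index is transitive, with K or the quotient solvable. Then any complement H of K has a fixed point, and any two H-fixed points are interchanged by an element of K centralising H. -/
theorem result {G : Type*} [Group G] [Finite G] {X : Type*} [Nonempty X] [MulAction G X]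
    (K H : Subgroup G) [K.Normal] (hc : Subgroup.IsComplement' K H) (hcop : (Nat.card K).Coprime K.index)
    (hsolv : Group.IsSolvable K ∨ Group.IsSolvable (G ⧸ K)) (htrans : MulAction.IsPretransitive K X) :
    (∃ x : X, ∀ h ∈ H, h • x = x) ∧
    ∀ x y : X, (∀ h ∈ H, h • x = x) → (∀ h ∈ H, h • y = y) → ∃ k ∈ K ⊓ Subgroup.centralizer (H : Set G), k • x = y := by
  have hcardH : Nat.card H = K.index := hc.symm.index_eq_card.symm
  have hnormN : ∀ M : Subgroup G, M ≤ Subgroup.normalizer ((K ⊓ M : Subgroup G) : Set G) := by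
    intro M
    rw [Subgroup.le_normalizer_iff]
    intro m hm n hn
    exact Subgroup.mem_inf.mpr ⟨Subgroup.Normal.conj_mem inferInstance n (Subgroup.mem_inf.mp hn).1 m,
      M.mul_mem (M.mul_mem hm (Subgroup.mem_inf.mp hn).2) (M.inv_mem hm)⟩
  constructor
  · obtain ⟨x₀⟩ : Nonempty X := inferInstance
    set M : Subgroup G := MulAction.stabilizer G x₀ with hM
    have hsup : K ⊔ M = ⊤ := by
      rw [eq_top_iff]
      intro g _
      obtain ⟨k, hk⟩ := MulAction.exists_smul_eq K x₀ (g • x₀)
      have hk' : (k : G) • x₀ = g • x₀ := hk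
      have h1 : (k : G)⁻¹ * g ∈ M := by
        rw [hM, MulAction.mem_stabilizer_iff, mul_smul, ← hk', inv_smul_smul]
      have : g = (k : G) * ((k : G)⁻¹ * g) := by group
      rw [this]
      exact Subgroup.mul_mem_sup k.2 h1
    have hrel : (K ⊓ M).relIndex M = K.index := by
      rw [Subgroup.inf_relIndex_right, ← Subgroup.relIndex_sup_left, hsup,
        Subgroup.relIndex_top_right]
    obtain ⟨B, hBM, hcardB⟩ := sz_exists_internal M (K ⊓ M) inf_le_right (hnormN M)
      (by rw [hrel]; exact hcop.coprime_dvd_left (Subgroup.card_dvd_of_le inf_le_left))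
    rw [hrel] at hcardB
    obtain ⟨g, hg⟩ := sz_conj_card K hcop hsolv B H hcardB hcardH
    refine ⟨g • x₀, ?_⟩
    intro h hh
    rw [← hg, mem_conj_smul] at hh
    have h1 := hBM hh
    rw [hM, MulAction.mem_stabilizer_iff, mul_smul, mul_smul] at h1
    calc h • g • x₀ = g • (g⁻¹ • h • g • x₀) := by rw [smul_inv_smul]
      _ = g • x₀ := by rw [h1]
  · intro x y hx hy
    obtain ⟨k, hk⟩ := MulAction.exists_smul_eq K x y
    have hk' : (k : G) • x = y := hk
    set M : Subgroup G := MulAction.stabilizer G x with hM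
    set H₁ : Subgroup G := MulAut.conj (k : G)⁻¹ • H with hH₁
    have hHM : H ≤ M := fun h hh => MulAction.mem_stabilizer_iff.mpr (hx h hh)
    have hH₁M : H₁ ≤ M := by
      intro z hz
      rw [hH₁, mem_conj_smul] at hz
      rw [hM, MulAction.mem_stabilizer_iff]
      have h1 := hy _ hz
      rw [← hk', smul_smul] at h1
      have h2 : z • x = (k : G)⁻¹ • (((k : G)⁻¹⁻¹ * z * (k : G)⁻¹ * (k : G)) • x) := by
        rw [smul_smul]; congr 1; group
      rw [h2, h1, inv_smul_smul]
    set N : Subgroup G := K ⊓ M with hN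
    have hHN : H ≤ Subgroup.normalizer (N : Set G) := hHM.trans (hnormN M)
    have hcopHN : (Nat.card H).Coprime (Nat.card N) := by
      rw [hcardH]
      exact (hcop.coprime_dvd_left (Subgroup.card_dvd_of_le inf_le_left)).symm
    have hsolv' : Group.IsSolvable H ∨ Group.IsSolvable N := by
      rcases hsolv with h | h
      · exact Or.inr (isSolvable_of_le inf_le_left h)
      · exact Or.inl (isSolvable_of_isComplement' K H hc h)
    have hMle : M ≤ N ⊔ H := by
      intro m hm
      obtain ⟨k', hk'K, h, hh, rfl⟩ := exists_mul_of_isComplement' hc m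
      have hk'M : k' ∈ M := by
        have : k' = (k' * h) * h⁻¹ := by group
        rw [this]; exact M.mul_mem hm (M.inv_mem (hHM hh))
      exact Subgroup.mul_mem_sup (Subgroup.mem_inf.mpr ⟨hk'K, hk'M⟩) hh
    obtain ⟨n, hn, hconj⟩ := sz_conj_internal N H H₁ hHN hcopHN hsolv' (hH₁M.trans hMle)
      (card_conj_smul H _)
    have hnK : n ∈ K := (Subgroup.mem_inf.mp hn).1
    have hnM : n ∈ M := (Subgroup.mem_inf.mp hn).2
    have hcK : (k : G) * n⁻¹ ∈ K := K.mul_mem k.2 (K.inv_mem hnK)
    refine ⟨(k : G) * n⁻¹, Subgroup.mem_inf.mpr ⟨hcK, ?_⟩, ?_⟩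
    · rw [Subgroup.mem_centralizer_iff]
      intro h hh
      have hwH : n * (k : G)⁻¹ * h * (k : G) * n⁻¹ * h⁻¹ ∈ H := by
        have h1 : n * (k : G)⁻¹ * h * (k : G) * n⁻¹ ∈ H := by
          rw [← hconj, mem_conj_smul, hH₁, mem_conj_smul]
          have : (k : G)⁻¹⁻¹ * (n⁻¹ * (n * (k : G)⁻¹ * h * (k : G) * n⁻¹) * n) * (k : G)⁻¹ = h := by
            group
          rw [this]; exact hh
        exact H.mul_mem h1 (H.inv_mem hh)
      have hwK : n * (k : G)⁻¹ * h * (k : G) * n⁻¹ * h⁻¹ ∈ K := by
        have h1 : h * ((k : G) * n⁻¹) * h⁻¹ ∈ K := Subgroup.Normal.conj_mem inferInstance _ hcK h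
        have : n * (k : G)⁻¹ * h * (k : G) * n⁻¹ * h⁻¹
            = ((k : G) * n⁻¹)⁻¹ * (h * ((k : G) * n⁻¹) * h⁻¹) := by group
        rw [this]; exact K.mul_mem (K.inv_mem hcK) h1
      have hd := hc.disjoint
      rw [Subgroup.disjoint_def] at hd
      have hw1 := hd hwK hwH
      have : h * ((k : G) * n⁻¹)
          = ((k : G) * n⁻¹) * (n * (k : G)⁻¹ * h * (k : G) * n⁻¹ * h⁻¹) * h := by group
      rw [this, hw1]; group
    · rw [mul_smul]
      have : n⁻¹ • x = x := by
        have := M.inv_mem hnM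
        rwa [hM, MulAction.mem_stabilizer_iff] at this
      rw [this]; exact hk'

end Cfsg.Agent.S0059
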