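-- Statement S0060 (Brodkey): abelian Sylow p-subgroups and trivial p-core give two Sylows meeting trivially.
import Mathlib
import Cfsg.Statements.S0060

set_option autoImplicit false
open Pointwise
open Cfsg

namespace Cfsg.Agent.S0060

theorem mem_conj_smul {G : Type*} [Group G] (g x : G) (H : Subgroup G) :
    x ∈ MulAut.conj g • H ↔ g⁻¹ * x * g ∈ H := by
  rw [Subgroup.mem_pointwise_smul_iff_inv_smul_mem]
  simp [MulAut.smul_def]

theorem card_conj_smul {G : Type*} [Group G] (g : G) (H : Subgroup G) :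
    Nat.card ↥(MulAut.conj g • H) = Nat.card ↥H :=
  (Nat.card_congr (Subgroup.equivSMul (MulAut.conj g) H).toEquiv).symm

/-- Brodkey's Theorem: in a finite group with abelian Sylow p-subgroups and no nontrivial normal p-subgroup, some conjugate of a Sylow p-subgroup meets it trivially. -/
theorem result {G : Type*} [Group G] [Finite G] (p : ℕ) [Fact p.Prime]
    (S : Sylow p G) (hS : IsMulCommutative S) (hOp : Cfsg.pCore p G = ⊥) :
    ∃ g : G, (S : Subgroup G) ⊓ MulAut.conj g • (S : Subgroup G) = ⊥ := by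
  classical
  have cS : ∀ {a b : G}, a ∈ (S : Subgroup G) → b ∈ (S : Subgroup G) → a * b = b * a := by
    intro a b ha hb
    have := hS.is_comm.comm ⟨a, ha⟩ ⟨b, hb⟩
    exact congrArg Subtype.val this
  -- minimal intersection
  obtain ⟨g, hg⟩ := Finite.exists_min (fun y : G => Nat.card ↥((S : Subgroup G) ⊓ MulAut.conj y • (S : Subgroup G)))
  refine ⟨g, ?_⟩
  set D : Subgroup G := (S : Subgroup G) ⊓ MulAut.conj g • (S : Subgroup G) with hD
  set T : Subgroup G := MulAut.conj g • (S : Subgroup G) with hT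
  have hDS : D ≤ (S : Subgroup G) := inf_le_left
  have hDT : D ≤ T := inf_le_right
  have cT : ∀ {a b : G}, a ∈ T → b ∈ T → a * b = b * a := by
    intro a b ha hb
    rw [hT, mem_conj_smul] at ha hb
    have := cS ha hb
    have e1 : a * b = g * ((g⁻¹ * a * g) * (g⁻¹ * b * g)) * g⁻¹ := by group
    have e2 : b * a = g * ((g⁻¹ * b * g) * (g⁻¹ * a * g)) * g⁻¹ := by group
    rw [e1, e2, this]
  set N : Subgroup G := Subgroup.normalizer (D : Set G) with hN
  have hSN : (S : Subgroup G) ≤ N := by
    intro s hs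
    apply Subgroup.centralizer_le_normalizer
    rw [Subgroup.mem_centralizer_iff]
    intro h hh
    exact cS (hDS hh) hs
  have hTN : T ≤ N := by
    intro s hs
    apply Subgroup.centralizer_le_normalizer
    rw [Subgroup.mem_centralizer_iff]
    intro h hh
    exact cT (hDT hh) hs
  -- main claim: D lies in every conjugate of S
  have main : ∀ x : G, D ≤ MulAut.conj x • (S : Subgroup G) := by
    intro x
    set Q : Subgroup G := MulAut.conj x • (S : Subgroup G) with hQ
    have hQp : IsPGroup p Q := by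
      have : IsPGroup p ((x • S : Sylow p G) : Subgroup G) := (x • S : Sylow p G).isPGroup'
      exact this
    -- Q ⊓ N as a p-subgroup of N lies in an N-conjugate of S
    have hQN : IsPGroup p ((Q ⊓ N).subgroupOf N) := by
      have h1 : IsPGroup p ↥(Q ⊓ N) := hQp.to_le inf_le_left
      exact h1.comap_subtype
    obtain ⟨R, hR⟩ := hQN.exists_le_sylow
    obtain ⟨n, hn⟩ := MulAction.exists_smul_eq N R (S.subtype hSN)
    have key : ∀ y : G, y ∈ Q → y ∈ N → (n : G) * y * (n : G)⁻¹ ∈ (S : Subgroup G) := by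
      intro y hyQ hyN
      have h1 : (⟨y, hyN⟩ : N) ∈ (R : Subgroup N) := hR (by
        rw [Subgroup.mem_subgroupOf]; exact ⟨hyQ, hyN⟩)
      have h2 : n * ⟨y, hyN⟩ * n⁻¹ ∈ ((n • R : Sylow p N) : Subgroup N) := by
        rw [Sylow.coe_subgroup_smul]
        rw [mem_conj_smul]
        have : n⁻¹ * (n * ⟨y, hyN⟩ * n⁻¹) * n = ⟨y, hyN⟩ := by group
        rw [this]; exact h1
      rw [hn, Sylow.coe_subtype, Subgroup.mem_subgroupOf] at h2
      exact h2
    -- E = T ⊓ conj n • Q ≤ D
    set E : Subgroup G := T ⊓ MulAut.conj (n : G) • Q with hE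
    have hED : E ≤ D := by
      intro e he
      obtain ⟨heT, heQ⟩ := Subgroup.mem_inf.mp he
      rw [mem_conj_smul] at heQ
      have heN : (n : G)⁻¹ * e * (n : G) ∈ N := N.mul_mem (N.mul_mem (N.inv_mem n.2) (hTN heT)) n.2
      have h3 := key _ heQ heN
      have : (n : G) * ((n : G)⁻¹ * e * (n : G)) * (n : G)⁻¹ = e := by group
      rw [this] at h3
      exact Subgroup.mem_inf.mpr ⟨h3, heT⟩
    have hEcard : Nat.card ↥D ≤ Nat.card ↥E := by
      have e1 : E = MulAut.conj g • ((S : Subgroup G) ⊓ MulAut.conj (g⁻¹ * (n : G) * x) • (S : Subgroup G)) := by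
        rw [Subgroup.smul_inf, hE, hT, hQ, ← mul_smul, ← mul_smul, ← map_mul, ← map_mul]
        congr 3
        group
      rw [e1, card_conj_smul]
      exact hg _
    have hEeq : E = D := Subgroup.eq_of_le_of_card_ge hED hEcard
    intro d hd
    -- n d n⁻¹ ∈ D = E ≤ conj n • Q
    have hnd : (n : G) * d * (n : G)⁻¹ ∈ D := by
      have := (Subgroup.mem_normalizer_iff.mp n.2 d).mp hd
      exact this
    rw [← hEeq] at hnd
    have := (Subgroup.mem_inf.mp hnd).2
    rw [mem_conj_smul] at this
    have e : (n : G)⁻¹ * ((n : G) * d * (n : G)⁻¹) * (n : G) = d := by group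
    rw [e] at this
    exact this
  -- D lies in the normal core of S, which is a normal p-subgroup
  have hcore : D ≤ (S : Subgroup G).normalCore := by
    intro d hd b
    have := main b⁻¹ hd
    rw [mem_conj_smul, inv_inv] at this
    exact this
  have hle : (S : Subgroup G).normalCore ≤ Cfsg.pCore p G := by
    apply le_sSup
    exact ⟨inferInstance, S.isPGroup'.to_le (Subgroup.normalCore_le _)⟩
  rw [hOp] at hle
  exact eq_bot_iff.mpr (hcore.trans hle)

end Cfsg.Agent.S0060
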