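-- Statement S0061: groups of order p^m * q are solvable.
import Mathlib
import Cfsg.Statements.S0061

set_option autoImplicit false
open Cfsg

namespace Cfsg.Agent.S0061

universe u

section lemmas

variable {G : Type u} [Group G] [Finite G]

lemma solvable_of_card_pow (r k : ℕ) (hr : r.Prime)
    (h : Nat.card G = r ^ k) : Group.IsSolvable G := by
  have : Fact r.Prime := ⟨hr⟩
  have h1 : IsPGroup r G := IsPGroup.of_card h
  have : Group.IsNilpotent G := h1.isNilpotent
  infer_instance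

/-- The order of a Sylow `p`-subgroup of a group of order `p ^ m * q`. -/
lemma card_sylow_eq (p q m : ℕ) [Fact p.Prime] (hq : q.Prime) (hpq : p ≠ q)
    (hG : Nat.card G = p ^ m * q) (P : Sylow p G) : Nat.card P = p ^ m := by
  have hp : p.Prime := Fact.out
  rw [Sylow.card_eq_multiplicity, hG,
    Nat.factorization_mul (pow_ne_zero _ hp.ne_zero) hq.ne_zero,
    Nat.Prime.factorization_pow hp, Nat.Prime.factorization hq]
  simp [hpq]

/-- An element of a Sylow `p`-subgroup killed by a prime `q ≠ p` is trivial. -/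
lemma eq_one_of_mem_sylow (p q : ℕ) [Fact p.Prime] (hq : q.Prime) (hpq : p ≠ q)
    (P : Sylow p G) (g : G) (hg : g ∈ (P : Subgroup G)) (hgq : g ^ q = 1) : g = 1 := by
  have hp : p.Prime := Fact.out
  obtain ⟨k, hk⟩ := P.isPGroup' ⟨g, hg⟩
  have hk' : g ^ (p ^ k) = 1 := by
    have := congrArg Subtype.val hk
    simpa using this
  have h1 : orderOf g ∣ p ^ k := orderOf_dvd_of_pow_eq_one hk'
  have h2 : orderOf g ∣ q := orderOf_dvd_of_pow_eq_one hgq
  have hcop : Nat.Coprime (p ^ k) q := Nat.Coprime.pow_left k ((Nat.coprime_primes hp hq).mpr hpq)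
  have h3 := Nat.dvd_gcd h1 h2
  rw [hcop.gcd_eq_one] at h3
  exact orderOf_eq_one_iff.mp (Nat.dvd_one.mp h3)

/-- In a Sylow subgroup, a proper subgroup is properly contained in its normaliser. -/
lemma exists_normalizing (p : ℕ) [Fact p.Prime] (P : Sylow p G) (D : Subgroup G)
    (hDP : D ≤ P) (hne : D ≠ P) :
    ∃ x ∈ (P : Subgroup G), x ∉ D ∧ x ∈ Subgroup.normalizer (D : Set G) := by
  have hnil : Group.IsNilpotent (P : Subgroup G) := P.isPGroup'.isNilpotent
  have hcond : NormalizerCondition (P : Subgroup G) := normalizerCondition_of_isNilpotent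
  have hlt : D.subgroupOf P < ⊤ := by
    rw [lt_top_iff_ne_top, Ne, Subgroup.subgroupOf_eq_top]
    intro h
    exact hne (le_antisymm hDP h)
  obtain ⟨x, hx1, hx2⟩ := SetLike.exists_of_lt (hcond _ hlt)
  refine ⟨x.1, x.2, ?_, ?_⟩
  · intro h
    exact hx2 (Subgroup.mem_subgroupOf.mpr h)
  · rw [Subgroup.mem_normalizer_iff] at hx1 ⊢
    intro h
    constructor
    · intro hh
      have := (hx1 ⟨h, hDP hh⟩).mp (Subgroup.mem_subgroupOf.mpr hh)
      exact Subgroup.mem_subgroupOf.mp this
    · intro hh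
      have hP : h ∈ (P : Subgroup G) := by
        have h1 : h = x.1⁻¹ * (x.1 * h * x.1⁻¹) * x.1 := by group
        rw [h1]
        exact mul_mem (mul_mem (inv_mem x.2) (hDP hh)) x.2
      have := (hx1 ⟨h, hP⟩).mpr (Subgroup.mem_subgroupOf.mpr hh)
      exact Subgroup.mem_subgroupOf.mp this

/-- Case of a nontrivial maximal Sylow intersection: its normal closure is a nontrivial normal
`p`-subgroup. -/
lemma exists_normal_of_inter (p q m : ℕ) [Fact p.Prime] (hq : q.Prime) (hpq : p ≠ q)
    (hG : Nat.card G = p ^ m * q) (P1 P2 : Sylow p G) (hne : P1 ≠ P2)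
    (hD : (P1 : Subgroup G) ⊓ P2 ≠ ⊥)
    (hmax : ∀ P3 P4 : Sylow p G, P3 ≠ P4 →
      Nat.card ((P3 : Subgroup G) ⊓ P4 : Subgroup G)
        ≤ Nat.card ((P1 : Subgroup G) ⊓ P2 : Subgroup G)) :
    ∃ N : Subgroup G, N.Normal ∧ N ≠ ⊥ ∧ IsPGroup p N := by
  have hp : p.Prime := Fact.out
  have hqf : Fact q.Prime := ⟨hq⟩
  have hD1 : (P1 : Subgroup G) ⊓ P2 ≤ P1 := inf_le_left
  have hD2 : (P1 : Subgroup G) ⊓ P2 ≤ P2 := inf_le_right
  have hcard1 := card_sylow_eq p q m hq hpq hG P1
  have hcard2 := card_sylow_eq p q m hq hpq hG P2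
  have hDne1 : (P1 : Subgroup G) ⊓ P2 ≠ P1 := by
    intro h
    have h1 : (P1 : Subgroup G) ≤ P2 := by
      rw [← h]
      exact inf_le_right
    have h2 : (P1 : Subgroup G) = P2 :=
      Subgroup.eq_of_le_of_card_ge h1 (by
        change Nat.card P2 ≤ Nat.card P1
        rw [hcard1, hcard2])
    exact hne (Sylow.ext h2)
  have hDne2 : (P1 : Subgroup G) ⊓ P2 ≠ P2 := by
    intro h
    have h1 : (P2 : Subgroup G) ≤ P1 := by
      rw [← h]
      exact inf_le_left
    have h2 : (P2 : Subgroup G) = P1 :=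
      Subgroup.eq_of_le_of_card_ge h1 (by
        change Nat.card P1 ≤ Nat.card P2
        rw [hcard1, hcard2])
    exact hne (Sylow.ext h2.symm)
  obtain ⟨x1, hx1P, hx1D, hx1N⟩ := exists_normalizing p P1 _ hD1 hDne1
  obtain ⟨x2, hx2P, hx2D, hx2N⟩ := exists_normalizing p P2 _ hD2 hDne2
  generalize hDdef : (P1 : Subgroup G) ⊓ P2 = D at *
  -- the normaliser is not a p-group
  have hnotp : ¬ IsPGroup p (Subgroup.normalizer (D : Set G)) := by
    intro hNp
    obtain ⟨P3, hP3⟩ := hNp.exists_le_sylow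
    have hDP3 : D ≤ P3 := le_trans Subgroup.le_normalizer hP3
    have h31 : P3 = P1 := by
      by_contra h
      have hle : D ≤ (P3 : Subgroup G) ⊓ P1 := le_inf hDP3 hD1
      have heq : D = (P3 : Subgroup G) ⊓ P1 := Subgroup.eq_of_le_of_card_ge hle (hmax P3 P1 h)
      apply hx1D
      rw [heq]
      exact ⟨hP3 hx1N, hx1P⟩
    have h32 : P3 = P2 := by
      by_contra h
      have hle : D ≤ (P3 : Subgroup G) ⊓ P2 := le_inf hDP3 hD2
      have heq : D = (P3 : Subgroup G) ⊓ P2 := Subgroup.eq_of_le_of_card_ge hle (hmax P3 P2 h)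
      apply hx2D
      rw [heq]
      exact ⟨hP3 hx2N, hx2P⟩
    exact hne (h31.symm.trans h32)
  have hqdvd : q ∣ Nat.card (Subgroup.normalizer (D : Set G)) := by
    by_contra hnd
    apply hnotp
    have hcop : Nat.Coprime (Nat.card (Subgroup.normalizer (D : Set G))) q :=
      ((Nat.Prime.coprime_iff_not_dvd hq).mpr hnd).symm
    have hdvd : Nat.card (Subgroup.normalizer (D : Set G)) ∣ p ^ m * q := by
      rw [← hG]
      exact Subgroup.card_subgroup_dvd_card _
    have hdvd' : Nat.card (Subgroup.normalizer (D : Set G)) ∣ p ^ m :=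
      hcop.dvd_of_dvd_mul_right hdvd
    obtain ⟨k, -, hk⟩ := (Nat.dvd_prime_pow hp).mp hdvd'
    exact IsPGroup.of_card hk
  obtain ⟨x, hx⟩ := exists_prime_orderOf_dvd_card' q hqdvd
  have hxo : orderOf (x : G) = q := by rw [Subgroup.orderOf_coe, hx]
  have hcompl : Subgroup.IsComplement' (P1 : Subgroup G) (Subgroup.zpowers (x : G)) := by
    apply Subgroup.isComplement'_of_coprime
    · rw [Nat.card_zpowers, hxo, hG]
      congr 1
    · rw [Nat.card_zpowers, hxo]
      change Nat.Coprime (Nat.card P1) q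
      rw [hcard1]
      exact Nat.Coprime.pow_left m ((Nat.coprime_primes hp hq).mpr hpq)
  refine ⟨Subgroup.normalClosure (D : Set G), Subgroup.normalClosure_normal, ?_, ?_⟩
  · intro h
    apply hD
    rw [eq_bot_iff, ← h]
    exact Subgroup.le_normalClosure
  · apply IsPGroup.to_le P1.isPGroup'
    change Subgroup.closure (Group.conjugatesOfSet (D : Set G)) ≤ P1
    rw [Subgroup.closure_le]
    intro a ha
    obtain ⟨d, hd, hconj⟩ := Group.mem_conjugatesOfSet_iff.mp ha
    obtain ⟨c, hc⟩ := isConj_iff.mp hconj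
    obtain ⟨⟨⟨y, hy⟩, ⟨z, hz⟩⟩, hyz, -⟩ := hcompl.existsUnique c
    have hyz' : y * z = c := hyz
    have hzN : z ∈ Subgroup.normalizer (D : Set G) := by
      obtain ⟨i, rfl⟩ := Subgroup.mem_zpowers_iff.mp hz
      exact zpow_mem x.2 i
    have hzd : z * d * z⁻¹ ∈ D := (Subgroup.mem_normalizer_iff.mp hzN d).mp hd
    have h1 : a = y * (z * d * z⁻¹) * y⁻¹ := by
      rw [← hc, ← hyz']
      group
    rw [h1]
    exact mul_mem (mul_mem hy (hD1 hzd)) (inv_mem hy)

/-- Case of pairwise trivially intersecting Sylow `p`-subgroups: a normal subgroup of order `q`. -/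
lemma exists_normal_of_TI (p q m : ℕ) [Fact p.Prime] (hq : q.Prime) (hpq : p ≠ q)
    (hG : Nat.card G = p ^ m * q) (hn : Nat.card (Sylow p G) = q)
    (hTI : ∀ P1 P2 : Sylow p G, P1 ≠ P2 → (P1 : Subgroup G) ⊓ P2 = ⊥) :
    ∃ N : Subgroup G, N.Normal ∧ Nat.card N = q := by
  classical
  have hp : p.Prime := Fact.out
  have hqf : Fact q.Prime := ⟨hq⟩
  let _ : Fintype (Sylow p G) := Fintype.ofFinite _
  obtain ⟨x, hx⟩ := exists_prime_orderOf_dvd_card' (G := G) q (hG ▸ dvd_mul_left q _)
  have hQcard : Nat.card (Subgroup.zpowers x) = q := by rw [Nat.card_zpowers, hx]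
  let f : (Subgroup.zpowers x) ⊕ (Σ P : Sylow p G, {g : (P : Subgroup G) // g ≠ 1}) → G :=
    Sum.elim (fun a => a.1) (fun s => s.2.1.1)
  have hf : Function.Injective f := by
    rintro (a | ⟨P, g, hg⟩) (b | ⟨P', g', hg'⟩) h
    · exact congrArg Sum.inl (Subtype.ext h)
    · exfalso
      have h1 : (a : G) = g'.1 := h
      apply hg'
      apply Subtype.ext
      apply eq_one_of_mem_sylow p q hq hpq P' g'.1 g'.2
      rw [← h1, ← hx]
      have := a.2
      obtain ⟨i, hi⟩ := Subgroup.mem_zpowers_iff.mp a.2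
      rw [← hi, ← zpow_natCast, ← zpow_mul, mul_comm, zpow_mul, zpow_natCast,
        pow_orderOf_eq_one, one_zpow]
    · exfalso
      have h1 : g.1 = (b : G) := h
      apply hg
      apply Subtype.ext
      apply eq_one_of_mem_sylow p q hq hpq P g.1 g.2
      rw [h1, ← hx]
      obtain ⟨i, hi⟩ := Subgroup.mem_zpowers_iff.mp b.2
      rw [← hi, ← zpow_natCast, ← zpow_mul, mul_comm, zpow_mul, zpow_natCast,
        pow_orderOf_eq_one, one_zpow]
    · have h1 : g.1 = g'.1 := h
      have hPP : P = P' := by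
        by_contra hne
        have h2 : g.1 ∈ (P : Subgroup G) ⊓ P' := ⟨g.2, h1 ▸ g'.2⟩
        rw [hTI P P' hne, Subgroup.mem_bot] at h2
        exact hg (Subtype.ext h2)
      subst hPP
      have h2 : g = g' := Subtype.ext h1
      subst h2
      rfl
  have hcard : Nat.card ((Subgroup.zpowers x) ⊕ (Σ P : Sylow p G, {g : (P : Subgroup G) // g ≠ 1}))
      = Nat.card G := by
    rw [Nat.card_sum, Nat.card_sigma, hQcard, hG]
    have h1 : ∀ P : Sylow p G, Nat.card {g : (P : Subgroup G) // g ≠ 1} = p ^ m - 1 := by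
      intro P
      have h2 := card_sylow_eq p q m hq hpq hG P
      let _ : Fintype (P : Subgroup G) := Fintype.ofFinite _
      rw [Nat.card_eq_fintype_card, Fintype.card_subtype_compl, Fintype.card_subtype_eq,
        ← Nat.card_eq_fintype_card]
      exact congrArg (· - 1) h2
    rw [Finset.sum_congr rfl (fun P _ => h1 P), Finset.sum_const, Finset.card_univ,
      ← Nat.card_eq_fintype_card, hn, smul_eq_mul]
    have h3 : 1 ≤ p ^ m := Nat.one_le_pow _ _ hp.pos
    obtain ⟨t, ht⟩ : ∃ t, p ^ m = t + 1 := ⟨p ^ m - 1, by omega⟩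
    rw [ht]
    simp only [Nat.add_sub_cancel]
    ring
  have hbij : Function.Bijective f := hf.bijective_of_nat_card_le hcard.ge
  have hmem : ∀ y : G, y ^ q = 1 → y ∈ Subgroup.zpowers x := by
    intro y hy
    obtain ⟨s, hs⟩ := hbij.2 y
    rcases s with a | ⟨P, g, hg⟩
    · rw [← hs]
      exact a.2
    · exfalso
      apply hg
      apply Subtype.ext
      apply eq_one_of_mem_sylow p q hq hpq P g.1 g.2
      have h1 : g.1 = y := hs
      rw [h1]
      exact hy
  refine ⟨Subgroup.zpowers x, ⟨fun n hn g => ?_⟩, hQcard⟩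
  apply hmem
  rw [conj_pow]
  obtain ⟨i, hi⟩ := Subgroup.mem_zpowers_iff.mp hn
  have h1 : n ^ q = 1 := by
    rw [← hi, ← hx, ← zpow_natCast, ← zpow_mul, mul_comm, zpow_mul, zpow_natCast,
      pow_orderOf_eq_one, one_zpow]
  rw [h1]
  group

/-- A group of order `p ^ m * q` with `m ≥ 1` and `p ≠ q` has a normal subgroup of order `q`
or a nontrivial normal `p`-subgroup. -/
lemma exists_normal (p q m : ℕ) [Fact p.Prime] (hq : q.Prime) (hpq : p ≠ q) (hm : m ≠ 0)
    (hG : Nat.card G = p ^ m * q) :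
    ∃ N : Subgroup G, N.Normal ∧ (Nat.card N = q ∨ (N ≠ ⊥ ∧ IsPGroup p N)) := by
  classical
  have hp : p.Prime := Fact.out
  let P : Sylow p G := default
  have hPcard := card_sylow_eq p q m hq hpq hG P
  have hindex : (P : Subgroup G).index = q := by
    have h1 := (P : Subgroup G).card_mul_index
    rw [hG] at h1
    have hc : Nat.card (P : Subgroup G) = p ^ m := hPcard
    rw [hc] at h1
    exact Nat.eq_of_mul_eq_mul_left (pow_pos hp.pos m) h1
  have hdvd : Nat.card (Sylow p G) ∣ q := hindex ▸ P.card_dvd_index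
  rcases (Nat.dvd_prime hq).mp hdvd with h1 | hq'
  · have : Subsingleton (Sylow p G) := (Nat.card_eq_one_iff_unique.mp h1).1
    refine ⟨P, P.normal_of_subsingleton, Or.inr ⟨?_, P.isPGroup'⟩⟩
    intro hbot
    have h2 : Nat.card (P : Subgroup G) = 1 := by
      rw [hbot]
      exact Subgroup.card_bot
    have h3 : p ^ m = 1 := hPcard ▸ h2
    have h4 : 2 ≤ p ^ m := by
      calc 2 ≤ p := hp.two_le
        _ = p ^ 1 := (pow_one p).symm
        _ ≤ p ^ m := Nat.pow_le_pow_right hp.pos (Nat.pos_of_ne_zero hm)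
    omega
  · by_cases hTI : ∀ P1 P2 : Sylow p G, P1 ≠ P2 → (P1 : Subgroup G) ⊓ P2 = ⊥
    · obtain ⟨N, hN, hNc⟩ := exists_normal_of_TI p q m hq hpq hG hq' hTI
      exact ⟨N, hN, Or.inl hNc⟩
    · push Not at hTI
      obtain ⟨P1, P2, hne, hD⟩ := hTI
      have hnonempty : Nonempty {x : Sylow p G × Sylow p G // x.1 ≠ x.2} := ⟨⟨(P1, P2), hne⟩⟩
      obtain ⟨⟨⟨P3, P4⟩, hne'⟩, hmax⟩ := Finite.exists_max
        (fun x : {x : Sylow p G × Sylow p G // x.1 ≠ x.2} =>
          Nat.card ((x.1.1 : Subgroup G) ⊓ x.1.2 : Subgroup G))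
      have hD' : (P3 : Subgroup G) ⊓ P4 ≠ ⊥ := by
        intro hbot
        have h1 := hmax ⟨(P1, P2), hne⟩
        simp only at h1
        rw [hbot, Subgroup.card_bot] at h1
        have h2 : Nat.card ((P1 : Subgroup G) ⊓ P2 : Subgroup G) = 1 :=
          le_antisymm h1 Nat.card_pos
        exact hD (Subgroup.card_eq_one.mp h2)
      obtain ⟨N, hN, hNb, hNp⟩ := exists_normal_of_inter p q m hq hpq hG P3 P4 hne' hD'
        (fun P5 P6 h56 => hmax ⟨(P5, P6), h56⟩)
      exact ⟨N, hN, Or.inr ⟨hNb, hNp⟩⟩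

end lemmas

theorem main (p q : ℕ) (hp : p.Prime) (hq : q.Prime) :
    ∀ (m : ℕ) (G : Type u) [Group G] [Finite G], Nat.card G = p ^ m * q → Group.IsSolvable G := by
  intro m
  induction m using Nat.strong_induction_on with
  | _ m ih =>
  intro G _ _ hG
  by_cases hpq : p = q
  · subst hpq
    exact solvable_of_card_pow p (m + 1) hp (by rw [hG, pow_succ])
  by_cases hm : m = 0
  · subst hm
    exact solvable_of_card_pow q 1 hq (by rw [hG]; ring)
  have hpf : Fact p.Prime := ⟨hp⟩
  obtain ⟨N, hN, hcase⟩ := exists_normal p q m hq hpq hm hG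
  have hmul : Nat.card G = Nat.card (G ⧸ N) * Nat.card N :=
    Subgroup.card_eq_card_quotient_mul_card_subgroup N
  rw [hG] at hmul
  rw [Group.isSolvable_iff_subgroup_quotient N]
  rcases hcase with hNq | ⟨hNb, hNp⟩
  · constructor
    · exact solvable_of_card_pow q 1 hq (by rw [hNq]; ring)
    · apply solvable_of_card_pow p m hp
      rw [hNq] at hmul
      exact (Nat.eq_of_mul_eq_mul_right hq.pos hmul).symm
  · obtain ⟨k, hk⟩ := IsPGroup.iff_card.mp hNp
    constructor
    · exact solvable_of_card_pow p k hp hk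
    · rw [hk] at hmul
      have hk0 : k ≠ 0 := by
        rintro rfl
        rw [pow_zero] at hk
        exact hNb (Subgroup.card_eq_one.mp hk)
      have hkm : k ≤ m := by
        have h1 : p ^ k ∣ p ^ m * q := Dvd.intro_left _ hmul.symm
        have hcop : Nat.Coprime (p ^ k) q :=
          Nat.Coprime.pow_left k ((Nat.coprime_primes hp hq).mpr hpq)
        exact (Nat.pow_dvd_pow_iff_le_right hp.one_lt).mp (hcop.dvd_of_dvd_mul_right h1)
      apply ih (m - k) (by omega)
      have h2 : p ^ m * q = p ^ (m - k) * q * p ^ k := by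
        rw [mul_right_comm, ← pow_add, Nat.sub_add_cancel hkm]
      rw [h2] at hmul
      exact (Nat.eq_of_mul_eq_mul_right (pow_pos hp.pos k) hmul).symm

/-- A finite group whose order is a prime power times a prime is solvable. -/
theorem result {G : Type*} [Group G] [Finite G] (p q m : ℕ) (hp : p.Prime) (hq : q.Prime)
    (hG : Nat.card G = p ^ m * q) : Group.IsSolvable G := by
  exact main p q hp hq m G hG

end Cfsg.Agent.S0061
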