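import Mathlib
import Cfsg.Statements.S0062

set_option autoImplicit false
open Cfsg

namespace Cfsg.Agent.S0062

/-- the case `q < p` -/
theorem aux {G : Type*} [Group G] [Finite G] (p q : ℕ) (hp : p.Prime) (hq : q.Prime)
    (hlt : q < p) (hG : Nat.card G = p ^ 2 * q ^ 2) : Group.IsSolvable G := by
  have : Fact p.Prime := ⟨hp⟩
  have : Fact q.Prime := ⟨hq⟩
  obtain ⟨P⟩ : Nonempty (Sylow p G) := Sylow.nonempty
  have hne : p ≠ q := by omega
  have hp2 : 0 < p ^ 2 := pow_pos hp.pos 2
  have hq2 : 0 < q ^ 2 := pow_pos hq.pos 2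
  have hPcard : Nat.card P = p ^ 2 := by
    rw [Sylow.card_eq_multiplicity, hG]
    congr 1
    rw [Nat.factorization_mul hp2.ne' hq2.ne']
    simp [Nat.Prime.factorization_pow hp, Nat.Prime.factorization_pow hq, hne]
  have hPcomm : ∀ a b : P, a * b = b * a :=
    (IsPGroup.isMulCommutative_of_card_eq_prime_sq hPcard).is_comm.comm
  have hindex : (P : Subgroup G).index = q ^ 2 := by
    have := (P : Subgroup G).card_mul_index
    rw [hPcard, hG] at this
    exact Nat.eq_of_mul_eq_mul_left hp2 this
  have hdvd : Nat.card (Sylow p G) ∣ q ^ 2 := hindex ▸ P.card_dvd_index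
  have hmod : Nat.card (Sylow p G) ≡ 1 [MOD p] := card_sylow_modEq_one p G
  have hnorm : Nat.card (Sylow p G) = (Subgroup.normalizer (P : Set G)).index :=
    P.card_eq_index_normalizer
  have hPsolv : Group.IsSolvable P := Group.isSolvable_of_comm hPcomm
  obtain ⟨k, hk, hkeq⟩ := (Nat.dvd_prime_pow hq).mp hdvd
  interval_cases k
  · -- P is normal
    rw [pow_zero] at hkeq
    have htop : Subgroup.normalizer (P : Set G) = ⊤ := by
      rw [← Subgroup.index_eq_one, ← hnorm, hkeq]
    have hN : (P : Subgroup G).Normal := Subgroup.normalizer_eq_top_iff.mp htop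
    have hQ : Nat.card (G ⧸ (P : Subgroup G)) = q ^ 2 := by
      rw [← Subgroup.index_eq_card, hindex]
    have : Group.IsSolvable (G ⧸ (P : Subgroup G)) :=
      Group.isSolvable_of_comm (IsPGroup.isMulCommutative_of_card_eq_prime_sq hQ).is_comm.comm
    exact Group.isSolvable_of_ker_le_range (P : Subgroup G).subtype (QuotientGroup.mk' (P : Subgroup G))
      (by simp)
  · -- impossible
    exfalso
    rw [pow_one] at hkeq
    rw [hkeq] at hmod
    have h1 : q % p = 1 % p := hmod
    rw [Nat.mod_eq_of_lt hlt, Nat.mod_eq_of_lt (by have := hq.two_le; omega)] at h1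
    exact hq.ne_one h1
  · -- the normalizer of P is P; Burnside
    have hcardN : Nat.card (Subgroup.normalizer (P : Set G)) = Nat.card P := by
      have h1 := (Subgroup.normalizer (P : Set G)).card_mul_index
      rw [← hnorm, hkeq, hG] at h1
      have h2 : Nat.card (Subgroup.normalizer (P : Set G)) = p ^ 2 :=
        Nat.eq_of_mul_eq_mul_right hq2 h1
      rw [h2, hPcard]
    have hNP : (P : Subgroup G) = Subgroup.normalizer (P : Set G) :=
      Subgroup.eq_of_le_of_card_ge Subgroup.le_normalizer hcardN.le
    have hP : Subgroup.normalizer (P : Set G) ≤ Subgroup.centralizer (P : Set G) := by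
      intro n hn
      rw [← hNP] at hn
      rw [Subgroup.mem_centralizer_iff]
      intro x hx
      exact congrArg Subtype.val (hPcomm ⟨x, hx⟩ ⟨n, hn⟩)
    have hc := MonoidHom.ker_transferSylow_isComplement' P hP
    have hKcard : Nat.card (MonoidHom.transferSylow P hP).ker = q ^ 2 := by
      have h1 := hc.card_mul_card
      rw [hPcard, hG, mul_comm] at h1
      exact Nat.eq_of_mul_eq_mul_left hp2 h1
    have : Group.IsSolvable (MonoidHom.transferSylow P hP).ker :=
      Group.isSolvable_of_comm (IsPGroup.isMulCommutative_of_card_eq_prime_sq hKcard).is_comm.comm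
    exact Group.isSolvable_of_ker_le_range (MonoidHom.transferSylow P hP).ker.subtype
      (MonoidHom.transferSylow P hP) (by simp)

/-- A finite group of order p^2 * q^2 with p and q prime is solvable. -/
theorem result {G : Type*} [Group G] [Finite G] (p q : ℕ) (hp : p.Prime) (hq : q.Prime)
    (hG : Nat.card G = p ^ 2 * q ^ 2) : Group.IsSolvable G := by
  rcases lt_trichotomy p q with h | h | h
  · exact aux q p hq hp h (by rw [hG, mul_comm])
  · subst h
    have : Fact p.Prime := ⟨hp⟩
    have h4 : Nat.card G = p ^ 4 := by rw [hG]; ring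
    have hpg : IsPGroup p G := IsPGroup.of_card h4
    have := hpg.isNilpotent
    infer_instance
  · exact aux p q hp hq h hG

end Cfsg.Agent.S0062
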