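import Mathlib
import Cfsg.Statements.S0063

set_option autoImplicit false
open Cfsg

namespace Cfsg.Agent.S0063

theorem aux (p : ℕ) [Fact p.Prime] : ∀ (m : ℕ) (G : Type*) [Group G] [Finite G],
    Nat.card G = p ^ m → Group.nilpotencyClass G ≤ max (m - 1) 1 := by
  intro m
  induction m using Nat.strong_induction_on with
  | _ m ih =>
    intro G _ _ hG
    have hp : p.Prime := Fact.out
    have hPG : IsPGroup p G := IsPGroup.of_card hG
    have hnil : Group.IsNilpotent G := hPG.isNilpotent
    rcases subsingleton_or_nontrivial G with hs | hnt
    · have : Group.nilpotencyClass G = 0 := Group.nilpotencyClass_zero_iff_subsingleton.mpr hs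
      omega
    · have hZ : Nontrivial (Subgroup.center G) := hPG.center_nontrivial
      have hcardZ : 1 < Nat.card (Subgroup.center G) := Finite.one_lt_card
      have hmul := (Subgroup.center G).card_mul_index
      rw [hG] at hmul
      obtain ⟨j, hj, hjc⟩ := (Nat.dvd_prime_pow hp).mp ⟨_, hmul.symm⟩
      have hj1 : 1 ≤ j := by
        rcases Nat.eq_zero_or_pos j with h0 | h0
        · rw [h0, pow_zero] at hjc; omega
        · exact h0
      have hquot : Nat.card (G ⧸ Subgroup.center G) = p ^ (m - j) := by
        rw [← Subgroup.index_eq_card]
        rw [hjc] at hmul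
        have : p ^ j * p ^ (m - j) = p ^ m := by
          rw [← pow_add]; congr 1; omega
        rw [← this] at hmul
        exact Nat.eq_of_mul_eq_mul_left (pow_pos hp.pos j) hmul
      have hclass := Group.nilpotencyClass_eq_quotient_center_plus_one (G := G)
      by_cases hmj : 2 ≤ m - j
      · have h1 := ih (m - j) (by omega) (G ⧸ Subgroup.center G) hquot
        rw [hclass]
        have : max (m - j - 1) 1 = m - j - 1 := by omega
        rw [this] at h1
        omega
      · -- quotient by the centre is cyclic, so G is commutative
        have hcyc : IsCyclic (G ⧸ Subgroup.center G) := by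
          have h01 : m - j = 0 ∨ m - j = 1 := by omega
          rcases h01 with h0 | h1
          · rw [h0, pow_zero] at hquot
            have : Subsingleton (G ⧸ Subgroup.center G) :=
              (Nat.card_eq_one_iff_unique.mp hquot).1
            exact isCyclic_of_subsingleton
          · rw [h1, pow_one] at hquot
            exact isCyclic_of_prime_card hquot
        have hcomm : IsMulCommutative G :=
          MonoidHom.isMulCommutative_of_isCyclic_of_ker_le_center (QuotientGroup.mk' (Subgroup.center G))
            (by rw [QuotientGroup.ker_mk'])
        have := Group.IsNilpotent.nilpotencyClass_le_one_iff.mpr hcomm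
        omega

/-- A finite group of prime-power order p ^ m with m > 1 is nilpotent of class at most m - 1. -/
theorem result {G : Type*} [Group G] [Finite G] (p m : ℕ) [Fact p.Prime]
    (hG : Nat.card G = p ^ m) (hm : 1 < m) : Group.nilpotencyClass G ≤ m - 1 := by
  have := aux p m G hG
  omega

end Cfsg.Agent.S0063
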