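import Mathlib
import Cfsg.Statements.S0068

set_option autoImplicit false
open Cfsg

namespace Cfsg.Agent.S0068

/-- an involution acting without fixed points on a finite normal subgroup inverts it -/
theorem inverts {G : Type*} [Group G] [Finite G] (K : Subgroup G) [hKn : K.Normal] (s : G) (hs : s * s = 1)
    (hfix : K ⊓ Subgroup.centralizer {s} = ⊥) : ∀ k ∈ K, s * k * s⁻¹ = k⁻¹ := by
  have hsinv : s⁻¹ = s := inv_eq_of_mul_eq_one_left hs
  -- φ k = k⁻¹ * (s k s⁻¹)
  let φ : K → K := fun k => ⟨(k : G)⁻¹ * (s * (k : G) * s⁻¹), K.mul_mem (K.inv_mem k.2) (hKn.conj_mem _ k.2 s)⟩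
  have hinj : Function.Injective φ := by
    intro k l hkl
    have h1 : (k : G)⁻¹ * (s * (k : G) * s⁻¹) = (l : G)⁻¹ * (s * (l : G) * s⁻¹) := congrArg Subtype.val hkl
    -- l k⁻¹ is centralized by s
    have h2 : (l : G) * (k : G)⁻¹ ∈ K ⊓ Subgroup.centralizer {s} := by
      refine Subgroup.mem_inf.mpr ⟨K.mul_mem l.2 (K.inv_mem k.2), ?_⟩
      rw [Subgroup.mem_centralizer_iff]
      intro x hx
      rw [Set.mem_singleton_iff] at hx
      subst hx
      have e1 : x * ((l : G) * (k : G)⁻¹) = (l : G) * ((l : G)⁻¹ * (x * (l : G) * x⁻¹)) * (x * (k : G)⁻¹) := by group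
      have e2 : (l : G) * (k : G)⁻¹ * x = (l : G) * ((k : G)⁻¹ * (x * (k : G) * x⁻¹)) * (x * (k : G)⁻¹) := by group
      rw [e1, e2, h1]
    rw [hfix, Subgroup.mem_bot] at h2
    apply Subtype.ext
    have : (k : G) = ((l : G) * (k : G)⁻¹)⁻¹ * (l : G) := by group
    rw [this, h2]; simp
  have hsurj : Function.Surjective φ := Finite.surjective_of_injective hinj
  intro x hx
  obtain ⟨k, hk⟩ := hsurj ⟨x, hx⟩
  have hx' : x = (k : G)⁻¹ * (s * (k : G) * s⁻¹) := (congrArg Subtype.val hk).symm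
  rw [hx', hsinv]
  have e1 : s * ((k : G)⁻¹ * (s * (k : G) * s)) * s = s * (k : G)⁻¹ * s * (k : G) * (s * s) := by group
  have e2 : ((k : G)⁻¹ * (s * (k : G) * s))⁻¹ = s⁻¹ * (k : G)⁻¹ * s⁻¹ * (k : G) := by group
  rw [e1, e2, hs, hsinv, mul_one]

/-- Frobenius complements of even order: if H complements a nontrivial normal subgroup K, each nonidentity element of H has trivial centraliser in K, and H has even order, then H contains a unique involution s, K is abelian, and s inverts every element of K. -/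
theorem result {G : Type*} [Group G] [Finite G] (K H : Subgroup G) [K.Normal]
    (hc : Subgroup.IsComplement' K H) (hK : K ≠ ⊥) (hfpf : ∀ h ∈ H, h ≠ 1 → K ⊓ Subgroup.centralizer {h} = ⊥)
    (heven : 2 ∣ Nat.card H) :
    (∃ s ∈ H, orderOf s = 2 ∧ (∀ t ∈ H, orderOf t = 2 → t = s) ∧ ∀ k ∈ K, s * k * s⁻¹ = k⁻¹) ∧ IsMulCommutative K := by
  have : Fact (Nat.Prime 2) := ⟨Nat.prime_two⟩
  obtain ⟨s', hs'⟩ := exists_prime_orderOf_dvd_card' 2 heven
  have hsord : orderOf (s' : G) = 2 := by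
    rw [Subgroup.orderOf_coe]; exact hs'
  have inv_of_invol : ∀ t ∈ H, orderOf t = 2 → ∀ k ∈ K, t * k * t⁻¹ = k⁻¹ := by
    intro t htH ht
    have ht1 : t ≠ 1 := by
      intro h; rw [h, orderOf_one] at ht; norm_num at ht
    have ht2 : t * t = 1 := by
      have := pow_orderOf_eq_one t
      rw [ht, pow_two] at this
      exact this
    exact inverts K t ht2 (hfpf t htH ht1)
  have hs_inv := inv_of_invol (s' : G) s'.2 hsord
  refine ⟨⟨(s' : G), s'.2, hsord, ?_, hs_inv⟩, ?_⟩
  · intro t htH ht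
    have ht_inv := inv_of_invol t htH ht
    by_contra hne
    have hst : (s' : G) * t ≠ 1 := by
      intro h
      apply hne
      have hs2 : (s' : G) * (s' : G) = 1 := by
        have := pow_orderOf_eq_one (s' : G)
        rw [hsord, pow_two] at this
        exact this
      have : t = ((s' : G) * (s' : G))⁻¹ * (s' : G) * ((s' : G) * t) := by group
      rw [this, h, hs2]; simp
    have hbot := hfpf ((s' : G) * t) (H.mul_mem s'.2 htH) hst
    apply hK
    rw [eq_bot_iff, ← hbot]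
    intro k hk
    refine Subgroup.mem_inf.mpr ⟨hk, ?_⟩
    rw [Subgroup.mem_centralizer_iff]
    intro x hx
    rw [Set.mem_singleton_iff] at hx
    subst hx
    have h1 := ht_inv k hk
    have h2 := hs_inv k⁻¹ (K.inv_mem hk)
    rw [inv_inv] at h2
    have : (s' : G) * t * k = ((s' : G) * (t * k * t⁻¹) * (s' : G)⁻¹) * ((s' : G) * t) := by group
    rw [this, h1, h2]
  · refine ⟨⟨fun a b => ?_⟩⟩
    apply Subtype.ext
    have ha := hs_inv a a.2
    have hb := hs_inv b b.2
    have hab := hs_inv ((a : G) * (b : G)) (K.mul_mem a.2 b.2)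
    have e : (s' : G) * ((a : G) * (b : G)) * (s' : G)⁻¹ = ((s' : G) * (a : G) * (s' : G)⁻¹) * ((s' : G) * (b : G) * (s' : G)⁻¹) := by group
    rw [e, ha, hb] at hab
    -- a⁻¹ b⁻¹ = (a b)⁻¹ = b⁻¹ a⁻¹
    have h3 : (a : G) * (b : G) = (b : G) * (a : G) := by
      have h4 : ((a : G)⁻¹ * (b : G)⁻¹)⁻¹ = (((a : G) * (b : G))⁻¹)⁻¹ := by rw [hab]
      rw [inv_inv, mul_inv_rev, inv_inv, inv_inv] at h4
      exact h4.symm
    simpa using h3

end Cfsg.Agent.S0068
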