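import Cfsg.Statements.S0069
import Mathlib
import Cfsg.Agent.S0016
import Cfsg.Agent.S0045
import Cfsg.Agent.S0041
import Cfsg.Agent.S0025
import Cfsg.Agent.S0144
import Cfsg.Agent.Lib.Helper91.Coprime2

set_option autoImplicit false
open Cfsg

namespace Cfsg.Agent.S0069

open Subgroup
open Pointwise

/-- If all subgroups of order `p * q` are cyclic and the order is odd, every `r`-subgroup is
cyclic. -/
theorem pgroup_cyclic {L : Type*} [Group L] [Finite L] (hodd : ¬ 2 ∣ Nat.card L)
    (hpq : ∀ (p q : ℕ) (A : Subgroup L), p.Prime → q.Prime → Nat.card A = p * q → IsCyclic A)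
    (r : ℕ) [Fact r.Prime] (R : Subgroup L) (hR : IsPGroup r R) : IsCyclic R := by
  have hr : r.Prime := Fact.out
  have key : ∀ (z : R), z ∈ Subgroup.center R → orderOf z = r →
      ∀ U : Subgroup R, Nat.card U = r → U = zpowers z := by
    intro z hz hzr U hU
    have hZc : Nat.card (zpowers z) = r := by rw [Nat.card_zpowers, hzr]
    have hle : U ≤ zpowers z := by
      by_contra hnle
      have hinf : Nat.card (zpowers z ⊓ U : Subgroup R) = 1 := by
        have h1 : Nat.card (zpowers z ⊓ U : Subgroup R) ∣ r := by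
          rw [← hU]
          exact Subgroup.card_dvd_of_le inf_le_right
        rcases (Nat.dvd_prime hr).mp h1 with h | h
        · exact h
        · exfalso
          apply hnle
          have h2 : (zpowers z ⊓ U : Subgroup R) = U :=
            Subgroup.eq_of_le_of_card_ge inf_le_right (by rw [h, hU])
          rw [← h2]
          exact inf_le_left
      have hnorm : U ≤ Subgroup.normalizer ((zpowers z : Subgroup R) : Set R) := by
        intro u _
        rw [Subgroup.mem_normalizer_iff]
        intro x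
        have hc : ∀ n : ℤ, u * z ^ n * u⁻¹ = z ^ n := by
          intro n
          have h3 : z ^ n ∈ Subgroup.center R := Subgroup.zpow_mem _ hz n
          rw [Subgroup.mem_center_iff] at h3
          rw [h3 u]
          group
        constructor
        · rintro ⟨n, rfl⟩
          exact ⟨n, (hc n).symm⟩
        · rintro ⟨n, hn⟩
          refine ⟨n, ?_⟩
          have h4 := hc n
          show z ^ n = x
          have h5 : u * z ^ n * u⁻¹ = u * x * u⁻¹ := by rw [h4]; exact hn
          have h6 := mul_right_cancel h5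
          exact mul_left_cancel h6
      have hcard := Cfsg.Agent.Lib.Helper91.card_sup_mul_card_inf_of_le_normalizer
        (zpowers z) U hnorm
      rw [hinf, hZc, hU, mul_one] at hcard
      have hcyc : IsCyclic ((zpowers z ⊔ U : Subgroup R).map R.subtype) := by
        apply hpq r r _ hr hr
        rw [Subgroup.card_map_of_injective R.subtype_injective, hcard]
      have hcyc' : IsCyclic (zpowers z ⊔ U : Subgroup R) := by
        have e := Subgroup.equivMapOfInjective (zpowers z ⊔ U : Subgroup R) R.subtype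
          R.subtype_injective
        exact isCyclic_of_surjective e.symm e.symm.surjective
      apply hnle
      intro u hu
      have h7 : (⟨u, Subgroup.mem_sup_right hu⟩ : (zpowers z ⊔ U : Subgroup R)) ∈
          (zpowers z).subgroupOf (zpowers z ⊔ U) := by
        apply Cfsg.Agent.S0016.mem_of_pow_card_eq_one
        rw [Cfsg.Agent.Lib.Helper1.card_subgroupOf_of_le le_sup_left, hZc]
        apply Subtype.ext
        rw [Subgroup.coe_pow, Subgroup.coe_one]
        show u ^ r = 1
        have h8 : orderOf u ∣ r := by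
          rw [← hU]
          exact Subgroup.orderOf_dvd_natCard U hu
        exact orderOf_dvd_iff_pow_eq_one.mp h8
      exact Subgroup.mem_subgroupOf.mp h7
    exact Subgroup.eq_of_le_of_card_ge hle (by rw [hZc, hU])
  have huniq : ∀ U W : Subgroup R, Nat.card U = r → Nat.card W = r → U = W := by
    intro U W hU hW
    have hnt : Nontrivial R := by
      by_contra hn
      rw [not_nontrivial_iff_subsingleton] at hn
      have : Nat.card U = 1 := Nat.card_unique
      rw [hU] at this
      exact hr.one_lt.ne' this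
    have hcn : (Subgroup.center R) ≠ ⊥ := by
      have := hR.center_nontrivial
      exact (Subgroup.nontrivial_iff_ne_bot _).mp this
    have hdvd : r ∣ Nat.card (Subgroup.center R) := by
      rcases (hR.to_subgroup (Subgroup.center R)).card_eq_or_dvd with h | h
      · exact absurd (Subgroup.card_eq_one.mp h) hcn
      · exact h
    obtain ⟨x, hx⟩ := exists_prime_orderOf_dvd_card' (G := Subgroup.center R) r hdvd
    have hz : orderOf (x : R) = r := by rw [Subgroup.orderOf_coe, hx]
    rw [key x x.2 hz U hU, key x x.2 hz W hW]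
  rcases Cfsg.Agent.S0016.result r hR huniq with h | ⟨h2, _⟩
  · exact h
  · subst h2
    obtain ⟨k, hk⟩ := hR.exists_card_eq
    have h1 : Nat.card R ∣ Nat.card L := Subgroup.card_subgroup_dvd_card R
    rw [hk] at h1
    have hk0 : k = 0 := by
      by_contra hk0
      exact hodd ((dvd_pow_self 2 hk0).trans h1)
    rw [hk0, pow_zero] at hk
    have : Subsingleton R := (Nat.card_eq_one_iff_unique.mp hk).1
    exact isCyclic_of_subsingleton

/-- An automorphism of a finite cyclic `q`-group whose order is prime to `q` and which fixes a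
nontrivial element is trivial. -/
theorem aut_eq_one_of_fixed {B : Type*} [Group B] [Finite B] [IsCyclic B] {q : ℕ} [Fact q.Prime]
    (hB : IsPGroup q B) (σ : MulAut B) (m : ℕ) (hm : σ ^ m = 1) (hmq : m.Coprime q)
    (y : B) (hy : y ≠ 1) (hσy : σ y = y) : σ = 1 := by
  have hq : q.Prime := Fact.out
  obtain ⟨g, hg⟩ := IsCyclic.exists_generator (α := B)
  have hpow : ∀ x : B, ∃ j : ℕ, g ^ j = x := by
    intro x
    have h1 := (mem_powers_iff_mem_zpowers (x := g) (y := x)).mpr (hg x)
    exact h1
  obtain ⟨k, hk⟩ := hpow (σ g)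
  have hσ : ∀ x : B, σ x = x ^ k := by
    intro x
    obtain ⟨j, rfl⟩ := hpow x
    rw [map_pow, ← hk, ← pow_mul, ← pow_mul, mul_comm]
  have hσn : ∀ (n : ℕ) (x : B), (σ ^ n) x = x ^ (k ^ n) := by
    intro n
    induction n with
    | zero => intro x; simp
    | succ n ih =>
      intro x
      rw [pow_succ, MulAut.mul_apply, hσ, map_pow, ih, ← pow_mul, pow_succ]
  -- `k ≡ 1 [MOD q]`
  have hk1 : k ≡ 1 [MOD q] := by
    have h1 : y ^ k = y ^ 1 := by rw [pow_one, ← hσ, hσy]
    have h2 := pow_eq_pow_iff_modEq.mp h1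
    have h3 : q ∣ orderOf y := by
      obtain ⟨t, ht⟩ := hB y
      have h4 : orderOf y ∣ q ^ t := orderOf_dvd_of_pow_eq_one ht
      obtain ⟨s, _, hs⟩ := (Nat.dvd_prime_pow hq).mp h4
      have hs0 : s ≠ 0 := by
        rintro rfl
        rw [pow_zero, orderOf_eq_one_iff] at hs
        exact hy hs
      rw [hs]
      exact dvd_pow_self q hs0
    exact h2.of_dvd h3
  obtain ⟨n, hn⟩ := hB.exists_card_eq
  have hk2 : k ^ q ^ n ≡ 1 [MOD q ^ n] := by
    have h1 : ((q : ℕ) : ℤ) ∣ (k : ℤ) - 1 := by
      have := (Int.natCast_modEq_iff.mpr hk1).symm.dvd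
      simpa using this
    have h2 := dvd_sub_pow_of_dvd_sub h1 n
    have h3 : ((q : ℤ) ^ n) ∣ (k : ℤ) ^ q ^ n - 1 := by
      rw [one_pow] at h2
      exact (pow_dvd_pow _ (Nat.le_succ n)).trans h2
    have h4 : ((k ^ q ^ n : ℕ) : ℤ) ≡ ((1 : ℕ) : ℤ) [ZMOD ((q ^ n : ℕ) : ℤ)] := by
      rw [Int.modEq_iff_dvd]
      push_cast
      have : (1 : ℤ) - (k : ℤ) ^ q ^ n = -((k : ℤ) ^ q ^ n - 1) := by ring
      rw [this]
      exact (dvd_neg).mpr h3
    exact Int.natCast_modEq_iff.mp h4
  have hσq : σ ^ (q ^ n) = 1 := by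
    ext x
    rw [hσn, MulAut.one_apply]
    have h1 : orderOf x ∣ q ^ n := by
      rw [← hn]
      exact orderOf_dvd_natCard x
    have h2 : x ^ (k ^ q ^ n) = x ^ 1 := pow_eq_pow_iff_modEq.mpr (hk2.of_dvd h1)
    rw [h2, pow_one]
  have h1 : orderOf σ ∣ m := orderOf_dvd_of_pow_eq_one hm
  have h2 : orderOf σ ∣ q ^ n := orderOf_dvd_of_pow_eq_one hσq
  have h3 : orderOf σ ∣ Nat.gcd m (q ^ n) := Nat.dvd_gcd h1 h2
  have h4 : Nat.gcd m (q ^ n) = 1 := Nat.Coprime.pow_right n hmq
  rw [h4, Nat.dvd_one] at h3
  exact orderOf_eq_one_iff.mp h3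


/-- A nontrivial finite group of odd order in which every subgroup of order a product of two
primes is cyclic has nontrivial centre. -/
theorem center_ne_bot_of_odd {L : Type*} [Group L] [Finite L] [Nontrivial L]
    (hodd : ¬ 2 ∣ Nat.card L)
    (hpq : ∀ (p q : ℕ) (A : Subgroup L), p.Prime → q.Prime → Nat.card A = p * q → IsCyclic A) :
    Subgroup.center L ≠ ⊥ := by
  classical
  have hcard1 : Nat.card L ≠ 1 := (Finite.one_lt_card (α := L)).ne'
  obtain ⟨p, hp⟩ : ∃ p, (Nat.card L).minFac = p := ⟨_, rfl⟩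
  have hpp : p.Prime := hp ▸ Nat.minFac_prime hcard1
  have : Fact p.Prime := ⟨hpp⟩
  have hpdvd : p ∣ Nat.card L := hp ▸ Nat.minFac_dvd _
  obtain ⟨P⟩ := (inferInstance : Nonempty (Sylow p L))
  have hPc : IsCyclic P := pgroup_cyclic hodd hpq p P P.2
  have hNC := IsCyclic.normalizer_le_centralizer hp hPc
  set M : Subgroup L := (MonoidHom.transferSylow P hNC).ker with hMdef
  have hM : Subgroup.IsComplement' M P := MonoidHom.ker_transferSylow_isComplement' P hNC
  have hMp : ¬ p ∣ Nat.card M := MonoidHom.not_dvd_card_ker_transferSylow P hNC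
  have hMn : M.Normal := by rw [hMdef]; infer_instance
  -- element of order p in P
  obtain ⟨x0, hx0⟩ := exists_prime_orderOf_dvd_card' (G := P) p (P.dvd_card_of_dvd_card hpdvd)
  obtain ⟨x, hxdef⟩ : ∃ x : L, x = (x0 : L) := ⟨_, rfl⟩
  have hxP : x ∈ (P : Subgroup L) := hxdef ▸ x0.2
  have hxo : orderOf x = p := by rw [hxdef, Subgroup.orderOf_coe, hx0]
  have hx1 : x ≠ 1 := by
    intro h
    rw [h, orderOf_one] at hxo
    exact hpp.one_lt.ne hxo
  have hxp : x ^ p = 1 := by rw [← hxo]; exact pow_orderOf_eq_one x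
  have key : ∀ q : ℕ, q.Prime →
      q ^ (Nat.card L).factorization q ∣ Nat.card (Subgroup.centralizer {x} : Subgroup L) := by
    intro q hq
    have : Fact q.Prime := ⟨hq⟩
    by_cases hqp : q = p
    · subst hqp
      rw [← P.card_eq_multiplicity]
      apply Subgroup.card_dvd_of_le
      intro u hu
      rw [Subgroup.mem_centralizer_singleton_iff]
      have : IsCyclic P := hPc
      have h1 := mul_comm' (⟨u, hu⟩ : P) ⟨x, hxP⟩
      exact congrArg Subtype.val h1
    · obtain ⟨Q₁⟩ := (inferInstance : Nonempty (Sylow q M))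
      obtain ⟨Q, hQdef⟩ : ∃ Q : Subgroup L, Q = (Q₁ : Subgroup M).map M.subtype := ⟨_, rfl⟩
      have hQcard : Nat.card Q = q ^ (Nat.card M).factorization q := by
        rw [hQdef, Subgroup.card_map_of_injective M.subtype_injective]
        exact Q₁.card_eq_multiplicity
      have hLcard : Nat.card M * Nat.card P = Nat.card L := hM.card_mul_card
      have hdv : q ^ (Nat.card L).factorization q ∣ Nat.card Q := by
        have h1 : q ^ (Nat.card L).factorization q ∣
            Nat.card M * p ^ (Nat.card L).factorization p := by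
          rw [← P.card_eq_multiplicity, hLcard]
          exact Nat.ordProj_dvd _ _
        have h2 : (q ^ (Nat.card L).factorization q).Coprime (p ^ (Nat.card L).factorization p) :=
          Nat.Coprime.pow _ _ ((Nat.coprime_primes hq hpp).mpr hqp)
        have h3 := h2.dvd_of_dvd_mul_right h1
        have h4 := (hq.pow_dvd_iff_le_factorization Nat.card_pos.ne').mp h3
        rw [hQcard]
        exact pow_dvd_pow q h4
      -- Frattini
      obtain ⟨N, hNdef⟩ : ∃ N : Subgroup L, N = Subgroup.normalizer (Q : Set L) := ⟨_, rfl⟩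
      have hsup : N ⊔ M = ⊤ := by
        rw [hNdef, hQdef]
        exact Sylow.normalizer_sup_eq_top Q₁
      have hidx : N.index ∣ Nat.card M := by
        have h1 := Cfsg.Agent.Lib.Helper91.card_sup_mul_card_inf_of_le_normalizer M N
          (by rw [Subgroup.normalizer_eq_top]; exact le_top)
        rw [sup_comm, hsup, Subgroup.card_top, ← Subgroup.card_mul_index N, mul_assoc,
          mul_comm (Nat.card M)] at h1
        have h2 := Nat.eq_of_mul_eq_mul_left Nat.card_pos h1
        exact Dvd.intro _ h2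
      have hpidx : ¬ p ∣ Nat.card (L ⧸ N) := fun h => hMp (h.trans hidx)
      have hZp : IsPGroup p (zpowers x) :=
        IsPGroup.of_card (n := 1) (by rw [Nat.card_zpowers, hxo, pow_one])
      obtain ⟨c, hc⟩ := hZp.nonempty_fixed_point_of_prime_not_dvd_card (L ⧸ N) hpidx
      obtain ⟨g, rfl⟩ := QuotientGroup.mk_surjective c
      have hgx : g⁻¹ * x * g ∈ N := by
        have h1 := hc ⟨x, mem_zpowers x⟩
        have h2 : ((x * g : L) : L ⧸ N) = (g : L ⧸ N) := h1
        rw [QuotientGroup.eq] at h2
        have h3 := N.inv_mem h2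
        have e : ((x * g)⁻¹ * g)⁻¹ = g⁻¹ * x * g := by group
        rwa [e] at h3
      obtain ⟨Q₂, hQ₂def⟩ : ∃ Q₂ : Subgroup L, Q₂ = MulAut.conj g • Q := ⟨_, rfl⟩
      have hxN : x ∈ Subgroup.normalizer (Q₂ : Set L) := by
        rw [hQ₂def]
        exact Cfsg.Agent.Lib.Helper91.conj_mem_normalizer_conj_smul Q g x (hNdef ▸ hgx)
      have hQ₂card : Nat.card Q₂ = Nat.card Q := by
        rw [hQ₂def, Cfsg.Agent.Lib.Helper1.card_conj_smul]
      have hQ₂p : IsPGroup q Q₂ := IsPGroup.of_card (hQ₂card.trans hQcard)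
      have hQ₂c : IsCyclic Q₂ := pgroup_cyclic hodd hpq q Q₂ hQ₂p
      refine hdv.trans ?_
      rw [← hQ₂card]
      apply Subgroup.card_dvd_of_le
      by_cases hbot : Q₂ = ⊥
      · rw [hbot]; exact bot_le
      have hqd : q ∣ Nat.card Q₂ := by
        rcases hQ₂p.card_eq_or_dvd with h | h
        · exact absurd (Subgroup.card_eq_one.mp h) hbot
        · exact h
      obtain ⟨y, hy⟩ := exists_prime_orderOf_dvd_card' (G := Q₂) q hqd
      obtain ⟨σ, hσdef⟩ : ∃ σ : MulAut Q₂, σ = Subgroup.normalizerMonoidHom Q₂ ⟨x, hxN⟩ :=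
        ⟨_, rfl⟩
      have hσv : ∀ v : Q₂, ((σ v : Q₂) : L) = x * v * x⁻¹ := by
        intro v
        rw [hσdef]
        rfl
      have hσp : σ ^ p = 1 := by
        rw [hσdef, ← map_pow]
        have : (⟨x, hxN⟩ : Subgroup.normalizer (Q₂ : Set L)) ^ p = 1 :=
          Subtype.ext (by simpa using hxp)
        rw [this, map_one]
      have hy1 : y ≠ 1 := by
        intro h
        rw [h, orderOf_one] at hy
        exact hq.one_lt.ne hy
      have hyq : y ^ q = 1 := by rw [← hy]; exact pow_orderOf_eq_one y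
      have hYn : x ∈ Subgroup.normalizer ((zpowers (y : L) : Subgroup L) : Set L) := by
        apply Cfsg.Agent.S0045.mem_normalizer_of_conj_mem
        rintro v ⟨n, rfl⟩
        have h1 : σ (y ^ n) ∈ zpowers y := by
          apply Cfsg.Agent.S0016.mem_of_pow_card_eq_one
          rw [Nat.card_zpowers, hy, ← map_pow, ← zpow_natCast, ← zpow_mul, mul_comm, zpow_mul,
            zpow_natCast, hyq, one_zpow, map_one]
        obtain ⟨m', hm'⟩ := h1
        refine ⟨m', ?_⟩
        have h2 := congrArg Subtype.val hm'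
        rw [hσv] at h2
        simpa using h2
      have hYc : Nat.card (zpowers (y : L)) = q := by
        rw [Nat.card_zpowers, Subgroup.orderOf_coe, hy]
      have hXc : Nat.card (zpowers x) = p := by rw [Nat.card_zpowers, hxo]
      have hinf : Nat.card (zpowers (y : L) ⊓ zpowers x : Subgroup L) = 1 := by
        have h1 : Nat.card (zpowers (y : L) ⊓ zpowers x : Subgroup L) ∣ q :=
          hYc ▸ Subgroup.card_dvd_of_le inf_le_left
        have h2 : Nat.card (zpowers (y : L) ⊓ zpowers x : Subgroup L) ∣ p :=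
          hXc ▸ Subgroup.card_dvd_of_le inf_le_right
        have h3 := Nat.dvd_gcd h1 h2
        rwa [(Nat.coprime_primes hq hpp).mpr hqp, Nat.dvd_one] at h3
      have hS := Cfsg.Agent.Lib.Helper91.card_sup_mul_card_inf_of_le_normalizer
        (zpowers (y : L)) (zpowers x) (by rw [Subgroup.zpowers_le]; exact hYn)
      rw [hinf, mul_one, hYc, hXc] at hS
      have hSc : IsCyclic (zpowers (y : L) ⊔ zpowers x : Subgroup L) := hpq q p _ hq hpp hS
      have hxy : x * (y : L) = (y : L) * x := by
        have h1 := mul_comm'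
          (⟨x, Subgroup.mem_sup_right (mem_zpowers x)⟩ :
            (zpowers (y : L) ⊔ zpowers x : Subgroup L))
          ⟨(y : L), Subgroup.mem_sup_left (mem_zpowers _)⟩
        exact congrArg Subtype.val h1
      have hσy : σ y = y := by
        apply Subtype.ext
        rw [hσv, hxy]
        group
      have hσ1 : σ = 1 := aut_eq_one_of_fixed hQ₂p σ p hσp
        ((Nat.coprime_primes hpp hq).mpr (Ne.symm hqp)) y hy1 hσy
      intro v hv
      rw [Subgroup.mem_centralizer_singleton_iff]
      have h1 := hσv ⟨v, hv⟩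
      rw [hσ1] at h1
      have h2 : v = x * v * x⁻¹ := h1
      calc v * x = x * v * x⁻¹ * x := by rw [← h2]
        _ = x * v := by group
  have hdvd : Nat.card L ∣ Nat.card (Subgroup.centralizer {x} : Subgroup L) := by
    rw [← Nat.factorization_prime_le_iff_dvd Nat.card_pos.ne' Nat.card_pos.ne']
    intro q hq
    exact (hq.pow_dvd_iff_le_factorization Nat.card_pos.ne').mp (key q hq)
  have htop : (Subgroup.centralizer {x} : Subgroup L) = ⊤ :=
    Subgroup.eq_top_of_le_card _ (Nat.le_of_dvd Nat.card_pos hdvd)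
  intro hbot
  have hxc : x ∈ Subgroup.center L := by
    rw [Subgroup.mem_center_iff]
    intro g
    have h1 : g ∈ (Subgroup.centralizer {x} : Subgroup L) := htop ▸ Subgroup.mem_top g
    rw [Subgroup.mem_centralizer_singleton_iff] at h1
    exact h1
  rw [hbot, Subgroup.mem_bot] at hxc
  exact hx1 hxc

/-- A Frobenius complement has nontrivial centre: if H ≠ 1 complements a nontrivial normal subgroup K and every nonidentity element of H has trivial centraliser in K, then the centre of H is nontrivial. -/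
theorem result {G : Type*} [Group G] [Finite G] (K H : Subgroup G) [K.Normal]
    (hc : Subgroup.IsComplement' K H) (hK : K ≠ ⊥) (hH : H ≠ ⊥) (hfpf : ∀ h ∈ H, h ≠ 1 → K ⊓ Subgroup.centralizer {h} = ⊥) :
    Subgroup.center H ≠ ⊥ := by
  classical
  have hKn : K.Normal := inferInstance
  have hfp : ∀ a ∈ H, a ≠ 1 → ∀ k ∈ K, a * k = k * a → k = 1 := by
    intro a ha ha1 k hk hak
    have h1 : k ∈ K ⊓ Subgroup.centralizer {a} :=
      ⟨hk, Subgroup.mem_centralizer_singleton_iff.mpr hak.symm⟩
    rw [hfpf a ha ha1] at h1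
    exact Subgroup.mem_bot.mp h1
  -- elements of prime order of `H` have order prime to `|K|`
  have hI1 : ∀ (r : ℕ) (a : G), r.Prime → a ∈ H → orderOf a = r → ¬ r ∣ Nat.card K := by
    intro r a hr ha hao hdvd
    have : Fact r.Prime := ⟨hr⟩
    have ha1 : a ≠ 1 := by
      intro h
      rw [h, orderOf_one] at hao
      exact hr.one_lt.ne hao
    have hZ : IsPGroup r (zpowers a) :=
      IsPGroup.of_card (n := 1) (by rw [Nat.card_zpowers, hao, pow_one])
    let _ : MulAction (zpowers a) K :=
      MulAction.compHom K ((MulAut.conjNormal (H := K)).comp (zpowers a).subtype)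
    have h1 : (1 : K) ∈ MulAction.fixedPoints (zpowers a) K := by
      intro g
      show (MulAut.conjNormal (H := K) (g : G)) (1 : K) = 1
      exact map_one _
    obtain ⟨b, hb, hb1⟩ := hZ.exists_fixed_point_of_prime_dvd_card_of_fixed_point K hdvd h1
    have h2 := hb ⟨a, mem_zpowers a⟩
    have h3 : a * (b : G) * a⁻¹ = (b : G) := congrArg Subtype.val h2
    have h4 : a * (b : G) = (b : G) * a := by
      calc a * (b : G) = a * (b : G) * a⁻¹ * a := by group
        _ = (b : G) * a := by rw [h3]
    have h5 := hfp a ha ha1 b b.2 h4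
    exact hb1 (Subtype.ext h5.symm)
  -- subgroups of `H` of order `p * q` are cyclic
  have hpq : ∀ (p q : ℕ) (A : Subgroup H), p.Prime → q.Prime → Nat.card A = p * q →
      IsCyclic A := by
    intro p q A hp hq hA
    obtain ⟨A', hA'def⟩ : ∃ A' : Subgroup G, A' = A.map H.subtype := ⟨_, rfl⟩
    have hA'H : A' ≤ H := by rw [hA'def]; exact Subgroup.map_subtype_le A
    have hA'card : Nat.card A' = p * q := by
      rw [hA'def, Subgroup.card_map_of_injective H.subtype_injective, hA]
    have hsolv : Group.IsSolvable A' :=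
      Cfsg.Agent.S0144.result p q 1 1 hp hq (by rw [pow_one, pow_one]; exact hA'card)
    have hcop : (Nat.card A').Coprime (Nat.card K) := by
      by_contra hnc
      obtain ⟨r, hr, hrA, hrK⟩ := Nat.Prime.not_coprime_iff_dvd.mp hnc
      have : Fact r.Prime := ⟨hr⟩
      obtain ⟨a, ha⟩ := exists_prime_orderOf_dvd_card' (G := A') r hrA
      exact hI1 r (a : G) hr (hA'H a.2) (by rw [Subgroup.orderOf_coe, ha]) hrK
    have hAK : A' ≤ Subgroup.normalizer (K : Set G) := by
      rw [Subgroup.normalizer_eq_top]; exact le_top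
    have hKc : Nat.card K ≠ 1 := fun h => hK (Subgroup.card_eq_one.mp h)
    obtain ⟨s, hs, hsK⟩ := Nat.exists_prime_and_dvd hKc
    have : Fact s.Prime := ⟨hs⟩
    have hbotn : A' ≤ Subgroup.normalizer (((⊥ : Subgroup G) : Subgroup G) : Set G) := by
      intro a _
      rw [Subgroup.mem_normalizer_iff]
      intro x
      rw [Subgroup.mem_bot, Subgroup.mem_bot]
      constructor
      · rintro rfl; group
      · intro h
        calc x = a⁻¹ * (a * x * a⁻¹) * a := by group
          _ = 1 := by rw [h]; group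
    obtain ⟨S, -, hSA⟩ := Cfsg.Agent.S0025.result A' K hAK hcop (Or.inl hsolv) s ⊥ bot_le
      IsPGroup.of_bot hbotn
    obtain ⟨Q, hQdef⟩ : ∃ Q : Subgroup G, Q = (S : Subgroup K).map K.subtype := ⟨_, rfl⟩
    have hQK : Q ≤ K := by rw [hQdef]; exact Subgroup.map_subtype_le _
    have hQA : A' ≤ Subgroup.normalizer (Q : Set G) := hQdef ▸ hSA
    have hQcard : Nat.card Q = Nat.card S := by
      rw [hQdef, Subgroup.card_map_of_injective K.subtype_injective]
    have hQp : IsPGroup s Q := by
      obtain ⟨n, hn⟩ := (S.2 : IsPGroup s (S : Subgroup K)).exists_card_eq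
      exact IsPGroup.of_card (hQcard.trans hn)
    have hQnt : Nontrivial Q := by
      rw [← Finite.one_lt_card_iff_nontrivial, hQcard]
      exact lt_of_lt_of_le hs.one_lt (Nat.le_of_dvd Nat.card_pos (S.dvd_card_of_dvd_card hsK))
    obtain ⟨V, hVdef⟩ : ∃ V : Subgroup G, V = Q ⊓ Subgroup.centralizer (Q : Set G) := ⟨_, rfl⟩
    have hVQ : V ≤ Q := hVdef ▸ inf_le_left
    have hVC : V ≤ Subgroup.centralizer (Q : Set G) := hVdef ▸ inf_le_right
    have hVcomm : IsMulCommutative V := by
      refine ⟨⟨fun a b => Subtype.ext ?_⟩⟩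
      have h1 := Subgroup.mem_centralizer_iff.mp (hVC b.2) a (hVQ a.2)
      exact h1
    have hVne : V ≠ ⊥ := by
      have hcn := hQp.center_nontrivial
      obtain ⟨z, hz1⟩ := exists_ne (1 : Subgroup.center Q)
      have hzc := z.2
      rw [Subgroup.mem_center_iff] at hzc
      have hzV : ((z : Q) : G) ∈ V := by
        rw [hVdef]
        refine ⟨(z : Q).2, Subgroup.mem_centralizer_iff.mpr ?_⟩
        intro u hu
        have h1 := hzc ⟨u, hu⟩
        exact congrArg Subtype.val h1
      intro hbot
      rw [hbot, Subgroup.mem_bot] at hzV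
      apply hz1
      apply Subtype.ext
      apply Subtype.ext
      exact hzV
    have hAV : A' ≤ Subgroup.normalizer (V : Set G) := by
      intro a ha
      apply Cfsg.Agent.S0045.mem_normalizer_of_conj_mem
      intro x hx
      rw [hVdef]
      refine ⟨(Subgroup.mem_normalizer_iff.mp (hQA ha) x).mp (hVQ hx),
        Subgroup.mem_centralizer_iff.mpr ?_⟩
      intro u hu
      have hu' : a⁻¹ * u * a ∈ Q := (Subgroup.mem_normalizer_iff''.mp (hQA ha) u).mp hu
      have hcomm := Subgroup.mem_centralizer_iff.mp (hVC hx) _ hu'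
      calc u * (a * x * a⁻¹) = a * ((a⁻¹ * u * a) * x) * a⁻¹ := by group
        _ = a * (x * (a⁻¹ * u * a)) * a⁻¹ := by rw [hcomm]
        _ = a * x * a⁻¹ * u := by group
    have hfpfV : ∀ a ∈ A', a ≠ 1 → V ⊓ Subgroup.centralizer {a} = ⊥ := by
      intro a ha ha1
      rw [eq_bot_iff, ← hfpf a (hA'H ha) ha1]
      exact inf_le_inf_right _ (hVQ.trans hQK)
    have hcyc : IsCyclic A' :=
      Cfsg.Agent.S0041.result A' V hVne hAV hfpfV (Or.inr ⟨p, q, hp, hq, hA'card⟩)
    have e := Subgroup.equivMapOfInjective A H.subtype H.subtype_injective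
    rw [hA'def] at hcyc
    exact isCyclic_of_surjective e.symm e.symm.surjective
  -- the even case: an involution of `H` inverts `K`, hence is central in `H`
  have heven : 2 ∣ Nat.card H → Subgroup.center H ≠ ⊥ := by
    intro h2
    have : Fact (Nat.Prime 2) := ⟨Nat.prime_two⟩
    obtain ⟨t, ht⟩ := exists_prime_orderOf_dvd_card' (G := H) 2 h2
    have ht1 : t ≠ 1 := by
      intro h
      rw [h, orderOf_one] at ht
      omega
    have htt : (t : G) * (t : G) = 1 := by
      have h1 := pow_orderOf_eq_one t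
      rw [ht, pow_two] at h1
      exact congrArg Subtype.val h1
    have hinv : ∀ s : G, s ∈ H → s ≠ 1 → s * s = 1 → ∀ k ∈ K, s * k * s⁻¹ = k⁻¹ := by
      intro s hs hs1 hss
      have hsinv : s⁻¹ = s := inv_eq_of_mul_eq_one_right hss
      let f : K → K := fun k =>
        ⟨(k : G)⁻¹ * (s * k * s⁻¹), K.mul_mem (K.inv_mem k.2) (hKn.conj_mem k k.2 s)⟩
      have hf : Function.Injective f := by
        intro k k' hkk
        have h1 : (k : G)⁻¹ * (s * k * s⁻¹) = (k' : G)⁻¹ * (s * k' * s⁻¹) :=
          congrArg Subtype.val hkk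
        have h2 : s * ((k' : G) * (k : G)⁻¹) = ((k' : G) * (k : G)⁻¹) * s := by
          calc s * ((k' : G) * (k : G)⁻¹)
              = (k' : G) * ((k' : G)⁻¹ * (s * k' * s⁻¹)) * s * (k : G)⁻¹ := by group
            _ = (k' : G) * ((k : G)⁻¹ * (s * k * s⁻¹)) * s * (k : G)⁻¹ := by rw [h1]
            _ = ((k' : G) * (k : G)⁻¹) * s := by group
        have h3 := hfp s hs hs1 _ (K.mul_mem k'.2 (K.inv_mem k.2)) h2
        apply Subtype.ext
        exact (mul_inv_eq_one.mp h3).symm
      have hsurj : Function.Surjective f := Finite.surjective_of_injective hf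
      intro k hk
      obtain ⟨k0, hk0⟩ := hsurj ⟨k, hk⟩
      have h1 : k = (k0 : G)⁻¹ * (s * k0 * s⁻¹) := (congrArg Subtype.val hk0).symm
      rw [h1]
      calc s * ((k0 : G)⁻¹ * (s * k0 * s⁻¹)) * s⁻¹
          = s * (k0 : G)⁻¹ * s * k0 * (s * s)⁻¹ := by group
        _ = s * (k0 : G)⁻¹ * s * k0 := by rw [hss, inv_one, mul_one]
        _ = s * (k0 : G)⁻¹ * s⁻¹ * k0 := by rw [hsinv]
        _ = ((k0 : G)⁻¹ * (s * k0 * s⁻¹))⁻¹ := by group
    have htc : ∀ h : H, h * t = t * h := by
      intro h
      obtain ⟨s, hs⟩ : ∃ s : G, s = (h : G) * t * (h : G)⁻¹ := ⟨_, rfl⟩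
      have hsH : s ∈ H := by
        rw [hs]; exact H.mul_mem (H.mul_mem h.2 t.2) (H.inv_mem h.2)
      have hss : s * s = 1 := by
        rw [hs]
        calc (h : G) * t * (h : G)⁻¹ * ((h : G) * t * (h : G)⁻¹)
            = (h : G) * ((t : G) * (t : G)) * (h : G)⁻¹ := by group
          _ = 1 := by rw [htt]; group
      have hs1 : s ≠ 1 := by
        intro h1
        have h2 : (h : G) * t * (h : G)⁻¹ = 1 := hs ▸ h1
        have h3 : (t : G) = 1 := by
          calc (t : G) = (h : G)⁻¹ * ((h : G) * t * (h : G)⁻¹) * h := by group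
            _ = 1 := by rw [h2]; group
        exact ht1 (Subtype.ext h3)
      have hts : (t : G) * s = 1 := by
        by_contra hne
        obtain ⟨k, hk, hk1⟩ : ∃ k ∈ K, k ≠ 1 := by
          by_contra hcon
          push Not at hcon
          exact hK ((Subgroup.eq_bot_iff_forall K).mpr hcon)
        have e1 := hinv s hsH hs1 hss k hk
        have e2 := hinv t t.2 (fun h => ht1 (Subtype.ext h)) htt k⁻¹ (K.inv_mem hk)
        rw [inv_inv] at e2
        have h3 : (t : G) * s * k = k * ((t : G) * s) := by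
          calc (t : G) * s * k = t * (s * k * s⁻¹) * (t : G)⁻¹ * (t * s) := by group
            _ = t * k⁻¹ * (t : G)⁻¹ * (t * s) := by rw [e1]
            _ = k * (t * s) := by rw [e2]
        exact hk1 (hfp _ (H.mul_mem t.2 hsH) hne k hk h3)
      have h4 : s = (t : G) := by
        calc s = ((t : G) * (t : G)) * s := by rw [htt, one_mul]
          _ = (t : G) * ((t : G) * s) := by group
          _ = (t : G) := by rw [hts, mul_one]
      apply Subtype.ext
      rw [Subgroup.coe_mul, Subgroup.coe_mul]
      calc (h : G) * t = ((h : G) * t * (h : G)⁻¹) * h := by group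
        _ = t * h := by rw [← hs, h4]
    intro hbot
    have h5 : t ∈ Subgroup.center H := Subgroup.mem_center_iff.mpr htc
    rw [hbot, Subgroup.mem_bot] at h5
    exact ht1 h5
  by_cases h2 : 2 ∣ Nat.card H
  · exact heven h2
  · have : Nontrivial H := (Subgroup.nontrivial_iff_ne_bot H).mpr hH
    exact center_ne_bot_of_odd h2 hpq

end Cfsg.Agent.S0069
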