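import Mathlib
import Cfsg.Statements.S0073
import Cfsg.Agent.Lib.Helper2.PComplement
import Cfsg.Agent.Lib.Helper2.NormCent

set_option autoImplicit false
open Cfsg

namespace Cfsg.Agent.S0073

/-- For a finite non-abelian simple group, either the cube of the least prime divisor of the order divides the order, or 12 does. -/
theorem result {G : Type*} [Group G] [Finite G] [IsSimpleGroup G] (hG : ∃ x y : G, x * y ≠ y * x) : (Nat.card G).minFac ^ 3 ∣ Nat.card G ∨ 12 ∣ Nat.card G := by
  by_contra hcon
  rw [not_or] at hcon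
  obtain ⟨hcube, h12⟩ := hcon
  have hcard1 : Nat.card G ≠ 1 := by
    intro h
    have := (Nat.card_eq_one_iff_unique.mp h).1
    obtain ⟨x, y, hxy⟩ := hG
    exact hxy (Subsingleton.elim _ _)
  obtain ⟨p, hpdef⟩ : ∃ p, p = (Nat.card G).minFac := ⟨_, rfl⟩
  rw [← hpdef] at hcube
  have hp : p.Prime := hpdef ▸ Nat.minFac_prime hcard1
  have hpG : p ∣ Nat.card G := hpdef ▸ Nat.minFac_dvd _
  have : Fact p.Prime := ⟨hp⟩
  let P : Sylow p G := default
  obtain ⟨k, hk⟩ := P.2.exists_card_eq
  have hPdvd : Nat.card P ∣ Nat.card G := Subgroup.card_subgroup_dvd_card (P : Subgroup G)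
  have hk2 : k ≤ 2 := by
    by_contra hk3
    rw [not_le] at hk3
    apply hcube
    refine dvd_trans (pow_dvd_pow p hk3) ?_
    rw [← hk]; exact hPdvd
  have hk1 : 1 ≤ k := by
    rcases Nat.eq_zero_or_pos k with h0 | h0
    · exfalso
      have := P.dvd_card_of_dvd_card hpG
      rw [hk, h0, pow_zero] at this
      exact hp.one_lt.ne' (Nat.dvd_one.mp this)
    · exact h0
  have hcomm : IsMulCommutative P := by
    have hk12 : k = 1 ∨ k = 2 := by omega
    rcases hk12 with rfl | rfl
    · rw [pow_one] at hk
      have : IsCyclic P := isCyclic_of_prime_card hk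
      infer_instance
    · exact IsPGroup.isMulCommutative_of_card_eq_prime_sq hk
  have hNC : Subgroup.normalizer (P : Set G) ≤ Subgroup.centralizer (P : Set G) := by
    apply Cfsg.Agent.Lib.Helper2.normalizer_le_centralizer_of_numeric P hcomm
    intro q hq hqp hqG d hd hlt hmod
    rw [hk] at hd hlt hmod
    have hpq : p < q := by
      have : p ≤ q := hpdef ▸ Nat.minFac_le_of_dvd hq.two_le hqG
      exact lt_of_le_of_ne this (Ne.symm hqp)
    obtain ⟨j, hj, rfl⟩ := (Nat.dvd_prime_pow hp).mp hd
    have hjk : j < k := by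
      rcases Nat.lt_or_ge j k with h | h
      · exact h
      · exfalso
        have : j = k := le_antisymm hj h
        rw [this] at hlt
        exact lt_irrefl _ hlt
    have h1 : q ∣ p ^ k - p ^ j := (Nat.modEq_iff_dvd' hlt.le).mp hmod.symm
    have hp1 : ¬ q ∣ p - 1 := by
      intro h
      have := Nat.le_of_dvd (Nat.sub_pos_of_lt hp.one_lt) h
      omega
    have hqp' : ¬ q ∣ p := by
      intro h
      exact hqp ((Nat.prime_dvd_prime_iff_eq hq hp).mp h)
    have hcases : (k = 1 ∧ j = 0) ∨ (k = 2 ∧ j = 0) ∨ (k = 2 ∧ j = 1) := by omega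
    rcases hcases with ⟨rfl, rfl⟩ | ⟨rfl, rfl⟩ | ⟨rfl, rfl⟩
    · rw [pow_one, pow_zero] at h1
      exact hp1 h1
    · rw [pow_zero] at h1
      have e : p ^ 2 - 1 = (p - 1) * (p + 1) := by
        have h1p : 1 ≤ p := hp.one_lt.le
        zify [h1p, Nat.one_le_pow 2 p h1p]
        ring
      rw [e] at h1
      rcases (Nat.Prime.dvd_mul hq).mp h1 with h | h
      · exact hp1 h
      · have hle := Nat.le_of_dvd (Nat.succ_pos p) h
        have hq' : q = p + 1 := by omega
        subst hq'
        -- p and p + 1 both prime: p = 2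
        have hp2 : p = 2 := by
          rcases Nat.Prime.eq_two_or_odd hp with h2 | hodd
          · exact h2
          · exfalso
            have heven : 2 ∣ p + 1 := by omega
            have := (Nat.prime_dvd_prime_iff_eq Nat.prime_two hq).mp heven
            have := hp.two_le
            omega
        subst hp2
        apply h12
        have h4 : 4 ∣ Nat.card G := by
          have : Nat.card P = 4 := by rw [hk]; norm_num
          rw [← this]; exact hPdvd
        have h3 : 3 ∣ Nat.card G := hqG
        exact Nat.Coprime.mul_dvd_of_dvd_of_dvd (by norm_num : Nat.Coprime 4 3) h4 h3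
    · rw [pow_one] at h1
      have e : p ^ 2 - p = p * (p - 1) := by
        have h1p : 1 ≤ p := hp.one_lt.le
        have : p ≤ p ^ 2 := by nlinarith
        zify [h1p, this]
        ring
      rw [e] at h1
      rcases (Nat.Prime.dvd_mul hq).mp h1 with h | h
      · exact hqp' h
      · exact hp1 h
  have hcompl := MonoidHom.ker_transferSylow_isComplement' P hNC
  rcases (MonoidHom.transferSylow P hNC).normal_ker.eq_bot_or_eq_top with hbot | htop
  · rw [hbot, Subgroup.isComplement'_bot_left] at hcompl
    obtain ⟨x, y, hxy⟩ := hG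
    apply hxy
    have hx : x ∈ (P : Subgroup G) := by rw [hcompl]; trivial
    have hy : y ∈ (P : Subgroup G) := by rw [hcompl]; trivial
    have := hcomm.is_comm.comm ⟨x, hx⟩ ⟨y, hy⟩
    exact congrArg Subtype.val this
  · rw [htop, Subgroup.isComplement'_top_left] at hcompl
    exact P.ne_bot_of_dvd_card hpG hcompl

end Cfsg.Agent.S0073
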