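import Mathlib
import Cfsg.Statements.S0074

set_option autoImplicit false
open Cfsg
open scoped commutatorElement

namespace Cfsg.Agent.S0074

/-- For an abelian Sylow p-subgroup P, the intersection of P with the derived subgroup of G equals its intersection with the derived subgroup of the normalizer of P. -/
theorem result {G : Type*} [Group G] [Finite G] {p : ℕ} [Fact p.Prime] (P : Sylow p G) (hP : IsMulCommutative P) : commutator G ⊓ (P : Subgroup G) = ⁅Subgroup.normalizer (P : Set G), Subgroup.normalizer (P : Set G)⁆ ⊓ (P : Subgroup G) := by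
  apply le_antisymm
  · rw [Subgroup.commutator_inf_eq_focalSubgroup P, Subgroup.focalSubgroup_def, Subgroup.closure_le]
    rintro g ⟨hgP, x, hxP, u, rfl⟩
    refine Subgroup.mem_inf.mpr ⟨?_, hgP⟩
    have hxinv : x⁻¹ ∈ (P : Subgroup G) := Subgroup.inv_mem _ hxP
    have hy : u⁻¹⁻¹ * x⁻¹ * u⁻¹ ∈ P := by
      have : u⁻¹⁻¹ * x⁻¹ * u⁻¹ = x⁻¹ * ⁅x, u⁆ := by
        rw [commutatorElement_def]; group
      rw [this]
      exact Subgroup.mul_mem _ hxinv hgP
    obtain ⟨n, hn, hnx⟩ := Sylow.conj_eq_normalizer_conj_of_mem P x⁻¹ u⁻¹ hxinv hy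
    have : ⁅x, u⁆ = ⁅x, n⁻¹⁆ := by
      rw [commutatorElement_def, commutatorElement_def]
      have e1 : x * u * x⁻¹ * u⁻¹ = x * (u⁻¹⁻¹ * x⁻¹ * u⁻¹) := by group
      have e2 : x * n⁻¹ * x⁻¹ * n⁻¹⁻¹ = x * (n⁻¹ * x⁻¹ * n) := by group
      rw [e1, e2, hnx]
    rw [this]
    exact Subgroup.commutator_mem_commutator (Subgroup.le_normalizer hxP) (Subgroup.inv_mem _ hn)
  · apply inf_le_inf_right
    rw [commutator_def]
    exact Subgroup.commutator_mono le_top le_top

end Cfsg.Agent.S0074
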