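import Mathlib
import Cfsg.Statements.S0076

set_option autoImplicit false
open Cfsg

namespace Cfsg.Agent.S0076

theorem sylow_conj_in_subgroup {G : Type*} [Group G] [Finite G] {p : ℕ} [Fact p.Prime] (P Q : Sylow p G) (N : Subgroup G)
    (hP : (P : Subgroup G) ≤ N) (hQ : (Q : Subgroup G) ≤ N) : ∃ n ∈ N, n • P = Q := by
  obtain ⟨n, hn⟩ := MulAction.exists_smul_eq N (P.subtype hP) (Q.subtype hQ)
  refine ⟨n, n.2, ?_⟩
  have h1 := Sylow.smul_subtype hP n
  rw [hn] at h1
  have h2 := Sylow.subtype_injective h1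
  exact h2.symm

theorem mem_smul_sylow_iff {G : Type*} [Group G] {p : ℕ} (P : Sylow p G) (g x : G) :
    x ∈ ((g • P : Sylow p G) : Subgroup G) ↔ g⁻¹ * x * g ∈ (P : Subgroup G) := by
  rw [Sylow.coe_subgroup_smul, Subgroup.mem_pointwise_smul_iff_inv_smul_mem]
  simp

theorem image_conj_mul {G : Type*} [Group G] (a b : G) (S : Set G) :
    (fun y => a * y * a⁻¹) '' ((fun y => b * y * b⁻¹) '' S) = (fun y => (a * b) * y * (a * b)⁻¹) '' S := by
  rw [Set.image_image]
  congr 1
  funext y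
  group

theorem mem_normalizer_of_image {G : Type*} [Group G] (a : G) (S : Set G)
    (h : (fun y => a * y * a⁻¹) '' S = S) : a ∈ Subgroup.normalizer S :=
  Subgroup.mem_normalizer_iff_conj_image_eq.mpr h

theorem image_of_mem_normalizer {G : Type*} [Group G] (a : G) (S : Set G)
    (h : a ∈ Subgroup.normalizer S) : (fun y => a * y * a⁻¹) '' S = S :=
  Subgroup.mem_normalizer_iff_conj_image_eq.mp h

/-- Two P-invariant subsets of a Sylow p-subgroup P that are conjugate in G are conjugate under the normalizer of P. -/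
theorem result {G : Type*} [Group G] [Finite G] {p : ℕ} [Fact p.Prime] (P : Sylow p G) (X Y : Set G) (hXP : X ⊆ P) (hYP : Y ⊆ P) (hX : ∀ x ∈ P, (fun y => x * y * x⁻¹) '' X = X) (hY : ∀ x ∈ P, (fun y => x * y * x⁻¹) '' Y = Y) (g : G) (hg : (fun y => g * y * g⁻¹) '' X = Y) : ∃ n ∈ Subgroup.normalizer (P : Set G), (fun y => n * y * n⁻¹) '' X = Y := by
  have hPN : (P : Subgroup G) ≤ Subgroup.normalizer Y := fun x hx => mem_normalizer_of_image x Y (hY x hx)
  have hQN : ((g • P : Sylow p G) : Subgroup G) ≤ Subgroup.normalizer Y := by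
    intro q hq
    rw [mem_smul_sylow_iff] at hq
    apply mem_normalizer_of_image
    have h1 := hX _ hq
    rw [← hg, image_conj_mul]
    have h2 : (fun y => (q * g) * y * (q * g)⁻¹) '' X
        = (fun y => g * y * g⁻¹) '' ((fun y => (g⁻¹ * q * g) * y * (g⁻¹ * q * g)⁻¹) '' X) := by
      rw [image_conj_mul]
      congr 1
      funext y
      group
    rw [h2, h1]
  obtain ⟨h, hh, hhQ⟩ := sylow_conj_in_subgroup (g • P) P _ hQN hPN
  rw [← mul_smul, Sylow.smul_eq_iff_mem_normalizer] at hhQ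
  refine ⟨h * g, hhQ, ?_⟩
  rw [← image_conj_mul, hg]
  exact image_of_mem_normalizer h Y hh

end Cfsg.Agent.S0076
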