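import Mathlib
import Cfsg.Statements.S0077
import Cfsg.Agent.S0104

set_option autoImplicit false
open Cfsg
open scoped commutatorElement

namespace Cfsg.Agent.S0077

open Cfsg.Agent.S0104 in
/-- Fusion of elements of `P` is controlled by the normalizer of a weakly closed central `Z`. -/
theorem fusion_key {G : Type*} [Group G] [Finite G] {p : ℕ} [Fact p.Prime] (P : Sylow p G)
    (Z : Subgroup G) (hZ : Z ≤ Subgroup.centralizer (P : Set G)) (hW : Cfsg.IsWeaklyClosed Z P)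
    (x u : G) (hx : x ∈ (P : Subgroup G)) (hy : u * x * u⁻¹ ∈ (P : Subgroup G)) :
    ∃ h ∈ Subgroup.normalizer (Z : Set G), h * x * h⁻¹ = u * x * u⁻¹ := by
  have hZC : Z ≤ Subgroup.centralizer ({u * x * u⁻¹} : Set G) := by
    intro z hz
    rw [Subgroup.mem_centralizer_iff]
    intro w hw
    rw [Set.mem_singleton_iff] at hw
    rw [hw]
    exact (Subgroup.mem_centralizer_iff.mp (hZ hz)) _ hy
  have hZuC : Z.map (MulAut.conj u).toMonoidHom ≤ Subgroup.centralizer ({u * x * u⁻¹} : Set G) := by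
    intro w hw
    rw [mem_map_conj_iff] at hw
    have h1 := (Subgroup.mem_centralizer_iff.mp (hZ hw)) x hx
    rw [Subgroup.mem_centralizer_iff]
    intro v hv
    rw [Set.mem_singleton_iff] at hv
    rw [hv]
    calc u * x * u⁻¹ * w = u * (x * (u⁻¹ * w * u)) * u⁻¹ := by group
      _ = u * (u⁻¹ * w * u * x) * u⁻¹ := by rw [h1]
      _ = w * (u * x * u⁻¹) := by group
  have hZp : IsPGroup p Z := P.isPGroup'.to_le hW.1
  have hZup : IsPGroup p (Z.map (MulAut.conj u).toMonoidHom) := hZp.map _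
  obtain ⟨R, hR⟩ := (hZp.comap_subtype (K := Subgroup.centralizer ({u * x * u⁻¹} : Set G))).exists_le_sylow
  obtain ⟨S, hS⟩ := (hZup.comap_subtype (K := Subgroup.centralizer ({u * x * u⁻¹} : Set G))).exists_le_sylow
  obtain ⟨c, hc⟩ := MulAction.exists_smul_eq (Subgroup.centralizer ({u * x * u⁻¹} : Set G)) R S
  obtain ⟨Q, hQ⟩ := (S.isPGroup'.map (Subgroup.centralizer ({u * x * u⁻¹} : Set G)).subtype).exists_le_sylow
  obtain ⟨v, hv⟩ := MulAction.exists_smul_eq G P Q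
  have h1 : Z.map (MulAut.conj (v⁻¹ * c)).toMonoidHom ≤ P := by
    intro w hw
    rw [mem_map_conj_iff] at hw
    have hzR : (⟨(v⁻¹ * c)⁻¹ * w * (v⁻¹ * c), hZC hw⟩ : Subgroup.centralizer ({u * x * u⁻¹} : Set G)) ∈ (R : Subgroup _) := by
      apply hR
      exact hw
    have hzS : c * (⟨(v⁻¹ * c)⁻¹ * w * (v⁻¹ * c), hZC hw⟩ : Subgroup.centralizer ({u * x * u⁻¹} : Set G)) * c⁻¹ ∈ (S : Subgroup _) := by
      rw [← hc, mem_smul_sylow_iff]
      simpa [mul_assoc] using hzR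
    have hzQ : (c : G) * ((v⁻¹ * c)⁻¹ * w * (v⁻¹ * c)) * (c : G)⁻¹ ∈ (Q : Subgroup G) := by
      apply hQ
      exact ⟨_, hzS, rfl⟩
    rw [← hv, mem_smul_sylow_iff] at hzQ
    have e : v⁻¹ * ((c : G) * ((v⁻¹ * c)⁻¹ * w * (v⁻¹ * c)) * (c : G)⁻¹) * v = w := by group
    rwa [e] at hzQ
  have h2 : Z.map (MulAut.conj (v⁻¹ * u)).toMonoidHom ≤ P := by
    intro w hw
    rw [mem_map_conj_iff] at hw
    have hmem : u * ((v⁻¹ * u)⁻¹ * w * (v⁻¹ * u)) * u⁻¹ ∈ Z.map (MulAut.conj u).toMonoidHom := by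
      rw [mem_map_conj_iff]
      have e : u⁻¹ * (u * ((v⁻¹ * u)⁻¹ * w * (v⁻¹ * u)) * u⁻¹) * u = (v⁻¹ * u)⁻¹ * w * (v⁻¹ * u) := by group
      rw [e]; exact hw
    have hzS : (⟨u * ((v⁻¹ * u)⁻¹ * w * (v⁻¹ * u)) * u⁻¹, hZuC hmem⟩ : Subgroup.centralizer ({u * x * u⁻¹} : Set G)) ∈ (S : Subgroup _) := by
      apply hS
      exact hmem
    have hzQ : u * ((v⁻¹ * u)⁻¹ * w * (v⁻¹ * u)) * u⁻¹ ∈ (Q : Subgroup G) := by
      apply hQ
      exact ⟨_, hzS, rfl⟩
    rw [← hv, mem_smul_sylow_iff] at hzQ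
    have e : v⁻¹ * (u * ((v⁻¹ * u)⁻¹ * w * (v⁻¹ * u)) * u⁻¹) * v = w := by group
    rwa [e] at hzQ
  have n1 : v⁻¹ * (c : G) ∈ Subgroup.normalizer (Z : Set G) :=
    Subgroup.mem_normalizer_iff_map_conj_eq.mpr (hW.2 _ h1)
  have n2 : v⁻¹ * u ∈ Subgroup.normalizer (Z : Set G) :=
    Subgroup.mem_normalizer_iff_map_conj_eq.mpr (hW.2 _ h2)
  refine ⟨(v⁻¹ * (c : G))⁻¹ * (v⁻¹ * u), Subgroup.mul_mem _ (Subgroup.inv_mem _ n1) n2, ?_⟩
  have hcc := (Subgroup.mem_centralizer_iff.mp c.2) (u * x * u⁻¹) (Set.mem_singleton _)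
  calc (v⁻¹ * (c : G))⁻¹ * (v⁻¹ * u) * x * ((v⁻¹ * (c : G))⁻¹ * (v⁻¹ * u))⁻¹
      = (c : G)⁻¹ * (u * x * u⁻¹ * c) := by group
    _ = (c : G)⁻¹ * (c * (u * x * u⁻¹)) := by rw [hcc]
    _ = u * x * u⁻¹ := by group

/-- If a subgroup Z of the centre of a Sylow p-subgroup P is weakly closed in P, then P meets the derived subgroup of G exactly where it meets the derived subgroup of the normalizer of Z. -/
theorem result {G : Type*} [Group G] [Finite G] {p : ℕ} [Fact p.Prime] (P : Sylow p G) (Z : Subgroup G) (hZ : Z ≤ Subgroup.centralizer (P : Set G)) (hW : Cfsg.IsWeaklyClosed Z P) : commutator G ⊓ (P : Subgroup G) = ⁅Subgroup.normalizer (Z : Set G), Subgroup.normalizer (Z : Set G)⁆ ⊓ (P : Subgroup G) := by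
  have hPN : (P : Subgroup G) ≤ Subgroup.normalizer (Z : Set G) := by
    intro x hx
    rw [Subgroup.mem_normalizer_iff]
    intro z
    constructor
    · intro hz
      have h1 := (Subgroup.mem_centralizer_iff.mp (hZ hz)) x hx
      have e : x * z * x⁻¹ = z := by rw [h1]; group
      rw [e]; exact hz
    · intro hz
      have h1 := (Subgroup.mem_centralizer_iff.mp (hZ hz)) x hx
      have e : z = x * z * x⁻¹ := by
        calc z = x⁻¹ * (x * z * x⁻¹ * x) := by group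
          _ = x⁻¹ * (x * (x * z * x⁻¹)) := by rw [h1]
          _ = x * z * x⁻¹ := by group
      rw [e]; exact hz
  apply le_antisymm
  · apply le_inf _ inf_le_right
    rw [Subgroup.commutator_inf_eq_focalSubgroup, Subgroup.focalSubgroup_def, Subgroup.closure_le]
    rintro g ⟨hgP, x, hxP, u, rfl⟩
    have hy : u * x * u⁻¹ ∈ (P : Subgroup G) := by
      have e : u * x * u⁻¹ = ⁅x, u⁆⁻¹ * x := by rw [commutatorElement_def]; group
      rw [e]
      exact Subgroup.mul_mem _ (Subgroup.inv_mem _ hgP) hxP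
    obtain ⟨h, hh, hhx⟩ := fusion_key P Z hZ hW x u hxP hy
    have e : ⁅x, u⁆ = ⁅x, h⁆ := by
      rw [commutatorElement_def, commutatorElement_def]
      calc x * u * x⁻¹ * u⁻¹ = x * (u * x * u⁻¹)⁻¹ := by group
        _ = x * (h * x * h⁻¹)⁻¹ := by rw [hhx]
        _ = x * h * x⁻¹ * h⁻¹ := by group
    rw [e]
    exact Subgroup.commutator_mem_commutator (hPN hxP) hh
  · apply inf_le_inf_right
    rw [commutator_def]
    exact Subgroup.commutator_mono le_top le_top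

end Cfsg.Agent.S0077
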