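import Mathlib
import Cfsg.Statements.S0083

set_option autoImplicit false
open Cfsg
open scoped commutatorElement

namespace Cfsg.Agent.S0083

/-- For an abelian Sylow p-subgroup P, a normal p-complement exists exactly when the normalizer of P is an internal direct product of P with some subgroup. -/
theorem result {G : Type*} [Group G] [Finite G] {p : ℕ} [Fact p.Prime] (P : Sylow p G) (hP : IsMulCommutative P) : Cfsg.HasNormalPComplement p G ↔ ∃ Q : Subgroup G, Q ≤ Subgroup.centralizer (P : Set G) ∧ Q ⊓ (P : Subgroup G) = ⊥ ∧ Q ⊔ (P : Subgroup G) = Subgroup.normalizer (P : Set G) := by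
  have hp : p.Prime := Fact.out
  constructor
  · rintro ⟨P', N, hNn, hNc⟩
    -- N is also a complement of P
    have hcard : Nat.card (P : Subgroup G) = Nat.card (P' : Subgroup G) := by
      rw [Sylow.card_eq_multiplicity, Sylow.card_eq_multiplicity]
    have hNP : N.IsComplement' (P : Subgroup G) := by
      apply Subgroup.isComplement'_of_coprime
      · rw [hcard]; exact hNc.card_mul_card
      · have h1 : (P' : Subgroup G).index = Nat.card N := hNc.index_eq_card
        rw [← h1, hcard]
        exact (P'.card_coprime_index).symm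
    have hdisj : N ⊓ (P : Subgroup G) = ⊥ := disjoint_iff.mp hNP.disjoint
    refine ⟨N ⊓ Subgroup.normalizer (P : Set G), ?_, ?_, ?_⟩
    · intro q hq
      obtain ⟨hqN, hqn⟩ := Subgroup.mem_inf.mp hq
      rw [Subgroup.mem_centralizer_iff]
      intro x hx
      have hx' : x ∈ (P : Subgroup G) := hx
      have h1 : q * x * q⁻¹ * x⁻¹ ∈ N := by
        have : q * x * q⁻¹ * x⁻¹ = q * (x * q⁻¹ * x⁻¹) := by group
        rw [this]
        exact N.mul_mem hqN (hNn.conj_mem _ (N.inv_mem hqN) x)
      have h2 : q * x * q⁻¹ * x⁻¹ ∈ (P : Subgroup G) := by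
        have h3 : q * x * q⁻¹ ∈ (P : Subgroup G) := (Subgroup.mem_normalizer_iff.mp hqn x).mp hx'
        exact Subgroup.mul_mem _ h3 (Subgroup.inv_mem _ hx')
      have h4 : q * x * q⁻¹ * x⁻¹ ∈ N ⊓ (P : Subgroup G) := Subgroup.mem_inf.mpr ⟨h1, h2⟩
      rw [hdisj, Subgroup.mem_bot] at h4
      have : x * q = (q * x * q⁻¹ * x⁻¹)⁻¹ * (q * x) := by group
      rw [this, h4, inv_one, one_mul]
    · rw [eq_bot_iff, ← hdisj]
      exact inf_le_inf_right _ inf_le_left
    · apply le_antisymm
      · exact sup_le inf_le_right Subgroup.le_normalizer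
      · intro n hn
        obtain ⟨⟨a, b⟩, hab⟩ := hNP.2 n
        simp only at hab
        have hb : (b : G) ∈ Subgroup.normalizer ((P : Subgroup G) : Set G) := Subgroup.le_normalizer b.2
        have ha : (a : G) ∈ Subgroup.normalizer ((P : Subgroup G) : Set G) := by
          have : (a : G) = n * (b : G)⁻¹ := by rw [← hab]; group
          rw [this]
          exact Subgroup.mul_mem _ hn (Subgroup.inv_mem _ hb)
        rw [← hab]
        exact Subgroup.mul_mem _ (Subgroup.mem_sup_left (Subgroup.mem_inf.mpr ⟨a.2, ha⟩))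
          (Subgroup.mem_sup_right b.2)
  · rintro ⟨Q, hQc, _, hQP⟩
    have hPc : (P : Subgroup G) ≤ Subgroup.centralizer (P : Set G) := Subgroup.le_centralizer (P : Subgroup G)
    have hN : Subgroup.normalizer (P : Set G) ≤ Subgroup.centralizer (P : Set G) := by
      rw [← hQP]
      exact sup_le hQc hPc
    exact ⟨P, (MonoidHom.transferSylow P hN).ker, inferInstance, MonoidHom.ker_transferSylow_isComplement' P hN⟩

end Cfsg.Agent.S0083
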