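import Mathlib
import Cfsg.Statements.S0084
import Cfsg.Agent.Lib.Helper24.NormCent

set_option autoImplicit false
open Cfsg

namespace Cfsg.Agent.S0084

/-- A group whose Sylow 2-subgroups are Klein four-groups and whose order is prime to 3 has a normal 2-complement. -/
theorem result {G : Type*} [Group G] [Finite G] (T : Sylow 2 G) (hT : IsKleinFour T) (h3 : ¬ 3 ∣ Nat.card G) : Cfsg.HasNormalPComplement 2 G := by
  have hTc : IsMulCommutative (T : Subgroup G) := IsKleinFour.isMulCommutative
  have hcard : Nat.card (T : Subgroup G) = 4 := IsKleinFour.card_four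
  apply Cfsg.Agent.Lib.Helper24.hasNormalPComplement_of_relIndex T
  have h1 := Cfsg.Agent.Lib.Helper24.relIndex_dvd_factorial (T : Subgroup G)
  rw [hcard] at h1
  have h2 := Cfsg.Agent.Lib.Helper24.relIndex_coprime_sylow T hTc
  have h4 := Cfsg.Agent.Lib.Helper24.relIndex_dvd_card_group (T : Subgroup G)
  have h5 : Nat.Coprime ((Subgroup.centralizer ((T : Subgroup G) : Set G)).relIndex
      (Subgroup.normalizer ((T : Subgroup G) : Set G))) 3 := by
    rw [Nat.coprime_comm, Nat.Prime.coprime_iff_not_dvd Nat.prime_three]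
    exact fun h => h3 (h.trans h4)
  have h6 : Nat.Coprime ((Subgroup.centralizer ((T : Subgroup G) : Set G)).relIndex
      (Subgroup.normalizer ((T : Subgroup G) : Set G))) (Nat.factorial 4) := by
    have : Nat.factorial 4 = 2 ^ 3 * 3 := by decide
    rw [this]
    exact Nat.Coprime.mul_right (Nat.Coprime.pow_right 3 h2) h5
  exact Nat.Coprime.eq_one_of_dvd h6 h1

end Cfsg.Agent.S0084
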