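import Mathlib
import Cfsg.Statements.S0085
import Cfsg.Agent.Lib.Helper24.NormCent

set_option autoImplicit false
open Cfsg

namespace Cfsg.Agent.S0085

/-- a group of automorphisms of order 5 of a group of order 8 is impossible -/
theorem no_five {M : Type*} [Group M] [Finite M] (h8 : Nat.card M = 8) (A : Subgroup (MulAut M))
    (hA : Nat.card A = 5) : False := by
  have : Fact (Nat.Prime 5) := ⟨by norm_num⟩
  have hAp : IsPGroup 5 A := IsPGroup.of_card (n := 1) (by rw [hA]; norm_num)
  have hmod := hAp.card_modEq_card_fixedPoints M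
  have hFcard : Nat.card (FixedPoints.subgroup A M) = Nat.card (MulAction.fixedPoints A M) := rfl
  have hdvd : Nat.card (FixedPoints.subgroup A M) ∣ Nat.card M := Subgroup.card_subgroup_dvd_card _
  rw [← hFcard, h8] at hmod
  rw [h8] at hdvd
  have hF8 : Nat.card (FixedPoints.subgroup A M) = 8 := by
    obtain ⟨c, hc⟩ : ∃ c, Nat.card (FixedPoints.subgroup A M) = c := ⟨_, rfl⟩
    rw [hc] at hmod hdvd ⊢
    have hle : c ≤ 8 := Nat.le_of_dvd (by norm_num) hdvd
    unfold Nat.ModEq at hmod
    interval_cases c <;> omega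
  have htop : FixedPoints.subgroup A M = ⊤ := by
    rw [← Subgroup.card_eq_iff_eq_top, hF8, h8]
  have hbot : A = ⊥ := by
    rw [eq_bot_iff]
    intro a ha
    rw [Subgroup.mem_bot]
    apply MulEquiv.ext
    intro t
    have ht : t ∈ FixedPoints.subgroup A M := by rw [htop]; exact Subgroup.mem_top _
    have := (FixedPoints.mem_subgroup A M t).mp ht ⟨a, ha⟩
    exact this
  rw [hbot] at hA
  simp at hA

/-- A group whose Sylow 2-subgroups are elementary abelian of order 8 and whose order is prime to 3 and to 7 has a normal 2-complement. -/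
theorem result {G : Type*} [Group G] [Finite G] (T : Sylow 2 G) (h8 : Nat.card T = 8) (he : ∀ x : T, x * x = 1) (h3 : ¬ 3 ∣ Nat.card G) (h7 : ¬ 7 ∣ Nat.card G) : Cfsg.HasNormalPComplement 2 G := by
  have hTc : IsMulCommutative (T : Subgroup G) := by
    refine ⟨⟨fun a b => ?_⟩⟩
    have ha : a⁻¹ = a := inv_eq_of_mul_eq_one_left (he a)
    have hb : b⁻¹ = b := inv_eq_of_mul_eq_one_left (he b)
    have hab : (a * b)⁻¹ = a * b := inv_eq_of_mul_eq_one_left (he (a * b))
    calc a * b = (a * b)⁻¹ := hab.symm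
      _ = b⁻¹ * a⁻¹ := mul_inv_rev a b
      _ = b * a := by rw [ha, hb]
  have hcard : Nat.card (T : Subgroup G) = 8 := h8
  apply Cfsg.Agent.Lib.Helper24.hasNormalPComplement_of_relIndex T
  have h1 := Cfsg.Agent.Lib.Helper24.relIndex_dvd_factorial (T : Subgroup G)
  rw [hcard] at h1
  have h2 := Cfsg.Agent.Lib.Helper24.relIndex_coprime_sylow T hTc
  have h4 := Cfsg.Agent.Lib.Helper24.relIndex_dvd_card_group (T : Subgroup G)
  have h5 : Nat.Coprime ((Subgroup.centralizer ((T : Subgroup G) : Set G)).relIndex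
      (Subgroup.normalizer ((T : Subgroup G) : Set G))) 3 := by
    rw [Nat.coprime_comm, Nat.Prime.coprime_iff_not_dvd Nat.prime_three]
    exact fun h => h3 (h.trans h4)
  have h6 : Nat.Coprime ((Subgroup.centralizer ((T : Subgroup G) : Set G)).relIndex
      (Subgroup.normalizer ((T : Subgroup G) : Set G))) 7 := by
    rw [Nat.coprime_comm, Nat.Prime.coprime_iff_not_dvd (by norm_num)]
    exact fun h => h7 (h.trans h4)
  have h7' : (Subgroup.centralizer ((T : Subgroup G) : Set G)).relIndex
      (Subgroup.normalizer ((T : Subgroup G) : Set G)) ∣ 5 := by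
    have e : Nat.factorial 8 = 2 ^ 7 * (3 ^ 2 * (7 * 5)) := by decide
    rw [e] at h1
    have a1 := Nat.Coprime.dvd_of_dvd_mul_left (Nat.Coprime.pow_right 7 h2) h1
    have a2 := Nat.Coprime.dvd_of_dvd_mul_left (Nat.Coprime.pow_right 2 h5) a1
    exact Nat.Coprime.dvd_of_dvd_mul_left h6 a2
  rcases (Nat.dvd_prime (by norm_num : Nat.Prime 5)).mp h7' with h | h
  · exact h
  · exfalso
    have hidx : (T : Subgroup G).normalizerMonoidHom.ker.index = 5 := by
      rw [Subgroup.normalizerMonoidHom_ker]
      exact h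
    rw [Subgroup.index_ker] at hidx
    exact no_five hcard _ hidx

end Cfsg.Agent.S0085
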