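-- Statement S0087: Burnside's theorem for Hall subgroups.
import Cfsg.Statements.S0087
import Cfsg.Agent.Lib.Helper1.SZConj

set_option autoImplicit false
open Cfsg

namespace Cfsg.Agent.S0087

open scoped IsMulCommutative
open Pointwise

universe u

/-- Transfer into an abelian Hall subgroup which controls its own fusion gives a normal
complement. -/
theorem hall_transfer_complement {G : Type*} [Group G] [Finite G] (H : Subgroup G)
    [IsMulCommutative H] (hHall : Nat.Coprime (Nat.card H) H.index)
    (hfus : ∀ x ∈ H, ∀ g : G, g⁻¹ * x * g ∈ H → g⁻¹ * x * g = x) :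
    ∃ N : Subgroup G, N.Normal ∧ N.IsComplement' H := by
  obtain ⟨V, hVdef⟩ : ∃ V : G →* H, V = MonoidHom.transfer (MonoidHom.id H) := ⟨_, rfl⟩
  have hV : ∀ x : H, V (x : G) = x ^ H.index := by
    intro x
    rw [hVdef, MonoidHom.transfer_eq_pow (MonoidHom.id H) (x : G)
      (fun k g₀ hk => hfus _ (H.pow_mem x.2 k) g₀ hk)]
    apply Subtype.ext
    simp
  refine ⟨V.ker, inferInstance, Subgroup.isComplement'_of_disjoint_and_mul_eq_univ ?_ ?_⟩
  · rw [Subgroup.disjoint_def]
    intro x hxK hxH
    have h1 := hV ⟨x, hxH⟩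
    rw [show ((⟨x, hxH⟩ : H) : G) = x from rfl, MonoidHom.mem_ker.mp hxK] at h1
    have h2 : (⟨x, hxH⟩ : H) = 1 := by
      apply (powCoprime hHall).injective
      rw [powCoprime_apply, powCoprime_apply, one_pow]
      exact h1.symm
    exact congrArg Subtype.val h2
  · rw [Set.eq_univ_iff_forall]
    intro g
    obtain ⟨h, hh⟩ : ∃ h : H, h ^ H.index = V g := ⟨(powCoprime hHall).symm (V g), by
      rw [← powCoprime_apply hHall, Equiv.apply_symm_apply]⟩
    rw [Set.mem_mul]
    refine ⟨g * (h : G)⁻¹, ?_, h, h.2, inv_mul_cancel_right _ _⟩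
    show g * (h : G)⁻¹ ∈ V.ker
    rw [MonoidHom.mem_ker, map_mul, map_inv, hV, hh, mul_inv_cancel]

/-- Burnside's theorem for Hall subgroups, by induction on the order of the group. -/
theorem main : ∀ (n : ℕ) (G : Type u) [Group G] [Finite G] (H : Subgroup G), Nat.card G = n →
    Nat.Coprime (Nat.card H) H.index →
    Subgroup.normalizer (H : Set G) ≤ Subgroup.centralizer (H : Set G) →
    ∃ N : Subgroup G, N.Normal ∧ N.IsComplement' H := by
  intro n
  induction n using Nat.strong_induction_on with
  | _ n ih =>
    intro G _ _ H hn hHall hNC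
    have hcomm : ∀ a ∈ H, ∀ b ∈ H, a * b = b * a := by
      intro a ha b hb
      exact Subgroup.mem_centralizer_iff.mp (hNC (Subgroup.le_normalizer hb)) a ha
    have : IsMulCommutative H := ⟨⟨fun a b => Subtype.ext (hcomm a a.2 b b.2)⟩⟩
    apply hall_transfer_complement H hHall
    intro x hx g hy
    obtain ⟨y, hydef⟩ : ∃ y, y = g⁻¹ * x * g := ⟨_, rfl⟩
    rw [← hydef] at hy ⊢
    obtain ⟨D, hDdef⟩ : ∃ D : Subgroup G, D = Subgroup.centralizer {y} := ⟨_, rfl⟩
    have hDmem : ∀ d, d ∈ D ↔ y * d = d * y := by
      intro d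
      rw [hDdef, Subgroup.mem_centralizer_iff]
      simp
    by_cases hD : D = ⊤
    · have hg : g ∈ D := hD ▸ Subgroup.mem_top g
      have h1 := (hDmem g).mp hg
      have h2 : y * g = x * g := by
        rw [h1, hydef]; group
      exact mul_right_cancel h2
    · have hlt : Nat.card D < n := by
        rw [← hn]
        refine lt_of_le_of_ne (Subgroup.card_le_card_group D) ?_
        intro h
        exact hD (Subgroup.eq_top_of_card_eq D h)
      have hHD : H ≤ D := fun h hh => (hDmem h).mpr (hcomm y hy h hh)
      have hcardH : Nat.card (H.subgroupOf D) = Nat.card H :=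
        Nat.card_congr (Subgroup.subgroupOfEquivOfLe hHD).toEquiv
      have hHall' : Nat.Coprime (Nat.card (H.subgroupOf D)) (H.subgroupOf D).index := by
        rw [hcardH]
        exact Nat.Coprime.coprime_dvd_right (Subgroup.relIndex_dvd_index_of_le hHD) hHall
      have hNC' : Subgroup.normalizer ((H.subgroupOf D : Subgroup D) : Set D)
          ≤ Subgroup.centralizer ((H.subgroupOf D : Subgroup D) : Set D) := by
        intro d hd
        have h1 : (d : G) ∈ Subgroup.normalizer (H : Set G) := by
          apply Subgroup.mem_normalizer_fintype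
          intro h hh
          have := (Subgroup.mem_normalizer_iff.mp hd ⟨h, hHD hh⟩).mp
            (Subgroup.mem_subgroupOf.mpr hh)
          exact Subgroup.mem_subgroupOf.mp this
        have h2 := hNC h1
        rw [Subgroup.mem_centralizer_iff] at h2 ⊢
        intro e he
        apply Subtype.ext
        exact h2 e (Subgroup.mem_subgroupOf.mp he)
      obtain ⟨K, hKn, hKc⟩ := ih (Nat.card D) hlt D (H.subgroupOf D) rfl hHall' hNC'
      -- the second complement of `K` in `D`
      have hBD : MulAut.conj g⁻¹ • H ≤ D := by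
        intro b hb
        rw [Cfsg.Agent.Lib.Helper1.mem_conj_smul, inv_inv] at hb
        rw [hDmem, hydef]
        have h1 := hcomm x hx _ hb
        have h2 : g⁻¹ * x * g * b = g⁻¹ * (x * (g * b * g⁻¹)) * g := by group
        have h3 : b * (g⁻¹ * x * g) = g⁻¹ * ((g * b * g⁻¹) * x) * g := by group
        rw [h2, h3, h1]
      have hcardB : Nat.card ((MulAut.conj g⁻¹ • H).subgroupOf D) = Nat.card (H.subgroupOf D) := by
        rw [hcardH, Nat.card_congr (Subgroup.subgroupOfEquivOfLe hBD).toEquiv]
        exact (Nat.card_congr (Subgroup.equivSMul (MulAut.conj g⁻¹) H).toEquiv).symm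
      have hidx : K.index = Nat.card (H.subgroupOf D) := hKc.symm.index_eq_card
      have hcopK : (Nat.card K).Coprime K.index := by
        rw [hidx, ← hKc.index_eq_card]
        exact hHall'.symm
      have hsolv : Group.IsSolvable K ∨ Group.IsSolvable (H.subgroupOf D) := by
        right
        apply Group.isSolvable_of_comm
        intro a b
        apply Subtype.ext
        apply Subtype.ext
        exact hcomm _ (Subgroup.mem_subgroupOf.mp a.2) _ (Subgroup.mem_subgroupOf.mp b.2)
      obtain ⟨k, -, hk⟩ := Cfsg.Agent.Lib.Helper1.sz_conj_mem' K hcopK (H.subgroupOf D)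
        ((MulAut.conj g⁻¹ • H).subgroupOf D) hsolv hidx.symm (hcardB.trans hidx.symm)
      -- `g * k` normalises `H`
      have hnorm : g * (k : G) ∈ Subgroup.normalizer (H : Set G) := by
        apply Subgroup.mem_normalizer_fintype
        intro h hh
        have h1 : k * ⟨h, hHD hh⟩ * k⁻¹ ∈ MulAut.conj k • (H.subgroupOf D) := by
          rw [Cfsg.Agent.Lib.Helper1.mem_conj_smul]
          have : k⁻¹ * (k * ⟨h, hHD hh⟩ * k⁻¹) * k = ⟨h, hHD hh⟩ := by group
          rw [this]
          exact Subgroup.mem_subgroupOf.mpr hh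
        rw [hk, Subgroup.mem_subgroupOf, Cfsg.Agent.Lib.Helper1.mem_conj_smul, inv_inv] at h1
        have h2 : g * (k : G) * h * (g * (k : G))⁻¹
            = g * ((k * ⟨h, hHD hh⟩ * k⁻¹ : D) : G) * g⁻¹ := by
          simp only [Subgroup.coe_mul, Subgroup.coe_inv]
          group
        rw [h2]
        exact h1
      have h3 := Subgroup.mem_centralizer_iff.mp (hNC hnorm) x hx
      have h4 := (hDmem k).mp k.2
      -- x * (g k) = (g k) * x  and  y * k = k * y
      have h5 : x * (g * k) = (g * k) * y := by
        rw [mul_assoc g, ← h4, hydef]; group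
      rw [h5] at h3
      have h6 : g * ↑k * y = g * ↑k * x := h3
      exact mul_left_cancel h6

/-- A Hall subgroup that is central in its normalizer has a normal complement. -/
theorem result {G : Type*} [Group G] [Finite G] (H : Subgroup G) (hHall : Nat.Coprime (Nat.card H) H.index) (h : Subgroup.normalizer (H : Set G) ≤ Subgroup.centralizer (H : Set G)) : ∃ N : Subgroup G, N.Normal ∧ N.IsComplement' H :=
  main (Nat.card G) G H rfl hHall h

end Cfsg.Agent.S0087
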