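import Mathlib
import Cfsg.Statements.S0089
import Cfsg.Agent.S0088

set_option autoImplicit false
open Cfsg

namespace Cfsg.Agent.S0089

/-- When all Sylow subgroups are abelian, the derived subgroup meets the centre trivially. -/
theorem result {G : Type*} [Group G] [Finite G] (h : ∀ p : ℕ, p.Prime → ∀ P : Sylow p G, IsMulCommutative P) : commutator G ⊓ Subgroup.center G = ⊥ := by
  rw [eq_bot_iff]
  intro z hz
  obtain ⟨hzG, hzc⟩ := Subgroup.mem_inf.mp hz
  rw [Subgroup.mem_bot]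
  by_contra hz1
  have hord : orderOf z ≠ 1 := fun h1 => hz1 (orderOf_eq_one_iff.mp h1)
  obtain ⟨p, hp, hpd⟩ := Nat.exists_prime_and_dvd hord
  have : Fact p.Prime := ⟨hp⟩
  have hw : orderOf (z ^ (orderOf z / p)) = p :=
    orderOf_pow_orderOf_div (orderOf_pos z).ne' hpd
  have hpg : IsPGroup p (Subgroup.zpowers (z ^ (orderOf z / p))) := by
    apply IsPGroup.of_card (n := 1)
    rw [Nat.card_zpowers, hw, pow_one]
  obtain ⟨P, hP⟩ := hpg.exists_le_sylow
  have hwP : z ^ (orderOf z / p) ∈ (P : Subgroup G) := hP (Subgroup.mem_zpowers _)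
  have hbot := Cfsg.Agent.S0088.result (P : Subgroup G) (h p hp P) P.card_coprime_index
  have hmem : z ^ (orderOf z / p) ∈ (P : Subgroup G) ⊓ commutator G ⊓ Subgroup.center G :=
    Subgroup.mem_inf.mpr ⟨Subgroup.mem_inf.mpr ⟨hwP, Subgroup.pow_mem _ hzG _⟩, Subgroup.pow_mem _ hzc _⟩
  rw [hbot, Subgroup.mem_bot] at hmem
  rw [hmem, orderOf_one] at hw
  exact hp.one_lt.ne hw

end Cfsg.Agent.S0089
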