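import Mathlib
import Cfsg.Statements.S0091

set_option autoImplicit false
open Cfsg
open scoped commutatorElement

namespace Cfsg.Agent.S0091

/-- If a nontrivial Sylow p-subgroup controls its own fusion then it is not contained in the derived subgroup. -/
theorem result {G : Type*} [Group G] [Finite G] {p : ℕ} [Fact p.Prime] (P : Sylow p G) (hp : p ∣ Nat.card G) (h : ∀ x ∈ P, ∀ y ∈ P, (∃ g : G, g * x * g⁻¹ = y) → ∃ z ∈ P, z * x * z⁻¹ = y) : ¬ (P : Subgroup G) ≤ commutator G := by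
  intro hle
  have hfoc : commutator G ⊓ (P : Subgroup G) = (P : Subgroup G).focalSubgroup :=
    Subgroup.commutator_inf_eq_focalSubgroup P
  have hfoc_le : (P : Subgroup G).focalSubgroup ≤ ⁅(P : Subgroup G), (P : Subgroup G)⁆ := by
    rw [Subgroup.focalSubgroup_def, Subgroup.closure_le]
    rintro g ⟨hgP, x, hxP, u, rfl⟩
    have hxinv : x⁻¹ ∈ (P : Subgroup G) := Subgroup.inv_mem _ hxP
    have hy : u * x⁻¹ * u⁻¹ ∈ (P : Subgroup G) := by
      have : u * x⁻¹ * u⁻¹ = x⁻¹ * ⁅x, u⁆ := by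
        rw [commutatorElement_def]; group
      rw [this]
      exact Subgroup.mul_mem _ hxinv hgP
    obtain ⟨z, hz, hzx⟩ := h x⁻¹ hxinv (u * x⁻¹ * u⁻¹) hy ⟨u, rfl⟩
    have : ⁅x, u⁆ = ⁅x, z⁆ := by
      rw [commutatorElement_def, commutatorElement_def]
      have e1 : x * u * x⁻¹ * u⁻¹ = x * (u * x⁻¹ * u⁻¹) := by group
      have e2 : x * z * x⁻¹ * z⁻¹ = x * (z * x⁻¹ * z⁻¹) := by group
      rw [e1, e2, hzx]
    rw [SetLike.mem_coe, this]
    exact Subgroup.commutator_mem_commutator hxP hz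
  have hPle : (P : Subgroup G) ≤ ⁅(P : Subgroup G), (P : Subgroup G)⁆ := by
    calc (P : Subgroup G) = commutator G ⊓ (P : Subgroup G) := (inf_eq_right.mpr hle).symm
      _ = (P : Subgroup G).focalSubgroup := hfoc
      _ ≤ _ := hfoc_le
  have hne : (P : Subgroup G) ≠ ⊥ := P.ne_bot_of_dvd_card hp
  have : Nontrivial (P : Subgroup G) := (Subgroup.nontrivial_iff_ne_bot _).mpr hne
  have : Group.IsNilpotent (P : Subgroup G) := IsPGroup.isNilpotent P.isPGroup'
  have hlt : commutator (P : Subgroup G) < ⊤ := Group.IsSolvable.commutator_lt_top_of_nontrivial _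
  apply hlt.ne
  rw [eq_top_iff]
  intro x _
  have hx : (x : G) ∈ ⁅(P : Subgroup G), (P : Subgroup G)⁆ := hPle x.2
  rw [← Subgroup.map_subtype_commutator] at hx
  obtain ⟨y, hy, hyx⟩ := Subgroup.mem_map.mp hx
  have : y = x := Subtype.ext hyx
  rw [← this]
  exact hy

end Cfsg.Agent.S0091
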