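-- Statement S0092: if the Sylow p-subgroups of O^p(G) are abelian then G splits over O^p(G).
import Cfsg.Statements.S0092
import Cfsg.Agent.Lib.Helper2.Transfer
import Cfsg.Agent.Lib.Helper1.SZInternal
import Cfsg.Agent.Lib.Helper91.Coprime2

set_option autoImplicit false
open Cfsg

namespace Cfsg.Agent.S0092

open scoped IsMulCommutative
open Pointwise
open Cfsg.Agent.Lib

/-- `O^p(O^p(G)) = O^p(G)`: the residual of the group `↥(O^p(G))` is everything. -/
theorem pResidual_pResidual_eq_top (p : ℕ) (G : Type*) [Group G] :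
    Cfsg.pResidual p (Cfsg.pResidual p G) = ⊤ := by
  have h := Subgroup.closure_closure_coe_preimage (k := {g : G | Nat.Coprime (orderOf g) p})
  unfold Cfsg.pResidual
  convert h using 2
  ext x
  simp

/-- In a group without nontrivial `p`-quotients, an abelian Sylow `p`-subgroup meets the centre
of its normalizer trivially (transfer). -/
theorem center_normalizer_inf_sylow {N : Type*} [Group N] [Finite N] {p : ℕ} [Fact p.Prime]
    (Q : Sylow p N) [IsMulCommutative Q] (hres : Cfsg.pResidual p N = ⊤)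
    (x : N) (hx : x ∈ Q)
    (hc : ∀ n ∈ Subgroup.normalizer ((Q : Subgroup N) : Set N), n * x = x * n) : x = 1 := by
  have hp : p.Prime := Fact.out
  have key : ∀ (k : ℕ) (g₀ : N), g₀⁻¹ * x ^ k * g₀ ∈ (Q : Subgroup N) →
      g₀⁻¹ * x ^ k * g₀ = x ^ k := by
    intro k g₀ hk
    obtain ⟨n, hn, h⟩ := Q.conj_eq_normalizer_conj_of_mem (x ^ k) g₀
      ((Q : Subgroup N).pow_mem hx k) hk
    rw [h]
    have h1 : n * x ^ k = x ^ k * n := Commute.pow_right (hc n hn) k
    rw [mul_assoc, ← h1, inv_mul_cancel_left]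
  have hV := MonoidHom.transfer_eq_pow (MonoidHom.id (Q : Subgroup N)) x key
  have hker : Cfsg.pResidual p N ≤ (MonoidHom.transfer (MonoidHom.id (Q : Subgroup N))).ker :=
    Helper2.pResidual_le_ker p _ Q.isPGroup'
  rw [hres] at hker
  have h1 : MonoidHom.transfer (MonoidHom.id (Q : Subgroup N)) x = 1 :=
    MonoidHom.mem_ker.mp (hker (Subgroup.mem_top x))
  rw [h1] at hV
  have h2 : x ^ (Q : Subgroup N).index = 1 := by
    have := congrArg Subtype.val hV
    simpa using this.symm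
  obtain ⟨k, hk⟩ := Q.isPGroup' ⟨x, hx⟩
  have h3 : x ^ p ^ k = 1 := by simpa using congrArg Subtype.val hk
  have hcop : Nat.Coprime (p ^ k) (Q : Subgroup N).index :=
    Nat.Coprime.pow_left k ((Nat.Prime.coprime_iff_not_dvd hp).mpr Q.not_dvd_index)
  have := Nat.eq_one_of_dvd_coprimes hcop (orderOf_dvd_of_pow_eq_one h3)
    (orderOf_dvd_of_pow_eq_one h2)
  exact orderOf_eq_one_iff.mp this

/-- A normal subgroup `N` with `G/N` a `p`-group, `O^p(N) = N` and abelian Sylow `p`-subgroups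
has a complement. -/
theorem split_of_abelian_sylow {G : Type*} [Group G] [Finite G] {p : ℕ} [Fact p.Prime]
    (N : Subgroup G) [hNn : N.Normal] (hquot : IsPGroup p (G ⧸ N))
    (hres : Cfsg.pResidual p N = ⊤) (Q₀ : Sylow p N) [IsMulCommutative Q₀] :
    ∃ K : Subgroup G, K.IsComplement' N := by
  have hp : p.Prime := Fact.out
  obtain ⟨Q, hQdef⟩ : ∃ Q : Subgroup G, Q = (Q₀ : Subgroup N).map N.subtype := ⟨_, rfl⟩
  have hQmem : ∀ x : G, x ∈ Q ↔ ∃ hx : x ∈ N, (⟨x, hx⟩ : N) ∈ Q₀ := by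
    intro x
    rw [hQdef]
    constructor
    · rintro ⟨y, hy, rfl⟩
      exact ⟨y.2, hy⟩
    · rintro ⟨hx, hy⟩
      exact ⟨⟨x, hx⟩, hy, rfl⟩
  have hQN : Q ≤ N := fun x hx => ((hQmem x).mp hx).1
  have hQcomm : ∀ a ∈ Q, ∀ b ∈ Q, a * b = b * a := by
    intro a ha b hb
    obtain ⟨ha1, ha2⟩ := (hQmem a).mp ha
    obtain ⟨hb1, hb2⟩ := (hQmem b).mp hb
    have := mul_comm (⟨⟨a, ha1⟩, ha2⟩ : Q₀) ⟨⟨b, hb1⟩, hb2⟩
    exact congrArg (fun z : Q₀ => ((z : N) : G)) this
  have hQcard : Nat.card Q = Nat.card Q₀ := by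
    rw [hQdef]
    exact Subgroup.card_map_of_injective N.subtype_injective
  obtain ⟨M, hMdef⟩ : ∃ M : Subgroup G, M = Subgroup.normalizer (Q : Set G) := ⟨_, rfl⟩
  have hQM : Q ≤ M := hMdef ▸ Subgroup.le_normalizer
  have hMmem : ∀ m ∈ M, ∀ x ∈ Q, m * x * m⁻¹ ∈ Q := by
    intro m hm x hx
    rw [hMdef] at hm
    exact (Subgroup.mem_normalizer_iff.mp hm x).mp hx
  -- Frattini argument
  have hfrat : ∀ g : G, ∃ n ∈ N, n⁻¹ * g ∈ M := by
    intro g
    have hg : g ∈ Subgroup.normalizer (N : Set G) := by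
      rw [Subgroup.normalizer_eq_top]
      trivial
    obtain ⟨n, hn, h1⟩ := Helper91.frattini_normalizer N p Q₀ g hg
    refine ⟨n, hn, ?_⟩
    rw [hMdef, hQdef]
    exact h1
  obtain ⟨R, hRdef⟩ : ∃ R : Subgroup G, R = M ⊓ N := ⟨_, rfl⟩
  have hQR : Q ≤ R := hRdef ▸ le_inf hQM hQN
  have hRM : R ≤ M := hRdef ▸ inf_le_left
  have hRN : R ≤ N := hRdef ▸ inf_le_right
  have hRnQ : R ≤ Subgroup.normalizer (Q : Set G) := by
    rw [← hMdef]
    exact hRM
  -- `Q` is a normal Hall subgroup of `R`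
  have hQpow : ∃ k, Nat.card Q = p ^ k := by
    rw [hQcard]
    exact IsPGroup.iff_card.mp Q₀.isPGroup'
  have hrelN : ¬ p ∣ Q.relIndex N := by
    have : Q.relIndex N = (Q₀ : Subgroup N).index := by
      rw [hQdef]
      unfold Subgroup.relIndex Subgroup.subgroupOf
      rw [Subgroup.comap_map_eq_self_of_injective N.subtype_injective]
    rw [this]
    exact Q₀.not_dvd_index
  have hrelR : ¬ p ∣ Q.relIndex R := fun hdvd =>
    hrelN (dvd_trans hdvd (Dvd.intro _ (Subgroup.relIndex_mul_relIndex Q R N hQR hRN)))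
  have hcopQR : (Nat.card Q).Coprime (Q.relIndex R) := by
    obtain ⟨k, hk⟩ := hQpow
    rw [hk]
    exact Nat.Coprime.pow_left k ((Nat.Prime.coprime_iff_not_dvd hp).mpr hrelR)
  -- Schur–Zassenhaus in `R`
  obtain ⟨L, hLR, hLcard⟩ := Helper1.sz_exists_internal R Q hQR hRnQ hcopQR
  have hLnQ : L ≤ Subgroup.normalizer (Q : Set G) := hLR.trans hRnQ
  have hcopLQ : (Nat.card L).Coprime (Nat.card Q) := by
    rw [hLcard]
    exact hcopQR.symm
  have hQL : Q ⊓ L = ⊥ := (Subgroup.disjoint_of_coprime_natCard hcopLQ.symm).eq_bot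
  have hQLR : Q ⊔ L = R := by
    apply Subgroup.eq_of_le_of_card_ge (sup_le hQR hLR)
    rw [Helper1.card_sup_of_normalizer_coprime Q L hLnQ hcopLQ, hLcard,
      Helper1.card_eq_card_mul_relIndex hQR]
  have hLp : (Nat.card L).Coprime p := by
    rw [hLcard]
    exact ((Nat.Prime.coprime_iff_not_dvd hp).mpr hrelR).symm
  -- `Q ∩ N(L) = 1`
  have hclaimC : ∀ x ∈ Q, x ∈ Subgroup.normalizer (L : Set G) → x = 1 := by
    intro x hxQ hxL
    have hxLc : ∀ l ∈ L, x * l = l * x := by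
      intro l hl
      have h1 : x * l * x⁻¹ * l⁻¹ ∈ L :=
        L.mul_mem ((Subgroup.mem_normalizer_iff.mp hxL l).mp hl) (L.inv_mem hl)
      have h2 : x * l * x⁻¹ * l⁻¹ ∈ Q := by
        have : x * l * x⁻¹ * l⁻¹ = x * (l * x⁻¹ * l⁻¹) := by group
        rw [this]
        exact Q.mul_mem hxQ (hMmem l (hRM (hLR hl)) x⁻¹ (Q.inv_mem hxQ))
      have h3 : x * l * x⁻¹ * l⁻¹ ∈ Q ⊓ L := Subgroup.mem_inf.mpr ⟨h2, h1⟩
      rw [hQL, Subgroup.mem_bot] at h3
      have : x * l = (x * l * x⁻¹ * l⁻¹) * (l * x) := by group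
      rw [this, h3, one_mul]
    have hxR : ∀ r ∈ R, r * x = x * r := by
      intro r hr
      rw [← hQLR, ← SetLike.mem_coe, Subgroup.coe_mul_of_right_le_normalizer_left Q L hLnQ,
        Set.mem_mul] at hr
      obtain ⟨q, hq, l, hl, rfl⟩ := hr
      rw [mul_assoc, ← hxLc l hl, ← mul_assoc, hQcomm q hq x hxQ, mul_assoc]
    obtain ⟨hxN, hxQ₀⟩ := (hQmem x).mp hxQ
    have := center_normalizer_inf_sylow Q₀ hres ⟨x, hxN⟩ hxQ₀ (by
      intro n hn
      apply Subtype.ext
      apply hxR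
      rw [hRdef]
      refine Subgroup.mem_inf.mpr ⟨?_, n.2⟩
      rw [hMdef]
      apply Subgroup.mem_normalizer_fintype
      intro y hy
      obtain ⟨hyN, hyQ₀⟩ := (hQmem y).mp hy
      rw [SetLike.mem_coe, hQmem]
      refine ⟨N.mul_mem (N.mul_mem n.2 hyN) (N.inv_mem n.2), ?_⟩
      exact (Subgroup.mem_normalizer_iff.mp hn ⟨y, hyN⟩).mp hyQ₀)
    exact congrArg Subtype.val this
  -- the normalizer of `L` in `M`
  obtain ⟨C, hCdef⟩ : ∃ C : Subgroup G, C = M ⊓ Subgroup.normalizer (L : Set G) := ⟨_, rfl⟩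
  have hCM : C ≤ M := hCdef ▸ inf_le_left
  have hCnL : C ≤ Subgroup.normalizer (L : Set G) := hCdef ▸ inf_le_right
  have hLC : L ≤ C := hCdef ▸ le_inf (hLR.trans hRM) Subgroup.le_normalizer
  -- `M = Q C` (Frattini argument for `L`)
  have hclaimB : ∀ m ∈ M, ∃ q ∈ Q, q * m ∈ C := by
    intro m hm
    have hA₁ : MulAut.conj m • L ≤ Q ⊔ L := by
      rw [hQLR]
      intro y hy
      rw [Helper1.mem_conj_smul] at hy
      have h1 : m⁻¹ * y * m ∈ R := hLR hy
      rw [hRdef] at h1 ⊢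
      obtain ⟨h2, h3⟩ := Subgroup.mem_inf.mp h1
      have e : y = m * (m⁻¹ * y * m) * m⁻¹ := by group
      rw [e]
      exact Subgroup.mem_inf.mpr ⟨M.mul_mem (M.mul_mem hm h2) (M.inv_mem hm), hNn.conj_mem _ h3 m⟩
    have hcard : Nat.card (MulAut.conj m • L : Subgroup G) = Nat.card L :=
      (Nat.card_congr (Subgroup.equivSMul (MulAut.conj m) L).toEquiv).symm
    have hsolv : Group.IsSolvable L ∨ Group.IsSolvable Q := by
      right
      apply Group.isSolvable_of_comm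
      intro a b
      exact Subtype.ext (hQcomm a a.2 b b.2)
    obtain ⟨q, hq, hqm⟩ := Helper1.sz_conj_internal Q L (MulAut.conj m • L) hLnQ hcopLQ hsolv
      hA₁ hcard
    refine ⟨q, hq, ?_⟩
    rw [hCdef]
    refine Subgroup.mem_inf.mpr ⟨M.mul_mem (hQM hq) hm, ?_⟩
    apply Subgroup.mem_normalizer_fintype
    intro l hl
    rw [SetLike.mem_coe, ← hqm, Helper1.mem_conj_smul, Helper1.mem_conj_smul]
    have : m⁻¹ * (q⁻¹ * (q * m * l * (q * m)⁻¹) * q) * m = l := by group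
    rw [this]
    exact hl
  -- `C ∩ N = L`
  have hCN : C ⊓ N = L := by
    apply le_antisymm
    · intro c hc
      obtain ⟨hcC, hcN⟩ := Subgroup.mem_inf.mp hc
      have hcR : c ∈ R := by
        rw [hRdef]
        exact Subgroup.mem_inf.mpr ⟨hCM hcC, hcN⟩
      rw [← hQLR, ← SetLike.mem_coe, Subgroup.coe_mul_of_right_le_normalizer_left Q L hLnQ,
        Set.mem_mul] at hcR
      obtain ⟨q, hq, l, hl, rfl⟩ := hcR
      have hqn : q ∈ Subgroup.normalizer (L : Set G) := by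
        have : q = q * l * l⁻¹ := by group
        rw [this]
        exact Subgroup.mul_mem _ (hCnL hcC) (Subgroup.inv_mem _ (Subgroup.le_normalizer hl))
      rw [hclaimC q hq hqn, one_mul]
      exact hl
    · exact le_inf hLC (hLR.trans hRN)
  have hrelC : ∃ a, L.relIndex C = p ^ a := by
    rw [← hCN, inf_comm, Subgroup.inf_relIndex_right]
    have h1 : N.relIndex C ∣ N.index := Subgroup.relIndex_dvd_index_of_normal N C
    obtain ⟨k, hk⟩ := IsPGroup.iff_card.mp hquot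
    rw [Subgroup.index_eq_card, hk] at h1
    obtain ⟨a, -, ha⟩ := (Nat.dvd_prime_pow hp).mp h1
    exact ⟨a, ha⟩
  obtain ⟨a, ha⟩ := hrelC
  have hcopLC : (Nat.card L).Coprime (L.relIndex C) := by
    rw [ha]
    exact Nat.Coprime.pow_right a hLp
  -- Schur–Zassenhaus in `C`
  obtain ⟨K, hKC, hKcard⟩ := Helper1.sz_exists_internal C L hLC hCnL hcopLC
  have hcopKL : (Nat.card K).Coprime (Nat.card L) := by
    rw [hKcard]
    exact hcopLC.symm
  have hKnL : K ≤ Subgroup.normalizer (L : Set G) := hKC.trans hCnL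
  have hLKC : L ⊔ K = C := by
    apply Subgroup.eq_of_le_of_card_ge (sup_le hLC hKC)
    rw [Helper1.card_sup_of_normalizer_coprime L K hKnL hcopKL, hKcard,
      Helper1.card_eq_card_mul_relIndex hLC]
  refine ⟨K, Subgroup.isComplement'_of_disjoint_and_mul_eq_univ ?_ ?_⟩
  · rw [Subgroup.disjoint_def]
    intro x hxK hxN
    have hxL : x ∈ L := by
      rw [← hCN]
      exact Subgroup.mem_inf.mpr ⟨hKC hxK, hxN⟩
    exact Subgroup.disjoint_def.mp (Subgroup.disjoint_of_coprime_natCard hcopKL) hxK hxL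
  · rw [Set.eq_univ_iff_forall]
    intro g
    obtain ⟨n, hn, hm⟩ := hfrat g
    obtain ⟨q, hq, hc⟩ := hclaimB _ hm
    rw [← hLKC, ← SetLike.mem_coe, Subgroup.coe_mul_of_right_le_normalizer_left L K hKnL,
      Set.mem_mul] at hc
    obtain ⟨l, hl, k, hk, hlk⟩ := hc
    rw [Set.mem_mul]
    refine ⟨k, hk, k⁻¹ * (n * q⁻¹ * l) * k, ?_, ?_⟩
    · have h1 : n * q⁻¹ * l ∈ N :=
        N.mul_mem (N.mul_mem hn (N.inv_mem (hQN hq))) (hRN (hLR hl))
      have h2 := hNn.conj_mem _ h1 k⁻¹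
      rw [inv_inv] at h2
      exact h2
    · have : k * (k⁻¹ * (n * q⁻¹ * l) * k) = n * q⁻¹ * (l * k) := by group
      rw [this, hlk]
      group

/-- If the Sylow p-subgroups of O^p(G) are abelian then G splits over O^p(G). -/
theorem result {G : Type*} [Group G] [Finite G] {p : ℕ} [Fact p.Prime] (h : ∀ Q : Sylow p (Cfsg.pResidual p G), IsMulCommutative Q) : ∃ K : Subgroup G, K.IsComplement' (Cfsg.pResidual p G) := by
  have hn : (Cfsg.pResidual p G).Normal := Helper2.pResidual_normal p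
  have : IsMulCommutative (default : Sylow p (Cfsg.pResidual p G)) := h default
  exact split_of_abelian_sylow (Cfsg.pResidual p G)
    (Helper2.isPGroup_quotient_of_pResidual_le p _ le_rfl)
    (pResidual_pResidual_eq_top p G) default

end Cfsg.Agent.S0092
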