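import Mathlib
import Cfsg.Statements.S0097
import Cfsg.Agent.Lib.Helper24.ClassTwo
import Cfsg.Agent.S0094

set_option autoImplicit false
open Cfsg
open scoped commutatorElement

namespace Cfsg.Agent.S0097

/-- For odd p and E extraspecial, the subgroup generated by the elements of order dividing p has exponent dividing p and index at most p. -/
theorem result {E : Type*} [Group E] [Finite E] {p : ℕ} [Fact p.Prime] (hp : p ≠ 2) (h : Cfsg.IsExtraspecial p E) : (Subgroup.closure {x : E | x ^ p = 1}).index ≤ p ∧ ∀ g ∈ Subgroup.closure {x : E | x ^ p = 1}, g ^ p = 1 := by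
  obtain ⟨hs, hcard⟩ := h
  have hpp : p.Prime := Fact.out
  have hP := hs.1
  have hfr := hs.2.1
  have hcomm := hs.2.2
  have h2 : ⁅commutator E, (⊤ : Subgroup E)⁆ = ⊥ := by
    rw [eq_bot_iff, Subgroup.commutator_le]
    intro a ha b _
    rw [hcomm] at ha
    rw [Subgroup.mem_bot, commutatorElement_eq_one_iff_mul_comm]
    exact ((Subgroup.mem_center_iff.mp ha) b).symm
  have hpow_center : ∀ x : E, x ^ p ∈ Subgroup.center E := by
    intro x
    rw [← hfr]; exact Cfsg.Agent.S0094.pow_mem_frattini hP x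
  have hmul : ∀ x y : E, (x * y) ^ p = x ^ p * y ^ p := by
    intro x y
    have hcmem : ⁅y⁻¹, x⁻¹⁆ ∈ commutator E := by
      rw [commutator_def]
      exact Subgroup.commutator_mem_commutator (Subgroup.mem_top _) (Subgroup.mem_top _)
    have hcc := Cfsg.Agent.Lib.Helper24.commute_of_mem_commutator_of_class_two h2 _ hcmem
    have hyx : y * x = x * y * ⁅y⁻¹, x⁻¹⁆ := by rw [commutatorElement_def]; group
    have hcp : ⁅y⁻¹, x⁻¹⁆ ^ p = 1 := Cfsg.Agent.S0094.pow_eq_one_of_mem_commutator hs _ hcmem
    rw [Cfsg.Agent.Lib.Helper24.mul_pow_of_central x y _ hyx (hcc x) (hcc y) p]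
    have hodd : Odd p := hpp.odd_of_ne_two hp
    have hev : 2 ∣ p - 1 := by
      obtain ⟨k, hk⟩ := hodd
      exact ⟨k, by omega⟩
    rw [Nat.mul_div_assoc p hev, pow_mul, hcp, one_pow, mul_one]
  let φ : E →* Subgroup.center E :=
    { toFun := fun x => ⟨x ^ p, hpow_center x⟩
      map_one' := by ext; simp
      map_mul' := fun x y => by ext; simpa using hmul x y }
  have hker : φ.ker ≤ Subgroup.closure {x : E | x ^ p = 1} := by
    intro x hx
    apply Subgroup.subset_closure
    rw [MonoidHom.mem_ker] at hx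
    have := congrArg (fun y : Subgroup.center E => (y : E)) hx
    simpa [φ] using this
  refine ⟨?_, fun g hg => Cfsg.Agent.Lib.Helper24.pow_prime_eq_one_of_mem_closure_of_class_two hpp hp h2 g hg⟩
  have h1 : (Subgroup.closure {x : E | x ^ p = 1}).index ∣ φ.ker.index := Subgroup.index_dvd_of_le hker
  have h3 : φ.ker.index = Nat.card φ.range := Subgroup.index_ker φ
  have h4 : Nat.card φ.range ≤ Nat.card (Subgroup.center E) := Subgroup.card_le_card_group _
  have h5 : φ.ker.index ≠ 0 := Subgroup.index_ne_zero_of_finite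
  calc (Subgroup.closure {x : E | x ^ p = 1}).index ≤ φ.ker.index := Nat.le_of_dvd (Nat.pos_of_ne_zero h5) h1
    _ = Nat.card φ.range := h3
    _ ≤ Nat.card (Subgroup.center E) := h4
    _ = p := hcard

end Cfsg.Agent.S0097
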