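import Mathlib
import Cfsg.Statements.S0098
import Cfsg.Agent.Lib.Helper2.ES2Cfsg
import Cfsg.Agent.Lib.Helper2.ESp

set_option autoImplicit false
open Cfsg

namespace Cfsg.Agent.S0098

open scoped commutatorElement

/-- For odd p, extraspecial p-groups of exponent p are determined up to isomorphism by their order. -/
theorem result {E₁ : Type*} {E₂ : Type*} [Group E₁] [Group E₂] [Finite E₁] [Finite E₂] {p : ℕ} [Fact p.Prime] (hp : p ≠ 2) (h₁ : Cfsg.IsExtraspecial p E₁) (h₂ : Cfsg.IsExtraspecial p E₂) (he₁ : Monoid.exponent E₁ = p) (he₂ : Monoid.exponent E₂ = p) (hc : Nat.card E₁ = Nat.card E₂) : Nonempty (E₁ ≃* E₂) := by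
  obtain ⟨hZ, hcc, a, b, hab⟩ := Cfsg.Agent.Lib.Helper2.ES2.of_isExtraspecial h₁
  obtain ⟨hZ', hcc', a', b', hab'⟩ := Cfsg.Agent.Lib.Helper2.ES2.of_isExtraspecial h₂
  have hexp : ∀ g : E₁, g ^ p = 1 := fun g => by rw [← he₁]; exact Monoid.pow_exponent_eq_one g
  have hexp' : ∀ g : E₂, g ^ p = 1 := fun g => by rw [← he₂]; exact Monoid.pow_exponent_eq_one g
  obtain ⟨φ, -⟩ := Cfsg.Agent.Lib.Helper2.ESL.nonempty_mulEquiv_of_exponent (Nat.card E₁) E₁ E₂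
    le_rfl hZ hcc hZ' hcc' hexp hexp' hc ⁅a, b⁆ ⁅a', b'⁆ (hcc a b) hab (hcc' a' b') hab'
  exact ⟨φ⟩

end Cfsg.Agent.S0098
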