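import Mathlib
import Cfsg.Statements.S0099
import Cfsg.Agent.Lib.Helper2.ES2Cfsg

set_option autoImplicit false
open Cfsg

namespace Cfsg.Agent.S0099

/-- Among three extraspecial 2-groups of equal order, some two are isomorphic. -/
theorem result {E₁ : Type*} {E₂ : Type*} {E₃ : Type*} [Group E₁] [Group E₂] [Group E₃] [Finite E₁] [Finite E₂] [Finite E₃] (h₁ : Cfsg.IsExtraspecial 2 E₁) (h₂ : Cfsg.IsExtraspecial 2 E₂) (h₃ : Cfsg.IsExtraspecial 2 E₃) (h12 : Nat.card E₁ = Nat.card E₂) (h23 : Nat.card E₂ = Nat.card E₃) : Nonempty (E₁ ≃* E₂) ∨ Nonempty (E₂ ≃* E₃) ∨ Nonempty (E₁ ≃* E₃) := by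
  obtain ⟨m₁, -, hc₁, hi₁⟩ := Cfsg.Agent.Lib.Helper2.ES2.extraspecial_card_count h₁
  obtain ⟨m₂, -, hc₂, hi₂⟩ := Cfsg.Agent.Lib.Helper2.ES2.extraspecial_card_count h₂
  obtain ⟨m₃, -, hc₃, hi₃⟩ := Cfsg.Agent.Lib.Helper2.ES2.extraspecial_card_count h₃
  have e12 : m₁ = m₂ := by
    have h : (2 : ℕ) ^ (2 * m₁ + 1) = 2 ^ (2 * m₂ + 1) := by rw [← hc₁, ← hc₂, h12]
    have := Nat.pow_right_injective (le_refl 2) h
    omega
  have e23 : m₂ = m₃ := by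
    have h : (2 : ℕ) ^ (2 * m₂ + 1) = 2 ^ (2 * m₃ + 1) := by rw [← hc₂, ← hc₃, h23]
    have := Nat.pow_right_injective (le_refl 2) h
    omega
  subst e12
  subst e23
  have hpos : 0 < 2 ^ m₁ := Nat.pos_of_ne_zero (by positivity)
  by_cases e : Cfsg.Agent.Lib.Helper2.ES2.invCount E₁ = Cfsg.Agent.Lib.Helper2.ES2.invCount E₂
  · exact Or.inl (Cfsg.Agent.Lib.Helper2.ES2.extraspecial_iso h₁ h₂ h12 e)
  · by_cases e' : Cfsg.Agent.Lib.Helper2.ES2.invCount E₂ = Cfsg.Agent.Lib.Helper2.ES2.invCount E₃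
    · exact Or.inr (Or.inl (Cfsg.Agent.Lib.Helper2.ES2.extraspecial_iso h₂ h₃ h23 e'))
    · refine Or.inr (Or.inr (Cfsg.Agent.Lib.Helper2.ES2.extraspecial_iso h₁ h₃ (h12.trans h23) ?_))
      rcases hi₁ with a | a <;> rcases hi₂ with b | b <;> rcases hi₃ with c | c <;> omega

end Cfsg.Agent.S0099
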