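import Cfsg.Statements.S0100
import Mathlib
import Cfsg.Agent.S0130
import Cfsg.Agent.Lib.Helper38.PChain

set_option autoImplicit false
open Cfsg

namespace Cfsg.Agent.S0100

/-- For odd p, a p-group without normal elementary abelian subgroups of order p^3 has p-rank at most 2. -/
theorem result {P : Type*} [Group P] [Finite P] {p : ℕ} [Fact p.Prime] (hp : p ≠ 2) (hP : IsPGroup p P) (h : ∀ A : Subgroup P, A.Normal → IsMulCommutative A → (∀ a ∈ A, a ^ p = 1) → Nat.card A ≠ p ^ 3) (E : Subgroup P) (hE : IsMulCommutative E) (hEe : ∀ e ∈ E, e ^ p = 1) : Nat.card E ≤ p ^ 2 := by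
  have hpp : p.Prime := Fact.out
  -- a maximal normal elementary abelian subgroup `E₀`
  have hbot : (⊥ : Subgroup P) ∈ {B : Subgroup P | B.Normal ∧ IsMulCommutative B ∧
      ∀ b ∈ B, b ^ p = 1} := by
    refine ⟨inferInstance, ⟨⟨fun a b => Subtype.ext ?_⟩⟩, ?_⟩
    · rw [Subgroup.coe_mul, Subgroup.coe_mul, Subgroup.mem_bot.mp a.2, Subgroup.mem_bot.mp b.2]
    · intro b hb
      rw [Subgroup.mem_bot.mp hb, one_pow]
  obtain ⟨E₀, -, hE₀max⟩ := Set.Finite.exists_le_maximal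
    (s := {B : Subgroup P | B.Normal ∧ IsMulCommutative B ∧ ∀ b ∈ B, b ^ p = 1})
    (Set.toFinite _) hbot
  obtain ⟨⟨hE₀n, hE₀c, hE₀e⟩, hE₀m⟩ := hE₀max
  obtain ⟨m, hm⟩ := (hP.to_subgroup E₀).exists_card_eq
  have hm2 : m ≤ 2 := by
    by_contra hcon
    have h3 : p ^ 3 ≤ Nat.card E₀ := by
      rw [hm]
      exact Nat.pow_le_pow_right hpp.pos (by omega)
    obtain ⟨B, hBn, hBE, hBc, -⟩ :=
      Cfsg.Agent.Lib.Helper38.exists_normal_card_centralizer hP E₀ 3 h3
    refine h B hBn ⟨⟨fun a b => Subtype.ext ?_⟩⟩ (fun b hb => hE₀e b (hBE hb)) hBc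
    show (a : P) * (b : P) = (b : P) * (a : P)
    exact congrArg Subtype.val (mul_comm' (⟨a, hBE a.2⟩ : E₀) ⟨b, hBE b.2⟩)
  -- Alperin's theorem for `E₀`
  have hAlp : ∀ x ∈ Subgroup.centralizer (E₀ : Set P), x ^ p = 1 → x ∈ E₀ := by
    intro x hx hxp
    refine Cfsg.Agent.S0130.result hP 1 (by rw [pow_one]; exact hp) E₀ hE₀c
      (by simpa using hE₀e) ?_ x hx (by simpa using hxp)
    intro B hBn hBc hBe hEB
    exact le_antisymm (hE₀m ⟨hBn, hBc, by simpa using hBe⟩ hEB) hEB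
  have hidx : (Subgroup.centralizer (E₀ : Set P)).index ≤ p := by
    have h1 := Cfsg.Agent.Lib.Helper38.index_centralizer_le hP E₀ m hm
    refine h1.trans ?_
    have h2 : m * (m - 1) / 2 ≤ 1 := by
      interval_cases m <;> simp
    calc p ^ (m * (m - 1) / 2) ≤ p ^ 1 := Nat.pow_le_pow_right hpp.pos h2
      _ = p := pow_one p
  obtain ⟨C, hC⟩ : ∃ C : Subgroup P, C = Subgroup.centralizer (E₀ : Set P) := ⟨_, rfl⟩
  have hCn : C.Normal := by rw [hC]; infer_instance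
  rw [← hC] at hidx
  have hCF : C ⊓ E ≤ E₀ := fun x hx => hAlp x (hC ▸ hx.1) (hEe x hx.2)
  have hcardE : Nat.card E = Nat.card (C ⊓ E : Subgroup P) * C.relIndex E := by
    rw [Cfsg.Agent.Lib.Helper1.card_eq_card_mul_relIndex (inf_le_right : C ⊓ E ≤ E),
      Subgroup.inf_relIndex_right]
  have hrel : C.relIndex E ≤ p :=
    (Nat.le_of_dvd (Nat.pos_of_ne_zero Subgroup.index_ne_zero_of_finite)
      (Subgroup.relIndex_dvd_index_of_normal C E)).trans hidx
  obtain ⟨c, hc⟩ := (hP.to_subgroup (C ⊓ E)).exists_card_eq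
  by_cases hc1 : c ≤ 1
  · calc Nat.card E = p ^ c * C.relIndex E := by rw [hcardE, hc]
      _ ≤ p ^ 1 * p := Nat.mul_le_mul (Nat.pow_le_pow_right hpp.pos hc1) hrel
      _ = p ^ 2 := by ring
  · have h1 : Nat.card E₀ ≤ Nat.card (C ⊓ E : Subgroup P) := by
      rw [hm, hc]
      exact Nat.pow_le_pow_right hpp.pos (by omega)
    have h2 : (C ⊓ E : Subgroup P) = E₀ := Subgroup.eq_of_le_of_card_ge hCF h1
    have hE₀E : E₀ ≤ E := h2 ▸ inf_le_right
    have hEC : E ≤ C := by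
      intro x hx
      rw [hC, Subgroup.mem_centralizer_iff]
      intro y hy
      exact congrArg Subtype.val (mul_comm' (⟨y, hE₀E hy⟩ : E) ⟨x, hx⟩)
    have h3 : E = E₀ := by
      rw [← h2]
      exact (inf_of_le_right hEC).symm
    rw [h3, hm]
    exact Nat.pow_le_pow_right hpp.pos hm2

end Cfsg.Agent.S0100
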