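import Mathlib
import Cfsg.Statements.S0102
import Cfsg.Agent.S0101

set_option autoImplicit false
open Cfsg

namespace Cfsg.Agent.S0102

/-- A finite perfect group with cyclic Sylow p-subgroups has no perfect central extension whose kernel has order divisible by p. -/
theorem result {G : Type*} {H : Type*} [Group G] [Group H] [Finite G] [Finite H] (hG : commutator G = ⊤) {p : ℕ} [Fact p.Prime] (hcyc : ∀ P : Sylow p G, IsCyclic P) (σ : H →* G) (hσ : Function.Surjective σ) (hz : σ.ker ≤ Subgroup.center H) (hH : commutator H = ⊤) : ¬ p ∣ Nat.card σ.ker := by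
  intro hdvd
  obtain ⟨z, hz_ord⟩ := exists_prime_orderOf_dvd_card' p hdvd
  -- the cyclic subgroup generated by z (in H) is a p-group
  have hzK : (z : H) ∈ σ.ker := z.2
  have hord : orderOf (z : H) = p := by
    rw [Subgroup.orderOf_coe]; exact hz_ord
  have hpg : IsPGroup p (Subgroup.zpowers (z : H)) := by
    apply IsPGroup.of_card (n := 1)
    rw [Nat.card_zpowers, hord, pow_one]
  obtain ⟨P, hP⟩ := hpg.exists_le_sylow
  have hzP : (z : H) ∈ (P : Subgroup H) := hP (Subgroup.mem_zpowers _)
  -- P is commutative
  have hcycQ : IsCyclic (Subgroup.map σ (P : Subgroup H)) := hcyc (P.mapSurjective hσ)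
  have hker : (σ.subgroupMap (P : Subgroup H)).ker ≤ Subgroup.center (P : Subgroup H) := by
    intro x hx
    rw [MonoidHom.mem_ker] at hx
    have hx1 : σ (x : H) = 1 := by
      have := congrArg (fun y : Subgroup.map σ (P : Subgroup H) => (y : G)) hx
      simpa using this
    have hxc : (x : H) ∈ Subgroup.center H := hz (MonoidHom.mem_ker.mpr hx1)
    rw [Subgroup.mem_center_iff]
    intro g
    ext
    simpa using (Subgroup.mem_center_iff.mp hxc) (g : H)
  have hcomm : ∀ a b : (P : Subgroup H), a * b = b * a :=
    (MonoidHom.isMulCommutative_of_isCyclic_of_ker_le_center (σ.subgroupMap (P : Subgroup H)) hker).is_comm.comm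
  have hbot : commutator (P : Subgroup H) = ⊥ := by
    rw [eq_bot_iff, commutator_def, Subgroup.commutator_le]
    intro a _ b _
    rw [Subgroup.mem_bot, commutatorElement_eq_one_iff_mul_comm]
    exact hcomm a b
  have h1 := Cfsg.Agent.S0101.central_mem_commutator hH P (z : H) hzP (hz hzK)
  rw [hbot, Subgroup.mem_bot] at h1
  have h2 : (z : H) = 1 := by
    have := congrArg (fun y : (P : Subgroup H) => (y : H)) h1
    simpa using this
  rw [h2, orderOf_one] at hord
  have hp : p.Prime := Fact.out
  exact hp.one_lt.ne hord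

end Cfsg.Agent.S0102
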