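import Cfsg.Statements.S0946
import Cfsg.Agent.Lib.Helper52.AbelianSylow

set_option autoImplicit false
open Cfsg

namespace Cfsg.Agent.S0946

/-- Elements of order at most two in `ZMod (2 ^ m)`. -/
theorem zmod_two_pow_add_self {m : ℕ} (hm : 1 ≤ m) (a : ZMod (2 ^ m)) (h : a + a = 0) :
    a = 0 ∨ a = ((2 ^ (m - 1) : ℕ) : ZMod (2 ^ m)) := by
  have : NeZero (2 ^ m) := ⟨by positivity⟩
  have hv := ZMod.natCast_zmod_val a
  have hlt := ZMod.val_lt a
  have h2 : ((a.val + a.val : ℕ) : ZMod (2 ^ m)) = 0 := by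
    rw [Nat.cast_add, hv]; exact h
  rw [ZMod.natCast_eq_zero_iff] at h2
  have hpow : 2 ^ m = 2 * 2 ^ (m - 1) := by
    rw [← pow_succ']; congr 1; omega
  obtain ⟨c, hc⟩ := h2
  have hc2 : c = 0 ∨ c = 1 := by
    by_contra hcon
    have : 2 ≤ c := by omega
    nlinarith
  rcases hc2 with rfl | rfl
  · left
    have : a.val = 0 := by omega
    rw [← hv, this, Nat.cast_zero]
  · right
    have : a.val = 2 ^ (m - 1) := by omega
    rw [← hv, this]

theorem zmod_two_pow_half_ne_zero {m : ℕ} (hm : 1 ≤ m) :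
    ((2 ^ (m - 1) : ℕ) : ZMod (2 ^ m)) ≠ 0 := by
  rw [Ne, ZMod.natCast_eq_zero_iff]
  intro h
  have hpow : 2 ^ m = 2 * 2 ^ (m - 1) := by
    rw [← pow_succ']; congr 1; omega
  have h1 := Nat.le_of_dvd (by positivity) h
  have : 0 < 2 ^ (m - 1) := by positivity
  omega

/-- Let P be a Sylow 2-subgroup of the finite group G isomorphic to Z/2^m × Z/2^m with m ≥ 1. Then either P has a normal complement in G, or all involutions of G are conjugate. -/
theorem result {G : Type*} [Group G] [Finite G] (P : Sylow 2 G) (m : ℕ) (hm : 1 ≤ m) (e : (P : Subgroup G) ≃* Multiplicative (ZMod (2 ^ m) × ZMod (2 ^ m))) : (∃ N : Subgroup G, N.Normal ∧ Subgroup.IsComplement' N (P : Subgroup G)) ∨ ∀ s t : G, orderOf s = 2 → orderOf t = 2 → IsConj s t := by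
  have : Fact (Nat.Prime 2) := ⟨Nat.prime_two⟩
  have hab : ∀ a ∈ (P : Subgroup G), ∀ b ∈ (P : Subgroup G), a * b = b * a := by
    intro a ha b hb
    have h1 : (⟨a, ha⟩ : (P : Subgroup G)) * ⟨b, hb⟩ = ⟨b, hb⟩ * ⟨a, ha⟩ := by
      apply e.injective
      rw [map_mul, map_mul, mul_comm]
    exact congrArg Subtype.val h1
  set h : ZMod (2 ^ m) := ((2 ^ (m - 1) : ℕ) : ZMod (2 ^ m)) with hh
  have hh0 : h ≠ 0 := zmod_two_pow_half_ne_zero hm
  have hhh : h + h = 0 := by
    rw [hh, ← Nat.cast_add, ZMod.natCast_eq_zero_iff]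
    have hpow : 2 ^ m = 2 * 2 ^ (m - 1) := by
      rw [← pow_succ']; congr 1; omega
    rw [hpow, two_mul]
  set X : (P : Subgroup G) := e.symm (Multiplicative.ofAdd (h, 0)) with hX
  set Y : (P : Subgroup G) := e.symm (Multiplicative.ofAdd (0, h)) with hY
  have hX2 : X * X = 1 := by
    apply e.injective
    rw [map_mul, map_one, hX, MulEquiv.apply_symm_apply, ← ofAdd_add, Prod.mk_add_mk, hhh,
      add_zero]
    rfl
  have hY2 : Y * Y = 1 := by
    apply e.injective
    rw [map_mul, map_one, hY, MulEquiv.apply_symm_apply, ← ofAdd_add, Prod.mk_add_mk, hhh,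
      add_zero]
    rfl
  have hX1 : X ≠ 1 := by
    intro h0
    rw [hX, MulEquiv.map_eq_one_iff] at h0
    have : ((h, 0) : ZMod (2 ^ m) × ZMod (2 ^ m)) = 0 := h0
    exact hh0 (Prod.mk.inj this).1
  have hY1 : Y ≠ 1 := by
    intro h0
    rw [hY, MulEquiv.map_eq_one_iff] at h0
    have : ((0, h) : ZMod (2 ^ m) × ZMod (2 ^ m)) = 0 := h0
    exact hh0 (Prod.mk.inj this).2
  have hall : ∀ t ∈ (P : Subgroup G), t * t = 1 →
      t = 1 ∨ t = (X : G) ∨ t = (Y : G) ∨ t = (X : G) * (Y : G) := by
    intro t ht ht2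
    have ht2' : (⟨t, ht⟩ : (P : Subgroup G)) * ⟨t, ht⟩ = 1 := Subtype.ext ht2
    have h1 := congrArg e ht2'
    rw [map_mul, map_one] at h1
    set w := e ⟨t, ht⟩ with hw
    have hw' : (⟨t, ht⟩ : (P : Subgroup G)) = e.symm w := by
      rw [hw, MulEquiv.symm_apply_apply]
    have h2 : Multiplicative.toAdd w + Multiplicative.toAdd w = 0 := h1
    have h2a : (Multiplicative.toAdd w).1 + (Multiplicative.toAdd w).1 = 0 :=
      congrArg Prod.fst h2
    have h2b : (Multiplicative.toAdd w).2 + (Multiplicative.toAdd w).2 = 0 :=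
      congrArg Prod.snd h2
    have hwab : w = Multiplicative.ofAdd ((Multiplicative.toAdd w).1, (Multiplicative.toAdd w).2) :=
      rfl
    rcases zmod_two_pow_add_self hm _ h2a with ha | ha <;>
    rcases zmod_two_pow_add_self hm _ h2b with hb | hb
    · left
      rw [ha, hb] at hwab
      have : w = 1 := hwab
      rw [this, map_one] at hw'
      exact congrArg Subtype.val hw'
    · right; right; left
      rw [ha, hb] at hwab
      rw [hwab] at hw'
      exact congrArg Subtype.val hw'
    · right; left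
      rw [ha, hb] at hwab
      rw [hwab] at hw'
      exact congrArg Subtype.val hw'
    · right; right; right
      rw [ha, hb] at hwab
      have h3 : w = Multiplicative.ofAdd (h, 0) * Multiplicative.ofAdd (0, h) := by
        rw [hwab, ← ofAdd_add, Prod.mk_add_mk, add_zero, zero_add]
      rw [h3, map_mul] at hw'
      exact congrArg Subtype.val hw'
  have hXY : (X : G) ≠ (Y : G) := by
    intro h0
    have h1 : X = Y := Subtype.ext h0
    rw [hX, hY] at h1
    have h2 := e.symm.injective h1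
    have h3 : ((h, 0) : ZMod (2 ^ m) × ZMod (2 ^ m)) = (0, h) := h2
    exact hh0 (Prod.mk.inj h3).1
  have hX2' : (X : G) * (X : G) = 1 := congrArg Subtype.val hX2
  have hY2' : (Y : G) * (Y : G) = 1 := congrArg Subtype.val hY2
  rcases Cfsg.Agent.Lib.Helper52.three_dichotomy P hab (X : G) (Y : G) X.2 Y.2 hX2' hY2' hall with
    hd | hd
  · -- all involutions are conjugate
    right
    have key : ∀ s : G, orderOf s = 2 → IsConj s (X : G) := by
      intro s hs
      obtain ⟨g, hg⟩ := Cfsg.Agent.Lib.Helper52.exists_conj_mem_sylow_of_orderOf_two P s hs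
      have hs2 : s * s = 1 := by
        rw [← sq, ← hs]; exact pow_orderOf_eq_one s
      have hs1 : s ≠ 1 := by
        intro h0
        rw [h0, orderOf_one] at hs
        exact absurd hs (by norm_num)
      have hg1 : g * s * g⁻¹ ≠ 1 := by
        intro h0
        apply hs1
        have h2 : s = g⁻¹ * (g * s * g⁻¹) * g := by group
        rw [h2, h0]; group
      have hg2 : (g * s * g⁻¹) * (g * s * g⁻¹) = 1 := by
        have : (g * s * g⁻¹) * (g * s * g⁻¹) = g * (s * s) * g⁻¹ := by group
        rw [this, hs2]; group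
      have hX1' : (X : G) ≠ 1 := fun h0 => hX1 (Subtype.ext h0)
      exact (isConj_iff.2 ⟨g, rfl⟩ : IsConj s (g * s * g⁻¹)).trans
        (hd _ hg (X : G) X.2 hg1 hX1' hg2 hX2')
    intro s t hs ht
    exact (key s hs).trans (key t ht).symm
  · -- no fusion: Burnside
    left
    have hNC : Subgroup.normalizer ((P : Subgroup G) : Set G) ≤
        Subgroup.centralizer ((P : Subgroup G) : Set G) := by
      apply Cfsg.Agent.Lib.Helper52.normalizer_le_centralizer_of_fix_involutions P hab
      intro n hn t ht ht2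
      by_cases ht1 : t = 1
      · rw [ht1]; group
      have hq : n * t * n⁻¹ ∈ (P : Subgroup G) := (Subgroup.mem_normalizer_iff.1 hn t).1 ht
      have hq1 : n * t * n⁻¹ ≠ 1 := by
        intro h0
        apply ht1
        have h2 : t = n⁻¹ * (n * t * n⁻¹) * n := by group
        rw [h2, h0]; group
      have hq2 : (n * t * n⁻¹) * (n * t * n⁻¹) = 1 := by
        have : (n * t * n⁻¹) * (n * t * n⁻¹) = n * (t * t) * n⁻¹ := by group
        rw [this, ht2]; group
      exact (hd t ht _ hq ht1 hq1 ht2 hq2 (isConj_iff.2 ⟨n, rfl⟩)).symm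
    exact ⟨(MonoidHom.transferSylow P hNC).ker, MonoidHom.normal_ker _,
      MonoidHom.ker_transferSylow_isComplement' P hNC⟩

end Cfsg.Agent.S0946
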