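import Cfsg.Statements.S0107
import Cfsg.Agent.S0111
import Cfsg.Agent.S0946
import Cfsg.Agent.Lib.Helper52.KleinSylow

set_option autoImplicit false
open Cfsg

namespace Cfsg.Agent.S0107

/-- A normal subgroup of index two contains the subgroup generated by the elements of odd order. -/
theorem pResidual_le_of_index_two {G : Type*} [Group G] (M : Subgroup G) (hM : M.index = 2) :
    Cfsg.pResidual 2 G ≤ M := by
  unfold Cfsg.pResidual
  rw [Subgroup.closure_le]
  intro g hg
  have hg : Nat.Coprime (orderOf g) 2 := hg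
  have h2 : g ^ 2 ∈ M := by rw [sq]; exact Subgroup.mul_self_mem_of_index_two hM g
  have h1 : g ^ orderOf g ∈ M := by rw [pow_orderOf_eq_one]; exact M.one_mem
  have h3 : g ^ Nat.gcd (orderOf g) 2 ∈ M := by
    rw [← zpow_natCast, Nat.gcd_eq_gcd_ab, zpow_add, zpow_mul, zpow_mul, zpow_natCast, zpow_natCast]
    exact M.mul_mem (M.zpow_mem h1 _) (M.zpow_mem h2 _)
  rw [Nat.Coprime] at hg
  rw [hg, pow_one] at h3
  exact h3

/-- A finite group with no nontrivial 2-group quotient and dihedral Sylow 2-subgroups of order at least 8 has a single class of involutions. -/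
theorem result {G : Type*} [Group G] [Finite G] (T : Sylow 2 G) (n : ℕ) (hn : 2 ≤ n) (hT : Nonempty ((T : Subgroup G) ≃* DihedralGroup (2 ^ n))) (hO : Cfsg.pResidual 2 G = ⊤) (x y : G) (hx : orderOf x = 2) (hy : orderOf y = 2) : ∃ g : G, g * x * g⁻¹ = y := by
  obtain ⟨e⟩ := hT
  have hn1 : 1 ≤ n := by omega
  have : NeZero (2 ^ n) := ⟨by positivity⟩
  -- no normal subgroup of index two
  have hno : ¬ ∃ M : Subgroup G, M.Normal ∧ M.index = 2 ∧ ∀ u : G, u ∉ M → True := by
    rintro ⟨M, -, hM, -⟩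
    have h1 := pResidual_le_of_index_two M hM
    rw [hO, top_le_iff] at h1
    rw [h1, Subgroup.index_top] at hM
    exact absurd hM (by norm_num)
  -- the rotation subgroup
  set ρ : (T : Subgroup G) := e.symm (DihedralGroup.r 1) with hρ
  have hρo : orderOf (ρ : G) = 2 ^ n := by
    rw [Subgroup.orderOf_coe, hρ, MulEquiv.orderOf_eq, DihedralGroup.orderOf_r_one]
  set Q : Subgroup G := Subgroup.zpowers (ρ : G) with hQ
  have hQT : Q ≤ (T : Subgroup G) := by
    rw [hQ, Subgroup.zpowers_le]; exact ρ.2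
  have hQcard : Nat.card Q = 2 ^ n := by rw [hQ, Nat.card_zpowers, hρo]
  have hTcard : Nat.card (T : Subgroup G) = 2 * 2 ^ n := by
    rw [Nat.card_congr e.toEquiv, DihedralGroup.nat_card]
  have hQi : Q.relIndex (T : Subgroup G) = 2 := by
    have h1 : Q.relIndex (T : Subgroup G) * Nat.card Q = Nat.card (T : Subgroup G) := by
      rw [Subgroup.relIndex, ← Nat.card_congr (Subgroup.subgroupOfEquivOfLe hQT).toEquiv]
      exact Subgroup.index_mul_card _
    rw [hQcard, hTcard] at h1
    exact Nat.eq_of_mul_eq_mul_right (by positivity) h1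
  -- elements of Q correspond to rotations
  have hQmem : ∀ q ∈ Q, ∃ i : ZMod (2 ^ n), q = ((e.symm (DihedralGroup.r i) : (T : Subgroup G)) : G) := by
    intro q hq
    obtain ⟨k, rfl⟩ := Subgroup.mem_zpowers_iff.1 hq
    refine ⟨(k : ZMod (2 ^ n)), ?_⟩
    rw [← DihedralGroup.r_one_zpow, map_zpow, ← hρ]
    simp
  set h : ZMod (2 ^ n) := ((2 ^ (n - 1) : ℕ) : ZMod (2 ^ n)) with hh
  set z : G := ((e.symm (DihedralGroup.r h) : (T : Subgroup G)) : G) with hz
  -- an involution of T which is a rotation is z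
  have hrot : ∀ i : ZMod (2 ^ n), orderOf ((e.symm (DihedralGroup.r i) : (T : Subgroup G)) : G) = 2 →
      ((e.symm (DihedralGroup.r i) : (T : Subgroup G)) : G) = z := by
    intro i hi
    rw [Subgroup.orderOf_coe, MulEquiv.orderOf_eq] at hi
    have h1 : (DihedralGroup.r i : DihedralGroup (2 ^ n)) ^ 2 = 1 := by
      have h0 := pow_orderOf_eq_one (DihedralGroup.r i : DihedralGroup (2 ^ n))
      rw [hi] at h0
      exact h0
    rw [sq, DihedralGroup.r_mul_r, DihedralGroup.one_def] at h1
    have h2 : i + i = 0 := by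
      injection h1
    rcases Cfsg.Agent.S0946.zmod_two_pow_add_self hn1 i h2 with h3 | h3
    · exfalso
      rw [h3, DihedralGroup.r_zero, orderOf_one] at hi
      exact absurd hi (by norm_num)
    · rw [hz, hh, h3]
  -- every reflection is conjugate to z
  have hrefl : ∀ i : ZMod (2 ^ n), ∃ g : G,
      g * ((e.symm (DihedralGroup.sr i) : (T : Subgroup G)) : G) * g⁻¹ = z := by
    intro i
    set u : G := ((e.symm (DihedralGroup.sr i) : (T : Subgroup G)) : G) with hu
    have huo : orderOf u = 2 := by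
      rw [hu, Subgroup.orderOf_coe, MulEquiv.orderOf_eq, DihedralGroup.orderOf_sr]
    have huT : u ∈ (T : Subgroup G) := Subtype.property _
    have huQ : u ∉ Q := by
      intro hmem
      obtain ⟨j, hj⟩ := hQmem u hmem
      have h1 : e.symm (DihedralGroup.sr i) = e.symm (DihedralGroup.r j) := Subtype.ext hj
      have h2 := e.symm.injective h1
      cases h2
    rcases Cfsg.Agent.S0111.result T Q hQT hQi u huo huT huQ with ⟨M, hMn, hMi, -⟩ | ⟨g, hg⟩
    · exact absurd ⟨M, hMn, hMi, fun _ _ => trivial⟩ hno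
    · refine ⟨g, ?_⟩
      obtain ⟨j, hj⟩ := hQmem _ hg
      rw [hj]
      apply hrot
      rw [← hj]
      have : g * u * g⁻¹ = (MulAut.conj g) u := by rw [MulAut.conj_apply]
      rw [this, MulEquiv.orderOf_eq, huo]
  -- every involution is conjugate to z
  have key : ∀ w : G, orderOf w = 2 → ∃ g : G, g * w * g⁻¹ = z := by
    intro w hw
    obtain ⟨g, hg⟩ := Cfsg.Agent.Lib.Helper52.exists_conj_mem_sylow_of_orderOf_two T w hw
    have hwo : orderOf (g * w * g⁻¹) = 2 := by
      have : g * w * g⁻¹ = (MulAut.conj g) w := by rw [MulAut.conj_apply]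
      rw [this, MulEquiv.orderOf_eq, hw]
    set t : (T : Subgroup G) := ⟨g * w * g⁻¹, hg⟩ with ht
    have ht' : t = e.symm (e t) := (e.symm_apply_apply t).symm
    have htc : (t : G) = g * w * g⁻¹ := rfl
    rcases hd : e t with i | i
    · refine ⟨g, ?_⟩
      rw [hd] at ht'
      rw [← htc, ht']
      apply hrot
      rw [← ht', htc]; exact hwo
    · obtain ⟨g', hg'⟩ := hrefl i
      refine ⟨g' * g, ?_⟩
      rw [hd] at ht'
      rw [← ht', htc] at hg'
      rw [← hg']; group
  obtain ⟨a, ha⟩ := key x hx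
  obtain ⟨b, hb⟩ := key y hy
  refine ⟨b⁻¹ * a, ?_⟩
  have : y = b⁻¹ * (b * y * b⁻¹) * b := by group
  rw [this, hb, ← ha]; group

end Cfsg.Agent.S0107
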