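import Mathlib
import Cfsg.Statements.S0110
import Cfsg.Agent.Lib.Helper2.ExtraCent

set_option autoImplicit false
open Cfsg

namespace Cfsg.Agent.S0110

open scoped commutatorElement

/-- In a p-group G, an extraspecial subgroup E with [G, E] ≤ Z(E) satisfies G = E C_G(E). -/
theorem result {G : Type*} [Group G] [Finite G] {p : ℕ} [Fact p.Prime] (hG : IsPGroup p G) (E : Subgroup G) (hE : Cfsg.IsExtraspecial p E) (h : ⁅(⊤ : Subgroup G), E⁆ ≤ E ⊓ Subgroup.centralizer (E : Set G)) : E ⊔ Subgroup.centralizer (E : Set G) = ⊤ := by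
  obtain ⟨⟨_, _, hcomm⟩, hcard⟩ := hE
  -- the centre of `E`, inside `G`
  have hmap : (Subgroup.center E).map E.subtype = E ⊓ Subgroup.centralizer (E : Set G) := by
    ext u
    simp only [Subgroup.mem_map, Subgroup.mem_center_iff, Subgroup.mem_inf,
      Subgroup.mem_centralizer_iff, Subgroup.coe_subtype]
    constructor
    · rintro ⟨z, hz, rfl⟩
      refine ⟨z.2, ?_⟩
      intro y hy
      have := hz ⟨y, hy⟩
      simpa using congrArg Subtype.val this
    · rintro ⟨huE, hu⟩
      refine ⟨⟨u, huE⟩, ?_, rfl⟩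
      intro y
      exact Subtype.ext (hu y y.2)
  have hZ : Nat.card ↥(E ⊓ Subgroup.centralizer (E : Set G)) = p := by
    rw [← hmap, Subgroup.card_map_of_injective E.subtype_injective]
    exact hcard
  have hcomm' : ∀ a ∈ E, ∀ b ∈ E, ⁅a, b⁆ ∈ Subgroup.centralizer (E : Set G) := by
    intro a ha b hb
    have h1 : ⁅(⟨a, ha⟩ : E), ⟨b, hb⟩⁆ ∈ Subgroup.center E := by
      rw [← hcomm]
      exact Subgroup.commutator_mem_commutator (Subgroup.mem_top _) (Subgroup.mem_top _)
    have h2 : ((⁅(⟨a, ha⟩ : E), ⟨b, hb⟩⁆ : E) : G) ∈ (Subgroup.center E).map E.subtype :=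
      Subgroup.mem_map_of_mem _ h1
    rw [hmap] at h2
    exact h2.2
  have hnab : ¬ (E ≤ Subgroup.centralizer (E : Set G)) := by
    intro hab
    have hp : p.Prime := Fact.out
    have hbot : Subgroup.center E = ⊥ := by
      rw [← hcomm, commutator_def, Subgroup.commutator_eq_bot_iff_le_centralizer]
      intro x _
      rw [Subgroup.mem_centralizer_iff]
      intro y _
      exact Subtype.ext (Subgroup.mem_centralizer_iff.mp (hab x.2) y y.2)
    rw [hbot] at hcard
    simp at hcard
    exact hp.one_lt.ne hcard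
  rw [eq_top_iff]
  intro g _
  obtain ⟨e, he, c, hc, rfl⟩ :=
    Cfsg.Agent.Lib.Helper2.exists_mul_centralizer_of_commutator_mem E hZ hcomm' hnab g
      (fun e he => h (Subgroup.commutator_mem_commutator (Subgroup.mem_top g) he))
  exact Subgroup.mul_mem_sup he hc

end Cfsg.Agent.S0110
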