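import Cfsg.Statements.S0114
import Mathlib
import Cfsg.Agent.Lib.Helper73.MaxClass
import Cfsg.Agent.Lib.Helper73.MaxClassCenter
import Cfsg.Agent.Lib.Helper73.DihedralIso

set_option autoImplicit false
open Cfsg

namespace Cfsg.Agent.S0114

open Cfsg.Agent.Lib.Helper73 in
/-- If X is a 2-group of order 2^n (n ≥ 3) and class n - 1 then X/Z(X) is dihedral of order 2^(n-1). -/
theorem result {X : Type*} [Group X] [Finite X] (n : ℕ) (hn : 3 ≤ n) (hX : Nat.card X = 2 ^ n) (hc : Group.nilpotencyClass X = n - 1) : Nonempty (X ⧸ Subgroup.center X ≃* DihedralGroup (2 ^ (n - 2))) := by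
  have : Fact (Nat.Prime 2) := ⟨Nat.prime_two⟩
  have h2 : IsPGroup 2 X := IsPGroup.of_card hX
  have hnil : Group.IsNilpotent X := h2.isNilpotent
  have hidx : (commutator X).index = 4 := by
    have := commutator_index_of_maximal_class (p := 2) n hn hX hc
    simpa using this
  have hne : commutator X ≠ ⊥ := by
    intro h
    rw [← Subgroup.top_lowerCentralSeries_one,
      Subgroup.lowerCentralSeries_eq_bot_iff_nilpotencyClass_le] at h
    omega
  obtain ⟨m, a, b, hm, hcard, ha, hb, hrel, hAidx, hzc, hcen⟩ :=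
    maximal_class_structure_center X h2 hidx hne
  have hnm : n = m + 1 := by
    rw [hX] at hcard
    exact Nat.pow_right_injective (le_refl 2) hcard
  subst hnm
  obtain ⟨j, rfl⟩ : ∃ j, m = j + 2 := ⟨m - 2, by omega⟩
  have e1 : j + 2 + 1 - 2 = j + 1 := by omega
  have e2 : j + 2 - 1 = j + 1 := by omega
  rw [e1]
  rw [e2] at hzc hcen hrel
  obtain ⟨z, hz⟩ : ∃ z : X, z = a ^ (2 ^ (j + 1)) := ⟨_, rfl⟩
  rw [← hz] at hzc hcen hrel
  have hz1 : z ≠ 1 := by
    rw [hz]
    apply pow_ne_one_of_lt_orderOf (by positivity)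
    rw [ha]
    exact Nat.pow_lt_pow_right (by norm_num) (by omega)
  have hz2 : z ^ 2 = 1 := by
    rw [hz, ← pow_mul, ← pow_succ, ← ha]
    exact pow_orderOf_eq_one a
  have hZcard : Nat.card (Subgroup.center X) = 2 := by
    have hZ : Subgroup.center X = Subgroup.zpowers z := by
      apply le_antisymm
      · intro w hw
        rcases hcen w hw with h | h
        · rw [h]; exact one_mem _
        · rw [h]; exact Subgroup.mem_zpowers z
      · exact Subgroup.zpowers_le.mpr hzc
    rw [hZ, Nat.card_zpowers]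
    exact orderOf_eq_prime hz2 hz1
  have hQcard : Nat.card (X ⧸ Subgroup.center X) = 2 * 2 ^ (j + 1) := by
    have h1 := (Subgroup.center X).card_mul_index
    rw [hZcard, hcard, Subgroup.index_eq_card] at h1
    have h3 : (2 : ℕ) ^ (j + 2 + 1) = 2 * (2 * 2 ^ (j + 1)) := by ring
    rw [h3] at h1
    exact Nat.eq_of_mul_eq_mul_left (by norm_num) h1
  obtain ⟨π, hπ⟩ : ∃ π : X →* X ⧸ Subgroup.center X, ∀ x : X, π x = 1 ↔ x ∈ Subgroup.center X :=
    ⟨QuotientGroup.mk' (Subgroup.center X), fun x => QuotientGroup.eq_one_iff x⟩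
  have haord : orderOf (π a) = 2 ^ (j + 1) := by
    apply orderOf_eq_prime_pow
    · rw [← map_pow, hπ]
      intro h
      have h3 : a ^ (2 ^ (j + 1)) = a ^ (2 ^ j) * a ^ (2 ^ j) := by
        rw [← pow_add]; congr 1; ring
      rcases hcen _ h with h' | h'
      · apply hz1; rw [hz, h3, h', one_mul]
      · apply hz1
        rw [hz, h3] at h'
        have h4 : a ^ (2 ^ j) = 1 := by
          have := congrArg (fun t => (a ^ (2 ^ j))⁻¹ * t) h'
          simpa using this.symm
        rw [hz, h3, h4, one_mul]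
    · rw [← map_pow, hπ, ← hz]; exact hzc
  have hb2 : (π b) ^ 2 = 1 := by
    rw [← map_pow, hπ]
    rcases hrel with ⟨_, h⟩ | ⟨_, h⟩ | ⟨_, _, h⟩
    · rw [h]; exact one_mem _
    · rw [h]; exact hzc
    · rw [h]; exact one_mem _
  have hba : π b * π a * (π b)⁻¹ = (π a)⁻¹ := by
    rw [← map_inv, ← map_mul, ← map_mul, ← map_inv]
    rcases hrel with ⟨h, _⟩ | ⟨h, _⟩ | ⟨_, h, _⟩
    · rw [h]
    · rw [h]
    · rw [h]
      have h5 : a ^ (2 ^ (j + 1) - 1) = a⁻¹ * z := by
        have h1 : 2 ^ (j + 1) = (2 ^ (j + 1) - 1) + 1 := by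
          have := Nat.one_le_two_pow (n := j + 1); omega
        rw [hz]
        conv_rhs => rw [h1, pow_succ']
        group
      rw [h5, map_mul, (hπ z).mpr hzc, mul_one]
  have hbA : π b ∉ Subgroup.zpowers (π a) := by
    intro h
    obtain ⟨i, hi⟩ := Subgroup.mem_zpowers_iff.mp h
    have h1 : π ((a ^ i)⁻¹ * b) = 1 := by rw [map_mul, map_inv, map_zpow, hi]; group
    rw [hπ] at h1
    apply hb
    have h3 : (a ^ i)⁻¹ * b ∈ Subgroup.zpowers a := by
      rcases hcen _ h1 with h' | h'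
      · rw [h']; exact one_mem _
      · rw [h', hz]; exact Subgroup.pow_mem _ (Subgroup.mem_zpowers a) _
    have h4 : a ^ i ∈ Subgroup.zpowers a := Subgroup.zpow_mem _ (Subgroup.mem_zpowers a) _
    have h6 : b = a ^ i * ((a ^ i)⁻¹ * b) := by group
    rw [h6]; exact mul_mem h4 h3
  have : NeZero (2 ^ (j + 1)) := ⟨by positivity⟩
  exact nonempty_mulEquiv_dihedralGroup (2 ^ (j + 1)) (π a) (π b) haord hb2 hba hbA hQcard

end Cfsg.Agent.S0114
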