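import Cfsg.Statements.S0116
import Cfsg.Agent.Lib.Helper34.Alperin

set_option autoImplicit false
open Cfsg

namespace Cfsg.Agent.S0116

/-- The Alperin fusion Theorem states that conjugation between subsets of a Sylow p-subgroup P factors through normalizers of tame intersections P ∩ Q_i with other Sylow p-subgroups, carrying the subset along step by step. -/
theorem result {G : Type*} [Group G] [Finite G] {p : ℕ} [Fact p.Prime] (P : Sylow p G) (A : Set G) (g : G) (hA : A ⊆ (P : Set G)) (hAg : (fun a => g⁻¹ * a * g) '' A ⊆ (P : Set G)) : ∃ (n : ℕ) (Q : Fin n → Sylow p G) (x : Fin n → G), (List.ofFn x).prod = g ∧ (∀ i : Fin n, x i ∈ Subgroup.normalizer ((((P : Subgroup G) ⊓ (Q i : Subgroup G)) : Subgroup G) : Set G) ∧ ¬ p ∣ ((P : Subgroup G) ⊓ Subgroup.normalizer ((((P : Subgroup G) ⊓ (Q i : Subgroup G)) : Subgroup G) : Set G)).relIndex (Subgroup.normalizer ((((P : Subgroup G) ⊓ (Q i : Subgroup G)) : Subgroup G) : Set G)) ∧ ¬ p ∣ ((Q i : Subgroup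 G) ⊓ Subgroup.normalizer ((((P : Subgroup G) ⊓ (Q i : Subgroup G)) : Subgroup G) : Set G)).relIndex (Subgroup.normalizer ((((P : Subgroup G) ⊓ (Q i : Subgroup G)) : Subgroup G) : Set G))) ∧ (∀ h : 0 < n, A ⊆ (((P : Subgroup G) ⊓ (Q ⟨0, h⟩ : Subgroup G) : Subgroup G) : Set G)) ∧ ∀ i : Fin n, ∀ h : i.val + 1 < n, (fun a => (((List.ofFn x).take (i.val + 1)).prod)⁻¹ * a * ((List.ofFn x).take (i.val + 1)).prod) '' A ⊆ (((P : Subgroup G) ⊓ (Q ⟨i.val + 1, h⟩ : Subgroup G) : Subgroup G) : Set G) := by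
  obtain ⟨l, hl, hlg⟩ := Cfsg.Agent.Lib.Helper34.alperin_fusion P A g hA hAg
  have hofn : List.ofFn (fun i : Fin l.length => (l.get i).2) = l.map Prod.snd := by
    apply List.ext_getElem
    · simp
    · intro i h1 h2
      simp
  refine ⟨l.length, fun i => (l.get i).1, fun i => (l.get i).2, ?_, ?_, ?_, ?_⟩
  · rw [hofn]; exact hlg
  · intro i
    have h := (Cfsg.Agent.Lib.Helper34.alpChain_getElem P l hl i.val i.isLt).1
    exact ⟨h.1, h.2.1, h.2.2.1⟩
  · intro h
    have h2 := (Cfsg.Agent.Lib.Helper34.alpChain_getElem P l hl 0 h).2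
    intro a ha
    have h3 := h2 ⟨a, ha, rfl⟩
    simpa using h3
  · intro i h
    rw [hofn]
    exact (Cfsg.Agent.Lib.Helper34.alpChain_getElem P l hl (i.val + 1) h).2

end Cfsg.Agent.S0116
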