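import Cfsg.Statements.S0119
import Mathlib
import Cfsg.Agent.S0093
import Cfsg.Agent.S0130
import Cfsg.Agent.Lib.Helper2.FrattiniP

set_option autoImplicit false
open Cfsg

namespace Cfsg.Agent.S0119

open Subgroup
open scoped commutatorElement

/-- If a p'-group A of automorphisms of a p-group G satisfies G = [G, A] and acts trivially on every characteristic abelian subgroup, then G is special with centre equal to the fixed points of A. -/
theorem result {G : Type*} [Group G] [Finite G] {p : ℕ} [Fact p.Prime] (hG : IsPGroup p G) (A : Subgroup (MulAut G)) (hA : Nat.Coprime (Nat.card A) p) (hGA : Subgroup.closure {x : G | ∃ g : G, ∃ a ∈ A, x = g⁻¹ * a g} = ⊤) (hchar : ∀ H : Subgroup G, H.Characteristic → IsMulCommutative H → ∀ a ∈ A, ∀ h ∈ H, a h = h) : Cfsg.IsSpecial p G ∧ (∀ g : G, (g ∈ Subgroup.center G ↔ ∀ a ∈ A, a g = g)) := by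
  classical
  have hp : p.Prime := Fact.out
  -- Step 1: characteristic abelian subgroups are central
  have hcentral : ∀ H : Subgroup G, H.Characteristic → IsMulCommutative H →
      H ≤ Subgroup.center G := by
    intro H hHc hHab h hh
    have hHn : H.Normal := inferInstance
    have h1 : Subgroup.closure {x : G | ∃ g : G, ∃ a ∈ A, x = g⁻¹ * a g} ≤
        Subgroup.centralizer {h} := by
      rw [Subgroup.closure_le]
      rintro x ⟨g, a, ha, rfl⟩
      show g⁻¹ * a g ∈ Subgroup.centralizer {h}
      rw [Subgroup.mem_centralizer_singleton_iff]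
      have h2 := hchar H hHc hHab a ha (g * h * g⁻¹) (hHn.conj_mem h hh g)
      have h3 := hchar H hHc hHab a ha h hh
      rw [map_mul, map_mul, map_inv, h3] at h2
      calc g⁻¹ * a g * h = g⁻¹ * (a g * h * (a g)⁻¹) * a g := by group
        _ = g⁻¹ * (g * h * g⁻¹) * a g := by rw [h2]
        _ = h * (g⁻¹ * a g) := by group
    rw [hGA] at h1
    rw [Subgroup.mem_center_iff]
    intro g
    exact Subgroup.mem_centralizer_singleton_iff.mp (h1 (Subgroup.mem_top g))
  -- Step 2: class at most two, via a critical subgroup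
  obtain ⟨H₀, hH₀c, -, hH₀comm, hH₀cent⟩ := Cfsg.Agent.S0093.result hG
  have hZH : H₀ ⊓ Subgroup.centralizer (H₀ : Set G) ≤ Subgroup.center G := by
    have hchar' : (H₀ ⊓ Subgroup.centralizer (H₀ : Set G)).Characteristic := inferInstance
    apply hcentral _ hchar'
    refine ⟨⟨fun a b => Subtype.ext ?_⟩⟩
    exact Subgroup.mem_centralizer_iff.mp b.2.2 a a.2.1
  have hHtop : ⁅H₀, (⊤ : Subgroup G)⁆ ≤ Subgroup.center G := hH₀comm.trans hZH
  have hclass : commutator G ≤ Subgroup.center G := by
    have h1 : ⁅⁅(⊤ : Subgroup G), H₀⁆, (⊤ : Subgroup G)⁆ = ⊥ := by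
      rw [Subgroup.commutator_top_right_eq_bot_iff_le_center, Subgroup.commutator_comm]
      exact hHtop
    have h2 : ⁅⁅H₀, (⊤ : Subgroup G)⁆, (⊤ : Subgroup G)⁆ = ⊥ := by
      rw [Subgroup.commutator_top_right_eq_bot_iff_le_center]
      exact hHtop
    have h3 := Subgroup.commutator_commutator_eq_bot_of_rotate h1 h2
    rw [Subgroup.commutator_eq_bot_iff_le_centralizer] at h3
    rw [commutator_def]
    exact (le_inf (h3.trans hH₀cent) h3).trans hZH
  have hcl : ∀ x y : G, ⁅x, y⁆ ∈ Subgroup.center G := fun x y =>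
    hclass (by
      rw [commutator_def]
      exact Subgroup.commutator_mem_commutator (Subgroup.mem_top x) (Subgroup.mem_top y))
  -- Step 3: fixed points of `A` lie in the derived subgroup
  have hfix : ∀ x : G, (∀ a ∈ A, a x = x) → x ∈ commutator G := by
    intro x hx
    have : Fintype A := Fintype.ofFinite A
    let N : G →* Abelianization G :=
      ∏ b : A, (Abelianization.of.comp (b : MulAut G).toMonoidHom)
    have hN : ∀ g : G, N g = ∏ b : A, Abelianization.of ((b : MulAut G) g) := by
      intro g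
      simp only [N]
      rw [MonoidHom.finsetProd_apply]
      rfl
    have hNker : ∀ g : G, N g = 1 := by
      have h1 : Subgroup.closure {x : G | ∃ g : G, ∃ a ∈ A, x = g⁻¹ * a g} ≤ N.ker := by
        rw [Subgroup.closure_le]
        rintro y ⟨g, a, ha, rfl⟩
        show g⁻¹ * a g ∈ N.ker
        rw [MonoidHom.mem_ker, map_mul, map_inv, hN, hN]
        have h2 : ∏ b : A, Abelianization.of ((b : MulAut G) (a g))
            = ∏ b : A, Abelianization.of ((b : MulAut G) g) := by
          apply Fintype.prod_equiv (Equiv.mulRight (⟨a, ha⟩ : A))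
          intro b
          rfl
        rw [h2, inv_mul_cancel]
      intro g
      have h3 : g ∈ N.ker := h1 (hGA ▸ Subgroup.mem_top g)
      exact h3
    have h3 : (Abelianization.of x) ^ Nat.card A = 1 := by
      have h4 := hNker x
      rw [hN] at h4
      have h5 : ∀ b : A, Abelianization.of ((b : MulAut G) x) = Abelianization.of x :=
        fun b => by rw [hx b b.2]
      simp only [h5, Finset.prod_const, Finset.card_univ] at h4
      rw [Nat.card_eq_fintype_card]
      exact h4
    obtain ⟨k, hk⟩ := hG x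
    have h5 : (Abelianization.of x) ^ p ^ k = 1 := by rw [← map_pow, hk, map_one]
    have h6 : orderOf (Abelianization.of x) ∣ Nat.gcd (Nat.card A) (p ^ k) :=
      Nat.dvd_gcd (orderOf_dvd_of_pow_eq_one h3) (orderOf_dvd_of_pow_eq_one h5)
    rw [Nat.Coprime.pow_right k hA, Nat.dvd_one, orderOf_eq_one_iff] at h6
    have h7 : x ∈ (Abelianization.of : G →* Abelianization G).ker := h6
    rwa [Abelianization.ker_of] at h7
  have hcenter_fix : ∀ g ∈ Subgroup.center G, ∀ a ∈ A, a g = g := fun g hg a ha =>
    hchar (Subgroup.center G) inferInstance inferInstance a ha g hg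
  have hcomm_eq : commutator G = Subgroup.center G :=
    le_antisymm hclass (fun g hg => hfix g (hcenter_fix g hg))
  -- Step 4: commutators have order dividing `p`
  have hbil : ∀ (x y : G) (m : ℕ), ⁅x ^ m, y⁆ = ⁅x, y⁆ ^ m := by
    intro x y m
    have hd := Subgroup.mem_center_iff.mp (hcl x y)
    have h1 := Cfsg.Agent.S0130.pow_mul_of_central y x ⁅x, y⁆ (hd x).symm
      (by rw [commutatorElement_def]; group) m
    rw [commutatorElement_def, h1]
    group
  have hP : ∀ k : ℕ, (∀ x y : G, ⁅x, y⁆ ^ p ^ (2 * k) = 1) →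
      ∀ x y : G, ⁅x, y⁆ ^ p ^ k = 1 := by
    intro k hk
    obtain ⟨U, hU⟩ : ∃ U : Subgroup G,
        U = Subgroup.closure {z : G | ∃ x : G, z = x ^ p ^ k} := ⟨_, rfl⟩
    have hUchar : U.Characteristic := by
      rw [Subgroup.characteristic_iff_map_le]
      intro φ
      rw [hU, MonoidHom.map_closure, Subgroup.closure_le]
      rintro _ ⟨_, ⟨x, rfl⟩, rfl⟩
      apply Subgroup.subset_closure
      exact ⟨φ x, by simp⟩
    have hgen : ∀ x y : G, x ^ p ^ k * y ^ p ^ k = y ^ p ^ k * x ^ p ^ k := by
      intro x y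
      rw [← commutatorElement_eq_one_iff_mul_comm, hbil]
      have h1 : ⁅x, y ^ p ^ k⁆ = (⁅y, x⁆ ^ p ^ k)⁻¹ := by
        rw [← hbil, commutatorElement_inv]
      rw [h1, inv_pow, ← pow_mul, ← pow_add, ← two_mul, hk y x, inv_one]
    have hUab : IsMulCommutative U := by
      have h1 : ∀ x : G, U ≤ Subgroup.centralizer {x ^ p ^ k} := by
        intro x
        rw [hU, Subgroup.closure_le]
        rintro _ ⟨y, rfl⟩
        show y ^ p ^ k ∈ Subgroup.centralizer {x ^ p ^ k}
        rw [Subgroup.mem_centralizer_singleton_iff]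
        exact hgen y x
      have h2 : ∀ u ∈ U, U ≤ Subgroup.centralizer {u} := by
        intro u hu
        rw [hU, Subgroup.closure_le]
        rintro _ ⟨x, rfl⟩
        show x ^ p ^ k ∈ Subgroup.centralizer {u}
        rw [Subgroup.mem_centralizer_singleton_iff]
        exact (Subgroup.mem_centralizer_singleton_iff.mp (h1 x hu)).symm
      refine ⟨⟨fun a b => Subtype.ext ?_⟩⟩
      exact Subgroup.mem_centralizer_singleton_iff.mp (h2 b b.2 a.2)
    have hUZ := hcentral U hUchar hUab
    intro x y
    rw [← hbil, commutatorElement_eq_one_iff_mul_comm]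
    have h3 : x ^ p ^ k ∈ Subgroup.center G := hUZ (hU ▸ Subgroup.subset_closure ⟨x, rfl⟩)
    exact ((Subgroup.mem_center_iff.mp h3) y).symm
  have hPK : ∀ K : ℕ, (∀ x y : G, ⁅x, y⁆ ^ p ^ K = 1) → ∀ x y : G, ⁅x, y⁆ ^ p = 1 := by
    intro K
    induction K using Nat.strong_induction_on with
    | _ K ih =>
      intro hK
      by_cases hK1 : K ≤ 1
      · intro x y
        have h1 := hK x y
        interval_cases K
        · rw [pow_zero, pow_one] at h1
          rw [h1, one_pow]
        · rwa [pow_one] at h1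
      · have hk2 : ∀ x y : G, ⁅x, y⁆ ^ p ^ (2 * ((K + 1) / 2)) = 1 := by
          intro x y
          have hle : K ≤ 2 * ((K + 1) / 2) := by omega
          obtain ⟨t, ht⟩ := Nat.exists_eq_add_of_le hle
          rw [ht, pow_add, pow_mul, hK x y, one_pow]
        exact ih ((K + 1) / 2) (by omega) (hP _ hk2)
  obtain ⟨n, hn⟩ := hG.exists_card_eq
  have hexp : ∀ x y : G, ⁅x, y⁆ ^ p = 1 :=
    hPK n (fun x y => by rw [← hn]; exact pow_card_eq_one')
  -- Step 5: the Frattini subgroup
  have hpowc : ∀ x : G, x ^ p ∈ Subgroup.center G := by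
    intro x
    rw [Subgroup.mem_center_iff]
    intro y
    have h1 : ⁅x ^ p, y⁆ = 1 := by rw [hbil, hexp]
    exact (commutatorElement_eq_one_iff_mul_comm.mp h1).symm
  have hfrat : frattini G = Subgroup.center G := by
    apply le_antisymm
    · apply Cfsg.Agent.S0093.frattini_le_of_elementary p hp _ hpowc
      intro x y
      exact hcl x y
    · rw [← hcomm_eq]
      exact Cfsg.Agent.Lib.Helper2.commutator_le_frattini hG
  exact ⟨⟨hG, hfrat, hcomm_eq⟩, fun g =>
    ⟨fun hg a ha => hcenter_fix g hg a ha, fun h => hclass (hfix g h)⟩⟩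

end Cfsg.Agent.S0119
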