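import Cfsg.Statements.S0123
import Mathlib
import Cfsg.Agent.S0130
import Cfsg.Agent.Lib.Helper38.Collect

set_option autoImplicit false
open Cfsg

namespace Cfsg.Agent.S0123

open scoped commutatorElement

/-- For a p-group of small class relative to p (class ≤ 2 with p odd, or class ≤ 3 with p > 3) whose derived subgroup is generated by elements of order dividing p, the p-th power map is multiplicative. -/
theorem result {R : Type*} [Group R] [Finite R] {p : ℕ} [Fact p.Prime] (hR : IsPGroup p R) (hcl : (p ≠ 2 ∧ ⁅commutator R, (⊤ : Subgroup R)⁆ = ⊥) ∨ (3 < p ∧ ⁅⁅commutator R, (⊤ : Subgroup R)⁆, (⊤ : Subgroup R)⁆ = ⊥)) (hder : commutator R ≤ Subgroup.closure {x : R | x ^ p = 1}) (x y : R) : (x * y) ^ p = x ^ p * y ^ p := by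
  have hpp : p.Prime := Fact.out
  have hmem : ∀ a b : R, ⁅a, b⁆ ∈ commutator R := by
    intro a b
    rw [commutator_def]
    exact Subgroup.commutator_mem_commutator (Subgroup.mem_top a) (Subgroup.mem_top b)
  rcases hcl with ⟨hp2, hc2⟩ | ⟨hp3, hc3⟩
  · -- class at most two, `p` odd
    have hcen : commutator R ≤ Subgroup.center R :=
      Subgroup.commutator_top_right_eq_bot_iff_le_center.mp hc2
    have hd2 : p ∣ p.choose 2 := by
      apply hpp.dvd_choose_self (by norm_num)
      have := hpp.two_le
      omega
    obtain ⟨c2, hc2'⟩ := hd2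
    -- the class two formula
    have hform : ∀ a b : R, (a * b) ^ p = ⁅b, a⁆ ^ (p.choose 2) * a ^ p * b ^ p := by
      intro a b
      have hdc := Subgroup.mem_center_iff.mp (hcen (hmem b a))
      exact Cfsg.Agent.S0130.mul_pow_of_central a b ⁅b, a⁆ (hdc a).symm (hdc b).symm
        (by rw [commutatorElement_def]; group) p
    -- elements of order dividing `p` are closed under products
    have hprod : ∀ a b : R, a ^ p = 1 → b ^ p = 1 → (a * b) ^ p = 1 := by
      intro a b ha hb
      have hdc := Subgroup.mem_center_iff.mp (hcen (hmem b a))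
      have h1 := Cfsg.Agent.S0130.pow_mul_of_central a b ⁅b, a⁆ (hdc b).symm
        (by rw [commutatorElement_def]; group) p
      rw [hb, one_mul, mul_one] at h1
      have h2 : 1 * a = ⁅b, a⁆ ^ p * a := by rw [one_mul]; exact h1
      have h3 : ⁅b, a⁆ ^ p = 1 := (mul_right_cancel h2).symm
      rw [hform a b, ha, hb, hc2', pow_mul, h3, one_pow, one_mul, one_mul]
    have hexp : ∀ g ∈ Subgroup.closure {x : R | x ^ p = 1}, g ^ p = 1 := by
      intro g hg
      induction hg using Subgroup.closure_induction with
      | mem x hx => exact hx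
      | one => exact one_pow p
      | mul a b _ _ ha hb => exact hprod a b ha hb
      | inv a _ ha => rw [inv_pow, ha, inv_one]
    have h3 : ⁅y, x⁆ ^ p = 1 := hexp _ (hder (hmem y x))
    rw [hform x y, hc2', pow_mul, h3, one_pow, one_mul]
  · -- class at most three, `p > 3`
    have hexp : ∀ g ∈ Subgroup.closure {x : R | x ^ p = 1}, g ^ p = 1 := fun g hg =>
      Cfsg.Agent.Lib.Helper38.pow_eq_one_of_mem_closure_class_three hpp hp3 hc3 g hg
    exact Cfsg.Agent.Lib.Helper38.mul_pow_prime_of_class_three hpp hp3 hc3 x y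
      (hexp _ (hder (hmem y x))) (hexp _ (hder (hmem _ x))) (hexp _ (hder (hmem y _)))

end Cfsg.Agent.S0123
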