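import Mathlib
import Cfsg.Statements.S0125

set_option autoImplicit false
open Cfsg

namespace Cfsg.Agent.S0125

theorem mem_smul_sylow_iff {G : Type*} [Group G] {p : ℕ} (P : Sylow p G) (g x : G) :
    x ∈ ((g • P : Sylow p G) : Subgroup G) ↔ g⁻¹ * x * g ∈ (P : Subgroup G) := by
  rw [Sylow.coe_subgroup_smul, Subgroup.mem_pointwise_smul_iff_inv_smul_mem]
  simp

/-- `A` is (the image of) every Sylow `p`-subgroup of `C_G(A)` containing it. -/
theorem sylow_centralizer {G : Type*} [Group G] [Finite G] {p : ℕ} [Fact p.Prime] (R : Sylow p G) (A : Subgroup G)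
    (hAn : (R : Subgroup G) ≤ Subgroup.normalizer (A : Set G))
    (hC : (R : Subgroup G) ⊓ Subgroup.centralizer (A : Set G) = A)
    (S : Sylow p (Subgroup.centralizer (A : Set G))) :
    ∀ s : Subgroup.centralizer (A : Set G), s ∈ S → (s : G) ∈ A := by
  intro s hs
  -- work inside N = N_G(A)
  have hCN : Subgroup.centralizer (A : Set G) ≤ Subgroup.normalizer (A : Set G) :=
    Subgroup.centralizer_le_normalizer _
  -- the image of S in N is a p-group
  have hTp : IsPGroup p (((S : Subgroup (Subgroup.centralizer (A : Set G))).map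
      (Subgroup.inclusion hCN))) := S.isPGroup'.map _
  obtain ⟨R₂, hR₂⟩ := hTp.exists_le_sylow
  obtain ⟨n, hn⟩ := MulAction.exists_smul_eq (Subgroup.normalizer (A : Set G)) (R.subtype hAn) R₂
  have hsR₂ : Subgroup.inclusion hCN s ∈ R₂ := hR₂ (Subgroup.mem_map_of_mem _ hs)
  rw [← hn] at hsR₂
  have h1 : n⁻¹ * Subgroup.inclusion hCN s * n ∈ ((R.subtype hAn : Sylow p _) : Subgroup _) :=
    (mem_smul_sylow_iff _ n _).mp hsR₂
  have h2 : (n : G)⁻¹ * (s : G) * (n : G) ∈ (R : Subgroup G) := by
    have := h1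
    rw [Sylow.coe_subtype, Subgroup.mem_subgroupOf] at this
    simpa using this
  have h3 : (n : G)⁻¹ * (s : G) * (n : G) ∈ Subgroup.centralizer (A : Set G) := by
    rw [Subgroup.mem_centralizer_iff]
    intro a ha
    have ha' : (n : G) * a * (n : G)⁻¹ ∈ A := (Subgroup.mem_normalizer_iff.mp n.2 a).mp ha
    have hs' := (Subgroup.mem_centralizer_iff.mp s.2) _ ha'
    -- hs' : n a n⁻¹ * s = s * n a n⁻¹
    have e1 : a * ((n : G)⁻¹ * (s : G) * (n : G)) = (n : G)⁻¹ * ((n : G) * a * (n : G)⁻¹ * (s : G)) * (n : G) := by group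
    have e2 : (n : G)⁻¹ * (s : G) * (n : G) * a = (n : G)⁻¹ * ((s : G) * ((n : G) * a * (n : G)⁻¹)) * (n : G) := by group
    rw [e1, e2, hs']
  have h4 : (n : G)⁻¹ * (s : G) * (n : G) ∈ A := hC.le (Subgroup.mem_inf.mpr ⟨h2, h3⟩)
  have h5 : (n : G) * ((n : G)⁻¹ * (s : G) * (n : G)) * (n : G)⁻¹ ∈ A :=
    (Subgroup.mem_normalizer_iff.mp n.2 _).mp h4
  have : (s : G) = (n : G) * ((n : G)⁻¹ * (s : G) * (n : G)) * (n : G)⁻¹ := by group
  rw [this]; exact h5

/-- The centralizer of a self-centralizing normal subgroup A of a Sylow p-subgroup is the direct product of A with a normal p'-subgroup. -/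
theorem result {G : Type*} [Group G] [Finite G] {p : ℕ} [Fact p.Prime] (R : Sylow p G) (A : Subgroup G) (hAR : A ≤ (R : Subgroup G)) (hAn : (R : Subgroup G) ≤ Subgroup.normalizer (A : Set G)) (hC : (R : Subgroup G) ⊓ Subgroup.centralizer (A : Set G) = A) : ∃ H : Subgroup G, H ≤ Subgroup.centralizer (A : Set G) ∧ Nat.Coprime (Nat.card H) p ∧ Subgroup.centralizer (A : Set G) ≤ Subgroup.normalizer (H : Set G) ∧ H ⊓ A = ⊥ ∧ H ⊔ A = Subgroup.centralizer (A : Set G) := by
  have hp : p.Prime := Fact.out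
  have hAC : A ≤ Subgroup.centralizer (A : Set G) :=
    fun a ha => (Subgroup.mem_inf.mp (hC.ge ha)).2
  have hApg : IsPGroup p (A.subgroupOf (Subgroup.centralizer (A : Set G))) := by
    have h1 : IsPGroup p A := R.isPGroup'.to_le hAR
    intro x
    obtain ⟨k, hk⟩ := h1 ⟨(x : Subgroup.centralizer (A : Set G)), Subgroup.mem_subgroupOf.mp x.2⟩
    refine ⟨k, ?_⟩
    apply Subtype.ext
    apply Subtype.ext
    have := congrArg (fun y : A => (y : G)) hk
    simpa using this
  obtain ⟨S, hS⟩ := hApg.exists_le_sylow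
  have hSA : ∀ s : Subgroup.centralizer (A : Set G), s ∈ S → (s : G) ∈ A :=
    sylow_centralizer R A hAn hC S
  -- N_C(S) ≤ C_C(S)
  have hN : Subgroup.normalizer (S : Set (Subgroup.centralizer (A : Set G))) ≤
      Subgroup.centralizer (S : Set (Subgroup.centralizer (A : Set G))) := by
    intro c _
    rw [Subgroup.mem_centralizer_iff]
    intro s hs
    apply Subtype.ext
    have := (Subgroup.mem_centralizer_iff.mp c.2) (s : G) (hSA s hs)
    simpa using this
  have hcompl := MonoidHom.ker_transferSylow_isComplement' S hN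
  have hnd := MonoidHom.not_dvd_card_ker_transferSylow S hN
  refine ⟨(MonoidHom.transferSylow S hN).ker.map (Subgroup.centralizer (A : Set G)).subtype, ?_, ?_, ?_, ?_, ?_⟩
  · exact Subgroup.map_subtype_le _
  · rw [Subgroup.card_map_of_injective (Subgroup.subtype_injective _)]
    exact (Nat.Coprime.symm ((Nat.Prime.coprime_iff_not_dvd hp).mpr hnd))
  · rw [← Subgroup.normal_subgroupOf_iff_le_normalizer (Subgroup.map_subtype_le _)]
    have hcm : ((MonoidHom.transferSylow S hN).ker.map (Subgroup.centralizer (A : Set G)).subtype).subgroupOf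
        (Subgroup.centralizer (A : Set G)) = (MonoidHom.transferSylow S hN).ker :=
      Subgroup.comap_map_eq_self_of_injective (Subgroup.subtype_injective _) _
    rw [hcm]
    infer_instance
  · rw [eq_bot_iff]
    intro x hx
    obtain ⟨hxH, hxA⟩ := Subgroup.mem_inf.mp hx
    obtain ⟨k, hk, rfl⟩ := Subgroup.mem_map.mp hxH
    have hkS : k ∈ (S : Subgroup _) := hS (Subgroup.mem_subgroupOf.mpr hxA)
    have hdisj := hcompl.disjoint
    have : k ∈ (MonoidHom.transferSylow S hN).ker ⊓ (S : Subgroup _) := Subgroup.mem_inf.mpr ⟨hk, hkS⟩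
    rw [disjoint_iff.mp hdisj, Subgroup.mem_bot] at this
    rw [this]
    simp
  · apply le_antisymm
    · exact sup_le (Subgroup.map_subtype_le _) hAC
    · intro c hc
      obtain ⟨⟨k, s⟩, hks⟩ := hcompl.2 ⟨c, hc⟩
      simp only at hks
      have hc' : c = ((k : Subgroup.centralizer (A : Set G)) : G) * ((s : Subgroup.centralizer (A : Set G)) : G) := by
        have := congrArg (fun y : Subgroup.centralizer (A : Set G) => (y : G)) hks
        simpa using this.symm
      rw [hc']
      exact Subgroup.mul_mem _ (Subgroup.mem_sup_left (Subgroup.mem_map_of_mem _ k.2))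
        (Subgroup.mem_sup_right (hSA _ s.2))

end Cfsg.Agent.S0125
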