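-- Statement S0127: Omega_1 of a non-cyclic p-group (p odd) with a cyclic subgroup of index p.
import Mathlib
import Cfsg.Statements.S0127
import Cfsg.Agent.Lib.Helper95.CyclicMax

set_option autoImplicit false
open Cfsg

namespace Cfsg.Agent.S0127

/-- For odd p, in a non-cyclic p-group with a cyclic subgroup of index p, the elements of order dividing p generate an elementary abelian subgroup of order p^2. -/
theorem result {R : Type*} [Group R] [Finite R] {p : ℕ} [Fact p.Prime] (hp : p ≠ 2) (hR : IsPGroup p R) (hnc : ¬ IsCyclic R) (C : Subgroup R) (hC : IsCyclic C) (hCi : C.index = p) : Cfsg.IsElementaryAbelian p (Subgroup.closure {x : R | x ^ p = 1}) ∧ Nat.card (Subgroup.closure {x : R | x ^ p = 1}) = p ^ 2 := by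
  have hpp : p.Prime := Fact.out
  obtain ⟨a, t, N, hCa, hCn, hNn, hNc, hNcard, hNe, htN, htC, hzcent, hzC, hzp, hgen⟩ :=
    Cfsg.Agent.Lib.Helper95.CyclicMax.core hp hR hnc C hC hCi
  have hcomm := Cfsg.Agent.Lib.Helper95.CyclicMax.commutator_mem_zpowers a t hgen hzcent
  generalize t * a * t⁻¹ * a⁻¹ = z at hzcent hzC hzp hcomm
  have hmul : ∀ x y : R, (x * y) ^ p = x ^ p * y ^ p := by
    intro x y
    obtain ⟨i, hi⟩ := Subgroup.mem_zpowers_iff.mp (hcomm x y)
    apply Cfsg.Agent.S0126.pow_p_mul p hpp hp x y (y⁻¹ * x⁻¹ * y * x) (by group)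
    · rw [← hi]
      exact zpow_mem hzcent i
    · rw [← hi, ← zpow_natCast, ← zpow_mul, mul_comm, zpow_mul, zpow_natCast, hzp, one_zpow]
  let Ω : Subgroup R :=
    { carrier := {x | x ^ p = 1}
      mul_mem' := fun {x y} hx hy => by
        change (x * y) ^ p = 1
        rw [hmul x y, hx, hy, one_mul]
      one_mem' := one_pow p
      inv_mem' := fun {x} hx => by
        change x⁻¹ ^ p = 1
        rw [inv_pow, hx, inv_one] }
  have hcl : Subgroup.closure {x : R | x ^ p = 1} = Ω := by
    apply le_antisymm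
    · rw [Subgroup.closure_le]
      intro x hx
      exact hx
    · intro x hx
      exact Subgroup.subset_closure hx
  rw [hcl]
  have hNΩ : N ≤ Ω := fun x hx => hNe x hx
  have hker : Nat.card ((QuotientGroup.mk' C).comp Ω.subtype).ker ≤ p := by
    rw [← Subgroup.card_map_of_injective Ω.subtype_injective]
    apply Cfsg.Agent.Lib.Helper95.CyclicMax.card_le_of_exp p hpp.pos C hC
    · rintro _ ⟨y, hy, rfl⟩
      have h1 : QuotientGroup.mk' C (y : R) = 1 := MonoidHom.mem_ker.mp hy
      exact (QuotientGroup.eq_one_iff _).mp h1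
    · rintro _ ⟨y, hy, rfl⟩
      exact y.2
  have hrange : Nat.card ((QuotientGroup.mk' C).comp Ω.subtype).range ≤ p := by
    have h1 := Subgroup.card_le_card_group ((QuotientGroup.mk' C).comp Ω.subtype).range
    rw [← Subgroup.index_eq_card, hCi] at h1
    exact h1
  have hΩle : Nat.card Ω ≤ p ^ 2 := by
    have h1 := Subgroup.card_mul_index ((QuotientGroup.mk' C).comp Ω.subtype).ker
    rw [Subgroup.index_ker] at h1
    rw [← h1, pow_two]
    exact Nat.mul_le_mul hker hrange
  have hΩge : p ^ 2 ≤ Nat.card Ω := by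
    rw [← hNcard]
    exact Subgroup.card_le_of_le hNΩ
  have hNeq : N = Ω := Subgroup.eq_of_le_of_card_ge hNΩ (by rw [hNcard]; exact hΩle)
  refine ⟨⟨?_, fun x hx => hx⟩, le_antisymm hΩle hΩge⟩
  rw [← hNeq]
  exact hNc

end Cfsg.Agent.S0127
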