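import Cfsg.Statements.S0128
import Mathlib
import Cfsg.Agent.S0130
import Cfsg.Agent.S0045
import Cfsg.Agent.Lib.Helper38.PChain
import Cfsg.Agent.Lib.Helper38.SmallClass
import Cfsg.Agent.Lib.Helper91.Coprime2

set_option autoImplicit false
open Cfsg

namespace Cfsg.Agent.S0128

open Subgroup
open scoped commutatorElement

/-- For p > 3, in a p-group of p-rank at most 2 the elements of order dividing p generate a subgroup of exponent dividing p. -/
theorem result {R : Type*} [Group R] [Finite R] {p : ℕ} [Fact p.Prime] (hp : 3 < p) (hR : IsPGroup p R) (hrk : ∀ E : Subgroup R, Cfsg.IsElementaryAbelian p E → Nat.card E ≤ p ^ 2) (g : R) (hg : g ∈ Subgroup.closure {x : R | x ^ p = 1}) : g ^ p = 1 := by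
  have hpp : p.Prime := Fact.out
  have hnil : Group.IsNilpotent R := hR.isNilpotent
  -- a maximal normal elementary abelian subgroup `E`
  have hbot : (⊥ : Subgroup R) ∈ {B : Subgroup R | B.Normal ∧ IsMulCommutative B ∧
      ∀ b ∈ B, b ^ p = 1} := by
    refine ⟨inferInstance, ⟨⟨fun a b => Subtype.ext ?_⟩⟩, ?_⟩
    · rw [Subgroup.coe_mul, Subgroup.coe_mul, Subgroup.mem_bot.mp a.2, Subgroup.mem_bot.mp b.2]
    · intro b hb
      rw [Subgroup.mem_bot.mp hb, one_pow]
  obtain ⟨E, -, hEmax⟩ := Set.Finite.exists_le_maximal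
    (s := {B : Subgroup R | B.Normal ∧ IsMulCommutative B ∧ ∀ b ∈ B, b ^ p = 1})
    (Set.toFinite _) hbot
  obtain ⟨⟨hEn, hEc, hEe⟩, hEm⟩ := hEmax
  have hEcard : Nat.card E ≤ p ^ 2 := hrk E ⟨hEc, hEe⟩
  obtain ⟨m, hm⟩ := (hR.to_subgroup E).exists_card_eq
  have hm2 : m ≤ 2 := by
    rw [hm] at hEcard
    exact (Nat.pow_le_pow_iff_right hpp.one_lt).mp hEcard
  -- Alperin's theorem for `E`
  have hAlp : ∀ x ∈ Subgroup.centralizer (E : Set R), x ^ p = 1 → x ∈ E := by
    intro x hx hxp
    refine Cfsg.Agent.S0130.result hR 1 (by rw [pow_one]; omega) E hEc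
      (by simpa using hEe) ?_ x hx (by simpa using hxp)
    intro B hBn hBc hBe hEB
    exact le_antisymm (hEm ⟨hBn, hBc, by simpa using hBe⟩ hEB) hEB
  obtain ⟨C, hC⟩ : ∃ C : Subgroup R, C = Subgroup.centralizer (E : Set R) := ⟨_, rfl⟩
  have hCn : C.Normal := by rw [hC]; infer_instance
  have hidx : C.index ≤ p := by
    have h1 := Cfsg.Agent.Lib.Helper38.index_centralizer_le hR E m hm
    rw [← hC] at h1
    refine h1.trans ?_
    have h2 : m * (m - 1) / 2 ≤ 1 := by
      interval_cases m <;> simp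
    calc p ^ (m * (m - 1) / 2) ≤ p ^ 1 := Nat.pow_le_pow_right hpp.pos h2
      _ = p := pow_one p
  -- `[E, R]` is central
  have hcomm_central : ⁅E, (⊤ : Subgroup R)⁆ ≤ Subgroup.center R := by
    by_cases hE1 : E = ⊥
    · rw [hE1, Subgroup.commutator_bot_left]
      exact bot_le
    obtain ⟨D, hD⟩ : ∃ D : Subgroup R, D = ⁅E, (⊤ : Subgroup R)⁆ := ⟨_, rfl⟩
    have hDn : D.Normal := by rw [hD]; infer_instance
    have hDlt : Nat.card D < Nat.card E := by
      rw [hD]
      exact Cfsg.Agent.Lib.Helper38.card_commutator_top_lt E hE1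
    obtain ⟨m', hm'⟩ := (hR.to_subgroup D).exists_card_eq
    have hm1 : m' ≤ 1 := by
      rw [hm', hm] at hDlt
      have := (Nat.pow_lt_pow_iff_right hpp.one_lt).mp hDlt
      omega
    have h1 := Cfsg.Agent.Lib.Helper38.index_centralizer_le hR D m' hm'
    have h2 : m' * (m' - 1) / 2 = 0 := by
      interval_cases m' <;> simp
    rw [h2, pow_zero] at h1
    have h3 : (Subgroup.centralizer (D : Set R)).index = 1 :=
      le_antisymm h1 (Nat.pos_of_ne_zero Subgroup.index_ne_zero_of_finite)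
    have h4 := Subgroup.index_eq_one.mp h3
    rw [← hD]
    intro d hd
    rw [Subgroup.mem_center_iff]
    intro g
    have h5 : g ∈ Subgroup.centralizer (D : Set R) := h4 ▸ Subgroup.mem_top g
    exact (Subgroup.mem_centralizer_iff.mp h5 d hd).symm
  -- products `e * y` with `e ∈ E`, `y ^ p = 1` have order dividing `p`
  have hprod : ∀ e ∈ E, ∀ y : R, y ^ p = 1 → (e * y) ^ p = 1 := by
    intro e he y hy
    have hd1 : ⁅e, y⁆ ∈ ⁅E, (⊤ : Subgroup R)⁆ :=
      Subgroup.commutator_mem_commutator he (Subgroup.mem_top y)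
    have hd2 : ⁅y, e⁆ ∈ ⁅E, (⊤ : Subgroup R)⁆ := by
      rw [← commutatorElement_inv]
      exact Subgroup.inv_mem _ hd1
    have hdc := Subgroup.mem_center_iff.mp (hcomm_central hd2)
    have hdE : ⁅y, e⁆ ∈ E := Subgroup.commutator_le_left E ⊤ hd2
    have hrel : y * e = ⁅y, e⁆ * e * y := by
      rw [commutatorElement_def]
      group
    have h1 := Cfsg.Agent.S0130.mul_pow_of_central e y ⁅y, e⁆ (hdc e).symm (hdc y).symm hrel p
    have hdvd : p ∣ p.choose 2 := hpp.dvd_choose_self (by norm_num) (by omega)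
    obtain ⟨c, hc⟩ := hdvd
    rw [h1, hEe e he, hy, hc, pow_mul, hEe _ hdE, one_pow, one_mul, one_mul]
  -- subgroups of exponent `p` are small
  have hP1 : ∀ M : Subgroup R, (∀ t ∈ M, t ^ p = 1) → Nat.card M ≤ p * Nat.card E := by
    intro M hM
    have h1 : C ⊓ M ≤ E := fun x hx => hAlp x (hC ▸ hx.1) (hM x hx.2)
    have h2 := Cfsg.Agent.Lib.Helper1.card_eq_card_mul_relIndex (inf_le_right : C ⊓ M ≤ M)
    rw [Subgroup.inf_relIndex_right] at h2
    have h3 : C.relIndex M ≤ p :=
      (Nat.le_of_dvd (Nat.pos_of_ne_zero Subgroup.index_ne_zero_of_finite)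
        (Subgroup.relIndex_dvd_index_of_normal C M)).trans hidx
    rw [h2, mul_comm]
    exact Nat.mul_le_mul h3 (Subgroup.card_le_of_le h1)
  have hHexp : ∀ a : R, a ^ p = 1 → ∀ t ∈ E ⊔ zpowers a, t ^ p = 1 := by
    intro a ha t ht
    obtain ⟨e, he, z, hz, rfl⟩ := Subgroup.mem_sup_of_normal_left.mp ht
    obtain ⟨i, rfl⟩ := hz
    apply hprod e he
    rw [← zpow_natCast, ← zpow_mul, mul_comm, zpow_mul, zpow_natCast, ha, one_zpow]
  have hHcard : ∀ a : R, a ^ p = 1 → a ∉ E →
      Nat.card (E ⊔ zpowers a : Subgroup R) = p * Nat.card E := by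
    intro a ha haE
    have ha1 : a ≠ 1 := fun h => haE (h ▸ E.one_mem)
    have hao : orderOf a = p := orderOf_eq_prime ha ha1
    have hinf : Nat.card (E ⊓ zpowers a : Subgroup R) = 1 := by
      have h1 : Nat.card (E ⊓ zpowers a : Subgroup R) ∣ p := by
        have := Subgroup.card_dvd_of_le (inf_le_right : E ⊓ zpowers a ≤ zpowers a)
        rwa [Nat.card_zpowers, hao] at this
      rcases (Nat.dvd_prime hpp).mp h1 with h | h
      · exact h
      · exfalso
        apply haE
        have h2 : (E ⊓ zpowers a : Subgroup R) = zpowers a :=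
          Subgroup.eq_of_le_of_card_ge inf_le_right (by rw [h, Nat.card_zpowers, hao])
        have h3 : a ∈ (E ⊓ zpowers a : Subgroup R) := by
          rw [h2]
          exact mem_zpowers a
        exact h3.1
    have h1 := Cfsg.Agent.Lib.Helper91.card_sup_mul_card_inf_of_le_normalizer E (zpowers a)
      (by rw [Subgroup.normalizer_eq_top]; exact le_top)
    rw [hinf, mul_one, Nat.card_zpowers, hao] at h1
    rw [h1, mul_comm]
  -- adjoining one more element of order `p` normalising `E ⟨a⟩`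
  have hadd : ∀ (a c : R), a ^ p = 1 → c ^ p = 1 →
      c ∈ Subgroup.normalizer ((E ⊔ zpowers a : Subgroup R) : Set R) →
      ∀ t ∈ (E ⊔ zpowers a) ⊔ zpowers c, t ^ p = 1 := by
    intro a c ha hc hcN t ht
    have hcard : Nat.card ((E ⊔ zpowers a) ⊔ zpowers c : Subgroup R) ≤ p ^ 4 := by
      have h1 := Cfsg.Agent.Lib.Helper91.card_sup_mul_card_inf_of_le_normalizer
        (E ⊔ zpowers a) (zpowers c) ((zpowers_le).mpr hcN)
      have h2 : Nat.card (E ⊔ zpowers a : Subgroup R) ≤ p * Nat.card E := hP1 _ (hHexp a ha)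
      have h3 : Nat.card (zpowers c) ≤ p := by
        rw [Nat.card_zpowers]
        exact Nat.le_of_dvd hpp.pos (orderOf_dvd_of_pow_eq_one hc)
      have h4 : 0 < Nat.card ((E ⊔ zpowers a) ⊓ zpowers c : Subgroup R) := Nat.card_pos
      calc Nat.card ((E ⊔ zpowers a) ⊔ zpowers c : Subgroup R)
          ≤ Nat.card ((E ⊔ zpowers a) ⊔ zpowers c : Subgroup R) *
            Nat.card ((E ⊔ zpowers a) ⊓ zpowers c : Subgroup R) := Nat.le_mul_of_pos_right _ h4
        _ = Nat.card (E ⊔ zpowers a : Subgroup R) * Nat.card (zpowers c) := h1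
        _ ≤ (p * Nat.card E) * p := Nat.mul_le_mul h2 h3
        _ ≤ (p * p ^ 2) * p := Nat.mul_le_mul_right _ (Nat.mul_le_mul_left _ hEcard)
        _ = p ^ 4 := by ring
    have hgen : (E ⊔ zpowers a) ⊔ zpowers c = Subgroup.closure ((E : Set R) ∪ {a} ∪ {c}) := by
      rw [Subgroup.closure_union, Subgroup.closure_union, Subgroup.closure_eq,
        ← Subgroup.zpowers_eq_closure, ← Subgroup.zpowers_eq_closure]
    have ht' : t ∈ Subgroup.closure ((E : Set R) ∪ {a} ∪ {c}) := hgen ▸ ht
    refine (Cfsg.Agent.Lib.Helper38.exp_of_card_le hp hR _ hcard ((E : Set R) ∪ {a} ∪ {c})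
      ?_ t ht').2
    rintro s ((hs | hs) | hs)
    · exact ⟨Subgroup.mem_sup_left (Subgroup.mem_sup_left hs), hEe s hs⟩
    · rw [Set.mem_singleton_iff] at hs
      subst hs
      exact ⟨Subgroup.mem_sup_left (Subgroup.mem_sup_right (mem_zpowers _)), ha⟩
    · rw [Set.mem_singleton_iff] at hs
      subst hs
      exact ⟨Subgroup.mem_sup_right (mem_zpowers _), hc⟩
  -- `E ⟨a⟩` is normal
  have hHnorm : ∀ a : R, a ^ p = 1 → (E ⊔ zpowers a).Normal := by
    intro a ha
    by_cases haE : a ∈ E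
    · have h1 : E ⊔ zpowers a = E := sup_eq_left.mpr ((zpowers_le).mpr haE)
      rw [h1]
      exact hEn
    by_contra hnn
    have hNne : Subgroup.normalizer ((E ⊔ zpowers a : Subgroup R) : Set R) ≠ ⊤ :=
      fun h => hnn (Subgroup.normalizer_eq_top_iff.mp h)
    have hNlt := Group.normalizerCondition_of_isNilpotent (G := R) _
      (lt_top_iff_ne_top.mpr hNne)
    obtain ⟨g, hgNN, hgN⟩ := SetLike.exists_of_lt hNlt
    have ha'N : g * a * g⁻¹ ∈ Subgroup.normalizer ((E ⊔ zpowers a : Subgroup R) : Set R) :=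
      (Subgroup.mem_normalizer_iff.mp hgNN a).mp
        (Subgroup.le_normalizer (Subgroup.mem_sup_right (mem_zpowers a)))
    have ha'p : (g * a * g⁻¹) ^ p = 1 := by
      rw [conj_pow, ha]
      group
    have hexpM := hadd a (g * a * g⁻¹) ha ha'p ha'N
    have hcardM := hP1 _ hexpM
    have hHa := hHcard a ha haE
    have heq : E ⊔ zpowers a = (E ⊔ zpowers a) ⊔ zpowers (g * a * g⁻¹) :=
      Subgroup.eq_of_le_of_card_ge le_sup_left (by rw [hHa]; exact hcardM)
    have ha'H : g * a * g⁻¹ ∈ E ⊔ zpowers a := by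
      rw [heq]
      exact Subgroup.mem_sup_right (mem_zpowers _)
    apply hgN
    apply Cfsg.Agent.S0045.mem_normalizer_of_conj_mem
    have h6 : E ⊔ zpowers a ≤ (E ⊔ zpowers a).comap (MulAut.conj g).toMonoidHom := by
      apply sup_le
      · intro e he
        rw [Subgroup.mem_comap]
        exact Subgroup.mem_sup_left (hEn.conj_mem e he g)
      · rw [Subgroup.zpowers_le, Subgroup.mem_comap]
        exact ha'H
    intro t ht
    exact h6 ht
  have hmul : ∀ a b : R, a ^ p = 1 → b ^ p = 1 → (a * b) ^ p = 1 := by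
    intro a b ha hb
    have hn := hHnorm a ha
    have hbN : b ∈ Subgroup.normalizer ((E ⊔ zpowers a : Subgroup R) : Set R) := by
      rw [Subgroup.normalizer_eq_top]
      exact Subgroup.mem_top b
    exact hadd a b ha hb hbN (a * b)
      (Subgroup.mul_mem _ (Subgroup.mem_sup_left (Subgroup.mem_sup_right (mem_zpowers a)))
        (Subgroup.mem_sup_right (mem_zpowers b)))
  induction hg using Subgroup.closure_induction with
  | mem x hx => exact hx
  | one => exact one_pow p
  | mul x y _ _ hx hy => exact hmul x y hx hy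
  | inv x _ hx => rw [inv_pow, hx, inv_one]

end Cfsg.Agent.S0128
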