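import Cfsg.Statements.S0129
import Mathlib
import Cfsg.Agent.S0016
import Cfsg.Agent.Lib.Helper38.PChain

set_option autoImplicit false
open Cfsg

namespace Cfsg.Agent.S0129

/-- The order of a p-group is bounded by p^(a(a+1)/2) when it has a maximal normal abelian subgroup of order p^a. -/
theorem result {G : Type*} [Group G] [Finite G] {p : ℕ} [Fact p.Prime] (hG : IsPGroup p G) (A : Subgroup G) [A.Normal] (hA : IsMulCommutative A) (hmax : ∀ B : Subgroup G, B.Normal → IsMulCommutative B → A ≤ B → B = A) (a : ℕ) (ha : Nat.card A = p ^ a) : Nat.card G ≤ p ^ (a * (a + 1) / 2) := by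
  have hAC : A ≤ Subgroup.centralizer (A : Set G) := by
    intro x hx
    rw [Subgroup.mem_centralizer_iff]
    intro y hy
    exact congrArg Subtype.val (mul_comm' (⟨y, hy⟩ : A) ⟨x, hx⟩)
  have hCA : Subgroup.centralizer (A : Set G) ≤ A := by
    apply Cfsg.Agent.S0016.centralizer_le_of_maximal hG A hAC
    intro B hBn hBab hAB
    have hBc : IsMulCommutative B := by
      refine ⟨⟨fun x y => Subtype.ext ?_⟩⟩
      exact (Subgroup.mem_centralizer_iff.mp (hBab y.2) x x.2)
    exact (hmax B hBn hBc hAB).le
  have hC : Subgroup.centralizer (A : Set G) = A := le_antisymm hCA hAC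
  have h1 := Cfsg.Agent.Lib.Helper38.index_centralizer_le hG A a ha
  rw [hC] at h1
  rw [← Subgroup.card_mul_index A, ha]
  have h6 : a * (a + 1) / 2 = a + a * (a - 1) / 2 := by
    have e : a * (a + 1) = a * (a - 1) + 2 * a := by
      cases a with
      | zero => rfl
      | succ i => simp only [Nat.add_sub_cancel]; ring
    rw [e, Nat.add_mul_div_left _ _ (by norm_num : 0 < 2), add_comm]
  calc p ^ a * A.index ≤ p ^ a * p ^ (a * (a - 1) / 2) := Nat.mul_le_mul_left _ h1
    _ = p ^ (a * (a + 1) / 2) := by rw [h6, pow_add]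

end Cfsg.Agent.S0129
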