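import Mathlib
import Cfsg.Statements.S0131

set_option autoImplicit false
open Cfsg
open scoped commutatorElement

namespace Cfsg.Agent.S0131

/-- P/P' has a normal complement in G exactly when the focal subgroup G' ∩ P is as small as possible, namely P'. -/
theorem result {G : Type*} [Group G] [Finite G] {p : ℕ} [Fact p.Prime] (P : Sylow p G) : (∃ N : Subgroup G, N.Normal ∧ N ⊓ (P : Subgroup G) = ⁅(P : Subgroup G), (P : Subgroup G)⁆ ∧ N ⊔ (P : Subgroup G) = ⊤) ↔ commutator G ⊓ (P : Subgroup G) = ⁅(P : Subgroup G), (P : Subgroup G)⁆ := by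
  constructor
  · rintro ⟨N, hNn, hNP, hNtop⟩
    have hPN : ⁅(P : Subgroup G), (P : Subgroup G)⁆ ≤ N := by
      rw [← hNP]; exact inf_le_left
    have hcomm : commutator G ≤ N := by
      rw [commutator_def, Subgroup.commutator_le]
      intro g₁ _ g₂ _
      have h1 : g₁ ∈ N ⊔ (P : Subgroup G) := by rw [hNtop]; exact Subgroup.mem_top _
      have h2 : g₂ ∈ N ⊔ (P : Subgroup G) := by rw [hNtop]; exact Subgroup.mem_top _
      obtain ⟨n₁, hn₁, x₁, hx₁, rfl⟩ := Subgroup.mem_sup_of_normal_left.mp h1
      obtain ⟨n₂, hn₂, x₂, hx₂, rfl⟩ := Subgroup.mem_sup_of_normal_left.mp h2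
      have e1 : QuotientGroup.mk' N n₁ = 1 := (QuotientGroup.eq_one_iff n₁).mpr hn₁
      have e2 : QuotientGroup.mk' N n₂ = 1 := (QuotientGroup.eq_one_iff n₂).mpr hn₂
      have e3 : QuotientGroup.mk' N ⁅x₁, x₂⁆ = 1 :=
        (QuotientGroup.eq_one_iff _).mpr (hPN (Subgroup.commutator_mem_commutator hx₁ hx₂))
      have key : QuotientGroup.mk' N ⁅n₁ * x₁, n₂ * x₂⁆ = 1 := by
        rw [map_commutatorElement, map_mul, map_mul, e1, e2, one_mul, one_mul,
          ← map_commutatorElement, e3]
      exact (QuotientGroup.eq_one_iff _).mp key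
    apply le_antisymm
    · rw [← hNP]
      exact inf_le_inf_right _ hcomm
    · apply le_inf
      · rw [commutator_def]
        exact Subgroup.commutator_mono le_top le_top
      · rw [Subgroup.commutator_le]
        intro a ha b hb
        rw [commutatorElement_def]
        exact Subgroup.mul_mem _ (Subgroup.mul_mem _ (Subgroup.mul_mem _ ha hb) (Subgroup.inv_mem _ ha)) (Subgroup.inv_mem _ hb)
  · intro h
    refine ⟨(P : Subgroup G).transferFocal.ker, inferInstance, ?_, ?_⟩
    · rw [Subgroup.ker_transferFocal_inf_eq_focalSubgroup, ← Subgroup.commutator_inf_eq_focalSubgroup, h]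
    · rw [eq_top_iff]
      intro g _
      obtain ⟨y, hy⟩ := Subgroup.focalSubgroupOf.pow_index_surjective P ((P : Subgroup G).transferFocal g)
      obtain ⟨x, rfl⟩ := QuotientGroup.mk'_surjective _ y
      have hx : (P : Subgroup G).transferFocal (x : G) = (P : Subgroup G).transferFocal g := by
        rw [Subgroup.transferFocal_eq_pow]
        exact hy
      have hker : g * (x : G)⁻¹ ∈ (P : Subgroup G).transferFocal.ker := by
        rw [MonoidHom.mem_ker, map_mul, map_inv, hx, mul_inv_cancel]
      have : g = (g * (x : G)⁻¹) * (x : G) := by group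
      rw [this]
      exact Subgroup.mul_mem _ (Subgroup.mem_sup_left hker) (Subgroup.mem_sup_right x.2)

end Cfsg.Agent.S0131
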