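import Cfsg.Statements.S0157
import Cfsg.Agent.S0190
import Cfsg.Agent.Lib.Helper59.Derange
import Cfsg.Agent.Lib.Helper74.CharSums
import Cfsg.Agent.Lib.Helper75.CharInd

set_option autoImplicit false
open Cfsg

namespace Cfsg.Agent.S0157

open Cfsg.Agent.Lib.Helper3 Cfsg.Agent.Lib.Helper74 Cfsg.Agent.Lib.Helper75 MulAction
open scoped ComplexConjugate

/-- Fixed points of `g` on ordered pairs of distinct points. -/
theorem card_fixedBy_pairs {G : Type*} [Group G] (X : Type*) [MulAction G X] [Finite X] (g : G) :
    Nat.card (fixedBy (Fin 2 ↪ X) g)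
      = Nat.card (fixedBy X g) * (Nat.card (fixedBy X g) - 1) := by
  classical
  have : Fintype X := Fintype.ofFinite X
  have e : fixedBy (Fin 2 ↪ X) g ≃ (Fin 2 ↪ fixedBy X g) :=
    { toFun := fun f => ⟨fun i => ⟨f.1 i, by
          have h := f.2
          rw [mem_fixedBy] at h ⊢
          exact DFunLike.congr_fun h i⟩, fun i j hij => f.1.injective (by
          simpa using congrArg Subtype.val hij)⟩
      invFun := fun e => ⟨e.trans (Function.Embedding.subtype _), by
          rw [mem_fixedBy]
          ext i
          have h := (e i).2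
          rw [mem_fixedBy] at h
          simpa using h⟩
      left_inv := fun f => by
        apply Subtype.ext
        ext i
        rfl
      right_inv := fun e => by
        ext i
        rfl }
  rw [Nat.card_congr e, Nat.card_eq_fintype_card, Fintype.card_embedding_eq,
    Nat.card_eq_fintype_card, Fintype.card_fin]
  simp [Nat.descFactorial, mul_comm]

/-- `π - 1` is irreducible iff the transitive action is doubly transitive. -/
theorem result {G : Type*} [Group G] [Finite G] (X : Type*) [MulAction G X] [Finite X] [MulAction.IsPretransitive G X] (hX : 2 ≤ Nat.card X) : Cfsg.IsIrrCharacter G (fun g => (Nat.card (MulAction.fixedBy X g) : ℂ) - 1) ↔ MulAction.IsMultiplyPretransitive G X 2 := by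
  classical
  have := Fintype.ofFinite G
  have := Fintype.ofFinite (Cfsg.IrrCharacter G)
  have := Fintype.ofFinite X
  have hne : Nonempty X := by
    rw [← Finite.card_pos_iff]
    omega
  obtain ⟨x⟩ := id hne
  have hG : (Nat.card G : ℂ) ≠ 0 := card_ne_zero'
  set π : G → ℂ := fun g => (Nat.card (MulAction.fixedBy X g) : ℂ) with hπ
  have hπind : π = Cfsg.indFun (MulAction.stabilizer G x) (fun _ => 1) :=
    Cfsg.Agent.S0190.result X x
  have hπchar : Cfsg.IsCharacter G π := by
    rw [hπind]
    exact isCharacter_indFun _ (isCharacter_of_irr isIrrCharacter_one)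
  have hπcf : Cfsg.IsClassFunction G π := isClassFunction_of_isCharacter hπchar
  -- Burnside counts
  have hB1 : ∑ g : G, π g = (Nat.card G : ℂ) := by
    have h := Cfsg.Agent.Lib.Helper59.burnside_natCard G X
    have h1 : Nat.card (orbitRel.Quotient G X) = 1 := by
      rw [Nat.card_eq_one_iff_unique]
      have hu := (pretransitive_iff_unique_quotient_of_nonempty G X).1 inferInstance
      obtain ⟨u⟩ := hu
      exact ⟨inferInstance, inferInstance⟩
    rw [h1, one_mul] at h
    simp only [hπ]
    exact_mod_cast h
  have hB2 : ∑ g : G, π g * (π g - 1)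
      = (Nat.card (orbitRel.Quotient G (Fin 2 ↪ X)) : ℂ) * (Nat.card G : ℂ) := by
    have h := Cfsg.Agent.Lib.Helper59.burnside_natCard G (Fin 2 ↪ X)
    have h2 : ∀ g : G, π g * (π g - 1) = ((Nat.card (fixedBy (Fin 2 ↪ X) g) : ℕ) : ℂ) := by
      intro g
      rw [card_fixedBy_pairs X g]
      simp only [hπ]
      rcases Nat.eq_zero_or_pos (Nat.card (fixedBy X g)) with h0 | h0
      · rw [h0]; simp
      · rw [Nat.cast_mul, Nat.cast_pred h0]
    simp_rw [h2]
    exact_mod_cast h
  have hreal : ∀ g : G, conj (π g - 1) = π g - 1 := by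
    intro g
    simp [hπ]
  have hnorm : Cfsg.classInner (fun g => π g - 1) (fun g => π g - 1)
      = (Nat.card (orbitRel.Quotient G (Fin 2 ↪ X)) : ℂ) := by
    unfold Cfsg.classInner
    simp_rw [hreal]
    have h3 : ∑ g : G, (π g - 1) * (π g - 1)
        = ∑ g : G, π g * (π g - 1) - ∑ g : G, π g + ∑ _g : G, (1 : ℂ) := by
      rw [← Finset.sum_sub_distrib, ← Finset.sum_add_distrib]
      exact Finset.sum_congr rfl (fun g _ => by ring)
    rw [h3, hB1, hB2]
    simp only [Finset.sum_const, Finset.card_univ, nsmul_eq_mul, mul_one]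
    rw [← Nat.card_eq_fintype_card]
    field_simp
    ring
  -- `π - 1` is a character
  have hone : Cfsg.IsIrrCharacter G (fun _ : G => (1 : ℂ)) := isIrrCharacter_one
  have hdecomp : (fun g => π g - 1) = π + (-1 : ℂ) • (fun _ : G => (1 : ℂ)) := by
    funext g
    simp [sub_eq_add_neg]
  have hπone : Cfsg.classInner π (fun _ : G => (1 : ℂ)) = 1 := by
    unfold Cfsg.classInner
    simp only [map_one, mul_one]
    rw [hB1]
    field_simp
  have hchar : Cfsg.IsCharacter G (fun g => π g - 1) := by
    apply isCharacter_of_classInner_nat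
    · intro g h
      change π (h * g * h⁻¹) - 1 = π g - 1
      rw [hπcf g h]
    · intro ψ
      rw [hdecomp, classInner_add_left, classInner_smul_left]
      by_cases hψ : (ψ : G → ℂ) = fun _ => (1 : ℂ)
      · refine ⟨0, ?_⟩
        rw [hψ, hπone, classInner_irr_self hone]
        simp
      · obtain ⟨m, hm⟩ := classInner_char_irr_nat hπchar ψ.2
        refine ⟨m, ?_⟩
        rw [hm, classInner_irr_ne hone ψ.2 (fun h => hψ h.symm)]
        simp
  have hX2 : Nonempty (Fin 2 ↪ X) := by
    have : Fintype.card (Fin 2) ≤ Fintype.card X := by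
      rw [Fintype.card_fin, ← Nat.card_eq_fintype_card]
      exact hX
    exact Function.Embedding.nonempty_of_card_le this
  constructor
  · intro h
    have h1 := classInner_irr_self h
    rw [hnorm] at h1
    have h2 : Nat.card (orbitRel.Quotient G (Fin 2 ↪ X)) = 1 := by exact_mod_cast h1
    rw [Nat.card_eq_one_iff_unique] at h2
    exact (pretransitive_iff_subsingleton_quotient G (Fin 2 ↪ X)).2 h2.1
  · intro h
    apply isIrrCharacter_of_classInner_self hchar
    rw [hnorm]
    have h2 : Nat.card (orbitRel.Quotient G (Fin 2 ↪ X)) = 1 := by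
      rw [Nat.card_eq_one_iff_unique]
      have hu := (pretransitive_iff_unique_quotient_of_nonempty G (Fin 2 ↪ X)).1 h
      obtain ⟨u⟩ := hu
      exact ⟨inferInstance, inferInstance⟩
    rw [h2]
    simp

end Cfsg.Agent.S0157
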