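import Cfsg.Statements.S0162
import Cfsg.Agent.Lib.Helper3.CharRegular
import Cfsg.Agent.Lib.Helper3.CharDual
import Cfsg.Agent.S0133
import Cfsg.Agent.S0135
import Cfsg.Agent.S0161

set_option autoImplicit false
open Cfsg

namespace Cfsg.Agent.S0162

/-- If a finite group has odd order, its order is congruent to its number of conjugacy classes modulo 16. -/
theorem result {G : Type*} [Group G] [Finite G] (hodd : Odd (Nat.card G)) : Nat.card G ≡ Nat.card (ConjClasses G) [MOD 16] := by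
  classical
  have := Fintype.ofFinite G
  have := Fintype.ofFinite (Cfsg.IrrCharacter G)
  have hdeg : ∀ χ : Cfsg.IrrCharacter G, ∃ n : ℕ, (χ : G → ℂ) 1 = n ∧ n ∣ Nat.card G := by
    intro χ
    obtain ⟨n, ρ, hρ, hχ⟩ := χ.2
    refine ⟨n, ?_, ?_⟩
    · rw [← hχ, Representation.char_one]; simp
    · have := Cfsg.Agent.S0135.result ρ
      simpa using this
  choose d hd1 hd2 using hdeg
  have hdodd : ∀ χ, Odd (d χ) := fun χ => Odd.of_dvd_nat hodd (hd2 χ)
  have hsum : Nat.card G = ∑ χ : Cfsg.IrrCharacter G, d χ ^ 2 := by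
    have h := Cfsg.Agent.Lib.Helper3.sum_degree_sq (G := G)
    simp_rw [hd1] at h
    exact_mod_cast h.symm
  have hk : Nat.card (ConjClasses G) = ∑ χ : Cfsg.IrrCharacter G, 1 := by
    rw [← Cfsg.Agent.S0133.result]; simp [Nat.card_eq_fintype_card]
  rw [← ZMod.natCast_eq_natCast_iff, hsum, hk]
  push_cast
  rw [← sub_eq_zero, ← Finset.sum_sub_distrib]
  let σ : Cfsg.IrrCharacter G → Cfsg.IrrCharacter G := fun χ =>
    ⟨fun g => (starRingEnd ℂ) (χ.1 g), Cfsg.Agent.Lib.Helper3.isIrrCharacter_conj χ.2⟩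
  have key : ∀ x : ZMod 16, ((2 * x + 1) ^ 2 - 1) + ((2 * x + 1) ^ 2 - 1) = 0 := by decide
  apply Finset.sum_involution (fun χ _ => σ χ)
  · intro χ _
    have hdσ : d (σ χ) = d χ := by
      have h1 := hd1 (σ χ)
      have h2 := hd1 χ
      have h3 : ((σ χ : Cfsg.IrrCharacter G) : G → ℂ) 1 = (starRingEnd ℂ) ((χ : G → ℂ) 1) := rfl
      rw [h3, h2, Complex.conj_natCast] at h1
      exact_mod_cast h1.symm
    rw [hdσ]
    obtain ⟨m, hm⟩ := hdodd χ
    rw [hm]
    push_cast
    exact key m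
  · intro χ _ hne heq
    apply hne
    have hreal : ∀ g, ((χ : G → ℂ) g).im = 0 := by
      intro g
      have h1 := congrArg (fun ψ : Cfsg.IrrCharacter G => (ψ : G → ℂ) g) heq
      exact Complex.conj_eq_iff_im.mp h1
    have h1 := Cfsg.Agent.S0161.result hodd χ hreal
    have h2 : d χ = 1 := by
      have h3 := hd1 χ
      rw [h1] at h3
      have h4 : ((d χ : ℕ) : ℂ) = 1 := h3.symm
      exact_mod_cast h4
    rw [h2]; simp
  · intro χ _; exact Finset.mem_univ _
  · intro χ _
    apply Subtype.ext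
    funext g
    simp [σ]

end Cfsg.Agent.S0162
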