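import Cfsg.Statements.S0166
import Cfsg.Agent.Lib.Helper71.SplitMain

set_option autoImplicit false
open Cfsg

namespace Cfsg.Agent.S0166

/-- Brauer's splitting field Theorem: a complex representation of a finite group of exponent m is equivalent to a representation by matrices with entries in ℚ adjoined exp(2πi/m). -/
theorem result {G : Type*} [Group G] [Finite G] (n : ℕ) (ρ : Representation ℂ G (Fin n → ℂ)) : ∃ σ : Representation ℂ G (Fin n → ℂ), Nonempty (ρ.Equiv σ) ∧ ∀ g : G, ∀ i j : Fin n, LinearMap.toMatrix' (σ g) i j ∈ Algebra.adjoin ℚ ({Complex.exp (2 * Real.pi * Complex.I / (Monoid.exponent G : ℂ))} : Set ℂ) := by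
  classical
  have : Fintype G := Fintype.ofFinite G
  obtain ⟨ζ, hζ⟩ : ∃ ζ : ℂ, ζ = Complex.exp (2 * Real.pi * Complex.I / (Monoid.exponent G : ℂ)) :=
    ⟨_, rfl⟩
  rw [← hζ]
  let L : IntermediateField ℚ ℂ := IntermediateField.adjoin ℚ {ζ}
  let φ : L →+* ℂ := algebraMap L ℂ
  have hm : Monoid.exponent G ≠ 0 := Monoid.exponent_ne_zero_of_finite
  have hprim : IsPrimitiveRoot ζ (Monoid.exponent G) := by
    rw [hζ]
    exact Complex.isPrimitiveRoot_exp _ hm
  have hK : ∀ (E : Subgroup G) (lam : E →* ℂˣ) (e : E), ((lam e : ℂˣ) : ℂ) ∈ Set.range φ := by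
    intro E lam e
    have h1 : ((lam e : ℂˣ) : ℂ) ^ Monoid.exponent G = 1 := by
      rw [← Units.val_pow_eq_pow_val, ← map_pow]
      have h2 : e ^ Monoid.exponent G = 1 := by
        apply Subtype.ext
        rw [Subgroup.coe_pow]
        exact Monoid.pow_exponent_eq_one _
      rw [h2, map_one]
      rfl
    have : NeZero (Monoid.exponent G) := ⟨hm⟩
    obtain ⟨i, -, hi⟩ := hprim.eq_pow_of_pow_eq_one h1
    exact ⟨⟨ζ ^ i, pow_mem (IntermediateField.mem_adjoin_simple_self ℚ ζ) i⟩, hi⟩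
  obtain ⟨σ, hσ, hent⟩ := Cfsg.Agent.Lib.Helper71.Split.splitting φ hK n ρ
  refine ⟨σ, hσ, fun g i j => ?_⟩
  obtain ⟨x, hx⟩ := hent g i j
  rw [← hx]
  have hint : IsIntegral ℚ ζ := (hprim.isIntegral (Nat.pos_of_ne_zero hm)).tower_top
  have halg : L.toSubalgebra = Algebra.adjoin ℚ {ζ} :=
    IntermediateField.adjoin_simple_toSubalgebra_of_isAlgebraic hint.isAlgebraic
  rw [← halg]
  exact x.2

end Cfsg.Agent.S0166
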