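import Cfsg.Statements.S0167
import Cfsg.Agent.Lib.Helper3.CharCore
import Cfsg.Agent.Lib.Helper79.CharSum

set_option autoImplicit false
open Cfsg

namespace Cfsg.Agent.S0167

open Cfsg.Agent.Lib.Helper3 Cfsg.Agent.Lib.Helper79

/-- Frobenius' formula: the number of ways of writing `g` as a commutator is
`|G| * ∑ χ, χ g / χ 1`. -/
theorem commutator_count {G : Type*} [Group G] [Fintype G] [DecidableEq G]
    [Fintype (Cfsg.IrrCharacter G)] (g : G) :
    ((Finset.univ.filter (fun p : G × G => p.1 * p.2 * p.1⁻¹ * p.2⁻¹ = g)).card : ℂ)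
      = (Nat.card G : ℂ) * ∑ χ : Cfsg.IrrCharacter G, (χ : G → ℂ) g / (χ : G → ℂ) 1 := by
  set f : G → ℂ := fun x =>
    ((Finset.univ.filter (fun p : G × G => p.1 * p.2 * p.1⁻¹ * p.2⁻¹ = x)).card : ℂ) with hf
  have hcf : Cfsg.IsClassFunction G f := by
    intro x h
    simp only [hf]
    congr 1
    refine Finset.card_bij' (fun p _ => (h⁻¹ * p.1 * h, h⁻¹ * p.2 * h))
      (fun p _ => (h * p.1 * h⁻¹, h * p.2 * h⁻¹)) ?_ ?_ ?_ ?_
    · intro p hp
      simp only [Finset.mem_filter, Finset.mem_univ, true_and] at hp ⊢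
      have : h⁻¹ * p.1 * h * (h⁻¹ * p.2 * h) * (h⁻¹ * p.1 * h)⁻¹ * (h⁻¹ * p.2 * h)⁻¹
          = h⁻¹ * (p.1 * p.2 * p.1⁻¹ * p.2⁻¹) * h := by group
      rw [this, hp]
      group
    · intro p hp
      simp only [Finset.mem_filter, Finset.mem_univ, true_and] at hp ⊢
      have : h * p.1 * h⁻¹ * (h * p.2 * h⁻¹) * (h * p.1 * h⁻¹)⁻¹ * (h * p.2 * h⁻¹)⁻¹
          = h * (p.1 * p.2 * p.1⁻¹ * p.2⁻¹) * h⁻¹ := by group
      rw [this, hp]
    · intro p _
      ext <;> simp [mul_assoc]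
    · intro p _
      ext <;> simp [mul_assoc]
  have hG : (Nat.card G : ℂ) ≠ 0 := card_ne_zero'
  have hpair : ∀ χ : Cfsg.IrrCharacter G,
      pair f (χ : G → ℂ) = (Nat.card G : ℂ) / (χ : G → ℂ) 1 := by
    intro χ
    have h1 : ∑ x : G, f x * (χ : G → ℂ) x⁻¹
        = ∑ p : G × G, (χ : G → ℂ) (p.2 * p.1 * p.2⁻¹ * p.1⁻¹) := by
      simp only [hf]
      calc ∑ x : G, ((Finset.univ.filter
              (fun p : G × G => p.1 * p.2 * p.1⁻¹ * p.2⁻¹ = x)).card : ℂ) * (χ : G → ℂ) x⁻¹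
          = ∑ x : G, ∑ p : G × G,
              if p.1 * p.2 * p.1⁻¹ * p.2⁻¹ = x then (χ : G → ℂ) x⁻¹ else 0 := by
            refine Finset.sum_congr rfl (fun x _ => ?_)
            rw [← Finset.sum_filter, Finset.sum_const, nsmul_eq_mul]
        _ = ∑ p : G × G, ∑ x : G,
              if p.1 * p.2 * p.1⁻¹ * p.2⁻¹ = x then (χ : G → ℂ) x⁻¹ else 0 := Finset.sum_comm
        _ = ∑ p : G × G, (χ : G → ℂ) (p.2 * p.1 * p.2⁻¹ * p.1⁻¹) := by
            refine Finset.sum_congr rfl (fun p _ => ?_)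
            rw [Finset.sum_ite_eq Finset.univ, if_pos (Finset.mem_univ _)]
            congr 1
            group
    have h2 : ∀ a : G, ∑ b : G, (χ : G → ℂ) (b * a * b⁻¹ * a⁻¹)
        = (Nat.card G : ℂ) * (χ : G → ℂ) a * (χ : G → ℂ) a⁻¹ / (χ : G → ℂ) 1 :=
      fun a => irr_sum_conj_mul χ.2 a a⁻¹
    have h3 := pair_irr_self χ.2
    unfold pair at h3
    have h4 : ∑ a : G, (χ : G → ℂ) a * (χ : G → ℂ) a⁻¹ = (Nat.card G : ℂ) := by
      field_simp at h3
      exact h3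
    unfold pair
    rw [h1, Fintype.sum_prod_type]
    simp_rw [h2]
    have h5 : ∑ a : G, (Nat.card G : ℂ) * (χ : G → ℂ) a * (χ : G → ℂ) a⁻¹ / (χ : G → ℂ) 1
        = (Nat.card G : ℂ) * (∑ a : G, (χ : G → ℂ) a * (χ : G → ℂ) a⁻¹) / (χ : G → ℂ) 1 := by
      rw [Finset.mul_sum, Finset.sum_div]
      refine Finset.sum_congr rfl (fun a _ => ?_)
      ring
    rw [h5, h4]
    field_simp
  have hexp := congrFun (classFunction_expansion hcf) g
  rw [Finset.sum_apply] at hexp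
  change ((Finset.univ.filter (fun p : G × G => p.1 * p.2 * p.1⁻¹ * p.2⁻¹ = g)).card : ℂ) = _
    at hexp
  rw [hexp, Finset.mul_sum]
  refine Finset.sum_congr rfl (fun χ _ => ?_)
  rw [Pi.smul_apply, hpair χ, smul_eq_mul]
  ring

/-- An element is a commutator exactly when `∑ χ, χ g / χ 1 ≠ 0`. -/
theorem result {G : Type*} [Group G] [Finite G] (g : G) : (∃ a b : G, g = a * b * a⁻¹ * b⁻¹) ↔ ∑ᶠ χ : Cfsg.IrrCharacter G, (χ : G → ℂ) g / (χ : G → ℂ) 1 ≠ 0 := by
  classical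
  have := Fintype.ofFinite G
  have := Fintype.ofFinite (Cfsg.IrrCharacter G)
  rw [finsum_eq_sum_of_fintype]
  have hcount := commutator_count g
  have hG : (Nat.card G : ℂ) ≠ 0 := card_ne_zero'
  constructor
  · rintro ⟨a, b, hab⟩ h0
    rw [h0, mul_zero] at hcount
    have : (Finset.univ.filter (fun p : G × G => p.1 * p.2 * p.1⁻¹ * p.2⁻¹ = g)).card = 0 := by
      exact_mod_cast hcount
    rw [Finset.card_eq_zero] at this
    have hmem : (a, b) ∈ Finset.univ.filter (fun p : G × G => p.1 * p.2 * p.1⁻¹ * p.2⁻¹ = g) := by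
      simp [hab]
    rw [this] at hmem
    exact absurd hmem (Finset.notMem_empty _)
  · intro h
    have h1 : ((Finset.univ.filter
        (fun p : G × G => p.1 * p.2 * p.1⁻¹ * p.2⁻¹ = g)).card : ℂ) ≠ 0 := by
      rw [hcount]
      exact mul_ne_zero hG h
    have h2 : (Finset.univ.filter (fun p : G × G => p.1 * p.2 * p.1⁻¹ * p.2⁻¹ = g)).card ≠ 0 := by
      exact_mod_cast h1
    obtain ⟨p, hp⟩ := Finset.card_pos.1 (Nat.pos_of_ne_zero h2)
    simp only [Finset.mem_filter, Finset.mem_univ, true_and] at hp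
    exact ⟨p.1, p.2, hp.symm⟩

end Cfsg.Agent.S0167
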