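import Cfsg.Statements.S0168
import Cfsg.Agent.Lib.Helper3.CharKernel
import Cfsg.Agent.Lib.Helper3.CharDual

set_option autoImplicit false
open Cfsg

namespace Cfsg.Agent.S0168

/-- The Burnside–Brauer Theorem. Let χ be the character of a faithful complex representation of a finite group, taking m distinct values. Then every irreducible character has nonzero inner product with χ ^ i for some i < m. -/
theorem result {G : Type*} [Group G] [Fintype G] {V : Type*} [AddCommGroup V] [Module ℂ V] [FiniteDimensional ℂ V] (ρ : Representation ℂ G V) (hfaithful : Function.Injective ρ) (ψ : G → ℂ) (hψ : Cfsg.IsIrrCharacter G ψ) : ∃ i : ℕ, i < Nat.card (Set.range ρ.character) ∧ Cfsg.classInner (fun g => ρ.character g ^ i) ψ ≠ 0 := by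
  classical
  by_contra hcon
  push Not at hcon
  set χ := ρ.character with hχdef
  set R : Finset ℂ := Finset.univ.image χ with hR
  have hm : Nat.card (Set.range χ) = R.card := by
    rw [Nat.card_coe_set_eq, ← Set.ncard_coe_finset R]
    congr 1
    rw [hR, Finset.coe_image, Finset.coe_univ, Set.image_univ]
  have hmem : ∀ g : G, χ g ∈ R := fun g => Finset.mem_image_of_mem χ (Finset.mem_univ g)
  let P : Polynomial ℂ := ∏ a ∈ R.erase (χ 1), (Polynomial.X - Polynomial.C a)
  have hdeg : P.natDegree = R.card - 1 := by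
    rw [Polynomial.natDegree_finsetProd_X_sub_C_eq_card, Finset.card_erase_of_mem (hmem 1)]
  have hP0 : ∀ g, χ g ≠ χ 1 → P.eval (χ g) = 0 := by
    intro g hg
    rw [Polynomial.eval_prod]
    apply Finset.prod_eq_zero (Finset.mem_erase.mpr ⟨hg, hmem g⟩)
    simp
  have hP1 : P.eval (χ 1) ≠ 0 := by
    rw [Polynomial.eval_prod, Finset.prod_ne_zero_iff]
    intro a ha
    simp only [Polynomial.eval_sub, Polynomial.eval_X, Polynomial.eval_C]
    exact sub_ne_zero.mpr (Finset.mem_erase.mp ha).1.symm
  have hker : ∀ g, χ g = χ 1 → g = 1 := by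
    intro g hg
    rw [hχdef, Representation.char_one] at hg
    have h1 := (Cfsg.Agent.Lib.Helper3.character_eq_finrank_iff ρ g).mp hg
    apply hfaithful
    rw [h1, map_one]
    rfl
  have hsum : ∑ g, P.eval (χ g) * (starRingEnd ℂ) (ψ g) = P.eval (χ 1) * (starRingEnd ℂ) (ψ 1) := by
    apply Finset.sum_eq_single 1
    · intro g _ hg
      rw [hP0 g (fun h => hg (hker g h)), zero_mul]
    · intro h; exact absurd (Finset.mem_univ _) h
  have hsum0 : ∑ g, P.eval (χ g) * (starRingEnd ℂ) (ψ g) = 0 := by
    simp_rw [Polynomial.eval_eq_sum_range, Finset.sum_mul]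
    rw [Finset.sum_comm]
    apply Finset.sum_eq_zero
    intro i hi
    have hi' : i < Nat.card (Set.range χ) := by
      rw [hm]
      have := Finset.mem_range.mp hi
      have hpos : 0 < R.card := Finset.card_pos.mpr ⟨_, hmem 1⟩
      omega
    have h1 := hcon i hi'
    unfold Cfsg.classInner at h1
    simp_rw [mul_assoc]
    rw [← Finset.mul_sum]
    rcases mul_eq_zero.mp h1 with h | h
    · exact absurd (inv_eq_zero.mp h) Cfsg.Agent.Lib.Helper3.card_ne_zero'
    · rw [h, mul_zero]
  have hψ1 : ψ 1 ≠ 0 := by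
    obtain ⟨n, σ, hσ, rfl⟩ := hψ
    rw [Representation.char_one]
    have := Cfsg.Agent.Lib.Helper3.nontrivial_of_isIrreducible σ
    exact_mod_cast (Module.finrank_pos (R := ℂ) (M := Fin n → ℂ)).ne'
  rw [hsum] at hsum0
  rcases mul_eq_zero.mp hsum0 with h | h
  · exact hP1 h
  · exact hψ1 ((map_eq_zero _).mp h)

end Cfsg.Agent.S0168
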