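import Mathlib
import Cfsg.Statements.S0177
import Cfsg.Agent.Lib.Helper80.CharOps
import Cfsg.Agent.Lib.Helper15.LinChar

set_option autoImplicit false
open Cfsg

namespace Cfsg.Agent.S0177

open Cfsg.Agent.Lib.Helper80

/-- The additive group generated by the homomorphisms into the units, as functions. -/
def linSpan (C : Type*) [Group C] : AddSubgroup (C → ℂ) :=
  AddSubgroup.closure {f | ∃ lam : C →* ℂˣ, f = fun a => ((lam a : ℂˣ) : ℂ)}

lemma linSpan_mul {C : Type*} [Group C] {f g : C → ℂ} (hf : f ∈ linSpan C)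
    (hg : g ∈ linSpan C) : f * g ∈ linSpan C := by
  unfold linSpan at hf hg ⊢
  induction hf using AddSubgroup.closure_induction with
  | mem f hf =>
    obtain ⟨lam, rfl⟩ := hf
    induction hg using AddSubgroup.closure_induction with
    | mem g hg =>
      obtain ⟨mu, rfl⟩ := hg
      exact AddSubgroup.subset_closure ⟨lam * mu, by ext a; simp⟩
    | zero => rw [mul_zero]; exact zero_mem _
    | add g₁ g₂ _ _ h₁ h₂ => rw [mul_add]; exact add_mem h₁ h₂
    | neg g _ h => rw [mul_neg]; exact neg_mem h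
  | zero => rw [zero_mul]; exact zero_mem _
  | add f₁ f₂ _ _ h₁ h₂ => rw [add_mul]; exact add_mem h₁ h₂
  | neg f _ h => rw [neg_mul]; exact neg_mem h

lemma irr_linear_of_comm {C : Type*} [Group C] [IsMulCommutative C] {χ : C → ℂ}
    (h : Cfsg.IsIrrCharacter C χ) : χ 1 = 1 := by
  obtain ⟨n, ρ, hirr, rfl⟩ := h
  have h1 : Module.finrank ℂ (Fin n → ℂ) = 1 :=
    Representation.IsIrreducible.finrank_eq_one_of_isMulCommutative ρ
  rw [Representation.char_one, h1]
  simp

lemma char_mem_linSpan {C : Type*} [Group C] [Fintype C] [IsMulCommutative C] {φ : C → ℂ}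
    (hφ : Cfsg.IsCharacter C φ) : φ ∈ linSpan C := by
  classical
  have := Fintype.ofFinite (Cfsg.IrrCharacter C)
  obtain ⟨m, hm, hexp⟩ := character_expansion hφ
  rw [hexp]
  apply AddSubgroup.sum_mem
  intro χ _
  have e : ((m χ : ℂ) • (χ : C → ℂ)) = (m χ) • (χ : C → ℂ) := by
    ext a
    simp
  rw [e]
  apply AddSubgroup.nsmul_mem
  apply AddSubgroup.subset_closure
  have hch := isCharacter_of_isIrrCharacter χ.2
  have h1 := irr_linear_of_comm χ.2
  exact ⟨Cfsg.Agent.Lib.Helper15.linCharHom hch h1, rfl⟩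

lemma indFun_zero' {C : Type*} [Group C] [Fintype C] (D : Subgroup C) :
    Cfsg.indFun D (0 : D → ℂ) = 0 := by
  have := indFun_smul D (0 : ℂ) (0 : D → ℂ)
  simpa using this

lemma indFun_neg' {C : Type*} [Group C] [Fintype C] (D : Subgroup C) (f : D → ℂ) :
    Cfsg.indFun D (-f) = -Cfsg.indFun D f := by
  have := indFun_smul D (-1 : ℂ) f
  simpa using this

lemma indFun_mem_linSpan {C : Type*} [Group C] [Fintype C] [IsMulCommutative C]
    (D : Subgroup C) {f : D → ℂ} (hf : f ∈ linSpan D) : Cfsg.indFun D f ∈ linSpan C := by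
  unfold linSpan at hf
  induction hf using AddSubgroup.closure_induction with
  | mem f hf =>
    obtain ⟨lam, rfl⟩ := hf
    exact char_mem_linSpan (isCharacter_indFun D (Cfsg.Agent.Lib.Helper15.isCharacter_of_hom lam))
  | zero => rw [indFun_zero']; exact zero_mem _
  | add f₁ f₂ _ _ h₁ h₂ => rw [indFun_add]; exact add_mem h₁ h₂
  | neg f _ h => rw [indFun_neg']; exact neg_mem h

open Classical in
/-- The function that is the group order on generators and zero elsewhere. -/
noncomputable def theta (C : Type*) [Group C] : C → ℂ :=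
  fun x => if Subgroup.zpowers x = ⊤ then (Nat.card C : ℂ) else 0

lemma zpowers_coe_eq_top_iff {C : Type*} [Group C] (D : Subgroup C) (x : D) :
    Subgroup.zpowers x = ⊤ ↔ Subgroup.zpowers (x : C) = D := by
  constructor
  · intro h
    have := congrArg (Subgroup.map D.subtype) h
    rw [MonoidHom.map_zpowers] at this
    rw [← MonoidHom.range_eq_map, Subgroup.range_subtype] at this
    exact this
  · intro h
    apply Subgroup.map_injective D.subtype_injective
    rw [MonoidHom.map_zpowers, ← MonoidHom.range_eq_map, Subgroup.range_subtype]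
    exact h

open Classical in
lemma indFun_theta {C : Type*} [Group C] [Fintype C] [IsMulCommutative C] (D : Subgroup C)
    (x : C) : Cfsg.indFun D (theta D) x =
      if Subgroup.zpowers x = D then (Nat.card C : ℂ) else 0 := by
  classical
  unfold Cfsg.indFun
  have hcomm : ∀ y : C, y⁻¹ * x * y = x := by
    intro y
    have := (IsMulCommutative.is_comm (M := C)).comm y⁻¹ x
    rw [this, inv_mul_cancel_right]
  simp_rw [hcomm]
  rw [Finset.sum_const, Finset.card_univ, nsmul_eq_mul, ← Nat.card_eq_fintype_card]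
  have hD : (Nat.card D : ℂ) ≠ 0 := by
    exact_mod_cast (Nat.card_pos (α := D)).ne'
  by_cases hx : x ∈ D
  · have e : x = ((⟨x, hx⟩ : D) : C) := rfl
    rw [e, extendByZero_apply_mem]
    unfold theta
    by_cases hz : Subgroup.zpowers (⟨x, hx⟩ : D) = ⊤
    · have hz' : Subgroup.zpowers (((⟨x, hx⟩ : D) : C)) = D :=
        (zpowers_coe_eq_top_iff D ⟨x, hx⟩).1 hz
      rw [if_pos hz, if_pos hz']
      field_simp
    · have hz' : ¬ Subgroup.zpowers (((⟨x, hx⟩ : D) : C)) = D := fun h =>
        hz ((zpowers_coe_eq_top_iff D ⟨x, hx⟩).2 h)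
      rw [if_neg hz, if_neg hz']
      simp
  · rw [extendByZero_apply_not_mem D _ hx]
    have hz' : ¬ Subgroup.zpowers x = D := fun h =>
      hx (h ▸ Subgroup.mem_zpowers x)
    rw [if_neg hz']
    simp

theorem theta_mem.{u} : ∀ (n : ℕ) (C : Type u) [Group C] [Fintype C] [IsCyclic C],
    Nat.card C = n → theta C ∈ linSpan C := by
  intro n
  induction n using Nat.strong_induction_on with
  | _ n ih =>
    intro C _ _ _ hn
    classical
    have := Fintype.ofFinite (Subgroup C)
    have key : theta C = (Nat.card C) • (fun _ : C => (1 : ℂ)) -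
        ∑ D ∈ (Finset.univ.filter (fun D : Subgroup C => D ≠ ⊤)),
          Cfsg.indFun D (theta D) := by
      funext x
      simp only [Pi.sub_apply, Finset.sum_apply, nsmul_eq_mul]
      simp_rw [indFun_theta]
      rw [Finset.sum_ite_eq]
      unfold theta
      by_cases h : Subgroup.zpowers x = ⊤
      · rw [if_pos h, if_neg (by simp [h])]
        simp
      · rw [if_neg h, if_pos (by simp [h])]
        simp
    rw [key]
    apply sub_mem
    · apply AddSubgroup.nsmul_mem
      apply AddSubgroup.subset_closure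
      exact ⟨1, by ext a; simp⟩
    · apply AddSubgroup.sum_mem
      intro D hD
      have hDne : D ≠ ⊤ := (Finset.mem_filter.1 hD).2
      have hlt : Nat.card D < n := by
        rw [← hn]
        have hle := Subgroup.card_le_card_group D
        rcases hle.lt_or_eq with h | h
        · exact h
        · exact absurd (Subgroup.card_eq_iff_eq_top D |>.1 h) hDne
      exact indFun_mem_linSpan D (ih (Nat.card D) hlt D rfl)

/-- The additive group generated by functions induced from homomorphisms of cyclic subgroups. -/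
def artinSpan (G : Type*) [Group G] [Fintype G] : AddSubgroup (G → ℂ) :=
  AddSubgroup.closure {F | ∃ (A : Subgroup G) (lam : A →* ℂˣ), IsCyclic A ∧
    F = Cfsg.indFun A (fun a => ((lam a : ℂˣ) : ℂ))}

lemma indFun_mem_artinSpan {G : Type*} [Group G] [Fintype G] (A : Subgroup G) [IsCyclic A]
    {f : A → ℂ} (hf : f ∈ linSpan A) : Cfsg.indFun A f ∈ artinSpan G := by
  unfold linSpan at hf
  induction hf using AddSubgroup.closure_induction with
  | mem f hf =>
    obtain ⟨lam, rfl⟩ := hf
    exact AddSubgroup.subset_closure ⟨A, lam, inferInstance, rfl⟩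
  | zero => rw [indFun_zero']; exact zero_mem _
  | add f₁ f₂ _ _ h₁ h₂ => rw [indFun_add]; exact add_mem h₁ h₂
  | neg f _ h => rw [indFun_neg']; exact neg_mem h

open Classical in
lemma ext_theta {G : Type*} [Group G] (A : Subgroup G) (χ : G → ℂ) (y : G) :
    Cfsg.extendByZero A (theta A * fun a : A => χ a) y =
      if Subgroup.zpowers y = A then (Nat.card A : ℂ) * χ y else 0 := by
  classical
  by_cases hy : y ∈ A
  · have e : y = ((⟨y, hy⟩ : A) : G) := rfl
    rw [e, extendByZero_apply_mem]
    simp only [Pi.mul_apply]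
    unfold theta
    by_cases hz : Subgroup.zpowers (⟨y, hy⟩ : A) = ⊤
    · have hz' : Subgroup.zpowers (((⟨y, hy⟩ : A) : G)) = A :=
        (zpowers_coe_eq_top_iff A ⟨y, hy⟩).1 hz
      rw [if_pos hz, if_pos hz']
    · have hz' : ¬ Subgroup.zpowers (((⟨y, hy⟩ : A) : G)) = A := fun h =>
        hz ((zpowers_coe_eq_top_iff A ⟨y, hy⟩).2 h)
      rw [if_neg hz, if_neg hz']
      simp
  · rw [extendByZero_apply_not_mem A _ hy]
    have hz' : ¬ Subgroup.zpowers y = A := fun h => hy (h ▸ Subgroup.mem_zpowers y)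
    rw [if_neg hz']

lemma artin_key {G : Type*} [Group G] [Fintype G] [Fintype (Subgroup G)]
    [DecidablePred (fun A : Subgroup G => IsCyclic A)] (χ : G → ℂ)
    (hχ : Cfsg.IsClassFunction G χ) :
    (Nat.card G : ℂ) • χ = ∑ A ∈ Finset.univ.filter (fun A : Subgroup G => IsCyclic A),
      Cfsg.indFun A (theta A * fun a : A => χ a) := by
  classical
  funext g
  simp only [Pi.smul_apply, Finset.sum_apply, smul_eq_mul]
  have hind : ∀ A : Subgroup G, Cfsg.indFun A (theta A * fun a : A => χ a) g =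
      ∑ x : G, if Subgroup.zpowers (x⁻¹ * g * x) = A then χ g else 0 := by
    intro A
    unfold Cfsg.indFun
    simp_rw [ext_theta]
    rw [Finset.mul_sum]
    apply Finset.sum_congr rfl
    intro x _
    have hA : (Nat.card A : ℂ) ≠ 0 := by
      exact_mod_cast (Nat.card_pos (α := A)).ne'
    have hcl : χ (x⁻¹ * g * x) = χ g := by
      have := hχ g x⁻¹
      rwa [inv_inv] at this
    by_cases hz : Subgroup.zpowers (x⁻¹ * g * x) = A
    · rw [if_pos hz, if_pos hz, hcl]
      field_simp
    · rw [if_neg hz, if_neg hz, mul_zero]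
  simp_rw [hind]
  rw [Finset.sum_comm]
  have hx : ∀ x : G, ∑ A ∈ Finset.univ.filter (fun A : Subgroup G => IsCyclic A),
      (if Subgroup.zpowers (x⁻¹ * g * x) = A then χ g else 0) = χ g := by
    intro x
    rw [Finset.sum_ite_eq]
    rw [if_pos]
    rw [Finset.mem_filter]
    exact ⟨Finset.mem_univ _, inferInstance⟩
  simp_rw [hx]
  rw [Finset.sum_const, Finset.card_univ, nsmul_eq_mul, ← Nat.card_eq_fintype_card]

theorem mem_artinSpan {G : Type*} [Group G] [Fintype G] (χ : G → ℂ)
    (hχ : Cfsg.IsCharacter G χ) : (Nat.card G : ℂ) • χ ∈ artinSpan G := by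
  classical
  have := Fintype.ofFinite (Subgroup G)
  rw [artin_key χ (isClassFunction_of_isCharacter hχ)]
  apply AddSubgroup.sum_mem
  intro A hA
  have hcyc : IsCyclic A := (Finset.mem_filter.1 hA).2
  apply indFun_mem_artinSpan
  exact linSpan_mul (theta_mem _ A rfl) (char_mem_linSpan (isCharacter_restrict A hχ))

lemma neg_list_sum {G : Type*} [Group G] [Fintype G]
    (l : List ((A : Subgroup G) × ((A →* ℂˣ) × ℤ))) :
    -(l.map fun t => (t.2.2 : ℂ) • Cfsg.indFun t.1 (fun a => (t.2.1 a : ℂ))).sum =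
      ((l.map (fun t => (⟨t.1, t.2.1, -t.2.2⟩ : (A : Subgroup G) × ((A →* ℂˣ) × ℤ)))).map
        fun t => (t.2.2 : ℂ) • Cfsg.indFun t.1 (fun a => (t.2.1 a : ℂ))).sum := by
  induction l with
  | nil => simp
  | cons t l ih =>
    simp only [List.map_cons, List.sum_cons, neg_add]
    rw [ih]
    congr 1
    simp

lemma list_of_mem {G : Type*} [Group G] [Fintype G] {F : G → ℂ} (hF : F ∈ artinSpan G) :
    ∃ l : List ((A : Subgroup G) × ((A →* ℂˣ) × ℤ)), (∀ t ∈ l, IsCyclic t.1) ∧
      F = (l.map fun t => (t.2.2 : ℂ) • Cfsg.indFun t.1 (fun a => (t.2.1 a : ℂ))).sum := by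
  unfold artinSpan at hF
  induction hF using AddSubgroup.closure_induction with
  | mem F hF =>
    obtain ⟨A, lam, hA, rfl⟩ := hF
    refine ⟨[⟨A, lam, 1⟩], ?_, ?_⟩
    · intro t ht
      rw [List.mem_singleton] at ht
      subst ht
      exact hA
    · simp
  | zero => exact ⟨[], by simp, by simp⟩
  | add F₁ F₂ _ _ h₁ h₂ =>
    obtain ⟨l₁, hc₁, rfl⟩ := h₁
    obtain ⟨l₂, hc₂, rfl⟩ := h₂
    refine ⟨l₁ ++ l₂, ?_, ?_⟩
    · intro t ht
      rcases List.mem_append.1 ht with h | h
      · exact hc₁ t h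
      · exact hc₂ t h
    · simp
  | neg F _ h =>
    obtain ⟨l, hc, rfl⟩ := h
    refine ⟨l.map (fun t => ⟨t.1, t.2.1, -t.2.2⟩), ?_, ?_⟩
    · intro t ht
      rw [List.mem_map] at ht
      obtain ⟨s, hs, rfl⟩ := ht
      exact hc s hs
    · exact neg_list_sum l

theorem result {G : Type*} [Group G] [Fintype G] (χ : G → ℂ) (hχ : Cfsg.IsCharacter G χ) : ∃ l : List ((A : Subgroup G) × ((A →* ℂˣ) × ℤ)), (∀ t ∈ l, IsCyclic t.1) ∧ (Nat.card G : ℂ) • χ = (l.map fun t => (t.2.2 : ℂ) • Cfsg.indFun t.1 (fun a => (t.2.1 a : ℂ))).sum := by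
  exact list_of_mem (mem_artinSpan χ hχ)

end Cfsg.Agent.S0177
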