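import Cfsg.Statements.S0178
import Cfsg.Agent.Lib.Helper82.AbelianNormal
import Cfsg.Agent.Lib.Helper80.Schur

set_option autoImplicit false
open Cfsg

namespace Cfsg.Agent.S0178

open Cfsg.Agent.Lib.Helper80 Cfsg.Agent.Lib.Helper82

/-- The degree of an irreducible complex representation of a finite group is at most the index of any abelian subgroup. -/
theorem result {G : Type*} [Group G] [Finite G] {V : Type*} [AddCommGroup V] [Module ℂ V] [FiniteDimensional ℂ V] (ρ : Representation ℂ G V) [ρ.IsIrreducible] (A : Subgroup G) (hA : ∀ a ∈ A, ∀ b ∈ A, a * b = b * a) : Module.finrank ℂ V ≤ A.index := by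
  classical
  have hnt : Nontrivial V := nontrivial_of_isIrreducible ρ
  obtain ⟨w, θ, hw0, hw⟩ := exists_common_eigenvector ρ A hA
  -- the span of the translates of `w` is everything
  let W : Subrepresentation ρ := ⟨Submodule.span ℂ (Set.range fun x : G => ρ x w), by
    intro g v hv
    refine Submodule.span_induction (p := fun v _ => ρ g v ∈
      Submodule.span ℂ (Set.range fun x : G => ρ x w)) ?_ ?_ ?_ ?_ hv
    · rintro _ ⟨x, rfl⟩
      refine Submodule.subset_span ⟨g * x, ?_⟩
      simp [map_mul]
    · simp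
    · intro x y _ _ hx hy
      rw [map_add]
      exact Submodule.add_mem _ hx hy
    · intro c x _ hx
      rw [map_smul]
      exact Submodule.smul_mem _ c hx⟩
  have hW : W = ⊤ := (eq_bot_or_eq_top W).resolve_left (fun h => hw0 (by
    have h1 : w ∈ W.toSubmodule := Submodule.subset_span ⟨1, by simp⟩
    rw [h] at h1
    exact h1))
  have hspan : Submodule.span ℂ (Set.range fun x : G => ρ x w) = ⊤ := by
    have := congrArg Subrepresentation.toSubmodule hW
    exact this
  -- the translates by coset representatives suffice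
  have hle : Submodule.span ℂ (Set.range fun x : G => ρ x w) ≤
      Submodule.span ℂ (Set.range fun q : G ⧸ A => ρ q.out w) := by
    rw [Submodule.span_le]
    rintro _ ⟨x, rfl⟩
    have hmem : ((x : G ⧸ A).out)⁻¹ * x ∈ A := by
      rw [← QuotientGroup.eq]
      exact Quotient.out_eq' _
    have h1 : ρ x w = θ ⟨_, hmem⟩ • ρ ((x : G ⧸ A).out) w := by
      rw [← map_smul, ← hw ⟨_, hmem⟩]
      show ρ x w = (ρ ((x : G ⧸ A).out) * ρ (((x : G ⧸ A).out)⁻¹ * x)) w
      rw [← map_mul, mul_inv_cancel_left]
    show ρ x w ∈ _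
    rw [h1]
    exact Submodule.smul_mem _ _ (Submodule.subset_span ⟨(x : G ⧸ A), rfl⟩)
  have htop : Submodule.span ℂ (Set.range fun q : G ⧸ A => ρ q.out w) = ⊤ := by
    rw [eq_top_iff, ← hspan]
    exact hle
  have : Fintype (G ⧸ A) := Fintype.ofFinite _
  have h2 := finrank_range_le_card (R := ℂ) (fun q : G ⧸ A => ρ q.out w)
  unfold Set.finrank at h2
  rw [htop, finrank_top] at h2
  rw [Subgroup.index_eq_card, Nat.card_eq_fintype_card]
  exact h2

end Cfsg.Agent.S0178
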