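import Cfsg.Statements.S0180
import Cfsg.Agent.S0136
import Cfsg.Agent.Lib.Helper3.CharValues
import Cfsg.Agent.Lib.Helper75.GaloisChar

set_option autoImplicit false
open Cfsg

namespace Cfsg.Agent.S0180

/-- Every irreducible complex character of a finite group takes only rational values if and only if g is conjugate to g ^ m for every element g and every m coprime to the group order. -/
theorem result {G : Type*} [Group G] [Finite G] : (∀ χ : Cfsg.IrrCharacter G, ∀ g : G, ∃ q : ℚ, (χ : G → ℂ) g = (q : ℂ)) ↔ ∀ m : ℕ, m.Coprime (Nat.card G) → ∀ g : G, IsConj g (g ^ m) := by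
  classical
  have := Fintype.ofFinite G
  constructor
  · intro hrat m hm g
    rw [Cfsg.Agent.S0136.result]
    intro χ
    obtain ⟨σ, hσ⟩ := Cfsg.Agent.Lib.Helper75.exists_galois_pow (G := G) m hm
    obtain ⟨q, hq⟩ := hrat χ g
    have h1 := hσ _ (Cfsg.Agent.Lib.Helper3.isCharacter_of_irr χ.2) g
    rw [← h1, hq, map_ratCast]
  · intro hconj χ g
    have hχc := Cfsg.Agent.Lib.Helper3.isCharacter_of_irr χ.2
    have hcf := Cfsg.Agent.Lib.Helper3.isClassFunction_of_isCharacter hχc
    obtain ⟨n, ρ, hρ⟩ := hχc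
    obtain ⟨ι, hι, b, d, hd, -, hb, -⟩ := Cfsg.Agent.Lib.Helper3.exists_eigen_data ρ g
    have hpow : ∀ (k : ℕ) (i : ι), ρ (g ^ k) (b i) = (d i ^ k) • b i := by
      intro k i
      rw [map_pow]
      induction k with
      | zero => simp
      | succ j ih =>
        rw [pow_succ, Module.End.mul_apply, hb i, map_smul, ih, smul_smul, pow_succ, mul_comm]
    have hval : ∀ k : ℕ, (χ : G → ℂ) (g ^ k) = ∑ i, d i ^ k := by
      intro k
      rw [← hρ, Representation.character,
        Cfsg.Agent.Lib.Helper3.trace_eq_sum_of_eigenbasis b _ _ (hpow k)]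
    set N := Nat.card G with hN
    have hNpos : 0 < N := Nat.card_pos
    have : NeZero N := ⟨hNpos.ne'⟩
    have hdN : ∀ i, d i ^ N = 1 := by
      intro i
      obtain ⟨c, hc⟩ := orderOf_dvd_natCard g
      rw [hN, hc, pow_mul, hd i, one_pow]
    let K := CyclotomicField N ℚ
    have hcyc : IsCyclotomicExtension {N} ℚ K := CyclotomicField.isCyclotomicExtension N ℚ
    have hgal : IsGalois ℚ K := IsCyclotomicExtension.isGalois {N} ℚ K
    have hfd : FiniteDimensional ℚ K := IsCyclotomicExtension.finiteDimensional {N} ℚ K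
    let φ : K →ₐ[ℚ] ℂ := IsAlgClosed.lift
    have hz : IsPrimitiveRoot (IsCyclotomicExtension.zeta N ℚ K) N :=
      IsCyclotomicExtension.zeta_spec N ℚ K
    set ζ := IsCyclotomicExtension.zeta N ℚ K with hζ
    have hω : IsPrimitiveRoot (φ ζ) N := hz.map_of_injective φ.injective
    have hex : ∀ i, ∃ a : ℕ, φ ζ ^ a = d i := by
      intro i
      obtain ⟨a, -, ha⟩ := hω.eq_pow_of_pow_eq_one (hdN i)
      exact ⟨a, ha⟩
    choose a ha using hex
    let x : K := ∑ i, ζ ^ a i
    have hx : ∀ k : ℕ, φ (∑ i, ζ ^ (a i * k)) = (χ : G → ℂ) (g ^ k) := by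
      intro k
      rw [hval k, map_sum]
      refine Finset.sum_congr rfl (fun i _ => ?_)
      rw [map_pow, pow_mul, ha]
    have hx1 : φ x = (χ : G → ℂ) g := by
      have := hx 1
      simpa [x] using this
    have hfix : ∀ f : K ≃ₐ[ℚ] K, f x = x := by
      intro f
      have hfz : IsPrimitiveRoot (f ζ) N := hz.map_of_injective f.injective
      obtain ⟨m, -, hm⟩ := hz.eq_pow_of_pow_eq_one hfz.pow_eq_one
      have hcop : m.Coprime N := by
        rw [← hm] at hfz
        exact (hz.pow_iff_coprime hNpos m).mp hfz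
      apply φ.injective
      show φ (f x) = φ x
      have h2 : f x = ∑ i, ζ ^ (a i * m) := by
        simp only [x, map_sum, map_pow]
        refine Finset.sum_congr rfl (fun i _ => ?_)
        rw [← hm, ← pow_mul, mul_comm]
      rw [h2, hx m, hx1]
      obtain ⟨c, hc⟩ := isConj_iff.mp (hconj m hcop g)
      rw [← hc]
      exact hcf g c
    obtain ⟨q, hq⟩ := (IsGalois.mem_range_algebraMap_iff_fixed x).mpr hfix
    refine ⟨q, ?_⟩
    rw [← hx1, ← hq]
    simp

end Cfsg.Agent.S0180
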