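-- Statement S0181: a character vanishes at g when g centralises no non-identity element of a normal
-- subgroup not in the kernel.
import Mathlib
import Cfsg.Statements.S0181

set_option autoImplicit false
open Cfsg

namespace Cfsg.Agent.S0181

/-- Let H be a normal subgroup of a finite group G and ρ an irreducible complex representation whose kernel does not contain H. If g commutes with no non-identity element of H, then the character of ρ vanishes at g. -/
theorem result {G : Type*} [Group G] [Finite G] {V : Type*} [AddCommGroup V] [Module ℂ V] [FiniteDimensional ℂ V] (ρ : Representation ℂ G V) [ρ.IsIrreducible] (H : Subgroup G) [H.Normal] (hker : ∃ h ∈ H, ρ h ≠ LinearMap.id) (g : G) (hg : ∀ h ∈ H, h * g = g * h → h = 1) : ρ.character g = 0 := by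
  classical
  have : Fintype H := Fintype.ofFinite H
  set S : V →ₗ[ℂ] V := ∑ h : H, ρ (h : G) with hS
  -- ρ x commutes with S
  have hcomm : ∀ x : G, ρ x * S = S * ρ x := by
    intro x
    rw [hS, Finset.mul_sum, Finset.sum_mul]
    rw [← Equiv.sum_comp (MulAut.conjNormal x : MulAut H).toEquiv (fun h : H => ρ (h : G) * ρ x)]
    refine Finset.sum_congr rfl (fun h _ => ?_)
    rw [← map_mul, ← map_mul]
    congr 1
    simp [MulAut.conjNormal_apply]
  -- ρ k * S = S for k in H
  have hfix : ∀ k : H, ρ (k : G) * S = S := by
    intro k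
    rw [hS, Finset.mul_sum]
    rw [← Equiv.sum_comp (Equiv.mulLeft k) (fun h : H => ρ (h : G))]
    refine Finset.sum_congr rfl (fun h _ => ?_)
    rw [← map_mul]
    rfl
  -- the range of S is a subrepresentation
  let W : Subrepresentation ρ :=
    { toSubmodule := LinearMap.range S
      apply_mem_toSubmodule := by
        rintro x v ⟨w, rfl⟩
        refine ⟨ρ x w, ?_⟩
        have := congrArg (fun f : V →ₗ[ℂ] V => f w) (hcomm x)
        exact this.symm }
  have hS0 : S = 0 := by
    rcases eq_bot_or_eq_top W with hW | hW
    · ext v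
      have hv : S v ∈ W.toSubmodule := ⟨v, rfl⟩
      rw [hW] at hv
      exact hv
    · exfalso
      obtain ⟨h, hh, hne⟩ := hker
      apply hne
      ext v
      have hv : v ∈ W.toSubmodule := by rw [hW]; trivial
      obtain ⟨w, rfl⟩ := hv
      have := congrArg (fun f : V →ₗ[ℂ] V => f w) (hfix ⟨h, hh⟩)
      exact this
  -- every element of g H is conjugate to g
  have hconj : ∀ h : H, ρ.character (g * (h : G)) = ρ.character g := by
    let φ : H → H := fun k =>
      ⟨g⁻¹ * (k : G) * g * (k : G)⁻¹, H.mul_mem (by
        have := ‹H.Normal›.conj_mem (k : G) k.2 g⁻¹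
        simpa using this) (H.inv_mem k.2)⟩
    have hinj : Function.Injective φ := by
      intro k k' hkk
      have h1 : g⁻¹ * (k : G) * g * (k : G)⁻¹ = g⁻¹ * (k' : G) * g * (k' : G)⁻¹ :=
        congrArg Subtype.val hkk
      have h2 : ((k' : G)⁻¹ * (k : G)) * g = g * ((k' : G)⁻¹ * (k : G)) := by
        have h3 : (k : G) * g * (k : G)⁻¹ = (k' : G) * g * (k' : G)⁻¹ := by
          have := congrArg (fun t => g * t) h1
          simpa [mul_assoc] using this
        calc ((k' : G)⁻¹ * (k : G)) * g = (k' : G)⁻¹ * ((k : G) * g * (k : G)⁻¹) * (k : G) := by group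
          _ = (k' : G)⁻¹ * ((k' : G) * g * (k' : G)⁻¹) * (k : G) := by rw [h3]
          _ = g * ((k' : G)⁻¹ * (k : G)) := by group
      have h4 := hg _ (H.mul_mem (H.inv_mem k'.2) k.2) h2
      apply Subtype.ext
      have : (k : G) = (k' : G) * ((k' : G)⁻¹ * (k : G)) := by group
      rw [this, h4, mul_one]
    have hsurj : Function.Surjective φ := Finite.surjective_of_injective hinj
    intro h
    obtain ⟨k, hk⟩ := hsurj h
    have hk' : (h : G) = g⁻¹ * (k : G) * g * (k : G)⁻¹ := (congrArg Subtype.val hk).symm
    have : g * (h : G) = (k : G) * g * (k : G)⁻¹ := by rw [hk']; group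
    rw [this, Representation.char_conj]
  -- sum of characters over the coset
  have hsum : ∑ h : H, ρ.character (g * (h : G)) = 0 := by
    have : ∑ h : H, ρ.character (g * (h : G)) = LinearMap.trace ℂ V (ρ g * S) := by
      rw [hS, Finset.mul_sum, map_sum]
      refine Finset.sum_congr rfl (fun h _ => ?_)
      rw [← map_mul]
      rfl
    rw [this, hS0, mul_zero, map_zero]
  rw [Finset.sum_congr rfl (fun h _ => hconj h)] at hsum
  rw [Finset.sum_const, Finset.card_univ, nsmul_eq_mul] at hsum
  rcases mul_eq_zero.mp hsum with h0 | h0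
  · exfalso
    have : Fintype.card H ≠ 0 := Fintype.card_ne_zero
    exact this (by exact_mod_cast h0)
  · exact h0

end Cfsg.Agent.S0181
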