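import Cfsg.Statements.S0184
import Cfsg.Agent.S0065
import Cfsg.Agent.Lib.Helper3.CharKernel
import Cfsg.Agent.Lib.Helper3.CharRegular
import Cfsg.Agent.Lib.Helper74.CharSums
import Cfsg.Agent.Lib.Helper79.Schur

set_option autoImplicit false
open Cfsg

namespace Cfsg.Agent.S0184

open Cfsg.Agent.Lib.Helper3 Cfsg.Agent.Lib.Helper74 Cfsg.Agent.Lib.Helper79

/-- In a finite cyclic group, an element killed by `p` lies in the subgroup generated by
any element of order `p`. -/
theorem mem_zpowers_of_orderOf_eq {Z : Type*} [Group Z] [Finite Z] [IsCyclic Z] {p : ℕ}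
    (hp : 0 < p) (w z : Z) (hw : orderOf w = p) (hz : z ^ p = 1) : z ∈ Subgroup.zpowers w := by
  classical
  have := Fintype.ofFinite Z
  have hsub : Finset.univ.filter (fun a : Z => a ∈ Subgroup.zpowers w)
      ⊆ Finset.univ.filter (fun a : Z => a ^ p = 1) := by
    intro a ha
    simp only [Finset.mem_filter, Finset.mem_univ, true_and] at ha ⊢
    obtain ⟨k, rfl⟩ := Subgroup.mem_zpowers_iff.1 ha
    rw [← zpow_natCast, ← zpow_mul, mul_comm, zpow_mul, zpow_natCast, ← hw, pow_orderOf_eq_one,
      one_zpow]
  have hcard : (Finset.univ.filter (fun a : Z => a ∈ Subgroup.zpowers w)).card = p := by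
    rw [← Fintype.card_subtype, ← Nat.card_eq_fintype_card]
    exact (Nat.card_zpowers w).trans hw
  have hle : (Finset.univ.filter (fun a : Z => a ^ p = 1)).card
      ≤ (Finset.univ.filter (fun a : Z => a ∈ Subgroup.zpowers w)).card := by
    rw [hcard]
    exact IsCyclic.card_pow_eq_one_le hp
  have heq := Finset.eq_of_subset_of_card_le hsub hle
  have hzmem : z ∈ Finset.univ.filter (fun a : Z => a ^ p = 1) := by
    simp [hz]
  rw [← heq] at hzmem
  simpa using hzmem

/-- A finite `p`-group has a faithful irreducible complex representation iff its centre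
is cyclic. -/
theorem result {G : Type*} [Group G] [Finite G] (p : ℕ) [Fact p.Prime] (hG : IsPGroup p G) : (∃ (n : ℕ) (ρ : Representation ℂ G (Fin n → ℂ)), ρ.IsIrreducible ∧ Function.Injective ρ) ↔ IsCyclic (Subgroup.center G) := by
  classical
  have hpp : p.Prime := Fact.out
  constructor
  · rintro ⟨n, ρ, hirr, hinj⟩
    have := hirr
    have hpos : 0 < n := by simpa using finrank_pos_of_irreducible ρ
    set i₀ : Fin n := ⟨0, hpos⟩ with hi₀
    have hsc : ∀ z : Subgroup.center G, ∃ c : ℂ, ρ (z : G) = c • LinearMap.id := by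
      intro z
      apply schur_scalar ρ
      intro g
      have hcomm : (z : G) * g = g * z := (Subgroup.mem_center_iff.1 z.2 g).symm
      change ρ (z : G) * ρ g = ρ g * ρ (z : G)
      rw [← map_mul, ← map_mul, hcomm]
    choose c hc using hsc
    have hcinj : ∀ a b : ℂ, (a • (LinearMap.id : (Fin n → ℂ) →ₗ[ℂ] (Fin n → ℂ)))
        = b • LinearMap.id → a = b := by
      intro a b h
      have h1 := congrFun (congrArg (fun L : (Fin n → ℂ) →ₗ[ℂ] (Fin n → ℂ) =>
        L (Pi.single i₀ (1 : ℂ))) h) i₀
      simpa using h1
    let f : Subgroup.center G →* ℂ :=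
      { toFun := c
        map_one' := by
          apply hcinj
          rw [← hc 1, one_smul]
          exact map_one ρ
        map_mul' := by
          intro z w
          apply hcinj
          rw [← hc (z * w)]
          change ρ ((z : G) * (w : G)) = _
          rw [map_mul, hc z, hc w]
          ext v i
          simp [mul_assoc, mul_left_comm] }
    have hfinj : Function.Injective f := by
      intro z w hzw
      have h1 : c z = c w := hzw
      have h2 : ρ (z : G) = ρ (w : G) := by rw [hc z, hc w, h1]
      exact Subtype.ext (hinj h2)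
    exact isCyclic_of_injective_ringHom f hfinj
  · intro hcyc
    have := Fintype.ofFinite G
    have := Fintype.ofFinite (Cfsg.IrrCharacter G)
    rcases subsingleton_or_nontrivial G with hsub | hnt
    · refine ⟨1, Representation.trivial ℂ G (Fin 1 → ℂ),
        isIrreducible_of_finrank_eq_one _ (by simp), ?_⟩
      intro a b _
      exact Subsingleton.elim a b
    · have hZnt : Nontrivial (Subgroup.center G) := hG.center_nontrivial
      have hZp : IsPGroup p (Subgroup.center G) := hG.to_subgroup _
      have hnil : Group.IsNilpotent G := hG.isNilpotent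
      have hdvd : p ∣ Nat.card (Subgroup.center G) := by
        rcases hZp.card_eq_or_dvd with h1 | h1
        · exfalso
          have := (Nat.card_eq_one_iff_unique.1 h1).1
          exact not_subsingleton (Subgroup.center G) this
        · exact h1
      obtain ⟨z₀, hz₀⟩ := exists_prime_orderOf_dvd_card' p hdvd
      have hz₀1 : (z₀ : G) ≠ 1 := by
        intro h
        have : z₀ = 1 := Subtype.ext h
        rw [this, orderOf_one] at hz₀
        exact hpp.one_lt.ne hz₀
      -- every nontrivial normal subgroup contains `z₀`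
      have hkey : ∀ K : Subgroup G, K.Normal → K ≠ ⊥ → (z₀ : G) ∈ K := by
        intro K hKn hK
        have hKZ : K ⊓ Subgroup.center G ≠ ⊥ := Cfsg.Agent.S0065.result K hK
        have hKZp : IsPGroup p ↥(K ⊓ Subgroup.center G) := hG.to_subgroup _
        have hdvd' : p ∣ Nat.card ↥(K ⊓ Subgroup.center G) := by
          rcases hKZp.card_eq_or_dvd with h1 | h1
          · exfalso
            exact hKZ (Subgroup.card_eq_one.1 h1)
          · exact h1
        obtain ⟨w, hw⟩ := exists_prime_orderOf_dvd_card' p hdvd'
        have hwK : (w : G) ∈ K := (Subgroup.mem_inf.1 w.2).1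
        have hwZ : (w : G) ∈ Subgroup.center G := (Subgroup.mem_inf.1 w.2).2
        have hw' : orderOf (⟨(w : G), hwZ⟩ : Subgroup.center G) = p := by
          rw [← Subgroup.orderOf_coe] at hw ⊢
          exact hw
        have hz₀p : z₀ ^ p = 1 := by rw [← hz₀, pow_orderOf_eq_one]
        have hmem := mem_zpowers_of_orderOf_eq hpp.pos _ z₀ hw' hz₀p
        obtain ⟨k, hk⟩ := Subgroup.mem_zpowers_iff.1 hmem
        have hk' : (z₀ : G) = (w : G) ^ k := by
          rw [← hk]
          simp
        rw [hk']
        exact K.zpow_mem hwK k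
      -- an irreducible character not having `z₀` in its kernel
      have hex : ∃ χ : Cfsg.IrrCharacter G, (χ : G → ℂ) (z₀ : G) ≠ (χ : G → ℂ) 1 := by
        by_contra hall
        push Not at hall
        have h1 := regular_expansion (G := G) (z₀ : G)
        rw [if_neg hz₀1] at h1
        have h2 := regular_expansion (G := G) 1
        rw [if_pos rfl] at h2
        have h3 : ∑ χ : Cfsg.IrrCharacter G, (χ : G → ℂ) 1 * (χ : G → ℂ) (z₀ : G)
            = ∑ χ : Cfsg.IrrCharacter G, (χ : G → ℂ) 1 * (χ : G → ℂ) 1 :=
          Finset.sum_congr rfl (fun χ _ => by rw [hall χ])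
        rw [← h1, ← h2] at h3
        exact card_ne_zero' h3.symm
      obtain ⟨χ, hχ⟩ := hex
      obtain ⟨n, ρ, hirr, hρ⟩ := χ.2
      refine ⟨n, ρ, hirr, ?_⟩
      have hker : (ρ : G →* ((Fin n → ℂ) →ₗ[ℂ] (Fin n → ℂ))).ker = ⊥ := by
        by_contra hne
        have hz := hkey _ (MonoidHom.normal_ker _) hne
        rw [MonoidHom.mem_ker] at hz
        apply hχ
        rw [← hρ]
        have h1 : ρ (z₀ : G) = LinearMap.id := hz
        rw [(character_eq_finrank_iff ρ (z₀ : G)).2 h1, Representation.char_one]
      exact (MonoidHom.ker_eq_bot_iff _).1 hker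

end Cfsg.Agent.S0184
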