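import Mathlib
import Cfsg.Statements.S0185
import Cfsg.Agent.Lib.Helper80.CharOps
import Cfsg.Agent.Lib.Helper77.Kernel
import Cfsg.Agent.Lib.Helper15.LinChar
import Cfsg.Agent.Lib.Helper3.CharCore

set_option autoImplicit false
open Cfsg

namespace Cfsg.Agent.S0185

/-- If a finite group has a faithful complex representation of degree less than the smallest prime dividing its order, the group is abelian. -/
theorem result {G : Type*} [Group G] [Finite G] {V : Type*} [AddCommGroup V] [Module ℂ V] [FiniteDimensional ℂ V] (ρ : Representation ℂ G V) (hfaithful : Function.Injective ρ) (hdeg : ∀ p : ℕ, p.Prime → p ∣ Nat.card G → Module.finrank ℂ V < p) (a b : G) : a * b = b * a := by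
  classical
  have := Fintype.ofFinite G
  have := Fintype.ofFinite (Cfsg.IrrCharacter G)
  have hφ : Cfsg.IsCharacter G ρ.character := Cfsg.Agent.Lib.Helper3.isCharacter_character ρ
  obtain ⟨m, hm, hexp⟩ := Cfsg.Agent.Lib.Helper80.character_expansion hφ
  have hsum := Cfsg.Agent.Lib.Helper80.charDegree_eq_sum hφ m hexp
  have hdegφ : Cfsg.charDegree ρ.character = Module.finrank ℂ V := by
    unfold Cfsg.charDegree
    rw [Representation.char_one]
    simp
  have hlin : ∀ χ : Cfsg.IrrCharacter G, m χ ≠ 0 → Cfsg.charDegree (χ : G → ℂ) = 1 := by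
    intro χ hχ
    by_contra hne
    have hpos := Cfsg.Agent.Lib.Helper80.charDegree_pos χ.2
    obtain ⟨p, hp, hpd⟩ := Nat.exists_prime_and_dvd hne
    have hpG : p ∣ Nat.card G := hpd.trans (Cfsg.Agent.Lib.Helper80.charDegree_dvd_card χ.2)
    have h1 := hdeg p hp hpG
    have h2 : p ≤ Cfsg.charDegree (χ : G → ℂ) := Nat.le_of_dvd hpos hpd
    have h3 : m χ * Cfsg.charDegree (χ : G → ℂ) ≤
        ∑ ψ : Cfsg.IrrCharacter G, m ψ * Cfsg.charDegree (ψ : G → ℂ) :=
      Finset.single_le_sum (f := fun ψ : Cfsg.IrrCharacter G => m ψ * Cfsg.charDegree (ψ : G → ℂ))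
        (fun _ _ => Nat.zero_le _) (Finset.mem_univ χ)
    have h4 : Cfsg.charDegree (χ : G → ℂ) ≤ m χ * Cfsg.charDegree (χ : G → ℂ) :=
      Nat.le_mul_of_pos_left _ (Nat.pos_of_ne_zero hχ)
    omega
  have hval : ρ.character (a * b * a⁻¹ * b⁻¹) = ρ.character 1 := by
    rw [hexp]
    simp only [Finset.sum_apply, Pi.smul_apply, smul_eq_mul]
    apply Finset.sum_congr rfl
    intro χ _
    by_cases hχ : m χ = 0
    · simp [hχ]
    · have hch := Cfsg.Agent.Lib.Helper80.isCharacter_of_isIrrCharacter χ.2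
      have h1 : (χ : G → ℂ) 1 = 1 := by
        rw [Cfsg.Agent.Lib.Helper80.char_one_eq_charDegree hch, hlin χ hχ]
        simp
      have hmul := Cfsg.Agent.Lib.Helper15.linChar_mul hch h1
      have hinv := Cfsg.Agent.Lib.Helper15.linChar_inv hch h1
      have hne := Cfsg.Agent.Lib.Helper15.linChar_ne_zero hch h1
      rw [hmul, hmul, hmul, hinv, hinv, h1]
      congr 1
      field_simp [hne a, hne b]
  have hρc : ρ (a * b * a⁻¹ * b⁻¹) = 1 :=
    Cfsg.Agent.Lib.Helper77.rep_eq_one_of_char_eq ρ _ (by rw [hval]; exact ρ.char_one)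
  have hc1 : a * b * a⁻¹ * b⁻¹ = 1 := hfaithful (by rw [hρc, map_one])
  have : a * b = b * a := by
    have h := congrArg (fun z => z * b * a) hc1
    simpa [mul_assoc] using h
  exact this

end Cfsg.Agent.S0185
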