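import Mathlib
import Cfsg.Statements.S0192

set_option autoImplicit false
open Cfsg

namespace Cfsg.Agent.S0192

theorem fix_aux {G : Type*} [Group G] {n : ℕ} (ρ : Representation ℂ G (Fin n → ℂ))
    (K : Subgroup G) [Fintype K] :
    Cfsg.classInner (fun x : K => ρ.character x) (fun _ => 1) =
      (Module.finrank ℂ (Representation.invariants
        ((ρ.comp K.subtype : Representation ℂ K (Fin n → ℂ)))) : ℂ) := by
  haveI : Invertible (Nat.card K : ℂ) :=
    invertibleOfNonzero (by exact_mod_cast (Nat.card_pos (α := K)).ne')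
  rw [← Representation.card_inv_mul_sum_char_eq_finrank]
  unfold Cfsg.classInner
  simp [Representation.character]

/-- Brauer's generation criterion. Let G be a finite simple group, H₁ and H₂ subgroups, and χ a non-principal irreducible character. If the multiplicity of the principal character in χ restricted to H₁ ⊓ H₂ is less than the sum of the corresponding multiplicities for H₁ and H₂, then H₁ and H₂ do not generate G. -/
theorem result {G : Type*} [Group G] [Fintype G] [IsSimpleGroup G] (H₁ H₂ : Subgroup G) [Fintype H₁] [Fintype H₂] [Fintype ↥(H₁ ⊓ H₂)] (χ : G → ℂ) (hχ : Cfsg.IsIrrCharacter G χ) (hχ1 : χ ≠ fun _ => 1) (hlt : (Cfsg.classInner (fun x : ↥(H₁ ⊓ H₂) => χ x) (fun _ => 1)).re < (Cfsg.classInner (fun x : H₁ => χ x) (fun _ => 1)).re + (Cfsg.classInner (fun x : H₂ => χ x) (fun _ => 1)).re) : H₁ ⊔ H₂ ≠ ⊤ := by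
  obtain ⟨n, ρ, hirr, rfl⟩ := hχ
  intro htop
  rw [fix_aux ρ H₁, fix_aux ρ H₂, fix_aux ρ (H₁ ⊓ H₂)] at hlt
  simp only [Complex.natCast_re] at hlt
  have hlt' : Module.finrank ℂ (Representation.invariants
        ((ρ.comp (H₁ ⊓ H₂).subtype : Representation ℂ ↥(H₁ ⊓ H₂) (Fin n → ℂ)))) <
      Module.finrank ℂ (Representation.invariants
        ((ρ.comp H₁.subtype : Representation ℂ H₁ (Fin n → ℂ)))) +
      Module.finrank ℂ (Representation.invariants
        ((ρ.comp H₂.subtype : Representation ℂ H₂ (Fin n → ℂ)))) := by
    exact_mod_cast hlt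
  have hle : Representation.invariants
        ((ρ.comp H₁.subtype : Representation ℂ H₁ (Fin n → ℂ))) ⊔
      Representation.invariants
        ((ρ.comp H₂.subtype : Representation ℂ H₂ (Fin n → ℂ))) ≤
      Representation.invariants
        ((ρ.comp (H₁ ⊓ H₂).subtype : Representation ℂ ↥(H₁ ⊓ H₂) (Fin n → ℂ))) := by
    apply sup_le
    · intro v hv g
      exact hv ⟨g.1, g.2.1⟩
    · intro v hv g
      exact hv ⟨g.1, g.2.2⟩
  have hdim := Submodule.finrank_sup_add_finrank_inf_eq (Representation.invariants
        ((ρ.comp H₁.subtype : Representation ℂ H₁ (Fin n → ℂ))))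
      (Representation.invariants
        ((ρ.comp H₂.subtype : Representation ℂ H₂ (Fin n → ℂ))))
  have hmono := Submodule.finrank_mono hle
  have hpos : 0 < Module.finrank ℂ ↥(Representation.invariants
        ((ρ.comp H₁.subtype : Representation ℂ H₁ (Fin n → ℂ))) ⊓
      Representation.invariants
        ((ρ.comp H₂.subtype : Representation ℂ H₂ (Fin n → ℂ)))) := by omega
  rw [Module.finrank_pos_iff_exists_ne_zero] at hpos
  obtain ⟨⟨v, hv⟩, hv0⟩ := hpos
  have hv0' : v ≠ 0 := fun h => hv0 (Subtype.ext h)
  have hfix : ∀ g : G, ρ g v = v := by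
    let S : Subgroup G :=
      { carrier := {g | ρ g v = v}
        one_mem' := by simp
        mul_mem' := by
          intro a b ha hb
          simp only [Set.mem_ofPred_eq] at ha hb ⊢
          rw [map_mul, Module.End.mul_apply, hb, ha]
        inv_mem' := by
          intro a ha
          simp only [Set.mem_ofPred_eq] at ha ⊢
          have : ρ a⁻¹ (ρ a v) = v := by
            rw [← Module.End.mul_apply, ← map_mul, inv_mul_cancel, map_one]; rfl
          rw [ha] at this
          exact this }
    have h1 : H₁ ≤ S := fun g hg => hv.1 ⟨g, hg⟩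
    have h2 : H₂ ≤ S := fun g hg => hv.2 ⟨g, hg⟩
    have h3 : H₁ ⊔ H₂ ≤ S := sup_le h1 h2
    rw [htop] at h3
    intro g
    exact h3 (Subgroup.mem_top g)
  -- the invariants form a subrepresentation
  let W : Subrepresentation ρ :=
    { toSubmodule := Representation.invariants ρ
      apply_mem_toSubmodule := by
        intro g w hw
        rw [hw g]
        exact hw }
  have hW : W = ⊤ := by
    rcases hirr.eq_bot_or_eq_top W with h | h
    · exfalso
      have : v ∈ W.toSubmodule := hfix
      rw [h] at this
      exact hv0' ((Submodule.mem_bot ℂ).1 this)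
    · exact h
  have hall : ∀ (g : G) (w : Fin n → ℂ), ρ g w = w := by
    intro g w
    have : w ∈ W.toSubmodule := by rw [hW]; exact Submodule.mem_top
    exact this g
  let U : Subrepresentation ρ :=
    { toSubmodule := Submodule.span ℂ {v}
      apply_mem_toSubmodule := by
        intro g w hw
        rw [hall g w]
        exact hw }
  have hU : U = ⊤ := by
    rcases hirr.eq_bot_or_eq_top U with h | h
    · exfalso
      have : v ∈ U.toSubmodule := Submodule.mem_span_singleton_self v
      rw [h] at this
      exact hv0' ((Submodule.mem_bot ℂ).1 this)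
    · exact h
  have hU' : Submodule.span ℂ {v} = (⊤ : Submodule ℂ (Fin n → ℂ)) := by
    have := congrArg Subrepresentation.toSubmodule hU
    exact this
  have hfr : Module.finrank ℂ (Fin n → ℂ) = 1 := by
    rw [← finrank_top ℂ (Fin n → ℂ), ← hU']
    exact finrank_span_singleton hv0'
  apply hχ1
  funext g
  have hg : ρ g = LinearMap.id := LinearMap.ext (hall g)
  simp only [Representation.character, hg]
  rw [LinearMap.trace_id, hfr]
  simp

end Cfsg.Agent.S0192
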