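import Cfsg.Statements.S0194
import Cfsg.Agent.S0161
import Cfsg.Agent.Lib.Helper74.CharOps
import Cfsg.Agent.Lib.Helper75.Clifford

set_option autoImplicit false
open Cfsg

namespace Cfsg.Agent.S0194

open Cfsg.Agent.Lib.Helper3 Cfsg.Agent.Lib.Helper74 Cfsg.Agent.Lib.Helper75
open scoped ComplexConjugate

/-- In a group of odd order, the character induced from a nonprincipal irreducible character
of a normal subgroup is orthogonal to its complex conjugate. -/
theorem result {G : Type*} [Group G] [Fintype G] (hodd : Odd (Nat.card G)) (H : Subgroup G) [H.Normal] (θ : H → ℂ) (hθ : Cfsg.IsIrrCharacter H θ) (hθ1 : θ ≠ fun _ => 1) : Cfsg.classInner (fun g => conj (Cfsg.indFun H θ g)) (Cfsg.indFun H θ) = 0 := by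
  classical
  have : Fintype H := Fintype.ofFinite H
  set θb : H → ℂ := fun h => conj (θ h) with hθb
  have hθb_irr : Cfsg.IsIrrCharacter H θb := isIrrCharacter_conj hθ
  have hconjInd : (fun g => conj (Cfsg.indFun H θ g)) = Cfsg.indFun H θb := by
    funext g
    unfold Cfsg.indFun
    rw [map_mul, map_inv₀, Complex.conj_natCast, map_sum]
    congr 1
    refine Finset.sum_congr rfl (fun x _ => ?_)
    by_cases hy : x⁻¹ * g * x ∈ H
    · rw [extendByZero_mem H θ hy, extendByZero_mem H θb hy]
    · rw [extendByZero_not_mem H θ hy, extendByZero_not_mem H θb hy, map_zero]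
  have hpow : ∀ y : G, conjChar H θ y = θ → ∀ k : ℕ, conjChar H θ (y ^ k) = θ := by
    intro y hy k
    induction k with
    | zero => rw [pow_zero, conjChar_one]
    | succ k ih => rw [pow_succ, conjChar_mul, hy, ih]
  have hzero : ∀ x : G, Cfsg.classInner (conjChar H θ x) θb = 0 := by
    intro x
    apply classInner_irr_ne (isIrrCharacter_conjChar H hθ x) hθb_irr
    intro hx
    have hxb : conjChar H θb x = θ := by
      have h1 : conjChar H θb x = fun n => conj (conjChar H θ x n) := rfl
      rw [h1, hx]
      funext n
      simp [hθb]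
    have hxx : conjChar H θ (x * x) = θ := by
      rw [conjChar_mul, hx, hxb]
    have hox : Odd (orderOf x) := by
      have hdvd : orderOf x ∣ Nat.card G := orderOf_dvd_natCard x
      exact Odd.of_dvd_nat hodd hdvd
    obtain ⟨j, hj⟩ := hox
    have hxpow : (x * x) ^ (j + 1) = x := by
      rw [← pow_two, ← pow_mul]
      have : 2 * (j + 1) = orderOf x + 1 := by omega
      rw [this, pow_succ, pow_orderOf_eq_one, one_mul]
    have hxθ : conjChar H θ x = θ := by
      have := hpow (x * x) hxx (j + 1)
      rwa [hxpow] at this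
    have hreal : θb = θ := by rw [← hx, hxθ]
    have hoddH : Odd (Nat.card H) := Odd.of_dvd_nat hodd (Subgroup.card_subgroup_dvd_card H)
    have h1 := Cfsg.Agent.S0161.result hoddH ⟨θ, hθ⟩ (by
      intro h
      have h2 := congrFun hreal h
      simp only [hθb] at h2
      exact Complex.conj_eq_iff_im.1 h2)
    exact hθ1 h1
  rw [hconjInd, frobenius_reciprocity H θb (indFun_isClassFunction H θ), indFun_res H θ,
    classInner_conj_symm, classInner_smul_left, classInner_sum_left]
  simp [hzero]

end Cfsg.Agent.S0194
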