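import Mathlib
import Cfsg.Statements.S0196

set_option autoImplicit false
open Cfsg

namespace Cfsg.Agent.S0196

/-- Let A be a subgroup of a finite group G that equals the centralizer of each of its non-identity elements, and let N be its normalizer. Then the index of A in N divides |A| − 1 (N/A permutes the non-identity elements of A in orbits of full length). -/
theorem result {G : Type*} [Group G] [Finite G] (A : Subgroup G) (hA : ∀ x ∈ A, x ≠ 1 → Subgroup.centralizer ({x} : Set G) = A) : (A.subgroupOf (Subgroup.normalizer (A : Set G))).index ∣ Nat.card A - 1 := by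
  classical
  set N := Subgroup.normalizer (A : Set G) with hN
  let X := {a : G // a ∈ A ∧ a ≠ 1}
  let _ : MulAction N X :=
    { smul := fun n a => ⟨n.1 * a.1 * n.1⁻¹, (Subgroup.mem_normalizer_iff.mp n.2 a.1).mp a.2.1, by
          intro h
          apply a.2.2
          have : a.1 = n.1⁻¹ * (n.1 * a.1 * n.1⁻¹) * n.1 := by group
          rw [this, h]; group⟩
      one_smul := fun a => by
        apply Subtype.ext
        show (1 : N).1 * a.1 * (1 : N).1⁻¹ = a.1
        simp
      mul_smul := fun m n a => by
        apply Subtype.ext
        show (m * n).1 * a.1 * (m * n).1⁻¹ = m.1 * (n.1 * a.1 * n.1⁻¹) * m.1⁻¹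
        simp [mul_assoc] }
  have hstab : ∀ a : X, MulAction.stabilizer N a = A.subgroupOf N := by
    intro a
    ext n
    rw [MulAction.mem_stabilizer_iff, Subgroup.mem_subgroupOf, ← hA a.1 a.2.1 a.2.2,
      Subgroup.mem_centralizer_iff]
    constructor
    · intro h k hk
      rw [Set.mem_singleton_iff] at hk
      have h' : n.1 * a.1 * n.1⁻¹ = a.1 := congrArg Subtype.val h
      rw [hk]
      exact (mul_inv_eq_iff_eq_mul.mp h').symm
    · intro h
      apply Subtype.ext
      show n.1 * a.1 * n.1⁻¹ = a.1
      have := h a.1 rfl
      rw [← this, mul_inv_cancel_right]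
  have e : X ≃ Quotient (MulAction.orbitRel N X) × (N ⧸ A.subgroupOf N) :=
    (MulAction.selfEquivSigmaOrbitsQuotientStabilizer N X).trans <|
      (Equiv.sigmaCongrRight fun _ => Subgroup.quotientEquivOfEq (hstab _)).trans <|
        Equiv.sigmaEquivProd _ _
  have hX : Nat.card X = Nat.card (Quotient (MulAction.orbitRel N X)) * (A.subgroupOf N).index := by
    rw [Nat.card_congr e, Nat.card_prod]; rfl
  have hAX : Nat.card A = Nat.card X + 1 := by
    rw [← Finite.card_option]
    refine Nat.card_congr ?_
    refine
      { toFun := fun a => if h : (a : G) = 1 then none else some ⟨a.1, a.2, h⟩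
        invFun := fun o => match o with
          | none => 1
          | some a => ⟨a.1, a.2.1⟩
        left_inv := ?_
        right_inv := ?_ }
    · intro a
      by_cases h : (a : G) = 1
      · simp only [h, dite_true]
        exact Subtype.ext h.symm
      · simp only [h, dite_false]
    · intro o
      cases o with
      | none => simp
      | some a =>
        have : (a.1 : G) ≠ 1 := a.2.2
        simp only [this, dite_false]
        rfl
  rw [hAX, Nat.add_sub_cancel, hX]
  exact Dvd.intro_left _ rfl

end Cfsg.Agent.S0196
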