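import Cfsg.Statements.S0203
import Cfsg.Agent.Lib.Helper52.KleinSylow

set_option autoImplicit false
open Cfsg

namespace Cfsg.Agent.S0203

/-- If a Sylow 2-subgroup P of a finite group G is a Klein four-group, then G has three classes of involutions if and only if P has a normal complement in G. -/
theorem result {G : Type*} [Group G] [Finite G] (P : Sylow 2 G) (hP : IsKleinFour (P : Subgroup G)) : Nat.card {C : ConjClasses G // ∃ t : G, orderOf t = 2 ∧ ConjClasses.mk t = C} = 3 ↔ ∃ N : Subgroup G, N.Normal ∧ Subgroup.IsComplement' N (P : Subgroup G) := by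
  have : Fact (Nat.Prime 2) := ⟨Nat.prime_two⟩
  constructor
  · intro h3
    rcases Cfsg.Agent.Lib.Helper52.klein_dichotomy P hP with h | h
    · have h1 := Cfsg.Agent.Lib.Helper52.klein_card_classes_one P hP h
      rw [h1] at h3
      exact absurd h3 (by norm_num)
    · have hNC := Cfsg.Agent.Lib.Helper52.klein_normalizer_le_centralizer P hP h
      exact ⟨(MonoidHom.transferSylow P hNC).ker, MonoidHom.normal_ker _,
        MonoidHom.ker_transferSylow_isComplement' P hNC⟩
  · rintro ⟨N, hN, hc⟩
    apply Cfsg.Agent.Lib.Helper52.klein_card_classes_three P hP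
    intro a ha b hb _ _ hab
    exact Cfsg.Agent.Lib.Helper52.klein_eq_of_isConj_of_complement P hP N hN hc a b ha hb hab

end Cfsg.Agent.S0203
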