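import Mathlib
import Cfsg.Statements.S0208

set_option autoImplicit false
open Cfsg

namespace Cfsg.Agent.S0208

lemma sq_of_order_two {G : Type*} [Group G] {u : G} (hu : orderOf u = 2) : u * u = 1 := by
  rw [← pow_two, ← hu]; exact pow_orderOf_eq_one u

lemma inv_of_order_two {G : Type*} [Group G] {u : G} (hu : orderOf u = 2) : u⁻¹ = u :=
  inv_eq_of_mul_eq_one_left (sq_of_order_two hu)

/-- If x, y are involutions and xy has odd order, then some element of the subgroup generated by x and y conjugates x to y. -/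
theorem result {G : Type*} [Group G] [Finite G] (x y : G) (hx : orderOf x = 2) (hy : orderOf y = 2) (hodd : Odd (orderOf (x * y))) : ∃ d ∈ Subgroup.closure ({x, y} : Set G), d * x * d⁻¹ = y := by
  obtain ⟨m, hm⟩ := hodd
  have hxc : x * (x * y) * x⁻¹ = (x * y)⁻¹ := by
    rw [mul_inv_rev, inv_of_order_two hx, inv_of_order_two hy, ← mul_assoc, sq_of_order_two hx,
      one_mul]
  have h1 : x * (x * y) ^ m * x⁻¹ = ((x * y) ^ m)⁻¹ := by rw [← conj_pow, hxc, inv_pow]
  have hmem : (x * y) ^ m ∈ Subgroup.closure ({x, y} : Set G) :=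
    Subgroup.pow_mem _ (Subgroup.mul_mem _ (Subgroup.subset_closure (by simp))
      (Subgroup.subset_closure (by simp))) m
  refine ⟨(x * y) ^ m, hmem, ?_⟩
  have h3 : (x * y) ^ m * (x * y) ^ m * (x * y) = 1 := by
    rw [← pow_add, ← pow_succ, show m + m + 1 = orderOf (x * y) by omega, pow_orderOf_eq_one]
  rw [← h1, inv_of_order_two hx]
  calc (x * y) ^ m * x * (x * (x * y) ^ m * x) = (x * y) ^ m * (x * x) * (x * y) ^ m * x := by
        simp only [mul_assoc]
    _ = (x * y) ^ m * (x * y) ^ m * x := by rw [sq_of_order_two hx, mul_one]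
    _ = (x * y) ^ m * (x * y) ^ m * (x * y) * y := by
        rw [mul_assoc _ (x * y) y, mul_assoc x y y, sq_of_order_two hy, mul_one]
    _ = y := by rw [h3, one_mul]

end Cfsg.Agent.S0208
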