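import Mathlib
import Cfsg.Statements.S0209

set_option autoImplicit false
open Cfsg

namespace Cfsg.Agent.S0209

lemma sq_of_order_two {G : Type*} [Group G] {u : G} (hu : orderOf u = 2) : u * u = 1 := by
  rw [← pow_two, ← hu]; exact pow_orderOf_eq_one u

lemma inv_of_order_two {G : Type*} [Group G] {u : G} (hu : orderOf u = 2) : u⁻¹ = u :=
  inv_eq_of_mul_eq_one_left (sq_of_order_two hu)

/-- If x, y are involutions whose product has even order n, the element (xy)^(n/2) is an involution that commutes with x and with y. -/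
theorem result {G : Type*} [Group G] [Finite G] (x y : G) (hx : orderOf x = 2) (hy : orderOf y = 2) (heven : Even (orderOf (x * y))) : orderOf ((x * y) ^ (orderOf (x * y) / 2)) = 2 ∧ Commute ((x * y) ^ (orderOf (x * y) / 2)) x ∧ Commute ((x * y) ^ (orderOf (x * y) / 2)) y := by
  have hn : orderOf (x * y) ≠ 0 := (orderOf_pos (x * y)).ne'
  have h2 : (2 : ℕ) ∣ orderOf (x * y) := even_iff_two_dvd.mp heven
  have hz : orderOf ((x * y) ^ (orderOf (x * y) / 2)) = 2 := orderOf_pow_orderOf_div hn h2
  have hzi := inv_of_order_two hz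
  have hxc : x * (x * y) * x⁻¹ = (x * y)⁻¹ := by
    rw [mul_inv_rev, inv_of_order_two hx, inv_of_order_two hy, ← mul_assoc, sq_of_order_two hx,
      one_mul]
  have hyc : y * (x * y) * y⁻¹ = (x * y)⁻¹ := by
    rw [mul_inv_rev, inv_of_order_two hx, inv_of_order_two hy, mul_assoc, mul_assoc,
      sq_of_order_two hy, mul_one]
  refine ⟨hz, ?_, ?_⟩
  · have : x * (x * y) ^ (orderOf (x * y) / 2) * x⁻¹ = (x * y) ^ (orderOf (x * y) / 2) := by
      rw [← conj_pow, hxc, inv_pow, hzi]
    show (x * y) ^ (orderOf (x * y) / 2) * x = x * (x * y) ^ (orderOf (x * y) / 2)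
    exact (mul_inv_eq_iff_eq_mul.mp this).symm
  · have : y * (x * y) ^ (orderOf (x * y) / 2) * y⁻¹ = (x * y) ^ (orderOf (x * y) / 2) := by
      rw [← conj_pow, hyc, inv_pow, hzi]
    show (x * y) ^ (orderOf (x * y) / 2) * y = y * (x * y) ^ (orderOf (x * y) / 2)
    exact (mul_inv_eq_iff_eq_mul.mp this).symm

end Cfsg.Agent.S0209
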