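import Mathlib
import Cfsg.Statements.S0210
import Cfsg.Agent.Lib.Helper4.Dihedral

set_option autoImplicit false
open Cfsg

namespace Cfsg.Agent.S0210

/-- If x, y are involutions whose product has even order, no element of the subgroup generated by x and y conjugates x to y. -/
theorem result {G : Type*} [Group G] [Finite G] (x y : G) (hx : orderOf x = 2) (hy : orderOf y = 2) (heven : Even (orderOf (x * y))) (d : G) (hd : d ∈ Subgroup.closure ({x, y} : Set G)) : d * x * d⁻¹ ≠ y := by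
  have hx2 := Cfsg.Agent.Lib.Helper4.mul_self_of_orderOf_two hx
  have hy2 := Cfsg.Agent.Lib.Helper4.mul_self_of_orderOf_two hy
  intro hcon
  obtain ⟨j, hj⟩ := Cfsg.Agent.Lib.Helper4.dih_conj hx2 hy2 hd
  rw [hcon] at hj
  -- y = x * u ^ (2 j), and y = x * u
  have h1 : x * (x * y) ^ (1 : ℤ) = x * (x * y) ^ (2 * j) := by
    rw [zpow_one, Cfsg.Agent.Lib.Helper4.x_mul_xy hx2]; exact hj
  have h2 : (x * y) ^ (1 : ℤ) = (x * y) ^ (2 * j) := mul_left_cancel h1
  rw [zpow_eq_zpow_iff_modEq] at h2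
  have h3 : (2 : ℤ) ∣ (orderOf (x * y) : ℤ) := by
    have := even_iff_two_dvd.mp heven
    exact_mod_cast this
  have h4 := (Int.ModEq.dvd h2)
  have h5 : (2 : ℤ) ∣ 2 * j - 1 := dvd_trans h3 h4
  omega

end Cfsg.Agent.S0210
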