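import Mathlib
import Cfsg.Statements.S0211
import Cfsg.Agent.Lib.Helper4.Dihedral

set_option autoImplicit false
open Cfsg

namespace Cfsg.Agent.S0211

/-- Let x, y be involutions with xy of even order n and z = (xy)^(n/2). Then xz is conjugate to x by an element of the subgroup generated by x, y if and only if 4 divides n. -/
theorem result {G : Type*} [Group G] [Finite G] (x y : G) (hx : orderOf x = 2) (hy : orderOf y = 2) (heven : Even (orderOf (x * y))) : (∃ d ∈ Subgroup.closure ({x, y} : Set G), d * x * d⁻¹ = x * (x * y) ^ (orderOf (x * y) / 2)) ↔ 4 ∣ orderOf (x * y) := by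
  have hx2 := Cfsg.Agent.Lib.Helper4.mul_self_of_orderOf_two hx
  have hy2 := Cfsg.Agent.Lib.Helper4.mul_self_of_orderOf_two hy
  obtain ⟨m, hm⟩ := heven
  have hm2 : orderOf (x * y) / 2 = m := by omega
  rw [hm2]
  constructor
  · rintro ⟨d, hd, hdx⟩
    obtain ⟨j, hj⟩ := Cfsg.Agent.Lib.Helper4.dih_conj hx2 hy2 hd
    rw [hdx] at hj
    have h2 : (x * y) ^ (m : ℤ) = (x * y) ^ (2 * j) := by
      rw [zpow_natCast]; exact mul_left_cancel hj
    rw [zpow_eq_zpow_iff_modEq] at h2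
    have h4 := (Int.ModEq.dvd h2)
    rw [hm] at h4 ⊢
    push_cast at h4
    have h5 : (2 : ℤ) ∣ (m : ℤ) := by
      have : (2 : ℤ) ∣ 2 * j - m := dvd_trans ⟨m, by ring⟩ h4
      omega
    have h6 : 2 ∣ m := by exact_mod_cast h5
    omega
  · intro h4
    obtain ⟨k, hk⟩ : 2 ∣ m := by omega
    refine ⟨(x * y) ^ (k : ℤ), Cfsg.Agent.Lib.Helper4.dih_mem_closure_zpow x y k, ?_⟩
    rw [Cfsg.Agent.Lib.Helper4.dih_conj_zpow hx2 hy2 k, ← zpow_natCast]
    congr 1
    rw [zpow_eq_zpow_iff_modEq, hm, hk]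
    push_cast
    have : (2 * k + 2 * k : ℤ) ∣ (2 * k : ℤ) - (-(2 * k)) := ⟨1, by ring⟩
    exact (Int.modEq_iff_dvd.mpr this)

end Cfsg.Agent.S0211
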