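import Mathlib
import Cfsg.Statements.S0233
import Cfsg.Agent.Lib.Helper4.BrauerFowler

set_option autoImplicit false
open Cfsg

namespace Cfsg.Agent.S0233

open Cfsg.Agent.Lib.Helper4

/-- Let G be a finite group of even order with exactly n involutions whose centre has odd order, and put a = |G|/n. Then G has a proper subgroup H with |G : H| = 2 or |G : H| < a(a+1)/2; over ℕ the latter reads 2·|G:H|·n² < |G|·(|G| + n). -/
theorem result {G : Type*} [Group G] [Finite G] (heven : Even (Nat.card G)) (hZ : Odd (Nat.card (Subgroup.center G))) : ∃ H : Subgroup G, H ≠ ⊤ ∧ (H.index = 2 ∨ 2 * H.index * (Nat.card {t : G // orderOf t = 2}) ^ 2 < Nat.card G * (Nat.card G + Nat.card {t : G // orderOf t = 2})) := by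
  classical
  have := Fintype.ofFinite G
  by_cases h2 : ∃ K : Subgroup G, K.index = 2
  · obtain ⟨K, hK⟩ := h2
    refine ⟨K, ?_, Or.inl hK⟩
    rintro rfl
    rw [Subgroup.index_top] at hK; omega
  push Not at h2
  have hNpos : 0 < Nat.card G := Nat.card_pos
  have hN2 : 2 ≤ Nat.card G := by
    obtain ⟨k, hk⟩ := heven
    omega
  have hbot : (⊥ : Subgroup G) ≠ ⊤ := by
    intro h
    have h1 : Nat.card (⊥ : Subgroup G) = Nat.card (⊤ : Subgroup G) := by rw [h]
    rw [Subgroup.card_bot, Subgroup.card_top] at h1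
    omega
  have hex : ∃ n, ∃ K : Subgroup G, K ≠ ⊤ ∧ K.index = n := ⟨_, ⊥, hbot, rfl⟩
  obtain ⟨H, hH, hHl⟩ := Nat.find_spec hex
  have hmin : ∀ K : Subgroup G, K ≠ ⊤ → H.index ≤ K.index := by
    intro K hK; rw [hHl]; exact Nat.find_min' hex ⟨K, hK, rfl⟩
  have hprop : ∀ K : Subgroup G, K ≠ ⊤ → H.index * Nat.card K ≤ Nat.card G := by
    intro K hK
    rw [← K.index_mul_card]
    exact Nat.mul_le_mul_right _ (hmin K hK)
  refine ⟨H, hH, Or.inr ?_⟩
  rw [← card_invs]
  have hcore := bf_core (G := G)
  have hI : ∀ x ∈ invs G, 2 * H.index * (Nat.card (Subgroup.centralizer ({x} : Set G)) - 2) +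
      4 * H.index ≤ 2 * Nat.card G := by
    intro x hx
    have hx2 := mem_invs.mp hx
    have hC : Subgroup.centralizer ({x} : Set G) ≠ ⊤ := by
      intro h
      have hxc : x ∈ Subgroup.center G := by
        rw [Subgroup.mem_center_iff]
        intro g
        have hg : g ∈ Subgroup.centralizer ({x} : Set G) := by rw [h]; exact Subgroup.mem_top g
        exact (Subgroup.mem_centralizer_iff.mp hg x rfl).symm
      have h3 := orderOf_dvd_natCard (⟨x, hxc⟩ : Subgroup.center G)
      rw [Subgroup.orderOf_mk, hx2] at h3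
      exact (Nat.not_even_iff_odd.mpr hZ) (even_iff_two_dvd.mpr h3)
    have h1 := hprop _ hC
    have h2c : 2 ≤ Nat.card (Subgroup.centralizer ({x} : Set G)) := by
      have hxC : x ∈ Subgroup.centralizer ({x} : Set G) := by
        rw [Subgroup.mem_centralizer_iff]; intro k hk; rw [Set.mem_singleton_iff] at hk; rw [hk]
      have h3 := orderOf_dvd_natCard (⟨x, hxC⟩ : Subgroup.centralizer ({x} : Set G))
      rw [Subgroup.orderOf_mk, hx2] at h3
      exact Nat.le_of_dvd Nat.card_pos h3
    obtain ⟨c', hc'⟩ : ∃ c', Nat.card (Subgroup.centralizer ({x} : Set G)) = c' + 2 :=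
      ⟨Nat.card (Subgroup.centralizer ({x} : Set G)) - 2, by omega⟩
    rw [hc'] at h1 ⊢
    simp only [Nat.add_sub_cancel]
    nlinarith
  have hR : ∀ x ∈ reals G, 2 * H.index * Nat.card (Subgroup.centralizer ({x} : Set G)) ≤
      Nat.card G := by
    intro x hx
    obtain ⟨hx1, hx2, hx3⟩ := mem_reals.mp hx
    have hne : x ≠ x⁻¹ := by
      intro h
      apply hx2
      apply orderOf_eq_prime _ hx1
      rw [pow_two]; nth_rewrite 2 [h]; exact mul_inv_cancel x
    have hcard := card_extCentralizer x hx3 hne
    have hC : extCentralizer x ≠ ⊤ := by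
      intro h
      apply h2 (Subgroup.centralizer ({x} : Set G))
      have h3 := (Subgroup.centralizer ({x} : Set G)).index_mul_card
      have h4 : Nat.card (extCentralizer x) = Nat.card G := by rw [h]; exact Subgroup.card_top
      rw [hcard] at h4
      have hcpos : 0 < Nat.card (Subgroup.centralizer ({x} : Set G)) := Nat.card_pos
      rw [← h4] at h3
      exact Nat.eq_of_mul_eq_mul_right hcpos h3
    have h1 := hprop _ hC
    rw [hcard] at h1
    calc 2 * H.index * Nat.card (Subgroup.centralizer ({x} : Set G))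
        = H.index * (2 * Nat.card (Subgroup.centralizer ({x} : Set G))) := by ring
      _ ≤ Nat.card G := h1
  have hsumI : 2 * H.index *
      ∑ x ∈ invs G, (Nat.card (Subgroup.centralizer ({x} : Set G)) - 2) +
      4 * H.index * (invs G).card ≤ 2 * Nat.card G * (invs G).card := by
    have h3 := Finset.sum_le_sum hI
    rw [Finset.sum_add_distrib, ← Finset.mul_sum, Finset.sum_const, Finset.sum_const,
      smul_eq_mul, smul_eq_mul] at h3
    linarith
  have hsumR : 2 * H.index *
      ∑ x ∈ reals G, Nat.card (Subgroup.centralizer ({x} : Set G)) ≤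
      (reals G).card * Nat.card G := by
    have h3 := Finset.sum_le_sum hR
    rw [← Finset.mul_sum, Finset.sum_const, smul_eq_mul] at h3
    exact h3
  have hcount : (reals G).card + 1 + (invs G).card ≤ Nat.card G := by
    have hd1 : Disjoint (reals G) (invs G) := by
      rw [Finset.disjoint_left]; intro x hx hx'
      exact (mem_reals.mp hx).2.1 (mem_invs.mp hx')
    have hd2 : (1 : G) ∉ reals G ∪ invs G := by
      rw [Finset.mem_union]; rintro (h | h)
      · exact (mem_reals.mp h).1 rfl
      · have h3 := mem_invs.mp h; rw [orderOf_one] at h3; omega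
    have h3 := Finset.card_le_univ (insert (1 : G) (reals G ∪ invs G))
    rw [Finset.card_insert_of_notMem hd2, Finset.card_union_of_disjoint hd1,
      ← Nat.card_eq_fintype_card] at h3
    omega
  have h5 := Nat.mul_le_mul_left (2 * H.index) hcore
  have h6 := Nat.mul_le_mul_left (Nat.card G) hcount
  nlinarith [h5, h6, hsumI, hsumR, hNpos]

end Cfsg.Agent.S0233
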