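import Mathlib
import Cfsg.Statements.S0212
import Cfsg.Agent.S0233
import Cfsg.Agent.Lib.Helper4.SylowTwo

set_option autoImplicit false
open Cfsg

namespace Cfsg.Agent.S0212

open Cfsg.Agent.Lib.Helper4

/-- A simple group embeds in the symmetric group on the cosets of a proper subgroup. -/
lemma card_le_factorial_index {G : Type*} [Group G] [Finite G] [IsSimpleGroup G]
    (H : Subgroup G) (hH : H ≠ ⊤) : Nat.card G ≤ Nat.factorial H.index := by
  have hcore : H.normalCore = ⊥ := by
    rcases IsSimpleGroup.eq_bot_or_eq_top_of_normal H.normalCore inferInstance with h | h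
    · exact h
    · exfalso; apply hH; exact top_le_iff.mp (h ▸ H.normalCore_le)
  rw [Subgroup.normalCore_eq_ker] at hcore
  have hinj : Function.Injective (MulAction.toPermHom G (G ⧸ H)) :=
    (MonoidHom.ker_eq_bot_iff _).mp hcore
  have h1 := Nat.card_le_card_of_injective _ hinj
  rwa [Nat.card_perm] at h1

/-- The Brauer–Fowler bound: if G is a finite simple group and t an involution of G whose centralizer has order n, then |G| ≤ (2n^2)!. -/
theorem result {G : Type*} [Group G] [Finite G] [IsSimpleGroup G] (t : G) (ht : orderOf t = 2) : Nat.card G ≤ Nat.factorial (2 * (Nat.card (Subgroup.centralizer ({t} : Set G))) ^ 2) := by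
  classical
  have := Fintype.ofFinite G
  have heven : Even (Nat.card G) := by
    rw [even_iff_two_dvd, ← ht]; exact orderOf_dvd_natCard t
  have hnpos : 0 < Nat.card (Subgroup.centralizer ({t} : Set G)) := Nat.card_pos
  by_cases hZ : Odd (Nat.card (Subgroup.center G))
  · obtain ⟨H, hH, h | h⟩ := Cfsg.Agent.S0233.result heven hZ
    · have h1 := card_le_factorial_index H hH
      rw [h] at h1
      exact h1.trans (Nat.factorial_le (by nlinarith))
    · have h1 := card_le_factorial_index H hH
      have hidx : H.index ≤ 2 * Nat.card (Subgroup.centralizer ({t} : Set G)) ^ 2 := by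
        rw [← card_invs] at h
        have hNm : Nat.card G ≤ (invs G).card * Nat.card (Subgroup.centralizer ({t} : Set G)) := by
          rw [card_class_mul_card_centralizer t]
          apply Nat.mul_le_mul_right
          apply Finset.card_le_card
          intro t' ht'
          obtain ⟨d, hd⟩ := isConj_iff.mp (Finset.mem_filter.mp ht').2
          rw [mem_invs, ← hd, orderOf_conj', ht]
        have h2 : Nat.card G * (Nat.card G + (invs G).card) ≤
            (invs G).card * Nat.card (Subgroup.centralizer ({t} : Set G)) *
              ((invs G).card * Nat.card (Subgroup.centralizer ({t} : Set G)) + (invs G).card) :=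
          Nat.mul_le_mul hNm (by omega)
        have h3 : 2 * H.index * (invs G).card ^ 2 < (invs G).card ^ 2 *
            (Nat.card (Subgroup.centralizer ({t} : Set G)) *
              (Nat.card (Subgroup.centralizer ({t} : Set G)) + 1)) := by
          calc 2 * H.index * (invs G).card ^ 2
              < Nat.card G * (Nat.card G + (invs G).card) := h
            _ ≤ _ := h2
            _ = _ := by ring
        have h4 : 2 * H.index < Nat.card (Subgroup.centralizer ({t} : Set G)) *
            (Nat.card (Subgroup.centralizer ({t} : Set G)) + 1) := by
          by_contra hcon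
          push Not at hcon
          have h5 := Nat.mul_le_mul_left ((invs G).card ^ 2) hcon
          nlinarith
        nlinarith
      exact h1.trans (Nat.factorial_le hidx)
  · rw [Nat.not_odd_iff_even] at hZ
    have hcen : Subgroup.center G = ⊤ := by
      rcases IsSimpleGroup.eq_bot_or_eq_top_of_normal (Subgroup.center G) inferInstance with h | h
      · exfalso; rw [h, Subgroup.card_bot] at hZ; exact absurd hZ (by decide)
      · exact h
    have hC : Subgroup.centralizer ({t} : Set G) = ⊤ := by
      rw [eq_top_iff]; intro g _
      rw [Subgroup.mem_centralizer_iff]; intro k hk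
      have hg : g ∈ Subgroup.center G := by rw [hcen]; exact Subgroup.mem_top g
      exact (Subgroup.mem_center_iff.mp hg k)
    rw [hC, Subgroup.card_top]
    exact (Nat.self_le_factorial _).trans (Nat.factorial_le (by nlinarith))

end Cfsg.Agent.S0212
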