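import Mathlib
import Cfsg.Statements.S0216
import Cfsg.Agent.Lib.Helper4.SylowTwo

set_option autoImplicit false
open Cfsg

namespace Cfsg.Agent.S0216

/-- For an involution u in a Sylow 2-subgroup P of a finite group G, the following are equivalent: no G-conjugate of u other than u lies in P; every commutator of u with an element of G has odd order. -/
theorem result {G : Type*} [Group G] [Finite G] (P : Sylow 2 G) (u : G) (hu : orderOf u = 2) (huP : u ∈ P) : (∀ g : G, g * u * g⁻¹ ∈ P → g * u * g⁻¹ = u) ↔ (∀ g : G, Odd (orderOf (u * g * u⁻¹ * g⁻¹))) := by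
  have hui := Cfsg.Agent.Lib.Helper4.inv_eq_self_of_orderOf_two hu
  have hcomm : ∀ g : G, u * g * u⁻¹ * g⁻¹ = u * (g * u * g⁻¹) := by
    intro g; rw [hui]; group
  constructor
  · intro hiso g
    rw [hcomm]
    exact Cfsg.Agent.Lib.Helper4.isolated_mul_conj_odd P hu hiso g
  · intro hodd g hg
    have h1 := hodd g
    rw [hcomm] at h1
    have hw : u * (g * u * g⁻¹) ∈ (P : Subgroup G) := (P : Subgroup G).mul_mem huP hg
    obtain ⟨k, hk⟩ := P.2 ⟨_, hw⟩
    have hk' : (u * (g * u * g⁻¹)) ^ 2 ^ k = 1 := congrArg Subtype.val hk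
    have hdvd := orderOf_dvd_of_pow_eq_one hk'
    have h1' : orderOf (u * (g * u * g⁻¹)) = 1 := by
      obtain ⟨i, -, hi⟩ := (Nat.dvd_prime_pow Nat.prime_two).mp hdvd
      rw [hi] at h1 ⊢
      rcases Nat.eq_zero_or_pos i with h0 | hpos
      · rw [h0, pow_zero]
      · exfalso
        exact (Nat.not_odd_iff_even.mpr (Nat.even_pow.mpr ⟨even_two, hpos.ne'⟩)) h1
    have h2 : u * (g * u * g⁻¹) = 1 := orderOf_eq_one_iff.mp h1'
    have h3 := eq_inv_of_mul_eq_one_right h2
    rw [hui] at h3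
    exact h3

end Cfsg.Agent.S0216
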