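import Mathlib
import Cfsg.Statements.S0220
import Cfsg.Agent.S0219

set_option autoImplicit false
open Cfsg

namespace Cfsg.Agent.S0220

lemma aux {G : Type*} [Group G] [Finite G] (x : G) (hx : orderOf x = 2) (C : Subgroup G)
    (hmemC : ∀ g : G, g ∈ C ↔ x * g = g * x) (S : Sylow 2 ↥C)
    (hS : IsCyclic (S : Subgroup ↥C)) : ∃ H : Subgroup G, H.index = 2 := by
  classical
  have hxC : x ∈ C := (hmemC x).mpr rfl
  let x' : C := ⟨x, hxC⟩
  have hx' : orderOf x' = 2 := by rw [← hx]; exact Subgroup.orderOf_mk x hxC
  have hcen : ∀ c : C, c * x' = x' * c := by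
    intro c; apply Subtype.ext; exact ((hmemC c.1).mp c.2).symm
  -- step 1: x' ∈ S
  have hnorm : (Subgroup.zpowers x').Normal := by
    constructor
    intro y hy c
    obtain ⟨k, rfl⟩ := Subgroup.mem_zpowers_iff.mp hy
    have : c * x' ^ k * c⁻¹ = x' ^ k := by
      have hck : Commute c (x' ^ k) := (show Commute c x' from hcen c).zpow_right k
      rw [hck.eq, mul_inv_cancel_right]
    rw [this]; exact Subgroup.zpow_mem_zpowers x' k
  have hpz : IsPGroup 2 (Subgroup.zpowers x') :=
    IsPGroup.of_card (n := 1) (by rw [Nat.card_zpowers, hx', pow_one])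
  have hsup : IsPGroup 2 ↥((S : Subgroup C) ⊔ Subgroup.zpowers x') :=
    IsPGroup.to_sup_of_normal_right S.2 hpz
  have hxS : x' ∈ (S : Subgroup C) := by
    have h1 : (S : Subgroup C) ⊔ Subgroup.zpowers x' = S := S.is_maximal' hsup le_sup_left
    rw [← h1]
    exact Subgroup.mem_sup_right (Subgroup.mem_zpowers x')
  -- step 2: a Sylow subgroup T of G containing the image of S
  obtain ⟨T, hT⟩ := (S.2.map C.subtype).exists_le_sylow
  have hxT : x ∈ (T : Subgroup G) := hT ⟨x', hxS, rfl⟩
  -- step 3: T ⊓ C = S
  have hTC : (T : Subgroup G).subgroupOf C = S := by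
    apply S.is_maximal' (T.2.comap_subtype)
    intro s hs
    show (s : G) ∈ (T : Subgroup G)
    exact hT ⟨s, hs, rfl⟩
  -- step 4: a central involution z of T
  have hnt : Nontrivial ↥(T : Subgroup G) := ⟨⟨⟨x, hxT⟩, 1, by
    intro h
    have : x = 1 := congrArg Subtype.val h
    rw [this, orderOf_one] at hx; omega⟩⟩
  have hcn : Nontrivial (Subgroup.center ↥(T : Subgroup G)) := T.2.center_nontrivial
  have hcp : IsPGroup 2 (Subgroup.center ↥(T : Subgroup G)) := (T.2).to_subgroup _
  obtain ⟨k, hk⟩ := IsPGroup.iff_card.mp hcp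
  have h2dvd : 2 ∣ Nat.card (Subgroup.center ↥(T : Subgroup G)) := by
    rw [hk]
    have hk0 : k ≠ 0 := by
      rintro rfl
      rw [pow_zero] at hk
      have := Finite.one_lt_card (α := Subgroup.center ↥(T : Subgroup G))
      omega
    exact dvd_pow_self 2 hk0
  obtain ⟨z, hz⟩ := exists_prime_orderOf_dvd_card' 2 h2dvd
  set zG : G := ((z : ↥(T : Subgroup G)) : G) with hzG
  have hzG2 : orderOf zG = 2 := by
    rw [hzG, Subgroup.orderOf_coe, Subgroup.orderOf_coe]; exact hz
  have hzT : zG ∈ (T : Subgroup G) := (z : ↥(T : Subgroup G)).2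
  have hzcomm : ∀ t ∈ (T : Subgroup G), t * zG = zG * t := by
    intro t ht
    have := Subgroup.mem_center_iff.mp z.2 ⟨t, ht⟩
    exact congrArg Subtype.val this
  have hzC : zG ∈ C := (hmemC zG).mpr (hzcomm x hxT)
  have hzS : (⟨zG, hzC⟩ : C) ∈ (S : Subgroup C) := by
    rw [← hTC, Subgroup.mem_subgroupOf]; exact hzT
  -- step 5: the cyclic group S has a unique involution
  have hzx : zG = x := by
    by_contra hne
    have : Fintype ↥(S : Subgroup C) := Fintype.ofFinite _
    have hle := IsCyclic.card_pow_eq_one_le (α := ↥(S : Subgroup C)) (n := 2) (by norm_num)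
    let a : ↥(S : Subgroup C) := ⟨x', hxS⟩
    let b : ↥(S : Subgroup C) := ⟨⟨zG, hzC⟩, hzS⟩
    have ha : a ^ 2 = 1 := by
      apply Subtype.ext; apply Subtype.ext
      show x ^ 2 = 1
      rw [← hx]; exact pow_orderOf_eq_one x
    have hb : b ^ 2 = 1 := by
      apply Subtype.ext; apply Subtype.ext
      show zG ^ 2 = 1
      rw [← hzG2]; exact pow_orderOf_eq_one zG
    have ha1 : a ≠ 1 := by
      intro h
      have : x = 1 := congrArg (fun s : ↥(S : Subgroup C) => ((s : C) : G)) h
      rw [this, orderOf_one] at hx; omega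
    have hb1 : b ≠ 1 := by
      intro h
      have : zG = 1 := congrArg (fun s : ↥(S : Subgroup C) => ((s : C) : G)) h
      rw [this, orderOf_one] at hzG2; omega
    have hab : a ≠ b := by
      intro h
      apply hne
      exact (congrArg (fun s : ↥(S : Subgroup C) => ((s : C) : G)) h).symm
    have hsub : ({1, a, b} : Finset ↥(S : Subgroup C)) ⊆
        Finset.univ.filter (fun s => s ^ 2 = 1) := by
      intro s hs
      simp only [Finset.mem_insert, Finset.mem_singleton] at hs
      simp only [Finset.mem_filter, Finset.mem_univ, true_and]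
      rcases hs with rfl | rfl | rfl
      · exact one_pow 2
      · exact ha
      · exact hb
    have hcard : ({1, a, b} : Finset ↥(S : Subgroup C)).card = 3 := by
      rw [Finset.card_insert_of_notMem, Finset.card_insert_of_notMem, Finset.card_singleton]
      · simpa using hab
      · simp only [Finset.mem_insert, Finset.mem_singleton, not_or]
        exact ⟨ha1.symm, hb1.symm⟩
    have := Finset.card_le_card hsub
    omega
  -- step 6: T ≤ C, hence T is the image of S
  have hTleC : (T : Subgroup G) ≤ C := by
    intro t ht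
    rw [hmemC, ← hzx]; exact (hzcomm t ht).symm
  have hTeq : (T : Subgroup G) = (S : Subgroup C).map C.subtype := by
    rw [← hTC, Subgroup.subgroupOf_map_subtype]
    exact (inf_eq_left.mpr hTleC).symm
  have hTcyc : IsCyclic ↥(T : Subgroup G) := by
    rw [hTeq]
    exact isCyclic_of_surjective (C.subtype.subgroupMap (S : Subgroup C))
      (MonoidHom.subgroupMap_surjective _ _)
  have heven : Even (Nat.card G) := by
    rw [even_iff_two_dvd, ← hx]; exact orderOf_dvd_natCard x
  exact Cfsg.Agent.S0219.result heven T hTcyc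


/-- If x is an involution of a finite group G and a Sylow 2-subgroup of the centralizer of x is cyclic, then G has a subgroup of index 2; in particular G is not simple unless it has order 2. -/
theorem result {G : Type*} [Group G] [Finite G] (x : G) (hx : orderOf x = 2) (S : Sylow 2 ↥(Subgroup.centralizer ({x} : Set G))) (hS : IsCyclic (S : Subgroup ↥(Subgroup.centralizer ({x} : Set G)))) : ∃ H : Subgroup G, H.index = 2 := by
  apply aux x hx (Subgroup.centralizer ({x} : Set G)) ?_ S hS
  intro g
  rw [Subgroup.mem_centralizer_iff]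
  constructor
  · intro h; exact h x rfl
  · intro h k hk; rw [Set.mem_singleton_iff] at hk; rw [hk]; exact h

end Cfsg.Agent.S0220
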