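import Mathlib
import Cfsg.Statements.S0221
import Cfsg.Agent.Lib.Helper4.TwoRank
import Cfsg.Agent.S0111

set_option autoImplicit false
open Cfsg

namespace Cfsg.Agent.S0221

/-- Let G be a finite group with no subgroup of index 2 whose 2-rank is at least 3 (it contains an elementary abelian subgroup of order 8). Then the centralizer of every involution of G also contains an elementary abelian subgroup of order 8. -/
theorem result {G : Type*} [Group G] [Finite G] (hno : ∀ H : Subgroup G, H.index ≠ 2) (hrank : ∃ E : Subgroup G, Nat.card E = 8 ∧ ∀ e ∈ E, e ^ 2 = 1) (x : G) (hx : orderOf x = 2) : ∃ E : Subgroup G, E ≤ Subgroup.centralizer ({x} : Set G) ∧ Nat.card E = 8 ∧ ∀ e ∈ E, e ^ 2 = 1 := by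
  classical
  have h2 : Fact (Nat.Prime 2) := ⟨Nat.prime_two⟩
  obtain ⟨E₀, hE₀8, hE₀2⟩ := hrank
  have hE₀2' : ∀ e ∈ E₀, e * e = 1 := fun e he => by rw [← pow_two]; exact hE₀2 e he
  have hE₀p : IsPGroup 2 E₀ := IsPGroup.of_card (n := 3) (by rw [hE₀8]; norm_num)
  obtain ⟨Q, hE₀Q⟩ := hE₀p.exists_le_sylow
  have hxp : IsPGroup 2 (Subgroup.zpowers x) :=
    IsPGroup.of_card (n := 1) (by rw [Nat.card_zpowers, hx]; norm_num)
  obtain ⟨Q', hxQ'⟩ := hxp.exists_le_sylow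
  obtain ⟨d, hd⟩ := MulAction.exists_smul_eq G Q' Q
  have hx₁Q : d * x * d⁻¹ ∈ (Q : Subgroup G) := by
    rw [← hd, Sylow.coe_subgroup_smul]
    have := Subgroup.smul_mem_pointwise_smul x (MulAut.conj d) (Q' : Subgroup G)
      (hxQ' (Subgroup.mem_zpowers x))
    simpa using this
  have hx₁ : orderOf (d * x * d⁻¹) = 2 := by
    have := (MulAut.conj d).orderOf_eq x
    rw [MulAut.conj_apply] at this
    rw [this, hx]
  obtain ⟨c, K, hK, hK8, hK2⟩ := Cfsg.Agent.Lib.Helper4.two_rank_three_sylow hno Q E₀ hE₀Q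
    hE₀8 hE₀2' (d * x * d⁻¹) hx₁ hx₁Q
    (fun M hM hrel hxM => Cfsg.Agent.S0111.result Q M hM hrel _ hx₁ hx₁Q hxM)
  have hK' : K ≤ Subgroup.centralizer ({(c * d) * x * (c * d)⁻¹} : Set G) := by
    have : (c * d) * x * (c * d)⁻¹ = c * (d * x * d⁻¹) * c⁻¹ := by group
    rw [this]; exact hK
  obtain ⟨K', hK'c, hK'8, hK'2⟩ := Cfsg.Agent.Lib.Helper4.conj_back (c * d) x K hK' hK8 hK2
  exact ⟨K', hK'c, hK'8, fun e he => by rw [pow_two]; exact hK'2 e he⟩

end Cfsg.Agent.S0221
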