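import Mathlib
import Cfsg.Statements.S0226

set_option autoImplicit false
open Cfsg

namespace Cfsg.Agent.S0226

/-- A finite group of even order has an odd number of involutions. -/
theorem result {G : Type*} [Group G] [Finite G] (heven : Even (Nat.card G)) : Odd (Nat.card {t : G // orderOf t = 2}) := by
  classical
  have := Fintype.ofFinite G
  let f : Function.End G := fun g => g⁻¹
  have hf : f ^ 2 ^ 1 = 1 := by
    rw [pow_one, pow_two]; funext g; exact inv_inv g
  have h := Equiv.Perm.card_fixedPoints_modEq (α := G) (f := f) (p := 2) (n := 1) hf
  have hfix : Fintype.card (Function.fixedPoints f) =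
      Nat.card {t : G // orderOf t = 2} + 1 := by
    rw [← Nat.card_eq_fintype_card]
    have e : (Function.fixedPoints f) ≃ Option {t : G // orderOf t = 2} :=
      { toFun := fun g => if hg : (g : G) = 1 then none else some ⟨g, by
            have h2 : (g : G)⁻¹ = g := g.2
            have h3 : (g : G) ^ 2 = 1 := by rw [pow_two]; nth_rewrite 1 [← h2]; simp
            exact orderOf_eq_prime h3 hg⟩
        invFun := fun o => match o with
          | none => ⟨1, inv_one⟩
          | some t => ⟨t.1, by
              have h3 : (t.1 : G) ^ 2 = 1 := by
                have := pow_orderOf_eq_one (t.1 : G); rwa [t.2] at this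
              show (t.1 : G)⁻¹ = t.1
              rw [inv_eq_iff_mul_eq_one, ← pow_two]; exact h3⟩
        left_inv := by
          intro g
          by_cases hg : (g : G) = 1
          · simp [hg]; ext; simp [hg]
          · simp [hg]
        right_inv := by
          intro o
          cases o with
          | none => simp
          | some t =>
            have : (t.1 : G) ≠ 1 := by
              intro h1
              have := t.2
              rw [h1, orderOf_one] at this
              omega
            simp [this] }
    rw [Nat.card_congr e, Nat.card_eq_fintype_card, Fintype.card_option, Nat.card_eq_fintype_card]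
  rw [hfix, ← Nat.card_eq_fintype_card] at h
  have h2 : (Nat.card {t : G // orderOf t = 2} + 1) % 2 = 0 := by
    rw [← h]; exact Nat.even_iff.mp heven
  rw [Nat.odd_iff]; omega

end Cfsg.Agent.S0226
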