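import Mathlib
import Cfsg.Statements.S0229
import Cfsg.Agent.Lib.Helper4.SylowTwo

set_option autoImplicit false
open Cfsg

namespace Cfsg.Agent.S0229

/-- Let t be an involution of a Sylow 2-subgroup S of a finite group G, conjugate in G to no other element of S, and let s be an involution of G not conjugate to t. Then the order of st is twice an odd number. -/
theorem result {G : Type*} [Group G] [Finite G] (S : Sylow 2 G) (t : G) (ht : orderOf t = 2) (htS : t ∈ S) (hiso : ∀ g : G, g * t * g⁻¹ ∈ S → g * t * g⁻¹ = t) (s : G) (hs : orderOf s = 2) (hns : ¬ IsConj s t) : orderOf (s * t) % 4 = 2 := by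
  have heven : Even (orderOf (s * t)) := by
    by_contra hodd
    rw [Nat.not_even_iff_odd] at hodd
    obtain ⟨d, hd⟩ := Cfsg.Agent.Lib.Helper4.dih_conj_of_odd hs ht hodd
    exact hns (isConj_iff.mpr ⟨d, hd⟩)
  have hts : orderOf (t * s) = orderOf (s * t) := by
    have := Cfsg.Agent.Lib.Helper4.orderOf_conj' t (s * t)
    rw [← this]
    congr 1
    rw [Cfsg.Agent.Lib.Helper4.inv_eq_self_of_orderOf_two ht, mul_assoc, mul_assoc,
      Cfsg.Agent.Lib.Helper4.mul_self_of_orderOf_two ht, mul_one]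
  have h4 : ¬ 4 ∣ orderOf (s * t) := by
    intro h4
    rw [← hts] at h4 heven
    obtain ⟨hz2, hzt, -⟩ := Cfsg.Agent.Lib.Helper4.dih_center ht hs heven
    obtain ⟨d, hd⟩ := Cfsg.Agent.Lib.Helper4.dih_xz_conj_of_four_dvd ht hs h4
    exact Cfsg.Agent.Lib.Helper4.isolated_aux S ht hiso hz2 hzt.symm hd
  obtain ⟨m, hm⟩ := heven
  omega

end Cfsg.Agent.S0229
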