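import Mathlib
import Cfsg.Statements.S0230
import Cfsg.Agent.Lib.Helper4.SylowTwo

set_option autoImplicit false
open Cfsg

namespace Cfsg.Agent.S0230

lemma card_conj_fiber {G : Type*} [Group G] [Fintype G] [DecidableEq G] (t y : G)
    (h : IsConj t y) :
    (Finset.univ.filter (fun g : G => g * t * g⁻¹ = y)).card =
      Nat.card (Subgroup.centralizer ({t} : Set G)) := by
  obtain ⟨c, hc⟩ := isConj_iff.mp h
  rw [← Nat.card_eq_finsetCard]
  symm
  refine Nat.card_congr ?_
  refine
    { toFun := fun z => ⟨c * z.1, ?_⟩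
      invFun := fun g => ⟨c⁻¹ * g.1, ?_⟩
      left_inv := fun z => by simp
      right_inv := fun g => by simp }
  · have hz : t * (z : G) = z * t := Subgroup.mem_centralizer_iff.mp z.2 t rfl
    rw [Finset.mem_filter]
    refine ⟨Finset.mem_univ _, ?_⟩
    rw [← hc, mul_assoc c, ← hz]; group
  · have hg : (g : G) * t * (g : G)⁻¹ = y := (Finset.mem_filter.mp g.2).2
    rw [Subgroup.mem_centralizer_iff]
    intro k hk
    rw [Set.mem_singleton_iff] at hk
    rw [hk]
    have h1 : (g : G) * t = y * g := mul_inv_eq_iff_eq_mul.mp hg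
    have h2 : c * t = y * c := mul_inv_eq_iff_eq_mul.mp hc
    have h3 : c⁻¹ * y = t * c⁻¹ := by
      rw [inv_mul_eq_iff_eq_mul, ← mul_assoc, h2, mul_inv_cancel_right]
    rw [mul_assoc, h1, ← mul_assoc, ← mul_assoc, h3]

/-- Let G be a finite group with two non-conjugate involutions, and let t be an involution whose centralizer has maximal order among centralizers of involutions. Then |G| < |C_G(t)|^3. -/
theorem result {G : Type*} [Group G] [Finite G] (s t : G) (hs : orderOf s = 2) (ht : orderOf t = 2) (hnc : ¬ IsConj s t) (hmax : ∀ u : G, orderOf u = 2 → Nat.card (Subgroup.centralizer ({u} : Set G)) ≤ Nat.card (Subgroup.centralizer ({t} : Set G))) : Nat.card G < Nat.card (Subgroup.centralizer ({t} : Set G)) ^ 3 := by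
  classical
  have := Fintype.ofFinite G
  have hcpos : 0 < Nat.card (Subgroup.centralizer ({t} : Set G)) := Nat.card_pos
  let K : Finset G := Finset.univ.filter (fun t' => IsConj t t')
  let Z : Finset G := Finset.univ.filter
    (fun z => orderOf z = 2 ∧ z ∈ Subgroup.centralizer ({s} : Set G))
  let A : G → Finset G := fun z =>
    Finset.univ.filter (fun g => g ∈ Subgroup.centralizer ({z} : Set G))
  have hA : ∀ z, (A z).card = Nat.card (Subgroup.centralizer ({z} : Set G)) := by
    intro z
    rw [← Nat.card_eq_finsetCard]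
    exact Nat.card_congr (Equiv.subtypeEquivRight (by intro g; simp [A]))
  have hG : Nat.card G = K.card * Nat.card (Subgroup.centralizer ({t} : Set G)) := by
    rw [Nat.card_eq_fintype_card, ← Finset.card_univ,
      Finset.card_eq_sum_card_fiberwise (f := fun g : G => g * t * g⁻¹) (t := K)]
    · rw [Finset.sum_congr rfl (fun y hy => card_conj_fiber t y (Finset.mem_filter.mp hy).2),
        Finset.sum_const, smul_eq_mul]
    · intro g _
      simp only [K, Finset.coe_filter, Finset.mem_univ, true_and, Set.mem_ofPred_eq]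
      exact isConj_iff.mpr ⟨g, rfl⟩
  have hsub : K ⊆ Z.biUnion A := by
    intro t' ht'
    have hconj : IsConj t t' := (Finset.mem_filter.mp ht').2
    have ht'2 : orderOf t' = 2 := by
      obtain ⟨d, hd⟩ := isConj_iff.mp hconj
      rw [← hd, Cfsg.Agent.Lib.Helper4.orderOf_conj', ht]
    have hnc' : ¬ IsConj s t' := fun h => hnc (h.trans hconj.symm)
    have heven : Even (orderOf (s * t')) := by
      by_contra hodd
      rw [Nat.not_even_iff_odd] at hodd
      obtain ⟨d, hd⟩ := Cfsg.Agent.Lib.Helper4.dih_conj_of_odd hs ht'2 hodd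
      exact hnc' (isConj_iff.mpr ⟨d, hd⟩)
    obtain ⟨hz2, hzs, hzt⟩ := Cfsg.Agent.Lib.Helper4.dih_center hs ht'2 heven
    rw [Finset.mem_biUnion]
    refine ⟨(s * t') ^ (orderOf (s * t') / 2), ?_, ?_⟩
    · simp only [Z, Finset.mem_filter, Finset.mem_univ, true_and]
      refine ⟨hz2, ?_⟩
      rw [Subgroup.mem_centralizer_iff]
      intro k hk
      rw [Set.mem_singleton_iff] at hk
      rw [hk]; exact hzs.eq.symm
    · simp only [A, Finset.mem_filter, Finset.mem_univ, true_and]
      rw [Subgroup.mem_centralizer_iff]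
      intro k hk
      rw [Set.mem_singleton_iff] at hk
      rw [hk]; exact hzt.eq
  have h1 : K.card ≤ Z.card * Nat.card (Subgroup.centralizer ({t} : Set G)) := by
    calc K.card ≤ (Z.biUnion A).card := Finset.card_le_card hsub
      _ ≤ ∑ z ∈ Z, (A z).card := Finset.card_biUnion_le
      _ ≤ ∑ z ∈ Z, Nat.card (Subgroup.centralizer ({t} : Set G)) :=
          Finset.sum_le_sum (fun z hz => by
            rw [hA z]; exact hmax z (Finset.mem_filter.mp hz).2.1)
      _ = Z.card * Nat.card (Subgroup.centralizer ({t} : Set G)) := by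
          rw [Finset.sum_const, smul_eq_mul]
  have h2 : Z.card < Nat.card (Subgroup.centralizer ({t} : Set G)) := by
    have hZsub : Z ⊆ (A s).erase 1 := by
      intro z hz
      have hz' := (Finset.mem_filter.mp hz).2
      rw [Finset.mem_erase]
      refine ⟨Cfsg.Agent.Lib.Helper4.ne_one_of_orderOf_two hz'.1, ?_⟩
      simp only [A, Finset.mem_filter, Finset.mem_univ, true_and]
      exact hz'.2
    have h1mem : (1 : G) ∈ A s := by
      simp only [A, Finset.mem_filter, Finset.mem_univ, true_and]
      exact Subgroup.one_mem _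
    have h3 := Finset.card_le_card hZsub
    rw [Finset.card_erase_of_mem h1mem, hA s] at h3
    have hs_le := hmax s hs
    have hpos : 0 < Nat.card (Subgroup.centralizer ({s} : Set G)) := Nat.card_pos
    omega
  rw [hG]
  calc K.card * Nat.card (Subgroup.centralizer ({t} : Set G))
      ≤ Z.card * Nat.card (Subgroup.centralizer ({t} : Set G)) *
          Nat.card (Subgroup.centralizer ({t} : Set G)) := Nat.mul_le_mul_right _ h1
    _ < Nat.card (Subgroup.centralizer ({t} : Set G)) *
          Nat.card (Subgroup.centralizer ({t} : Set G)) *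
          Nat.card (Subgroup.centralizer ({t} : Set G)) :=
        Nat.mul_lt_mul_of_pos_right (Nat.mul_lt_mul_of_pos_right h2 hcpos) hcpos
    _ = Nat.card (Subgroup.centralizer ({t} : Set G)) ^ 3 := by ring

end Cfsg.Agent.S0230
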