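import Mathlib
import Cfsg.Statements.S0231
import Cfsg.Agent.Lib.Helper4.SylowTwo

set_option autoImplicit false
open scoped Pointwise
open Cfsg

namespace Cfsg.Agent.S0231

/-- Let T be a Sylow 2-subgroup of the finite group G which is not normal and which intersects every other Sylow 2-subgroup trivially. Then G has a single conjugacy class of involutions. -/
theorem result {G : Type*} [Group G] [Finite G] (T : Sylow 2 G) (hnn : ¬ (T : Subgroup G).Normal) (hTI : ∀ g : G, MulAut.conj g • (T : Subgroup G) ≠ T → MulAut.conj g • (T : Subgroup G) ⊓ T = ⊥) (s t : G) (hs : orderOf s = 2) (ht : orderOf t = 2) : IsConj s t := by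
  have hTI' : ∀ Q₁ Q₂ : Sylow 2 G, ∀ z : G, z ≠ 1 → z ∈ Q₁ → z ∈ Q₂ → Q₁ = Q₂ := by
    intro Q₁ Q₂ z hz1 hzQ₁ hzQ₂
    obtain ⟨a, rfl⟩ := MulAction.exists_smul_eq G T Q₁
    obtain ⟨b, rfl⟩ := MulAction.exists_smul_eq G T Q₂
    rw [Cfsg.Agent.Lib.Helper4.mem_sylow_smul_iff] at hzQ₁ hzQ₂
    have hg : MulAut.conj (a⁻¹ * b) • (T : Subgroup G) = T := by
      by_contra hne
      have hbot := hTI (a⁻¹ * b) hne
      have hmem : a⁻¹ * z * a ∈ MulAut.conj (a⁻¹ * b) • (T : Subgroup G) ⊓ T := by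
        refine Subgroup.mem_inf.mpr ⟨?_, hzQ₁⟩
        rw [Cfsg.Agent.Lib.Helper4.mem_conj_smul_iff]
        have : (a⁻¹ * b)⁻¹ * (a⁻¹ * z * a) * (a⁻¹ * b) = b⁻¹ * z * b := by group
        rw [this]; exact hzQ₂
      rw [hbot, Subgroup.mem_bot] at hmem
      apply hz1
      have : z = a * (a⁻¹ * z * a) * a⁻¹ := by group
      rw [this, hmem]; group
    have hg' : (a⁻¹ * b) • T = T := Sylow.ext hg
    rw [mul_smul, inv_smul_eq_iff] at hg'
    exact hg'.symm
  have hexg : ∃ g : G, MulAut.conj g • (T : Subgroup G) ≠ T := by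
    by_contra h
    push Not at h
    apply hnn
    constructor
    intro n hn g
    rw [← h g, Cfsg.Agent.Lib.Helper4.mem_conj_smul_iff]
    have : g⁻¹ * (g * n * g⁻¹) * g = n := by group
    rw [this]; exact hn
  have hT_ne : (T : Subgroup G) ≠ ⊥ := by
    intro h; apply hnn; rw [h]; infer_instance
  obtain ⟨r₀, hr₀T, hr₀⟩ := Cfsg.Agent.Lib.Helper4.exists_involution_of_sylow_ne_bot T hT_ne
  have claimA : ∀ a b : G, orderOf a = 2 → orderOf b = 2 → ¬ IsConj a b →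
      ∃ Q : Sylow 2 G, a ∈ Q ∧ b ∈ Q := by
    intro a b ha hb hab
    have heven : Even (orderOf (a * b)) := by
      by_contra hodd
      rw [Nat.not_even_iff_odd] at hodd
      obtain ⟨d, hd⟩ := Cfsg.Agent.Lib.Helper4.dih_conj_of_odd ha hb hodd
      exact hab (isConj_iff.mpr ⟨d, hd⟩)
    obtain ⟨hz2, hza, hzb⟩ := Cfsg.Agent.Lib.Helper4.dih_center ha hb heven
    have ha2 := Cfsg.Agent.Lib.Helper4.mul_self_of_orderOf_two ha
    have hb2 := Cfsg.Agent.Lib.Helper4.mul_self_of_orderOf_two hb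
    have hzz := Cfsg.Agent.Lib.Helper4.mul_self_of_orderOf_two hz2
    obtain ⟨Q₁, haQ, hzQ₁⟩ := Cfsg.Agent.Lib.Helper4.exists_sylow_two_mem_pair ha2 hzz hza.symm
    obtain ⟨Q₂, hbQ, hzQ₂⟩ := Cfsg.Agent.Lib.Helper4.exists_sylow_two_mem_pair hb2 hzz hzb.symm
    have := hTI' Q₁ Q₂ _ (Cfsg.Agent.Lib.Helper4.ne_one_of_orderOf_two hz2) hzQ₁ hzQ₂
    exact ⟨Q₁, haQ, this ▸ hbQ⟩
  by_contra hns
  obtain ⟨Q, hsQ, htQ⟩ := claimA s t hs ht hns
  obtain ⟨a, rfl⟩ := MulAction.exists_smul_eq G T Q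
  obtain ⟨g, hg⟩ := hexg
  have hne : (a * g) • T ≠ a • T := by
    intro h
    apply hg
    rw [mul_smul] at h
    have h' : g • T = T := smul_left_cancel a h
    have := congrArg (fun Q : Sylow 2 G => (Q : Subgroup G)) h'
    exact this
  have hr : (a * g) * r₀ * (a * g)⁻¹ ∈ (a * g) • T := by
    rw [Cfsg.Agent.Lib.Helper4.mem_sylow_smul_iff]
    have : (a * g)⁻¹ * ((a * g) * r₀ * (a * g)⁻¹) * (a * g) = r₀ := by group
    rw [this]; exact hr₀T
  have hr2 : orderOf ((a * g) * r₀ * (a * g)⁻¹) = 2 := by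
    rw [Cfsg.Agent.Lib.Helper4.orderOf_conj', hr₀]
  have key : ∀ w : G, orderOf w = 2 → w ∈ a • T → IsConj w ((a * g) * r₀ * (a * g)⁻¹) := by
    intro w hw hwQ
    by_contra hnc
    obtain ⟨Q'', hw'', hr''⟩ := claimA w _ hw hr2 hnc
    have e1 := hTI' Q'' (a • T) w (Cfsg.Agent.Lib.Helper4.ne_one_of_orderOf_two hw) hw'' hwQ
    have e2 := hTI' Q'' ((a * g) • T) _ (Cfsg.Agent.Lib.Helper4.ne_one_of_orderOf_two hr2) hr'' hr
    exact hne (e2.symm.trans e1)
  exact hns ((key s hs hsQ).trans (key t ht htQ).symm)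

end Cfsg.Agent.S0231
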