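import Mathlib
import Cfsg.Statements.S0232
import Cfsg.Agent.Lib.Helper4.BrauerFowler
import Cfsg.Agent.Lib.Helper4.SylowTwo
import Cfsg.Agent.S0219

set_option autoImplicit false
open Cfsg

namespace Cfsg.Agent.S0232

open Cfsg.Agent.Lib.Helper4

lemma arith_contra (N m c d r S1 S2 : ℤ) (hd0 : 0 ≤ d) (hcore : m * m ≤ m + S1 + S2)
    (hS1 : S1 + 2 * m ≤ m * c) (hS2 : S2 ≤ r * d) (hr : r + 1 + m ≤ N) (h2 : N ≤ m * c)
    (h3 : c ^ 3 ≤ N) (h4 : 8 * d ^ 3 ≤ N) (hc : 2 ≤ c) (hm : 1 ≤ m) : False := by
  have e1 : r * d ≤ (N - 1 - m) * d := mul_le_mul_of_nonneg_right (by linarith) hd0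
  have e2 : N * d ≤ m * c * d := mul_le_mul_of_nonneg_right h2 hd0
  have e3 : m * (m + 1 + d) ≤ m * (c * (1 + d)) := by linarith
  have e4 : m + 1 + d ≤ c * (1 + d) := le_of_mul_le_mul_left e3 (by linarith)
  have e5 : c * (c * c) ≤ c * m := by linarith
  have e6 : c * c ≤ m := le_of_mul_le_mul_left e5 (by linarith)
  have e7 : c + 1 ≤ d := by
    by_contra hcon
    push Not at hcon
    have h5 : 0 ≤ (c - d) * (c - 1) := mul_nonneg (by linarith) (by linarith)
    linarith
  have e8 : m ≤ (c - 1) * (d + 1) := by linarith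
  have e9 : (c - 1) * c ≤ (d - 2) * (d - 1) :=
    mul_le_mul (by linarith) (by linarith) (by linarith) (by linarith)
  have e10 : m * c ≤ (c - 1) * (d + 1) * c := mul_le_mul_of_nonneg_right e8 (by linarith)
  have e11 : (c - 1) * c * (d + 1) ≤ (d - 2) * (d - 1) * (d + 1) :=
    mul_le_mul_of_nonneg_right e9 (by linarith)
  have e12 : 8 * d ^ 3 ≤ (d - 2) * (d - 1) * (d + 1) := by linarith
  have hd3 : 0 < d ^ 3 := pow_pos (by linarith) 3
  have hd2 : 0 < d * d := mul_pos (by linarith) (by linarith)
  nlinarith

lemma arith_contra_nat (N m c d r S1 S2 : ℕ) (hcore : m * m ≤ m + S1 + S2)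
    (hS1 : S1 + 2 * m ≤ m * c) (hS2 : S2 ≤ r * d) (hr : r + 1 + m ≤ N) (h2 : N ≤ m * c)
    (h3 : c ^ 3 ≤ N) (h4 : 8 * d ^ 3 ≤ N) (hc : 2 ≤ c) (hm : 1 ≤ m) : False :=
  arith_contra (N : ℤ) m c d r S1 S2 (by positivity) (by exact_mod_cast hcore)
    (by exact_mod_cast hS1) (by exact_mod_cast hS2) (by exact_mod_cast hr)
    (by exact_mod_cast h2) (by exact_mod_cast h3) (by exact_mod_cast h4)
    (by exact_mod_cast hc) (by exact_mod_cast hm)

/-- A subgroup of index 2 is large enough. -/
lemma of_index_two {G : Type*} [Group G] [Finite G] (K : Subgroup G) (hK : K.index = 2)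
    (hgt : 2 < Nat.card G) : ∃ H : Subgroup G, H ≠ ⊤ ∧ Nat.card G < (Nat.card H) ^ 3 := by
  refine ⟨K, ?_, ?_⟩
  · rintro rfl
    rw [Subgroup.index_top] at hK; omega
  · have h1 := K.index_mul_card
    rw [hK] at h1
    have h2 : 2 ≤ Nat.card K := by omega
    rw [← h1]
    nlinarith [pow_pos (by omega : 0 < Nat.card K) 2]

/-- The counting case: no central involution and no subgroup of index two. -/
lemma counting_case {G : Type*} [Group G] [Finite G] (heven : Even (Nat.card G))
    (h2 : ∀ K : Subgroup G, K.index ≠ 2)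
    (hcen : ∀ z : G, orderOf z = 2 → z ∉ Subgroup.center G) :
    ∃ H : Subgroup G, H ≠ ⊤ ∧ Nat.card G < (Nat.card H) ^ 3 := by
  classical
  have := Fintype.ofFinite G
  by_contra hcon
  push Not at hcon
  -- hcon : ∀ H, H ≠ ⊤ → (Nat.card H) ^ 3 ≤ Nat.card G
  obtain ⟨t₀, ht₀⟩ := exists_prime_orderOf_dvd_card' 2 (even_iff_two_dvd.mp heven)
  have hne : (invs G).Nonempty := ⟨t₀, mem_invs.mpr ht₀⟩
  obtain ⟨t, htI, htmax⟩ := Finset.exists_max_image (invs G)
    (fun x => Nat.card (Subgroup.centralizer ({x} : Set G))) hne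
  have ht := mem_invs.mp htI
  have hCprop : ∀ x ∈ invs G, Subgroup.centralizer ({x} : Set G) ≠ ⊤ := by
    intro x hx h
    apply hcen x (mem_invs.mp hx)
    rw [Subgroup.mem_center_iff]
    intro g
    have hg : g ∈ Subgroup.centralizer ({x} : Set G) := by rw [h]; exact Subgroup.mem_top g
    exact (Subgroup.mem_centralizer_iff.mp hg x rfl).symm
  have hC2 : ∀ x ∈ invs G, 2 ≤ Nat.card (Subgroup.centralizer ({x} : Set G)) := by
    intro x hx
    have hxC : x ∈ Subgroup.centralizer ({x} : Set G) := by
      rw [Subgroup.mem_centralizer_iff]; intro k hk; rw [Set.mem_singleton_iff] at hk; rw [hk]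
    have h3 := orderOf_dvd_natCard (⟨x, hxC⟩ : Subgroup.centralizer ({x} : Set G))
    rw [Subgroup.orderOf_mk, mem_invs.mp hx] at h3
    exact Nat.le_of_dvd Nat.card_pos h3
  have h3 := hcon _ (hCprop t htI)
  have hNm : Nat.card G ≤ (invs G).card * Nat.card (Subgroup.centralizer ({t} : Set G)) := by
    rw [card_class_mul_card_centralizer t]
    apply Nat.mul_le_mul_right
    apply Finset.card_le_card
    intro t' ht'
    obtain ⟨d, hd⟩ := isConj_iff.mp (Finset.mem_filter.mp ht').2
    rw [mem_invs, ← hd, orderOf_conj', ht]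
  have hS1 : ∑ x ∈ invs G, (Nat.card (Subgroup.centralizer ({x} : Set G)) - 2) +
      2 * (invs G).card ≤ (invs G).card * Nat.card (Subgroup.centralizer ({t} : Set G)) := by
    have h4 : ∀ x ∈ invs G, (Nat.card (Subgroup.centralizer ({x} : Set G)) - 2) + 2 ≤
        Nat.card (Subgroup.centralizer ({t} : Set G)) := by
      intro x hx
      have := hC2 x hx
      have := htmax x hx
      omega
    have h5 := Finset.sum_le_sum h4
    rw [Finset.sum_add_distrib, Finset.sum_const, Finset.sum_const, smul_eq_mul, smul_eq_mul]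
      at h5
    linarith
  have hRbound : ∀ x ∈ reals G,
      (2 * Nat.card (Subgroup.centralizer ({x} : Set G))) ^ 3 ≤ Nat.card G := by
    intro x hx
    obtain ⟨hx1, hx2, hx3⟩ := mem_reals.mp hx
    have hne' : x ≠ x⁻¹ := by
      intro h
      apply hx2
      apply orderOf_eq_prime _ hx1
      rw [pow_two]; nth_rewrite 2 [h]; exact mul_inv_cancel x
    have hcard := card_extCentralizer x hx3 hne'
    have hC : extCentralizer x ≠ ⊤ := by
      intro h
      apply h2 (Subgroup.centralizer ({x} : Set G))
      have h5 := (Subgroup.centralizer ({x} : Set G)).index_mul_card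
      have h4 : Nat.card (extCentralizer x) = Nat.card G := by rw [h]; exact Subgroup.card_top
      rw [hcard] at h4
      have hcpos : 0 < Nat.card (Subgroup.centralizer ({x} : Set G)) := Nat.card_pos
      rw [← h4] at h5
      exact Nat.eq_of_mul_eq_mul_right hcpos h5
    have h1 := hcon _ hC
    rwa [hcard] at h1
  obtain ⟨d, hd1, hd2⟩ : ∃ d : ℕ, (∀ x ∈ reals G,
      Nat.card (Subgroup.centralizer ({x} : Set G)) ≤ d) ∧ 8 * d ^ 3 ≤ Nat.card G := by
    by_cases hR : (reals G).Nonempty
    · obtain ⟨x₀, hx₀, hx₀max⟩ := Finset.exists_max_image (reals G)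
        (fun x => Nat.card (Subgroup.centralizer ({x} : Set G))) hR
      refine ⟨_, hx₀max, ?_⟩
      have := hRbound x₀ hx₀
      rw [mul_pow] at this
      exact this
    · rw [Finset.not_nonempty_iff_eq_empty] at hR
      refine ⟨0, ?_, by simp⟩
      intro x hx; rw [hR] at hx; simp at hx
  have hS2 : ∑ x ∈ reals G, Nat.card (Subgroup.centralizer ({x} : Set G)) ≤
      (reals G).card * d := by
    have h5 := Finset.sum_le_sum hd1
    rw [Finset.sum_const, smul_eq_mul] at h5
    exact h5
  have hcount : (reals G).card + 1 + (invs G).card ≤ Nat.card G := by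
    have hd1' : Disjoint (reals G) (invs G) := by
      rw [Finset.disjoint_left]; intro x hx hx'
      exact (mem_reals.mp hx).2.1 (mem_invs.mp hx')
    have hd2' : (1 : G) ∉ reals G ∪ invs G := by
      rw [Finset.mem_union]; rintro (h | h)
      · exact (mem_reals.mp h).1 rfl
      · have h3 := mem_invs.mp h; rw [orderOf_one] at h3; omega
    have h6 := Finset.card_le_univ (insert (1 : G) (reals G ∪ invs G))
    rw [Finset.card_insert_of_notMem hd2', Finset.card_union_of_disjoint hd1',
      ← Nat.card_eq_fintype_card] at h6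
    omega
  have hcore := bf_core (G := G)
  have hmpos : 1 ≤ (invs G).card := Finset.card_pos.mpr hne
  have hc2 := hC2 t htI
  exact arith_contra_nat (Nat.card G) (invs G).card
    (Nat.card (Subgroup.centralizer ({t} : Set G)))
    d (reals G).card (∑ x ∈ invs G, (Nat.card (Subgroup.centralizer ({x} : Set G)) - 2))
    (∑ x ∈ reals G, Nat.card (Subgroup.centralizer ({x} : Set G)))
    hcore hS1 hS2 hcount hNm h3 hd2 hc2 hmpos

theorem aux.{u} : ∀ (n : ℕ) (G : Type u) [Group G] [Finite G], Nat.card G = n → Even n →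
    2 < n → ∃ H : Subgroup G, H ≠ ⊤ ∧ Nat.card G < (Nat.card H) ^ 3 := by
  intro n
  induction n using Nat.strong_induction_on with
  | _ n ih =>
    intro G _ _ hn heven hgt
    by_cases h2 : ∃ K : Subgroup G, K.index = 2
    · obtain ⟨K, hK⟩ := h2
      exact of_index_two K hK (hn ▸ hgt)
    push Not at h2
    by_cases hcen : ∃ z : G, orderOf z = 2 ∧ z ∈ Subgroup.center G
    · obtain ⟨z, hz2, hzc⟩ := hcen
      have hZn : (Subgroup.zpowers z).Normal := by
        constructor
        intro y hy g
        obtain ⟨k, rfl⟩ := Subgroup.mem_zpowers_iff.mp hy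
        have hck : Commute g (z ^ k) :=
          (show Commute g z from Subgroup.mem_center_iff.mp hzc g).zpow_right k
        rw [hck.eq, mul_inv_cancel_right]
        exact Subgroup.zpow_mem_zpowers z k
      have hZcard : Nat.card (Subgroup.zpowers z) = 2 := by rw [Nat.card_zpowers, hz2]
      have hQ := Subgroup.card_eq_card_quotient_mul_card_subgroup (Subgroup.zpowers z)
      rw [hZcard, hn] at hQ
      -- n = card Q * 2
      rcases Nat.even_or_odd (Nat.card (G ⧸ Subgroup.zpowers z)) with hke | hko
      · by_cases hk2 : Nat.card (G ⧸ Subgroup.zpowers z) = 2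
        · refine ⟨Subgroup.zpowers z, ?_, ?_⟩
          · intro h
            have h5 : Nat.card (Subgroup.zpowers z) = Nat.card (⊤ : Subgroup G) := by rw [h]
            rw [hZcard, Subgroup.card_top, hn] at h5
            omega
          · rw [hZcard, hn]; omega
        · have hk_gt : 2 < Nat.card (G ⧸ Subgroup.zpowers z) := by
            obtain ⟨j, hj⟩ := hke
            omega
          obtain ⟨Hbar, hHbar, hlt⟩ := ih (Nat.card (G ⧸ Subgroup.zpowers z)) (by omega)
            (G ⧸ Subgroup.zpowers z) rfl hke hk_gt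
          have hidx := Subgroup.index_comap_of_surjective Hbar
            (QuotientGroup.mk'_surjective (Subgroup.zpowers z))
          refine ⟨Hbar.comap (QuotientGroup.mk' (Subgroup.zpowers z)), ?_, ?_⟩
          · intro h
            rw [h, Subgroup.index_top] at hidx
            exact hHbar (Subgroup.index_eq_one.mp hidx.symm)
          · have e1 := (Hbar.comap (QuotientGroup.mk' (Subgroup.zpowers z))).index_mul_card
            have e2 := Hbar.index_mul_card
            rw [hidx] at e1
            rw [hn, hQ, ← e2] at e1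
            have hipos : 0 < Hbar.index := Nat.pos_of_ne_zero Subgroup.index_ne_zero_of_finite
            have e3 : Nat.card (Hbar.comap (QuotientGroup.mk' (Subgroup.zpowers z))) =
                2 * Nat.card Hbar := by
              have : Hbar.index * Nat.card (Hbar.comap (QuotientGroup.mk' (Subgroup.zpowers z)))
                  = Hbar.index * (2 * Nat.card Hbar) := by rw [e1]; ring
              exact Nat.eq_of_mul_eq_mul_left hipos this
            rw [e3, hn, hQ]
            have hpos : 0 < Nat.card Hbar := Nat.card_pos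
            nlinarith [pow_pos hpos 3]
      · -- |G| = 2 * odd: a Sylow 2-subgroup has order 2, so there is a subgroup of index 2
        exfalso
        obtain ⟨T⟩ : Nonempty (Sylow 2 G) := inferInstance
        have hT2 : 2 ∣ Nat.card T := T.dvd_card_of_dvd_card (by rw [hn]; exact even_iff_two_dvd.mp heven)
        obtain ⟨a, ha⟩ := IsPGroup.iff_card.mp T.2
        have hTdvd : Nat.card T ∣ n := hn ▸ Subgroup.card_subgroup_dvd_card _
        have ha1 : a = 1 := by
          have ha0 : a ≠ 0 := by
            rintro rfl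
            rw [ha] at hT2; simp at hT2
          by_contra hne
          have ha2 : 2 ≤ a := by omega
          have h4 : 4 ∣ Nat.card T := by
            rw [ha]
            exact (show (4 : ℕ) = 2 ^ 2 by norm_num) ▸ pow_dvd_pow 2 ha2
          have h4n : 4 ∣ n := h4.trans hTdvd
          rw [hQ] at h4n
          obtain ⟨j, hj⟩ := hko
          omega
        rw [ha1, pow_one] at ha
        have hTcyc : IsCyclic ↥(T : Subgroup G) := isCyclic_of_prime_card ha
        obtain ⟨H, hH⟩ := Cfsg.Agent.S0219.result (hn ▸ heven) T hTcyc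
        exact h2 H hH
    · push Not at hcen
      exact counting_case (hn ▸ heven) h2 hcen

/-- A finite group G of even order greater than 2 has a proper subgroup H with |G| < |H|^3. -/
theorem result {G : Type*} [Group G] [Finite G] (heven : Even (Nat.card G)) (hgt : 2 < Nat.card G) : ∃ H : Subgroup G, H ≠ ⊤ ∧ Nat.card G < (Nat.card H) ^ 3 := by
  exact aux (Nat.card G) G rfl heven hgt

end Cfsg.Agent.S0232
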