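import Mathlib
import Cfsg.Statements.S0234
import Cfsg.Agent.S0233

set_option autoImplicit false
open Cfsg

namespace Cfsg.Agent.S0234

set_option maxRecDepth 100000 in
lemma a5_invs : (Finset.univ.filter
    (fun σ : alternatingGroup (Fin 5) => σ ≠ 1 ∧ σ * σ = 1)).card = 15 := by decide +kernel

lemma card_invs_a5 : Nat.card {t : alternatingGroup (Fin 5) // orderOf t = 2} = 15 := by
  classical
  rw [Nat.card_eq_fintype_card, Fintype.card_subtype]
  convert a5_invs using 2
  ext σ
  simp only [Finset.mem_filter, Finset.mem_univ, true_and]
  rw [orderOf_eq_prime_iff, sq]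
  tauto

lemma card_a5 : Nat.card (alternatingGroup (Fin 5)) = 60 := by
  rw [nat_card_alternatingGroup]
  simp [Nat.factorial]

lemma toPerm_injective {G : Type*} [Group G] [Finite G] [IsSimpleGroup G]
    (H : Subgroup G) (hH : H ≠ ⊤) : Function.Injective (MulAction.toPermHom G (G ⧸ H)) := by
  have hcore : H.normalCore = ⊥ := by
    rcases IsSimpleGroup.eq_bot_or_eq_top_of_normal H.normalCore inferInstance with h | h
    · exact h
    · exfalso; apply hH; exact top_le_iff.mp (h ▸ H.normalCore_le)
  rw [Subgroup.normalCore_eq_ker] at hcore
  exact (MonoidHom.ker_eq_bot_iff _).mp hcore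

lemma le_factorial_index {G : Type*} [Group G] [Finite G] [IsSimpleGroup G]
    (H : Subgroup G) (hH : H ≠ ⊤) : Nat.card G ≤ Nat.factorial H.index := by
  have h1 := Nat.card_le_card_of_injective _ (toPerm_injective H hH)
  rwa [Nat.card_perm] at h1

lemma kill_small {G : Type*} [Group G] [Finite G] [IsSimpleGroup G] (N p a : ℕ)
    [Fact p.Prime] (hN : Nat.card G = N) (hdvd : p ^ a ∣ N) (hne : p ^ a ≠ N)
    (hlt : (N / p ^ a).factorial < N) : False := by
  subst hN
  obtain ⟨K, hK⟩ := Sylow.exists_subgroup_card_pow_prime p hdvd
  have hidx : K.index = Nat.card G / p ^ a := by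
    have := K.card_mul_index
    rw [hK] at this
    rw [← this, Nat.mul_div_cancel_left _ (pow_pos (Fact.out : p.Prime).pos a)]
  have hKne : K ≠ ⊤ := by
    rintro rfl
    rw [Subgroup.card_top] at hK
    exact hne hK.symm
  have := le_factorial_index K hKne
  rw [hidx] at this
  omega

theorem core {G : Type*} [Group G] [Finite G] [IsSimpleGroup G] (N n : ℕ)
    (hN : Nat.card G = N) (hn : Nat.card {t : G // orderOf t = 2} = n)
    (heven : Even N) (hgt : 2 < N) : 3 * n < N := by
  classical
  by_contra hcon
  push Not at hcon
  have h2 : Fact (Nat.Prime 2) := ⟨by norm_num⟩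
  have h3 : Fact (Nat.Prime 3) := ⟨by norm_num⟩
  have h5 : Fact (Nat.Prime 5) := ⟨by norm_num⟩
  have hN4 : N ≠ 4 := by
    rintro rfl
    exact kill_small (G := G) 4 2 1 hN (by norm_num) (by norm_num) (by decide)
  have hN6 : N ≠ 6 := by
    rintro rfl
    exact kill_small (G := G) 6 3 1 hN (by norm_num) (by norm_num) (by decide)
  have hN10 : N ≠ 10 := by
    rintro rfl
    exact kill_small (G := G) 10 5 1 hN (by norm_num) (by norm_num) (by decide)
  have hN12 : N ≠ 12 := by
    rintro rfl
    exact kill_small (G := G) 12 2 2 hN (by norm_num) (by norm_num) (by decide)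
  -- the centre is trivial
  have hcenter : Subgroup.center G = ⊥ := by
    rcases IsSimpleGroup.eq_bot_or_eq_top_of_normal (Subgroup.center G) inferInstance with h | h
    · exact h
    · exfalso
      obtain ⟨t, ht⟩ := exists_prime_orderOf_dvd_card' (G := G) 2
        (by rw [hN]; exact heven.two_dvd)
      have hnorm : (Subgroup.zpowers t).Normal := by
        constructor
        intro x hx g
        have hxc : x ∈ Subgroup.center G := by rw [h]; trivial
        rw [Subgroup.mem_center_iff] at hxc
        rw [hxc g, mul_inv_cancel_right]
        exact hx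
      rcases IsSimpleGroup.eq_bot_or_eq_top_of_normal _ hnorm with h' | h'
      · rw [Subgroup.zpowers_eq_bot] at h'
        rw [h', orderOf_one] at ht
        omega
      · have := Nat.card_zpowers t
        rw [h', Subgroup.card_top, hN, ht] at this
        omega
  have hZ : Odd (Nat.card (Subgroup.center G)) := by
    rw [hcenter, Subgroup.card_bot]; exact odd_one
  obtain ⟨H, hH, hidx⟩ := Cfsg.Agent.S0233.result (G := G) (by rw [hN]; exact heven) hZ
  rw [hN, hn] at hidx
  have hfac := le_factorial_index H hH
  rw [hN] at hfac
  have hk5 : H.index ≤ 5 := by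
    rcases hidx with h | h
    · rw [h] at hfac
      norm_num [Nat.factorial] at hfac
      omega
    · by_contra hk
      push Not at hk
      have h1 : N * (N + n) ≤ 3 * n * (4 * n) := Nat.mul_le_mul hcon (by omega)
      have h2 : 2 * 6 * n ^ 2 ≤ 2 * H.index * n ^ 2 :=
        Nat.mul_le_mul_right _ (Nat.mul_le_mul_left _ hk)
      nlinarith
  have hk2 : 2 ≤ H.index := by
    by_contra hk
    push Not at hk
    have : H.index ≤ 1 := by omega
    have h1 : H.index.factorial ≤ Nat.factorial 1 := Nat.factorial_le this
    norm_num at h1
    omega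
  have hinj := toPerm_injective H hH
  have : Fintype (G ⧸ H) := Fintype.ofFinite _
  have hcardX : Nat.card (G ⧸ H) = H.index := rfl
  have hnontriv : Nontrivial (G ⧸ H) := by
    rw [← Finite.one_lt_card_iff_nontrivial, hcardX]; omega
  -- the image lies in the alternating group
  have hsign : ∀ g : G, Equiv.Perm.sign (MulAction.toPermHom G (G ⧸ H) g) = 1 := by
    have hnormal : (Equiv.Perm.sign.comp (MulAction.toPermHom G (G ⧸ H))).ker.Normal :=
      inferInstance
    rcases IsSimpleGroup.eq_bot_or_eq_top_of_normal _ hnormal with h | h
    · exfalso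
      have hinj2 : Function.Injective (Equiv.Perm.sign.comp (MulAction.toPermHom G (G ⧸ H))) :=
        (MonoidHom.ker_eq_bot_iff _).mp h
      have := Nat.card_le_card_of_injective _ hinj2
      rw [hN, Nat.card_eq_fintype_card, Fintype.card_units_int] at this
      omega
    · intro g
      have : g ∈ (Equiv.Perm.sign.comp (MulAction.toPermHom G (G ⧸ H))).ker := by
        rw [h]; trivial
      exact this
  let φ' : G →* alternatingGroup (G ⧸ H) :=
    (MulAction.toPermHom G (G ⧸ H)).codRestrict _
      (fun g => Equiv.Perm.mem_alternatingGroup.2 (hsign g))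
  have hφ' : Function.Injective φ' := by
    intro a b hab
    apply hinj
    exact congrArg Subtype.val hab
  have hcardR : Nat.card φ'.range = N := by
    rw [← hN]; exact (Nat.card_congr (MonoidHom.ofInjective hφ').toEquiv).symm
  have hdvd : N ∣ (H.index).factorial / 2 := by
    rw [← hcardR, ← hcardX, ← nat_card_alternatingGroup]
    exact Subgroup.card_subgroup_dvd_card _
  by_cases hk : H.index = 5
  · have e : (G ⧸ H) ≃ Fin 5 := Finite.equivFinOfCardEq (hcardX.trans hk)
    let f : G →* alternatingGroup (Fin 5) := (Equiv.altCongrHom e).toMonoidHom.comp φ'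
    have hf : Function.Injective f := (Equiv.altCongrHom e).injective.comp hφ'
    by_cases hR : f.range = ⊤
    · have hsurj : Function.Surjective f := MonoidHom.range_eq_top.1 hR
      let E : G ≃* alternatingGroup (Fin 5) := MulEquiv.ofBijective f ⟨hf, hsurj⟩
      have hn15 : n = 15 := by
        rw [← card_invs_a5, ← hn]
        exact Nat.card_congr (E.toEquiv.subtypeEquiv (fun t => by
          simp [MulEquiv.orderOf_eq]))
      have hN60 : N = 60 := by
        rw [← hN, Nat.card_congr E.toEquiv, card_a5]
      omega
    · have : IsSimpleGroup (alternatingGroup (Fin 5)) :=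
        alternatingGroup.isSimpleGroup (by simp)
      have h1 := le_factorial_index f.range hR
      rw [card_a5] at h1
      have hidx5 : 5 ≤ f.range.index := by
        by_contra h
        push Not at h
        have h4 : (f.range.index).factorial ≤ Nat.factorial 4 := Nat.factorial_le (by omega)
        norm_num [Nat.factorial] at h4
        omega
      have hcard : Nat.card f.range = N := by
        rw [← hN]; exact (Nat.card_congr (MonoidHom.ofInjective hf).toEquiv).symm
      have hmul := f.range.card_mul_index
      rw [hcard, card_a5] at hmul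
      have hNle : N ≤ 12 := by nlinarith
      have hNdvd : N ∣ 60 := Dvd.intro _ hmul
      obtain ⟨m, rfl⟩ := heven
      have hm : m ≤ 6 := by omega
      interval_cases m <;> omega
  · have hk4 : H.index ≤ 4 := by omega
    have hNdvd : N ∣ 12 := by
      generalize H.index = k at *
      interval_cases k
      · exact hdvd.trans (by norm_num [Nat.factorial])
      · exact hdvd.trans (by norm_num [Nat.factorial])
      · exact hdvd.trans (by norm_num [Nat.factorial])
    have hNle : N ≤ 12 := Nat.le_of_dvd (by norm_num) hNdvd
    obtain ⟨m, rfl⟩ := heven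
    have hm : m ≤ 6 := by omega
    interval_cases m <;> omega

/-- In a finite simple group G of even order greater than 2, the number n of involutions satisfies 3n < |G|. -/
theorem result {G : Type*} [Group G] [Finite G] [IsSimpleGroup G] (heven : Even (Nat.card G)) (hgt : 2 < Nat.card G) : 3 * Nat.card {t : G // orderOf t = 2} < Nat.card G := by
  exact core _ _ rfl rfl heven hgt

end Cfsg.Agent.S0234
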