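import Mathlib
import Cfsg.Statements.S0235

set_option autoImplicit false
open Cfsg

namespace Cfsg.Agent.S0235

lemma sq_of_order_two {G : Type*} [Group G] {u : G} (hu : orderOf u = 2) : u * u = 1 := by
  rw [← pow_two, ← hu]; exact pow_orderOf_eq_one u

lemma inv_of_order_two {G : Type*} [Group G] {u : G} (hu : orderOf u = 2) : u⁻¹ = u :=
  inv_eq_of_mul_eq_one_left (sq_of_order_two hu)

/-- If x² ≠ 1, the ordered pairs (u, v) of involutions with uv = x correspond bijectively to the involutions t with t x t⁻¹ = x⁻¹ (via (u, v) ↦ u), so the two counts agree. -/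
theorem result {G : Type*} [Group G] [Finite G] (x : G) (hx : x ^ 2 ≠ 1) : Nat.card {p : G × G // orderOf p.1 = 2 ∧ orderOf p.2 = 2 ∧ p.1 * p.2 = x} = Nat.card {t : G // orderOf t = 2 ∧ t * x * t⁻¹ = x⁻¹} := by
  refine Nat.card_congr ?_
  refine
    { toFun := fun p => ⟨p.1.1, p.2.1, ?_⟩
      invFun := fun t => ⟨(t.1, t.1 * x), t.2.1, ?_, ?_⟩
      left_inv := ?_
      right_inv := fun t => rfl }
  · obtain ⟨⟨u, v⟩, hu, hv, huv⟩ := p
    simp only at hu hv huv ⊢
    rw [← huv, mul_inv_rev, inv_of_order_two hu, inv_of_order_two hv, ← mul_assoc,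
      sq_of_order_two hu, one_mul]
  · obtain ⟨t, ht, htx⟩ := t
    simp only at htx ⊢
    have h1 : t * x * (t * x) = 1 := by
      have : t * x * t = x⁻¹ := by rw [← htx, inv_of_order_two ht]
      rw [← mul_assoc, this, inv_mul_cancel]
    have h2 : t * x ≠ 1 := by
      intro h
      have : x = t := by
        rw [← inv_of_order_two ht]; exact (inv_eq_of_mul_eq_one_right h).symm ▸ rfl
      apply hx
      rw [this, pow_two, sq_of_order_two ht]
    exact orderOf_eq_prime (by rw [pow_two]; exact h1) h2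
  · obtain ⟨t, ht, htx⟩ := t
    simp only
    rw [← mul_assoc, sq_of_order_two ht, one_mul]
  · rintro ⟨⟨u, v⟩, hu, hv, huv⟩
    simp only at hu hv huv
    apply Subtype.ext
    simp only
    rw [← huv, ← mul_assoc, sq_of_order_two hu, one_mul]

end Cfsg.Agent.S0235
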