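import Mathlib
import Cfsg.Statements.S0236

set_option autoImplicit false
open Cfsg

namespace Cfsg.Agent.S0236

lemma sq_of_order_two {G : Type*} [Group G] {u : G} (hu : orderOf u = 2) : u * u = 1 := by
  rw [← pow_two, ← hu]; exact pow_orderOf_eq_one u

lemma inv_of_order_two {G : Type*} [Group G] {u : G} (hu : orderOf u = 2) : u⁻¹ = u :=
  inv_eq_of_mul_eq_one_left (sq_of_order_two hu)

lemma ne_one_of_order_two {G : Type*} [Group G] {u : G} (hu : orderOf u = 2) : u ≠ 1 := by
  intro h; rw [h, orderOf_one] at hu; omega

/-- If x is an involution, the number of ordered pairs (u, v) of involutions with uv = x, plus one, equals the number of involutions in the centralizer of x. -/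
theorem result {G : Type*} [Group G] [Finite G] (x : G) (hx : orderOf x = 2) : Nat.card {p : G × G // orderOf p.1 = 2 ∧ orderOf p.2 = 2 ∧ p.1 * p.2 = x} + 1 = Nat.card {t : G // orderOf t = 2 ∧ Commute t x} := by
  classical
  rw [← Finite.card_option]
  refine Nat.card_congr ?_
  refine
    { toFun := fun o => match o with
        | none => ⟨x, hx, Commute.refl x⟩
        | some p => ⟨p.1.1, p.2.1, ?_⟩
      invFun := fun t => if h : t.1 = x then none else some ⟨(t.1, t.1 * x), t.2.1, ?_, ?_⟩
      left_inv := ?_
      right_inv := ?_ }
  · obtain ⟨⟨u, v⟩, hu, hv, huv⟩ := p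
    simp only at hu hv huv ⊢
    show u * x = x * u
    have hx2 := sq_of_order_two hx
    rw [← huv] at hx2 ⊢
    -- u * (u * v) = u * v * u
    have : u * v * u = v := by
      have h3 : u * v * u * v = 1 := by rw [mul_assoc (u * v)]; exact hx2
      have := eq_inv_of_mul_eq_one_left h3
      rw [this, inv_of_order_two hv]
    rw [this, ← mul_assoc, sq_of_order_two hu, one_mul]
  · obtain ⟨t, ht, htx⟩ := t
    simp only at h ⊢
    have hc : t * x = x * t := htx
    have h1 : t * x * (t * x) = 1 := by
      rw [mul_assoc, ← mul_assoc x, ← hc, mul_assoc t x, sq_of_order_two hx, mul_one,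
        sq_of_order_two ht]
    have h2 : t * x ≠ 1 := by
      intro h'
      apply h
      rw [← inv_of_order_two hx]; exact eq_inv_of_mul_eq_one_left h'
    exact orderOf_eq_prime (by rw [pow_two]; exact h1) h2
  · obtain ⟨t, ht, htx⟩ := t
    simp only
    rw [← mul_assoc, sq_of_order_two ht, one_mul]
  · intro o
    cases o with
    | none => simp
    | some p =>
      obtain ⟨⟨u, v⟩, hu, hv, huv⟩ := p
      simp only at hu hv huv
      have hne : u ≠ x := by
        intro h
        rw [h] at huv
        exact ne_one_of_order_two hv (mul_eq_left.mp huv)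
      simp only [hne, dite_false, Option.some.injEq]
      apply Subtype.ext
      simp only
      rw [← huv, ← mul_assoc, sq_of_order_two hu, one_mul]
  · intro t
    by_cases h : t.1 = x
    · simp only [h, dite_true]
      apply Subtype.ext
      exact h.symm
    · simp only [h, dite_false]

end Cfsg.Agent.S0236
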