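import Mathlib
import Cfsg.Statements.S0239

set_option autoImplicit false
open Cfsg

namespace Cfsg.Agent.S0239

/-- A finite group containing a nonidentity real element has even order. -/
theorem result {G : Type*} [Group G] [Finite G] (x : G) (hx : x ≠ 1) (hreal : IsConj x x⁻¹) : Even (Nat.card G) := by
  by_contra hodd
  rw [Nat.not_even_iff_odd] at hodd
  obtain ⟨g, hg⟩ := isConj_iff.mp hreal
  -- g * x * g⁻¹ = x⁻¹
  have hcop : Nat.Coprime (orderOf g) 2 := by
    have hdvd : orderOf g ∣ Nat.card G := orderOf_dvd_natCard g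
    have : Odd (orderOf g) := Odd.of_dvd_nat hodd hdvd
    exact Nat.Coprime.symm (Nat.coprime_two_left.mpr this)
  -- g ^ 2 commutes with x
  have h2 : Commute (g ^ 2) x := by
    have h1 : g * x = x⁻¹ * g := by
      rw [← hg]; group
    have h1' : g * x⁻¹ = x * g := by
      have : x * g * x = g := by
        calc x * g * x = x * (g * x) := by group
          _ = x * (x⁻¹ * g) := by rw [h1]
          _ = g := by group
      calc g * x⁻¹ = (x * g * x) * x⁻¹ := by rw [this]
        _ = x * g := by group
    show g ^ 2 * x = x * g ^ 2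
    calc g ^ 2 * x = g * (g * x) := by rw [pow_two, mul_assoc]
      _ = g * (x⁻¹ * g) := by rw [h1]
      _ = (g * x⁻¹) * g := by rw [mul_assoc]
      _ = (x * g) * g := by rw [h1']
      _ = x * g ^ 2 := by rw [pow_two, mul_assoc]
  -- g is a power of g ^ 2
  have hg2 : g ∈ Subgroup.zpowers (g ^ 2) := by
    exact mem_zpowers_pow_iff.mpr (Nat.Coprime.symm hcop)
  obtain ⟨k, hk⟩ := Subgroup.mem_zpowers_iff.mp hg2
  have hcomm : Commute g x := by
    rw [← hk]
    exact h2.zpow_left k
  have hxx : x = x⁻¹ := by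
    rw [← hg, hcomm.eq]; group
  have hx2 : x ^ 2 = 1 := by
    rw [pow_two]
    nth_rewrite 2 [hxx]
    exact mul_inv_cancel x
  have hox : orderOf x ∣ 2 := orderOf_dvd_of_pow_eq_one hx2
  have hoddx : Odd (orderOf x) := Odd.of_dvd_nat hodd (orderOf_dvd_natCard x)
  have : orderOf x = 1 := by
    rcases (Nat.dvd_prime Nat.prime_two).mp hox with h | h
    · exact h
    · rw [h] at hoddx; exact absurd hoddx (by decide)
  exact hx (orderOf_eq_one_iff.mp this)

end Cfsg.Agent.S0239
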