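import Mathlib
import Cfsg.Statements.S0240

set_option autoImplicit false
open Cfsg

namespace Cfsg.Agent.S0240

lemma sq_of_order_two {G : Type*} [Group G] {u : G} (hu : orderOf u = 2) : u * u = 1 := by
  rw [← pow_two, ← hu]; exact pow_orderOf_eq_one u

lemma inv_of_order_two {G : Type*} [Group G] {u : G} (hu : orderOf u = 2) : u⁻¹ = u :=
  inv_eq_of_mul_eq_one_left (sq_of_order_two hu)

lemma ne_one_of_order_two {G : Type*} [Group G] {u : G} (hu : orderOf u = 2) : u ≠ 1 := by
  intro h; rw [h, orderOf_one] at hu; omega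

/-- Let G be a finite group with n involutions and H a subgroup with |H|·(n+1) > |G|. Then some nontrivial h ∈ H is strongly real in G: an involution t of G satisfies t h t⁻¹ = h⁻¹. -/
theorem result {G : Type*} [Group G] [Finite G] (H : Subgroup G) (hH : Nat.card G < Nat.card H * (Nat.card {t : G // orderOf t = 2} + 1)) : ∃ h : G, h ∈ H ∧ h ≠ 1 ∧ ∃ t : G, orderOf t = 2 ∧ t * h * t⁻¹ = h⁻¹ := by
  classical
  let f : Option {t : G // orderOf t = 2} → G ⧸ H := fun o => match o with
    | none => ((1 : G) : G ⧸ H)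
    | some t => ((t.1 : G) : G ⧸ H)
  have hcard : Nat.card (G ⧸ H) < Nat.card (Option {t : G // orderOf t = 2}) := by
    rw [Finite.card_option]
    have h1 := Subgroup.card_eq_card_quotient_mul_card_subgroup H
    rw [h1, mul_comm] at hH
    exact lt_of_mul_lt_mul_left hH (Nat.zero_le _)
  obtain ⟨a, b, hab, hfab⟩ : ∃ a b, a ≠ b ∧ f a = f b := by
    by_contra hcon
    push Not at hcon
    have hinj : Function.Injective f := fun a b hab => by
      by_contra hne
      exact hcon a b hne hab
    exact absurd (Nat.card_le_card_of_injective f hinj) (not_le.mpr hcard)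
  have key : ∀ t : {t : G // orderOf t = 2}, ((1 : G) : G ⧸ H) = ((t.1 : G) : G ⧸ H) →
      ∃ h : G, h ∈ H ∧ h ≠ 1 ∧ ∃ t : G, orderOf t = 2 ∧ t * h * t⁻¹ = h⁻¹ := by
    intro t ht
    have hmem : (t.1 : G) ∈ H := by
      have := QuotientGroup.eq.mp ht
      simpa using this
    refine ⟨t.1, hmem, ne_one_of_order_two t.2, t.1, t.2, ?_⟩
    rw [mul_inv_cancel_right, inv_of_order_two t.2]
  match a, b with
  | none, none => exact absurd rfl hab
  | none, some t => exact key t hfab
  | some t, none => exact key t hfab.symm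
  | some u, some v =>
    have hmem : (u.1 : G)⁻¹ * v.1 ∈ H := QuotientGroup.eq.mp hfab
    have hne : (u.1 : G)⁻¹ * v.1 ≠ 1 := by
      intro h
      apply hab
      have : (u.1 : G) = v.1 := by
        have := inv_mul_eq_one.mp h
        exact this
      rw [Subtype.ext this]
    refine ⟨(u.1 : G)⁻¹ * v.1, hmem, hne, u.1, u.2, ?_⟩
    rw [mul_inv_rev, inv_inv, inv_of_order_two u.2, inv_of_order_two v.2]
    simp only [mul_assoc]
    rw [← mul_assoc, sq_of_order_two u.2, one_mul]

end Cfsg.Agent.S0240
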