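import Mathlib
import Cfsg.Statements.S0241

set_option autoImplicit false
open Cfsg

namespace Cfsg.Agent.S0241

/-- If x ≠ 1 is conjugate to x⁻¹ in a finite group G and |C_G(x)| is odd, then some involution t satisfies t x t⁻¹ = x⁻¹. -/
theorem result {G : Type*} [Group G] [Finite G] (x : G) (hx : x ≠ 1) (hreal : IsConj x x⁻¹) (hodd : Odd (Nat.card (Subgroup.centralizer ({x} : Set G)))) : ∃ t : G, orderOf t = 2 ∧ t * x * t⁻¹ = x⁻¹ := by
  obtain ⟨c, hc⟩ := isConj_iff.mp hreal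
  have h1 : c * x = x⁻¹ * c := mul_inv_eq_iff_eq_mul.mp hc
  have h1' : c * x⁻¹ = x * c := by
    have : x * (c * x) * x⁻¹ = x * (x⁻¹ * c) * x⁻¹ := by rw [h1]
    simpa [mul_assoc] using this.symm
  have h2 : Commute (c ^ 2) x := by
    show c ^ 2 * x = x * c ^ 2
    rw [pow_two, mul_assoc, h1, ← mul_assoc, h1', mul_assoc]
  have hn : orderOf c ≠ 0 := (orderOf_pos c).ne'
  obtain ⟨a, b, hb, hab⟩ := Nat.exists_eq_two_pow_mul_odd hn
  obtain ⟨j, hj⟩ := hb
  -- the element t = c ^ b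
  have htx : c ^ b * x * (c ^ b)⁻¹ = x⁻¹ := by
    have hcj : Commute ((c ^ 2) ^ j) x⁻¹ := (h2.pow_left j).inv_right
    have e : c ^ b = (c ^ 2) ^ j * c := by rw [hj, pow_succ, pow_mul]
    rw [e, mul_inv_rev]
    calc (c ^ 2) ^ j * c * x * (c⁻¹ * ((c ^ 2) ^ j)⁻¹)
        = (c ^ 2) ^ j * (c * x * c⁻¹) * ((c ^ 2) ^ j)⁻¹ := by simp only [mul_assoc]
      _ = (c ^ 2) ^ j * x⁻¹ * ((c ^ 2) ^ j)⁻¹ := by rw [hc]
      _ = x⁻¹ := by rw [hcj.eq, mul_inv_cancel_right]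
  have hcomm : Commute ((c ^ b) ^ 2) x := by
    have : (c ^ b) ^ 2 = (c ^ 2) ^ b := by rw [← pow_mul, ← pow_mul, mul_comm]
    rw [this]; exact h2.pow_left b
  have hmem : (c ^ b) ^ 2 ∈ Subgroup.centralizer ({x} : Set G) := by
    rw [Subgroup.mem_centralizer_iff]; intro h hh; rw [Set.mem_singleton_iff] at hh; rw [hh]
    exact hcomm.eq.symm
  have hord1 : orderOf ((c ^ b) ^ 2) ∣ 2 ^ a := by
    apply orderOf_dvd_of_pow_eq_one
    rw [← pow_mul, ← pow_mul, show b * (2 * 2 ^ a) = orderOf c * 2 by rw [hab]; ring, pow_mul,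
      pow_orderOf_eq_one, one_pow]
  have hord2 : Odd (orderOf ((c ^ b) ^ 2)) := by
    have h3 : orderOf (⟨(c ^ b) ^ 2, hmem⟩ : Subgroup.centralizer ({x} : Set G)) =
        orderOf ((c ^ b) ^ 2) := Subgroup.orderOf_mk _ _
    rw [← h3]
    exact hodd.of_dvd_nat (orderOf_dvd_natCard _)
  have hsq : (c ^ b) ^ 2 = 1 := by
    rw [← orderOf_eq_one_iff]
    obtain ⟨i, -, hi⟩ := (Nat.dvd_prime_pow Nat.prime_two).mp hord1
    rw [hi] at hord2 ⊢
    rcases Nat.eq_zero_or_pos i with h0 | hpos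
    · rw [h0, pow_zero]
    · exfalso
      have : Even (2 ^ i) := (Nat.even_pow.mpr ⟨even_two, hpos.ne'⟩)
      exact (Nat.not_odd_iff_even.mpr this) hord2
  have hne : c ^ b ≠ 1 := by
    intro h
    rw [h, one_mul, inv_one, mul_one] at htx
    -- x = x⁻¹ so x ^ 2 = 1
    have hx2 : x ^ 2 = 1 := by rw [pow_two]; nth_rewrite 2 [htx]; exact mul_inv_cancel x
    have hxc : x ∈ Subgroup.centralizer ({x} : Set G) := by
      rw [Subgroup.mem_centralizer_iff]; intro h hh; rw [Set.mem_singleton_iff] at hh; rw [hh]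
    have h3 : orderOf (⟨x, hxc⟩ : Subgroup.centralizer ({x} : Set G)) = orderOf x :=
      Subgroup.orderOf_mk _ _
    have hox : Odd (orderOf x) := by
      rw [← h3]; exact hodd.of_dvd_nat (orderOf_dvd_natCard _)
    have hox2 : orderOf x ∣ 2 := orderOf_dvd_of_pow_eq_one hx2
    rcases (Nat.dvd_prime Nat.prime_two).mp hox2 with h | h
    · exact hx (orderOf_eq_one_iff.mp h)
    · rw [h] at hox; exact absurd hox (by decide)
  exact ⟨c ^ b, orderOf_eq_prime hsq hne, htx⟩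

end Cfsg.Agent.S0241
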