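import Mathlib
import Cfsg.Statements.S0243
import Cfsg.Agent.S0242

set_option autoImplicit false
open Cfsg

namespace Cfsg.Agent.S0243

/-- Order of PSL_n(q): gcd(n, q-1) (q-1) |PSL_n(q)| = prod_{i<n} (q^n - q^i). -/
theorem result {F : Type*} [Field F] [Fintype F] {q : ℕ} (hF : Fintype.card F = q) (n : ℕ) (hn : 2 ≤ n) : Nat.gcd n (q - 1) * ((q - 1) * Nat.card (Matrix.ProjectiveSpecialLinearGroup (Fin n) F)) = ∏ i : Fin n, (q ^ n - q ^ (i : ℕ)) := by
  classical
  have h1 := Cfsg.Agent.S0242.result hF n (by omega)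
  have h2 := Subgroup.card_eq_card_quotient_mul_card_subgroup
    (Subgroup.center (Matrix.SpecialLinearGroup (Fin n) F))
  have h3 : Nat.card (Subgroup.center (Matrix.SpecialLinearGroup (Fin n) F)) =
      Nat.gcd n (q - 1) := by
    rw [Nat.card_congr (Matrix.SpecialLinearGroup.center_equiv_rootsOfUnity
      (n := Fin n) (R := F)).toEquiv]
    rw [Fintype.card_fin, max_eq_left (by omega : 1 ≤ n), rootsOfUnity_eq_ker,
      IsCyclic.card_powMonoidHom_ker, Nat.card_units, Nat.card_eq_fintype_card, hF, Nat.gcd_comm]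
  have h4 : Nat.card (Matrix.ProjectiveSpecialLinearGroup (Fin n) F) =
      Nat.card (Matrix.SpecialLinearGroup (Fin n) F ⧸
        Subgroup.center (Matrix.SpecialLinearGroup (Fin n) F)) := rfl
  rw [h4, ← h1, h2, h3]
  ring

end Cfsg.Agent.S0243
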