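import Mathlib
import Cfsg.Statements.S0244

set_option autoImplicit false
open Cfsg

namespace Cfsg.Agent.S0244

/-- Sp_2 = SL_2: a matrix on Fin 1 ⊕ Fin 1 lies in Mathlib's symplectic group iff its determinant is 1. -/
theorem result {R : Type*} [CommRing R] (A : Matrix (Fin 1 ⊕ Fin 1) (Fin 1 ⊕ Fin 1) R) : A ∈ Matrix.symplecticGroup (Fin 1) R ↔ A.det = 1 := by
  have hdet : A.det = A (Sum.inl 0) (Sum.inl 0) * A (Sum.inr 0) (Sum.inr 0)
      - A (Sum.inl 0) (Sum.inr 0) * A (Sum.inr 0) (Sum.inl 0) := by
    have h := Matrix.det_reindex_self (finSumFinEquiv : Fin 1 ⊕ Fin 1 ≃ Fin 2).symm.symm A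
    rw [← h, Matrix.det_fin_two]
    rfl
  constructor
  · intro h
    exact SymplecticGroup.det_eq_one h
  · intro h
    rw [hdet] at h
    rw [SymplecticGroup.mem_iff]
    ext i j
    rcases i with i | i <;> rcases j with j | j <;>
      fin_cases i <;> fin_cases j <;>
      simp [Matrix.J, Matrix.mul_apply] <;>
      first | linear_combination h | linear_combination -h | linear_combination (0 : R) * h

end Cfsg.Agent.S0244
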