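import Mathlib
import Cfsg.Agent.Lib.Helper5.OrbitHom
import Cfsg.Statements.S0247

set_option autoImplicit false
open Cfsg

namespace Cfsg.Agent.S0247

open Cfsg.Agent.Lib.Helper5 Matrix

section transport

variable {l : Type*} [DecidableEq l] [Fintype l] {R S : Type*} [CommRing R] [CommRing S]

/-- The symplectic group is functorial in the ring. -/
def spMap (f : R →+* S) : Matrix.symplecticGroup l R →* Matrix.symplecticGroup l S where
  toFun A := ⟨f.mapMatrix A.1, by
    rw [SymplecticGroup.mem_iff]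
    have h := SymplecticGroup.mem_iff.1 A.2
    have h2 := congrArg f.mapMatrix h
    rw [map_mul, map_mul] at h2
    simpa [RingHom.mapMatrix_apply, Matrix.transpose_map] using h2⟩
  map_one' := Subtype.ext (by simp)
  map_mul' A B := Subtype.ext (by simp)

theorem spMap_coe (f : R →+* S) (A : Matrix.symplecticGroup l R) :
    ((spMap f A : Matrix.symplecticGroup l S) : Matrix (l ⊕ l) (l ⊕ l) S) = f.mapMatrix A.1 := rfl

/-- The symplectic groups of isomorphic rings are isomorphic. -/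
def spCongr (e : R ≃+* S) : Matrix.symplecticGroup l R ≃* Matrix.symplecticGroup l S :=
  MonoidHom.toMulEquiv (spMap e.toRingHom) (spMap e.symm.toRingHom)
    (by
      ext A i j
      simp [spMap_coe])
    (by
      ext A i j
      simp [spMap_coe])

end transport

/-- The index type. -/
abbrev I4 := Fin 2 ⊕ Fin 2

/-- The natural module. -/
abbrev V := I4 → ZMod 2

/-- The group `Sp₄(𝔽₂)`. -/
abbrev G := Matrix.symplecticGroup (Fin 2) (ZMod 2)

/-- The symplectic form. -/
def om (u v : V) : ZMod 2 := u ⬝ᵥ (J (Fin 2) (ZMod 2) *ᵥ v)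

theorem om_smul (g : G) (u v : V) : om (g.1 *ᵥ u) (g.1 *ᵥ v) = om u v := by
  unfold om
  have h := SymplecticGroup.mem_iff'.1 g.2
  rw [Matrix.mulVec_mulVec, ← Matrix.vecMul_transpose, ← Matrix.dotProduct_mulVec,
    Matrix.mulVec_mulVec, ← Matrix.mul_assoc, h]

theorem mul_inv_mulVec (g : G) (v : V) : g.1 *ᵥ (g⁻¹.1 *ᵥ v) = v := by
  rw [Matrix.mulVec_mulVec, ← Submonoid.coe_mul, mul_inv_cancel, Submonoid.coe_one,
    Matrix.one_mulVec]

theorem inv_mul_mulVec (g : G) (v : V) : g⁻¹.1 *ᵥ (g.1 *ᵥ v) = v := by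
  rw [Matrix.mulVec_mulVec, ← Submonoid.coe_mul, inv_mul_cancel, Submonoid.coe_one,
    Matrix.one_mulVec]

/-- Functions on `V`, on which `G` acts by precomposition. -/
@[ext]
structure QF where
  /-- The underlying function. -/
  f : V → ZMod 2

instance : DecidableEq QF := fun A B =>
  decidable_of_iff (A.f = B.f) ⟨fun h => QF.ext h, fun h => congrArg QF.f h⟩

instance : MulAction G QF where
  smul g q := ⟨fun v => q.f (g⁻¹.1 *ᵥ v)⟩
  one_smul q := by
    ext v
    change q.f ((1 : G)⁻¹.1 *ᵥ v) = q.f v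
    rw [inv_one, Submonoid.coe_one, Matrix.one_mulVec]
  mul_smul g h q := by
    ext v
    change q.f ((g * h)⁻¹.1 *ᵥ v) = q.f (h⁻¹.1 *ᵥ (g⁻¹.1 *ᵥ v))
    rw [_root_.mul_inv_rev, Submonoid.coe_mul, Matrix.mulVec_mulVec]

theorem smul_f (g : G) (q : QF) (v : V) : (g • q).f v = q.f (g⁻¹.1 *ᵥ v) := rfl

/-- Quadratic forms polarising to the symplectic form. -/
def IsQuad (q : QF) : Prop := ∀ u v, q.f (u + v) = q.f u + q.f v + om u v

/-- The number of zeros. -/
def zeros (q : QF) : ℕ := (Finset.univ.filter fun v => q.f v = 0).card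

theorem isQuad_smul (g : G) (q : QF) (hq : IsQuad q) : IsQuad (g • q) := by
  intro u v
  rw [smul_f, smul_f, smul_f, Matrix.mulVec_add, hq, om_smul]

theorem zeros_smul (g : G) (q : QF) : zeros (g • q) = zeros q := by
  unfold zeros
  refine Finset.card_bij (fun v _ => g⁻¹.1 *ᵥ v) ?_ ?_ ?_
  · intro v hv
    rw [Finset.mem_filter] at hv ⊢
    exact ⟨Finset.mem_univ _, hv.2⟩
  · intro u _ v _ h
    have := congrArg (fun w => g.1 *ᵥ w) h
    simp only [mul_inv_mulVec] at this
    exact this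
  · intro w hw
    rw [Finset.mem_filter] at hw
    refine ⟨g.1 *ᵥ w, ?_, inv_mul_mulVec g w⟩
    rw [Finset.mem_filter]
    refine ⟨Finset.mem_univ _, ?_⟩
    rw [smul_f, inv_mul_mulVec]
    exact hw.2

/-- The quadratic form with prescribed values on the standard basis. -/
def Qc (c : V) : QF :=
  ⟨fun v => c ⬝ᵥ v + v (Sum.inl 0) * v (Sum.inr 0) + v (Sum.inl 1) * v (Sum.inr 1)⟩

theorem Qc_isQuad : ∀ c, IsQuad (Qc c) := by
  unfold IsQuad
  decide +kernel

theorem Qc_single : ∀ (c : V) (k : I4), (Qc c).f (Pi.single k 1) = c k := by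
  decide +kernel

theorem quad_eq (q : QF) (hq : IsQuad q) : q = Qc (fun k => q.f (Pi.single k 1)) := by
  set c : V := fun k => q.f (Pi.single k 1) with hc
  let d : V →+ ZMod 2 := AddMonoidHom.mk' (fun v => q.f v - (Qc c).f v) (by
    intro u v
    rw [hq u v, Qc_isQuad c u v]
    ring)
  have hd : d = 0 := by
    refine AddMonoidHom.functions_ext _ _ _ ?_
    intro k x
    have hx : x = 0 ∨ x = 1 := by
      revert x
      decide
    rcases hx with rfl | rfl
    · simp
    · change q.f (Pi.single k 1) - (Qc c).f (Pi.single k 1) = 0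
      rw [Qc_single]
      exact sub_self _
  ext v
  have h := DFunLike.congr_fun hd v
  change q.f v - (Qc c).f v = 0 at h
  exact sub_eq_zero.1 h

/-- The values on the basis of the six forms of minus type. -/
def cs : Fin 6 → V :=
  ![Sum.elim ![0, 1] ![0, 1],
    Sum.elim ![0, 1] ![1, 1],
    Sum.elim ![1, 0] ![1, 0],
    Sum.elim ![1, 0] ![1, 1],
    Sum.elim ![1, 1] ![0, 1],
    Sum.elim ![1, 1] ![1, 0]]

/-- The six forms of minus type. -/
def O (i : Fin 6) : QF := Qc (cs i)

theorem zeros_Qc : ∀ c : V, zeros (Qc c) = 6 → ∃ i : Fin 6, c = cs i := by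
  unfold zeros
  decide +kernel

theorem zeros_O : ∀ i, zeros (O i) = 6 := by
  unfold zeros
  decide +kernel

theorem O_injective : Function.Injective O := by
  decide +kernel

theorem perm_O (g : G) (i : Fin 6) : ∃ j, g • O i = O j := by
  have h1 : IsQuad (g • O i) := isQuad_smul g _ (Qc_isQuad _)
  have h2 : zeros (g • O i) = 6 := by rw [zeros_smul, zeros_O]
  have h3 := quad_eq _ h1
  rw [h3] at h2
  obtain ⟨j, hj⟩ := zeros_Qc _ h2
  exact ⟨j, by rw [h3, hj]; rfl⟩

/-- The six forms separate the vectors. -/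
theorem sep : ∀ u w : V, (∀ i, (O i).f u = (O i).f w) → u = w := by
  decide +kernel

/-- Five transvections. -/
def tm : Fin 5 → Matrix I4 I4 (ZMod 2) :=
  ![Matrix.fromBlocks !![1, 0; 0, 1] !![1, 0; 0, 0] !![0, 0; 0, 0] !![1, 0; 0, 1],
    Matrix.fromBlocks !![1, 0; 1, 0] !![0, 0; 0, 1] !![1, 1; 1, 1] !![1, 1; 0, 0],
    Matrix.fromBlocks !![1, 0; 0, 1] !![0, 0; 0, 1] !![0, 0; 0, 0] !![1, 0; 0, 1],
    Matrix.fromBlocks !![1, 1; 0, 1] !![1, 0; 0, 0] !![0, 0; 0, 1] !![1, 0; 1, 1],
    Matrix.fromBlocks !![1, 0; 0, 1] !![1, 1; 1, 1] !![0, 0; 0, 0] !![1, 0; 0, 1]]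

theorem tm_mem : ∀ k, tm k ∈ Matrix.symplecticGroup (Fin 2) (ZMod 2) := by
  simp only [SymplecticGroup.mem_iff]
  decide +kernel

/-- Five transvections, as elements of the group. -/
def t (k : Fin 5) : G := ⟨tm k, tm_mem k⟩

theorem t_check : ∀ (k : Fin 5) (i : Fin 6) (v : V),
    (O i).f v = (O (Equiv.swap k.castSucc k.succ i)).f (tm k *ᵥ v) := by
  decide +kernel

theorem t_smul (k : Fin 5) (i : Fin 6) : t k • O i = O (Equiv.swap k.castSucc k.succ i) := by
  ext v
  rw [smul_f, t_check k i ((t k)⁻¹.1 *ᵥ v)]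
  congr 1
  exact mul_inv_mulVec (t k) v

theorem G_equiv : Nonempty (G ≃* Equiv.Perm (Fin 6)) := by
  obtain ⟨ρ, hρ⟩ := exists_permHom O O_injective perm_O
  have hinj : Function.Injective ρ := by
    rw [injective_iff_map_eq_one]
    intro g hg
    have h1 : ∀ v : V, g⁻¹.1 *ᵥ v = v := by
      intro v
      apply sep
      intro i
      have h2 := hρ g i
      rw [hg, Equiv.Perm.one_apply] at h2
      have h3 := congrArg (fun q : QF => q.f v) h2
      simp only [smul_f] at h3
      exact h3.symm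
    have h4 : g⁻¹.1 = 1 := by
      apply Matrix.mulVec_injective
      funext v
      rw [h1, Matrix.one_mulVec]
    have h5 : g⁻¹ = 1 := Subtype.ext h4
    exact inv_eq_one.1 h5
  have hsurj : Function.Surjective ρ := by
    rw [← MonoidHom.range_eq_top, eq_top_iff]
    have h1 : (⊤ : Submonoid (Equiv.Perm (Fin 6))) ≤ ρ.range.toSubmonoid := by
      rw [← Equiv.Perm.mclosure_swap_castSucc_succ 5, Submonoid.closure_le]
      rintro _ ⟨k, rfl⟩
      refine ⟨t k, ?_⟩
      ext i
      apply congrArg Fin.val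
      apply O_injective
      rw [hρ, t_smul]
    intro x _
    exact h1 (Submonoid.mem_top x)
  exact ⟨MulEquiv.ofBijective ρ ⟨hinj, hsurj⟩⟩

/-- Sp_4(2) is isomorphic to the symmetric group S_6. -/
theorem result {F : Type*} [Field F] [Fintype F] (hF : Fintype.card F = 2) : Nonempty (Matrix.symplecticGroup (Fin 2) F ≃* Equiv.Perm (Fin 6)) := by
  obtain ⟨e⟩ := G_equiv
  exact ⟨(spCongr (ZMod.ringEquivOfPrime F Nat.prime_two hF)).symm.trans e⟩

end Cfsg.Agent.S0247
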