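import Mathlib
import Cfsg.Statements.S0250
import Cfsg.Agent.Lib.Helper5.PSL2

set_option autoImplicit false
open Cfsg

namespace Cfsg.Agent.S0250

open Cfsg.Agent.Lib.Helper5
open scoped LinearAlgebra.Projectivization

/-- SL_2(2) is isomorphic to S_3. -/
theorem result {F : Type*} [Field F] [Fintype F] (hF : Fintype.card F = 2) : Nonempty (Matrix.SpecialLinearGroup (Fin 2) F ≃* Equiv.Perm (Fin 3)) := by
  classical
  haveI : Fintype (ℙ F (Fin 2 → F)) := Fintype.ofFinite _
  have hα : Fintype.card (ℙ F (Fin 2 → F)) = 3 := by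
    rw [← Nat.card_eq_fintype_card, card_projLine, hF]
  have h2 : (2 : F) = 0 := two_eq_zero_of_even_card (by rw [hF]; decide)
  have hcard : Nat.card (Matrix.SpecialLinearGroup (Fin 2) F) = 6 := by
    rw [card_SL2, hF]; rfl
  have hinj : Function.Injective
      (MulAction.toPermHom (Matrix.SpecialLinearGroup (Fin 2) F) (ℙ F (Fin 2 → F))) := by
    rw [← MonoidHom.ker_eq_bot_iff, Projectivization.SL_mulAction_ker,
      center_SL2_eq_bot_of_two_eq_zero h2]
  exact nonempty_mulEquiv_perm_of_card _ hinj 3 hα (by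
    rw [show Nat.factorial 3 = 6 by decide]; exact hcard)

end Cfsg.Agent.S0250
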