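import Mathlib
import Cfsg.Statements.S0252
import Cfsg.Agent.Lib.Helper5.PSL2

set_option autoImplicit false
open Cfsg

namespace Cfsg.Agent.S0252

open Cfsg.Agent.Lib.Helper5
open scoped LinearAlgebra.Projectivization

/-- PSL_2(4) is isomorphic to A_5. -/
theorem result {F : Type*} [Field F] [Fintype F] (hF : Fintype.card F = 4) : Nonempty (Matrix.ProjectiveSpecialLinearGroup (Fin 2) F ≃* alternatingGroup (Fin 5)) := by
  classical
  haveI : Fintype (ℙ F (Fin 2 → F)) := Fintype.ofFinite _
  have hα : Fintype.card (ℙ F (Fin 2 → F)) = 5 := by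
    rw [← Nat.card_eq_fintype_card, card_projLine, hF]
  have h2 : (2 : F) = 0 := two_eq_zero_of_even_card (by rw [hF]; decide)
  have hcard : Nat.card (Matrix.ProjectiveSpecialLinearGroup (Fin 2) F) = 60 := by
    have h := card_PSL_mul_card_center (Fin 2) F
    rw [center_SL2_eq_bot_of_two_eq_zero h2, Subgroup.card_bot, mul_one, card_SL2, hF] at h
    exact h
  exact nonempty_mulEquiv_alternatingGroup_of_card _
    Matrix.ProjectiveSpecialLinearGroup.toPermHom_injective 5 hα (by
      rw [show Nat.factorial 5 = 120 by decide]; omega)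

end Cfsg.Agent.S0252
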