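import Mathlib
import Cfsg.Agent.Lib.Helper5.PSL2
import Cfsg.Agent.S0494
import Cfsg.Statements.S0253

set_option autoImplicit false
open Cfsg

namespace Cfsg.Agent.S0253

open Cfsg.Agent.Lib.Helper5

/-- PSL_2(5) is isomorphic to A_5. -/
theorem result {F : Type*} [Field F] [Fintype F] (hF : Fintype.card F = 5) : Nonempty (Matrix.ProjectiveSpecialLinearGroup (Fin 2) F ≃* alternatingGroup (Fin 5)) := by
  have h2 : (2 : F) ≠ 0 := two_ne_zero_of_odd_card (by rw [hF]; decide)
  have hcard : Nat.card (Matrix.ProjectiveSpecialLinearGroup (Fin 2) F) = 60 := by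
    have h := card_PSL_mul_card_center (Fin 2) F
    rw [card_center_SL2_of_two_ne_zero h2, card_SL2, hF] at h
    have h' : Nat.card (Matrix.ProjectiveSpecialLinearGroup (Fin 2) F) * 2 = 120 := h
    omega
  haveI : IsSimpleGroup (Matrix.ProjectiveSpecialLinearGroup (Fin 2) F) :=
    Matrix.ProjectiveSpecialLinearGroup.rank_two_simple (by
      rw [Nat.card_eq_fintype_card, hF]; norm_num)
  haveI : Finite (Matrix.ProjectiveSpecialLinearGroup (Fin 2) F) :=
    Nat.finite_of_card_ne_zero (by rw [hcard]; norm_num)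
  exact Cfsg.Agent.S0494.result hcard

end Cfsg.Agent.S0253
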