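import Mathlib
import Cfsg.Agent.Lib.Helper5.PSL2
import Cfsg.Agent.S0494
import Cfsg.Agent.S3377
import Cfsg.Statements.S0254

set_option autoImplicit false
open Cfsg

namespace Cfsg.Agent.S0254

open Cfsg.Agent.Lib.Helper5 Matrix

/-- The field with nine elements, as `𝔽₃[ω]/(ω² + 1)`. -/
abbrev K9 := QuadraticAlgebra (ZMod 3) (-1) 0

/-- An element of order 3. -/
def xK : Matrix (Fin 2) (Fin 2) K9 := !![1, 1; 0, 1]

/-- An element of order 5 in `PSL`. -/
def yK : Matrix (Fin 2) (Fin 2) K9 := !![0, ⟨-1, 1⟩; ⟨-1, -1⟩, ⟨1, 1⟩]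

set_option maxRecDepth 100000 in
theorem xK_det : xK.det = 1 := by
  rw [Matrix.det_fin_two]
  decide

set_option maxRecDepth 100000 in
theorem yK_det : yK.det = 1 := by
  rw [Matrix.det_fin_two]
  decide

set_option maxRecDepth 100000 in
theorem xK_pow : xK ^ 3 = 1 := by
  decide

set_option maxRecDepth 100000 in
theorem yK_pow : yK ^ 5 = 1 := by
  decide

set_option maxRecDepth 100000 in
theorem xyK_pow : (xK * yK) ^ 2 = -1 := by
  decide

section

variable {F : Type*} [Field F] [Fintype F]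

/-- A ring hom from the model field into any field of order 9. -/
theorem exists_ringHom (hF : Fintype.card F = 9) : Nonempty (K9 →+* F) := by
  haveI : Fact (Nat.Prime 3) := ⟨Nat.prime_three⟩
  haveI : CharP F 3 := charP_of_card_eq_prime_pow (p := 3) (f := 2) (by rw [hF]; norm_num)
  letI : Algebra (ZMod 3) F := ZMod.algebra F 3
  have hsq : IsSquare (-1 : F) := by
    rw [FiniteField.isSquare_neg_one_iff, hF]
    decide
  obtain ⟨i, hi⟩ := hsq
  exact ⟨(QuadraticAlgebra.lift (R := ZMod 3) (a := -1) (b := 0) (A := F)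
    ⟨i, by rw [← hi]; simp⟩ : K9 →ₐ[ZMod 3] F).toRingHom⟩

/-- The images of the generators in `SL₂(F)`. -/
noncomputable def slOf (φ : K9 →+* F) (M : Matrix (Fin 2) (Fin 2) K9) (hM : M.det = 1) :
    Matrix.SpecialLinearGroup (Fin 2) F :=
  ⟨φ.mapMatrix M, by rw [← RingHom.map_det, hM, map_one]⟩

omit [Fintype F] in
theorem slOf_coe (φ : K9 →+* F) (M : Matrix (Fin 2) (Fin 2) K9) (hM : M.det = 1) :
    (slOf φ M hM : Matrix (Fin 2) (Fin 2) F) = φ.mapMatrix M := rfl

theorem slOf_x_pow (φ : K9 →+* F) : slOf φ xK xK_det ^ 3 = 1 := by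
  apply Subtype.ext
  rw [Matrix.SpecialLinearGroup.coe_pow, slOf_coe, ← map_pow, xK_pow, map_one]
  rfl

theorem slOf_y_pow (φ : K9 →+* F) : slOf φ yK yK_det ^ 5 = 1 := by
  apply Subtype.ext
  rw [Matrix.SpecialLinearGroup.coe_pow, slOf_coe, ← map_pow, yK_pow, map_one]
  rfl

theorem slOf_xy_pow (φ : K9 →+* F) : (slOf φ xK xK_det * slOf φ yK yK_det) ^ 2 = -1 := by
  apply Subtype.ext
  rw [Matrix.SpecialLinearGroup.coe_pow, Matrix.SpecialLinearGroup.coe_mul, slOf_coe, slOf_coe,
    ← map_mul, ← map_pow, xyK_pow, map_neg, map_one]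
  rfl

omit [Fintype F] in
theorem neg_one_mem_center :
    (-1 : Matrix.SpecialLinearGroup (Fin 2) F) ∈
      Subgroup.center (Matrix.SpecialLinearGroup (Fin 2) F) := by
  rw [Subgroup.mem_center_iff]
  intro g
  apply Subtype.ext
  simp

/-- The images in `PSL₂(F)`. -/
noncomputable def pslOf (φ : K9 →+* F) (M : Matrix (Fin 2) (Fin 2) K9) (hM : M.det = 1) :
    Matrix.ProjectiveSpecialLinearGroup (Fin 2) F :=
  QuotientGroup.mk (slOf φ M hM)

theorem pslOf_x_pow (φ : K9 →+* F) : pslOf φ xK xK_det ^ 3 = 1 := by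
  unfold pslOf
  rw [← QuotientGroup.mk_pow, slOf_x_pow]
  rfl

theorem pslOf_y_pow (φ : K9 →+* F) : pslOf φ yK yK_det ^ 5 = 1 := by
  unfold pslOf
  rw [← QuotientGroup.mk_pow, slOf_y_pow]
  rfl

theorem pslOf_xy_pow (φ : K9 →+* F) : (pslOf φ xK xK_det * pslOf φ yK yK_det) ^ 2 = 1 := by
  unfold pslOf
  rw [← QuotientGroup.mk_mul, ← QuotientGroup.mk_pow, slOf_xy_pow]
  exact (QuotientGroup.eq_one_iff _).2 neg_one_mem_center

/-- A lower unitriangular matrix. -/
def lF : Matrix.SpecialLinearGroup (Fin 2) F := ⟨!![1, 0; 1, 1], by simp [Matrix.det_fin_two]⟩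

omit [Fintype F] in
theorem lF_coe : ((lF : Matrix.SpecialLinearGroup (Fin 2) F) : Matrix (Fin 2) (Fin 2) F)
    = !![1, 0; 1, 1] := rfl

theorem pslOf_x_ne_one (φ : K9 →+* F) : pslOf φ xK xK_det ≠ 1 := by
  unfold pslOf
  intro h
  rw [QuotientGroup.eq_one_iff, Subgroup.mem_center_iff] at h
  have h1 := h lF
  have h2 := congrArg (fun A : Matrix.SpecialLinearGroup (Fin 2) F =>
    (A : Matrix (Fin 2) (Fin 2) F) 0 0) h1
  rw [Matrix.SpecialLinearGroup.coe_mul, Matrix.SpecialLinearGroup.coe_mul, slOf_coe,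
    lF_coe] at h2
  simp [xK, Matrix.mul_apply, Fin.sum_univ_two, RingHom.mapMatrix_apply] at h2

/-- The homomorphism from the presented group. -/
noncomputable def ψ (φ : K9 →+* F) :
    PresentedGroup Cfsg.Agent.S3377.rels →* Matrix.ProjectiveSpecialLinearGroup (Fin 2) F :=
  PresentedGroup.toGroup (f := ![pslOf φ xK xK_det, pslOf φ yK yK_det]) (by
    intro r hr
    rcases hr with rfl | rfl | rfl
    · simpa using pslOf_x_pow φ
    · simpa using pslOf_y_pow φ
    · simpa using pslOf_xy_pow φ)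

theorem ψ_of0 (φ : K9 →+* F) : ψ φ (PresentedGroup.of 0) = pslOf φ xK xK_det := by
  unfold ψ
  rw [PresentedGroup.toGroup.of]
  rfl

end

/-- PSL_2(9) is isomorphic to A_6. -/
theorem result {F : Type*} [Field F] [Fintype F] (hF : Fintype.card F = 9) : Nonempty (Matrix.ProjectiveSpecialLinearGroup (Fin 2) F ≃* alternatingGroup (Fin 6)) := by
  classical
  have h2 : (2 : F) ≠ 0 := two_ne_zero_of_odd_card (by rw [hF]; decide)
  have hcard : Nat.card (Matrix.ProjectiveSpecialLinearGroup (Fin 2) F) = 360 := by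
    have h := card_PSL_mul_card_center (Fin 2) F
    rw [card_center_SL2_of_two_ne_zero h2, card_SL2, hF] at h
    have h' : Nat.card (Matrix.ProjectiveSpecialLinearGroup (Fin 2) F) * 2 = 720 := h
    omega
  haveI : IsSimpleGroup (Matrix.ProjectiveSpecialLinearGroup (Fin 2) F) :=
    Matrix.ProjectiveSpecialLinearGroup.rank_two_simple (by
      rw [Nat.card_eq_fintype_card, hF]; norm_num)
  haveI : Finite (Matrix.ProjectiveSpecialLinearGroup (Fin 2) F) :=
    Nat.finite_of_card_ne_zero (by rw [hcard]; norm_num)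
  obtain ⟨φ⟩ := exists_ringHom hF
  obtain ⟨e⟩ := Cfsg.Agent.S3377.result
  -- the homomorphism from `A₅`
  let θ : alternatingGroup (Fin 5) →* Matrix.ProjectiveSpecialLinearGroup (Fin 2) F :=
    (ψ φ).comp e.symm.toMonoidHom
  haveI : IsSimpleGroup (alternatingGroup (Fin 5)) := alternatingGroup.isSimpleGroup (by simp)
  have hker : θ.ker = ⊥ := by
    rcases (MonoidHom.normal_ker θ).eq_bot_or_eq_top with h | h
    · exact h
    · exfalso
      have h1 : θ (e (PresentedGroup.of 0)) = 1 := by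
        rw [← MonoidHom.mem_ker, h]
        trivial
      have h3 : θ (e (PresentedGroup.of 0)) = pslOf φ xK xK_det := by
        simp only [θ, MonoidHom.comp_apply, MulEquiv.coe_toMonoidHom, MulEquiv.symm_apply_apply]
        exact ψ_of0 φ
      exact pslOf_x_ne_one φ (h3 ▸ h1)
  have hinj : Function.Injective θ := (MonoidHom.ker_eq_bot_iff θ).1 hker
  have hrange : Nat.card θ.range = 60 := by
    rw [← Nat.card_congr (MonoidHom.ofInjective hinj).toEquiv, nat_card_alternatingGroup,
      Nat.card_eq_fintype_card, Fintype.card_fin]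
    decide
  have hidx : θ.range.index = 6 := by
    have := θ.range.index_mul_card
    rw [hrange, hcard] at this
    omega
  have hne : θ.range ≠ ⊤ := by
    intro h
    rw [h] at hidx
    simp at hidx
  haveI : Fintype (Matrix.ProjectiveSpecialLinearGroup (Fin 2) F ⧸ θ.range) := Fintype.ofFinite _
  exact nonempty_mulEquiv_alternatingGroup_of_card _
    (Cfsg.Agent.S0494.toPermHom_injective_of_ne_top θ.range hne) 6
    (by rw [← Nat.card_eq_fintype_card]; exact hidx) (by rw [hcard]; decide)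

end Cfsg.Agent.S0254
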