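import Mathlib
import Cfsg.Agent.Lib.Helper5.PSL2
import Cfsg.Agent.Lib.Helper5.SLGen
import Cfsg.Statements.S0257

set_option autoImplicit false
open Cfsg

namespace Cfsg.Agent.S0257

open Matrix Cfsg.Agent.Lib.Helper5

/-- The element `[0 -1; 1 0]` of `SL_2(3)`. -/
def A3 : Matrix.SpecialLinearGroup (Fin 2) (ZMod 3) := ⟨!![0, -1; 1, 0], by decide⟩
/-- The element `[1 1; 1 -1]` of `SL_2(3)`. -/
def X3 : Matrix.SpecialLinearGroup (Fin 2) (ZMod 3) := ⟨!![1, 1; 1, -1], by decide⟩

/-- The embedding of the quaternion group in `SL_2(3)`. -/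
def f0 : QuaternionGroup 2 → Matrix.SpecialLinearGroup (Fin 2) (ZMod 3)
  | .a i => A3 ^ i.val
  | .xa i => X3 * A3 ^ i.val

set_option maxRecDepth 10000 in
theorem f0_mul : ∀ x y : QuaternionGroup 2, f0 (x * y) = f0 x * f0 y := by
  decide

set_option maxRecDepth 10000 in
theorem f0_inj : ∀ x y : QuaternionGroup 2, f0 x = f0 y → x = y := by
  decide

theorem map_injective {R S : Type*} [CommRing R] [CommRing S] (e : R →+* S)
    (he : Function.Injective e) :
    Function.Injective (Matrix.SpecialLinearGroup.map (n := Fin 2) e) := by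
  intro a b h
  ext i j
  have := congrArg (fun g : Matrix.SpecialLinearGroup (Fin 2) S => g.1 i j) h
  simp only [Matrix.SpecialLinearGroup.map_apply_coe, RingHom.mapMatrix_apply,
    Matrix.map_apply] at this
  exact he this

/-- A subgroup of index 3 and order 8 in `SL_2(3)` is normal. -/
theorem normal_of_index_three {F : Type*} [Field F] [Fintype F] (hF : Fintype.card F = 3)
    (Q : Subgroup (Matrix.SpecialLinearGroup (Fin 2) F)) (hidx : Q.index = 3)
    (hcard : Nat.card Q = 8) : Q.Normal := by
  classical
  haveI : Fact (Nat.Prime 3) := ⟨by norm_num⟩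
  haveI : CharP F 3 := charP_of_card_eq_prime hF
  have h3 : (3 : F) = 0 := by exact_mod_cast CharP.cast_eq_zero F 3
  have hfin : Finite (Matrix.SpecialLinearGroup (Fin 2) F ⧸ Q) := by
    apply Nat.finite_of_card_ne_zero
    change Q.index ≠ 0
    rw [hidx]; norm_num
  haveI : Fintype (Matrix.SpecialLinearGroup (Fin 2) F ⧸ Q) := Fintype.ofFinite _
  have hcardq : Fintype.card (Matrix.SpecialLinearGroup (Fin 2) F ⧸ Q) = 3 := by
    rw [← Nat.card_eq_fintype_card]; exact hidx
  set φ := MulAction.toPermHom (Matrix.SpecialLinearGroup (Fin 2) F)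
    (Matrix.SpecialLinearGroup (Fin 2) F ⧸ Q) with hφ
  have hsign : ∀ g : Matrix.SpecialLinearGroup (Fin 2) F, Equiv.Perm.sign (φ g) = 1 := by
    intro g
    refine transvection_induction
      (fun g => Equiv.Perm.sign (φ g) = 1) ?_ ?_ g
    · intro i j hij c
      have hpow : (Matrix.SpecialLinearGroup.transvection hij c) ^ 3 = 1 := by
        rw [pow_succ, pow_two, ← Matrix.SpecialLinearGroup.transvection_add,
          ← Matrix.SpecialLinearGroup.transvection_add]
        have : c + c + c = 0 := by linear_combination c * h3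
        rw [this, Matrix.SpecialLinearGroup.transvection_coeff_zero]
      have h1 : Equiv.Perm.sign (φ (Matrix.SpecialLinearGroup.transvection hij c)) ^ 3 = 1 := by
        rw [← map_pow, ← map_pow, hpow, map_one, map_one]
      rcases Int.units_eq_one_or
        (Equiv.Perm.sign (φ (Matrix.SpecialLinearGroup.transvection hij c))) with h | h
      · exact h
      · rw [h] at h1
        exact absurd h1 (by decide)
    · intro a b ha hb
      rw [map_mul, map_mul, ha, hb, mul_one]
  have hrange : φ.range ≤ alternatingGroup (Matrix.SpecialLinearGroup (Fin 2) F ⧸ Q) := by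
    rintro _ ⟨g, rfl⟩
    exact Equiv.Perm.mem_alternatingGroup.2 (hsign g)
  haveI : Nontrivial (Matrix.SpecialLinearGroup (Fin 2) F ⧸ Q) :=
    Fintype.one_lt_card_iff_nontrivial.1 (by rw [hcardq]; norm_num)
  have halt : Nat.card (alternatingGroup (Matrix.SpecialLinearGroup (Fin 2) F ⧸ Q)) = 3 := by
    have := two_mul_nat_card_alternatingGroup (α := Matrix.SpecialLinearGroup (Fin 2) F ⧸ Q)
    rw [Nat.card_eq_fintype_card (α := Equiv.Perm _), Fintype.card_perm, hcardq] at this
    have h6 : Nat.factorial 3 = 6 := by decide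
    omega
  have hr3 : Nat.card φ.range ≤ 3 := halt ▸ Subgroup.card_le_of_le hrange
  have hker : φ.ker.index * Nat.card φ.ker = 24 := by
    rw [Subgroup.index_mul_card, card_SL2, hF]; rfl
  rw [Subgroup.index_ker] at hker
  have hk8 : 8 ≤ Nat.card φ.ker := by
    by_contra hlt
    push Not at hlt
    have : Nat.card φ.range * Nat.card φ.ker ≤ 3 * 7 := Nat.mul_le_mul hr3 (by omega)
    omega
  have hle : φ.ker ≤ Q := by
    rw [hφ, ← Subgroup.normalCore_eq_ker]
    exact Subgroup.normalCore_le Q
  have heq : φ.ker = Q := Subgroup.eq_of_le_of_card_ge hle (by rw [hcard]; exact hk8)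
  rw [← heq]
  infer_instance

/-- SL_2(3) has a normal subgroup of index 3 isomorphic to the quaternion group of order 8, and its centre has order 2. -/
theorem result {F : Type*} [Field F] [Fintype F] (hF : Fintype.card F = 3) : (∃ Q : Subgroup (Matrix.SpecialLinearGroup (Fin 2) F), Q.Normal ∧ Q.index = 3 ∧ Nonempty (Q ≃* QuaternionGroup 2)) ∧ Nat.card (Subgroup.center (Matrix.SpecialLinearGroup (Fin 2) F)) = 2 := by
  haveI : Fact (Nat.Prime 3) := ⟨by norm_num⟩
  haveI : CharP F 3 := charP_of_card_eq_prime hF
  constructor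
  · let e : ZMod 3 →+* F := ZMod.castHom (dvd_refl 3) F
    have he : Function.Injective e := e.injective
    let f : QuaternionGroup 2 →* Matrix.SpecialLinearGroup (Fin 2) F :=
      (Matrix.SpecialLinearGroup.map e).comp (MonoidHom.mk' f0 f0_mul)
    have hf : Function.Injective f := by
      intro x y h
      exact f0_inj x y (map_injective e he h)
    have hcard : Nat.card f.range = 8 := by
      rw [← Nat.card_congr (MonoidHom.ofInjective hf).toEquiv, Nat.card_eq_fintype_card,
        QuaternionGroup.card]
    have hidx : f.range.index = 3 := by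
      have h := f.range.index_mul_card
      rw [hcard, card_SL2, hF] at h
      omega
    exact ⟨f.range, normal_of_index_three hF f.range hidx hcard, hidx,
      ⟨(MonoidHom.ofInjective hf).symm⟩⟩
  · exact card_center_SL2_of_two_ne_zero (two_ne_zero_of_odd_card (by rw [hF]; decide))

end Cfsg.Agent.S0257
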