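-- Statement S0261: Sylow 2-subgroups of SL_2(q), q odd, are generalized quaternion.
import Mathlib
import Cfsg.Statements.S0261
import Cfsg.Agent.S0016

set_option autoImplicit false
open Cfsg

namespace Cfsg.Agent.S0261

open Matrix

/-- An element of `SL₂` squaring to `1`, other than `1`, is `-1`. -/
lemma entries_of_sq_eq_one {F : Type*} [Field F] (h2 : (2 : F) ≠ 0)
    (A : SpecialLinearGroup (Fin 2) F) (hA : A ^ 2 = 1) (hA1 : A ≠ 1) :
    A 0 0 = -1 ∧ A 0 1 = 0 ∧ A 1 0 = 0 ∧ A 1 1 = -1 := by
  have hdet : A 0 0 * A 1 1 - A 0 1 * A 1 0 = 1 := by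
    have h := A.det_coe
    rw [Matrix.det_fin_two] at h
    exact h
  have hsq : (A : Matrix (Fin 2) (Fin 2) F) * (A : Matrix (Fin 2) (Fin 2) F) = 1 := by
    have h := congrArg (fun B : SpecialLinearGroup (Fin 2) F => (B : Matrix (Fin 2) (Fin 2) F)) hA
    simpa [pow_two] using h
  have h00 : A 0 0 * A 0 0 + A 0 1 * A 1 0 = 1 := by
    have h := congrFun (congrFun hsq 0) 0
    simpa [Matrix.mul_apply, Fin.sum_univ_two] using h
  have h01 : A 0 0 * A 0 1 + A 0 1 * A 1 1 = 0 := by
    have h := congrFun (congrFun hsq 0) 1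
    simpa [Matrix.mul_apply, Fin.sum_univ_two] using h
  have h10 : A 1 0 * A 0 0 + A 1 1 * A 1 0 = 0 := by
    have h := congrFun (congrFun hsq 1) 0
    simpa [Matrix.mul_apply, Fin.sum_univ_two] using h
  by_cases hs : A 0 0 + A 1 1 = 0
  · exfalso
    apply h2
    linear_combination (-1 : F) * h00 - hdet + A 0 0 * hs
  · have hb : A 0 1 = 0 := by
      have h : A 0 1 * (A 0 0 + A 1 1) = 0 := by linear_combination h01
      rcases mul_eq_zero.mp h with h | h
      · exact h
      · exact absurd h hs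
    have hc : A 1 0 = 0 := by
      have h : A 1 0 * (A 0 0 + A 1 1) = 0 := by linear_combination h10
      rcases mul_eq_zero.mp h with h | h
      · exact h
      · exact absurd h hs
    have ha2 : A 0 0 * A 0 0 = 1 := by
      rw [hb] at h00
      simpa using h00
    have had : A 0 0 * A 1 1 = 1 := by
      rw [hb] at hdet
      simpa using hdet
    have ha0 : A 0 0 ≠ 0 := by
      intro h
      rw [h] at ha2
      simp at ha2
    have hda : A 1 1 = A 0 0 := by
      have h : A 0 0 * (A 1 1 - A 0 0) = 0 := by linear_combination had - ha2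
      rcases mul_eq_zero.mp h with h | h
      · exact absurd h ha0
      · linear_combination h
    have h : (A 0 0 - 1) * (A 0 0 + 1) = 0 := by linear_combination ha2
    rcases mul_eq_zero.mp h with h | h
    · exfalso
      apply hA1
      have ha1 : A 0 0 = 1 := by linear_combination h
      apply Matrix.SpecialLinearGroup.ext
      intro i j
      fin_cases i <;> fin_cases j <;> simp [ha1, hb, hc, hda]
    · have ha1 : A 0 0 = -1 := by linear_combination h
      exact ⟨ha1, hb, hc, by rw [hda, ha1]⟩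

/-- matrix identity: the fourth power of the standard element of order `4`. -/
lemma X4 {F : Type*} [Field F] : (!![0, 1; -1, 0] : Matrix (Fin 2) (Fin 2) F) * !![0, 1; -1, 0] *
    !![0, 1; -1, 0] * !![0, 1; -1, 0] = 1 := by
  simp [Matrix.one_fin_two]

/-- matrix identity: fourth power of the second generator. -/
lemma Y4 {F : Type*} [Field F] (a b : F) (hab' : a ^ 2 + b ^ 2 = -1) :
    (!![a, b; b, -a] : Matrix (Fin 2) (Fin 2) F) * !![a, b; b, -a] * !![a, b; b, -a] *
      !![a, b; b, -a] = 1 := by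
  simp only [Matrix.mul_fin_two, Matrix.one_fin_two]
  congr 1
  · ext i j
    fin_cases i <;> fin_cases j <;> simp <;>
      first
        | ring1
        | linear_combination (a ^ 2 + b ^ 2 - 1) * hab'

/-- matrix identity: the quaternion relation. -/
lemma YXY {F : Type*} [Field F] (a b : F) (hab' : a ^ 2 + b ^ 2 = -1) :
    (!![a, b; b, -a] : Matrix (Fin 2) (Fin 2) F) * !![0, 1; -1, 0] * !![a, b; b, -a] =
      !![0, 1; -1, 0] := by
  simp only [Matrix.mul_fin_two]
  ext i j
  fin_cases i <;> fin_cases j <;> simp <;>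
    first
      | ring1
      | linear_combination hab'
      | linear_combination (-1 : F) * hab'

/-- matrix identity: the two generators do not commute unless `2a = 2b = 0`. -/
lemma XY_comm {F : Type*} [Field F] (a b : F)
    (h : (!![0, 1; -1, 0] : Matrix (Fin 2) (Fin 2) F) * !![a, b; b, -a] =
      !![a, b; b, -a] * !![0, 1; -1, 0]) : 2 * b = 0 ∧ 2 * a = 0 := by
  simp only [Matrix.mul_fin_two] at h
  have h00 := congrFun (congrFun h 0) 0
  have h01 := congrFun (congrFun h 0) 1
  simp at h00 h01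
  constructor
  · linear_combination h00
  · linear_combination (-1 : F) * h01

/-- For q odd, the Sylow 2-subgroups of SL_2(q) are generalised quaternion. -/
theorem result {F : Type*} [Field F] [Fintype F] (hF : Odd (Fintype.card F)) (P : Sylow 2 (Matrix.SpecialLinearGroup (Fin 2) F)) : ∃ k : ℕ, 1 ≤ k ∧ Nonempty ((P : Subgroup (Matrix.SpecialLinearGroup (Fin 2) F)) ≃* QuaternionGroup (2 ^ k)) := by
  classical
  have h2 : (2 : F) ≠ 0 := by
    intro h
    have h1 : ringChar F = 2 :=
      CharP.ringChar_of_prime_eq_zero Nat.prime_two (by exact_mod_cast h)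
    have h3 := FiniteField.even_card_of_char_two h1
    rw [Nat.odd_iff] at hF
    omega
  have hfin : Finite (Matrix.SpecialLinearGroup (Fin 2) F) :=
    Finite.of_injective (fun A : Matrix.SpecialLinearGroup (Fin 2) F =>
      (A : Matrix (Fin 2) (Fin 2) F)) Subtype.val_injective
  have huniq_inv : ∀ A B : Matrix.SpecialLinearGroup (Fin 2) F,
      A ^ 2 = 1 → A ≠ 1 → B ^ 2 = 1 → B ≠ 1 → A = B := by
    intro A B hA hA1 hB hB1
    obtain ⟨a1, a2, a3, a4⟩ := entries_of_sq_eq_one h2 A hA hA1
    obtain ⟨b1, b2, b3, b4⟩ := entries_of_sq_eq_one h2 B hB hB1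
    apply Matrix.SpecialLinearGroup.ext
    intro i j
    fin_cases i <;> fin_cases j <;> simp [a1, a2, a3, a4, b1, b2, b3, b4]
  have huniq : ∀ A B : Subgroup ↥(P : Subgroup (Matrix.SpecialLinearGroup (Fin 2) F)),
      Nat.card A = 2 → Nat.card B = 2 → A = B := by
    have key : ∀ A : Subgroup ↥(P : Subgroup (Matrix.SpecialLinearGroup (Fin 2) F)),
        Nat.card A = 2 → ∃ x : ↥(P : Subgroup (Matrix.SpecialLinearGroup (Fin 2) F)),
          x ≠ 1 ∧ x ^ 2 = 1 ∧ A = Subgroup.zpowers x := by
      intro A hA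
      have hne : A ≠ ⊥ := by
        intro h
        rw [h, Subgroup.card_bot] at hA
        omega
      obtain ⟨x, hx⟩ := (Subgroup.ne_bot_iff_exists_ne_one).mp hne
      have hx2 : x ^ 2 = 1 := by
        have h := pow_card_eq_one' (G := ↥A) (x := x)
        rw [hA] at h
        exact h
      have hx2' : (x : ↥(P : Subgroup (Matrix.SpecialLinearGroup (Fin 2) F))) ^ 2 = 1 :=
        congrArg Subtype.val hx2
      have hx1' : (x : ↥(P : Subgroup (Matrix.SpecialLinearGroup (Fin 2) F))) ≠ 1 :=
        fun h => hx (Subtype.ext h)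
      refine ⟨x, hx1', hx2', ?_⟩
      symm
      apply Subgroup.eq_of_le_of_card_ge (Subgroup.zpowers_le.mpr x.2)
      rw [hA, Nat.card_zpowers, orderOf_eq_prime hx2' hx1']
    intro A B hA hB
    obtain ⟨x, hx1, hx2, rfl⟩ := key A hA
    obtain ⟨y, hy1, hy2, rfl⟩ := key B hB
    have hxy : x = y := by
      apply Subtype.ext
      exact huniq_inv _ _ (congrArg Subtype.val hx2) (fun h => hx1 (Subtype.ext h))
        (congrArg Subtype.val hy2) (fun h => hy1 (Subtype.ext h))
    rw [hxy]
  -- two non-commuting elements of `P`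
  have hnc : ∃ u v : ↥(P : Subgroup (Matrix.SpecialLinearGroup (Fin 2) F)), u * v ≠ v * u := by
    have hne : NeZero (ringChar F) := ⟨(CharP.char_is_prime F (ringChar F)).ne_zero⟩
    obtain ⟨a, b, hab⟩ := CharP.sq_add_sq F (ringChar F) (-1)
    have hab' : (a : F) ^ 2 + (b : F) ^ 2 = -1 := by simpa using hab
    let x : Matrix.SpecialLinearGroup (Fin 2) F := ⟨!![0, 1; -1, 0], by simp [Matrix.det_fin_two]⟩
    let y : Matrix.SpecialLinearGroup (Fin 2) F := ⟨!![(a : F), (b : F); (b : F), -(a : F)], by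
      rw [Matrix.det_fin_two]
      simp only [Matrix.of_apply, Matrix.cons_val', Matrix.cons_val_zero, Matrix.cons_val_one,
        Matrix.cons_val_fin_one]
      linear_combination (-1 : F) * hab'⟩
    have hx4 : x ^ 4 = 1 := by
      have h : x * x * x * x = 1 := Subtype.ext X4
      rw [← h]; simp [pow_succ]
    have hy4 : y ^ 4 = 1 := by
      have h : y * y * y * y = 1 := Subtype.ext (Y4 (a : F) (b : F) hab')
      rw [← h]; simp [pow_succ]
    have hyxy : y * x * y = x := Subtype.ext (YXY (a : F) (b : F) hab')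
    have hxyne : x * y ≠ y * x := by
      intro h
      obtain ⟨h3, h3'⟩ := XY_comm (a : F) (b : F) (congrArg Subtype.val h)
      have hb0 : (b : F) = 0 := by
        rcases mul_eq_zero.mp h3 with h4 | h4
        · exact absurd h4 h2
        · exact h4
      have ha0 : (a : F) = 0 := by
        rcases mul_eq_zero.mp h3' with h4 | h4
        · exact absurd h4 h2
        · exact h4
      rw [ha0, hb0] at hab'
      norm_num at hab'
    have hpx : IsPGroup 2 ↥(Subgroup.zpowers x) := by
      intro g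
      refine ⟨2, ?_⟩
      obtain ⟨i, hi⟩ := Subgroup.mem_zpowers_iff.mp g.2
      apply Subtype.ext
      rw [Subgroup.coe_pow, ← hi, Subgroup.coe_one, ← zpow_natCast, ← _root_.zpow_mul, mul_comm, _root_.zpow_mul,
        zpow_natCast]
      norm_num
      rw [hx4, _root_.one_zpow]
    have hpy : IsPGroup 2 ↥(Subgroup.zpowers y) := by
      intro g
      refine ⟨2, ?_⟩
      obtain ⟨i, hi⟩ := Subgroup.mem_zpowers_iff.mp g.2
      apply Subtype.ext
      rw [Subgroup.coe_pow, ← hi, Subgroup.coe_one, ← zpow_natCast, ← _root_.zpow_mul, mul_comm, _root_.zpow_mul,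
        zpow_natCast]
      norm_num
      rw [hy4, _root_.one_zpow]
    have h1 : x * y * x⁻¹ = y⁻¹ := by
      calc x * y * x⁻¹ = y⁻¹ * (y * x * y) * x⁻¹ := by group
        _ = y⁻¹ * x * x⁻¹ := by rw [hyxy]
        _ = y⁻¹ := by group
    have hnorm : Subgroup.zpowers x ≤ Subgroup.normalizer (Subgroup.zpowers y : Set _) := by
      rw [Subgroup.zpowers_le]
      apply Subgroup.mem_normalizer_fintype
      intro n hn
      obtain ⟨i, hi⟩ := Subgroup.mem_zpowers_iff.mp hn
      rw [← hi, ← conj_zpow, h1, _root_.inv_zpow]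
      exact Subgroup.inv_mem _ (Subgroup.zpow_mem_zpowers y i)
    have hsup := hpx.to_sup_of_normal_right' hpy hnorm
    obtain ⟨P1, hP1⟩ := hsup.exists_le_sylow
    obtain ⟨g, hg⟩ := MulAction.exists_smul_eq (Matrix.SpecialLinearGroup (Fin 2) F) P1 P
    have hxP1 : x ∈ (P1 : Subgroup (Matrix.SpecialLinearGroup (Fin 2) F)) :=
      hP1 (Subgroup.mem_sup_left (Subgroup.mem_zpowers x))
    have hyP1 : y ∈ (P1 : Subgroup (Matrix.SpecialLinearGroup (Fin 2) F)) :=
      hP1 (Subgroup.mem_sup_right (Subgroup.mem_zpowers y))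
    have hconj : ∀ z ∈ (P1 : Subgroup (Matrix.SpecialLinearGroup (Fin 2) F)),
        g * z * g⁻¹ ∈ (P : Subgroup (Matrix.SpecialLinearGroup (Fin 2) F)) := by
      intro z hz
      have h := (Subgroup.smul_mem_pointwise_smul_iff (a := MulAut.conj g)).mpr hz
      rw [MulAut.smul_def, MulAut.conj_apply] at h
      rw [← hg, Sylow.smul_def, Sylow.pointwise_smul_def]
      exact h
    refine ⟨⟨g * x * g⁻¹, hconj x hxP1⟩, ⟨g * y * g⁻¹, hconj y hyP1⟩, ?_⟩
    intro h
    have h' := congrArg Subtype.val h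
    simp only [Subgroup.coe_mul] at h'
    apply hxyne
    have h'' : g * (x * y) * g⁻¹ = g * (y * x) * g⁻¹ := by
      calc g * (x * y) * g⁻¹ = g * x * g⁻¹ * (g * y * g⁻¹) := by group
        _ = g * y * g⁻¹ * (g * x * g⁻¹) := h'
        _ = g * (y * x) * g⁻¹ := by group
    exact mul_left_cancel (mul_right_cancel h'')
  rcases Cfsg.Agent.S0016.result (G := ↥(P : Subgroup (Matrix.SpecialLinearGroup (Fin 2) F))) 2
    P.isPGroup' huniq with h | ⟨_, n, ⟨e⟩⟩
  · exfalso
    obtain ⟨u, v, huv⟩ := hnc
    obtain ⟨g, hg⟩ := h.exists_generator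
    obtain ⟨i, rfl⟩ := Subgroup.mem_zpowers_iff.mp (hg u)
    obtain ⟨j, rfl⟩ := Subgroup.mem_zpowers_iff.mp (hg v)
    exact huv ((Commute.refl g).zpow_zpow i j).eq
  · refine ⟨n, ?_, ⟨e⟩⟩
    by_contra hn
    have hn0 : n = 0 := by omega
    subst hn0
    obtain ⟨u, v, huv⟩ := hnc
    have hcard : Nat.card (QuaternionGroup (2 ^ 0)) = 2 ^ 2 := by
      rw [Nat.card_eq_fintype_card, QuaternionGroup.card]
      norm_num
    have hcomm := IsPGroup.isMulCommutative_of_card_eq_prime_sq (p := 2) hcard
    apply huv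
    apply e.injective
    rw [map_mul, map_mul]
    exact mul_comm' _ _

end Cfsg.Agent.S0261
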