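import Cfsg.Statements.S0262
import Cfsg.Agent.Lib.Helper40.SLSylow

set_option autoImplicit false
open Cfsg

namespace Cfsg.Agent.S0262

/-- For an odd prime r different from the characteristic, the Sylow r-subgroups of SL_2(q) are cyclic. -/
theorem result {F : Type*} [Field F] [Fintype F] (p : ℕ) [Fact p.Prime] [CharP F p] (r : ℕ) [Fact r.Prime] (hr : r ≠ 2) (hrp : r ≠ p) (R : Sylow r (Matrix.SpecialLinearGroup (Fin 2) F)) : IsCyclic (R : Subgroup (Matrix.SpecialLinearGroup (Fin 2) F)) := by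
  classical
  have hp : p.Prime := Fact.out
  have hr' : r.Prime := Fact.out
  obtain ⟨k, hk⟩ : ∃ k : ℕ, Fintype.card F = p ^ k := by
    obtain ⟨n, _, h⟩ := FiniteField.card F p
    exact ⟨n, h⟩
  have hrq : ¬ r ∣ Fintype.card F := by
    rw [hk]
    intro h
    have h1 := hr'.dvd_of_dvd_pow h
    exact hrp ((Nat.prime_dvd_prime_iff_eq hr' hp).1 h1)
  have hrn : 2 < r := lt_of_le_of_ne hr'.two_le (Ne.symm hr)
  obtain ⟨e⟩ := Cfsg.Agent.Lib.Helper40.sylow_SL_homocyclic (F := F) rfl 2 r hrn hrq R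
  have key : ∀ (a m : ℕ), a ≤ 1 → IsCyclic (Fin a → Multiplicative (ZMod m)) := by
    intro a m ha
    interval_cases a
    · infer_instance
    · exact isCyclic_of_surjective (MulEquiv.funUnique (Fin 1) (Multiplicative (ZMod m))).symm
        (MulEquiv.surjective _)
  have ha1 : ((Finset.Icc 2 2).filter
      (fun i => orderOf ((Fintype.card F : ℕ) : ZMod r) ∣ i)).card ≤ 1 := by
    calc _ ≤ (Finset.Icc 2 2).card := Finset.card_filter_le _ _
      _ = 1 := by simp
  have hc := key _ (r ^ padicValNat r ((Polynomial.cyclotomic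
    (orderOf ((Fintype.card F : ℕ) : ZMod r)) ℤ).eval ((Fintype.card F : ℕ) : ℤ)).natAbs) ha1
  exact isCyclic_of_surjective e.symm e.symm.surjective

end Cfsg.Agent.S0262
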