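import Mathlib
import Cfsg.Agent.Lib.Helper5.ProjLine
import Cfsg.Statements.S0267

set_option autoImplicit false
open Cfsg

namespace Cfsg.Agent.S0267

open Cfsg.Agent.Lib.Helper5.ProjLine
open scoped LinearAlgebra.Projectivization

/-- An embedding of `Fin 3` from three distinct points. -/
def emb3 {α : Type*} (a b c : α) (hab : a ≠ b) (hac : a ≠ c) (hbc : b ≠ c) : Fin 3 ↪ α :=
  ⟨![a, b, c], by
    intro i j h
    fin_cases i <;> fin_cases j <;> simp_all⟩

theorem sl_smul_mk {F : Type*} [Field F] (A : Matrix.SpecialLinearGroup (Fin 2) F)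
    (v : Fin 2 → F) (hv : v ≠ 0) :
    A • Projectivization.mk F v hv = Projectivization.mk F (A • v)
      ((smul_ne_zero_iff_ne A).mpr hv) := rfl

/-- SL_2(q) is 3-transitive on the q+1 points of the projective line if and only if q is even. -/
theorem result {F : Type*} [Field F] [Fintype F] : MulAction.IsMultiplyPretransitive (Matrix.SpecialLinearGroup (Fin 2) F) (Projectivization F (Fin 2 → F)) 3 ↔ ringChar F = 2 := by
  constructor
  · intro h3
    by_contra hF
    obtain ⟨d, hd⟩ := FiniteField.exists_nonsquare hF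
    have hd0 : d ≠ 0 := fun h0 => hd (by rw [h0]; exact ⟨0, by simp⟩)
    have hdne : (![1, d] : Fin 2 → F) ≠ 0 := fun h => by
      have := congrFun h 0
      simp at this
    have h01 : (p0 : ℙ F (Fin 2 → F)) ≠ p1 := by
      rw [p0, p1, Ne, mk_eq_mk_iff_cross]; simp
    have h0c : (p0 : ℙ F (Fin 2 → F)) ≠ p01 := by
      rw [p0, p01, Ne, mk_eq_mk_iff_cross]; simp
    have h1c : (p1 : ℙ F (Fin 2 → F)) ≠ p01 := by
      rw [p1, p01, Ne, mk_eq_mk_iff_cross]; simp
    have h0d : (p0 : ℙ F (Fin 2 → F)) ≠ Projectivization.mk F ![1, d] hdne := by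
      rw [p0, Ne, mk_eq_mk_iff_cross]; simpa using hd0
    have h1d : (p1 : ℙ F (Fin 2 → F)) ≠ Projectivization.mk F ![1, d] hdne := by
      rw [p1, Ne, mk_eq_mk_iff_cross]; simp
    rw [MulAction.isMultiplyPretransitive_iff] at h3
    obtain ⟨A, hA⟩ := h3 (emb3 _ _ _ h01 h0c h1c) (emb3 _ _ _ h01 h0d h1d)
    have e0 := congrArg (fun e : Fin 3 ↪ ℙ F (Fin 2 → F) => e 0) hA
    have e1 := congrArg (fun e : Fin 3 ↪ ℙ F (Fin 2 → F) => e 1) hA
    have e2 := congrArg (fun e : Fin 3 ↪ ℙ F (Fin 2 → F) => e 2) hA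
    simp only [Function.Embedding.smul_apply, emb3] at e0 e1 e2
    change A • p0 = p0 at e0
    change A • p1 = p1 at e1
    change A • p01 = Projectivization.mk F ![1, d] hdne at e2
    rw [p0, sl_smul_mk, mk_eq_mk_iff_cross] at e0
    rw [p1, sl_smul_mk, mk_eq_mk_iff_cross] at e1
    rw [p01, sl_smul_mk, mk_eq_mk_iff_cross] at e2
    simp [Matrix.SpecialLinearGroup.smul_def] at e0 e1 e2
    have hdet : A.1 0 0 * A.1 1 1 - A.1 0 1 * A.1 1 0 = 1 := by
      have := A.2
      rwa [Matrix.det_fin_two] at this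
    rw [← e0, e1] at e2
    rw [← e0, e1] at hdet
    simp at e2 hdet
    apply hd
    have h00 : A.1 0 0 ≠ 0 := left_ne_zero_of_mul (hdet ▸ one_ne_zero)
    refine ⟨(A.1 0 0)⁻¹, ?_⟩
    field_simp
    rw [← e2] at hdet
    linear_combination hdet
  · intro hF
    rw [MulAction.isMultiplyPretransitive_iff]
    intro x y
    have h3 := pgl_three_transitive (F := F)
    rw [MulAction.isMultiplyPretransitive_iff] at h3
    obtain ⟨g, hg⟩ := h3 x y
    induction g using Matrix.ProjGenLinGroup.induction_on with | mk M => ?_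
    obtain ⟨s, hs⟩ := FiniteField.isSquare_of_char_two hF (M.1.det)
    have hdet0 : M.1.det ≠ 0 := Matrix.GeneralLinearGroup.det_ne_zero M
    have hs0 : s ≠ 0 := fun h0 => hdet0 (by rw [hs, h0, mul_zero])
    have hA : (s⁻¹ • M.1).det = 1 := by
      rw [Matrix.det_smul, Fintype.card_fin, hs]
      field_simp
    set A : Matrix.SpecialLinearGroup (Fin 2) F := ⟨s⁻¹ • M.1, hA⟩ with hAdef
    refine ⟨A, ?_⟩
    ext i
    rw [Function.Embedding.smul_apply, ← hg, Function.Embedding.smul_apply]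
    generalize x i = p
    induction p with | h v hv => ?_
    rw [sl_smul_mk, Projectivization.PGL.mk_smul_mk, Projectivization.mk_eq_mk_iff']
    refine ⟨s⁻¹, ?_⟩
    rw [Matrix.SpecialLinearGroup.smul_def]
    simp only [hAdef, Units.smul_def, Matrix.smul_eq_mulVec, Matrix.smul_mulVec]

end Cfsg.Agent.S0267
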