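import Mathlib
import Cfsg.Statements.S0268

set_option autoImplicit false
open Cfsg

namespace Cfsg.Agent.S0268

/-- For q odd, -1 is the unique involution of SL_2(q). -/
theorem result {F : Type*} [Field F] [Fintype F] (hF : Odd (Fintype.card F)) (g : Matrix.SpecialLinearGroup (Fin 2) F) (h1 : g ≠ 1) (h2 : g * g = 1) : (g : Matrix (Fin 2) (Fin 2) F) = -1 := by
  have h2ne : (2 : F) ≠ 0 := by
    apply Ring.two_ne_zero
    intro hc
    have := FiniteField.even_card_of_char_two hc
    rcases hF with ⟨k, hk⟩
    omega
  have hdet : g.1 0 0 * g.1 1 1 - g.1 0 1 * g.1 1 0 = 1 := by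
    have := g.2
    rwa [Matrix.det_fin_two] at this
  have hsq : g.1 * g.1 = 1 := by
    have := congrArg Subtype.val h2
    simpa using this
  have e00 := congrFun (congrFun hsq 0) 0
  have e01 := congrFun (congrFun hsq 0) 1
  have e10 := congrFun (congrFun hsq 1) 0
  have e11 := congrFun (congrFun hsq 1) 1
  simp [Matrix.mul_apply, Fin.sum_univ_two] at e00 e01 e10 e11
  set a := g.1 0 0 with ha
  set b := g.1 0 1 with hb
  set c := g.1 1 0 with hc
  set d := g.1 1 1 with hd
  have htr : a + d ≠ 0 := by
    intro h0
    have hd' : d = -a := by linear_combination h0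
    apply h2ne
    rw [hd'] at hdet
    linear_combination (-1 : F) * (e00 + hdet)
  have hb0 : b = 0 := by
    have : b * (a + d) = 0 := by linear_combination e01
    rcases mul_eq_zero.1 this with h | h
    · exact h
    · exact absurd h htr
  have hc0 : c = 0 := by
    have : c * (a + d) = 0 := by linear_combination e10
    rcases mul_eq_zero.1 this with h | h
    · exact h
    · exact absurd h htr
  have had : a = d := by
    have h1' : a * d = 1 := by rw [hb0] at hdet; linear_combination hdet
    have h2' : a * a = 1 := by rw [hb0] at e00; linear_combination e00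
    have : a * (a - d) = 0 := by linear_combination h2' - h1'
    rcases mul_eq_zero.1 this with h | h
    · rw [h] at h2'; simp at h2'
    · linear_combination h
  have haa : (a - 1) * (a + 1) = 0 := by rw [hb0] at e00; linear_combination e00
  have ha1 : a = -1 := by
    rcases mul_eq_zero.1 haa with h | h
    · exfalso
      apply h1
      have ha1 : a = 1 := by linear_combination h
      ext i j
      fin_cases i <;> fin_cases j
      · simpa using ha1
      · simpa using hb0
      · simpa using hc0
      · simp only [Fin.mk_one, Fin.isValue, Matrix.SpecialLinearGroup.coe_one, Matrix.one_apply_eq]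
        change d = 1
        rw [← had, ha1]
    · linear_combination h
  ext i j
  fin_cases i <;> fin_cases j
  · simpa using ha1
  · simpa using hb0
  · simpa using hc0
  · simp only [Fin.mk_one, Fin.isValue, Matrix.neg_apply, Matrix.one_apply_eq]
    change d = -1
    rw [← had, ha1]

end Cfsg.Agent.S0268
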