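import Cfsg.Statements.S0275
import Cfsg.Agent.Lib.Helper89.Dickson
import Cfsg.Agent.Lib.Helper41.SL2Sylow2
import Cfsg.Agent.Lib.Helper67.SylowLemmas
import Cfsg.Agent.S0016

set_option autoImplicit false
open Cfsg

namespace Cfsg.Agent.S0275

open Cfsg.Agent.Lib.Helper41 in
/-- If p is odd and H is a subgroup of SL_2(q), q a power of p, with more than one Sylow p-subgroup, then the Sylow 2-subgroups of H are generalised quaternion. -/
theorem result {F : Type*} [Field F] [Fintype F] (p : ℕ) [Fact p.Prime] [CharP F p] (hp : p ≠ 2) (H : Subgroup (Matrix.SpecialLinearGroup (Fin 2) F)) (hH : 1 < Nat.card (Sylow p H)) (S : Sylow 2 H) : ∃ k : ℕ, 1 ≤ k ∧ Nonempty ((S : Subgroup H) ≃* QuaternionGroup (2 ^ k)) := by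
  classical
  have h2p : Fact (Nat.Prime 2) := ⟨Nat.prime_two⟩
  have h2 : (2 : F) ≠ 0 := Cfsg.Agent.Lib.Helper89.two_ne_zero_of_char p hp
  have hneg : ∀ s : ↥(S : Subgroup H), s * s = 1 → s ≠ 1 →
      ((s : H) : Matrix.SpecialLinearGroup (Fin 2) F) = negOne := by
    intro s hs hs1
    have hs' : ((s : H) : Matrix.SpecialLinearGroup (Fin 2) F) *
        ((s : H) : Matrix.SpecialLinearGroup (Fin 2) F) = 1 :=
      congrArg (fun x : ↥(S : Subgroup H) => ((x : H) : Matrix.SpecialLinearGroup (Fin 2) F)) hs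
    rcases sq_eq_one_cases h2 _ hs' with h | h
    · exfalso
      apply hs1
      apply Subtype.ext
      apply Subtype.ext
      rw [h]
      rfl
    · exact h
  have haux : ∀ A B : Subgroup ↥(S : Subgroup H), Nat.card A = 2 → Nat.card B = 2 → A ≤ B := by
    intro A B hA hB a ha
    by_cases ha1 : a = 1
    · rw [ha1]
      exact B.one_mem
    · have haa : a * a = 1 := by
        have h := pow_card_eq_one' (G := A) (x := ⟨a, ha⟩)
        rw [hA, pow_two] at h
        exact congrArg Subtype.val h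
      have hBnt : Nontrivial B := by
        rw [← Finite.one_lt_card_iff_nontrivial, hB]
        norm_num
      obtain ⟨b, hb1⟩ := exists_ne (1 : B)
      have hbb : (b : ↥(S : Subgroup H)) * b = 1 := by
        have h := pow_card_eq_one' (G := B) (x := b)
        rw [hB, pow_two] at h
        exact congrArg Subtype.val h
      have hb1' : (b : ↥(S : Subgroup H)) ≠ 1 := fun h => hb1 (Subtype.ext h)
      have hab : a = (b : ↥(S : Subgroup H)) := by
        apply Subtype.ext
        apply Subtype.ext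
        rw [hneg a haa ha1, hneg b hbb hb1']
      rw [hab]
      exact b.2
  have huniq : ∀ A B : Subgroup ↥(S : Subgroup H), Nat.card A = 2 → Nat.card B = 2 → A = B :=
    fun A B hA hB => le_antisymm (haux A B hA hB) (haux B A hB hA)
  -- the Sylow 2-subgroup is not cyclic
  have hnc : ¬ IsCyclic ↥(S : Subgroup H) := by
    intro hcyc
    have hcomm : ∀ a b : ↥(S : Subgroup H), a * b = b * a := by
      intro a b
      obtain ⟨g, hg⟩ := hcyc.exists_generator
      obtain ⟨m, rfl⟩ := Subgroup.mem_zpowers_iff.mp (hg a)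
      obtain ⟨n, rfl⟩ := Subgroup.mem_zpowers_iff.mp (hg b)
      rw [← zpow_add, ← zpow_add, add_comm]
    obtain ⟨K, hKH, ⟨e⟩⟩ := Cfsg.Agent.Lib.Helper89.dickson_sl2 p hp H hH
    obtain ⟨T₀⟩ : Nonempty (Sylow 2 (Matrix.SpecialLinearGroup (Fin 2) (ZMod p))) := inferInstance
    have hoddp : Odd (Fintype.card (ZMod p)) := by
      rw [ZMod.card]
      exact (Fact.out : p.Prime).odd_of_ne_two hp
    obtain ⟨n, t, hn, hn3, htS, hot, -, hcent, -⟩ := sylow_two_structure hoddp T₀
    obtain ⟨s, hsS, hst⟩ : ∃ s ∈ (T₀ : Subgroup (Matrix.SpecialLinearGroup (Fin 2) (ZMod p))),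
        s * t ≠ t * s := by
      by_contra hcon
      push Not at hcon
      have hle : (T₀ : Subgroup (Matrix.SpecialLinearGroup (Fin 2) (ZMod p))) ≤
          Subgroup.zpowers t := fun s hs =>
        hcent s hs (Subgroup.mem_centralizer_singleton_iff.mpr (hcon s hs))
      have h3 := Subgroup.card_le_of_le hle
      rw [hn, Nat.card_zpowers, hot] at h3
      have h4 : 2 ^ n = 2 * 2 ^ (n - 1) := by
        rw [← pow_succ']
        congr 1
        omega
      have h5 : 0 < 2 ^ (n - 1) := Nat.pos_of_ne_zero (by positivity)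
      omega
    obtain ⟨f, hf⟩ : ∃ f : Matrix.SpecialLinearGroup (Fin 2) (ZMod p) →* H,
        Function.Injective f :=
      ⟨(Subgroup.inclusion hKH).comp e.symm.toMonoidHom,
        (Subgroup.inclusion_injective hKH).comp e.symm.injective⟩
    have hQ : IsPGroup 2 ((T₀ : Subgroup (Matrix.SpecialLinearGroup (Fin 2) (ZMod p))).map f) :=
      T₀.isPGroup'.map f
    obtain ⟨S', hS'⟩ := hQ.exists_le_sylow
    obtain ⟨g, hg⟩ := MulAction.exists_smul_eq H S' S
    have key : ∀ x ∈ (S' : Subgroup H), g * x * g⁻¹ ∈ (S : Subgroup H) := by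
      intro x hx
      rw [← hg, Cfsg.Agent.Lib.Helper67.mem_smul_sylow_iff]
      have e1 : g⁻¹ * (g * x * g⁻¹) * g = x := by group
      rw [e1]
      exact hx
    have h1 := key (f s) (hS' (Subgroup.mem_map_of_mem f hsS))
    have h3 := key (f t) (hS' (Subgroup.mem_map_of_mem f htS))
    have hc := hcomm ⟨_, h1⟩ ⟨_, h3⟩
    have hc' : g * f s * g⁻¹ * (g * f t * g⁻¹) = g * f t * g⁻¹ * (g * f s * g⁻¹) :=
      congrArg Subtype.val hc
    have hc'' : f s * f t = f t * f s := by
      have e1 : f s * f t = g⁻¹ * (g * f s * g⁻¹ * (g * f t * g⁻¹)) * g := by group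
      rw [e1, hc']
      group
    apply hst
    apply hf
    rw [map_mul, map_mul, hc'']
  rcases Cfsg.Agent.S0016.result 2 S.isPGroup' huniq with hcyc | ⟨-, n, ⟨e⟩⟩
  · exact absurd hcyc hnc
  · refine ⟨n, ?_, ⟨e⟩⟩
    by_contra h0
    have hn0 : n = 0 := by omega
    subst hn0
    apply hnc
    have hc1 : IsCyclic (QuaternionGroup (2 ^ 0)) := by
      rw [pow_zero]
      exact QuaternionGroup.quaternionGroup_one_isCyclic
    exact isCyclic_of_surjective e.symm.toMonoidHom e.symm.surjective

end Cfsg.Agent.S0275
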