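import Mathlib
import Cfsg.Agent.Lib.Helper5.PSL2
import Cfsg.Agent.Lib.Helper59.PSL2Spec
import Cfsg.Statements.S0276

set_option autoImplicit false
open Cfsg

namespace Cfsg.Agent.S0276

open Cfsg.Agent.Lib.Helper5 Cfsg.Agent.Lib.Helper59

/-- If `n ∣ 4` and `n ∣ m` with `m % 4 ≠ 0` then `n ∣ 2`. -/
theorem dvd_two_of_dvd {n m : ℕ} (h4 : n ∣ 4) (hm : n ∣ m) (hm4 : m % 4 ≠ 0) : n ∣ 2 := by
  have hn : n ∈ Nat.divisors 4 := by simp [h4]
  have hd : Nat.divisors 4 = {1, 2, 4} := by decide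
  rw [hd] at hn
  simp only [Finset.mem_insert, Finset.mem_singleton] at hn
  rcases hn with rfl | rfl | rfl
  · exact one_dvd 2
  · exact dvd_refl 2
  · exact absurd (Nat.mod_eq_zero_of_dvd hm) hm4

/-- For q = 3 or 5 mod 8 the Sylow 2-subgroups of PSL_2(q) are elementary abelian of order 4. -/
theorem result {F : Type*} [Field F] [Fintype F] {q : ℕ} (hF : Fintype.card F = q) (hq : q % 8 = 3 ∨ q % 8 = 5) (P : Sylow 2 (Matrix.ProjectiveSpecialLinearGroup (Fin 2) F)) : IsKleinFour (P : Subgroup (Matrix.ProjectiveSpecialLinearGroup (Fin 2) F)) := by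
  subst hF
  set q := Fintype.card F with hqdef
  have hodd : Odd q := by
    rw [Nat.odd_iff]; omega
  have h2 : (2 : F) ≠ 0 := two_ne_zero_of_odd_card hodd
  -- the order of PSL_2(q)
  have hcard : Nat.card (Matrix.ProjectiveSpecialLinearGroup (Fin 2) F) * 2 = q * (q ^ 2 - 1) := by
    have h := card_PSL_mul_card_center (Fin 2) F
    rw [card_center_SL2_of_two_ne_zero h2, card_SL2] at h
    exact h
  -- it is 4 times an odd number
  obtain ⟨m, hm, hmodd⟩ : ∃ m, Nat.card (Matrix.ProjectiveSpecialLinearGroup (Fin 2) F) = 4 * m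
      ∧ Odd m := by
    rcases hq with h | h
    · obtain ⟨k, hk⟩ : ∃ k, q = 8 * k + 3 := ⟨q / 8, by omega⟩
      refine ⟨q * (4 * k + 1) * (2 * k + 1), ?_, ?_⟩
      · have e : q ^ 2 - 1 = 8 * ((4 * k + 1) * (2 * k + 1)) := by
          rw [hk, Nat.sub_eq_iff_eq_add (Nat.one_le_pow _ _ (by omega))]; ring
        rw [e] at hcard
        have : Nat.card (Matrix.ProjectiveSpecialLinearGroup (Fin 2) F) * 2
            = (4 * (q * (4 * k + 1) * (2 * k + 1))) * 2 := by rw [hcard]; ring
        exact Nat.eq_of_mul_eq_mul_right (by norm_num) this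
      · exact (hodd.mul (by rw [Nat.odd_iff]; omega)).mul (by rw [Nat.odd_iff]; omega)
    · obtain ⟨k, hk⟩ : ∃ k, q = 8 * k + 5 := ⟨q / 8, by omega⟩
      refine ⟨q * (2 * k + 1) * (4 * k + 3), ?_, ?_⟩
      · have e : q ^ 2 - 1 = 8 * ((2 * k + 1) * (4 * k + 3)) := by
          rw [hk, Nat.sub_eq_iff_eq_add (Nat.one_le_pow _ _ (by omega))]; ring
        rw [e] at hcard
        have : Nat.card (Matrix.ProjectiveSpecialLinearGroup (Fin 2) F) * 2
            = (4 * (q * (2 * k + 1) * (4 * k + 3))) * 2 := by rw [hcard]; ring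
        exact Nat.eq_of_mul_eq_mul_right (by norm_num) this
      · exact (hodd.mul (by rw [Nat.odd_iff]; omega)).mul (by rw [Nat.odd_iff]; omega)
  have hm0 : m ≠ 0 := fun h0 => by rw [h0] at hmodd; exact absurd hmodd (by decide)
  have hP4 : Nat.card P = 4 := by
    have h4 : (4 : ℕ).factorization 2 = 2 := by
      have : (4 : ℕ) = 2 ^ 2 := by norm_num
      rw [this, Nat.factorization_pow, Finsupp.smul_apply, Nat.prime_two.factorization_self]
      rfl
    have hmf : m.factorization 2 = 0 :=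
      Nat.factorization_eq_zero_of_not_dvd (fun h => by
        rcases hmodd with ⟨j, hj⟩
        omega)
    rw [Sylow.card_eq_multiplicity, hm, Nat.factorization_mul (by norm_num) hm0,
      Finsupp.add_apply, h4, hmf]
    rfl
  -- the characteristic
  obtain ⟨p, hchar, f, hp, hpf⟩ := FiniteField.card' F
  haveI : Fact p.Prime := ⟨hp⟩
  haveI : CharP F p := hchar
  have hpodd : p ≠ 2 := by
    rintro rfl
    have : Even q := by
      rw [hqdef, hpf]; exact (Nat.even_pow.2 ⟨even_two, f.ne_zero⟩)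
    exact (Nat.not_even_iff_odd.2 hodd) this
  -- every element squares to one
  have hsq : ∀ x : (P : Subgroup (Matrix.ProjectiveSpecialLinearGroup (Fin 2) F)), x ^ 2 = 1 := by
    rintro ⟨x, hx⟩
    have hord4 : orderOf x ∣ 4 := by
      have h1 : orderOf (⟨x, hx⟩ : (P : Subgroup (Matrix.ProjectiveSpecialLinearGroup (Fin 2) F)))
          ∣ Nat.card P := orderOf_dvd_natCard _
      rw [hP4] at h1
      rwa [Subgroup.orderOf_mk] at h1
    obtain ⟨g, rfl⟩ := QuotientGroup.mk_surjective x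
    have hq1 : 1 ≤ q := Fintype.card_pos
    have hsc := sl2_pow_scalar (F := F) p f hpf ((q - 1) / 2) ((q + 1) / 2)
      (by rw [← hpf]; exact ⟨1, by omega⟩) (by rw [← hpf]; exact ⟨1, by omega⟩) g
    have hx2 : orderOf (QuotientGroup.mk g : Matrix.ProjectiveSpecialLinearGroup (Fin 2) F) ∣ 2 := by
      rcases hsc with h | h | h
      · have h1 := orderOf_dvd_of_pow_eq_one ((psl_pow_eq_one_iff g p).2 h)
        have h2' : orderOf (QuotientGroup.mk g : Matrix.ProjectiveSpecialLinearGroup (Fin 2) F)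
            ∣ Nat.gcd 4 p := Nat.dvd_gcd hord4 h1
        have hcop : Nat.gcd 4 p = 1 := by
          have : Nat.Coprime (2 ^ 2) p :=
            Nat.Coprime.pow_left 2 ((Nat.coprime_primes Nat.prime_two hp).2 (Ne.symm hpodd))
          exact this
        rw [hcop] at h2'
        exact h2'.trans (one_dvd 2)
      · have h1 := orderOf_dvd_of_pow_eq_one ((psl_pow_eq_one_iff g _).2 h)
        exact dvd_two_of_dvd hord4 h1 (by omega)
      · have h1 := orderOf_dvd_of_pow_eq_one ((psl_pow_eq_one_iff g _).2 h)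
        exact dvd_two_of_dvd hord4 h1 (by omega)
    apply Subtype.ext
    exact orderOf_dvd_iff_pow_eq_one.1 hx2
  refine ⟨hP4, ?_⟩
  have hdvd : Monoid.exponent (P : Subgroup (Matrix.ProjectiveSpecialLinearGroup (Fin 2) F)) ∣ 2 :=
    Monoid.exponent_dvd_of_forall_pow_eq_one hsq
  rcases (Nat.dvd_prime Nat.prime_two).1 hdvd with h1 | h2
  · exfalso
    rw [Monoid.exp_eq_one_iff] at h1
    have : Nat.card (P : Subgroup (Matrix.ProjectiveSpecialLinearGroup (Fin 2) F)) = 1 :=
      Nat.card_of_subsingleton 1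
    rw [this] at hP4
    exact absurd hP4 (by norm_num)
  · exact h2

end Cfsg.Agent.S0276
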