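import Cfsg.Statements.S0284
import Cfsg.Agent.Lib.Helper45.HermCount

set_option autoImplicit false
open Cfsg

namespace Cfsg.Agent.S0284

open Cfsg.Agent.Lib.Helper45

/-- The standard Hermitian form on F^n, |F| = q^2, has exactly q^(n-1) (q^n - (-1)^n) vectors of norm 1. -/
theorem result {F : Type*} [Field F] [Fintype F] {q : ℕ} (hF : Fintype.card F = q ^ 2) (n : ℕ) : Nat.card {v : Fin n → F // Cfsg.hermForm n F q v v = 1} = (if Even n then q ^ (n - 1) * (q ^ n - 1) else q ^ (n - 1) * (q ^ n + 1)) := by
  classical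
  have h0 : Nat.card {v : Fin n → F // Cfsg.hermForm n F q v v = 1} = hermCnt n F q 1 := by
    rw [Nat.card_eq_fintype_card, Fintype.card_subtype]; rfl
  rw [h0]
  have hq2 := two_le_q hF
  cases n with
  | zero =>
    have h := hermCnt_eq hF 0 (1 : F)
    rw [if_neg one_ne_zero, if_pos (one_pow q)] at h
    have h' : hermCnt 0 F q (1 : F) = 0 := by
      have : ((hermCnt 0 F q (1 : F) : ℕ) : ℤ) = 0 := by rw [h]; rfl
      exact_mod_cast this
    rw [h']; simp
  | succ m =>
    have h := herm_norm_one_card hF m
    apply Nat.cast_injective (R := ℤ)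
    rw [h]
    have hpow : 1 ≤ q ^ (m + 1) := Nat.one_le_pow _ _ (by omega)
    rcases Nat.even_or_odd m with hm | hm
    · have hno : ¬ Even (m + 1) := by
        rw [Nat.not_even_iff_odd]; exact hm.add_one
      rw [if_neg hno, hm.neg_one_pow]
      simp
    · have hev : Even (m + 1) := hm.add_one
      rw [if_pos hev, hm.neg_one_pow]
      simp only [Nat.add_sub_cancel]
      push_cast [Nat.cast_sub hpow]
      ring

end Cfsg.Agent.S0284
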