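import Cfsg.Statements.S0293
import Mathlib
import Cfsg.Agent.S0287
import Cfsg.Agent.Lib.Helper14.POmegaOrder

set_option autoImplicit false
open Cfsg

namespace Cfsg.Agent.S0293

open Cfsg.Agent.Lib.Helper14

/-- gcd(4, q^m - 1) |PΩ^+_{2m}(q)| = q^(m(m-1)) (q^m - 1) prod_{i=1}^{m-1} (q^(2i) - 1), m at least 4 (type D_m). -/
theorem result {F : Type*} [Field F] [Fintype F] {q : ℕ} (hF : Fintype.card F = q) (m : ℕ) (hm : 4 ≤ m) : Nat.gcd 4 (q ^ m - 1) * Nat.card (Cfsg.POmega F (Cfsg.quadFormPlus m F)) = q ^ (m * (m - 1)) * (q ^ m - 1) * ∏ i ∈ Finset.range (m - 1), (q ^ (2 * (i + 1)) - 1) := by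
  have hO := Cfsg.Agent.S0287.result hF m (by omega)
  obtain ⟨E, hE, hE0⟩ := exists_ts_three (plusQF m F)
    (fun j => Sum.inl (Fin.castLE (by omega : 3 ≤ m) j))
    (fun j => Sum.inr (Fin.castLE (by omega : 3 ≤ m) j))
    (fun j => by rw [plusQF_coe]; exact plus_isHypPair m F _)
    (fun i j h => by
      have h' := Sum.inl_injective h
      exact Fin.castLE_injective _ h')
    (fun i j => by simp)
  have hqpos : 0 < q := by rw [← hF]; exact Fintype.card_pos
  have hx : 1 ≤ q ^ m := Nat.one_le_pow _ _ hqpos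
  set N := q ^ (m * (m - 1)) * (q ^ m - 1) *
    ∏ i ∈ Finset.range (m - 1), (q ^ (2 * (i + 1)) - 1) with hN
  have hO' : Nat.card ↥(Cfsg.isometryGroup F (Cfsg.quadFormPlus m F)) = 2 * N := by
    rw [hO, hN]; ring
  rcases Nat.even_or_odd q with hq | hq
  · have h2 : (2 : F) = 0 := by
      have hc : ringChar F = 2 := FiniteField.even_card_iff_char_two.mpr (by
        rw [hF]; exact Nat.even_iff.mp hq)
      have := CharP.cast_eq_zero F (ringChar F)
      rw [hc] at this
      exact_mod_cast this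
    have h := card_pomega_char_two h2 (plusQF m F) (plusQF_nondegenerate m F) _
      (plusQF_coe m F) E hE hE0
    have hxe : q ^ m % 2 = 0 := Nat.even_iff.mp (Nat.even_pow.mpr ⟨hq, by omega⟩)
    have hg : Nat.gcd 4 (q ^ m - 1) = 1 := by
      rw [Nat.gcd_rec]
      have : (q ^ m - 1) % 4 = 1 ∨ (q ^ m - 1) % 4 = 3 := by omega
      rcases this with h | h <;> rw [h] <;> rfl
    rw [hg, one_mul]
    omega
  · have h2 : (2 : F) ≠ 0 := two_ne_zero_of_card_odd (by rw [hF]; exact hq)
    have hiff := neg_one_mem_omega_plus_iff' hF hq m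
    have hxo : q ^ m % 2 = 1 := Nat.odd_iff.mp (Odd.pow hq)
    by_cases h4 : q ^ m % 4 = 1
    · have h := card_pomega_of_mem h2 (plusQF m F) (plusQF_nondegenerate m F) _
        (plusQF_coe m F) E hE hE0 (hiff.mpr h4)
      have hg : Nat.gcd 4 (q ^ m - 1) = 4 :=
        Nat.gcd_eq_left (Nat.dvd_of_mod_eq_zero (by omega))
      rw [hg]
      omega
    · have h := card_pomega_of_not_mem h2 (plusQF m F) (plusQF_nondegenerate m F) _
        (plusQF_coe m F) E hE hE0 (fun hex => h4 (hiff.mp hex))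
      have hg : Nat.gcd 4 (q ^ m - 1) = 2 := by
        rw [Nat.gcd_rec, show (q ^ m - 1) % 4 = 2 by omega]
        rfl
      rw [hg]
      omega

end Cfsg.Agent.S0293
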