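import Cfsg.Statements.S0296
import Mathlib
import Cfsg.Agent.Lib.Helper14.POmegaSimple
import Cfsg.Agent.Lib.Helper14.Forms
import Cfsg.Agent.Lib.Helper14.OmegaInv
import Cfsg.Agent.Lib.Helper44.Char2Forms

set_option autoImplicit false
open Cfsg

namespace Cfsg.Agent.S0296

open Cfsg.Agent.Lib.Helper14

/-- PΩ^+_{2m}(q) is simple for m at least 4. -/
theorem result {F : Type*} [Field F] [Fintype F] (m : ℕ) (hm : 4 ≤ m) : IsSimpleGroup (Cfsg.POmega F (Cfsg.quadFormPlus m F)) := by
  exact pomega_isSimple' _ (plusQF m F) (plusQF_coe m F) (plusQF_nondegenerate m F)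
    (by rw [Fintype.card_sum, Fintype.card_fin]; omega)

end Cfsg.Agent.S0296
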