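import Cfsg.Statements.S0306
import Cfsg.Agent.Lib.Helper45.BinRot
import Cfsg.Agent.S0288
-- import your own Cfsg.Agent.* helpers here

set_option autoImplicit false
open Cfsg

namespace Cfsg.Agent.S0306

/-- GO^-_2(q) is dihedral of order 2(q+1). -/
theorem result {F : Type*} [Field F] [Fintype F] {q : ℕ} (hF : Fintype.card F = q) (a b : F) (hab : ∀ z₁ z₂ : F, z₁ ^ 2 + a * z₁ * z₂ + b * z₂ ^ 2 = 0 → z₁ = 0 ∧ z₂ = 0) : Nonempty (Cfsg.isometryGroup F (Cfsg.quadFormMinus 0 F a b) ≃* DihedralGroup (q + 1)) := by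
  classical
  have h1 := Cfsg.Agent.S0288.result hF 1 le_rfl a b hab
  have hred : ∀ v : (Fin 0 ⊕ Fin 0) ⊕ Fin 2 → F, Cfsg.quadFormMinus 0 F a b v =
      Cfsg.Agent.Lib.Helper45.rBin a b
        (fun i => v ((Equiv.emptySum (Fin 0 ⊕ Fin 0) (Fin 2)).symm i)) := by
    intro v
    simp [Cfsg.quadFormMinus, Cfsg.Agent.Lib.Helper45.rBin]
  obtain ⟨iso⟩ := Cfsg.Agent.Lib.Helper45.isometryGroup_reindex
    (Equiv.emptySum (Fin 0 ⊕ Fin 0) (Fin 2)).symm (Cfsg.Agent.Lib.Helper45.rBin a b)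
    (Cfsg.quadFormMinus 0 F a b) hred
  have hcard : Nat.card (Cfsg.isometryGroup F (Cfsg.Agent.Lib.Helper45.rBin a b)) = 2 * (q + 1) := by
    rw [Nat.card_congr iso.toEquiv]
    have h2 : Nat.card (Cfsg.isometryGroup F (Cfsg.quadFormMinus 0 F a b)) =
        2 * q ^ (1 * (1 - 1)) * (q ^ 1 + 1) *
          ∏ i ∈ Finset.range (1 - 1), (q ^ (2 * (i + 1)) - 1) := h1
    rw [h2]
    simp
  obtain ⟨d⟩ := Cfsg.Agent.Lib.Helper45.binary_dihedral a b hab hF hcard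
  exact ⟨iso.symm.trans d⟩

end Cfsg.Agent.S0306
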