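import Cfsg.Statements.S0316
import Cfsg.Agent.Lib.Helper6.BN

set_option autoImplicit false
open Cfsg

namespace Cfsg.Agent.S0316

/-- The map `J ↦ P_J` is a lattice isomorphism from the power set of the set of distinguished generators onto the
subgroups containing `B`. -/
theorem result {G : Type*} [Group G] (P : Cfsg.BNPair G) :
    ∃ e : Set P.S ≃o {M : Subgroup G // P.B ≤ M},
      ∀ J : Set P.S, ((e J : {M : Subgroup G // P.B ≤ M}) : Subgroup G) = P.parabolic (Subtype.val '' J) := by
  classical
  refine ⟨{ toFun := fun J => ⟨P.parabolic (Subtype.val '' J), le_sup_left⟩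
            invFun := fun M => {s : P.S | (s : G) ∈ M.1}
            left_inv := ?_
            right_inv := ?_
            map_rel_iff' := ?_ }, fun J => rfl⟩
  · intro J
    ext s
    have hsub : (Subtype.val '' J : Set G) ⊆ P.S := by
      rintro x ⟨y, _, rfl⟩; exact y.2
    constructor
    · intro h
      have h1 := Cfsg.Agent.Lib.Helper6.BN.mem_of_mem_parabolic P hsub s.2 h
      obtain ⟨y, hy, hys⟩ := h1
      have : y = s := Subtype.ext hys
      rw [← this]; exact hy
    · intro h
      exact (le_sup_right : _ ≤ P.parabolic _) (Subgroup.subset_closure ⟨s, h, rfl⟩)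
  · intro M
    apply Subtype.ext
    have e : (Subtype.val '' {s : P.S | (s : G) ∈ M.1} : Set G) = P.S ∩ (M.1 : Set G) := by
      ext x
      constructor
      · rintro ⟨y, hy, rfl⟩; exact ⟨y.2, hy⟩
      · rintro ⟨hx1, hx2⟩; exact ⟨⟨x, hx1⟩, hx2, rfl⟩
    show P.parabolic (Subtype.val '' {s : P.S | (s : G) ∈ M.1}) = M.1
    rw [e]
    exact (Cfsg.Agent.Lib.Helper6.BN.eq_parabolic P M.2).symm
  · intro J K
    have hsubJ : (Subtype.val '' J : Set G) ⊆ P.S := by
      rintro x ⟨y, _, rfl⟩; exact y.2
    have hsubK : (Subtype.val '' K : Set G) ⊆ P.S := by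
      rintro x ⟨y, _, rfl⟩; exact y.2
    show P.parabolic (Subtype.val '' J) ≤ P.parabolic (Subtype.val '' K) ↔ J ≤ K
    rw [Cfsg.Agent.Lib.Helper6.BN.parabolic_le_iff P hsubJ hsubK]
    constructor
    · intro h s hs
      obtain ⟨y, hy, hys⟩ := h ⟨s, hs, rfl⟩
      have : y = s := Subtype.ext hys
      rw [← this]; exact hy
    · rintro h x ⟨y, hy, rfl⟩
      exact ⟨y, h hy, rfl⟩

end Cfsg.Agent.S0316
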