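import Cfsg.Statements.S0320
import Cfsg.Agent.Lib.Helper20.Matsumoto
import Cfsg.Agent.Lib.Helper6.BN

set_option autoImplicit false
open Cfsg

namespace Cfsg.Agent.S0320

open Cfsg.Agent.Lib.Helper20.Matsumoto Cfsg.Agent.Lib.Helper6.BN

theorem sublist_del {α : Type*} : ∀ {A M : List α}, A.Sublist M → A.length + 1 = M.length →
    ∃ L1 t L2, M = L1 ++ t :: L2 ∧ A = L1 ++ L2 := by
  intro A M h
  induction h with
  | slnil => intro h; simp at h
  | cons a h ih =>
    intro hl
    have := h.eq_of_length (by simpa using hl)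
    subst this
    exact ⟨[], a, _, rfl, rfl⟩
  | cons_cons a h ih =>
    intro hl
    obtain ⟨L1, t, L2, rfl, rfl⟩ := ih (by simpa using hl)
    exact ⟨a :: L1, t, L2, rfl, rfl⟩

section

variable {G : Type*} [Group G] (P : Cfsg.BNPair G)

/-- The inclusion of the distinguished representatives into `N`. -/
def inc (s : P.S) : P.N := ⟨(s : G), P.subset s.2⟩

/-- The distinguished involutions of the Weyl group. -/
def fS (s : P.S) : P.N ⧸ (P.B ⊓ P.N).subgroupOf P.N := QuotientGroup.mk (inc P s)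

theorem mk_eq_iff (a b : P.N) :
    (QuotientGroup.mk a : P.N ⧸ (P.B ⊓ P.N).subgroupOf P.N) = QuotientGroup.mk b ↔
      (a : G)⁻¹ * b ∈ P.B := by
  rw [QuotientGroup.eq, Subgroup.mem_subgroupOf]
  simp only [Subgroup.coe_mul, InvMemClass.coe_inv, Subgroup.mem_inf]
  constructor
  · exact fun h => h.1
  · exact fun h => ⟨h, P.N.mul_mem (P.N.inv_mem a.2) b.2⟩

variable [hN : ((P.B ⊓ P.N).subgroupOf P.N).Normal]

theorem wp_eq (L : List P.S) : ∃ n : P.N, wp (fS P) L = QuotientGroup.mk n ∧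
    (n : G) = (L.map Subtype.val).prod := by
  induction L with
  | nil => exact ⟨1, by simp [wp], by simp⟩
  | cons s L ih =>
    obtain ⟨n, h1, h2⟩ := ih
    refine ⟨inc P s * n, ?_, ?_⟩
    · rw [wp_cons, h1]; rfl
    · simp [inc, h2]

theorem isWord_iff (L : List P.S) (n : P.N) :
    IsWord P (L.map Subtype.val) (n : G) ↔ wp (fS P) L = QuotientGroup.mk n := by
  obtain ⟨m, h1, h2⟩ := wp_eq P L
  rw [h1, mk_eq_iff, h2]
  unfold IsWord Eqv
  constructor
  · exact fun h => h.2
  · refine fun h => ⟨?_, h⟩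
    intro x hx
    obtain ⟨y, -, rfl⟩ := List.mem_map.mp hx
    exact y.2

theorem fS_sq (s : P.S) : fS P s * fS P s = 1 := by
  unfold fS
  rw [← QuotientGroup.mk_mul, QuotientGroup.eq_one_iff, Subgroup.mem_subgroupOf]
  exact ⟨P.sq_mem s s.2, P.N.mul_mem (P.subset s.2) (P.subset s.2)⟩

theorem fS_inj : Function.Injective (fS P) := by
  intro s s' h
  unfold fS at h
  rw [mk_eq_iff] at h
  exact Subtype.ext (P.inj s s.2 s' s'.2 h)

theorem fS_gen : Subgroup.closure (Set.range (fS P)) = ⊤ := by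
  rw [eq_top_iff]
  intro w _
  induction w using QuotientGroup.induction_on with
  | H n =>
    obtain ⟨L, hL⟩ := exists_word P n.2
    have hLS := hL.1
    lift L to List P.S using hLS
    rw [← (isWord_iff P L n).mp hL]
    unfold wp
    apply Subgroup.list_prod_mem
    intro x hx
    obtain ⟨y, -, rfl⟩ := List.mem_map.mp hx
    exact Subgroup.subset_closure ⟨y, rfl⟩

theorem fS_exchange (L : List P.S) (s : P.S) (hL : Red (fS P) L) (hnr : ¬ Red (fS P) (s :: L)) :
    ∃ L1 t L2, L = L1 ++ t :: L2 ∧ fS P s * wp (fS P) L1 = wp (fS P) L1 * fS P t := by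
  obtain ⟨n, hn1, hn2⟩ := wp_eq P L
  have hW : IsWord P (L.map Subtype.val) (n : G) := (isWord_iff P L n).mpr hn1
  have hsn : wp (fS P) (s :: L) = QuotientGroup.mk (inc P s * n) := by
    rw [wp_cons, hn1]; rfl
  have hex : ∃ L'', wp (fS P) L'' = wp (fS P) (s :: L) ∧ L''.length < (s :: L).length := by
    by_contra hcon
    apply hnr
    intro L'' hL''
    by_contra hlt
    exact hcon ⟨L'', hL'', by omega⟩
  obtain ⟨L'', hL''w, hL''len⟩ := hex
  have hng : ¬ Good P (s : G) (n : G) := by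
    intro hg
    have hw'' : IsWord P (L''.map Subtype.val) ((s : G) * (n : G)) :=
      (isWord_iff P L'' (inc P s * n)).mpr (hL''w.trans hsn)
    obtain ⟨L3, -, hlen3, hw3⟩ := word_of_good P s.2 n.2 hg hw''
    have hL3S := hw3.1
    lift L3 to List P.S using hL3S
    have h3 : wp (fS P) L3 = wp (fS P) L := ((isWord_iff P L3 n).mp hw3).trans hn1.symm
    have := hL L3 h3
    simp only [List.length_map, List.length_cons] at hlen3 hL''len
    omega
  obtain ⟨L', hsub, hlen, hw'⟩ := exchange P (L.map Subtype.val) (n : G) (s : G) s.2 n.2 hW hng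
  obtain ⟨A, hA, rfl⟩ := List.sublist_map_iff.mp hsub
  simp only [List.length_map] at hlen
  obtain ⟨L1, t, L2, rfl, rfl⟩ := sublist_del hA hlen
  refine ⟨L1, t, L2, rfl, ?_⟩
  have h1 : wp (fS P) (L1 ++ L2) = wp (fS P) (s :: (L1 ++ t :: L2)) :=
    ((isWord_iff P (L1 ++ L2) (inc P s * n)).mp hw').trans hsn.symm
  rw [wp_append, wp_cons, wp_append, wp_cons] at h1
  have h2 : wp (fS P) L1 = fS P s * wp (fS P) L1 * fS P t := by
    apply mul_right_cancel (b := wp (fS P) L2)
    rw [h1]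
    simp only [mul_assoc]
  have ht := fS_sq P t
  calc fS P s * wp (fS P) L1 = fS P s * wp (fS P) L1 * (fS P t * fS P t) := by rw [ht, mul_one]
    _ = (fS P s * wp (fS P) L1 * fS P t) * fS P t := by simp only [mul_assoc]
    _ = wp (fS P) L1 * fS P t := by rw [← h2]

end

/-- The Weyl group `W = N / (B ⊓ N)` of a (B,N)-pair, with its distinguished involutions, is a Coxeter system. -/
theorem result {G : Type*} [Group G] (P : Cfsg.BNPair G)
    [hN : ((P.B ⊓ P.N).subgroupOf P.N).Normal] :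
    ∃ (M : CoxeterMatrix P.S) (cs : CoxeterSystem M (P.N ⧸ (P.B ⊓ P.N).subgroupOf P.N)),
      ∀ s : P.S, cs.simple s = QuotientGroup.mk (⟨(s : G), P.subset s.2⟩ : P.N) := by
  exact coxeter_of_exchange (fS P) (fS_inj P) (fS_sq P) (fS_gen P) (fS_exchange P)

end Cfsg.Agent.S0320
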