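import Cfsg.Statements.S0323
import Mathlib

set_option autoImplicit false
open scoped Pointwise
open Cfsg

namespace Cfsg.Agent.S0323

/-- A doubly transitive action on a set with at least three points yields a (B,N)-pair of rank one:
`B` is the stabiliser of a point `x`, `N` the setwise stabiliser of a pair `{x, y}`. -/
theorem result {G Ω : Type*} [Group G] [MulAction G Ω]
    (h2 : MulAction.IsMultiplyPretransitive G Ω 2) {x y z : Ω} (hxy : x ≠ y) (hyz : y ≠ z) (hxz : x ≠ z) :
    ∃ P : Cfsg.BNPair G, P.B = MulAction.stabilizer G x ∧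
      P.N = MulAction.stabilizer G ({x, y} : Set Ω) ∧ P.rank = 1 := by
  classical
  rw [MulAction.is_two_pretransitive_iff] at h2
  obtain ⟨s, hsx, hsy⟩ := h2 hxy hxy.symm
  have hsy' : s⁻¹ • y = x := by rw [← hsx, inv_smul_smul]
  have hsx' : s⁻¹ • x = y := by rw [← hsy, inv_smul_smul]
  have memN : ∀ n : G, n ∈ MulAction.stabilizer G ({x, y} : Set Ω) ↔
      (n • x = x ∧ n • y = y) ∨ (n • x = y ∧ n • y = x) := by
    intro n
    rw [MulAction.mem_stabilizer_iff, Set.smul_set_insert, Set.smul_set_singleton,
      Set.pair_eq_pair_iff]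
  have memB : ∀ n : G, n ∈ MulAction.stabilizer G x ↔ n • x = x := fun n =>
    MulAction.mem_stabilizer_iff
  have hsN : s ∈ MulAction.stabilizer G ({x, y} : Set Ω) := (memN s).2 (Or.inr ⟨hsx, hsy⟩)
  -- double cosets
  have lemD : ∀ g h : G, g • x ≠ x → h • x ≠ x →
      g ∈ DoubleCoset.doubleCoset h (MulAction.stabilizer G x : Set G) (MulAction.stabilizer G x) := by
    intro g h hg hh
    obtain ⟨b, hbx, hb⟩ := h2 (Ne.symm hh) (Ne.symm hg)
    rw [DoubleCoset.mem_doubleCoset]
    refine ⟨b, (memB b).2 hbx, (b * h)⁻¹ * g, ?_, by group⟩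
    rw [SetLike.mem_coe, memB, mul_smul, inv_smul_eq_iff, mul_smul, hb]
  have lemE : ∀ g h : G, g • x = x → h • x = x →
      g ∈ DoubleCoset.doubleCoset h (MulAction.stabilizer G x : Set G) (MulAction.stabilizer G x) := by
    intro g h hg hh
    rw [DoubleCoset.mem_doubleCoset]
    refine ⟨1, Subgroup.one_mem _, h⁻¹ * g, ?_, by group⟩
    rw [SetLike.mem_coe, memB, mul_smul, hg, inv_smul_eq_iff, hh]
  refine ⟨{ B := MulAction.stabilizer G x
            N := MulAction.stabilizer G ({x, y} : Set Ω)
            S := {s}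
            sup_eq_top := ?_
            conj_mem := ?_
            subset := ?_
            sq_mem := ?_
            inj := ?_
            closure_sup := ?_
            mul_mem_union := ?_
            conj_ne := ?_ }, rfl, rfl, ?_⟩
  · -- sup_eq_top
    rw [eq_top_iff]
    intro g _
    by_cases hg : g • x = x
    · exact (le_sup_left : MulAction.stabilizer G x ≤ _) ((memB g).2 hg)
    · obtain ⟨b, hbx, hb⟩ := h2 (Ne.symm hg) hxy
      have h1 : s * b * g ∈ MulAction.stabilizer G x := by
        rw [memB, mul_smul, mul_smul, hb, hsy]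
      have e : g = b⁻¹ * (s⁻¹ * (s * b * g)) := by group
      rw [e]
      refine Subgroup.mul_mem _ ?_ (Subgroup.mul_mem _ ?_ ?_)
      · exact (le_sup_left : MulAction.stabilizer G x ≤ _) (Subgroup.inv_mem _ ((memB b).2 hbx))
      · exact (le_sup_right : MulAction.stabilizer G ({x, y} : Set Ω) ≤ _) (Subgroup.inv_mem _ hsN)
      · exact (le_sup_left : MulAction.stabilizer G x ≤ _) h1
  · -- conj_mem
    intro n hn t ht
    have htx : t • x = x := (memB t).1 ht.1
    have hty : t • y = y := by
      rcases (memN t).1 ht.2 with h | h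
      · exact h.2
      · exact absurd (htx.symm.trans h.1) hxy
    rw [memB, mul_smul, mul_smul]
    rcases (memN n⁻¹).1 (Subgroup.inv_mem _ hn) with h | h
    · rw [h.1, htx]; exact ((inv_smul_eq_iff).1 h.1).symm
    · rw [h.1, hty]; exact ((inv_smul_eq_iff).1 h.1).symm
  · -- subset
    intro a ha
    rw [Set.mem_singleton_iff] at ha
    rw [ha]; exact hsN
  · -- sq_mem
    intro a ha
    rw [Set.mem_singleton_iff] at ha
    rw [ha, memB, mul_smul, hsx, hsy]
  · -- inj
    intro a ha b hb _
    rw [Set.mem_singleton_iff] at ha hb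
    rw [ha, hb]
  · -- closure_sup
    apply le_antisymm
    · apply sup_le
      · rw [Subgroup.closure_le, Set.singleton_subset_iff]; exact hsN
      · exact inf_le_right
    · intro n hn
      rcases (memN n).1 hn with h | h
      · exact (le_sup_right : _ ≤ Subgroup.closure {s} ⊔ _) ⟨(memB n).2 h.1, hn⟩
      · have h1 : s⁻¹ * n ∈ MulAction.stabilizer G x ⊓ MulAction.stabilizer G ({x, y} : Set Ω) := by
          refine Subgroup.mem_inf.2 ⟨?_, ?_⟩
          · rw [memB, mul_smul, h.1, hsy']
          · rw [memN, mul_smul, mul_smul, h.1, h.2, hsy', hsx']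
            exact Or.inl ⟨rfl, rfl⟩
        have e : n = s * (s⁻¹ * n) := by group
        rw [e]
        exact Subgroup.mul_mem _ ((le_sup_left : Subgroup.closure {s} ≤ _)
          (Subgroup.subset_closure rfl)) ((le_sup_right : _ ≤ Subgroup.closure {s} ⊔ _) h1)
  · -- mul_mem_union
    intro a ha n hn b hb
    rw [Set.mem_singleton_iff] at ha
    subst ha
    have hbx : b • x = x := (memB b).1 hb
    by_cases h1 : (a * b * n) • x = x
    · left
      apply lemE _ _ h1
      rcases (memN n).1 hn with h | h
      · exfalso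
        rw [mul_smul, mul_smul, h.1, hbx, hsx] at h1
        exact hxy h1.symm
      · rw [mul_smul, h.1, hsy]
    · rcases (memN n).1 hn with h | h
      · left
        apply lemD _ _ h1
        rw [mul_smul, h.1, hsx]
        exact hxy.symm
      · right
        apply lemD _ _ h1
        rw [h.1]
        exact hxy.symm
  · -- conj_ne
    intro a ha
    rw [Set.mem_singleton_iff] at ha
    subst ha
    obtain ⟨b, hbx, hby⟩ := h2 hxy hxz
    intro heq
    have h1 : a * b * a ∈ (fun b : G => a * b * a) '' (MulAction.stabilizer G x : Set G) :=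
      ⟨b, (memB b).2 hbx, rfl⟩
    rw [heq, SetLike.mem_coe, memB, mul_smul, mul_smul, hsx, hby] at h1
    apply hyz
    rw [← hsx', ← h1, inv_smul_smul]
  · -- rank
    show Nat.card (({s} : Set G)) = 1
    simp

end Cfsg.Agent.S0323
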