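import Cfsg.Statements.S0326
-- import your own Cfsg.Agent.* helpers here

import Mathlib
import Cfsg.Agent.Lib.Helper37.SzCount

set_option autoImplicit false
open Cfsg

namespace Cfsg.Agent.S0326

open Cfsg.Agent.Lib.Helper37

/-- The Suzuki–Tits ovoid over a finite field with `q` elements has `q² + 1` points. -/
theorem result {F : Type*} [Field F] [Fintype F] (m : ℕ) :
    Nat.card (Cfsg.suzukiOvoid F m) = Fintype.card F ^ 2 + 1 := by
  classical
  rw [← Nat.card_eq_of_bijective _ (szOvoidMap_bijective m), Nat.card_eq_fintype_card,
    Fintype.card_option, Fintype.card_prod]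
  ring

end Cfsg.Agent.S0326
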