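import Cfsg.Statements.S0333
import Mathlib
import Cfsg.Agent.Lib.Helper37.SzTori6


set_option autoImplicit false

open Cfsg

namespace Cfsg.Agent.S0333

open Cfsg.Agent.Lib.Helper37

/-- With `q = 2^(2m+1)` and `r = 2^m`, the Suzuki group has cyclic subgroups of orders `q + 2r + 1` and
`q - 2r + 1`; each is the centraliser of each of its non-identity elements and has index `4` in its normaliser. -/
theorem result {F : Type*} [Field F] [Fintype F] {m : ℕ} (hm : 1 ≤ m)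
    (hF : Fintype.card F = 2 ^ (2 * m + 1)) :
    ∀ k ∈ ({2 ^ (2 * m + 1) + 2 ^ (m + 1) + 1, 2 ^ (2 * m + 1) - 2 ^ (m + 1) + 1} : Set ℕ),
      ∃ U : Subgroup (Cfsg.Sz F m), IsCyclic U ∧ Nat.card U = k ∧
        (∀ u ∈ U, u ≠ 1 → Subgroup.centralizer {u} = U) ∧ Nat.card (Subgroup.normalizer (U : Set (Cfsg.Sz F m))) = 4 * k := by
  obtain ⟨x₁, x₂, hx₁, hx₂, hc1, hc2, hN1, hN2, -⟩ := sz_tori hm hF
  have hle : 2 ^ (m + 1) ≤ 2 ^ (2 * m + 1) := Nat.pow_le_pow_right (by norm_num) (by omega)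
  intro k hk
  rcases hk with rfl | hk
  · refine ⟨Subgroup.centralizer {x₁}, szFpf_centralizer_cyclic hm hF x₁ hx₁, hc1, ?_, ?_⟩
    · intro u hu hu1
      exact szFpf_centralizer_eq hm hF x₁ u hx₁ hu hu1
    · rw [hN1, hc1]
  · rw [Set.mem_singleton_iff] at hk
    have hk' : 2 ^ (2 * m + 1) + 1 - 2 ^ (m + 1) = k := by omega
    rw [hk'] at hc2
    refine ⟨Subgroup.centralizer {x₂}, szFpf_centralizer_cyclic hm hF x₂ hx₂, hc2, ?_, ?_⟩
    · intro u hu hu1
      exact szFpf_centralizer_eq hm hF x₂ u hx₂ hu hu1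
    · rw [hN2, hc2]

end Cfsg.Agent.S0333
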