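import Mathlib
import Cfsg.Statements.S0335
import Cfsg.Agent.Lib.Helper37.SzAction

set_option autoImplicit false
open Cfsg

namespace Cfsg.Agent.S0335

open Cfsg.Agent.Lib.Helper37 Matrix

/-- independence can be checked after moving the points by an element of `SL₄` -/
theorem indep_of_smul {F : Type*} [Field F] (g : Matrix.SpecialLinearGroup (Fin 4) F)
    (w : Fin 3 → Fin 4 → F) (hw : ∀ i, w i ≠ 0) (hl : LinearIndependent F w)
    (P : Fin 3 → Projectivization F (Fin 4 → F))
    (hP : ∀ i, g • P i = Projectivization.mk F (w i) (hw i)) :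
    Projectivization.Independent P := by
  have hv : ∀ i, g⁻¹ • w i ≠ 0 := fun i => (smul_ne_zero_iff_ne g⁻¹).mpr (hw i)
  have hPv : P = fun i => Projectivization.mk F (g⁻¹ • w i) (hv i) := by
    funext i
    rw [← Projectivization.smul_mk g⁻¹ (hw i), ← hP i, inv_smul_smul]
  rw [hPv]
  refine Projectivization.Independent.mk _ hv ?_
  have hinj : Function.Injective (fun v : Fin 4 → F => g⁻¹ • v) := MulAction.injective g⁻¹
  have hlin : LinearIndependent F (fun i => (DistribSMul.toLinearMap F (Fin 4 → F) g⁻¹) (w i)) :=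
    hl.map' _ (LinearMap.ker_eq_bot.2 hinj)
  exact hlin

/-- The Suzuki–Tits point set is an ovoid: any three distinct points of it are projectively independent
(no line of projective 3-space meets it in more than two points). -/
theorem result {F : Type*} [Field F] [Fintype F] {m : ℕ} (hm : 1 ≤ m)
    (hF : Fintype.card F = 2 ^ (2 * m + 1)) (p : Fin 3 ↪ Cfsg.suzukiOvoid F m) :
    Projectivization.Independent (fun i => (p i : Projectivization F (Fin 4 → F))) := by
  have h := szData_of_card hm hF
  have hne : ∀ i j : Fin 3, i ≠ j →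
      (p i : Projectivization F (Fin 4 → F)) ≠ (p j : Projectivization F (Fin 4 → F)) :=
    fun i j hij hp => hij (p.injective (Subtype.ext hp))
  -- move the first point to infinity
  obtain ⟨g, hg, hg0⟩ : ∃ g ∈ Cfsg.Sz F m,
      g • (p 0 : Projectivization F (Fin 4 → F)) = szPInf F := by
    rcases (mem_suzukiOvoid_iff m _).mp (p 0).2 with h0 | ⟨a, b, h0⟩
    · exact ⟨1, one_mem _, by rw [one_smul, h0]⟩
    · refine ⟨szWel h * (szTel (2 ^ (m + 1)) a b)⁻¹,
        mul_mem h.szWel_mem (inv_mem (h.szTel_mem a b)), ?_⟩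
      rw [mul_smul, h0, inv_smul_eq_iff.2 (h.szTel_smul_zero a b).symm, h.szWel_smul_zero]
  have hq : ∀ i : Fin 3, i ≠ 0 → ∃ x y : F,
      g • (p i : Projectivization F (Fin 4 → F)) = szPt (2 ^ (m + 1)) x y := by
    intro i hi
    rcases (mem_suzukiOvoid_iff m _).mp (sz_smul_mem hg (p i).2) with h1 | h1
    · exfalso
      rw [← hg0] at h1
      exact hne i 0 hi (MulAction.injective g h1)
    · exact h1
  obtain ⟨x1, y1, h1⟩ := hq 1 (by decide)
  obtain ⟨x2, y2, h2⟩ := hq 2 (by decide)
  have hxy : ¬ (x1 = x2 ∧ y1 = y2) := by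
    rintro ⟨rfl, rfl⟩
    rw [← h2] at h1
    exact hne 1 2 (by decide) (MulAction.injective g h1)
  refine indep_of_smul g ![szInf F, szv (2 ^ (m + 1)) x1 y1, szv (2 ^ (m + 1)) x2 y2] ?_ ?_ _ ?_
  · intro i
    fin_cases i
    · exact szInf_ne_zero
    · exact szv_ne_zero _ _ _
    · exact szv_ne_zero _ _ _
  · rw [Fintype.linearIndependent_iff]
    intro c hc
    rw [Fin.sum_univ_three] at hc
    have e3 := congrFun hc 3
    have e2 := congrFun hc 2
    have e1 := congrFun hc 1
    have e0 := congrFun hc 0
    simp [szInf, szv] at e3 e2 e1 e0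
    have hc2 : c 2 = -c 1 := by linear_combination e3
    have hc1 : c 1 = 0 := by
      by_contra hc1
      apply hxy
      constructor
      · have : c 1 * (x1 - x2) = 0 := by rw [hc2] at e2; linear_combination e2
        rcases mul_eq_zero.1 this with h' | h'
        · exact absurd h' hc1
        · exact sub_eq_zero.1 h'
      · have : c 1 * (y1 - y2) = 0 := by rw [hc2] at e1; linear_combination e1
        rcases mul_eq_zero.1 this with h' | h'
        · exact absurd h' hc1
        · exact sub_eq_zero.1 h'
    have hc2' : c 2 = 0 := by rw [hc2, hc1, neg_zero]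
    have hc0 : c 0 = 0 := by rw [hc1, hc2'] at e0; simpa using e0
    intro i
    fin_cases i <;> assumption
  · intro i
    fin_cases i
    · exact hg0
    · exact h1
    · exact h2

end Cfsg.Agent.S0335
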