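import Cfsg.Statements.S0339
import Cfsg.Agent.S0035

set_option autoImplicit false
open Cfsg

namespace Cfsg.Agent.S0339

open scoped Pointwise

theorem perm_frobenius {X Ω : Type*} [Group X] [Finite X] [MulAction X Ω]
    [MulAction.IsPretransitive X Ω] (a : Ω) (hb : ∃ b : Ω, b ≠ a)
    (hstab : MulAction.stabilizer X a ≠ ⊥)
    (h2 : ∀ x : X, ∀ b c : Ω, b ≠ c → x • b = b → x • c = c → x = 1) :
    ∃ K : Subgroup X, K.Normal ∧ (∀ k ∈ K, ∀ ω : Ω, k • ω = ω → k = 1) ∧
      (∀ x : X, (∀ ω : Ω, x • ω ≠ ω) → x ∈ K) ∧ (∀ ω ω' : Ω, ∃ k ∈ K, k • ω = ω') := by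
  classical
  have hconj : ∀ (x g : X), x ∈ MulAut.conj g • MulAction.stabilizer X a ↔
      x • (g • a) = g • a := by
    intro x g
    rw [Subgroup.mem_pointwise_smul_iff_inv_smul_mem]
    have e : (MulAut.conj g)⁻¹ • x = g⁻¹ * x * g := by
      rw [MulAut.smul_def, ← map_inv, MulAut.conj_apply, inv_inv]
    rw [e, MulAction.mem_stabilizer_iff, mul_smul, mul_smul, inv_smul_eq_iff]
  have hF : Cfsg.IsFrobeniusComplement (MulAction.stabilizer X a) := by
    refine ⟨hstab, ?_, ?_⟩
    · intro htop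
      obtain ⟨b, hb⟩ := hb
      obtain ⟨x, hx⟩ := MulAction.exists_smul_eq X a b
      have : x ∈ MulAction.stabilizer X a := by rw [htop]; trivial
      exact hb (hx.symm.trans (MulAction.mem_stabilizer_iff.mp this))
    · intro g hg
      rw [eq_bot_iff]
      intro y hy
      rw [Subgroup.mem_inf] at hy
      obtain ⟨hy1, hy2⟩ := hy
      rw [Subgroup.mem_bot]
      apply h2 y a (g • a)
      · intro h
        exact hg (MulAction.mem_stabilizer_iff.mpr h.symm)
      · exact MulAction.mem_stabilizer_iff.mp hy1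
      · exact (hconj y g).mp hy2
  obtain ⟨K, hKset, hKn, hKc⟩ := Cfsg.Agent.S0035.result _ hF
  have hmemK : ∀ x : X, x ∈ K ↔
      (x = 1 ∨ ∀ g : X, x ∉ MulAut.conj g • MulAction.stabilizer X a) := by
    intro x
    rw [← SetLike.mem_coe, hKset]
    rfl
  refine ⟨K, hKn, ?_, ?_, ?_⟩
  · intro k hk ω hω
    rcases (hmemK k).mp hk with h | h
    · exact h
    · exfalso
      obtain ⟨g, rfl⟩ := MulAction.exists_smul_eq X a ω
      exact h g ((hconj k g).mpr hω)
  · intro x hx
    rw [hmemK]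
    right
    intro g hg
    exact hx _ ((hconj x g).mp hg)
  · have hka : ∀ ω : Ω, ∃ k ∈ K, k • a = ω := by
      intro ω
      obtain ⟨x, rfl⟩ := MulAction.exists_smul_eq X a ω
      obtain ⟨⟨k, h⟩, hkh⟩ := hKc.2 x
      have hkh' : (k : X) * h = x := hkh
      refine ⟨k, k.2, ?_⟩
      rw [← hkh', mul_smul, MulAction.mem_stabilizer_iff.mp h.2]
    intro ω ω'
    obtain ⟨k, hk, rfl⟩ := hka ω
    obtain ⟨k', hk', rfl⟩ := hka ω'
    exact ⟨k' * k⁻¹, K.mul_mem hk' (K.inv_mem hk), by rw [mul_smul, inv_smul_smul]⟩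

theorem unique_regular {G Ω : Type*} [Group G] [MulAction G Ω]
    (hfaith' : ∀ g : G, (∀ ω : Ω, g • ω = ω) → g = 1)
    (h3 : ∀ g : G, ∀ a b c : Ω, a ≠ b → b ≠ c → a ≠ c → g • a = a → g • b = b → g • c = c →
      g = 1)
    (N : Subgroup G) (hNprim : MulAction.IsPreprimitive N Ω) (A B : Subgroup G)
    (hAN : A ≤ N) (hBN : B ≤ N)
    (hAn : ∀ n ∈ N, ∀ m ∈ A, n * m * n⁻¹ ∈ A) (hBn : ∀ n ∈ N, ∀ m ∈ B, n * m * n⁻¹ ∈ B)
    (hAtr : ∀ ω ω' : Ω, ∃ m ∈ A, m • ω = ω') (hBtr : ∀ ω ω' : Ω, ∃ m ∈ B, m • ω = ω')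
    (hAfree : ∀ m ∈ A, ∀ ω : Ω, m • ω = ω → m = 1) : A ≤ B := by
  classical
  have hDn : ((A ⊓ B).subgroupOf N).Normal := by
    refine ⟨fun d hd n => ?_⟩
    rw [Subgroup.mem_subgroupOf] at hd ⊢
    exact ⟨hAn n n.2 d hd.1, hBn n n.2 d hd.2⟩
  by_cases hfix : MulAction.fixedPoints ((A ⊓ B).subgroupOf N) Ω = Set.univ
  · have hD : ∀ d, d ∈ A → d ∈ B → d = 1 := by
      intro d hdA hdB
      by_cases hne : Nonempty Ω
      · obtain ⟨ω⟩ := hne
        apply hAfree d hdA ω
        have : ω ∈ MulAction.fixedPoints ((A ⊓ B).subgroupOf N) Ω := by rw [hfix]; trivial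
        exact this ⟨⟨d, hAN hdA⟩, Subgroup.mem_subgroupOf.mpr ⟨hdA, hdB⟩⟩
      · apply hfaith'
        intro ω
        exact absurd ⟨ω⟩ hne
    have hcomm : ∀ x ∈ A, ∀ b ∈ B, x * b = b * x := by
      intro x hx b hb
      have h1 : x * b * x⁻¹ * b⁻¹ ∈ A := by
        have h := A.mul_mem hx (hAn b (hBN hb) x⁻¹ (A.inv_mem hx))
        simpa [mul_assoc] using h
      have h2 : x * b * x⁻¹ * b⁻¹ ∈ B := B.mul_mem (hBn x (hAN hx) b hb) (B.inv_mem hb)
      have h := hD _ h1 h2
      calc x * b = (x * b * x⁻¹ * b⁻¹) * (b * x) := by group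
        _ = b * x := by rw [h, one_mul]
    intro x₀ hx₀
    by_cases hx1 : x₀ = 1
    · rw [hx1]
      exact B.one_mem
    exfalso
    obtain ⟨a⟩ : Nonempty Ω := by
      by_contra hne
      exact hx1 (hfaith' x₀ (fun ω => absurd ⟨ω⟩ hne))
    have key : ∀ x ∈ A, x ≠ 1 → ∃ y : G, y ≠ 1 ∧ ∀ m ∈ A, y • (m • a) = (x * m * x⁻¹) • a := by
      intro x hx hx1
      obtain ⟨b, hb, hba⟩ := hBtr a (x⁻¹ • a)
      refine ⟨x * b, ?_, ?_⟩
      · intro h
        have hxb : x = b⁻¹ := eq_inv_of_mul_eq_one_left h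
        exact hx1 (hD x hx (hxb ▸ B.inv_mem hb))
      · intro m hm
        rw [mul_smul, ← mul_smul b m, ← hcomm m hm b hb, mul_smul, hba, ← mul_smul, ← mul_smul]
    have hsq : ∀ x ∈ A, x * x = 1 := by
      intro x hx
      by_contra hxx
      have hx1 : x ≠ 1 := by
        rintro rfl
        exact hxx (one_mul 1)
      obtain ⟨y, hy1, hy⟩ := key x hx hx1
      apply hy1
      apply h3 y a (x • a) ((x * x) • a)
      · intro h
        exact hx1 (hAfree x hx a h.symm)
      · intro h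
        rw [mul_smul] at h
        exact hx1 (hAfree x hx a (smul_left_cancel x h).symm)
      · intro h
        exact hxx (hAfree (x * x) (A.mul_mem hx hx) a h.symm)
      · have h := hy 1 A.one_mem
        simpa using h
      · have h := hy x hx
        simpa using h
      · have h := hy (x * x) (A.mul_mem hx hx)
        simpa [mul_assoc] using h
    have hAcomm : ∀ x ∈ A, ∀ m ∈ A, x * m = m * x := by
      intro x hx m hm
      have hxi : x⁻¹ = x := inv_eq_of_mul_eq_one_left (hsq x hx)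
      have hmi : m⁻¹ = m := inv_eq_of_mul_eq_one_left (hsq m hm)
      calc x * m = (x * m)⁻¹ := (inv_eq_of_mul_eq_one_left (hsq _ (A.mul_mem hx hm))).symm
        _ = m⁻¹ * x⁻¹ := mul_inv_rev _ _
        _ = m * x := by rw [hmi, hxi]
    obtain ⟨y, hy1, hy⟩ := key x₀ hx₀ hx1
    apply hy1
    apply hfaith'
    intro ω
    obtain ⟨m, hm, rfl⟩ := hAtr a ω
    rw [hy m hm, hAcomm x₀ hx₀ m hm, mul_assoc, mul_inv_cancel, mul_one]
  · haveI := hNprim
    haveI := MulAction.IsQuasiPreprimitive.isPretransitive_of_normal (G := N) (X := Ω)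
      (N := (A ⊓ B).subgroupOf N) hfix
    intro m hm
    by_cases hne : Nonempty Ω
    · obtain ⟨a⟩ := hne
      obtain ⟨d, hd⟩ := MulAction.exists_smul_eq ((A ⊓ B).subgroupOf N) a (m • a)
      have hdAB : ((d : N) : G) ∈ A ⊓ B := Subgroup.mem_subgroupOf.mp d.2
      have hd' : ((d : N) : G) • a = m • a := hd
      have h1 : ((d : N) : G)⁻¹ * m = 1 := by
        apply hAfree _ (A.mul_mem (A.inv_mem hdAB.1) hm) a
        rw [mul_smul, ← hd', inv_smul_smul]
      have h2 : m = ((d : N) : G) := by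
        rw [inv_mul_eq_one] at h1
        exact h1.symm
      rw [h2]
      exact hdAB.2
    · have h : m = 1 := hfaith' m (fun ω => absurd ⟨ω⟩ hne)
      rw [h]
      exact B.one_mem

/-- A non-trivial normal subgroup of a Zassenhaus group is itself a Zassenhaus group on the same set. -/
theorem result {G Ω : Type*} [Group G] [MulAction G Ω] [Finite Ω]
    (hZ : Cfsg.IsZassenhausGroup G Ω) (N : Subgroup G) [N.Normal] (hN : N ≠ ⊥) :
    Cfsg.IsZassenhausGroup N Ω := by
  classical
  obtain ⟨hfaith, h2t, h3, ⟨g₀, hg₀1, a₀, b₀, hab₀, hg₀a, hg₀b⟩, hnoreg⟩ := hZ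
  haveI := hfaith
  haveI : Finite G := Finite.of_injective (MulAction.toPermHom G Ω) MulAction.toPerm_injective
  have hNnorm : N.Normal := inferInstance
  have h2t' : ∀ {a b c d : Ω}, a ≠ b → c ≠ d → ∃ g : G, g • a = c ∧ g • b = d :=
    fun hab hcd => MulAction.is_two_pretransitive_iff.mp h2t hab hcd
  have hfaith' : ∀ g : G, (∀ ω : Ω, g • ω = ω) → g = 1 := by
    intro g hg
    apply FaithfulSMul.eq_of_smul_eq_smul (α := Ω)
    intro ω
    rw [hg ω, one_smul]
  haveI hprim : MulAction.IsPreprimitive G Ω := MulAction.isPreprimitive_of_is_two_pretransitive h2t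
  have hNfix : MulAction.fixedPoints N Ω ≠ Set.univ := by
    intro hfix
    apply hN
    rw [eq_bot_iff]
    intro n hn
    rw [Subgroup.mem_bot]
    apply hfaith'
    intro ω
    have : ω ∈ MulAction.fixedPoints N Ω := by rw [hfix]; trivial
    exact this ⟨n, hn⟩
  haveI hNtr : MulAction.IsPretransitive N Ω :=
    MulAction.IsQuasiPreprimitive.isPretransitive_of_normal (G := G) (X := Ω) (N := N) hNfix
  have h3N : ∀ x : N, ∀ a b c : Ω, a ≠ b → b ≠ c → a ≠ c → x • a = a → x • b = b → x • c = c →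
      x = 1 := by
    intro x a b c hab hbc hac ha hb hc
    exact Subtype.ext (h3 x a b c hab hbc hac ha hb hc)
  -- Claim 1
  have hC1 : ∃ x : N, x ≠ 1 ∧ ∃ a b : Ω, a ≠ b ∧ x • a = a ∧ x • b = b := by
    by_contra hcon
    push Not at hcon
    obtain ⟨a, ha⟩ := hnoreg N inferInstance hNtr
    obtain ⟨K, hKn, hKfree, hKfpf, hKtr⟩ := perm_frobenius (X := N) (Ω := Ω) a
      (by
        rcases eq_or_ne a₀ a with h | h
        · exact ⟨b₀, fun h' => hab₀ (h.trans h'.symm)⟩
        · exact ⟨a₀, h⟩) ha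
      (fun x b c hbc hb hc => by
        by_contra hx
        exact hcon x hx b c hbc hb hc)
    have hM₀n : (K.map N.subtype).Normal := by
      refine ⟨?_⟩
      rintro _ ⟨k, hk, rfl⟩ g
      by_cases hk1 : k = 1
      · subst hk1
        simp
      · have hmem : g * (k : G) * g⁻¹ ∈ N := hNnorm.conj_mem k k.2 g
        refine ⟨⟨g * k * g⁻¹, hmem⟩, ?_, rfl⟩
        apply hKfpf
        intro ω hω
        apply hk1
        apply hKfree k hk (g⁻¹ • ω)
        have hω' : (g * (k : G) * g⁻¹) • ω = ω := hω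
        show (k : G) • g⁻¹ • ω = g⁻¹ • ω
        rw [mul_smul, mul_smul] at hω'
        exact eq_inv_smul_iff.mpr hω'
    have hM₀tr : MulAction.IsPretransitive (K.map N.subtype) Ω := by
      refine ⟨fun ω ω' => ?_⟩
      obtain ⟨k, hk, hkω⟩ := hKtr ω ω'
      exact ⟨⟨(k : G), Subgroup.mem_map_of_mem _ hk⟩, hkω⟩
    obtain ⟨a', ha'⟩ := hnoreg _ hM₀n hM₀tr
    apply ha'
    rw [eq_bot_iff]
    intro m hm
    rw [Subgroup.mem_bot]
    obtain ⟨k, hk, hkm⟩ := m.2
    have hk1 : k = 1 := by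
      apply hKfree k hk a'
      have hm' : (m : G) • a' = a' := hm
      show (k : G) • a' = a'
      have hkm' : (k : G) = m := hkm
      rw [hkm']
      exact hm'
    apply Subtype.ext
    rw [← hkm, hk1]
    rfl
  -- Claim 2
  have hC2 : ∀ c d d' : Ω, d ≠ c → d' ≠ c → ∃ n ∈ N, n • c = c ∧ n • d = d' := by
    obtain ⟨x, hx1, a, b, hab, hxa, hxb⟩ := hC1
    intro c d d' hd hd'
    obtain ⟨g, hga, hgb⟩ := h2t' hab (Ne.symm hd)
    have hyN : g * (x : G) * g⁻¹ ∈ N := hNnorm.conj_mem x x.2 g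
    have hy1 : g * (x : G) * g⁻¹ ≠ 1 := by
      intro h
      apply hx1
      have h' : (x : G) = 1 := by
        have := congrArg (fun z => g⁻¹ * z * g) h
        simpa [mul_assoc] using this
      exact Subtype.ext h'
    have hxa' : (x : G) • a = a := hxa
    have hxb' : (x : G) • b = b := hxb
    have hyc : (g * (x : G) * g⁻¹) • c = c := by
      rw [mul_smul, mul_smul, ← hga, inv_smul_smul, hxa']
    have hyd : (g * (x : G) * g⁻¹) • d = d := by
      rw [mul_smul, mul_smul, ← hgb, inv_smul_smul, hxb']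
    generalize g * (x : G) * g⁻¹ = y at hyN hy1 hyc hyd
    obtain ⟨e, he⟩ : ∃ e : Ω, y • e ≠ e := by
      by_contra hcon
      push Not at hcon
      exact hy1 (hfaith' y hcon)
    have hec : e ≠ c := by
      rintro rfl
      exact he hyc
    have hed : e ≠ d := by
      rintro rfl
      exact he hyd
    have hdmem : d ∈ SubMulAction.ofStabilizer G c := (SubMulAction.mem_ofStabilizer_iff G c).mpr hd
    have hd'mem : d' ∈ SubMulAction.ofStabilizer G c :=
      (SubMulAction.mem_ofStabilizer_iff G c).mpr hd'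
    have hemem : e ∈ SubMulAction.ofStabilizer G c :=
      (SubMulAction.mem_ofStabilizer_iff G c).mpr hec
    haveI : MulAction.IsPretransitive (MulAction.stabilizer G c)
        (SubMulAction.ofStabilizer G c) := by
      refine ⟨fun u v => ?_⟩
      have hu : (u : Ω) ≠ c := (SubMulAction.mem_ofStabilizer_iff G c).mp u.2
      have hv : (v : Ω) ≠ c := (SubMulAction.mem_ofStabilizer_iff G c).mp v.2
      obtain ⟨g', hg'c, hg'u⟩ := h2t' (Ne.symm hu) (Ne.symm hv)
      exact ⟨⟨g', hg'c⟩, Subtype.ext hg'u⟩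
    obtain ⟨K, hKn, hKfree, -, hKtr⟩ := perm_frobenius (X := MulAction.stabilizer G c)
      (Ω := SubMulAction.ofStabilizer G c) ⟨d, hdmem⟩
      ⟨⟨e, hemem⟩, fun h => hed (congrArg Subtype.val h)⟩
      (by
        intro h
        have hmem : (⟨y, hyc⟩ : MulAction.stabilizer G c) ∈
            MulAction.stabilizer (MulAction.stabilizer G c)
              (⟨d, hdmem⟩ : SubMulAction.ofStabilizer G c) := by
          rw [MulAction.mem_stabilizer_iff]
          exact Subtype.ext hyd
        rw [h, Subgroup.mem_bot] at hmem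
        exact hy1 (congrArg Subtype.val hmem))
      (by
        intro z u v huv hzu hzv
        apply Subtype.ext
        have hu : (u : Ω) ≠ c := (SubMulAction.mem_ofStabilizer_iff G c).mp u.2
        have hv : (v : Ω) ≠ c := (SubMulAction.mem_ofStabilizer_iff G c).mp v.2
        exact h3 (z : G) c u v (Ne.symm hu) (fun h => huv (Subtype.ext h)) (Ne.symm hv) z.2
          (congrArg Subtype.val hzu) (congrArg Subtype.val hzv))
    have hmem : ∀ k : K, (k : MulAction.stabilizer G c) * ⟨y, hyc⟩ *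
        (k : MulAction.stabilizer G c)⁻¹ * (⟨y, hyc⟩ : MulAction.stabilizer G c)⁻¹ ∈ K := by
      intro k
      have h1 := hKn.conj_mem _ (K.inv_mem k.2) (⟨y, hyc⟩ : MulAction.stabilizer G c)
      have h2 := K.mul_mem k.2 h1
      simpa [mul_assoc] using h2
    have hinj : Function.Injective (fun k : K => (⟨(k : MulAction.stabilizer G c) * ⟨y, hyc⟩ *
        (k : MulAction.stabilizer G c)⁻¹ * (⟨y, hyc⟩ : MulAction.stabilizer G c)⁻¹, hmem k⟩ : K)) := by
      intro k k' hkk
      have e1 : (k : MulAction.stabilizer G c) * ⟨y, hyc⟩ *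
          (k : MulAction.stabilizer G c)⁻¹ * (⟨y, hyc⟩ : MulAction.stabilizer G c)⁻¹ =
          (k' : MulAction.stabilizer G c) * ⟨y, hyc⟩ *
          (k' : MulAction.stabilizer G c)⁻¹ * (⟨y, hyc⟩ : MulAction.stabilizer G c)⁻¹ :=
        congrArg Subtype.val hkk
      have e1' : ((k : MulAction.stabilizer G c) : G) * y * ((k : MulAction.stabilizer G c) : G)⁻¹ =
          ((k' : MulAction.stabilizer G c) : G) * y * ((k' : MulAction.stabilizer G c) : G)⁻¹ := by
        have := congrArg (fun w : MulAction.stabilizer G c => (w : G)) (mul_right_cancel e1)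
        exact this
      have e2 : (((k' : MulAction.stabilizer G c) : G)⁻¹ * ((k : MulAction.stabilizer G c) : G)) * y =
          y * (((k' : MulAction.stabilizer G c) : G)⁻¹ * ((k : MulAction.stabilizer G c) : G)) := by
        calc (((k' : MulAction.stabilizer G c) : G)⁻¹ * ((k : MulAction.stabilizer G c) : G)) * y
            = ((k' : MulAction.stabilizer G c) : G)⁻¹ * (((k : MulAction.stabilizer G c) : G) * y *
                ((k : MulAction.stabilizer G c) : G)⁻¹) * ((k : MulAction.stabilizer G c) : G) := by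
              group
          _ = ((k' : MulAction.stabilizer G c) : G)⁻¹ * (((k' : MulAction.stabilizer G c) : G) * y *
                ((k' : MulAction.stabilizer G c) : G)⁻¹) * ((k : MulAction.stabilizer G c) : G) := by
              rw [e1']
          _ = y * (((k' : MulAction.stabilizer G c) : G)⁻¹ * ((k : MulAction.stabilizer G c) : G)) := by
              group
      have hzc : (((k' : MulAction.stabilizer G c) : G)⁻¹ * ((k : MulAction.stabilizer G c) : G)) • c = c :=
        ((k' : MulAction.stabilizer G c)⁻¹ * (k : MulAction.stabilizer G c)).2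
      have e3 : ((k' : MulAction.stabilizer G c)⁻¹ * (k : MulAction.stabilizer G c)) •
          (⟨d, hdmem⟩ : SubMulAction.ofStabilizer G c) = ⟨d, hdmem⟩ := by
        by_contra hne
        apply hy1
        apply h3 y c d ((((k' : MulAction.stabilizer G c) : G)⁻¹ *
          ((k : MulAction.stabilizer G c) : G)) • d) (Ne.symm hd) ?_ ?_ hyc hyd ?_
        · intro h
          exact hne (Subtype.ext h.symm)
        · intro h
          apply hd
          have h' : (((k' : MulAction.stabilizer G c) : G)⁻¹ * ((k : MulAction.stabilizer G c) : G)) • c =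
              (((k' : MulAction.stabilizer G c) : G)⁻¹ * ((k : MulAction.stabilizer G c) : G)) • d := by
            rw [hzc]
            exact h
          exact (smul_left_cancel _ h').symm
        · rw [← mul_smul, ← e2, mul_smul, hyd]
      have e4 := hKfree _ (K.mul_mem (K.inv_mem k'.2) k.2) _ e3
      exact Subtype.ext (inv_mul_eq_one.mp e4).symm
    have hsurj := Finite.injective_iff_surjective.mp hinj
    obtain ⟨k₀, hk₀K, hk₀⟩ := hKtr ⟨d, hdmem⟩ ⟨d', hd'mem⟩
    obtain ⟨k, hk⟩ := hsurj ⟨k₀, hk₀K⟩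
    have hk' : ((k : MulAction.stabilizer G c) : G) * y * ((k : MulAction.stabilizer G c) : G)⁻¹ * y⁻¹ =
        (k₀ : G) := congrArg (fun w : K => ((w : MulAction.stabilizer G c) : G)) hk
    refine ⟨(k₀ : G), ?_, k₀.2, congrArg Subtype.val hk₀⟩
    rw [← hk']
    exact N.mul_mem (hNnorm.conj_mem y hyN _) (N.inv_mem hyN)
  have h2N : MulAction.IsMultiplyPretransitive N Ω 2 := by
    rw [MulAction.is_two_pretransitive_iff]
    intro a b c d hab hcd
    obtain ⟨n₁, hn₁⟩ := MulAction.exists_smul_eq N a c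
    have hne : n₁ • b ≠ c := by
      intro h
      rw [← hn₁] at h
      exact hab (smul_left_cancel n₁ h).symm
    obtain ⟨n₂, hn₂N, hn₂c, hn₂d⟩ := hC2 c (n₁ • b) d hne (Ne.symm hcd)
    refine ⟨⟨n₂, hn₂N⟩ * n₁, ?_, ?_⟩
    · rw [mul_smul, hn₁]
      exact hn₂c
    · rw [mul_smul]
      exact hn₂d
  have hNprim : MulAction.IsPreprimitive N Ω := MulAction.isPreprimitive_of_is_two_pretransitive h2N
  refine ⟨⟨fun {n₁ n₂} h => ?_⟩, h2N, h3N, hC1, ?_⟩
  · exact Subtype.ext (FaithfulSMul.eq_of_smul_eq_smul (M := G) (α := Ω) h)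
  · intro M hMn hMtr
    by_contra hcon
    push Not at hcon
    have hM₀free : ∀ m ∈ M.map N.subtype, ∀ ω : Ω, m • ω = ω → m = 1 := by
      rintro _ ⟨m, hm, rfl⟩ ω hω
      have hmem : (⟨m, hm⟩ : M) ∈ MulAction.stabilizer M ω := by
        rw [MulAction.mem_stabilizer_iff]
        exact hω
      rw [hcon ω, Subgroup.mem_bot] at hmem
      have hm1 : m = 1 := congrArg Subtype.val hmem
      rw [hm1]
      rfl
    have hM₀tr : ∀ ω ω' : Ω, ∃ m ∈ M.map N.subtype, m • ω = ω' := by
      intro ω ω'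
      obtain ⟨m, hm⟩ := MulAction.exists_smul_eq M ω ω'
      exact ⟨((m : N) : G), Subgroup.mem_map_of_mem _ m.2, hm⟩
    have hM₀N : M.map N.subtype ≤ N := by
      rintro _ ⟨m, _, rfl⟩
      exact m.2
    have hM₀n : ∀ n ∈ N, ∀ m ∈ M.map N.subtype, n * m * n⁻¹ ∈ M.map N.subtype := by
      rintro n hn _ ⟨m, hm, rfl⟩
      exact ⟨⟨n, hn⟩ * m * ⟨n, hn⟩⁻¹, hMn.conj_mem m hm ⟨n, hn⟩, rfl⟩
    have hnormal : (M.map N.subtype).Normal := by
      refine ⟨fun m hm g => ?_⟩
      have hB : (M.map N.subtype).map (MulAut.conj g).toMonoidHom ≤ M.map N.subtype := by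
        apply unique_regular hfaith' h3 N hNprim _ _ ?_ hM₀N ?_ hM₀n ?_ hM₀tr ?_
        · rintro _ ⟨m, hm, rfl⟩
          exact hNnorm.conj_mem m (hM₀N hm) g
        · rintro n hn _ ⟨m, hm, rfl⟩
          refine ⟨(g⁻¹ * n * g) * m * (g⁻¹ * n * g)⁻¹, hM₀n _ ?_ m hm, ?_⟩
          · have := hNnorm.conj_mem n hn g⁻¹
            simpa using this
          · show g * ((g⁻¹ * n * g) * m * (g⁻¹ * n * g)⁻¹) * g⁻¹ = n * (g * m * g⁻¹) * n⁻¹
            group
        · intro ω ω'
          obtain ⟨m, hm, hmω⟩ := hM₀tr (g⁻¹ • ω) (g⁻¹ • ω')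
          refine ⟨g * m * g⁻¹, ⟨m, hm, rfl⟩, ?_⟩
          rw [mul_smul, mul_smul, hmω, smul_inv_smul]
        · rintro _ ⟨m, hm, rfl⟩ ω hω
          have hω' : (g * m * g⁻¹) • ω = ω := hω
          have hm1 : m = 1 := by
            apply hM₀free m hm (g⁻¹ • ω)
            rw [mul_smul, mul_smul] at hω'
            exact eq_inv_smul_iff.mpr hω'
          show g * m * g⁻¹ = 1
          rw [hm1, mul_one, mul_inv_cancel]
      exact hB ⟨m, hm, rfl⟩
    obtain ⟨a', ha'⟩ := hnoreg _ hnormal ⟨fun ω ω' => by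
      obtain ⟨m, hm, h⟩ := hM₀tr ω ω'
      exact ⟨⟨m, hm⟩, h⟩⟩
    apply ha'
    rw [eq_bot_iff]
    intro m hm
    rw [Subgroup.mem_bot]
    exact Subtype.ext (hM₀free m m.2 a' hm)

end Cfsg.Agent.S0339
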