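import Cfsg.Statements.S0338
import Cfsg.Agent.Lib.Helper83.ZassOdd
import Cfsg.Agent.S0339

set_option autoImplicit false
open Cfsg

namespace Cfsg.Agent.S0338

/-- A Zassenhaus group of odd degree is a simple group. -/
theorem result {G Ω : Type*} [Group G] [MulAction G Ω] [Fintype Ω]
    (hZ : Cfsg.IsZassenhausGroup G Ω) (hodd : Odd (Fintype.card Ω)) : IsSimpleGroup G := by
  classical
  obtain ⟨hfaith, h2t, h3, ⟨g₀, hg₀1, a, b, hab, hg₀a, hg₀b⟩, hreg⟩ := hZ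
  have : Finite G := Finite.of_injective (MulAction.toPerm : G → Equiv.Perm Ω)
    MulAction.toPerm_injective
  have hodd' : Nat.card Ω % 2 = 1 := by
    rw [Nat.card_eq_fintype_card]; exact Nat.odd_iff.mp hodd
  obtain ⟨v, hv2, hva, hvb⟩ := Cfsg.Agent.Lib.Helper83.exists_swap_invol h2t hodd' h3 hab
  have Zo : Cfsg.Agent.Lib.Helper83.ZOdd a b v := ⟨hodd', h3, hv2, hva, hvb, hab⟩
  have : Nontrivial G := ⟨⟨g₀, 1, hg₀1⟩⟩
  refine ⟨fun N hN => ?_⟩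
  by_cases hbot : N = ⊥
  · exact Or.inl hbot
  right
  have := hN
  have hZN := Cfsg.Agent.S0339.result
    (⟨hfaith, h2t, h3, ⟨g₀, hg₀1, a, b, hab, hg₀a, hg₀b⟩, hreg⟩ : Cfsg.IsZassenhausGroup G Ω) N hbot
  obtain ⟨-, hN2, -, -, -⟩ := hZN
  have hN2' : ∀ {p q r s : Ω}, p ≠ q → r ≠ s → ∃ n ∈ N, n • p = r ∧ n • q = s := by
    intro p q r s hpq hrs
    obtain ⟨n, h1, h2⟩ := MulAction.is_two_pretransitive_iff.mp hN2 hpq hrs
    exact ⟨n, n.2, h1, h2⟩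
  obtain ⟨n, hnN, hna, hnb⟩ := hN2' hab hab.symm
  have hna' : n⁻¹ • b = a := by rw [inv_smul_eq_iff, hna]
  have hnb' : n⁻¹ • a = b := by rw [inv_smul_eq_iff, hnb]
  have hh : n⁻¹ * v ∈ Cfsg.Agent.Lib.Helper83.zH G a b := by
    rw [Cfsg.Agent.Lib.Helper83.mem_zH]
    constructor
    · rw [mul_smul, hva, hna']
    · rw [mul_smul, hvb, hnb']
  have hvinv : v⁻¹ = v := Zo.vinv
  -- squares of elements of `H` lie in `N`
  have hsq : ∀ k ∈ Cfsg.Agent.Lib.Helper83.zH G a b, k * k ∈ N := by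
    intro k hk
    have hvk := Zo.v_inv_H hk
    have hc := Zo.H_comm hh ((Cfsg.Agent.Lib.Helper83.zH G a b).inv_mem hk)
    have e : (k * k)⁻¹ = n⁻¹ * (k * n * k⁻¹) := by
      have hn : n = v * (n⁻¹ * v)⁻¹ := by rw [mul_inv_rev, inv_inv, hvinv, ← mul_assoc, hv2, one_mul]
      calc (k * k)⁻¹ = k⁻¹ * ((n⁻¹ * v) * (n⁻¹ * v)⁻¹) * k⁻¹ := by group
        _ = (k⁻¹ * (n⁻¹ * v)) * (n⁻¹ * v)⁻¹ * k⁻¹ := by group
        _ = ((n⁻¹ * v) * k⁻¹) * (n⁻¹ * v)⁻¹ * k⁻¹ := by rw [hc]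
        _ = (n⁻¹ * v) * (v * k * v) * (n⁻¹ * v)⁻¹ * k⁻¹ := by rw [hvk]
        _ = n⁻¹ * (v * v) * (k * (v * (n⁻¹ * v)⁻¹) * k⁻¹) := by group
        _ = n⁻¹ * (k * n * k⁻¹) := by rw [hv2, mul_one, ← hn]
    have h1 : n⁻¹ * (k * n * k⁻¹) ∈ N := N.mul_mem (N.inv_mem hnN) (hN.conj_mem n hnN k)
    rw [← e] at h1
    exact (N.inv_mem_iff).mp h1
  have hHN : ∀ h ∈ Cfsg.Agent.Lib.Helper83.zH G a b, h ∈ N := by
    intro h hh'
    obtain ⟨k, hk, hkk⟩ := Zo.H_sq_surj hh'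
    rw [← hkk]
    exact hsq k hk
  rw [eq_top_iff]
  intro g _
  have hgab : g • a ≠ g • b := fun h => hab (smul_left_cancel g h)
  obtain ⟨m, hmN, hma, hmb⟩ := hN2' hab hgab
  have hmg : m⁻¹ * g ∈ Cfsg.Agent.Lib.Helper83.zH G a b := by
    rw [Cfsg.Agent.Lib.Helper83.mem_zH]
    constructor
    · rw [mul_smul, ← hma, inv_smul_smul]
    · rw [mul_smul, ← hmb, inv_smul_smul]
  have : g = m * (m⁻¹ * g) := by group
  rw [this]
  exact N.mul_mem hmN (hHN _ hmg)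

end Cfsg.Agent.S0338
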