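import Cfsg.Statements.S0351
import Cfsg.Agent.Lib.Helper93.Steiner

set_option autoImplicit false
open Cfsg

namespace Cfsg.Agent.S0351

/-- Derived design: removing a point p from the blocks through p of an S(t+1, k+1, v) yields an S(t, k, v-1) on the points other than p. -/
theorem result {α : Type*} [Fintype α] [DecidableEq α] {t k : ℕ} {B : Set (Finset α)} (hB : Cfsg.IsSteinerSystem (t + 1) (k + 1) B) (p : α) : Cfsg.IsSteinerSystem t k {b' : Finset {a : α // a ≠ p} | ∃ b ∈ B, p ∈ b ∧ b' = Finset.subtype (fun a => a ≠ p) b} := by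
  classical
  refine ⟨?_, ?_⟩
  · rintro b' ⟨b, hb, hpb, rfl⟩
    rw [Finset.card_subtype, Finset.filter_ne' b p, Finset.card_erase_of_mem hpb, hB.1 b hb]
    rfl
  · intro s' hs'
    have hp : p ∉ s'.map (Function.Embedding.subtype (fun a => a ≠ p)) := by
      rw [Finset.mem_map]
      rintro ⟨x, _, hx⟩
      exact x.property hx
    have hscard : (insert p (s'.map (Function.Embedding.subtype (fun a => a ≠ p)))).card
        = t + 1 := by
      rw [Finset.card_insert_of_notMem hp, Finset.card_map, hs']
    obtain ⟨b, ⟨hbB, hsb⟩, huniq⟩ := hB.2 _ hscard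
    have hpb : p ∈ b := hsb (Finset.mem_insert_self _ _)
    refine ⟨Finset.subtype (fun a => a ≠ p) b, ⟨⟨b, hbB, hpb, rfl⟩, ?_⟩, ?_⟩
    · intro x hx
      rw [Finset.mem_subtype]
      apply hsb
      rw [Finset.mem_insert]
      right
      rw [Finset.mem_map]
      exact ⟨x, hx, rfl⟩
    · rintro b'' ⟨⟨b2, hb2, hpb2, rfl⟩, hsub⟩
      have h2 : b2 = b := by
        apply huniq
        refine ⟨hb2, ?_⟩
        intro x hx
        rw [Finset.mem_insert] at hx
        rcases hx with rfl | hx
        · exact hpb2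
        · rw [Finset.mem_map] at hx
          obtain ⟨y, hy, rfl⟩ := hx
          exact Finset.mem_subtype.mp (hsub hy)
      rw [h2]

end Cfsg.Agent.S0351
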