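import Cfsg.Statements.S0357
import Cfsg.Agent.Lib.Helper93.Steiner24

set_option autoImplicit false
open Cfsg

namespace Cfsg.Agent.S0357

/-- In a Steiner system S(5, 6, 12), the complement of every block is again a block. -/
theorem result {α : Type*} [Fintype α] [DecidableEq α] (hα : Fintype.card α = 12) {B : Set (Finset α)} (hB : Cfsg.IsSteinerSystem 5 6 B) {b : Finset α} (hb : b ∈ B) : bᶜ ∈ B := by
  classical
  set Bf : Finset (Finset α) := Finset.univ.filter (· ∈ B) with hBfdef
  have hBf : ∀ b, b ∈ Bf ↔ b ∈ B := by intro b; simp [hBfdef]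
  obtain ⟨h0, -⟩ := Cfsg.Agent.Lib.Helper93.s5612_counts hα hB Bf hBf hb
  have hpos : 0 < (Bf.filter (fun c => (c ∩ b).card = 0)).card := by omega
  obtain ⟨c, hc⟩ := Finset.card_pos.mp hpos
  simp only [Finset.mem_filter, hBf, Finset.card_eq_zero] at hc
  have hc6 : c.card = 6 := hB.1 c hc.1
  have hb6 : b.card = 6 := hB.1 b hb
  have hsub : c ⊆ bᶜ := by
    intro x hx
    rw [Finset.mem_compl]
    intro hxb
    have : x ∈ c ∩ b := Finset.mem_inter.mpr ⟨hx, hxb⟩
    rw [hc.2] at this
    simp at this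
  have hcard : bᶜ.card ≤ c.card := by
    rw [Finset.card_compl, hα, hb6, hc6]
  have heq : c = bᶜ := Finset.eq_of_subset_of_card_le hsub hcard
  rw [← heq]
  exact hc.1

end Cfsg.Agent.S0357
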