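import Cfsg.Statements.S0370
import Cfsg.Agent.Lib.Helper7.GolayPerm

set_option autoImplicit false
open Cfsg

namespace Cfsg.Agent.S0370

/-- The permutation x ↦ x + 1 of the residues modulo 23, fixing the extra point, lies in the group of the length-24 code. -/
theorem result : Equiv.optionCongr (Equiv.addRight (1 : ZMod 23)) ∈ Cfsg.M24 := by
  apply Cfsg.Agent.Lib.Helper7.mem_M24_of_qrWord
  intro t
  have h : Cfsg.qrWord t ∘ (Equiv.optionCongr (Equiv.addRight (1 : ZMod 23))).symm
      = Cfsg.qrWord (t + 1) := by
    funext p
    cases p with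
    | none => rfl
    | some x =>
      simp only [Function.comp_apply, Cfsg.qrWord]
      have h1 : (Equiv.optionCongr (Equiv.addRight (1 : ZMod 23))).symm (some x)
          = some (x - 1) := by
        rw [Equiv.symm_apply_eq]; simp
      rw [h1]
      simp only []
      have : (∃ r : ZMod 23, x - 1 = r ^ 2 + t) ↔ ∃ r : ZMod 23, x = r ^ 2 + (t + 1) := by
        refine exists_congr (fun r => ?_)
        constructor <;> intro h <;> linear_combination h
      simp only [this]
  rw [h]
  exact Submodule.subset_span (Or.inl ⟨_, rfl⟩)

end Cfsg.Agent.S0370
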