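import Cfsg.Statements.S0371
import Cfsg.Agent.Lib.Helper7.GolayPerm

set_option autoImplicit false
open Cfsg

namespace Cfsg.Agent.S0371

/-- Multiplication by a nonzero square residue modulo 23, fixing the extra point, lies in the group of the length-24 code. -/
theorem result (u : (ZMod 23)ˣ) (hu : IsSquare u) : Equiv.optionCongr (Units.mulLeft u) ∈ Cfsg.M24 := by
  apply Cfsg.Agent.Lib.Helper7.mem_M24_of_qrWord
  intro t
  obtain ⟨s, rfl⟩ := hu
  have h : Cfsg.qrWord t ∘ (Equiv.optionCongr (Units.mulLeft (s * s))).symm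
      = Cfsg.qrWord (((s * s : (ZMod 23)ˣ) : ZMod 23) * t) := by
    funext p
    cases p with
    | none => rfl
    | some x =>
      simp only [Function.comp_apply, Cfsg.qrWord]
      have h1 : (Equiv.optionCongr (Units.mulLeft (s * s))).symm (some x)
          = some (((s * s)⁻¹ : (ZMod 23)ˣ) * x) := by
        rw [Equiv.symm_apply_eq]
        have hs' : (s : ZMod 23) * ((s⁻¹ : (ZMod 23)ˣ) : ZMod 23) = 1 := by simp
        simp
        linear_combination (-(1 : ZMod 23) * x
          - x * (s : ZMod 23) * ((s⁻¹ : (ZMod 23)ˣ) : ZMod 23)) * hs'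
      rw [h1]
      simp only []
      have : (∃ r : ZMod 23, (((s * s)⁻¹ : (ZMod 23)ˣ) : ZMod 23) * x = r ^ 2 + t)
          ↔ ∃ r : ZMod 23, x = r ^ 2 + ((s * s : (ZMod 23)ˣ) : ZMod 23) * t := by
        have hs : ((s⁻¹ : (ZMod 23)ˣ) : ZMod 23) * (s : ZMod 23) = 1 := by simp
        have hx : (((s * s)⁻¹ : (ZMod 23)ˣ) : ZMod 23) * x
            = ((s⁻¹ : (ZMod 23)ˣ) : ZMod 23) * ((s⁻¹ : (ZMod 23)ˣ) : ZMod 23) * x := by
          simp [mul_inv_rev]
        rw [hx]
        constructor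
        · rintro ⟨r, hr⟩
          refine ⟨(s : ZMod 23) * r, ?_⟩
          simp only [Units.val_mul]
          linear_combination (-(1 : ZMod 23) * x * ((s⁻¹ : (ZMod 23)ˣ) : ZMod 23) * (s : ZMod 23) - x) * hs
            + (s : ZMod 23) * (s : ZMod 23) * hr
        · rintro ⟨r, hr⟩
          refine ⟨((s⁻¹ : (ZMod 23)ˣ) : ZMod 23) * r, ?_⟩
          simp only [Units.val_mul] at hr
          linear_combination ((s⁻¹ : (ZMod 23)ˣ) : ZMod 23) * ((s⁻¹ : (ZMod 23)ˣ) : ZMod 23) * hr
            + (t * ((s⁻¹ : (ZMod 23)ˣ) : ZMod 23) * (s : ZMod 23) + t) * hs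
      simp only [this]
  rw [h]
  exact Submodule.subset_span (Or.inl ⟨_, rfl⟩)

end Cfsg.Agent.S0371
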