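import Cfsg.Statements.S0407
import Cfsg.Agent.Lib.Helper7.SteinerData24

set_option autoImplicit false
open Cfsg

namespace Cfsg.Agent.S0407

/-- Uniqueness of the Steiner system S(5, 8, 24) up to isomorphism. -/
theorem result {α β : Type*} [Fintype α] [DecidableEq α] [Fintype β] [DecidableEq β] (hα : Fintype.card α = 24) (hβ : Fintype.card β = 24) {B : Set (Finset α)} {B' : Set (Finset β)} (hB : Cfsg.IsSteinerSystem 5 8 B) (hB' : Cfsg.IsSteinerSystem 5 8 B') : Cfsg.SetSystemIso B B' := by
  exact Cfsg.Agent.Lib.Helper7.SC.unique_of_cert (n := 24) (t := 5) (k := 8) (N := 759)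
    (by norm_num) (by norm_num) (by decide +kernel) Cfsg.Agent.Lib.Helper7.SC.cert24
    Cfsg.Agent.Lib.Helper7.SC.cert24_ok hα hβ hB hB'

end Cfsg.Agent.S0407
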