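import Cfsg.Statements.S0375
import Cfsg.Agent.Lib.Helper7.GolayUnique
import Cfsg.Agent.Lib.Helper7.GolayOctad
import Cfsg.Agent.Lib.Helper6.Golay
import Cfsg.Agent.S0407
import Cfsg.Agent.S0363

set_option autoImplicit false
open Cfsg

namespace Cfsg.Agent.S0375

/-- A doubly even self-dual binary code of length 24 with no words of weight 4 is equivalent to the length-24 code built from the squares modulo 23. -/
theorem result (C : Submodule (ZMod 2) (Fin 24 → ZMod 2)) (hdim : Module.finrank (ZMod 2) C = 12) (horth : ∀ v ∈ C, ∀ w ∈ C, ∑ i, v i * w i = 0) (h4 : ∀ w ∈ C, 4 ∣ hammingNorm w) (hno4 : ∀ w ∈ C, hammingNorm w ≠ 4) : ∃ e : Fin 24 ≃ Cfsg.GolayPt, ∀ w : Cfsg.GolayPt → ZMod 2, w ∈ Cfsg.golayCode ↔ (fun i => w (e i)) ∈ C := by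
  classical
  have hst := Cfsg.Agent.Lib.Helper7.GU.steiner C (by simp) hdim h4 hno4
  obtain ⟨e, he⟩ := Cfsg.Agent.S0407.result (by simp) (by decide : Fintype.card Cfsg.GolayPt = 24)
    hst Cfsg.Agent.S0363.result
  refine ⟨e, ?_⟩
  let φ : (Cfsg.GolayPt → ZMod 2) ≃ₗ[ZMod 2] (Fin 24 → ZMod 2) :=
    LinearEquiv.funCongrLeft (ZMod 2) (ZMod 2) e
  have hφ : ∀ w : Cfsg.GolayPt → ZMod 2, φ w = fun i => w (e i) := fun w => rfl
  have hrows : ∀ r ∈ Cfsg.Agent.Lib.Helper7.rows,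
      Cfsg.Agent.Lib.Helper7.wordOf r ∈ C.comap φ.toLinearMap := by
    intro r hr
    obtain ⟨h8, hc, hlt⟩ := Cfsg.Agent.Lib.Helper7.rows_weight r hr
    have ho : Cfsg.Agent.Lib.Helper7.setOf r ∈ Cfsg.octads :=
      ⟨Cfsg.Agent.Lib.Helper7.setOf_mem_golaySupports hlt hc,
        by rw [Cfsg.Agent.Lib.Helper7.card_setOf, h8]⟩
    rw [← he] at ho
    obtain ⟨b, hb, hbe⟩ := ho
    have hbe' : b.image e = Cfsg.Agent.Lib.Helper7.setOf r := hbe
    show φ (Cfsg.Agent.Lib.Helper7.wordOf r) ∈ C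
    have hw : φ (Cfsg.Agent.Lib.Helper7.wordOf r) = Cfsg.Agent.Lib.Helper7.GU.ind b := by
      funext i
      have h1 : e i ∈ Cfsg.Agent.Lib.Helper7.setOf r ↔ i ∈ b := by
        rw [← hbe', Finset.mem_image]
        constructor
        · rintro ⟨j, hj, hji⟩
          rwa [← e.injective hji]
        · intro hi
          exact ⟨i, hi, rfl⟩
      rw [Cfsg.Agent.Lib.Helper7.mem_setOf] at h1
      show Cfsg.Agent.Lib.Helper7.wordOf r (e i) = _
      unfold Cfsg.Agent.Lib.Helper7.wordOf Cfsg.Agent.Lib.Helper7.GU.ind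
      by_cases hi : i ∈ b
      · rw [if_pos (h1.mpr hi), if_pos hi]
      · rw [if_neg (fun h => hi (h1.mp h)), if_neg hi]
    rw [hw]
    exact hb.2
  have hle : Cfsg.golayCode ≤ C.comap φ.toLinearMap := by
    intro w hw
    rw [Cfsg.Agent.Lib.Helper7.mem_golayCode_iff] at hw
    obtain ⟨k, -, rfl⟩ := hw
    exact Cfsg.Agent.Lib.Helper7.wordOf_encAux_mem (C.comap φ.toLinearMap)
      Cfsg.Agent.Lib.Helper7.rows hrows 0 k
  have hfin1 : Module.finrank (ZMod 2) Cfsg.golayCode = 12 := by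
    have h1 := Module.natCard_eq_pow_finrank (K := ZMod 2) (V := Cfsg.golayCode)
    rw [Cfsg.Agent.Lib.Helper6.Golay.card_golayCode, Nat.card_eq_fintype_card, ZMod.card] at h1
    exact (Nat.pow_right_injective (le_refl 2) (h1 : 2 ^ 12 = _)).symm
  have hfin2 : Module.finrank (ZMod 2) (C.comap φ.toLinearMap) = 12 := by
    rw [Submodule.comap_equiv_eq_map_symm, LinearEquiv.finrank_map_eq, hdim]
  have heq : Cfsg.golayCode = C.comap φ.toLinearMap :=
    Submodule.eq_of_le_of_finrank_eq hle (hfin1.trans hfin2.symm)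
  intro w
  rw [heq]
  rfl

end Cfsg.Agent.S0375
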