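import Cfsg.Statements.S0410
import Cfsg.Agent.Lib.Helper93.W22b

set_option autoImplicit false
open Cfsg

namespace Cfsg.Agent.S0410

/-- Uniqueness of the Steiner system S(3, 6, 22) up to isomorphism. -/
theorem result {α β : Type*} [Fintype α] [DecidableEq α] [Fintype β] [DecidableEq β] (hα : Fintype.card α = 22) (hβ : Fintype.card β = 22) {B : Set (Finset α)} {B' : Set (Finset β)} (hB : Cfsg.IsSteinerSystem 3 6 B) (hB' : Cfsg.IsSteinerSystem 3 6 B') : Cfsg.SetSystemIso B B' := by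
  have c : Fintype.card (Fin 1 ⊕ Fin 21) = 22 := by
    rw [Fintype.card_sum, Fintype.card_fin, Fintype.card_fin]
  let φ : α ≃ Fin 1 ⊕ Fin 21 := Fintype.equivOfCardEq (hα.trans c.symm)
  let φ' : β ≃ Fin 1 ⊕ Fin 21 := Fintype.equivOfCardEq (hβ.trans c.symm)
  have h1 := Cfsg.Agent.Lib.Helper93.W24.baseSys_sys.iso22 (Fintype.card_fin 21)
    (Cfsg.Agent.Lib.Helper93.W24.steiner_image hB φ)
  have h2 := Cfsg.Agent.Lib.Helper93.W24.baseSys_sys.iso22 (Fintype.card_fin 21)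
    (Cfsg.Agent.Lib.Helper93.W24.steiner_image hB' φ')
  exact Cfsg.Agent.Lib.Helper93.W24.iso_trans (Cfsg.Agent.Lib.Helper93.W24.iso_image B φ)
    (Cfsg.Agent.Lib.Helper93.W24.iso_trans h1
      (Cfsg.Agent.Lib.Helper93.W24.iso_trans (Cfsg.Agent.Lib.Helper93.W24.iso_symm h2)
        (Cfsg.Agent.Lib.Helper93.W24.iso_symm (Cfsg.Agent.Lib.Helper93.W24.iso_image B' φ'))))

end Cfsg.Agent.S0410
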