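import Cfsg.Statements.S0423
import Cfsg.Agent.Lib.Helper19.J2Chain

set_option autoImplicit false
open Cfsg

namespace Cfsg.Agent.S0423

open Equiv Cfsg.Agent.Lib.Helper19.BSGS Cfsg.Agent.Lib.Helper19.J2

/-- the groups of the stabiliser chain -/
def GG (k : ℕ) : Subgroup (Perm (Fin 100)) := Subgroup.closure (gset gens k)

theorem card_GG0 : Nat.card (GG 0) = 1 := by
  unfold GG
  rw [gset_zero, Subgroup.closure_empty]; exact Subgroup.card_bot

theorem card_GG1 : Nat.card (GG 1) = 3 := by
  have h := Level.card (L := L4) (gens := gens) L4_check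
  have hO : L4.O.toFinset.card = 3 := by decide
  change Nat.card (GG 1) = L4.O.toFinset.card * Nat.card (GG 0) at h
  rw [h, hO, card_GG0]

theorem card_GG2 : Nat.card (GG 2) = 96 := by
  have h := Level.card (L := L3) (gens := gens) L3_check
  have hO : L3.O.toFinset.card = 32 := by decide
  change Nat.card (GG 2) = L3.O.toFinset.card * Nat.card (GG 1) at h
  rw [h, hO, card_GG1]

theorem card_GG3 : Nat.card (GG 3) = 6048 := by
  have h := Level.card (L := L2) (gens := gens) L2_check
  have hO : L2.O.toFinset.card = 63 := by decide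
  change Nat.card (GG 3) = L2.O.toFinset.card * Nat.card (GG 2) at h
  rw [h, hO, card_GG2]

set_option maxRecDepth 8000 in
theorem card_GG4 : Nat.card (GG 4) = 604800 := by
  have h := Level.card (L := L1) (gens := gens) L1_check
  have hO : L1.O.toFinset.card = 100 := by decide +kernel
  change Nat.card (GG 4) = L1.O.toFinset.card * Nat.card (GG 3) at h
  rw [h, hO, card_GG3]

theorem GG3_le : GG 3 ≤ GG 4 := Subgroup.closure_mono (gset_mono gens (by norm_num))

theorem GG3_fix : ∀ g ∈ GG 3, g (0 : Fin 100) = 0 :=
  Level.fix (L := L1) (gens := gens) L1_check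

instance prim : MulAction.IsPreprimitive (GG 4) (Fin 100) := by
  apply preprimitive_rank3 (GG 4) (0 : Fin 100) L2.O C2.O
  · decide
  · decide
  · decide
  · decide
  · decide
  · intro y
    have hy : y ∈ L1.O := by revert y; decide
    obtain ⟨h1, h2⟩ := Level.tr_mem (L := L1) (gens := gens) L1_check y hy
    exact ⟨_, h1, h2⟩
  · intro y hy z hz
    obtain ⟨g, hg, hgy⟩ := Level.trans2 (L := L2) (gens := gens) L2_check y hy z hz
    exact ⟨g, GG3_le hg, GG3_fix g hg, hgy⟩
  · intro y hy z hz
    obtain ⟨g, hg, hgy⟩ := OrbCert.trans (C := C2) (gens := gens) C2_check y hy z hz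
    exact ⟨g, GG3_le hg, GG3_fix g hg, hgy⟩
  · decide
  · decide

theorem simple : IsSimpleGroup (GG 4) := by
  have : MulAction.IsPreprimitive (Subgroup.closure (gset gens 4)) (Fin 100) := prim
  apply isSimpleGroup_of_cert (gens := gens) (k := 4) (xi := 3) (ncl := ncl) 5 2
    (by norm_num) (by norm_num)
  · have h := card_GG4
    unfold GG at h
    rw [h]; norm_num
  · norm_num
  · decide +kernel
  · exact ncl_check
  · refine ⟨3, by norm_num, ?_⟩
    intro h
    have h2 := congrArg (fun f : Perm (Fin 100) => f 0) h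
    revert h2
    decide +kernel


/-- Existence of a simple group of order 604800. -/
theorem result : ∃ G : Subgroup (Equiv.Perm (Fin 100)), Cfsg.IsJ2 G := by
  exact ⟨GG 4, simple, card_GG4⟩

end Cfsg.Agent.S0423
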