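import Cfsg.Statements.S0424
import Cfsg.Agent.Lib.Helper19.SuzMain

set_option autoImplicit false
open Cfsg

namespace Cfsg.Agent.S0424

/-- Existence of a simple group of order 448345497600. -/
theorem result : ∃ (G : Type) (_ : Group G), Cfsg.IsSuz G := by
  exact ⟨↥(Cfsg.Agent.Lib.Helper19.Cox.L Cfsg.Agent.Lib.Helper19.Suz.s 7), inferInstance,
    Cfsg.Agent.Lib.Helper19.Suz.simple, Cfsg.Agent.Lib.Helper19.Suz.card_G⟩

end Cfsg.Agent.S0424
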