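import Mathlib
import Cfsg.Statements.S0427

set_option autoImplicit false
open Cfsg

namespace Cfsg.Agent.S0427

open Finset
open scoped Classical

set_option linter.unusedSectionVars false

section Core

variable {α : Type*} [Fintype α] (hα : Fintype.card α = 22) (𝓑 : Finset (Finset α))
  (h6 : ∀ b ∈ 𝓑, b.card = 6)
  (h3 : ∀ s : Finset α, s.card = 3 → ∃! b, b ∈ 𝓑 ∧ s ⊆ b)

include h3 in
/-- Two blocks sharing three points are equal. -/
theorem eq_of_three {b c : Finset α} (hb : b ∈ 𝓑) (hc : c ∈ 𝓑) (h : 3 ≤ (b ∩ c).card) : b = c := by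
  obtain ⟨s, hs, hs3⟩ := Finset.exists_subset_card_eq h
  obtain ⟨d, -, hd⟩ := h3 s hs3
  have h1 := hd b ⟨hb, hs.trans inter_subset_left⟩
  have h2 := hd c ⟨hc, hs.trans inter_subset_right⟩
  rw [h1, h2]

include h3 in
/-- Through three distinct points there is exactly one block. -/
theorem triple_count {x y z : α} (hxy : x ≠ y) (hxz : x ≠ z) (hyz : y ≠ z) :
    (𝓑.filter (fun b => x ∈ b ∧ y ∈ b ∧ z ∈ b)).card = 1 := by
  have hcard : ({x, y, z} : Finset α).card = 3 := by
    rw [card_insert_of_notMem, card_insert_of_notMem, card_singleton]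
    · simpa using hyz
    · simp [hxy, hxz]
  obtain ⟨d, ⟨hd, hsub⟩, huniq⟩ := h3 _ hcard
  rw [card_eq_one]
  refine ⟨d, ?_⟩
  ext b
  simp only [mem_filter, mem_singleton]
  constructor
  · rintro ⟨hb, hx, hy, hz⟩
    apply huniq
    refine ⟨hb, ?_⟩
    intro w hw
    simp only [mem_insert, mem_singleton] at hw
    rcases hw with rfl | rfl | rfl <;> assumption
  · rintro rfl
    refine ⟨hd, hsub (by simp), hsub (by simp), hsub (by simp)⟩

include hα h6 h3 in
/-- Through two distinct points there are exactly five blocks. -/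
theorem pair_count {x y : α} (hxy : x ≠ y) :
    (𝓑.filter (fun b => x ∈ b ∧ y ∈ b)).card = 5 := by
  set t := 𝓑.filter (fun b => x ∈ b ∧ y ∈ b) with ht
  set s := (univ : Finset α) \ {x, y} with hs
  have hscard : s.card = 20 := by
    rw [hs, card_sdiff_of_subset (subset_univ _), card_univ, hα, card_pair hxy]
  have hdc := sum_card_bipartiteAbove_eq_sum_card_bipartiteBelow (s := s) (t := t)
    (r := fun (z : α) (b : Finset α) => z ∈ b)
  have h1 : ∀ z ∈ s, (t.bipartiteAbove (fun (z : α) (b : Finset α) => z ∈ b) z).card = 1 := by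
    intro z hz
    rw [hs, mem_sdiff, mem_insert, mem_singleton, not_or] at hz
    have := triple_count 𝓑 h3 hxy (Ne.symm hz.2.1) (Ne.symm hz.2.2)
    rw [← this]
    congr 1
    ext b
    simp only [bipartiteAbove, ht, mem_filter]
    tauto
  have h2 : ∀ b ∈ t, (s.bipartiteBelow (fun (z : α) (b : Finset α) => z ∈ b) b).card = 4 := by
    intro b hb
    rw [ht, mem_filter] at hb
    have : s.bipartiteBelow (fun (z : α) (b : Finset α) => z ∈ b) b = b \ {x, y} := by
      ext z
      simp only [bipartiteBelow, hs, mem_filter, mem_sdiff, mem_univ, true_and]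
      tauto
    rw [this, card_sdiff_of_subset, h6 b hb.1, card_pair hxy]
    intro w hw
    simp only [mem_insert, mem_singleton] at hw
    rcases hw with rfl | rfl
    · exact hb.2.1
    · exact hb.2.2
  rw [sum_congr rfl h1, sum_congr rfl h2, sum_const, sum_const, hscard] at hdc
  simp only [smul_eq_mul] at hdc
  omega

include hα h6 h3 in
/-- Every point lies on exactly 21 blocks. -/
theorem point_count (x : α) : (𝓑.filter (fun b => x ∈ b)).card = 21 := by
  set t := 𝓑.filter (fun b => x ∈ b) with ht
  set s := (univ : Finset α).erase x with hs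
  have hscard : s.card = 21 := by
    rw [hs, card_erase_of_mem (mem_univ _), card_univ, hα]
  have hdc := sum_card_bipartiteAbove_eq_sum_card_bipartiteBelow (s := s) (t := t)
    (r := fun (z : α) (b : Finset α) => z ∈ b)
  have h1 : ∀ z ∈ s, (t.bipartiteAbove (fun (z : α) (b : Finset α) => z ∈ b) z).card = 5 := by
    intro z hz
    rw [hs, mem_erase] at hz
    have := pair_count hα 𝓑 h6 h3 (Ne.symm hz.1)
    rw [← this]
    congr 1
    ext b
    simp only [bipartiteAbove, ht, mem_filter]
    tauto
  have h2 : ∀ b ∈ t, (s.bipartiteBelow (fun (z : α) (b : Finset α) => z ∈ b) b).card = 5 := by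
    intro b hb
    rw [ht, mem_filter] at hb
    have : s.bipartiteBelow (fun (z : α) (b : Finset α) => z ∈ b) b = b.erase x := by
      ext z
      simp only [bipartiteBelow, hs, mem_filter, mem_erase, mem_univ, and_true]
    rw [this, card_erase_of_mem hb.2, h6 b hb.1]
  rw [sum_congr rfl h1, sum_congr rfl h2, sum_const, sum_const, hscard] at hdc
  simp only [smul_eq_mul] at hdc
  omega

include hα h6 h3 in
/-- There are 77 blocks. -/
theorem block_count : 𝓑.card = 77 := by
  have hdc := sum_card_bipartiteAbove_eq_sum_card_bipartiteBelow (s := (univ : Finset α)) (t := 𝓑)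
    (r := fun (z : α) (b : Finset α) => z ∈ b)
  have h1 : ∀ z ∈ (univ : Finset α),
      (𝓑.bipartiteAbove (fun (z : α) (b : Finset α) => z ∈ b) z).card = 21 := by
    intro z _
    exact point_count hα 𝓑 h6 h3 z
  have h2 : ∀ b ∈ 𝓑,
      ((univ : Finset α).bipartiteBelow (fun (z : α) (b : Finset α) => z ∈ b) b).card = 6 := by
    intro b hb
    have : (univ : Finset α).bipartiteBelow (fun (z : α) (b : Finset α) => z ∈ b) b = b := by
      ext z
      simp only [bipartiteBelow, mem_filter, mem_univ, true_and]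
    rw [this, h6 b hb]
  rw [sum_congr rfl h1, sum_congr rfl h2, sum_const, sum_const, card_univ, hα] at hdc
  simp only [smul_eq_mul] at hdc
  omega


include hα h6 h3 in
/-- Two distinct blocks meet in 0 or 2 points. -/
theorem inter_card {b c : Finset α} (hb : b ∈ 𝓑) (hc : c ∈ 𝓑) (hbc : b ≠ c) :
    (b ∩ c).card = 0 ∨ (b ∩ c).card = 2 := by
  have hle : (b ∩ c).card ≤ 2 := by
    by_contra hcon
    exact hbc (eq_of_three 𝓑 h3 hb hc (by omega))
  have hne1 : (b ∩ c).card ≠ 1 := by
    intro h1
    obtain ⟨x, hx⟩ := card_eq_one.mp h1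
    have hxb : x ∈ b := (mem_inter.mp (hx ▸ mem_singleton_self x : x ∈ b ∩ c)).1
    have hxc : x ∈ c := (mem_inter.mp (hx ▸ mem_singleton_self x : x ∈ b ∩ c)).2
    -- a point p of c other than x
    have hcx : (c.erase x).card = 5 := by rw [card_erase_of_mem hxc, h6 c hc]
    obtain ⟨p, hp⟩ : (c.erase x).Nonempty := by
      rw [← card_pos]; omega
    rw [mem_erase] at hp
    have hpb : p ∉ b := by
      intro hpb
      have : p ∈ b ∩ c := mem_inter.mpr ⟨hpb, hp.2⟩
      rw [hx, mem_singleton] at this
      exact hp.1 this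
    set t := 𝓑.filter (fun d => x ∈ d ∧ p ∈ d) with ht
    have htcard : t.card = 5 := pair_count hα 𝓑 h6 h3 (Ne.symm hp.1)
    set s := b.erase x with hs
    have hscard : s.card = 5 := by rw [hs, card_erase_of_mem hxb, h6 b hb]
    have hdc := sum_card_bipartiteAbove_eq_sum_card_bipartiteBelow (s := s) (t := t)
      (r := fun (z : α) (d : Finset α) => z ∈ d)
    have h1' : ∀ z ∈ s, (t.bipartiteAbove (fun (z : α) (d : Finset α) => z ∈ d) z).card = 1 := by
      intro z hz
      rw [hs, mem_erase] at hz
      have hzp : z ≠ p := fun h => hpb (h ▸ hz.2)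
      have := triple_count 𝓑 h3 (Ne.symm hp.1) (Ne.symm hz.1) (Ne.symm hzp)
      rw [← this]
      congr 1
      ext d
      simp only [bipartiteAbove, ht, mem_filter]
      tauto
    have h2' : ∀ d ∈ t, (s.bipartiteBelow (fun (z : α) (d : Finset α) => z ∈ d) d).card ≤ 1 := by
      intro d hd
      rw [ht, mem_filter] at hd
      have hdb : d ≠ b := fun h => hpb (h ▸ hd.2.2)
      have hle2 : (d ∩ b).card ≤ 2 := by
        by_contra hcon
        exact hdb (eq_of_three 𝓑 h3 hd.1 hb (by omega))
      have hsub : s.bipartiteBelow (fun (z : α) (d : Finset α) => z ∈ d) d = (d ∩ b).erase x := by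
        ext z
        simp only [bipartiteBelow, hs, mem_filter, mem_erase, mem_inter]
        tauto
      rw [hsub, card_erase_of_mem (mem_inter.mpr ⟨hd.2.1, hxb⟩)]
      omega
    have hct : c ∈ t := by
      rw [ht, mem_filter]
      exact ⟨hc, hxc, hp.2⟩
    have hc0 : (s.bipartiteBelow (fun (z : α) (d : Finset α) => z ∈ d) c).card = 0 := by
      rw [card_eq_zero]
      ext z
      simp only [bipartiteBelow, hs, mem_filter, mem_erase, notMem_empty, iff_false, not_and]
      rintro ⟨hzx, hzb⟩ hzc
      have : z ∈ b ∩ c := mem_inter.mpr ⟨hzb, hzc⟩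
      rw [hx, mem_singleton] at this
      exact hzx this
    rw [sum_congr rfl h1', sum_const, hscard, smul_eq_mul, mul_one,
      ← add_sum_erase t _ hct, hc0, zero_add] at hdc
    have hbound : ∑ d ∈ t.erase c, (s.bipartiteBelow (fun (z : α) (d : Finset α) => z ∈ d) d).card
        ≤ ∑ d ∈ t.erase c, 1 :=
      sum_le_sum fun d hd => h2' d (mem_of_mem_erase hd)
    rw [sum_const, card_erase_of_mem hct, htcard, smul_eq_mul, mul_one] at hbound
    omega
  omega

include hα h6 h3 in
/-- The sum of the intersection sizes with a fixed block. -/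
theorem sum_inter {b : Finset α} (hb : b ∈ 𝓑) : ∑ d ∈ 𝓑, (d ∩ b).card = 126 := by
  have hdc := sum_card_bipartiteAbove_eq_sum_card_bipartiteBelow (s := b) (t := 𝓑)
    (r := fun (z : α) (d : Finset α) => z ∈ d)
  have h1 : ∀ z ∈ b, (𝓑.bipartiteAbove (fun (z : α) (d : Finset α) => z ∈ d) z).card = 21 := by
    intro z _
    exact point_count hα 𝓑 h6 h3 z
  have h2 : ∀ d ∈ 𝓑, (b.bipartiteBelow (fun (z : α) (d : Finset α) => z ∈ d) d).card
      = (d ∩ b).card := by
    intro d _
    congr 1
    ext z
    simp only [bipartiteBelow, mem_filter, mem_inter]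
    tauto
  rw [sum_congr rfl h1, sum_congr rfl h2, sum_const, h6 b hb] at hdc
  rw [← hdc]
  rfl

include hα h6 h3 in
/-- The number of blocks meeting a fixed block (itself included) is 61. -/
theorem meet_count {b : Finset α} (hb : b ∈ 𝓑) : (𝓑.filter (fun d => ¬ Disjoint b d)).card = 61 := by
  have hsum := sum_inter hα 𝓑 h6 h3 hb
  rw [← add_sum_erase 𝓑 _ hb, inter_self, h6 b hb] at hsum
  have hterm : ∀ d ∈ 𝓑.erase b, (d ∩ b).card = if ¬ Disjoint b d then 2 else 0 := by
    intro d hd
    rw [mem_erase] at hd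
    rcases inter_card hα 𝓑 h6 h3 hd.2 hb hd.1 with h0 | h2
    · rw [if_neg]
      · exact h0
      · rw [not_not, disjoint_iff_inter_eq_empty, inter_comm, ← card_eq_zero]
        exact h0
    · rw [if_pos]
      · exact h2
      · rw [disjoint_iff_inter_eq_empty, inter_comm, ← card_eq_zero]
        omega
  rw [sum_congr rfl hterm, sum_ite, sum_const, sum_const_zero, smul_eq_mul, add_zero] at hsum
  have hsplit : 𝓑.filter (fun d => ¬ Disjoint b d)
      = insert b ((𝓑.erase b).filter (fun d => ¬ Disjoint b d)) := by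
    ext d
    simp only [mem_filter, mem_insert, mem_erase]
    constructor
    · rintro ⟨hd, hdis⟩
      by_cases hdb : d = b
      · left; exact hdb
      · right; exact ⟨⟨hdb, hd⟩, hdis⟩
    · rintro (rfl | ⟨⟨_, hd⟩, hdis⟩)
      · refine ⟨hb, ?_⟩
        rw [disjoint_self]
        intro h
        have := h6 d hb
        rw [show d = ∅ from h] at this
        simp at this
      · exact ⟨hd, hdis⟩
  rw [hsplit, card_insert_of_notMem]
  · omega
  · simp

include hα h6 h3 in
/-- The number of blocks disjoint from a fixed block is 16. -/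
theorem disjoint_count {b : Finset α} (hb : b ∈ 𝓑) : (𝓑.filter (fun d => Disjoint b d)).card = 16 := by
  have h1 := meet_count hα 𝓑 h6 h3 hb
  have h2 := block_count hα 𝓑 h6 h3
  have h3' := card_filter_add_card_filter_not (s := 𝓑) (p := fun d => Disjoint b d)
  omega


include hα h6 h3 in
/-- The number of blocks through two points, equal or not. -/
theorem pair_count' (x y : α) :
    (𝓑.filter (fun d => x ∈ d ∧ y ∈ d)).card = if x = y then 21 else 5 := by
  by_cases hxy : x = y
  · subst hxy
    rw [if_pos rfl, ← point_count hα 𝓑 h6 h3 x]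
    congr 1
    ext d
    simp
  · rw [if_neg hxy]
    exact pair_count hα 𝓑 h6 h3 hxy

omit [Fintype α] in
theorem card_inter_eq_sum (d b : Finset α) : (d ∩ b).card = ∑ x ∈ b, if x ∈ d then 1 else 0 := by
  rw [inter_comm, ← filter_mem_eq_inter, card_filter]

include hα h6 h3 in
/-- The weighted double count of blocks against two fixed blocks. -/
theorem sum_inter2 {b c : Finset α} (hb : b ∈ 𝓑) (hc : c ∈ 𝓑) :
    ∑ d ∈ 𝓑, (d ∩ b).card * (d ∩ c).card = 180 + 16 * (b ∩ c).card := by
  have step1 : ∀ d ∈ 𝓑, (d ∩ b).card * (d ∩ c).card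
      = ∑ x ∈ b, ∑ y ∈ c, (if x ∈ d ∧ y ∈ d then 1 else 0) := by
    intro d _
    rw [card_inter_eq_sum, card_inter_eq_sum, sum_mul_sum]
    refine sum_congr rfl fun x _ => sum_congr rfl fun y _ => ?_
    by_cases hx : x ∈ d <;> by_cases hy : y ∈ d <;> simp [hx, hy]
  rw [sum_congr rfl step1, sum_comm]
  have step2 : ∀ x ∈ b, ∑ d ∈ 𝓑, ∑ y ∈ c, (if x ∈ d ∧ y ∈ d then 1 else 0)
      = 30 + if x ∈ c then 16 else 0 := by
    intro x _
    rw [sum_comm]
    have step3 : ∀ y ∈ c, ∑ d ∈ 𝓑, (if x ∈ d ∧ y ∈ d then 1 else 0)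
        = 5 + if x = y then 16 else 0 := by
      intro y _
      rw [← card_filter, pair_count' hα 𝓑 h6 h3 x y]
      split_ifs <;> rfl
    rw [sum_congr rfl step3, sum_add_distrib, sum_const, h6 c hc, sum_ite_eq]
    rfl
  rw [sum_congr rfl step2, sum_add_distrib, sum_const, h6 b hb, ← sum_filter, sum_const,
    filter_mem_eq_inter]
  simp only [smul_eq_mul]
  omega

include hα h6 h3 in
/-- The number of blocks disjoint from two distinct blocks. -/
theorem both_disjoint_count {b c : Finset α} (hb : b ∈ 𝓑) (hc : c ∈ 𝓑) (hbc : b ≠ c) :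
    (𝓑.filter (fun d => Disjoint b d ∧ Disjoint c d)).card = 2 * (b ∩ c).card := by
  have hk := inter_card hα 𝓑 h6 h3 hb hc hbc
  have hsum := sum_inter2 hα 𝓑 h6 h3 hb hc
  have hcb : c ∈ 𝓑.erase b := mem_erase.mpr ⟨Ne.symm hbc, hc⟩
  rw [← add_sum_erase 𝓑 _ hb, ← add_sum_erase (𝓑.erase b) _ hcb, inter_self, inter_self,
    h6 b hb, h6 c hc, inter_comm c b] at hsum
  have hterm : ∀ d ∈ (𝓑.erase b).erase c, (d ∩ b).card * (d ∩ c).card
      = if ¬ Disjoint b d ∧ ¬ Disjoint c d then 4 else 0 := by
    intro d hd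
    rw [mem_erase, mem_erase] at hd
    have e1 : (d ∩ b).card = if ¬ Disjoint b d then 2 else 0 := by
      rcases inter_card hα 𝓑 h6 h3 hd.2.2 hb hd.2.1 with h0 | h2
      · rw [if_neg]
        · exact h0
        · rw [not_not, disjoint_iff_inter_eq_empty, inter_comm, ← card_eq_zero]
          exact h0
      · rw [if_pos]
        · exact h2
        · rw [disjoint_iff_inter_eq_empty, inter_comm, ← card_eq_zero]
          omega
    have e2 : (d ∩ c).card = if ¬ Disjoint c d then 2 else 0 := by
      rcases inter_card hα 𝓑 h6 h3 hd.2.2 hc hd.1 with h0 | h2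
      · rw [if_neg]
        · exact h0
        · rw [not_not, disjoint_iff_inter_eq_empty, inter_comm, ← card_eq_zero]
          exact h0
      · rw [if_pos]
        · exact h2
        · rw [disjoint_iff_inter_eq_empty, inter_comm, ← card_eq_zero]
          omega
    rw [e1, e2]
    by_cases hx : Disjoint b d <;> by_cases hy : Disjoint c d <;> simp [hx, hy]
  rw [sum_congr rfl hterm, sum_ite, sum_const, sum_const_zero, smul_eq_mul, add_zero] at hsum
  -- the sets of blocks meeting b, meeting c
  have hMb := meet_count hα 𝓑 h6 h3 hb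
  have hMc := meet_count hα 𝓑 h6 h3 hc
  have hN := block_count hα 𝓑 h6 h3
  have hie := card_union_add_card_inter (𝓑.filter (fun d => ¬ Disjoint b d))
    (𝓑.filter (fun d => ¬ Disjoint c d))
  rw [← filter_or, ← filter_and] at hie
  have hZ := card_filter_add_card_filter_not (s := 𝓑)
    (p := fun d => ¬ Disjoint b d ∨ ¬ Disjoint c d)
  have hZeq : 𝓑.filter (fun d => ¬ (¬ Disjoint b d ∨ ¬ Disjoint c d))
      = 𝓑.filter (fun d => Disjoint b d ∧ Disjoint c d) := by
    apply filter_congr
    intro d _
    tauto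
  rw [hZeq] at hZ
  -- relate P and P'
  have hbne : b ≠ ∅ := by
    intro h; have := h6 b hb; rw [h] at this; simp at this
  have hcne : c ≠ ∅ := by
    intro h; have := h6 c hc; rw [h] at this; simp at this
  have hP : (𝓑.filter (fun d => ¬ Disjoint b d ∧ ¬ Disjoint c d)).card
      = (((𝓑.erase b).erase c).filter (fun d => ¬ Disjoint b d ∧ ¬ Disjoint c d)).card
        + (b ∩ c).card := by
    rcases hk with h0 | h2
    · have hdis : Disjoint b c := by
        rw [disjoint_iff_inter_eq_empty, ← card_eq_zero]; exact h0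
      rw [h0, add_zero]
      congr 1
      ext d
      simp only [mem_filter, mem_erase]
      constructor
      · rintro ⟨hd, h1, h2⟩
        refine ⟨⟨?_, ?_, hd⟩, h1, h2⟩
        · rintro rfl; exact h1 hdis
        · rintro rfl; exact h2 hdis.symm
      · rintro ⟨⟨_, _, hd⟩, h1, h2⟩
        exact ⟨hd, h1, h2⟩
    · have hndis : ¬ Disjoint b c := by
        rw [disjoint_iff_inter_eq_empty, ← card_eq_zero]; omega
      have hsplit : 𝓑.filter (fun d => ¬ Disjoint b d ∧ ¬ Disjoint c d)
          = insert b (insert c (((𝓑.erase b).erase c).filter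
              (fun d => ¬ Disjoint b d ∧ ¬ Disjoint c d))) := by
        ext d
        simp only [mem_filter, mem_insert, mem_erase]
        constructor
        · rintro ⟨hd, h1, h2⟩
          by_cases hdb : d = b
          · left; exact hdb
          · by_cases hdc : d = c
            · right; left; exact hdc
            · right; right; exact ⟨⟨hdc, hdb, hd⟩, h1, h2⟩
        · rintro (rfl | rfl | ⟨⟨_, _, hd⟩, h1, h2⟩)
          · refine ⟨hb, ?_, fun h => hndis h.symm⟩
            rw [disjoint_self]; exact hbne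
          · refine ⟨hc, hndis, ?_⟩
            rw [disjoint_self]; exact hcne
          · exact ⟨hd, h1, h2⟩
      rw [hsplit, card_insert_of_notMem, card_insert_of_notMem, h2]
      · simp
      · simp [hbc]
  omega

include hα h6 h3 in
/-- The number of blocks through a point and disjoint from a block not containing it. -/
theorem point_disjoint_count {b : Finset α} (hb : b ∈ 𝓑) {p : α} (hp : p ∉ b) :
    (𝓑.filter (fun d => p ∈ d ∧ Disjoint b d)).card = 6 := by
  set t := 𝓑.filter (fun d => p ∈ d) with ht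
  have htcard : t.card = 21 := point_count hα 𝓑 h6 h3 p
  have hdc := sum_card_bipartiteAbove_eq_sum_card_bipartiteBelow (s := b) (t := t)
    (r := fun (z : α) (d : Finset α) => z ∈ d)
  have h1 : ∀ z ∈ b, (t.bipartiteAbove (fun (z : α) (d : Finset α) => z ∈ d) z).card = 5 := by
    intro z hz
    have hzp : p ≠ z := fun h => hp (h ▸ hz)
    have := pair_count hα 𝓑 h6 h3 hzp
    rw [← this]
    congr 1
    ext d
    simp only [bipartiteAbove, ht, mem_filter]
    tauto
  have h2 : ∀ d ∈ t, (b.bipartiteBelow (fun (z : α) (d : Finset α) => z ∈ d) d).card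
      = if ¬ Disjoint b d then 2 else 0 := by
    intro d hd
    rw [ht, mem_filter] at hd
    have hdb : d ≠ b := fun h => hp (h ▸ hd.2)
    have heq : b.bipartiteBelow (fun (z : α) (d : Finset α) => z ∈ d) d = d ∩ b := by
      ext z
      simp only [bipartiteBelow, mem_filter, mem_inter]
      tauto
    rw [heq]
    rcases inter_card hα 𝓑 h6 h3 hd.1 hb hdb with h0 | h2
    · rw [if_neg]
      · exact h0
      · rw [not_not, disjoint_iff_inter_eq_empty, inter_comm, ← card_eq_zero]
        exact h0
    · rw [if_pos]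
      · exact h2
      · rw [disjoint_iff_inter_eq_empty, inter_comm, ← card_eq_zero]
        omega
  rw [sum_congr rfl h1, sum_congr rfl h2, sum_const, h6 b hb, sum_ite, sum_const, sum_const_zero,
    smul_eq_mul, smul_eq_mul, add_zero] at hdc
  have hsplit := card_filter_add_card_filter_not (s := t) (p := fun d => Disjoint b d)
  have heq : t.filter (fun d => Disjoint b d) = 𝓑.filter (fun d => p ∈ d ∧ Disjoint b d) := by
    rw [ht, filter_filter]
  rw [heq] at hsplit
  omega

end Core

section Graph

variable {α : Type*} [Fintype α]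

theorem ncard_eq {B : Set (Finset α)} [Fintype B] (S : Set B) (P : Finset α → Prop)
    [DecidablePred P] (hS : ∀ w : B, w ∈ S ↔ P w.1) : S.ncard = (B.toFinset.filter P).card := by
  rw [← Set.ncard_image_of_injective S Subtype.val_injective, ← Set.ncard_coe_finset]
  congr 1
  ext d
  simp only [Set.mem_image, Finset.coe_filter, Set.mem_toFinset, Set.mem_ofPred_eq]
  constructor
  · rintro ⟨w, hw, rfl⟩
    exact ⟨w.2, (hS w).mp hw⟩
  · rintro ⟨hd, hP⟩
    exact ⟨⟨d, hd⟩, (hS _).mpr hP, rfl⟩

theorem adj_iff {B : Set (Finset α)} (hB : Cfsg.IsSteinerSystem 3 6 B) (v w : B) :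
    (Cfsg.blockGraph B).Adj v w ↔ Disjoint (v : Finset α) (w : Finset α) := by
  unfold Cfsg.blockGraph
  rw [SimpleGraph.fromRel_adj]
  constructor
  · rintro ⟨_, h | h⟩
    · exact h
    · exact h.symm
  · intro h
    refine ⟨?_, Or.inl h⟩
    rintro rfl
    rw [disjoint_self] at h
    have := hB.1 v.1 v.2
    rw [show (v : Finset α) = ∅ from h] at this
    simp at this

end Graph

/-- The block graph (adjacent = disjoint) of an S(3, 6, 22) is strongly regular with parameters (77, 16, 0, 4). -/
theorem result {α : Type*} [Fintype α] (hα : Fintype.card α = 22) {B : Set (Finset α)} (hB : Cfsg.IsSteinerSystem 3 6 B) [Fintype B] [DecidableRel (Cfsg.blockGraph B).Adj] : (Cfsg.blockGraph B).IsSRGWith 77 16 0 4 := by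
  have h6 : ∀ b ∈ B.toFinset, b.card = 6 := fun b hb => hB.1 b (Set.mem_toFinset.mp hb)
  have h3 : ∀ s : Finset α, s.card = 3 → ∃! b, b ∈ B.toFinset ∧ s ⊆ b := by
    intro s hs
    obtain ⟨b, hb, hu⟩ := hB.2 s hs
    exact ⟨b, ⟨Set.mem_toFinset.mpr hb.1, hb.2⟩, fun c hc => hu c ⟨Set.mem_toFinset.mp hc.1, hc.2⟩⟩
  refine ⟨?_, ?_, ?_, ?_⟩
  · rw [← Set.toFinset_card]
    exact block_count hα _ h6 h3
  · intro v
    rw [← SimpleGraph.card_neighborSet_eq_degree, ← Nat.card_eq_fintype_card,
      Nat.card_coe_set_eq, ncard_eq _ (fun d => Disjoint (v : Finset α) d)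
        (fun w => by rw [SimpleGraph.mem_neighborSet]; exact adj_iff hB v w)]
    exact disjoint_count hα _ h6 h3 (Set.mem_toFinset.mpr v.2)
  · intro v w hvw
    have hdis := (adj_iff hB v w).mp hvw
    have hne : (v : Finset α) ≠ w := fun h => hvw.ne (Subtype.ext h)
    rw [← Nat.card_eq_fintype_card, Nat.card_coe_set_eq,
      ncard_eq _ (fun d => Disjoint (v : Finset α) d ∧ Disjoint (w : Finset α) d)
        (fun u => by
          rw [SimpleGraph.mem_commonNeighbors, adj_iff hB, adj_iff hB]),
      both_disjoint_count hα _ h6 h3 (Set.mem_toFinset.mpr v.2) (Set.mem_toFinset.mpr w.2) hne,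
      Finset.disjoint_iff_inter_eq_empty.mp hdis]
    rfl
  · intro v w hvw hnadj
    have hne : (v : Finset α) ≠ w := fun h => hvw (Subtype.ext h)
    have hndis : ¬ Disjoint (v : Finset α) w := fun h => hnadj ((adj_iff hB v w).mpr h)
    have hk := inter_card hα _ h6 h3 (Set.mem_toFinset.mpr v.2) (Set.mem_toFinset.mpr w.2) hne
    have h2 : ((v : Finset α) ∩ w).card = 2 := by
      rcases hk with h0 | h2
      · exact absurd (Finset.disjoint_iff_inter_eq_empty.mpr (Finset.card_eq_zero.mp h0)) hndis
      · exact h2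
    rw [← Nat.card_eq_fintype_card, Nat.card_coe_set_eq,
      ncard_eq _ (fun d => Disjoint (v : Finset α) d ∧ Disjoint (w : Finset α) d)
        (fun u => by
          rw [SimpleGraph.mem_commonNeighbors, adj_iff hB, adj_iff hB]),
      both_disjoint_count hα _ h6 h3 (Set.mem_toFinset.mpr v.2) (Set.mem_toFinset.mpr w.2) hne, h2]

end Cfsg.Agent.S0427
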