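import Mathlib
import Cfsg.Statements.S0428
import Cfsg.Agent.S0427

set_option autoImplicit false
open Cfsg

namespace Cfsg.Agent.S0428

open Finset
open scoped Classical

set_option linter.unusedSectionVars false

section Graph

variable {α : Type*} [Fintype α] {B : Set (Finset α)}

/-- The extra vertex. -/
abbrev vInf : Option (α ⊕ B) := none
/-- A point as a vertex. -/
abbrev vPt (a : α) : Option (α ⊕ B) := some (Sum.inl a)
/-- A block as a vertex. -/
abbrev vBlk (b : B) : Option (α ⊕ B) := some (Sum.inr b)

theorem adj_inf_pt (a : α) : (Cfsg.pointBlockGraph B).Adj none (some (Sum.inl a)) := by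
  unfold Cfsg.pointBlockGraph
  rw [SimpleGraph.fromRel_adj]
  exact ⟨by simp, Or.inl trivial⟩

theorem not_adj_inf_blk (b : B) : ¬ (Cfsg.pointBlockGraph B).Adj none (some (Sum.inr b)) := by
  unfold Cfsg.pointBlockGraph
  rw [SimpleGraph.fromRel_adj]
  rintro ⟨_, h | h⟩ <;> exact h

theorem not_adj_pt_pt (a a' : α) :
    ¬ (Cfsg.pointBlockGraph B).Adj (some (Sum.inl a)) (some (Sum.inl a')) := by
  unfold Cfsg.pointBlockGraph
  rw [SimpleGraph.fromRel_adj]
  rintro ⟨_, h | h⟩ <;> exact h

theorem adj_pt_blk (a : α) (b : B) :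
    (Cfsg.pointBlockGraph B).Adj (some (Sum.inl a)) (some (Sum.inr b)) ↔ a ∈ (b : Finset α) := by
  unfold Cfsg.pointBlockGraph
  rw [SimpleGraph.fromRel_adj]
  constructor
  · rintro ⟨_, h | h⟩
    · exact h
    · exact absurd h (by simp [Cfsg.pointBlockRel])
  · intro h
    exact ⟨by simp, Or.inl h⟩

theorem adj_blk_blk (hB : Cfsg.IsSteinerSystem 3 6 B) (b c : B) :
    (Cfsg.pointBlockGraph B).Adj (some (Sum.inr b)) (some (Sum.inr c)) ↔
      Disjoint (b : Finset α) (c : Finset α) := by
  unfold Cfsg.pointBlockGraph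
  rw [SimpleGraph.fromRel_adj]
  constructor
  · rintro ⟨_, h | h⟩
    · exact h
    · exact Disjoint.symm h
  · intro h
    refine ⟨?_, Or.inl h⟩
    intro heq
    have hbc : b = c := by simpa using heq
    subst hbc
    rw [disjoint_self] at h
    have := hB.1 b.1 b.2
    rw [show (b : Finset α) = ∅ from h] at this
    simp at this

theorem ncard_split (S : Set (Option (α ⊕ B))) [Finite B] :
    S.ncard = (if none ∈ S then 1 else 0) + {a : α | some (Sum.inl a) ∈ S}.ncard
      + {b : B | some (Sum.inr b) ∈ S}.ncard := by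
  have hS : S = (S ∩ {none}) ∪ ((fun a : α => (some (Sum.inl a) : Option (α ⊕ B))) ''
      {a : α | some (Sum.inl a) ∈ S}) ∪ ((fun b : B => (some (Sum.inr b) : Option (α ⊕ B))) ''
      {b : B | some (Sum.inr b) ∈ S}) := by
    ext v
    rcases v with _ | a | b <;> simp
  have hinj1 : Function.Injective (fun a : α => (some (Sum.inl a) : Option (α ⊕ B))) := by
    intro a a' h
    simpa using h
  have hinj2 : Function.Injective (fun b : B => (some (Sum.inr b) : Option (α ⊕ B))) := by
    intro a a' h
    simpa using h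
  have hd1 : Disjoint (S ∩ {none}) ((fun a : α => (some (Sum.inl a) : Option (α ⊕ B))) ''
      {a : α | some (Sum.inl a) ∈ S}) := by
    rw [Set.disjoint_left]
    rintro v ⟨_, hv⟩ ⟨a, _, rfl⟩
    simp at hv
  have hd2 : Disjoint ((S ∩ {none}) ∪ ((fun a : α => (some (Sum.inl a) : Option (α ⊕ B))) ''
      {a : α | some (Sum.inl a) ∈ S})) ((fun b : B => (some (Sum.inr b) : Option (α ⊕ B))) ''
      {b : B | some (Sum.inr b) ∈ S}) := by
    rw [Set.disjoint_left]
    rintro v (⟨_, hv⟩ | ⟨a, _, rfl⟩) ⟨b, _, hb⟩
    · rw [Set.mem_singleton_iff] at hv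
      subst hv
      simp at hb
    · simp at hb
  have h0 : (S ∩ {none}).ncard = if none ∈ S then 1 else 0 := by
    by_cases hn : (none : Option (α ⊕ B)) ∈ S
    · rw [if_pos hn]
      have : S ∩ {none} = {none} := by
        ext v; simp only [Set.mem_inter_iff, Set.mem_singleton_iff]
        constructor
        · exact fun h => h.2
        · rintro rfl; exact ⟨hn, rfl⟩
      rw [this, Set.ncard_singleton]
    · rw [if_neg hn]
      have : S ∩ {none} = ∅ := by
        ext v; simp only [Set.mem_inter_iff, Set.mem_singleton_iff, Set.mem_empty_iff_false,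
          iff_false, not_and]
        rintro hv rfl; exact hn hv
      rw [this, Set.ncard_empty]
  conv_lhs => rw [hS]
  rw [Set.ncard_union_eq hd2 (Set.toFinite _) (Set.toFinite _),
    Set.ncard_union_eq hd1 (Set.toFinite _) (Set.toFinite _),
    Set.ncard_image_of_injective _ hinj1, Set.ncard_image_of_injective _ hinj2, h0]


theorem adj_pt_inf (a : α) : (Cfsg.pointBlockGraph B).Adj (some (Sum.inl a)) none :=
  (adj_inf_pt a).symm

theorem not_adj_blk_inf (b : B) : ¬ (Cfsg.pointBlockGraph B).Adj (some (Sum.inr b)) none :=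
  fun h => not_adj_inf_blk b h.symm

theorem adj_blk_pt (a : α) (b : B) :
    (Cfsg.pointBlockGraph B).Adj (some (Sum.inr b)) (some (Sum.inl a)) ↔ a ∈ (b : Finset α) := by
  rw [SimpleGraph.adj_comm]
  exact adj_pt_blk a b

theorem not_adj_inf_inf : ¬ (Cfsg.pointBlockGraph B).Adj none none :=
  (Cfsg.pointBlockGraph B).irrefl

theorem ncard_pts_finset (s : Finset α) : {a : α | a ∈ s}.ncard = s.card :=
  Set.ncard_coe_finset s

theorem ncard_pts_filter (P : α → Prop) [DecidablePred P] :
    {a : α | P a}.ncard = (univ.filter P).card := by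
  rw [← Set.ncard_coe_finset]
  congr 1
  ext a
  simp

theorem ncard_blk (P : Finset α → Prop) [DecidablePred P] [Fintype B] :
    {d : B | P (d : Finset α)}.ncard = (B.toFinset.filter P).card :=
  S0427.ncard_eq _ P (fun _ => Iff.rfl)

end Graph

/-- The point-block graph of an S(3, 6, 22) is strongly regular with parameters (100, 22, 0, 6). -/
theorem result {α : Type*} [Fintype α] (hα : Fintype.card α = 22) {B : Set (Finset α)} (hB : Cfsg.IsSteinerSystem 3 6 B) [Fintype B] [DecidableRel (Cfsg.pointBlockGraph B).Adj] : (Cfsg.pointBlockGraph B).IsSRGWith 100 22 0 6 := by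
  have h6 : ∀ b ∈ B.toFinset, b.card = 6 := fun b hb => hB.1 b (Set.mem_toFinset.mp hb)
  have h3 : ∀ s : Finset α, s.card = 3 → ∃! b, b ∈ B.toFinset ∧ s ⊆ b := by
    intro s hs
    obtain ⟨b, hb, hu⟩ := hB.2 s hs
    exact ⟨b, ⟨Set.mem_toFinset.mpr hb.1, hb.2⟩, fun c hc => hu c ⟨Set.mem_toFinset.mp hc.1, hc.2⟩⟩
  have hcardα : Nat.card α = 22 := by rw [Nat.card_eq_fintype_card, hα]
  have hmem : ∀ b : B, (b : Finset α) ∈ B.toFinset := fun b => Set.mem_toFinset.mpr b.2
  have hcn : ∀ (u v w : Option (α ⊕ B)), u ∈ (Cfsg.pointBlockGraph B).commonNeighbors v w ↔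
      (Cfsg.pointBlockGraph B).Adj v u ∧ (Cfsg.pointBlockGraph B).Adj w u := fun u v w => Iff.rfl
  refine ⟨?_, ?_, ?_, ?_⟩
  · rw [Fintype.card_option, Fintype.card_sum, hα, ← Set.toFinset_card,
      S0427.block_count hα _ h6 h3]
  · intro v
    rw [← SimpleGraph.card_neighborSet_eq_degree, ← Nat.card_eq_fintype_card,
      Nat.card_coe_set_eq, ncard_split]
    rcases v with _ | a | b
    · simp only [SimpleGraph.mem_neighborSet, not_adj_inf_inf, adj_inf_pt, not_adj_inf_blk]
      rw [if_neg not_false, Set.ofPred_true, Set.ncard_univ, hcardα, Set.ofPred_false,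
        Set.ncard_empty]
    · simp only [SimpleGraph.mem_neighborSet, adj_pt_inf, not_adj_pt_pt, adj_pt_blk]
      have e2 := ncard_blk (B := B) (fun d => a ∈ d)
      rw [if_pos trivial, Set.ofPred_false, Set.ncard_empty, e2, S0427.point_count hα _ h6 h3 a]
    · simp only [SimpleGraph.mem_neighborSet, not_adj_blk_inf, adj_blk_pt, adj_blk_blk hB]
      have e2 := ncard_blk (B := B) (fun d => Disjoint (b : Finset α) d)
      rw [if_neg not_false, ncard_pts_finset, h6 _ (hmem b), e2,
        S0427.disjoint_count hα _ h6 h3 (hmem b)]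
  · intro v w hvw
    rw [← Nat.card_eq_fintype_card, Nat.card_coe_set_eq, ncard_split]
    rcases v with _ | a | b <;> rcases w with _ | a' | b'
    · exact absurd hvw not_adj_inf_inf
    · simp only [hcn, not_adj_inf_inf, adj_inf_pt, not_adj_inf_blk, not_adj_pt_pt, false_and,
        and_false, if_false, Set.ofPred_false, Set.ncard_empty]
    · exact absurd hvw (not_adj_inf_blk b')
    · simp only [hcn, not_adj_inf_inf, adj_inf_pt, not_adj_inf_blk, not_adj_pt_pt, false_and,
        and_false, if_false, Set.ofPred_false, Set.ncard_empty]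
    · exact absurd hvw (not_adj_pt_pt a a')
    · have ha : a ∈ (b' : Finset α) := (adj_pt_blk a b').mp hvw
      simp only [hcn, adj_pt_inf, not_adj_blk_inf, not_adj_pt_pt, adj_pt_blk, adj_blk_blk hB,
        false_and, and_false, if_false, Set.ofPred_false, Set.ncard_empty]
      have : {d : B | a ∈ (d : Finset α) ∧ Disjoint (b' : Finset α) (d : Finset α)} = ∅ := by
        ext d
        simp only [Set.mem_ofPred_eq, Set.mem_empty_iff_false, iff_false, not_and]
        intro had hdis
        exact Finset.disjoint_left.mp hdis ha had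
      rw [this, Set.ncard_empty]
    · exact absurd hvw (not_adj_blk_inf b)
    · have ha : a' ∈ (b : Finset α) := (adj_blk_pt a' b).mp hvw
      simp only [hcn, adj_pt_inf, not_adj_blk_inf, not_adj_pt_pt, adj_pt_blk, adj_blk_blk hB,
        false_and, and_false, if_false, Set.ofPred_false, Set.ncard_empty]
      have : {d : B | Disjoint (b : Finset α) (d : Finset α) ∧ a' ∈ (d : Finset α)} = ∅ := by
        ext d
        simp only [Set.mem_ofPred_eq, Set.mem_empty_iff_false, iff_false, not_and]
        intro hdis had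
        exact Finset.disjoint_left.mp hdis ha had
      rw [this, Set.ncard_empty]
    · have hdis : Disjoint (b : Finset α) (b' : Finset α) := (adj_blk_blk hB b b').mp hvw
      have hne : (b : Finset α) ≠ b' := fun h => hvw.ne (by rw [Subtype.ext h])
      simp only [hcn, not_adj_blk_inf, adj_blk_pt, adj_blk_blk hB, false_and, if_false]
      have e1 : {x : α | x ∈ (b : Finset α) ∧ x ∈ (b' : Finset α)} = ∅ := by
        ext x
        simp only [Set.mem_ofPred_eq, Set.mem_empty_iff_false, iff_false, not_and]
        intro hx hx'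
        exact Finset.disjoint_left.mp hdis hx hx'
      have e2 := ncard_blk (B := B)
        (fun d => Disjoint (b : Finset α) d ∧ Disjoint (b' : Finset α) d)
      rw [e1, Set.ncard_empty, e2,
        S0427.both_disjoint_count hα _ h6 h3 (hmem b) (hmem b') hne,
        Finset.disjoint_iff_inter_eq_empty.mp hdis]
      rfl
  · intro v w hvw hnadj
    rw [← Nat.card_eq_fintype_card, Nat.card_coe_set_eq, ncard_split]
    rcases v with _ | a | b <;> rcases w with _ | a' | b'
    · exact absurd rfl hvw
    · exact absurd (adj_inf_pt a') hnadj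
    · simp only [hcn, not_adj_inf_inf, adj_inf_pt, not_adj_inf_blk, adj_blk_pt, not_adj_blk_inf,
        false_and, and_false, true_and, if_false, Set.ofPred_false, Set.ncard_empty]
      rw [ncard_pts_finset, h6 _ (hmem b')]
    · exact absurd (adj_pt_inf a) hnadj
    · have hne : a ≠ a' := fun h => hvw (by rw [h])
      simp only [hcn, adj_pt_inf, not_adj_pt_pt, adj_pt_blk, false_and, and_self, if_true,
        Set.ofPred_false, Set.ncard_empty]
      have e2 := ncard_blk (B := B) (fun d => a ∈ d ∧ a' ∈ d)
      rw [e2, S0427.pair_count hα _ h6 h3 hne]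
    · have ha : a ∉ (b' : Finset α) := fun h => hnadj ((adj_pt_blk a b').mpr h)
      simp only [hcn, adj_pt_inf, not_adj_blk_inf, not_adj_pt_pt, adj_pt_blk, adj_blk_blk hB,
        false_and, and_false, if_false, Set.ofPred_false, Set.ncard_empty]
      have e2 := ncard_blk (B := B) (fun d => a ∈ d ∧ Disjoint (b' : Finset α) d)
      rw [e2, S0427.point_disjoint_count hα _ h6 h3 (hmem b') ha]
    · simp only [hcn, not_adj_inf_inf, adj_inf_pt, not_adj_inf_blk, adj_blk_pt, not_adj_blk_inf,
        false_and, and_false, and_true, if_false, Set.ofPred_false, Set.ncard_empty]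
      rw [ncard_pts_finset, h6 _ (hmem b)]
    · have ha : a' ∉ (b : Finset α) := fun h => hnadj ((adj_blk_pt a' b).mpr h)
      simp only [hcn, adj_pt_inf, not_adj_blk_inf, not_adj_pt_pt, adj_pt_blk, adj_blk_blk hB,
        false_and, and_false, if_false, Set.ofPred_false, Set.ncard_empty]
      have e2 := ncard_blk (B := B) (fun d => a' ∈ d ∧ Disjoint (b : Finset α) d)
      have e3 : {d : B | Disjoint (b : Finset α) (d : Finset α) ∧ a' ∈ (d : Finset α)}
          = {d : B | a' ∈ (d : Finset α) ∧ Disjoint (b : Finset α) (d : Finset α)} := by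
        ext d
        exact and_comm
      rw [e3, e2, S0427.point_disjoint_count hα _ h6 h3 (hmem b) ha]
    · have hne : (b : Finset α) ≠ b' := fun h => hvw (by rw [Subtype.ext h])
      have hndis : ¬ Disjoint (b : Finset α) (b' : Finset α) :=
        fun h => hnadj ((adj_blk_blk hB b b').mpr h)
      have hk := S0427.inter_card hα _ h6 h3 (hmem b) (hmem b') hne
      have h2 : ((b : Finset α) ∩ b').card = 2 := by
        rcases hk with h0 | h2
        · exact absurd (Finset.disjoint_iff_inter_eq_empty.mpr (Finset.card_eq_zero.mp h0)) hndis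
        · exact h2
      simp only [hcn, not_adj_blk_inf, adj_blk_pt, adj_blk_blk hB, false_and, if_false]
      have e1 : {x : α | x ∈ (b : Finset α) ∧ x ∈ (b' : Finset α)}
          = ↑((b : Finset α) ∩ (b' : Finset α)) := by
        ext x
        simp
      have e2 := ncard_blk (B := B)
        (fun d => Disjoint (b : Finset α) d ∧ Disjoint (b' : Finset α) d)
      rw [e1, Set.ncard_coe_finset, h2, e2,
        S0427.both_disjoint_count hα _ h6 h3 (hmem b) (hmem b') hne, h2]

end Cfsg.Agent.S0428
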