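import Mathlib
import Cfsg.Statements.S0433

set_option autoImplicit false
open Cfsg

namespace Cfsg.Agent.S0433

/-- Parity pairing of two binary words. -/
def pair (w v : Cfsg.GolayPt → ZMod 2) : ZMod 2 := ∑ i, w i * v i

theorem pair_add_left (w w' v : Cfsg.GolayPt → ZMod 2) : pair (w + w') v = pair w v + pair w' v := by
  unfold pair
  rw [← Finset.sum_add_distrib]
  refine Finset.sum_congr rfl fun i _ => ?_
  simp [add_mul]

theorem pair_smul_left (c : ZMod 2) (w v : Cfsg.GolayPt → ZMod 2) : pair (c • w) v = c * pair w v := by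
  unfold pair
  rw [Finset.mul_sum]
  refine Finset.sum_congr rfl fun i _ => ?_
  simp [mul_assoc]

theorem pair_comm (w v : Cfsg.GolayPt → ZMod 2) : pair w v = pair v w := by
  unfold pair
  refine Finset.sum_congr rfl fun i _ => ?_
  rw [mul_comm]

theorem pair_zero_left (v : Cfsg.GolayPt → ZMod 2) : pair 0 v = 0 := by
  unfold pair
  simp

set_option maxRecDepth 100000 in
theorem qr_pair : ∀ t t' : ZMod 23, pair (Cfsg.qrWord t) (Cfsg.qrWord t') = 0 := by
  decide

set_option maxRecDepth 100000 in
theorem qr_pair_one : ∀ t : ZMod 23, pair (Cfsg.qrWord t) 1 = 0 := by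
  decide

set_option maxRecDepth 100000 in
theorem one_pair_one : pair (1 : Cfsg.GolayPt → ZMod 2) 1 = 0 := by
  decide

set_option maxRecDepth 100000 in
theorem qr_weight : ∀ t : ZMod 23, (Cfsg.support₂ (Cfsg.qrWord t)).card = 12 := by
  decide

set_option maxRecDepth 100000 in
theorem one_weight : (Cfsg.support₂ (1 : Cfsg.GolayPt → ZMod 2)).card = 24 := by
  decide

theorem gen_pair {g g' : Cfsg.GolayPt → ZMod 2} (hg : g ∈ Set.range Cfsg.qrWord ∪ {1})
    (hg' : g' ∈ Set.range Cfsg.qrWord ∪ {1}) : pair g g' = 0 := by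
  rcases hg with ⟨t, rfl⟩ | hg
  · rcases hg' with ⟨t', rfl⟩ | hg'
    · exact qr_pair t t'
    · rw [Set.mem_singleton_iff] at hg'
      subst hg'
      exact qr_pair_one t
  · rw [Set.mem_singleton_iff] at hg
    subst hg
    rcases hg' with ⟨t', rfl⟩ | hg'
    · rw [pair_comm]; exact qr_pair_one t'
    · rw [Set.mem_singleton_iff] at hg'
      subst hg'
      exact one_pair_one

theorem code_pair {w v : Cfsg.GolayPt → ZMod 2} (hw : w ∈ Cfsg.golayCode) (hv : v ∈ Cfsg.golayCode) :
    pair w v = 0 := by
  unfold Cfsg.golayCode at hw hv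
  induction hw using Submodule.span_induction with
  | mem g hg =>
    induction hv using Submodule.span_induction with
    | mem g' hg' => exact gen_pair hg hg'
    | zero => rw [pair_comm, pair_zero_left]
    | add x y _ _ hx hy => rw [pair_comm, pair_add_left, pair_comm, hx, pair_comm, hy, add_zero]
    | smul c x _ hx => rw [pair_comm, pair_smul_left, pair_comm, hx, mul_zero]
  | zero => exact pair_zero_left v
  | add x y _ _ hx hy => rw [pair_add_left, hx, hy, add_zero]
  | smul c x _ hx => rw [pair_smul_left, hx, mul_zero]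

theorem zmod2_cases (a : ZMod 2) : a = 0 ∨ a = 1 := by
  revert a; decide

theorem pair_eq_card (w v : Cfsg.GolayPt → ZMod 2) :
    pair w v = ((Cfsg.support₂ w ∩ Cfsg.support₂ v).card : ZMod 2) := by
  unfold pair Cfsg.support₂
  rw [← Finset.filter_and, Finset.card_filter, Nat.cast_sum]
  refine Finset.sum_congr rfl fun i _ => ?_
  rcases zmod2_cases (w i) with h | h <;> rcases zmod2_cases (v i) with h' | h' <;> simp [h, h']

theorem code_inter_even {w v : Cfsg.GolayPt → ZMod 2} (hw : w ∈ Cfsg.golayCode)
    (hv : v ∈ Cfsg.golayCode) : 2 ∣ (Cfsg.support₂ w ∩ Cfsg.support₂ v).card := by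
  have h := code_pair hw hv
  rw [pair_eq_card] at h
  exact (ZMod.natCast_eq_zero_iff _ _).mp h

theorem support_add (w v : Cfsg.GolayPt → ZMod 2) :
    Cfsg.support₂ (w + v) = symmDiff (Cfsg.support₂ w) (Cfsg.support₂ v) := by
  unfold Cfsg.support₂
  ext i
  simp only [Finset.mem_filter, Finset.mem_univ, true_and, Finset.mem_symmDiff, Pi.add_apply]
  rcases zmod2_cases (w i) with h | h <;> rcases zmod2_cases (v i) with h' | h'
  · simp [h, h']
  · simp [h, h']
  · simp [h, h']
  · simp only [h, h']
    decide

theorem card_symmDiff_eq (s t : Finset Cfsg.GolayPt) :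
    (symmDiff s t).card + 2 * (s ∩ t).card = s.card + t.card := by
  have h1 : (symmDiff s t).card = (s \ t).card + (t \ s).card := by
    rw [symmDiff_def, Finset.sup_eq_union, Finset.card_union_of_disjoint]
    exact disjoint_sdiff_sdiff
  have h2 := Finset.card_sdiff_add_card_inter s t
  have h3 := Finset.card_sdiff_add_card_inter t s
  rw [Finset.inter_comm t s] at h3
  omega

theorem code_weight {w : Cfsg.GolayPt → ZMod 2} (hw : w ∈ Cfsg.golayCode) :
    4 ∣ (Cfsg.support₂ w).card := by
  have hw' := hw
  unfold Cfsg.golayCode at hw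
  induction hw using Submodule.span_induction with
  | mem g hg =>
    rcases hg with ⟨t, rfl⟩ | hg
    · rw [qr_weight]; decide
    · rw [Set.mem_singleton_iff] at hg
      subst hg
      rw [one_weight]; decide
  | zero =>
    have : Cfsg.support₂ (0 : Cfsg.GolayPt → ZMod 2) = ∅ := by
      unfold Cfsg.support₂; simp
    rw [this]; simp
  | add x y hx hy ihx ihy =>
    have hx' : x ∈ Cfsg.golayCode := hx
    have hy' : y ∈ Cfsg.golayCode := hy
    have h1 := ihx hx'
    have h2 := ihy hy'
    have h3 := code_inter_even hx' hy'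
    have h4 := card_symmDiff_eq (Cfsg.support₂ x) (Cfsg.support₂ y)
    rw [support_add]
    omega
  | smul c x hx ihx =>
    have hx' : x ∈ Cfsg.golayCode := hx
    rcases zmod2_cases c with rfl | rfl
    · have : Cfsg.support₂ ((0 : ZMod 2) • x) = ∅ := by
        unfold Cfsg.support₂; simp
      rw [this]; simp
    · rw [one_smul]; exact ihx hx'


theorem supports_symmDiff {s t : Finset Cfsg.GolayPt}
    (hs : s ∈ Cfsg.supports (Cfsg.golayCode : Set (Cfsg.GolayPt → ZMod 2)))
    (ht : t ∈ Cfsg.supports (Cfsg.golayCode : Set (Cfsg.GolayPt → ZMod 2))) :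
    symmDiff s t ∈ Cfsg.supports (Cfsg.golayCode : Set (Cfsg.GolayPt → ZMod 2)) := by
  obtain ⟨w, hw, rfl⟩ := hs
  obtain ⟨v, hv, rfl⟩ := ht
  exact ⟨w + v, Cfsg.golayCode.add_mem hw hv, support_add w v⟩

theorem supports_inter_even {s t : Finset Cfsg.GolayPt}
    (hs : s ∈ Cfsg.supports (Cfsg.golayCode : Set (Cfsg.GolayPt → ZMod 2)))
    (ht : t ∈ Cfsg.supports (Cfsg.golayCode : Set (Cfsg.GolayPt → ZMod 2))) :
    2 ∣ (s ∩ t).card := by
  obtain ⟨w, hw, rfl⟩ := hs
  obtain ⟨v, hv, rfl⟩ := ht
  exact code_inter_even hw hv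

theorem supports_weight {s : Finset Cfsg.GolayPt}
    (hs : s ∈ Cfsg.supports (Cfsg.golayCode : Set (Cfsg.GolayPt → ZMod 2))) :
    4 ∣ s.card := by
  obtain ⟨w, hw, rfl⟩ := hs
  exact code_weight hw

/-- The sign change on a set of coordinates. -/
def flip (c : Finset Cfsg.GolayPt) (x : Cfsg.GolayPt → ℤ) : Cfsg.GolayPt → ℤ :=
  fun i => if i ∈ c then -x i else x i

theorem sum_flip (c : Finset Cfsg.GolayPt) (x : Cfsg.GolayPt → ℤ) :
    ∑ i, flip c x i = ∑ i, x i - 2 * ∑ i ∈ c, x i := by
  have h1 : ∀ i, flip c x i = x i - 2 * (if i ∈ c then x i else 0) := by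
    intro i
    unfold flip
    split_ifs <;> ring
  rw [Finset.sum_congr rfl fun i _ => h1 i, Finset.sum_sub_distrib, ← Finset.mul_sum,
    Finset.sum_ite_mem, Finset.univ_inter]

theorem leechSet_flip {c : Finset Cfsg.GolayPt}
    (hc : c ∈ Cfsg.supports (Cfsg.golayCode : Set (Cfsg.GolayPt → ZMod 2)))
    {x : Cfsg.GolayPt → ℤ} (hx : x ∈ Cfsg.leechSet) : flip c x ∈ Cfsg.leechSet := by
  obtain ⟨m, h1, h2, h3⟩ := hx
  have hc4 := supports_weight hc
  rcases Int.emod_two_eq_zero_or_one m with hm | hm
  · -- even case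
    have hx4 : ∀ i, flip c x i ≡ x i [ZMOD 4] := by
      intro i
      have := h1 i
      unfold flip
      unfold Int.ModEq at this ⊢
      split_ifs <;> omega
    refine ⟨m, fun i => ?_, ?_, fun k => ?_⟩
    · have := h1 i
      have h4 := hx4 i
      unfold Int.ModEq at this h4 ⊢
      omega
    · rw [sum_flip]
      -- the sum over c is 0 mod 4
      have hsum : (∑ i ∈ c, x i) ≡ ∑ i ∈ c, (if x i ≡ 2 [ZMOD 4] then 2 else 0) [ZMOD 4] := by
        apply Int.ModEq.sum
        intro i _
        have := h1 i
        by_cases h5 : x i ≡ 2 [ZMOD 4]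
        · rw [if_pos h5]; exact h5
        · rw [if_neg h5]
          unfold Int.ModEq at this h5 ⊢
          omega
      have hcount : (∑ i ∈ c, (if x i ≡ 2 [ZMOD 4] then (2 : ℤ) else 0))
          = 2 * ((c ∩ Finset.univ.filter fun i => x i ≡ 2 [ZMOD 4]).card : ℤ) := by
        have hset : c.filter (fun i => x i ≡ 2 [ZMOD 4])
            = c ∩ Finset.univ.filter fun i => x i ≡ 2 [ZMOD 4] := by
          ext i; simp
        rw [← Finset.sum_filter, Finset.sum_const, hset, nsmul_eq_mul, mul_comm]
      have heven := supports_inter_even hc (h3 2)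
      obtain ⟨j, hj⟩ := heven
      rw [hcount, hj] at hsum
      unfold Int.ModEq at hsum h2 ⊢
      push_cast at hsum
      omega
    · have : (Finset.univ.filter fun i => flip c x i ≡ k [ZMOD 4])
          = (Finset.univ.filter fun i => x i ≡ k [ZMOD 4]) := by
        apply Finset.filter_congr
        intro i _
        have := hx4 i
        unfold Int.ModEq at this ⊢
        omega
      rw [this]
      exact h3 k
  · -- odd case
    refine ⟨m, fun i => ?_, ?_, fun k => ?_⟩
    · have := h1 i
      unfold flip
      unfold Int.ModEq at this ⊢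
      split_ifs <;> omega
    · rw [sum_flip]
      have hsum : (∑ i ∈ c, x i) ≡ ∑ i ∈ c, (if x i ≡ 1 [ZMOD 4] then 2 else 0) - ∑ i ∈ c, 1 [ZMOD 4] := by
        rw [← Finset.sum_sub_distrib]
        apply Int.ModEq.sum
        intro i _
        have := h1 i
        by_cases h5 : x i ≡ 1 [ZMOD 4]
        · rw [if_pos h5]
          unfold Int.ModEq at this h5 ⊢
          omega
        · rw [if_neg h5]
          unfold Int.ModEq at this h5 ⊢
          omega
      have hcount : (∑ i ∈ c, (if x i ≡ 1 [ZMOD 4] then (2 : ℤ) else 0))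
          = 2 * ((c ∩ Finset.univ.filter fun i => x i ≡ 1 [ZMOD 4]).card : ℤ) := by
        have hset : c.filter (fun i => x i ≡ 1 [ZMOD 4])
            = c ∩ Finset.univ.filter fun i => x i ≡ 1 [ZMOD 4] := by
          ext i; simp
        rw [← Finset.sum_filter, Finset.sum_const, hset, nsmul_eq_mul, mul_comm]
      have heven := supports_inter_even hc (h3 1)
      obtain ⟨j, hj⟩ := heven
      obtain ⟨l, hl⟩ := hc4
      rw [hcount, hj] at hsum
      have hone : (∑ i ∈ c, (1 : ℤ)) = (c.card : ℤ) := by simp
      rw [hone, hl] at hsum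
      unfold Int.ModEq at hsum h2 ⊢
      push_cast at hsum
      omega
    · by_cases hk : k % 2 = 1
      · have : (Finset.univ.filter fun i => flip c x i ≡ k [ZMOD 4])
            = symmDiff (Finset.univ.filter fun i => x i ≡ k [ZMOD 4]) c := by
          ext i
          simp only [Finset.mem_filter, Finset.mem_univ, true_and, Finset.mem_symmDiff]
          have := h1 i
          unfold flip
          unfold Int.ModEq at this ⊢
          by_cases hi : i ∈ c
          · simp only [hi, if_true, not_true, and_false, true_and, false_or]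
            omega
          · simp only [hi, if_false, not_false_eq_true, and_true, false_and, or_false]
        rw [this]
        exact supports_symmDiff (h3 k) hc
      · have : (Finset.univ.filter fun i => flip c x i ≡ k [ZMOD 4])
            = (Finset.univ.filter fun i => x i ≡ k [ZMOD 4]) := by
          apply Finset.filter_congr
          intro i _
          have := h1 i
          unfold flip
          unfold Int.ModEq at this ⊢
          split_ifs <;> omega
        rw [this]
        exact h3 k

theorem flip_add (c : Finset Cfsg.GolayPt) (x y : Cfsg.GolayPt → ℤ) :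
    flip c (x + y) = flip c x + flip c y := by
  funext i
  unfold flip
  simp only [Pi.add_apply]
  split_ifs <;> ring

theorem flip_neg (c : Finset Cfsg.GolayPt) (x : Cfsg.GolayPt → ℤ) :
    flip c (-x) = - flip c x := by
  funext i
  unfold flip
  simp only [Pi.neg_apply]
  split_ifs <;> ring

theorem flip_zero (c : Finset Cfsg.GolayPt) : flip c 0 = 0 := by
  funext i
  unfold flip
  simp

/-- Sign changes on the support of a codeword preserve the lattice. -/
theorem result (c : Finset Cfsg.GolayPt) (hc : c ∈ Cfsg.supports (Cfsg.golayCode : Set (Cfsg.GolayPt → ZMod 2))) (x : Cfsg.GolayPt → ℤ) (hx : x ∈ Cfsg.leechLattice) : (fun i => if i ∈ c then -x i else x i) ∈ Cfsg.leechLattice := by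
  change flip c x ∈ Cfsg.leechLattice
  unfold Cfsg.leechLattice at hx ⊢
  induction hx using AddSubgroup.closure_induction with
  | mem y hy => exact AddSubgroup.subset_closure (leechSet_flip hc hy)
  | zero => rw [flip_zero]; exact zero_mem _
  | add y z _ _ hy hz => rw [flip_add]; exact add_mem hy hz
  | neg y _ hy => rw [flip_neg]; exact neg_mem hy

end Cfsg.Agent.S0433
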