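import Mathlib
import Cfsg.Statements.S0439

set_option autoImplicit false
open Cfsg

namespace Cfsg.Agent.S0439

open Equiv Equiv.Perm

theorem three_cycle_cube {α : Type*} [Fintype α] [DecidableEq α] {a b c : α} (ab : a ≠ b) (ac : a ≠ c)
    (bc : b ≠ c) : (swap a b * swap a c) ^ 3 = 1 := by
  have h := (isThreeCycle_swap_mul_swap_same ab ac bc).orderOf
  rw [← h, pow_orderOf_eq_one]

theorem swap_prod {α : Type*} [Fintype α] [DecidableEq α] {a b c d : α} (hab : a ≠ b) (hcd : c ≠ d) :
    (swap a b * swap c d) ^ 2 = 1 ∨ (swap a b * swap c d) ^ 3 = 1 := by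
  by_cases hac : a = c
  · subst hac
    by_cases hbd : b = d
    · subst hbd
      left
      rw [swap_mul_self, one_pow]
    · right
      exact three_cycle_cube hab hcd hbd
  · by_cases had : a = d
    · subst had
      by_cases hbc : b = c
      · subst hbc
        left
        rw [swap_comm b a, swap_mul_self, one_pow]
      · right
        rw [swap_comm c a]
        exact three_cycle_cube hab (Ne.symm hcd) hbc
    · by_cases hbc : b = c
      · subst hbc
        right
        rw [swap_comm a b]
        exact three_cycle_cube (Ne.symm hab) hcd had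
      · by_cases hbd : b = d
        · subst hbd
          right
          rw [swap_comm a b, swap_comm c b]
          exact three_cycle_cube (Ne.symm hab) (Ne.symm hcd) hac
        · left
          have hdis : Perm.Disjoint (swap a b) (swap c d) := by
            apply disjoint_swap_swap
            simp [hab, hac, had, hbc, hbd, hcd]
          have hcomm : Commute (swap a b) (swap c d) := hdis.commute
          rw [hcomm.mul_pow, pow_two, pow_two, swap_mul_self, swap_mul_self, one_mul]

/-- In the symmetric group of degree n ≥ 2, the set of transpositions is a conjugacy class of 3-transpositions which generates the group. -/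
theorem result (n : ℕ) (hn : 2 ≤ n) : Cfsg.IsThreeTranspositionClass {σ : Equiv.Perm (Fin n) | σ.IsSwap} := by
  refine ⟨⟨?_, ?_⟩, ?_, ?_⟩
  · intro d hd
    exact IsSwap.orderOf hd
  · rintro d ⟨a, b, hab, rfl⟩ e ⟨c, f, hcf, rfl⟩
    exact swap_prod hab hcf
  · have h01 : (⟨0, by omega⟩ : Fin n) ≠ ⟨1, by omega⟩ := by
      intro h
      have := congrArg Fin.val h
      simp at this
    refine ⟨swap ⟨0, by omega⟩ ⟨1, by omega⟩, ⟨_, _, h01, rfl⟩, ?_⟩
    ext σ
    constructor
    · rintro ⟨x, y, hxy, rfl⟩
      exact isConj_swap h01 hxy
    · intro h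
      change IsConj _ σ at h
      rw [isConj_iff] at h
      obtain ⟨g, hg⟩ := h
      refine ⟨g ⟨0, by omega⟩, g ⟨1, by omega⟩, fun h => h01 (g.injective h), ?_⟩
      rw [swap_apply_apply, hg]
  · exact closure_isSwap

end Cfsg.Agent.S0439
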