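import Mathlib
import Cfsg.Statements.S0440

set_option autoImplicit false
open Cfsg

namespace Cfsg.Agent.S0440

open Matrix

variable {n : ℕ}

/-- the symplectic form -/
def Bf (x y : Fin n ⊕ Fin n → ZMod 2) : ZMod 2 := x ⬝ᵥ (Matrix.J (Fin n) (ZMod 2) *ᵥ y)

theorem z2_cases (a : ZMod 2) : a = 0 ∨ a = 1 := by
  revert a; decide

theorem z2_add_self (a : ZMod 2) : a + a = 0 := by
  revert a; decide

theorem vec_add_self (x : Fin n ⊕ Fin n → ZMod 2) : x + x = 0 := by
  ext i; exact z2_add_self _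

theorem Bf_add_left (x y z : Fin n ⊕ Fin n → ZMod 2) : Bf (x + y) z = Bf x z + Bf y z := by
  unfold Bf; rw [add_dotProduct]

theorem Bf_add_right (x y z : Fin n ⊕ Fin n → ZMod 2) : Bf x (y + z) = Bf x y + Bf x z := by
  unfold Bf; rw [mulVec_add, dotProduct_add]

theorem Bf_smul_left (c : ZMod 2) (x y : Fin n ⊕ Fin n → ZMod 2) : Bf (c • x) y = c * Bf x y := by
  unfold Bf; rw [smul_dotProduct, smul_eq_mul]

theorem Bf_smul_right (c : ZMod 2) (x y : Fin n ⊕ Fin n → ZMod 2) : Bf x (c • y) = c * Bf x y := by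
  unfold Bf; rw [mulVec_smul, dotProduct_smul, smul_eq_mul]

theorem Bf_self (x : Fin n ⊕ Fin n → ZMod 2) : Bf x x = 0 := by
  unfold Bf
  simp [Matrix.J, dotProduct, Matrix.mulVec, Fintype.sum_sum_type, Matrix.one_apply, Matrix.neg_apply]
  rw [← Finset.sum_add_distrib]
  apply Finset.sum_eq_zero
  intro i _
  rw [mul_comm (x (Sum.inr i))]
  exact z2_add_self _

theorem Bf_symm (x y : Fin n ⊕ Fin n → ZMod 2) : Bf x y = Bf y x := by
  have h := Bf_self (x + y)
  rw [Bf_add_left, Bf_add_right, Bf_add_right, Bf_self, Bf_self, zero_add, add_zero] at h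
  have h2 := z2_add_self (Bf y x)
  calc Bf x y = Bf x y + Bf y x + Bf y x := by rw [add_assoc, h2, add_zero]
    _ = Bf y x := by rw [h, zero_add]

theorem Bf_zero_left (y : Fin n ⊕ Fin n → ZMod 2) : Bf 0 y = 0 := by unfold Bf; simp

theorem Bf_zero_right (x : Fin n ⊕ Fin n → ZMod 2) : Bf x 0 = 0 := by unfold Bf; simp

/-- nondegeneracy -/
theorem exists_Bf_eq_one {u : Fin n ⊕ Fin n → ZMod 2} (hu : u ≠ 0) : ∃ z, Bf u z = 1 := by
  obtain ⟨i, hi⟩ : ∃ i, u i ≠ 0 := by
    by_contra h; push Not at h; exact hu (funext h)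
  refine ⟨(-Matrix.J (Fin n) (ZMod 2)) *ᵥ Pi.single i 1, ?_⟩
  unfold Bf
  rw [mulVec_mulVec, mul_neg, Matrix.J_squared, neg_neg, one_mulVec, dotProduct_single, mul_one]
  rcases z2_cases (u i) with h | h
  · exact absurd h hi
  · exact h

theorem exists_Bf_both {a b : Fin n ⊕ Fin n → ZMod 2} (ha : a ≠ 0) (hb : b ≠ 0) :
    ∃ z, Bf a z = 1 ∧ Bf b z = 1 := by
  obtain ⟨z1, h1⟩ := exists_Bf_eq_one ha
  obtain ⟨z2, h2⟩ := exists_Bf_eq_one hb
  rcases z2_cases (Bf b z1) with h3 | h3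
  · rcases z2_cases (Bf a z2) with h4 | h4
    · exact ⟨z1 + z2, by rw [Bf_add_right, h1, h4, add_zero], by rw [Bf_add_right, h3, h2, zero_add]⟩
    · exact ⟨z2, h4, h2⟩
  · exact ⟨z1, h1, h3⟩

/-- the transvection matrix -/
def Tm (u : Fin n ⊕ Fin n → ZMod 2) : Matrix (Fin n ⊕ Fin n) (Fin n ⊕ Fin n) (ZMod 2) :=
  1 + vecMulVec u (u ᵥ* Matrix.J (Fin n) (ZMod 2))

theorem Tm_mulVec (u x : Fin n ⊕ Fin n → ZMod 2) : Tm u *ᵥ x = x + Bf u x • u := by
  unfold Tm Bf
  rw [add_mulVec, one_mulVec, vecMulVec_mulVec, dotProduct_mulVec, op_smul_eq_smul]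

theorem Bf_mulVec_mulVec (A : Matrix (Fin n ⊕ Fin n) (Fin n ⊕ Fin n) (ZMod 2))
    (x y : Fin n ⊕ Fin n → ZMod 2) :
    Bf (A *ᵥ x) (A *ᵥ y) = x ⬝ᵥ ((Aᵀ * Matrix.J (Fin n) (ZMod 2) * A) *ᵥ y) := by
  unfold Bf
  rw [← vecMul_transpose A x, ← dotProduct_mulVec, mulVec_mulVec, mulVec_mulVec, Matrix.mul_assoc]

theorem mem_Sp_iff (A : Matrix (Fin n ⊕ Fin n) (Fin n ⊕ Fin n) (ZMod 2)) :
    A ∈ Matrix.symplecticGroup (Fin n) (ZMod 2) ↔ ∀ x y, Bf (A *ᵥ x) (A *ᵥ y) = Bf x y := by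
  rw [SymplecticGroup.mem_iff']
  constructor
  · intro h x y
    rw [Bf_mulVec_mulVec, h]; rfl
  · intro h
    ext i j
    have h1 := h (Pi.single i 1) (Pi.single j 1)
    rw [Bf_mulVec_mulVec] at h1
    unfold Bf at h1
    simpa using h1

theorem Tm_mem (u : Fin n ⊕ Fin n → ZMod 2) : Tm u ∈ Matrix.symplecticGroup (Fin n) (ZMod 2) := by
  rw [mem_Sp_iff]
  intro x y
  rw [Tm_mulVec, Tm_mulVec, Bf_add_left, Bf_add_right, Bf_add_right, Bf_smul_left, Bf_smul_right,
    Bf_smul_left, Bf_smul_right, Bf_self, Bf_symm x u]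
  have h := z2_add_self (Bf u x * Bf u y)
  linear_combination h

/-- the transvection as an element of the symplectic group -/
def Ts (u : Fin n ⊕ Fin n → ZMod 2) : Matrix.symplecticGroup (Fin n) (ZMod 2) := ⟨Tm u, Tm_mem u⟩

/-- the action on vectors -/
def act (g : Matrix.symplecticGroup (Fin n) (ZMod 2)) (x : Fin n ⊕ Fin n → ZMod 2) :
    Fin n ⊕ Fin n → ZMod 2 := g.1 *ᵥ x

theorem act_mul (g h : Matrix.symplecticGroup (Fin n) (ZMod 2)) (x : Fin n ⊕ Fin n → ZMod 2) :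
    act (g * h) x = act g (act h x) := by
  unfold act
  rw [mulVec_mulVec]; rfl

theorem act_one (x : Fin n ⊕ Fin n → ZMod 2) :
    act (1 : Matrix.symplecticGroup (Fin n) (ZMod 2)) x = x := by
  unfold act
  exact one_mulVec x

theorem act_inv_act (g : Matrix.symplecticGroup (Fin n) (ZMod 2)) (x : Fin n ⊕ Fin n → ZMod 2) :
    act g⁻¹ (act g x) = x := by
  rw [← act_mul, inv_mul_cancel, act_one]

theorem act_act_inv (g : Matrix.symplecticGroup (Fin n) (ZMod 2)) (x : Fin n ⊕ Fin n → ZMod 2) :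
    act g (act g⁻¹ x) = x := by
  rw [← act_mul, mul_inv_cancel, act_one]

theorem act_add (g : Matrix.symplecticGroup (Fin n) (ZMod 2)) (x y : Fin n ⊕ Fin n → ZMod 2) :
    act g (x + y) = act g x + act g y := by
  unfold act; exact mulVec_add _ _ _

theorem act_smul (g : Matrix.symplecticGroup (Fin n) (ZMod 2)) (c : ZMod 2)
    (x : Fin n ⊕ Fin n → ZMod 2) : act g (c • x) = c • act g x := by
  unfold act; exact mulVec_smul _ _ _

theorem act_zero (g : Matrix.symplecticGroup (Fin n) (ZMod 2)) :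
    act g (0 : Fin n ⊕ Fin n → ZMod 2) = 0 := by
  unfold act; exact mulVec_zero _

theorem Bf_act (g : Matrix.symplecticGroup (Fin n) (ZMod 2)) (x y : Fin n ⊕ Fin n → ZMod 2) :
    Bf (act g x) (act g y) = Bf x y :=
  (mem_Sp_iff g.1).1 g.2 x y

theorem act_Ts (u x : Fin n ⊕ Fin n → ZMod 2) : act (Ts u) x = x + Bf u x • u :=
  Tm_mulVec u x

theorem Sp_ext {g h : Matrix.symplecticGroup (Fin n) (ZMod 2)} (H : ∀ x, act g x = act h x) :
    g = h :=
  Subtype.ext (Matrix.ext_iff_mulVec.2 H)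

theorem Ts_zero : Ts (0 : Fin n ⊕ Fin n → ZMod 2) = 1 := by
  apply Sp_ext
  intro x
  rw [act_Ts, act_one, smul_zero, add_zero]

theorem Ts_mul_self (u : Fin n ⊕ Fin n → ZMod 2) : Ts u * Ts u = 1 := by
  apply Sp_ext
  intro x
  rw [act_mul, act_Ts, act_Ts, act_one, Bf_add_right, Bf_smul_right, Bf_self, mul_zero, add_zero,
    add_assoc, ← add_smul, z2_add_self, zero_smul, add_zero]

theorem Ts_inv (u : Fin n ⊕ Fin n → ZMod 2) : (Ts u)⁻¹ = Ts u :=
  inv_eq_of_mul_eq_one_left (Ts_mul_self u)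

theorem conj_Ts (g : Matrix.symplecticGroup (Fin n) (ZMod 2)) (u : Fin n ⊕ Fin n → ZMod 2) :
    g * Ts u * g⁻¹ = Ts (act g u) := by
  apply Sp_ext
  intro x
  rw [act_mul, act_mul, act_Ts, act_add, act_smul, act_act_inv, act_Ts]
  have h := Bf_act g u (act g⁻¹ x)
  rw [act_act_inv] at h
  rw [h]

theorem Ts_conj_Ts (u v : Fin n ⊕ Fin n → ZMod 2) :
    Ts u * Ts v * Ts u = Ts (v + Bf u v • u) := by
  have h := conj_Ts (Ts u) v
  rw [Ts_inv, act_Ts] at h
  exact h

theorem vadd_cancel (a z : Fin n ⊕ Fin n → ZMod 2) : a + (a + z) = z := by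
  rw [← add_assoc, vec_add_self, zero_add]

theorem vadd_cancel' (a z : Fin n ⊕ Fin n → ZMod 2) : z + (a + z) = a := by
  rw [add_comm a z, vadd_cancel]

theorem act_Ts_of_one {u x : Fin n ⊕ Fin n → ZMod 2} (h : Bf u x = 1) :
    act (Ts u) x = x + u := by
  rw [act_Ts, h, one_smul]

theorem act_Ts_of_zero {u x : Fin n ⊕ Fin n → ZMod 2} (h : Bf u x = 0) :
    act (Ts u) x = x := by
  rw [act_Ts, h, zero_smul, add_zero]

theorem Ts_ne_one {u : Fin n ⊕ Fin n → ZMod 2} (hu : u ≠ 0) : Ts u ≠ 1 := by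
  obtain ⟨z, hz⟩ := exists_Bf_eq_one hu
  intro h
  have h1 : act (Ts u) z = act 1 z := by rw [h]
  rw [act_Ts, act_one, hz, one_smul] at h1
  exact hu (by simpa using h1)

theorem orderOf_Ts {u : Fin n ⊕ Fin n → ZMod 2} (hu : u ≠ 0) : orderOf (Ts u) = 2 := by
  apply orderOf_eq_prime
  · rw [pow_two, Ts_mul_self]
  · exact Ts_ne_one hu

theorem Ts_three (u v : Fin n ⊕ Fin n → ZMod 2) :
    (Ts u * Ts v) ^ 2 = 1 ∨ (Ts u * Ts v) ^ 3 = 1 := by
  rcases z2_cases (Bf u v) with h | h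
  · left
    have h1 := Ts_conj_Ts u v
    rw [h, zero_smul, add_zero] at h1
    rw [pow_two]
    calc Ts u * Ts v * (Ts u * Ts v) = (Ts u * Ts v * Ts u) * Ts v := by group
      _ = 1 := by rw [h1, Ts_mul_self]
  · right
    have h1 := Ts_conj_Ts u v
    rw [h, one_smul] at h1
    have h2 := Ts_conj_Ts v u
    rw [Bf_symm v u, h, one_smul, add_comm u v] at h2
    calc (Ts u * Ts v) ^ 3 = (Ts u * Ts v * Ts u) * (Ts v * Ts u * Ts v) := by
          simp only [pow_succ, pow_zero, one_mul, mul_assoc]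
      _ = 1 := by rw [h1, h2, Ts_mul_self]

theorem rank_eq_zero_imp {A : Matrix (Fin n ⊕ Fin n) (Fin n ⊕ Fin n) (ZMod 2)}
    (h : A.rank = 0) : A = 0 := by
  unfold Matrix.rank at h
  rw [Submodule.finrank_eq_zero, LinearMap.range_eq_bot] at h
  rw [Matrix.ext_iff_mulVec]
  intro v
  simpa using LinearMap.congr_fun h v

theorem rank_Tm_sub_one {u : Fin n ⊕ Fin n → ZMod 2} (hu : u ≠ 0) : (Tm u - 1).rank = 1 := by
  have h1 : Tm u - 1 = vecMulVec u (u ᵥ* Matrix.J (Fin n) (ZMod 2)) := by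
    unfold Tm; rw [add_sub_cancel_left]
  rw [h1]
  apply le_antisymm (rank_vecMulVec_le _ _)
  rw [Nat.one_le_iff_ne_zero]
  intro h0
  have h2 : vecMulVec u (u ᵥ* Matrix.J (Fin n) (ZMod 2)) = 0 := rank_eq_zero_imp h0
  obtain ⟨z, hz⟩ := exists_Bf_eq_one hu
  have h3 : vecMulVec u (u ᵥ* Matrix.J (Fin n) (ZMod 2)) *ᵥ z = 0 := by rw [h2, zero_mulVec]
  rw [vecMulVec_mulVec, ← dotProduct_mulVec, op_smul_eq_smul] at h3
  unfold Bf at hz
  rw [hz, one_smul] at h3
  exact hu h3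

theorem exists_of_rank_one {g : Matrix.symplecticGroup (Fin n) (ZMod 2)}
    (h : ((g : Matrix (Fin n ⊕ Fin n) (Fin n ⊕ Fin n) (ZMod 2)) - 1).rank = 1) :
    ∃ u, u ≠ 0 ∧ g = Ts u := by
  unfold Matrix.rank at h
  rw [finrank_eq_one_iff'] at h
  obtain ⟨⟨u, hu_mem⟩, hu0, hu⟩ := h
  have hu0' : u ≠ 0 := fun h0 => hu0 (Subtype.ext h0)
  have key : ∀ x, ∃ c : ZMod 2, act g x = x + c • u := by
    intro x
    obtain ⟨c, hc⟩ := hu ⟨(g.1 - 1) *ᵥ x, ⟨x, rfl⟩⟩
    have hc' : c • u = (g.1 - 1) *ᵥ x := congrArg Subtype.val hc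
    refine ⟨c, ?_⟩
    rw [hc', sub_mulVec, one_mulVec]
    unfold act
    abel
  choose c hc using key
  have h2 : ∀ x y, c y * Bf u x = c x * Bf u y := by
    intro x y
    have h3 := Bf_act g x y
    rw [hc x, hc y, Bf_add_left, Bf_add_right, Bf_add_right, Bf_smul_left, Bf_smul_right,
      Bf_smul_left, Bf_smul_right, Bf_self, Bf_symm x u] at h3
    have h4 := z2_add_self (c x * Bf u y)
    linear_combination h3 - h4
  obtain ⟨y0, hy0⟩ := exists_Bf_eq_one hu0'
  have h5 : ∀ x, c x = c y0 * Bf u x := by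
    intro x
    have h6 := h2 x y0
    rw [hy0, mul_one] at h6
    exact h6.symm
  rcases z2_cases (c y0) with h6 | h6
  · exfalso
    obtain ⟨x, hx⟩ := hu_mem
    have h7 : act g x = x := by rw [hc x, h5 x, h6, zero_mul, zero_smul, add_zero]
    apply hu0'
    rw [← hx]
    unfold act at h7
    simp [h7]
  · refine ⟨u, hu0', Sp_ext ?_⟩
    intro x
    rw [hc x, h5 x, h6, one_mul, act_Ts]

theorem transitive {a b : Fin n ⊕ Fin n → ZMod 2} (ha : a ≠ 0) (hb : b ≠ 0) :
    ∃ g : Matrix.symplecticGroup (Fin n) (ZMod 2), act g a = b := by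
  rcases z2_cases (Bf a b) with h | h
  · obtain ⟨z, hz1, hz2⟩ := exists_Bf_both ha hb
    refine ⟨Ts (z + b) * Ts (a + z), ?_⟩
    have e1 : act (Ts (a + z)) a = z := by
      rw [act_Ts_of_one (by rw [Bf_add_left, Bf_self, Bf_symm z a, hz1, zero_add]), vadd_cancel]
    have e2 : act (Ts (z + b)) z = b := by
      rw [act_Ts_of_one (by rw [Bf_add_left, Bf_self, hz2, zero_add]), vadd_cancel]
    rw [act_mul, e1, e2]
  · refine ⟨Ts (a + b), ?_⟩
    rw [act_Ts, Bf_add_left, Bf_self, Bf_symm b a, h, zero_add, one_smul, vadd_cancel]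

theorem exists_reduce (g : Matrix.symplecticGroup (Fin n) (ZMod 2)) (hg : g ≠ 1) :
    ∃ u1 u2 v : Fin n ⊕ Fin n → ZMod 2, act g v ≠ v ∧ act (Ts u1 * Ts u2 * g) v = v ∧
      ∀ x, act g x = x → act (Ts u1 * Ts u2 * g) x = x := by
  obtain ⟨v, hv⟩ : ∃ v, act g v ≠ v := by
    by_contra h
    push Not at h
    exact hg (Sp_ext (fun x => by rw [h x, act_one]))
  have hab : v + act g v ≠ 0 := by
    intro h
    apply hv
    have h1 := vadd_cancel v (act g v)
    rw [h, add_zero] at h1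
    exact h1.symm
  have hfix : ∀ x, act g x = x → Bf (v + act g v) x = 0 := by
    intro x hx
    have h1 := Bf_act g v x
    rw [hx] at h1
    rw [Bf_add_left, h1, z2_add_self]
  rcases z2_cases (Bf v (act g v)) with h | h
  · have h1 : v + act g⁻¹ v ≠ 0 := by
      intro h2
      apply hv
      have h3 := vadd_cancel v (act g⁻¹ v)
      rw [h2, add_zero] at h3
      have h4 : act g (act g⁻¹ v) = v := act_act_inv g v
      rw [← h3] at h4
      exact h4
    obtain ⟨w, hw1, hw2⟩ := exists_Bf_both h1 hab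
    have hfix2 : ∀ x, act g x = x → Bf (w + act g w) x = 0 := by
      intro x hx
      have h2 := Bf_act g w x
      rw [hx] at h2
      rw [Bf_add_left, h2, z2_add_self]
    have hz1 : Bf v (v + (w + act g w)) = 1 := by
      have h2 := Bf_act g (act g⁻¹ v) w
      rw [act_act_inv] at h2
      rw [Bf_add_right, Bf_add_right, Bf_self, zero_add, h2, ← Bf_add_left]
      exact hw1
    have hz2 : Bf (v + (w + act g w)) (act g v) = 1 := by
      rw [Bf_add_left, Bf_add_left, h, zero_add, Bf_act, Bf_symm w (act g v), Bf_symm w v,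
        add_comm, ← Bf_add_left]
      exact hw2
    refine ⟨v + (v + (w + act g w)), (v + (w + act g w)) + act g v, v, hv, ?_, ?_⟩
    · have e1 : act (Ts (v + (w + act g w) + act g v)) (act g v) = v + (w + act g w) := by
        rw [act_Ts_of_one (by rw [Bf_add_left, Bf_self, add_zero, hz2]), add_comm, add_assoc,
          vec_add_self, add_zero]
      have e2 : act (Ts (v + (v + (w + act g w)))) (v + (w + act g w)) = v := by
        rw [act_Ts_of_one (by rw [Bf_add_left, Bf_self, add_zero, hz1]), vadd_cancel']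
      rw [act_mul, act_mul, e1, e2]
    · intro x hx
      have e1 : Bf (v + (w + act g w) + act g v) x = 0 := by
        have h2 : v + (w + act g w) + act g v = (v + act g v) + (w + act g w) := by abel
        rw [h2, Bf_add_left, hfix x hx, hfix2 x hx, add_zero]
      have e2 : Bf (v + (v + (w + act g w))) x = 0 := by
        rw [vadd_cancel, hfix2 x hx]
      rw [act_mul, act_mul, hx, act_Ts_of_zero e1, act_Ts_of_zero e2]
  · refine ⟨0, v + act g v, v, hv, ?_, ?_⟩
    · rw [Ts_zero, one_mul, act_mul, act_Ts, Bf_add_left, Bf_self, add_zero, h, one_smul,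
        vadd_cancel']
    · intro x hx
      rw [Ts_zero, one_mul, act_mul, hx, act_Ts, hfix x hx, zero_smul, add_zero]

theorem Ts_mem_closure (D : Set (Matrix.symplecticGroup (Fin n) (ZMod 2)))
    (hD : ∀ u, u ≠ 0 → Ts u ∈ D) (u : Fin n ⊕ Fin n → ZMod 2) : Ts u ∈ Subgroup.closure D := by
  by_cases hu : u = 0
  · rw [hu, Ts_zero]; exact one_mem _
  · exact Subgroup.subset_closure (hD u hu)

theorem mem_closure_of (D : Set (Matrix.symplecticGroup (Fin n) (ZMod 2)))
    (hD : ∀ u, u ≠ 0 → Ts u ∈ D) :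
    ∀ (k : ℕ) (g : Matrix.symplecticGroup (Fin n) (ZMod 2)),
      (Finset.univ.filter (fun x => act g x ≠ x)).card ≤ k → g ∈ Subgroup.closure D := by
  intro k
  induction k with
  | zero =>
    intro g hg
    have h1 : g = 1 := by
      apply Sp_ext
      intro x
      rw [act_one]
      by_contra hx
      have h2 : x ∈ Finset.univ.filter (fun x => act g x ≠ x) := by simp [hx]
      have h3 := Finset.card_pos.2 ⟨x, h2⟩
      omega
    rw [h1]
    exact one_mem _
  | succ k ih =>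
    intro g hg
    by_cases h1 : g = 1
    · rw [h1]; exact one_mem _
    · obtain ⟨u1, u2, v, hv, hv2, hfix⟩ := exists_reduce g h1
      have hlt : (Finset.univ.filter (fun x => act (Ts u1 * Ts u2 * g) x ≠ x)).card
          < (Finset.univ.filter (fun x => act g x ≠ x)).card := by
        apply Finset.card_lt_card
        rw [Finset.ssubset_iff_of_subset]
        · exact ⟨v, by simp [hv], by simp [hv2]⟩
        · intro x hx
          simp only [Finset.mem_filter, Finset.mem_univ, true_and] at hx ⊢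
          exact fun h => hx (hfix x h)
      have h2 := ih (Ts u1 * Ts u2 * g) (by omega)
      have h3 : g = (Ts u1 * Ts u2)⁻¹ * (Ts u1 * Ts u2 * g) := by group
      rw [h3]
      exact mul_mem (inv_mem (mul_mem (Ts_mem_closure D hD u1) (Ts_mem_closure D hD u2))) h2

/-- In the symplectic group in dimension 2n ≥ 2 over the field with two elements, the elements g for which g - 1 has rank one (the symplectic transvections) form a conjugacy class of 3-transpositions generating the group. -/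
theorem result (n : ℕ) (hn : 1 ≤ n) : Cfsg.IsThreeTranspositionClass {g : Matrix.symplecticGroup (Fin n) (ZMod 2) | ((g : Matrix (Fin n ⊕ Fin n) (Fin n ⊕ Fin n) (ZMod 2)) - 1).rank = 1} := by
  have hD : ∀ g : Matrix.symplecticGroup (Fin n) (ZMod 2),
      g ∈ {g : Matrix.symplecticGroup (Fin n) (ZMod 2) | ((g : Matrix (Fin n ⊕ Fin n) (Fin n ⊕ Fin n) (ZMod 2)) - 1).rank = 1} ↔ ∃ u, u ≠ 0 ∧ g = Ts u := by
    intro g
    constructor
    · intro hg
      exact exists_of_rank_one hg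
    · rintro ⟨u, hu, rfl⟩
      exact rank_Tm_sub_one hu
  refine ⟨⟨?_, ?_⟩, ?_, ?_⟩
  · intro d hd
    obtain ⟨u, hu, rfl⟩ := (hD d).1 hd
    exact orderOf_Ts hu
  · intro d hd e he
    obtain ⟨u, hu, rfl⟩ := (hD d).1 hd
    obtain ⟨v, hv, rfl⟩ := (hD e).1 he
    exact Ts_three u v
  · have he0 : (Pi.single (Sum.inl ⟨0, hn⟩) 1 : Fin n ⊕ Fin n → ZMod 2) ≠ 0 := by
      intro h
      have h1 := congrFun h (Sum.inl ⟨0, hn⟩)
      simp at h1
    refine ⟨Ts (Pi.single (Sum.inl ⟨0, hn⟩) 1), (hD _).2 ⟨_, he0, rfl⟩, ?_⟩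
    ext g
    rw [hD]
    constructor
    · rintro ⟨u, hu, rfl⟩
      obtain ⟨k, hk⟩ := transitive he0 hu
      change IsConj _ (Ts u)
      rw [isConj_iff]
      exact ⟨k, by rw [conj_Ts, hk]⟩
    · intro hg
      change IsConj _ g at hg
      rw [isConj_iff] at hg
      obtain ⟨k, rfl⟩ := hg
      refine ⟨act k (Pi.single (Sum.inl ⟨0, hn⟩) 1), ?_, conj_Ts k _⟩
      intro h0
      apply he0
      have h1 := act_inv_act k (Pi.single (Sum.inl ⟨0, hn⟩) 1 : Fin n ⊕ Fin n → ZMod 2)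
      rw [h0, act_zero] at h1
      exact h1.symm
  · rw [eq_top_iff]
    intro g _
    exact mem_closure_of _ (fun u hu => (hD _).2 ⟨u, hu, rfl⟩) _ g le_rfl

end Cfsg.Agent.S0440
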