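import Mathlib
import Cfsg.Statements.S0442

set_option autoImplicit false
open Cfsg

namespace Cfsg.Agent.S0442

theorem pow_mul_inv {G : Type*} [Group G] (a b : G) (haa : a * a = 1) (hbb : b * b = 1) (m : ℕ) :
    (a * b) ^ m * a = a * ((a * b) ^ m)⁻¹ := by
  have hainv : a⁻¹ = a := inv_eq_of_mul_eq_one_left haa
  have hbinv : b⁻¹ = b := inv_eq_of_mul_eq_one_left hbb
  have h1 : a * (a * b) * a⁻¹ = (a * b)⁻¹ := by
    rw [mul_inv_rev, hainv, hbinv, ← mul_assoc, haa, one_mul]
  have h2 : a * (a * b) ^ m * a⁻¹ = ((a * b) ^ m)⁻¹ := by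
    rw [← conj_pow, h1, inv_pow]
  rw [← h2, hainv]
  rw [← mul_assoc, ← mul_assoc, haa, one_mul]

theorem comm_of_even {G : Type*} [Group G] (a b : G) (haa : a * a = 1) (hbb : b * b = 1) (m : ℕ)
    (h : (a * b) ^ (2 * m) = 1) : Commute ((a * b) ^ m) a := by
  have h1 := pow_mul_inv a b haa hbb m
  have h2 : ((a * b) ^ m)⁻¹ = (a * b) ^ m := by
    apply inv_eq_of_mul_eq_one_left
    rw [← pow_add, ← two_mul, h]
  rw [h2] at h1
  exact h1

/-- A standard trick for producing elements of an involution centraliser: for an involution a and an element g, let b be the conjugate g⁻¹ * a * g. If a * b has odd order 2m + 1 then g * (a * b) ^ m commutes with a; if a * b has even order 2m then (a * b) ^ m and (a * (g * a * g⁻¹)) ^ m commute with a. -/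
theorem result {G : Type*} [Group G] (a g : G) (ha : orderOf a = 2) : (∀ m : ℕ, orderOf (a * (g⁻¹ * a * g)) = 2 * m + 1 → Commute (g * (a * (g⁻¹ * a * g)) ^ m) a) ∧ (∀ m : ℕ, orderOf (a * (g⁻¹ * a * g)) = 2 * m → Commute ((a * (g⁻¹ * a * g)) ^ m) a ∧ Commute ((a * (g * a * g⁻¹)) ^ m) a) := by
  have haa : a * a = 1 := by
    rw [← pow_two, ← ha, pow_orderOf_eq_one]
  have hainv : a⁻¹ = a := inv_eq_of_mul_eq_one_left haa
  have hbb : (g⁻¹ * a * g) * (g⁻¹ * a * g) = 1 := by
    calc (g⁻¹ * a * g) * (g⁻¹ * a * g) = g⁻¹ * (a * a) * g := by group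
      _ = 1 := by rw [haa]; group
  have hbb' : (g * a * g⁻¹) * (g * a * g⁻¹) = 1 := by
    calc (g * a * g⁻¹) * (g * a * g⁻¹) = g * (a * a) * g⁻¹ := by group
      _ = 1 := by rw [haa]; group
  constructor
  · intro m hm
    set u := a * (g⁻¹ * a * g) with hu
    have h1 := pow_mul_inv a (g⁻¹ * a * g) haa hbb m
    rw [← hu] at h1
    have h2 : u ^ (2 * m + 1) = 1 := by rw [← hm, pow_orderOf_eq_one]
    have h3 : (u ^ m)⁻¹ = u * u ^ m := by
      apply inv_eq_of_mul_eq_one_left
      rw [← pow_succ', ← pow_add, ← h2]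
      congr 1
      omega
    show g * u ^ m * a = a * (g * u ^ m)
    calc g * u ^ m * a = g * (u ^ m * a) := by group
      _ = g * (a * (u * u ^ m)) := by rw [h1, h3]
      _ = g * a * u * u ^ m := by group
      _ = g * (a * a) * (g⁻¹ * a * g) * u ^ m := by rw [hu]; group
      _ = a * (g * u ^ m) := by rw [haa]; group
  · intro m hm
    constructor
    · apply comm_of_even a _ haa hbb
      rw [← hm, pow_orderOf_eq_one]
    · apply comm_of_even a _ haa hbb'
      have h1 : a * (g * a * g⁻¹) = g * (a * (g⁻¹ * a * g))⁻¹ * g⁻¹ := by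
        rw [mul_inv_rev, mul_inv_rev, mul_inv_rev, hainv]; group
      rw [h1, conj_pow, inv_pow, ← hm, pow_orderOf_eq_one]
      group

end Cfsg.Agent.S0442
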