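import Mathlib
import Cfsg.Statements.S0443

set_option autoImplicit false
open Cfsg

namespace Cfsg.Agent.S0443

/-- Two definitions of a 2-central involution agree: an element t of order 2 of a finite group lies in the centre of some Sylow 2-subgroup if and only if its centraliser contains some Sylow 2-subgroup. -/
theorem result {G : Type*} [Group G] [Finite G] (t : G) (ht : orderOf t = 2) : Cfsg.IsTwoCentralInvolution t ↔ ∃ P : Sylow 2 G, (P : Subgroup G) ≤ Subgroup.centralizer ({t} : Set G) := by
  constructor
  · rintro ⟨_, P, htP, hc⟩
    refine ⟨P, fun x hx => ?_⟩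
    rw [Subgroup.mem_centralizer_iff]
    intro h hh
    rw [Set.mem_singleton_iff] at hh
    subst hh
    exact (hc x hx).symm
  · rintro ⟨P, hP⟩
    have hcomm : ∀ x ∈ (P : Subgroup G), x * t = t * x := by
      intro x hx
      have := hP hx
      rw [Subgroup.mem_centralizer_iff] at this
      exact (this t rfl).symm
    refine ⟨ht, P, ?_, hcomm⟩
    have hz : IsPGroup 2 (Subgroup.zpowers t) := by
      apply IsPGroup.of_card (n := 1)
      rw [Nat.card_zpowers, ht, pow_one]
    have hnorm : Subgroup.zpowers t ≤ Subgroup.normalizer ((P : Subgroup G) : Set G) := by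
      rw [Subgroup.zpowers_le]
      apply Subgroup.centralizer_le_normalizer
      rw [Subgroup.mem_centralizer_iff]
      intro x hx
      exact hcomm x hx
    have hsup := P.isPGroup'.to_sup_of_normal_left' hz hnorm
    have hmax := P.is_maximal' hsup le_sup_left
    have hle : Subgroup.zpowers t ≤ (P : Subgroup G) := by
      have h2 : Subgroup.zpowers t ≤ (P : Subgroup G) ⊔ Subgroup.zpowers t := le_sup_right
      rw [hmax] at h2
      exact h2
    exact hle (Subgroup.mem_zpowers t)

end Cfsg.Agent.S0443
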