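import Mathlib
import Cfsg.Statements.S0446

set_option autoImplicit false
open Cfsg

namespace Cfsg.Agent.S0446

/-- Every finite group of even order contains a 2-central involution, i.e. an element of order 2 in the centre of some Sylow 2-subgroup. -/
theorem result {G : Type*} [Group G] [Finite G] (h : Even (Nat.card G)) : ∃ t : G, Cfsg.IsTwoCentralInvolution t := by
  haveI : Fact (Nat.Prime 2) := ⟨Nat.prime_two⟩
  obtain ⟨P⟩ : Nonempty (Sylow 2 G) := inferInstance
  have h2 : 2 ∣ Nat.card G := even_iff_two_dvd.mp h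
  have hP2 : 2 ∣ Nat.card (P : Subgroup G) := by
    rw [P.card_eq_multiplicity]
    have hpos : 0 < (Nat.card G).factorization 2 := by
      apply Nat.Prime.factorization_pos_of_dvd Nat.prime_two _ h2
      exact Nat.card_pos.ne'
    exact dvd_pow_self 2 hpos.ne'
  haveI : Nontrivial (P : Subgroup G) := by
    rw [← Finite.one_lt_card_iff_nontrivial]
    exact lt_of_lt_of_le (by norm_num) (Nat.le_of_dvd Nat.card_pos hP2)
  have hPg : IsPGroup 2 (P : Subgroup G) := P.isPGroup'
  haveI := hPg.center_nontrivial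
  have hZ : IsPGroup 2 (Subgroup.center (P : Subgroup G)) := hPg.to_subgroup _
  have hZ2 : 2 ∣ Nat.card (Subgroup.center (P : Subgroup G)) := by
    obtain ⟨n, hn0, hn⟩ := hZ.nontrivial_iff_card.mp inferInstance
    rw [hn]
    exact dvd_pow_self 2 hn0.ne'
  obtain ⟨z, hz⟩ := exists_prime_orderOf_dvd_card' 2 hZ2
  refine ⟨((z : (P : Subgroup G)) : G), ?_, P, ?_, ?_⟩
  · rw [Subgroup.orderOf_coe, Subgroup.orderOf_coe]
    exact hz
  · exact (z : (P : Subgroup G)).2
  · intro x hx
    have hzc := z.2
    rw [Subgroup.mem_center_iff] at hzc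
    have := hzc ⟨x, hx⟩
    have h3 := congrArg Subtype.val this
    simpa using h3

end Cfsg.Agent.S0446
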