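import Cfsg.Statements.S0462
import Cfsg.Agent.Lib.Helper19.Sp4Main
import Cfsg.Agent.Lib.Helper19.HeIso

set_option autoImplicit false
open Cfsg

namespace Cfsg.Agent.S0462

theorem arith (a b : ℕ) (h1 : a * 2058 = 4030387200) (h2 : 979200 * b = a) : b = 2 := by
  omega

open Cfsg.Agent.Lib.Helper19 Cfsg.Agent.Lib.Helper19.Sp4 Cfsg.Agent.Lib.Helper19.Cox in
/-- The Held group exists as a transitive permutation group of degree 2058: simple of order 4030387200, with point stabiliser containing, with index 2, a copy of the 4-dimensional symplectic group over the field with four elements. -/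
theorem result : ∃ H : Subgroup (Equiv.Perm (Fin 2058)), Cfsg.IsHe H ∧ MulAction.IsPretransitive H (Fin 2058) ∧ ∃ (F : Type) (_ : Field F) (_ : Fintype F), Fintype.card F = 4 ∧ ∃ N : Subgroup (MulAction.stabilizer H (0 : Fin 2058)), N.index = 2 ∧ Nonempty (N ≃* Matrix.symplecticGroup (Fin 2) F) := by
  classical
  have hIsHe : Cfsg.IsHe GH := ⟨HeIso.simple_G, HeIso.card_G⟩
  have hpre : MulAction.IsPretransitive GH (Fin 2058) :=
    (HeG.prim).toIsPretransitive
  refine ⟨GH, hIsHe, hpre, F4, inferInstance, inferInstance, F4.card, ?_⟩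
  have hfin : Finite GH := Nat.finite_of_card_ne_zero (by rw [hIsHe.2]; norm_num)
  -- the subgroup `A` of the Held group corresponding to `L tN 5`
  have hLG : L tN 5 ≤ GH := LN_le.trans inf_le_left
  have hA : (L tN 5).subgroupOf GH ≤ MulAction.stabilizer GH (0 : Fin 2058) := by
    intro x hx
    have hx' : (x : Equiv.Perm (Fin 2058)) ∈ StH := LN_le (Subgroup.mem_subgroupOf.mp hx)
    have hx2 : (x : Equiv.Perm (Fin 2058)) ∈
        MulAction.stabilizer (Equiv.Perm (Fin 2058)) (0 : Fin 2058) := (Subgroup.mem_inf.mp hx').2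
    have hx3 : (x : Equiv.Perm (Fin 2058)) (0 : Fin 2058) = 0 := MulAction.mem_stabilizer_iff.mp hx2
    exact MulAction.mem_stabilizer_iff.mpr hx3
  let e1 : ((L tN 5).subgroupOf GH).subgroupOf (MulAction.stabilizer GH (0 : Fin 2058)) ≃*
      (L tN 5).subgroupOf GH := Subgroup.subgroupOfEquivOfLe hA
  let e2 : (L tN 5).subgroupOf GH ≃* L tN 5 := Subgroup.subgroupOfEquivOfLe hLG
  refine ⟨((L tN 5).subgroupOf GH).subgroupOf (MulAction.stabilizer GH (0 : Fin 2058)), ?_, ?_⟩
  · have hcN : Nat.card (((L tN 5).subgroupOf GH).subgroupOf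
        (MulAction.stabilizer GH (0 : Fin 2058))) = 979200 := by
      rw [Nat.card_congr (e1.trans e2).toEquiv]
      exact card_N
    have hidx : (MulAction.stabilizer GH (0 : Fin 2058)).index = 2058 := by
      rw [MulAction.index_stabilizer_of_transitive]
      simp
    have h1 := Subgroup.card_mul_index (MulAction.stabilizer GH (0 : Fin 2058))
    rw [hidx, hIsHe.2] at h1
    have h2 := Subgroup.card_mul_index (((L tN 5).subgroupOf GH).subgroupOf
        (MulAction.stabilizer GH (0 : Fin 2058)))
    rw [hcN] at h2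
    exact arith _ _ h1 h2
  · obtain ⟨e3⟩ := iso_N
    exact ⟨(e1.trans e2).trans e3⟩

end Cfsg.Agent.S0462
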