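import Cfsg.Statements.S0471
import Cfsg.Agent.Lib.Helper28.TT22

set_option autoImplicit false
open Cfsg

namespace Cfsg.Agent.S0471

/-- The Fischer group of order 64561751654400 exists as a 3-transposition group: a simple group of that order generated by a conjugacy class of 3510 3-transpositions, the centraliser of each being a non-split double cover of PSU(6, 2). -/
theorem result : ∃ (G : Type) (_ : Group G) (_ : Finite G), Cfsg.IsFi22 G ∧ ∃ D : Set G, Cfsg.IsThreeTranspositionClass D ∧ Nat.card D = 3510 ∧ ∀ d ∈ D, ∃ (F : Type) (_ : Field F) (_ : Fintype F), Fintype.card F = 4 ∧ Cfsg.IsNonsplitDoubleCover (Subgroup.centralizer ({d} : Set G)) (Cfsg.PSU 6 F 2) := by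
  obtain ⟨h1, h2, h3⟩ := Cfsg.Agent.Lib.Helper28.TT22.main
  exact ⟨Cfsg.Spor.Fi22, inferInstance, Cfsg.Agent.Lib.Helper28.TT22.finite22,
    Cfsg.Agent.S1696.result, _, h1, h2, fun d hd =>
      ⟨Cfsg.Agent.Lib.Helper19.F4, inferInstance, inferInstance, Cfsg.Agent.Lib.Helper19.F4.card,
        h3 d hd⟩⟩

end Cfsg.Agent.S0471
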