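import Mathlib
import Cfsg.Statements.S0481

set_option autoImplicit false
open Cfsg

namespace Cfsg.Agent.S0481

open scoped Pointwise

/-- Large extraspecial subgroups: let z be an involution of a finite group G whose centraliser C contains a normal 2-subgroup Q with centre of order 2 and all squares central, such that every element of G centralising Q lies in Q. Then C contains a Sylow 2-subgroup of G, and any involution of G whose centraliser contains a Sylow 2-subgroup of G is conjugate to z. -/
theorem result {G : Type*} [Group G] [Finite G] (z : G) (hz : orderOf z = 2) (Q : Subgroup G) (hQC : Q ≤ Subgroup.centralizer ({z} : Set G)) (hQn : ∀ g ∈ Subgroup.centralizer ({z} : Set G), ∀ q ∈ Q, g * q * g⁻¹ ∈ Q) (hQ2 : IsPGroup 2 Q) (hZ : Nat.card (Subgroup.center Q) = 2) (hsq : ∀ x : Q, x ^ 2 ∈ Subgroup.center Q) (hlarge : Subgroup.centralizer (Q : Set G) ≤ Q) : (∃ P : Sylow 2 G, (P : Subgroup G) ≤ Subgroup.centralizer ({z} : Set G)) ∧ ∀ u : G, orderOf u = 2 → (∃ P : Sylow 2 G, (P : Subgroup G) ≤ Subgroup.centralizer ({u} : Set G)) → IsConj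 z u := by
  haveI : Fact (Nat.Prime 2) := ⟨Nat.prime_two⟩
  have hz1 : z ≠ 1 := by
    intro h
    rw [h, orderOf_one] at hz
    omega
  -- z centralizes Q, hence lies in Q
  have hzcQ : z ∈ Subgroup.centralizer (Q : Set G) := by
    rw [Subgroup.mem_centralizer_iff]
    intro q hq
    have := hQC hq
    rw [Subgroup.mem_centralizer_iff] at this
    exact (this z rfl).symm
  have hzQ : z ∈ Q := hlarge hzcQ
  -- every element centralizing Q is 1 or z
  have key : ∀ w : G, w ∈ Subgroup.centralizer (Q : Set G) → w = 1 ∨ w = z := by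
    intro w hw
    have hwQ : w ∈ Q := hlarge hw
    have hwc : (⟨w, hwQ⟩ : Q) ∈ Subgroup.center Q := by
      rw [Subgroup.mem_center_iff]
      rintro ⟨q, hq⟩
      rw [Subgroup.mem_centralizer_iff] at hw
      exact Subtype.ext (hw q hq)
    have hzc : (⟨z, hzQ⟩ : Q) ∈ Subgroup.center Q := by
      rw [Subgroup.mem_center_iff]
      rintro ⟨q, hq⟩
      rw [Subgroup.mem_centralizer_iff] at hzcQ
      exact Subtype.ext (hzcQ q hq)
    obtain ⟨y, hy1, hy2⟩ := (Nat.card_eq_two_iff' (1 : Subgroup.center Q)).mp hZ
    by_cases hw1 : w = 1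
    · left; exact hw1
    · right
      have e1 : (⟨⟨w, hwQ⟩, hwc⟩ : Subgroup.center Q) = y := by
        apply hy2
        intro h
        apply hw1
        have := congrArg (fun c : Subgroup.center Q => ((c : Q) : G)) h
        simpa using this
      have e2 : (⟨⟨z, hzQ⟩, hzc⟩ : Subgroup.center Q) = y := by
        apply hy2
        intro h
        apply hz1
        have := congrArg (fun c : Subgroup.center Q => ((c : Q) : G)) h
        simpa using this
      have := congrArg (fun c : Subgroup.center Q => ((c : Q) : G)) (e1.trans e2.symm)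
      simpa using this
  obtain ⟨P, hQP⟩ := hQ2.exists_le_sylow
  have keyP : ∀ w : G, w ∈ Subgroup.centralizer ((P : Subgroup G) : Set G) → w = 1 ∨ w = z := by
    intro w hw
    apply key
    rw [Subgroup.mem_centralizer_iff] at hw ⊢
    intro q hq
    exact hw q (hQP hq)
  -- z is central in P
  have hzP : ∀ x ∈ (P : Subgroup G), x * z = z * x := by
    haveI : Nontrivial (P : Subgroup G) := by
      refine ⟨⟨⟨z, hQP hzQ⟩, 1, ?_⟩⟩
      intro h
      apply hz1
      have := congrArg Subtype.val h
      simpa using this
    have hPg : IsPGroup 2 (P : Subgroup G) := P.isPGroup'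
    haveI := hPg.center_nontrivial
    obtain ⟨c, hc⟩ := exists_ne (1 : Subgroup.center (P : Subgroup G))
    have hc1 : ((c : (P : Subgroup G)) : G) ≠ 1 := by
      intro h
      apply hc
      apply Subtype.ext
      apply Subtype.ext
      simpa using h
    have hcc : ((c : (P : Subgroup G)) : G) ∈ Subgroup.centralizer ((P : Subgroup G) : Set G) := by
      rw [Subgroup.mem_centralizer_iff]
      intro x hx
      have h1 := c.2
      rw [Subgroup.mem_center_iff] at h1
      have h2 := congrArg Subtype.val (h1 ⟨x, hx⟩)
      simpa using h2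
    rcases keyP _ hcc with h | h
    · exact absurd h hc1
    · rw [← h]
      rw [Subgroup.mem_centralizer_iff] at hcc
      exact hcc
  constructor
  · refine ⟨P, fun x hx => ?_⟩
    rw [Subgroup.mem_centralizer_iff]
    intro h hh
    rw [Set.mem_singleton_iff] at hh
    subst hh
    exact (hzP x hx).symm
  · rintro u hu ⟨P', hP'⟩
    have hu1 : u ≠ 1 := by
      intro h
      rw [h, orderOf_one] at hu
      omega
    obtain ⟨g, hg⟩ := MulAction.exists_smul_eq G P' P
    have hmem : ∀ x ∈ (P : Subgroup G), g⁻¹ * x * g ∈ (P' : Subgroup G) := by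
      intro x hx
      have hx' : x ∈ ((g • P' : Sylow 2 G) : Subgroup G) := by rw [hg]; exact hx
      rw [Sylow.coe_subgroup_smul, Subgroup.mem_pointwise_smul_iff_inv_smul_mem] at hx'
      simpa [MulAut.smul_def] using hx'
    have hcent : g * u * g⁻¹ ∈ Subgroup.centralizer ((P : Subgroup G) : Set G) := by
      rw [Subgroup.mem_centralizer_iff]
      intro x hx
      have h1 := hP' (hmem x hx)
      rw [Subgroup.mem_centralizer_iff] at h1
      have h2 : u * (g⁻¹ * x * g) = g⁻¹ * x * g * u := h1 u rfl
      calc x * (g * u * g⁻¹) = g * (g⁻¹ * x * g * u) * g⁻¹ := by group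
        _ = g * (u * (g⁻¹ * x * g)) * g⁻¹ := by rw [h2]
        _ = g * u * g⁻¹ * x := by group
    rcases keyP _ hcent with h | h
    · exfalso
      apply hu1
      have : u = g⁻¹ * (g * u * g⁻¹) * g := by group
      rw [this, h]
      group
    · rw [isConj_comm, isConj_iff]
      exact ⟨g, h⟩

end Cfsg.Agent.S0481
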