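import Cfsg.Statements.S0496
import Cfsg.Agent.Lib.Helper93.SOe
import Cfsg.Agent.Lib.Helper93.SOh

set_option autoImplicit false
open Cfsg

namespace Cfsg.Agent.S0496

/-- A non-abelian finite simple group of order at most 1092 has order 60, 168, 360, 504, 660 or 1092. -/
theorem result {G : Type*} [Group G] [Finite G] [IsSimpleGroup G]
    (hG : ¬ IsMulCommutative G) (h : Nat.card G ≤ 1092) :
    Nat.card G = 60 ∨ Nat.card G = 168 ∨ Nat.card G = 360 ∨ Nat.card G = 504 ∨ Nat.card G = 660 ∨
      Nat.card G = 1092 := by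
  by_contra hcon
  push Not at hcon
  obtain ⟨h60, h168, h360, h504, h660, h1092⟩ := hcon
  by_cases h720 : Nat.card G = 720
  · exact Cfsg.Agent.Lib.Helper93.SO.noSimple_720 G hG h720
  by_cases h756 : Nat.card G = 756
  · exact Cfsg.Agent.Lib.Helper93.SO.noSimple_756 G hG h756
  by_cases h1080 : Nat.card G = 1080
  · exact Cfsg.Agent.Lib.Helper93.SO.noSimple_1080 G hG h1080
  exact Cfsg.Agent.Lib.Helper93.SO.sweep (Nat.card G) (by omega) h60 h168 h360 h504 h660 h720 h756
    h1080 h1092 G hG rfl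

end Cfsg.Agent.S0496
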