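import Cfsg.Statements.S0505
import Mathlib
import Cfsg.Agent.Lib.Helper49.CharP3
import Cfsg.Agent.Lib.Helper49.SE2
import Cfsg.Agent.Lib.Helper22.PConstr

set_option autoImplicit false
open Cfsg

namespace Cfsg.Agent.S0505

open Cfsg.Agent.Lib.Helper49

/-- A finite solvable group with trivial `p'`-core has characteristic `p`. -/
theorem charp_of_solvable {C : Type*} [Group C] [Finite C] {p : ℕ} [Fact p.Prime]
    (hs : Group.IsSolvable C) (hc : Cfsg.pPrimeCore p C = ⊥) :
    Subgroup.centralizer (Cfsg.pCore p C : Set C) ≤ Cfsg.pCore p C := by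
  apply charp_of_fstar_eq
  unfold Cfsg.generalizedFittingSubgroup
  have hlayer : Cfsg.layer C = ⊥ := by
    unfold Cfsg.layer
    rw [eq_bot_iff]
    apply sSup_le
    rintro K ⟨-, hKq⟩
    exfalso
    have hKs : Group.IsSolvable ↥K := inferInstance
    exact Cfsg.Agent.Lib.Helper22.IsQuasisimple.not_isSolvable hKq hKs
  rw [hlayer, bot_sup_eq]
  exact Cfsg.Agent.Lib.Helper22.fittingSubgroup_eq_pCore_of_pPrimeCore_eq_bot hc


/-- Let G be a finite group of even order in which the centralizer of every involution is solvable and has trivial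
core (no nontrivial normal subgroup of odd order). Then G is of characteristic 2 type. -/
theorem result {G : Type*} [Group G] [Finite G]
    (h2 : Even (Nat.card G))
    (hs : ∀ t : G, orderOf t = 2 → Group.IsSolvable (Subgroup.centralizer ({t} : Set G)))
    (hc : ∀ t : G, orderOf t = 2 → Cfsg.oddCore (Subgroup.centralizer ({t} : Set G)) = ⊥) :
    Cfsg.IsCharacteristicTwoType G := by
  have : Fact (Nat.Prime 2) := ⟨Nat.prime_two⟩
  refine ⟨h2, ?_⟩
  intro T hT hT1
  obtain ⟨t, htT, ht⟩ := exists_involution_of_ne_bot hT hT1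
  exact charp_normalizer_of_centralizer_elt T hT t htT (charp_of_solvable (hs t ht) (hc t ht))

end Cfsg.Agent.S0505
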