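import Cfsg.Statements.S0514
import Cfsg.Agent.Lib.Helper52.DihedralSylow
import Cfsg.Agent.Lib.Helper54.Frobenius
import Mathlib

set_option autoImplicit false
open Cfsg

namespace Cfsg.Agent.S0514

open Cfsg.Agent.Lib.Helper52 in
/-- In a finite group whose Sylow 2-subgroups are dihedral of order at least 4, the centralizer of any involution has a
normal subgroup of odd order whose index in the centralizer is a power of 2. -/
theorem result {X : Type*} [Group X] [Finite X]
    (S : Sylow 2 X) (n : ℕ) (hn : 2 ≤ n) (hS : Nonempty ((S : Subgroup X) ≃* DihedralGroup n)) (t : X)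
    (ht : orderOf t = 2) :
    ∃ N : Subgroup (Subgroup.centralizer ({t} : Set X)), N.Normal ∧ Odd (Nat.card N) ∧ ∃ k : ℕ, N.index = 2 ^ k := by
  have : Fact (Nat.Prime 2) := ⟨Nat.prime_two⟩
  have : NeZero n := ⟨by omega⟩
  obtain ⟨e⟩ := hS
  let T : Sylow 2 (Subgroup.centralizer ({t} : Set X)) := default
  have htC : t ∈ Subgroup.centralizer ({t} : Set X) := by
    rw [Subgroup.mem_centralizer_iff]
    intro h hh
    rw [Set.mem_singleton_iff] at hh
    rw [hh]
  set tC : Subgroup.centralizer ({t} : Set X) := ⟨t, htC⟩ with htCdef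
  have htcentral : ∀ c : Subgroup.centralizer ({t} : Set X), c * tC = tC * c := by
    intro c
    apply Subtype.ext
    have h1 := c.2
    rw [Subgroup.mem_centralizer_iff] at h1
    exact (h1 t rfl).symm
  have hotC : orderOf tC = 2 := by
    rw [← ht]; exact Subgroup.orderOf_mk t htC
  have key : ∀ Q : Subgroup (Subgroup.centralizer ({t} : Set X)),
      Q ≤ (T : Subgroup (Subgroup.centralizer ({t} : Set X))) →
      ∀ g ∈ Subgroup.normalizer (Q : Set (Subgroup.centralizer ({t} : Set X))),
      Nat.Coprime (orderOf g) 2 →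
      g ∈ Subgroup.centralizer (Q : Set (Subgroup.centralizer ({t} : Set X))) := by
    intro Q hQ g hg hcop
    have hZn : (Subgroup.zpowers tC).Normal := ⟨fun z hz c => by
      obtain ⟨k, rfl⟩ := Subgroup.mem_zpowers_iff.1 hz
      have hcomm : Commute c (tC ^ k) := Commute.zpow_right (htcentral c) k
      rw [hcomm.eq, mul_inv_cancel_right]
      exact Subgroup.zpow_mem_zpowers tC k⟩
    have hZ2 : IsPGroup 2 (Subgroup.zpowers tC) := by
      apply IsPGroup.of_card (n := 1)
      rw [Nat.card_zpowers, pow_one, hotC]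
    have hQ12 : IsPGroup 2 (Q ⊔ Subgroup.zpowers tC : Subgroup _) :=
      IsPGroup.to_sup_of_normal_right (T.isPGroup'.to_le hQ) hZ2
    have hgZ : g ∈ Subgroup.normalizer
        ((Subgroup.zpowers tC : Subgroup (Subgroup.centralizer ({t} : Set X))) :
          Set (Subgroup.centralizer ({t} : Set X))) := by
      rw [Subgroup.normalizer_eq_top]; exact Subgroup.mem_top g
    have hg1 := mem_normalizer_sup Q (Subgroup.zpowers tC) g hg hgZ
    obtain ⟨ρ, h1, h2⟩ := sylow_dihedral_data S n e _
      (hQ12.map (Subgroup.centralizer ({t} : Set X)).subtype)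
    have hm : Odd (orderOf g) := Nat.coprime_two_left.1 hcop.symm
    have hσ := normalizerMonoidHom_pow_orderOf (Q ⊔ Subgroup.zpowers tC) g hg1
    have hfin : (Q ⊔ Subgroup.zpowers tC).normalizerMonoidHom ⟨g, hg1⟩ = 1 := by
      rcases conj_aut_eq_one_or_four (Subgroup.centralizer ({t} : Set X)).subtype
        (Subgroup.subtype_injective _) (Q ⊔ Subgroup.zpowers tC) hQ12 ρ h1 h2
        ((Q ⊔ Subgroup.zpowers tC).normalizerMonoidHom ⟨g, hg1⟩) (orderOf g) hm hσ with
        hσ1 | ⟨hsq, hcard⟩
      · exact hσ1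
      · have htQ1 : tC ∈ Q ⊔ Subgroup.zpowers tC :=
          le_sup_right (α := Subgroup _) (Subgroup.mem_zpowers tC)
        have hσt : ((Q ⊔ Subgroup.zpowers tC).normalizerMonoidHom ⟨g, hg1⟩)
            (⟨tC, htQ1⟩ : (Q ⊔ Subgroup.zpowers tC : Subgroup _)) = ⟨tC, htQ1⟩ := by
          apply Subtype.ext
          simp only [Subgroup.normalizerMonoidHom_apply_apply_coe]
          rw [htcentral g, mul_inv_cancel_right]
        have ho : orderOf (⟨tC, htQ1⟩ : (Q ⊔ Subgroup.zpowers tC : Subgroup _)) = 2 := by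
          rw [← hotC]; exact Subgroup.orderOf_mk tC htQ1
        have hidx : (Subgroup.zpowers
            (⟨tC, htQ1⟩ : (Q ⊔ Subgroup.zpowers tC : Subgroup _))).index = 2 := by
          have h4 := Subgroup.index_mul_card (Subgroup.zpowers
            (⟨tC, htQ1⟩ : (Q ⊔ Subgroup.zpowers tC : Subgroup _)))
          rw [Nat.card_zpowers, ho, hcard] at h4
          omega
        refine aut_eq_one_of_mem_zpowers hQ12 ⟨tC, htQ1⟩ ?_ _ ?_ (orderOf g) hm hσ
        · intro a b ha hb
          exact (Subgroup.mul_mem_iff_of_index_two hidx).2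
            ⟨fun h => absurd h ha, fun h => absurd h hb⟩
        · rw [hσt]; exact Subgroup.mem_zpowers _
    have h5 := mem_centralizer_of_normalizerMonoidHom_eq_one _ g hg1 hfin
    exact Subgroup.centralizer_le (le_sup_left (α := Subgroup _)) h5
  obtain ⟨N, hNn, hc⟩ := (Cfsg.Agent.Lib.Helper54.frobenius_sylow T).2 key
  refine ⟨N, hNn, ?_, ?_⟩
  · have h1 : (T : Subgroup (Subgroup.centralizer ({t} : Set X))).index = Nat.card N :=
      hc.index_eq_card
    rw [← h1]
    exact Nat.odd_iff.2 (Nat.two_dvd_ne_zero.1 T.not_dvd_index)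
  · obtain ⟨k, hk⟩ := IsPGroup.iff_card.1 T.isPGroup'
    exact ⟨k, by rw [hc.symm.index_eq_card, hk]⟩

end Cfsg.Agent.S0514
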