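import Cfsg.Statements.S0522
import Cfsg.Agent.Lib.Helper23.ThompsonTrans
import Cfsg.Agent.Lib.Helper23.TransHyp

set_option autoImplicit false
open Cfsg

namespace Cfsg.Agent.S0522

/-- Transitivity Theorem (odd-order setting). Let X be a finite group of odd order in which the normalizer of every
nontrivial p-subgroup is solvable, P a Sylow p-subgroup, and B an abelian subgroup of P, normalized by P, with
C_P(B) = B and containing an elementary abelian subgroup of order p^3. Then for every prime q ≠ p, any two q-subgroups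
that are maximal among the q-subgroups normalized by B are conjugate by an element of the centralizer of B. -/
theorem result {X : Type*} [Group X] [Finite X] (hX : Odd (Nat.card X)) (p : ℕ)
    [Fact p.Prime] (hloc : ∀ T : Subgroup X, IsPGroup p T → T ≠ ⊥ → Group.IsSolvable (Subgroup.normalizer (T : Set X)))
    (P : Sylow p X) (B : Subgroup X) (hBP : B ≤ (P : Subgroup X))
    (hBn : ∀ x ∈ (P : Subgroup X), ∀ b ∈ B, x * b * x⁻¹ ∈ B) (hBa : IsMulCommutative B)
    (hBc : (P : Subgroup X) ⊓ Subgroup.centralizer (B : Set X) = B)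
    (hB3 : ∃ E : Subgroup X, E ≤ B ∧ (∀ e ∈ E, e ^ p = 1) ∧ p ^ 3 ≤ Nat.card E)
    (q : ℕ) [Fact q.Prime] (hqp : q ≠ p) (Q₁ Q₂ : Subgroup X)
    (h₁ : IsPGroup q Q₁ ∧ B ≤ Subgroup.normalizer (Q₁ : Set X) ∧
      ∀ R : Subgroup X, IsPGroup q R → B ≤ Subgroup.normalizer (R : Set X) → Q₁ ≤ R → R = Q₁)
    (h₂ : IsPGroup q Q₂ ∧ B ≤ Subgroup.normalizer (Q₂ : Set X) ∧
      ∀ R : Subgroup X, IsPGroup q R → B ≤ Subgroup.normalizer (R : Set X) → Q₂ ≤ R → R = Q₂) :
    ∃ c ∈ Subgroup.centralizer (B : Set X), Q₂ = Q₁.map (MulAut.conj c).toMonoidHom := by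
  have hpp : p.Prime := Fact.out
  obtain ⟨E, hEB, hEexp, hE3⟩ := hB3
  have hBcomm := Cfsg.Agent.Lib.Helper23.comm_of_isMulCommutative hBa
  -- `p` divides `|X|`, so `p ≠ 2`
  have hEp : IsPGroup p E := by
    intro x
    exact ⟨1, by
      have := hEexp x x.2
      apply Subtype.ext
      simpa using this⟩
  have hp2 : p ≠ 2 := by
    intro h2
    obtain ⟨k, hk⟩ := IsPGroup.iff_card.mp hEp
    have hk0 : k ≠ 0 := by
      intro h0
      rw [h0, pow_zero] at hk
      rw [hk] at hE3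
      have : 1 < p ^ 3 := Nat.one_lt_pow (by norm_num) hpp.one_lt
      omega
    have h1 : p ∣ Nat.card E := by
      rw [hk]; exact dvd_pow_self p hk0
    have h3 : p ∣ Nat.card X := h1.trans (Subgroup.card_subgroup_dvd_card E)
    rw [h2] at h3
    exact (Nat.not_even_iff_odd.mpr hX) (even_iff_two_dvd.mpr h3)
  have hloc' : ∀ T : Subgroup X, IsPGroup p T → T ≠ ⊥ →
      Cfsg.IsPConstrained p ↥(Subgroup.normalizer (T : Set X)) := by
    intro T hT hT1
    haveI := hloc T hT hT1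
    exact Cfsg.Agent.Lib.Helper23.isPConstrained_of_isSolvable p
  have hBp : IsPGroup p B := P.isPGroup'.to_le hBP
  have hPN : (P : Subgroup X) ≤ Subgroup.normalizer (B : Set X) := by
    intro x hx
    rw [Subgroup.mem_normalizer_iff]
    intro b
    constructor
    · intro hb
      exact hBn x hx b hb
    · intro hb
      have h1 := hBn x⁻¹ (Subgroup.inv_mem _ hx) _ hb
      have e : x⁻¹ * (x * b * x⁻¹) * x⁻¹⁻¹ = b := by group
      rwa [e] at h1
  have hSCN : Cfsg.IsSCN (P : Subgroup X) B := ⟨hBP, hPN, hBc⟩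
  have hE3' : ¬ Cfsg.PRankLE p 2 ↥B := by
    intro h
    have hc : IsMulCommutative ↥(E.subgroupOf B) := by
      refine ⟨⟨fun a b => ?_⟩⟩
      apply Subtype.ext
      apply Subtype.ext
      exact hBcomm _ a.1.2 _ b.1.2
    have h1 := h (E.subgroupOf B) hc (by
      intro a ha
      apply Subtype.ext
      have := hEexp (a : X) (Subgroup.mem_subgroupOf.mp ha)
      simpa using this)
    have h2 : Nat.card ↥(E.subgroupOf B) = Nat.card E :=
      Nat.card_congr (Subgroup.subgroupOfEquivOfLe hEB).toEquiv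
    rw [h2] at h1
    have h3 : p ^ 2 < p ^ 3 := Nat.pow_lt_pow_right hpp.one_lt (by norm_num)
    omega
  have hfull : ∀ x ∈ Subgroup.centralizer (B : Set X), IsPGroup p (Subgroup.zpowers x) → x ∈ B :=
    fun x hx hxp => Cfsg.Agent.Lib.Helper23.mem_of_isSCN_of_pElement P hSCN hx hxp
  have hmem : ∀ Q : Subgroup X, (IsPGroup q Q ∧ B ≤ Subgroup.normalizer (Q : Set X) ∧
      ∀ R : Subgroup X, IsPGroup q R → B ≤ Subgroup.normalizer (R : Set X) → Q ≤ R → R = Q) →
      Q ∈ Cfsg.maxInvSubgroups ⊤ B {q} := by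
    intro Q hQ
    refine ⟨Cfsg.Agent.Lib.Helper23.mem_inv_of_isPGroup le_top hQ.1 hQ.2.1, ?_⟩
    intro R hR hQR
    exact hQ.2.2 R (Cfsg.Agent.Lib.Helper23.isPGroup_of_mem_inv hR) hR.2.2 hQR
  obtain ⟨k, hk, e⟩ := Cfsg.Agent.Lib.Helper23.thompson_transitivity p hloc'
    (fun h => absurd h hp2) B hBp hBa hE3' hfull q hqp Q₁ (hmem Q₁ h₁) Q₂ (hmem Q₂ h₂)
  exact ⟨k, Cfsg.Agent.Lib.Helper23.piCoreOf_le _ _ hk, e⟩

end Cfsg.Agent.S0522
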