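import Cfsg.Statements.S0535
import Cfsg.Agent.S0006
import Cfsg.Agent.Lib.Helper9.Carter1

set_option autoImplicit false
open Cfsg

namespace Cfsg.Agent.S0535

/-- Suppose that for every nontrivial subgroup H of a finite group and every prime p dividing the order of H there is a proper subgroup of H whose index in H is a power of p. Then the group is solvable. -/
theorem result {G : Type*} [Group G] [Finite G] (h : ∀ H : Subgroup G, H ≠ ⊥ → ∀ p : ℕ, p.Prime → p ∣ Nat.card H → ∃ K : Subgroup H, K ≠ ⊤ ∧ ∃ k : ℕ, K.index = p ^ k) : Group.IsSolvable G := by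
  apply Cfsg.Agent.S0006.result
  intro p hp
  obtain ⟨K, -, hKm⟩ := Finite.exists_le_minimal
    (p := fun K : Subgroup G => ∃ k : ℕ, K.index = p ^ k) (a := ⊤) ⟨0, by simp⟩
  obtain ⟨j, hj⟩ := hKm.prop
  have hnd : ¬ p ∣ Nat.card K := by
    intro hd
    have hKne : K ≠ ⊥ := by
      intro hb
      rw [hb, Subgroup.card_bot] at hd
      exact hp.one_lt.ne' (Nat.dvd_one.mp hd)
    obtain ⟨K', hK'ne, k, hk⟩ := h K hKne p hp hd
    have h1 : (K'.map K.subtype).index = p ^ (k + j) := by
      have h2 := Subgroup.relIndex_mul_index (Subgroup.map_subtype_le K')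
      have h3 : (K'.map K.subtype).relIndex K = K'.index := by
        have h5 : (K'.map K.subtype).subgroupOf K = K' :=
          Subgroup.comap_map_eq_self_of_injective (Subgroup.subtype_injective K) K'
        rw [Subgroup.relIndex, h5]
      rw [h3, hk, hj, ← pow_add] at h2
      exact h2.symm
    have h4 := hKm.le_of_le ⟨k + j, h1⟩ (Subgroup.map_subtype_le K')
    apply hK'ne
    rw [eq_top_iff]
    intro x _
    obtain ⟨y, hy, hxy⟩ := h4 x.2
    have : y = x := Subtype.ext hxy
    rw [← this]; exact hy
  have := Cfsg.Agent.Lib.Helper9.index_eq_pow_factorization (H := K) ⟨p, hp⟩ j hj hnd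
  exact ⟨K, this⟩

end Cfsg.Agent.S0535
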