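import Cfsg.Statements.S0540
import Cfsg.Agent.Lib.Helper9.Subnormal2

set_option autoImplicit false
open Pointwise
open Cfsg

namespace Cfsg.Agent.S0540

open Subgroup Cfsg.Agent.Lib.Helper9

/-- A uniqueness lemma of zipper type. Let A be a subgroup of a finite group G and U a nonempty family of subgroups. For V in U write S(V) for the set of conjugates of A that lie in V and are subnormal in V. Assume: A belongs to S(V) for every V in U; a member of some S(W) that lies in V belongs to S(V); and for all V, W in U the normalizer of the join of S(V) ∩ S(W) lies in some member of U. Then U has a greatest element. -/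
theorem result {G : Type*} [Group G] [Finite G] (A : Subgroup G) (U : Set (Subgroup G)) (hU : U.Nonempty) (S : Subgroup G → Set (Subgroup G)) (hS : ∀ V B : Subgroup G, B ∈ S V ↔ (∃ g : G, B = MulAut.conj g • A) ∧ B ≤ V ∧ (B.subgroupOf V).IsSubnormal) (h1 : ∀ V ∈ U, A ∈ S V) (h2 : ∀ V ∈ U, ∀ W ∈ U, ∀ B ∈ S W, B ≤ V → B ∈ S V) (h3 : ∀ V ∈ U, ∀ W ∈ U, ∃ X ∈ U, Subgroup.normalizer ((sSup (S V ∩ S W) : Subgroup G) : Set G) ≤ X) : ∃ M ∈ U, ∀ V ∈ U, V ≤ M := by
  -- basic facts about the families `S V`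
  have hSle : ∀ V B, B ∈ S V → B ≤ V ∧ (B.subgroupOf V).IsSubnormal := fun V B hB =>
    ((hS V B).mp hB).2
  have hSconj : ∀ V B, B ∈ S V → ∀ g ∈ V, MulAut.conj g • B ∈ S V := by
    intro V B hB g hg
    obtain ⟨⟨h, rfl⟩, hBV, hBs⟩ := (hS V B).mp hB
    refine (hS V _).mpr ⟨⟨g * h, conj_smul_conj_smul g h A⟩, conj_smul_le_of_le hBV ⟨g, hg⟩, ?_⟩
    have := conj_smul_subgroupOf hBV (⟨g, hg⟩ : V)
    rw [← this]
    exact hBs.smul _
  have hVnorm : ∀ V, V ≤ normalizer ((sSup (S V) : Subgroup G) : Set G) := by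
    intro V
    have step : ∀ g ∈ V, MulAut.conj g • sSup (S V) ≤ sSup (S V) := by
      intro g hg
      rw [smul_sSup_subgroup]
      exact iSup_le fun X => iSup_le fun hX => le_sSup (hSconj V X hX g hg)
    intro g hg
    exact mem_normalizer_of_conj_smul_le (step g hg) (step g⁻¹ (inv_mem hg))
  -- a maximal member of `U`
  obtain ⟨M, hM⟩ := (Set.toFinite U).exists_maximal hU
  have hMU : M ∈ U := hM.prop
  have hMmax : ∀ X ∈ U, M ≤ X → X ≤ M := fun X hX hMX => hM.le_of_ge hX hMX
  refine ⟨M, hMU, ?_⟩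
  by_contra hcon
  have hBad : {V | V ∈ U ∧ ¬ V ≤ M}.Nonempty := by
    by_contra h
    apply hcon
    intro V hV
    by_contra hVM
    exact h ⟨V, hV, hVM⟩
  obtain ⟨V, ⟨hVU, hVM⟩, hVmax⟩ := Set.exists_max_image {V | V ∈ U ∧ ¬ V ≤ M}
    (fun V => (S V ∩ S M).ncard) (Set.toFinite _) hBad
  obtain ⟨X, hXU, hX⟩ := h3 V hVU M hMU
  -- the normalizer of the join lies in `M`
  have hNM : normalizer ((sSup (S V ∩ S M) : Subgroup G) : Set G) ≤ M := by
    by_cases hEq : S V ∩ S M = S M
    · have : M ≤ X := by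
        calc M ≤ normalizer ((sSup (S M) : Subgroup G) : Set G) := hVnorm M
          _ = normalizer ((sSup (S V ∩ S M) : Subgroup G) : Set G) := by rw [hEq]
          _ ≤ X := hX
      exact hX.trans (hMmax X hXU this)
    · have hss : S V ∩ S M ⊂ S M := ⟨Set.inter_subset_right, fun h =>
        hEq (Set.Subset.antisymm Set.inter_subset_right h)⟩
      obtain ⟨B, hBM, hB0, hBn⟩ := exists_normalizing_member M (S M) (S V ∩ S M)
        (hSle M) (hSconj M) hss
      have hBX : B ∈ S X := h2 X hXU M hMU B hBM (hBn.trans hX)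
      have hsub : S V ∩ S M ⊆ S X ∩ S M := by
        intro C hC
        refine ⟨h2 X hXU M hMU C hC.2 ?_, hC.2⟩
        exact (le_sSup hC).trans (le_normalizer.trans hX)
      have hssub : S V ∩ S M ⊂ S X ∩ S M := by
        refine ⟨hsub, fun h => hB0 (h ⟨hBX, hBM⟩)⟩
      have hlt : (S V ∩ S M).ncard < (S X ∩ S M).ncard := Set.ncard_lt_ncard hssub (Set.toFinite _)
      have hXM : X ≤ M := by
        by_contra hXM
        exact absurd (hVmax X ⟨hXU, hXM⟩) (not_le.mpr hlt)
      exact hX.trans hXM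
  -- hence `S V ⊆ S M`
  have hEqV : S V ∩ S M = S V := by
    by_contra hEq
    have hss : S V ∩ S M ⊂ S V := ⟨Set.inter_subset_left, fun h =>
      hEq (Set.Subset.antisymm Set.inter_subset_left h)⟩
    obtain ⟨B, hBV, hB0, hBn⟩ := exists_normalizing_member V (S V) (S V ∩ S M)
      (hSle V) (hSconj V) hss
    exact hB0 ⟨hBV, h2 M hMU V hVU B hBV (hBn.trans hNM)⟩
  apply hVM
  calc V ≤ normalizer ((sSup (S V) : Subgroup G) : Set G) := hVnorm V
    _ = normalizer ((sSup (S V ∩ S M) : Subgroup G) : Set G) := by rw [hEqV]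
    _ ≤ M := hNM

end Cfsg.Agent.S0540
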