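import Cfsg.Statements.S0548
import Mathlib
import Cfsg.Agent.Lib.Helper10.PrimSolv

set_option autoImplicit false
open Cfsg

namespace Cfsg.Agent.S0548

open Cfsg.Agent.Lib.Helper10

/-- Let a finite solvable group G act faithfully and primitively on a set, let M be a minimal normal subgroup and H the stabilizer of a point. Then H is a complement to M, no non-identity element of H centralizes M, and the only subgroups of M normalized by H are the trivial subgroup and M. -/
theorem result {G : Type*} [Group G] [Finite G] [Group.IsSolvable G] {Ω : Type*} [MulAction G Ω] [FaithfulSMul G Ω] (hprim : MulAction.IsPreprimitive G Ω) (M : Subgroup G) [M.Normal] (hM : M ≠ ⊥) (hmin : ∀ K : Subgroup G, K.Normal → K ≤ M → K = ⊥ ∨ K = M) (ω : Ω) : Subgroup.IsComplement' M (MulAction.stabilizer G ω) ∧ MulAction.stabilizer G ω ⊓ Subgroup.centralizer (M : Set G) = ⊥ ∧ ∀ K : Subgroup G, K ≤ M → MulAction.stabilizer G ω ≤ Subgroup.normalizer (K : Set G) → K = ⊥ ∨ K = M := by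
  have hcomm := comm_of_minimal_normal_solvable M hmin
  have htr : MulAction.IsPretransitive M Ω := isPretransitive_of_normal_of_preprimitive hprim M hM
  have hreg : MulAction.stabilizer M ω = ⊥ := stabilizer_eq_bot_of_comm_transitive M hcomm ω
  have hfac : ∀ g : G, ∃ m ∈ M, ∃ h ∈ MulAction.stabilizer G ω, g = m * h := by
    intro g
    obtain ⟨m, hm⟩ := MulAction.exists_smul_eq M ω (g • ω)
    refine ⟨m, m.2, (m : G)⁻¹ * g, ?_, by group⟩
    rw [MulAction.mem_stabilizer_iff, mul_smul]
    have hm' : (m : G) • ω = g • ω := hm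
    rw [← hm', inv_smul_smul]
  refine ⟨?_, ?_, ?_⟩
  · apply Subgroup.isComplement'_of_disjoint_and_mul_eq_univ
    · rw [disjoint_iff, eq_bot_iff]
      intro x hx
      have h1 : (⟨x, hx.1⟩ : M) ∈ MulAction.stabilizer M ω := by
        rw [MulAction.mem_stabilizer_iff]
        exact hx.2
      rw [hreg, Subgroup.mem_bot] at h1
      rw [Subgroup.mem_bot]
      exact congrArg Subtype.val h1
    · rw [Set.eq_univ_iff_forall]
      intro g
      obtain ⟨m, hm, h, hh, rfl⟩ := hfac g
      exact Set.mul_mem_mul hm hh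
  · rw [eq_bot_iff]
    intro h hh
    rw [Subgroup.mem_bot]
    exact eq_one_of_fix_of_centralizes M ω (MulAction.mem_stabilizer_iff.1 hh.1) hh.2
  · intro K hKM hN
    have hKn : K.Normal := by
      constructor
      intro k hk g
      obtain ⟨m, hm, h, hh, rfl⟩ := hfac g
      have h1 : h * k * h⁻¹ ∈ K := (Subgroup.mem_normalizer_iff.1 (hN hh) k).1 hk
      have h2 := hcomm m hm _ (hKM h1)
      have e : m * h * k * (m * h)⁻¹ = h * k * h⁻¹ := by
        calc m * h * k * (m * h)⁻¹ = (m * (h * k * h⁻¹)) * m⁻¹ := by group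
          _ = ((h * k * h⁻¹) * m) * m⁻¹ := by rw [h2]
          _ = h * k * h⁻¹ := by group
      rw [e]
      exact h1
    exact hmin K hKn hKM

end Cfsg.Agent.S0548
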