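import Cfsg.Statements.S0550
import Mathlib
import Cfsg.Agent.Lib.Helper10.CoreFree

set_option autoImplicit false
open Cfsg

namespace Cfsg.Agent.S0550

open Cfsg.Agent.Lib.Helper10

theorem equiv_of_sup_eq {G : Type*} [Group G] (N : Subgroup G) [N.Normal] (X Y : Subgroup G)
    (hX : X ⊓ N = ⊥) (hY : Y ⊓ N = ⊥) (h : X ⊔ N = Y ⊔ N) : Nonempty (X ≃* Y) := by
  have inj : ∀ Z : Subgroup G, Z ⊓ N = ⊥ →
      Function.Injective ((QuotientGroup.mk' N).comp Z.subtype) := by
    intro Z hZ
    rw [injective_iff_map_eq_one]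
    intro z hz
    have h1 : (z : G) ∈ N := by simpa using hz
    have h2 : (z : G) ∈ Z ⊓ N := ⟨z.2, h1⟩
    rw [hZ, Subgroup.mem_bot] at h2
    exact Subtype.ext h2
  have hr : ((QuotientGroup.mk' N).comp X.subtype).range =
      ((QuotientGroup.mk' N).comp Y.subtype).range := by
    rw [MonoidHom.range_comp, MonoidHom.range_comp, Subgroup.range_subtype, Subgroup.range_subtype,
      Subgroup.map_eq_map_iff, QuotientGroup.ker_mk', h]
  exact ⟨(MonoidHom.ofInjective (inj X hX)).trans
    ((MulEquiv.subgroupCongr hr).trans (MonoidHom.ofInjective (inj Y hY)).symm)⟩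

/-- Let U be a maximal subgroup with trivial normal core in a finite group G, and A ≠ B two minimal normal subgroups. Then A is the centralizer of B and B that of A, U complements each of them, A and B are non-abelian, and A, B and (A ⊔ B) ∩ U are pairwise isomorphic. -/
theorem result {G : Type*} [Group G] [Finite G] (U : Subgroup G) (hU : IsCoatom U) (hcore : U.normalCore = ⊥) (A B : Subgroup G) [A.Normal] [B.Normal] (hA : A ≠ ⊥) (hB : B ≠ ⊥) (hAmin : ∀ K : Subgroup G, K.Normal → K ≤ A → K = ⊥ ∨ K = A) (hBmin : ∀ K : Subgroup G, K.Normal → K ≤ B → K = ⊥ ∨ K = B) (hAB : A ≠ B) : Subgroup.centralizer (B : Set G) = A ∧ Subgroup.centralizer (A : Set G) = B ∧ Subgroup.IsComplement' A U ∧ Subgroup.IsComplement' B U ∧ ¬ IsMulCommutative A ∧ Nonempty (A ≃* B) ∧ Nonempty (A ≃* ↥((A ⊔ B) ⊓ U)) := by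
  have hAn : A.Normal := inferInstance
  have hBn : B.Normal := inferInstance
  have hABbot : A ⊓ B = ⊥ := by
    have hn : (A ⊓ B).Normal := inferInstance
    rcases hAmin _ hn inf_le_left with h | h
    · exact h
    · exfalso
      have hle : A ≤ B := by rw [← h]; exact inf_le_right
      rcases hBmin A hAn hle with h' | h'
      · exact hA h'
      · exact hAB h'
  have hcomm : ∀ a ∈ A, ∀ b ∈ B, b * a = a * b := by
    intro a ha b hb
    have h1 : a * b * a⁻¹ * b⁻¹ ∈ A ⊓ B := by
      constructor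
      · have := A.mul_mem ha (hAn.conj_mem a⁻¹ (A.inv_mem ha) b)
        simpa [mul_assoc] using this
      · have := B.mul_mem (hBn.conj_mem b hb a) (B.inv_mem hb)
        simpa [mul_assoc] using this
    rw [hABbot, Subgroup.mem_bot] at h1
    have : a * b = b * a := by
      calc a * b = (a * b * a⁻¹ * b⁻¹) * (b * a) := by group
        _ = b * a := by rw [h1, one_mul]
    exact this.symm
  have hAC : A ≤ Subgroup.centralizer (B : Set G) := fun a ha b hb => hcomm a ha b hb
  have hBC : B ≤ Subgroup.centralizer (A : Set G) := fun b hb a ha => (hcomm a ha b hb).symm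
  have hCB : Subgroup.centralizer (B : Set G) = A := by
    rcases centralizer_minimal_of_coreFree U hU hcore B hB A hAn hAC with h | h
    · exact absurd h hA
    · exact h.symm
  have hCA : Subgroup.centralizer (A : Set G) = B := by
    rcases centralizer_minimal_of_coreFree U hU hcore A hA B hBn hBC with h | h
    · exact absurd h hB
    · exact h.symm
  have hAU : A ⊓ U = ⊥ := by
    rw [← hCB]; exact centralizer_inf_eq_bot_of_coreFree U hU hcore B hB
  have hBU : B ⊓ U = ⊥ := by
    rw [← hCA]; exact centralizer_inf_eq_bot_of_coreFree U hU hcore A hA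
  have compl : ∀ K : Subgroup G, K.Normal → K ≠ ⊥ → K ⊓ U = ⊥ → Subgroup.IsComplement' K U := by
    intro K hKn hK hKU
    have := hKn
    apply Subgroup.isComplement'_of_disjoint_and_mul_eq_univ (disjoint_iff.2 hKU)
    rw [Set.eq_univ_iff_forall]
    intro g
    obtain ⟨k, hk, u, hu, rfl⟩ :=
      exists_mul_of_sup_eq_top K U (sup_eq_top_of_coreFree U hU hcore K hK) g
    exact Set.mul_mem_mul hk hu
  have hnc : ¬ IsMulCommutative A := by
    intro hc
    have hle : A ≤ Subgroup.centralizer (A : Set G) := by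
      intro a ha a' ha'
      exact setLike_mul_comm ha' ha
    rw [hCA] at hle
    exact hA (by rw [eq_bot_iff, ← hABbot]; exact le_inf le_rfl hle)
  have hD_B : ((A ⊔ B) ⊓ U) ⊓ B = ⊥ := by
    rw [eq_bot_iff, ← hBU]; exact le_inf inf_le_right (inf_le_left.trans inf_le_right)
  have hD_A : ((A ⊔ B) ⊓ U) ⊓ A = ⊥ := by
    rw [eq_bot_iff, ← hAU]; exact le_inf inf_le_right (inf_le_left.trans inf_le_right)
  have hsupB : A ⊔ B = ((A ⊔ B) ⊓ U) ⊔ B := by
    apply le_antisymm
    · refine sup_le ?_ le_sup_right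
      intro a ha
      obtain ⟨b, hb, u, hu, rfl⟩ :=
        exists_mul_of_sup_eq_top B U (sup_eq_top_of_coreFree U hU hcore B hB) a
      have hu' : u ∈ (A ⊔ B) ⊓ U := by
        refine ⟨?_, hu⟩
        have := Subgroup.mul_mem (A ⊔ B) (Subgroup.inv_mem _ (Subgroup.mem_sup_right hb))
          (Subgroup.mem_sup_left ha)
        simpa using this
      exact Subgroup.mul_mem _ (Subgroup.mem_sup_right hb) (Subgroup.mem_sup_left hu')
    · exact sup_le inf_le_left le_sup_right
  have hsupA : B ⊔ A = ((A ⊔ B) ⊓ U) ⊔ A := by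
    apply le_antisymm
    · refine sup_le ?_ le_sup_right
      intro b hb
      obtain ⟨a, ha, u, hu, rfl⟩ :=
        exists_mul_of_sup_eq_top A U (sup_eq_top_of_coreFree U hU hcore A hA) b
      have hu' : u ∈ (A ⊔ B) ⊓ U := by
        refine ⟨?_, hu⟩
        have := Subgroup.mul_mem (A ⊔ B) (Subgroup.inv_mem _ (Subgroup.mem_sup_left ha))
          (Subgroup.mem_sup_right hb)
        simpa using this
      exact Subgroup.mul_mem _ (Subgroup.mem_sup_right ha) (Subgroup.mem_sup_left hu')
    · exact sup_le (inf_le_left.trans (le_of_eq (sup_comm A B))) le_sup_right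
  have e1 : Nonempty (A ≃* ↥((A ⊔ B) ⊓ U)) := equiv_of_sup_eq B A _ hABbot hD_B hsupB
  have e2 : Nonempty (B ≃* ↥((A ⊔ B) ⊓ U)) :=
    equiv_of_sup_eq A B _ (by rw [inf_comm]; exact hABbot) hD_A hsupA
  exact ⟨hCB, hCA, compl A hAn hA hAU, compl B hBn hB hBU, hnc,
    ⟨e1.some.trans e2.some.symm⟩, e1⟩

end Cfsg.Agent.S0550
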