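import Mathlib
import Cfsg.Statements.S0551
import Cfsg.Agent.Lib.Helper1.Tools
import Cfsg.Agent.Lib.Helper1.Basic
import Cfsg.Agent.Lib.Helper1.MinNormal
import Cfsg.Agent.Lib.Helper1.SZConjB
import Cfsg.Agent.Lib.Helper1.Hall
import Cfsg.Agent.Lib.Helper48.SPE

set_option autoImplicit false
open Cfsg

namespace Cfsg.Agent.S0551

open Cfsg.Agent.Lib.Helper1 Cfsg.Agent.Lib.Helper48 Pointwise

/-- If `M` normalizes `K` and `x ∈ M`, then conjugation by `x` preserves `K ⊓ M`. -/
theorem conj_mem_inf_iff {G : Type*} [Group G] (K M : Subgroup G) [hK : K.Normal] {x : G}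
    (hx : x ∈ M) (y : G) : y ∈ K ⊓ M ↔ x * y * x⁻¹ ∈ K ⊓ M := by
  constructor
  · intro hy
    exact Subgroup.mem_inf.2 ⟨hK.conj_mem y (Subgroup.mem_inf.1 hy).1 x,
      M.mul_mem (M.mul_mem hx (Subgroup.mem_inf.1 hy).2) (M.inv_mem hx)⟩
  · intro hy
    have h1 := (Subgroup.mem_inf.1 hy).1
    have h2 := (Subgroup.mem_inf.1 hy).2
    refine Subgroup.mem_inf.2 ⟨?_, ?_⟩
    · have := hK.conj_mem _ h1 x⁻¹
      simpa [mul_assoc] using this
    · have := M.mul_mem (M.mul_mem (M.inv_mem hx) h2) hx
      simpa [mul_assoc] using this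

/-- If `x` commutes with all elements of `K`, then conjugation by `x` preserves `K ⊓ M`. -/
theorem conj_mem_inf_iff_of_comm {G : Type*} [Group G] (K M : Subgroup G) [hK : K.Normal] {x : G}
    (hx : ∀ y ∈ K, x * y = y * x) (y : G) : y ∈ K ⊓ M ↔ x * y * x⁻¹ ∈ K ⊓ M := by
  constructor
  · intro hy
    rw [hx y (Subgroup.mem_inf.1 hy).1, mul_inv_cancel_right]
    exact hy
  · intro hy
    have hyK : y ∈ K := by
      have h1 := (Subgroup.mem_inf.1 hy).1
      have h2 := hK.conj_mem _ h1 x⁻¹
      simpa [mul_assoc] using h2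
    rw [hx y hyK, mul_inv_cancel_right] at hy
    exact hy

theorem compl_of_minNormal {G : Type*} [Group G] (N : Subgroup G) [hNn : N.Normal]
    (hNc : IsMulCommutative N)
    (hNmin : ∀ M : Subgroup G, M.Normal → M ≤ N → M = ⊥ ∨ M = N) (M : Subgroup G)
    (hM : IsCoatom M) (hNM : ¬ N ≤ M) : N ⊔ M = ⊤ ∧ N ⊓ M = ⊥ := by
  have hsup : N ⊔ M = ⊤ := by
    apply hM.2
    exact lt_of_le_of_ne le_sup_right (fun h => hNM (h ▸ le_sup_left))
  refine ⟨hsup, ?_⟩
  have hinfn : (N ⊓ M).Normal := by
    rw [← Subgroup.normalizer_eq_top_iff, eq_top_iff, ← hsup]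
    refine sup_le ?_ ?_
    · intro x hx
      rw [Subgroup.mem_normalizer_iff]
      intro y
      apply conj_mem_inf_iff_of_comm
      intro z hz
      have := hNc.is_comm.comm (⟨x, hx⟩ : N) ⟨z, hz⟩
      exact congrArg Subtype.val this
    · intro x hx
      rw [Subgroup.mem_normalizer_iff]
      intro y
      exact conj_mem_inf_iff N M hx y
  rcases hNmin (N ⊓ M) hinfn inf_le_left with h1 | h1
  · exact h1
  · exact absurd (h1 ▸ inf_le_right) hNM

theorem exists_mul_of_sup_eq_top {G : Type*} [Group G] (N M : Subgroup G) [N.Normal]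
    (h : N ⊔ M = ⊤) (x : G) : ∃ n ∈ N, ∃ m ∈ M, x = n * m := by
  have hx : x ∈ ((N ⊔ M : Subgroup G) : Set G) := by rw [h]; trivial
  rw [Subgroup.normal_mul] at hx
  obtain ⟨n, hn, m, hm, rfl⟩ := hx
  exact ⟨n, hn, m, hm, rfl⟩

/-- In a finite solvable group all core-free maximal subgroups are conjugate. -/
theorem result {G : Type*} [Group G] [Finite G] [Group.IsSolvable G] (U V : Subgroup G) (hU : IsCoatom U) (hV : IsCoatom V) (hUc : U.normalCore = ⊥) (hVc : V.normalCore = ⊥) : ∃ g : G, MulAut.conj g • U = V := by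
  classical
  have hnt : Nontrivial G := by
    by_contra hcon
    rw [not_nontrivial_iff_subsingleton] at hcon
    exact hU.1 (Subsingleton.elim _ _)
  obtain ⟨N, hNn, hNne, hNmin⟩ := exists_minNormal G
  obtain ⟨hNc, p, hp, hpow⟩ := minNormal_elementary N inferInstance hNne hNmin
  have hpf : Fact p.Prime := ⟨hp⟩
  have hNp : IsPGroup p N := by
    rintro ⟨x, hx⟩
    refine ⟨1, ?_⟩
    apply Subtype.ext
    simpa using hpow x hx
  obtain ⟨k, hk⟩ := IsPGroup.iff_card.mp hNp
  have key1 : ∀ M : Subgroup G, IsCoatom M → M.normalCore = ⊥ → N ⊔ M = ⊤ ∧ N ⊓ M = ⊥ := by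
    intro M hM hMc
    apply compl_of_minNormal N hNc hNmin M hM
    intro hle
    have : N ≤ M.normalCore := Subgroup.normal_le_normalCore.2 hle
    rw [hMc] at this
    exact hNne (le_bot_iff.1 this)
  have hCn : (Subgroup.centralizer (N : Set G)).Normal := inferInstance
  have hCN : Subgroup.centralizer (N : Set G) ≤ N := by
    obtain ⟨hsup, hinf⟩ := key1 U hU hUc
    have hCU : (Subgroup.centralizer (N : Set G) ⊓ U).Normal := by
      rw [← Subgroup.normalizer_eq_top_iff, eq_top_iff, ← hsup]
      refine sup_le ?_ ?_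
      · intro x hx
        rw [Subgroup.mem_normalizer_iff]
        intro y
        apply conj_mem_inf_iff_of_comm
        intro z hz
        exact Subgroup.mem_centralizer_iff.1 hz x hx
      · intro x hx
        rw [Subgroup.mem_normalizer_iff]
        intro y
        exact conj_mem_inf_iff _ U hx y
    have hCU0 : Subgroup.centralizer (N : Set G) ⊓ U = ⊥ := by
      have : Subgroup.centralizer (N : Set G) ⊓ U ≤ U.normalCore :=
        Subgroup.normal_le_normalCore.2 inf_le_right
      rw [hUc] at this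
      exact le_bot_iff.1 this
    intro c hc
    obtain ⟨n, hn, m, hm, rfl⟩ := exists_mul_of_sup_eq_top N U hsup c
    have hnC : n ∈ Subgroup.centralizer (N : Set G) := by
      rw [Subgroup.mem_centralizer_iff]
      intro g hg
      have := hNc.is_comm.comm (⟨g, hg⟩ : N) ⟨n, hn⟩
      exact congrArg Subtype.val this
    have hmC : m ∈ Subgroup.centralizer (N : Set G) := by
      have := Subgroup.mul_mem _ (Subgroup.inv_mem _ hnC) hc
      simpa using this
    have hm1 : m = 1 := by
      have : m ∈ Subgroup.centralizer (N : Set G) ⊓ U := Subgroup.mem_inf.2 ⟨hmC, hm⟩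
      rw [hCU0] at this
      exact Subgroup.mem_bot.1 this
    rw [hm1, mul_one]
    exact hn
  by_cases hNtop : N = ⊤
  · have hU0 : U = ⊥ := by
      have := (key1 U hU hUc).2
      rwa [hNtop, top_inf_eq] at this
    have hV0 : V = ⊥ := by
      have := (key1 V hV hVc).2
      rwa [hNtop, top_inf_eq] at this
    refine ⟨1, ?_⟩
    rw [hU0, hV0]
    simp
  · have hntq : Nontrivial (G ⧸ N) := by
      rw [← not_subsingleton_iff_nontrivial]
      intro hs
      exact hNtop (QuotientGroup.subgroup_eq_top_of_subsingleton N hs)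
    obtain ⟨L', hL'n, hL'ne, hL'min⟩ := exists_minNormal (G ⧸ N)
    obtain ⟨hL'c, q, hq, hqpow⟩ := minNormal_elementary L' inferInstance hL'ne hL'min
    have hqf : Fact q.Prime := ⟨hq⟩
    have hL'q : IsPGroup q L' := by
      rintro ⟨x, hx⟩
      refine ⟨1, ?_⟩
      apply Subtype.ext
      simpa using hqpow x hx
    obtain ⟨b, hb⟩ := IsPGroup.iff_card.mp hL'q
    have hb0 : b ≠ 0 := by
      rintro rfl
      rw [pow_zero] at hb
      exact hL'ne (Subgroup.card_eq_one.mp hb)
    obtain ⟨L, hLdef⟩ : ∃ L : Subgroup G, L = L'.comap (QuotientGroup.mk' N) := ⟨_, rfl⟩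
    have hLn : L.Normal := by rw [hLdef]; exact hL'n.comap _
    have hNL : N ≤ L := by
      rw [hLdef]
      intro x hx
      rw [Subgroup.mem_comap]
      have : QuotientGroup.mk' N x = 1 := (QuotientGroup.eq_one_iff x).2 hx
      rw [this]
      exact Subgroup.one_mem _
    have hcardL : Nat.card L = q ^ b * p ^ k := by rw [hLdef, card_comap_mk', hb, hk]
    have hqp : q ≠ p := by
      rintro rfl
      have hLp : IsPGroup q L := IsPGroup.of_card (n := b + k) (by rw [hcardL, pow_add])
      have hne' : N.subgroupOf L ≠ ⊥ := by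
        intro h
        apply hNne
        have := congrArg (Subgroup.map L.subtype) h
        rw [Subgroup.subgroupOf_map_subtype, Subgroup.map_bot, inf_of_le_left hNL] at this
        exact this
      have hNLn : (N.subgroupOf L).Normal := hNn.subgroupOf L
      obtain ⟨z, hzN, hz1, hzc⟩ := exists_mem_center_of_normal hLp (N.subgroupOf L) hne'
      have hCLn : (N ⊓ Subgroup.centralizer (L : Set G)).Normal := inferInstance
      have hz' : (z : G) ∈ N ⊓ Subgroup.centralizer (L : Set G) := by
        refine Subgroup.mem_inf.2 ⟨Subgroup.mem_subgroupOf.1 hzN, ?_⟩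
        rw [Subgroup.mem_centralizer_iff]
        intro g hg
        have := Subgroup.mem_center_iff.1 hzc ⟨g, hg⟩
        exact congrArg Subtype.val this
      rcases hNmin _ hCLn inf_le_left with h0 | h0
      · rw [h0, Subgroup.mem_bot] at hz'
        exact hz1 (Subtype.ext hz')
      · have hNcL : N ≤ Subgroup.centralizer (L : Set G) := h0 ▸ inf_le_right
        have hLN : L ≤ N := by
          refine le_trans ?_ hCN
          intro l hl
          rw [Subgroup.mem_centralizer_iff]
          intro g hg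
          exact ((Subgroup.mem_centralizer_iff.1 (hNcL hg)) l hl).symm
        apply hL'ne
        rw [eq_bot_iff]
        intro y hy
        obtain ⟨x, rfl⟩ := QuotientGroup.mk'_surjective N y
        have hxL : x ∈ L := by rw [hLdef]; exact hy
        rw [Subgroup.mem_bot]
        exact (QuotientGroup.eq_one_iff x).2 (hLN hxL)
    have key2 : ∀ M : Subgroup G, IsCoatom M → M.normalCore = ⊥ →
        Nat.card (L ⊓ M : Subgroup G) = q ^ b ∧
          Subgroup.normalizer ((L ⊓ M : Subgroup G) : Set G) = M := by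
      intro M hM hMc
      obtain ⟨hsup, hinf⟩ := key1 M hM hMc
      have h1 : N ⊔ (L ⊓ M) = L := by
        apply le_antisymm (sup_le hNL inf_le_left)
        intro x hx
        obtain ⟨n, hn, m, hm, rfl⟩ := exists_mul_of_sup_eq_top N M hsup x
        have hmL : m ∈ L := by
          have := L.mul_mem (L.inv_mem (hNL hn)) hx
          simpa using this
        exact Subgroup.mul_mem _ (Subgroup.mem_sup_left hn)
          (Subgroup.mem_sup_right (Subgroup.mem_inf.2 ⟨hmL, hm⟩))
      have h2 : N ⊓ (L ⊓ M) = ⊥ := by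
        rw [eq_bot_iff, ← hinf]
        exact le_inf inf_le_left (inf_le_right.trans inf_le_right)
      have h3 := card_sup_mul_card_inf N (L ⊓ M)
      rw [h1, h2, Subgroup.card_bot, mul_one, hcardL, hk, mul_comm] at h3
      have hcard : Nat.card (L ⊓ M : Subgroup G) = q ^ b :=
        (Nat.eq_of_mul_eq_mul_left (pow_pos hp.pos k) h3).symm
      refine ⟨hcard, ?_⟩
      have hle : M ≤ Subgroup.normalizer ((L ⊓ M : Subgroup G) : Set G) := by
        intro x hx
        rw [Subgroup.mem_normalizer_iff]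
        intro y
        exact conj_mem_inf_iff L M hx y
      by_contra hne
      have hlt : M < Subgroup.normalizer ((L ⊓ M : Subgroup G) : Set G) :=
        lt_of_le_of_ne hle (Ne.symm hne)
      have htop := hM.2 _ hlt
      have hnorm : (L ⊓ M).Normal := Subgroup.normalizer_eq_top_iff.1 htop
      have hcore : L ⊓ M ≤ M.normalCore := Subgroup.normal_le_normalCore.2 inf_le_right
      rw [hMc, le_bot_iff] at hcore
      rw [hcore, Subgroup.card_bot] at hcard
      exact absurd hcard (Nat.one_lt_pow hb0 hq.one_lt).ne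
    obtain ⟨hcU, hnU⟩ := key2 U hU hUc
    obtain ⟨hcV, hnV⟩ := key2 V hV hVc
    have hnd : ¬ q ^ (b + 1) ∣ Nat.card L := by
      rw [hcardL, pow_succ]
      intro hd
      have h1 : q ∣ p ^ k := Nat.dvd_of_mul_dvd_mul_left (pow_pos hq.pos b) hd
      exact hqp ((Nat.prime_dvd_prime_iff_eq hq hp).1 (hq.dvd_of_dvd_pow h1))
    obtain ⟨x, hxL, hx⟩ := exists_conj_of_card_eq_pow q (inf_le_left : L ⊓ U ≤ L)
      (inf_le_left : L ⊓ V ≤ L) b hcU hcV hnd
    refine ⟨x, ?_⟩
    ext g
    have hgU : x⁻¹ * g * x ∈ U ↔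
        x⁻¹ * g * x ∈ Subgroup.normalizer ((L ⊓ U : Subgroup G) : Set G) := by rw [hnU]
    have hgV : g ∈ V ↔ g ∈ Subgroup.normalizer ((L ⊓ V : Subgroup G) : Set G) := by rw [hnV]
    rw [mem_conj_smul, hgU, hgV, ← hx, Subgroup.mem_normalizer_iff, Subgroup.mem_normalizer_iff]
    constructor
    · intro h y
      rw [mem_conj_smul, mem_conj_smul]
      have := h (x⁻¹ * y * x)
      have e : x⁻¹ * g * x * (x⁻¹ * y * x) * (x⁻¹ * g * x)⁻¹ = x⁻¹ * (g * y * g⁻¹) * x := by group
      rw [e] at this
      exact this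
    · intro h y
      have := h (x * y * x⁻¹)
      rw [mem_conj_smul, mem_conj_smul] at this
      have e1 : x⁻¹ * (x * y * x⁻¹) * x = y := by group
      have e2 : x⁻¹ * (g * (x * y * x⁻¹) * g⁻¹) * x = x⁻¹ * g * x * y * (x⁻¹ * g * x)⁻¹ := by group
      rw [e1, e2] at this
      exact this

end Cfsg.Agent.S0551
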