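import Cfsg.Statements.S0552
import Cfsg.Agent.S0044
import Cfsg.Agent.Lib.Helper71.Fitting

set_option autoImplicit false
open Cfsg

namespace Cfsg.Agent.S0552

/-- Let σ be an automorphism of a finite solvable group G fixing every element of the Fitting subgroup. If σ is not the identity then the order of σ and the order of G have a common prime factor. -/
theorem result {G : Type*} [Group G] [Finite G] [Group.IsSolvable G] (σ : G ≃* G) (hσ : ∀ x ∈ Cfsg.fittingSubgroup G, σ x = x) (hne : σ ≠ MulEquiv.refl G) : ¬ (orderOf σ).Coprime (Nat.card G) := by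
  intro hcop
  apply hne
  have hFn : (Cfsg.fittingSubgroup G).Normal := Cfsg.Agent.Lib.Helper71.fittingSubgroup_normal
  have hCF := Cfsg.Agent.S0044.result (G := G)
  have hz : ∀ g : G, g⁻¹ * σ g ∈ Cfsg.fittingSubgroup G := by
    intro g
    apply hCF
    rw [Subgroup.mem_centralizer_iff]
    intro x hx
    have h1 : g * x * g⁻¹ ∈ Cfsg.fittingSubgroup G := hFn.conj_mem x hx g
    have h2 := hσ _ h1
    rw [map_mul, map_mul, map_inv, hσ x hx] at h2
    have h3 : x * (g⁻¹ * σ g) = g⁻¹ * (g * x * g⁻¹) * σ g := by group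
    rw [h3, ← h2]; group
  have hpow : ∀ (k : ℕ) (g : G), (σ ^ k) g = g * (g⁻¹ * σ g) ^ k := by
    intro k
    induction k with
    | zero => intro g; simp
    | succ k ih =>
      intro g
      rw [pow_succ', MulAut.mul_apply, ih, map_mul, map_pow, hσ _ (hz g), pow_succ',
        ← mul_assoc g, mul_inv_cancel_left]
  apply MulEquiv.ext
  intro g
  have h1 := hpow (orderOf σ) g
  rw [pow_orderOf_eq_one, MulAut.one_apply] at h1
  have h2 : (g⁻¹ * σ g) ^ orderOf σ = 1 := by
    have : g * (g⁻¹ * σ g) ^ orderOf σ = g * 1 := by rw [mul_one]; exact h1.symm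
    exact mul_left_cancel this
  have h3 : orderOf (g⁻¹ * σ g) ∣ orderOf σ := orderOf_dvd_of_pow_eq_one h2
  have h4 : orderOf (g⁻¹ * σ g) ∣ Nat.card G := orderOf_dvd_natCard _
  have h5 : orderOf (g⁻¹ * σ g) = 1 := Nat.eq_one_of_dvd_coprimes hcop h3 h4
  have h6 : g⁻¹ * σ g = 1 := orderOf_eq_one_iff.mp h5
  have h7 : σ g = g := by
    have : g * (g⁻¹ * σ g) = g * 1 := by rw [h6]
    simpa using this
  rw [h7]; rfl

end Cfsg.Agent.S0552
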