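import Mathlib
import Cfsg.Statements.S0553
import Cfsg.Agent.Lib.Helper1.Tools
import Cfsg.Agent.Lib.Helper1.MinNormal
import Cfsg.Agent.Lib.Helper1.SZConjB

set_option autoImplicit false
open Cfsg

namespace Cfsg.Agent.S0553

open Cfsg.Agent.Lib.Helper1

universe u

/-- The preimage of a coatom under the quotient map is a coatom. -/
theorem isCoatom_comap {G : Type*} [Group G] (N : Subgroup G) [N.Normal]
    (M' : Subgroup (G ⧸ N)) (hM' : IsCoatom M') :
    IsCoatom (M'.comap (QuotientGroup.mk' N)) := by
  have hsurj := QuotientGroup.mk'_surjective N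
  constructor
  · intro h
    apply hM'.1
    rw [← Subgroup.map_comap_eq_self_of_surjective hsurj M', h,
      Subgroup.map_top_of_surjective _ hsurj]
  · intro K hK
    have hNK : N ≤ K := by
      refine le_trans ?_ hK.le
      intro x hx
      rw [Subgroup.mem_comap]
      have : QuotientGroup.mk' N x = 1 := (QuotientGroup.eq_one_iff x).2 hx
      rw [this]; exact Subgroup.one_mem _
    have hKc : (K.map (QuotientGroup.mk' N)).comap (QuotientGroup.mk' N) = K := by
      rw [Subgroup.comap_map_eq, QuotientGroup.ker_mk', sup_of_le_left hNK]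
    have hlt : M' < K.map (QuotientGroup.mk' N) := by
      refine lt_of_le_of_ne ?_ ?_
      · rw [← Subgroup.map_comap_eq_self_of_surjective hsurj M']
        exact Subgroup.map_mono hK.le
      · intro h
        rw [← h] at hKc
        exact hK.ne hKc
    have htop := hM'.2 _ hlt
    rw [← hKc, htop, Subgroup.comap_top]

theorem aux (n : ℕ) : ∀ (G : Type u) [Group G] [Finite G] [Group.IsSolvable G] [Nontrivial G],
    Nat.card G = n → (∀ M : Subgroup G, IsCoatom M → (Nat.card M).Coprime M.index) →
    ∃ p : ℕ, p.Prime ∧ p ∣ Nat.card G ∧ ∀ P : Sylow p G, (P : Subgroup G).Normal := by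
  induction n using Nat.strongRecOn with | ind n ih => ?_
  intro G _ _ _ _ hn h
  obtain ⟨N, hNn, hNne, hNmin⟩ := exists_minNormal G
  obtain ⟨hNc, p, hp, hpow⟩ := minNormal_elementary N inferInstance hNne hNmin
  have hpf : Fact p.Prime := ⟨hp⟩
  have hNp : IsPGroup p N := by
    rintro ⟨x, hx⟩
    refine ⟨1, ?_⟩
    apply Subtype.ext
    simpa using hpow x hx
  obtain ⟨k, hk⟩ := IsPGroup.iff_card.mp hNp
  by_cases hA : ∃ M : Subgroup G, IsCoatom M ∧ ¬ N ≤ M
  · -- the minimal normal subgroup is complemented by a maximal subgroup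
    obtain ⟨M, hM, hNM⟩ := hA
    have hsup : N ⊔ M = ⊤ := by
      apply hM.2
      exact lt_of_le_of_ne le_sup_right (fun h => hNM (h ▸ le_sup_left))
    have hinfn : (N ⊓ M).Normal := by
      rw [← Subgroup.normalizer_eq_top_iff, eq_top_iff, ← hsup]
      refine sup_le ?_ ?_
      · intro x hx
        rw [Subgroup.mem_normalizer_iff]
        intro y
        constructor
        · intro hy
          have hyN : y ∈ N := (Subgroup.mem_inf.1 hy).1
          have hcomm : x * y = y * x := by
            have := hNc.is_comm.comm (⟨x, hx⟩ : N) ⟨y, hyN⟩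
            exact congrArg Subtype.val this
          rw [hcomm, mul_inv_cancel_right]
          exact hy
        · intro hy
          have hyN : y ∈ N := by
            have h1 : x * y * x⁻¹ ∈ N := (Subgroup.mem_inf.1 hy).1
            have h2 : x⁻¹ * (x * y * x⁻¹) * x ∈ N := N.mul_mem (N.mul_mem (N.inv_mem hx) h1) hx
            simpa [mul_assoc] using h2
          have hcomm : x * y = y * x := by
            have := hNc.is_comm.comm (⟨x, hx⟩ : N) ⟨y, hyN⟩
            exact congrArg Subtype.val this
          rw [hcomm, mul_inv_cancel_right] at hy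
          exact hy
      · intro x hx
        rw [Subgroup.mem_normalizer_iff]
        intro y
        constructor
        · intro hy
          exact Subgroup.mem_inf.2 ⟨hNn.conj_mem y (Subgroup.mem_inf.1 hy).1 x,
            M.mul_mem (M.mul_mem hx (Subgroup.mem_inf.1 hy).2) (M.inv_mem hx)⟩
        · intro hy
          have h1 := (Subgroup.mem_inf.1 hy).1
          have h2 := (Subgroup.mem_inf.1 hy).2
          refine Subgroup.mem_inf.2 ⟨?_, ?_⟩
          · have := hNn.conj_mem _ h1 x⁻¹
            simpa [mul_assoc] using this
          · have := M.mul_mem (M.mul_mem (M.inv_mem hx) h2) hx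
            simpa [mul_assoc] using this
    have hinf : N ⊓ M = ⊥ := by
      rcases hNmin (N ⊓ M) hinfn inf_le_left with h1 | h1
      · exact h1
      · exact absurd (h1 ▸ inf_le_right) hNM
    have hcard := card_sup_mul_card_inf N M
    rw [hsup, hinf, Subgroup.card_bot, mul_one, Subgroup.card_top] at hcard
    have hidx : M.index = Nat.card N := by
      have h1 := M.card_mul_index
      rw [hcard, mul_comm] at h1
      exact Nat.eq_of_mul_eq_mul_right Nat.card_pos h1
    have hcop := h M hM
    rw [hidx, hk] at hcop
    have hk0 : k ≠ 0 := by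
      rintro rfl
      rw [pow_zero] at hk
      exact hNne (Subgroup.card_eq_one.mp hk)
    refine ⟨p, hp, ?_, ?_⟩
    · rw [hcard, hk]
      exact dvd_mul_of_dvd_left (dvd_pow_self p hk0) _
    · intro P
      have hNP : N ≤ (P : Subgroup G) := hNp.le_sylow_of_normal P
      obtain ⟨j, hj⟩ := IsPGroup.iff_card.mp P.isPGroup'
      have h1 : Nat.card (P : Subgroup G) ∣ Nat.card G := Subgroup.card_subgroup_dvd_card _
      rw [hcard, hk, hj] at h1
      have h2 : (p ^ j).Coprime (Nat.card M) := by
        apply Nat.Coprime.pow_left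
        have h3 : (Nat.card M).Coprime p := (Nat.coprime_pow_right_iff (Nat.pos_of_ne_zero hk0) _ _).1 hcop
        exact h3.symm
      have h4 : p ^ j ∣ p ^ k := h2.dvd_of_dvd_mul_right h1
      have h5 : Nat.card (P : Subgroup G) ≤ Nat.card N := by
        rw [hj, hk]
        exact Nat.le_of_dvd (pow_pos hp.pos k) h4
      have h6 : N = (P : Subgroup G) := Subgroup.eq_of_le_of_card_ge hNP h5
      rw [← h6]
      exact hNn
  · -- the minimal normal subgroup lies in every maximal subgroup
    push Not at hA
    have hNtop : N ≠ ⊤ := by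
      obtain ⟨M, hM⟩ := IsCoatomic.exists_coatom (Subgroup G)
      intro h
      exact hM.1 (top_le_iff.1 (h ▸ hA M hM))
    have hnt : Nontrivial (G ⧸ N) := by
      rw [← not_subsingleton_iff_nontrivial]
      intro hs
      exact hNtop (QuotientGroup.subgroup_eq_top_of_subsingleton N hs)
    have hcq := Subgroup.card_eq_card_quotient_mul_card_subgroup N
    have hlt : Nat.card (G ⧸ N) < Nat.card G := by
      have h1 : 1 < Nat.card N := by
        rw [Subgroup.one_lt_card_iff_ne_bot]
        exact hNne
      rw [hcq]
      exact lt_mul_of_one_lt_right Nat.card_pos h1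
    have hq : ∀ M' : Subgroup (G ⧸ N), IsCoatom M' → (Nat.card M').Coprime M'.index := by
      intro M' hM'
      have h1 := h _ (isCoatom_comap N M' hM')
      rw [Subgroup.index_comap_of_surjective _ (QuotientGroup.mk'_surjective N)] at h1
      have h2 : Nat.card M' ∣ Nat.card (M'.comap (QuotientGroup.mk' N)) := by
        have := Subgroup.card_map_dvd (M'.comap (QuotientGroup.mk' N)) (QuotientGroup.mk' N)
        rwa [Subgroup.map_comap_eq_self_of_surjective (QuotientGroup.mk'_surjective N)] at this
      exact Nat.Coprime.coprime_dvd_left h2 h1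
    obtain ⟨q, hqp, hqdvd, hqn⟩ := ih _ (hn ▸ hlt) (G ⧸ N) rfl hq
    have hqf : Fact q.Prime := ⟨hqp⟩
    refine ⟨q, hqp, ?_, ?_⟩
    · rw [hcq]
      exact dvd_mul_of_dvd_left hqdvd _
    · intro P
      have hPn := hqn (P.mapSurjective (QuotientGroup.mk'_surjective N))
      rw [Sylow.coe_mapSurjective] at hPn
      have hLn : (((P : Subgroup G).map (QuotientGroup.mk' N)).comap (QuotientGroup.mk' N)).Normal :=
        hPn.comap _
      have hL : ((P : Subgroup G).map (QuotientGroup.mk' N)).comap (QuotientGroup.mk' N) =
          (P : Subgroup G) ⊔ N := by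
        rw [Subgroup.comap_map_eq, QuotientGroup.ker_mk']
      rw [hL] at hLn
      have hfr := Sylow.normalizer_sup_eq_top (P.subtype (le_sup_left : (P : Subgroup G) ≤ (P : Subgroup G) ⊔ N))
      have hmap : ((P.subtype (le_sup_left : (P : Subgroup G) ≤ (P : Subgroup G) ⊔ N) :
          Sylow q ↥((P : Subgroup G) ⊔ N)) : Subgroup ↥((P : Subgroup G) ⊔ N)).map
          ((P : Subgroup G) ⊔ N).subtype = (P : Subgroup G) := by
        rw [Sylow.coe_subtype, Subgroup.subgroupOf_map_subtype]
        exact inf_of_le_left le_sup_left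
      rw [hmap] at hfr
      have hPN : Subgroup.normalizer ((P : Subgroup G) : Set G) ⊔ N = ⊤ := by
        rw [eq_top_iff, ← hfr]
        refine sup_le le_sup_left (sup_le ?_ le_sup_right)
        exact Subgroup.le_normalizer.trans le_sup_left
      rw [← Subgroup.normalizer_eq_top_iff]
      by_contra hne
      obtain ⟨M, hM, hle⟩ := (eq_top_or_exists_le_coatom _).resolve_left hne
      have : (⊤ : Subgroup G) ≤ M := by
        rw [← hPN]
        exact sup_le hle (hA M hM)
      exact hM.1 (top_le_iff.1 this)

/-- Let G be a nontrivial finite solvable group in which every maximal subgroup has order coprime to its index. Then for some prime p dividing the order of G the Sylow p-subgroups of G are normal. -/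
theorem result {G : Type*} [Group G] [Finite G] [Group.IsSolvable G] [Nontrivial G] (h : ∀ M : Subgroup G, IsCoatom M → (Nat.card M).Coprime M.index) : ∃ p : ℕ, p.Prime ∧ p ∣ Nat.card G ∧ ∀ P : Sylow p G, (P : Subgroup G).Normal := by
  exact aux _ G rfl h

end Cfsg.Agent.S0553
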