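import Cfsg.Statements.S0554
import Mathlib
import Cfsg.Agent.Lib.Helper10.PrimSolv

set_option autoImplicit false
open Cfsg

namespace Cfsg.Agent.S0554

open Cfsg.Agent.Lib.Helper10

/-- Replacing the `j`-th factor of an ordered product. -/
theorem prod_update {G : Type*} [Group G] : ∀ (t : ℕ) (s : Fin t → G) (j : Fin t),
    ∃ P T : G, ∀ x : G, (List.ofFn (Function.update s j x)).prod = P * x * T := by
  intro t
  induction t with
  | zero => intro s j; exact j.elim0
  | succ t ih =>
    intro s j
    induction j using Fin.cases with
    | zero =>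
      refine ⟨1, (List.ofFn (fun i : Fin t => s i.succ)).prod, fun x => ?_⟩
      rw [List.ofFn_succ, List.prod_cons, one_mul]
      have e : (fun i : Fin t => Function.update s 0 x i.succ) = fun i => s i.succ := by
        funext i
        exact Function.update_of_ne (Fin.succ_ne_zero i) _ _
      rw [Function.update_self, e]
    | succ j' =>
      obtain ⟨P, T, h⟩ := ih (fun i => s i.succ) j'
      refine ⟨s 0 * P, T, fun x => ?_⟩
      rw [List.ofFn_succ, List.prod_cons]
      have e : (fun i : Fin t => Function.update s j'.succ x i.succ) =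
          Function.update (fun i => s i.succ) j' x := by
        funext i
        by_cases hi : i = j'
        · subst hi
          rw [Function.update_self, Function.update_self]
        · rw [Function.update_of_ne hi,
            Function.update_of_ne (fun h => hi (Fin.succ_injective _ h))]
      rw [e, h x, Function.update_of_ne (Fin.succ_ne_zero j').symm]
      group

theorem sylow_prod.{u} (k : ℕ) : ∀ (G : Type u) [Group G] [Finite G] [Group.IsSolvable G],
    Nat.card G ≤ k → ∀ (t : ℕ) (p : Fin t → ℕ) (_ : ∀ i, (p i).Prime)
    (_ : ∀ q : ℕ, q.Prime → q ∣ Nat.card G → ∃ i, p i = q) (S : (i : Fin t) → Sylow (p i) G)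
    (g : G), ∃ s : (i : Fin t) → G, (∀ i, s i ∈ (S i : Subgroup G)) ∧ g = (List.ofFn s).prod := by
  induction k with
  | zero =>
    intro G _ _ _ hk
    have := Nat.card_pos (α := G)
    omega
  | succ k ih =>
    intro G _ _ _ hk t p hp hall S g
    rcases subsingleton_or_nontrivial G with hs | hn
    · refine ⟨fun _ => 1, fun i => Subgroup.one_mem _, ?_⟩
      rw [Subsingleton.elim g 1]
      symm
      apply List.prod_eq_one
      intro x hx
      rw [List.mem_ofFn] at hx
      obtain ⟨i, rfl⟩ := hx
      rfl
    · obtain ⟨N, ⟨hNn, hNb⟩, hNmin⟩ := exists_minimal_of_wellFoundedLT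
        (fun K : Subgroup G => K.Normal ∧ K ≠ ⊥) ⟨⊤, inferInstance, top_ne_bot⟩
      have hNn' := hNn
      have hmin : ∀ K : Subgroup G, K.Normal → K ≤ N → K = ⊥ ∨ K = N := by
        intro K hKn hKN
        by_cases hK : K = ⊥
        · exact Or.inl hK
        · exact Or.inr (le_antisymm hKN (hNmin ⟨hKn, hK⟩ hKN))
      obtain ⟨q, d, hq, hd, hcard⟩ := exists_prime_pow_card_of_minimal_normal N hNb hmin
      have hqdvd : q ∣ Nat.card G :=
        (dvd_pow_self q hd.ne').trans (hcard ▸ Subgroup.card_subgroup_dvd_card N)
      obtain ⟨j, rfl⟩ := hall q hq hqdvd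
      have hNp : IsPGroup (p j) N := IsPGroup.of_card hcard
      have hNS : N ≤ (S j : Subgroup G) := hNp.le_sylow_of_normal (S j)
      have hsurj := QuotientGroup.mk'_surjective N
      have hlt : Nat.card (G ⧸ N) ≤ k := by
        have h1 := Subgroup.card_eq_card_quotient_mul_card_subgroup N
        have h2 : 2 ≤ Nat.card N := by
          have h3 : Nat.card N ≠ 1 := fun h => hNb (Subgroup.card_eq_one.1 h)
          have h4 := Nat.card_pos (α := N)
          omega
        have h5 := Nat.card_pos (α := G ⧸ N)
        nlinarith
      have hFact : ∀ i, Fact (p i).Prime := fun i => ⟨hp i⟩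
      have hall' : ∀ q : ℕ, q.Prime → q ∣ Nat.card (G ⧸ N) → ∃ i, p i = q :=
        fun q hq hd => hall q hq (hd.trans (Subgroup.card_quotient_dvd_card N))
      obtain ⟨sb, hsb, hprod⟩ := ih (G ⧸ N) hlt t p hp hall'
        (fun i => (S i).mapSurjective hsurj) (QuotientGroup.mk' N g)
      have hlift : ∀ i, ∃ x ∈ (S i : Subgroup G), QuotientGroup.mk' N x = sb i := by
        intro i
        have h := hsb i
        rw [Sylow.coe_mapSurjective] at h
        exact h
      choose s' hs' hs'π using hlift
      have hπ : QuotientGroup.mk' N g = QuotientGroup.mk' N (List.ofFn s').prod := by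
        rw [hprod, map_list_prod, List.map_ofFn]
        have e : sb = (QuotientGroup.mk' N) ∘ s' := by
          funext i
          exact (hs'π i).symm
        rw [e]
      have hn : (List.ofFn s').prod⁻¹ * g ∈ N := QuotientGroup.eq.1 hπ.symm
      obtain ⟨P, T, hPT⟩ := prod_update t s' j
      have h0 := hPT (s' j)
      rw [Function.update_eq_self] at h0
      refine ⟨Function.update s' j (s' j * (T * ((List.ofFn s').prod⁻¹ * g) * T⁻¹)), ?_, ?_⟩
      · intro i
        by_cases hi : i = j
        · subst hi
          rw [Function.update_self]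
          exact Subgroup.mul_mem _ (hs' i) (hNS (hNn.conj_mem _ hn T))
        · rw [Function.update_of_ne hi]
          exact hs' i
      · rw [hPT, h0]
        group

/-- Let G be a finite solvable group and let S assign to each of t distinct primes, including every prime divisor of the order of G, a Sylow subgroup of G. Then every element of G is a product s_0 s_1 ⋯ s_(t-1) with s_i in S i, the factors taken in the given order. -/
theorem result {G : Type*} [Group G] [Finite G] [Group.IsSolvable G] (t : ℕ) (p : Fin t → ℕ) (hp : ∀ i, (p i).Prime) (hinj : Function.Injective p) (hall : ∀ q : ℕ, q.Prime → q ∣ Nat.card G → ∃ i, p i = q) (S : (i : Fin t) → Sylow (p i) G) : ∀ g : G, ∃ s : (i : Fin t) → G, (∀ i, s i ∈ (S i : Subgroup G)) ∧ g = (List.ofFn s).prod := by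
  exact sylow_prod (Nat.card G) G le_rfl t p hp hall S

end Cfsg.Agent.S0554
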