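import Cfsg.Statements.S0555
import Mathlib

set_option autoImplicit false
open Cfsg

namespace Cfsg.Agent.S0555

open scoped commutatorElement

/-- A generator of a cyclic quotient `A / B`. -/
theorem cyc_aux {G : Type*} [Group G] (A B : Subgroup G) [hn : (B.subgroupOf A).Normal]
    (h : IsCyclic (↥A ⧸ B.subgroupOf A)) :
    ∃ a₀ ∈ A, ∀ a ∈ A, ∃ k : ℤ, (a₀ ^ k)⁻¹ * a ∈ B := by
  obtain ⟨q, hq⟩ := h.exists_generator
  induction q using QuotientGroup.induction_on with
  | H a₀ =>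
    refine ⟨a₀, a₀.2, fun a ha => ?_⟩
    obtain ⟨k, hk⟩ := Subgroup.mem_zpowers_iff.1 (hq (QuotientGroup.mk ⟨a, ha⟩))
    refine ⟨k, ?_⟩
    rw [← QuotientGroup.mk_zpow] at hk
    have h1 := QuotientGroup.eq.1 hk
    rw [Subgroup.mem_subgroupOf] at h1
    simpa using h1

/-- If all conjugates of `β` are powers of `β`, commutators centralize `β`. -/
theorem conj_comm_aux {Q : Type*} [Group Q] (β : Q)
    (hn : ∀ g : Q, g * β * g⁻¹ ∈ Subgroup.zpowers β) (g h : Q) : ⁅g, h⁆ * β = β * ⁅g, h⁆ := by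
  have key : ∀ g h : Q, (g * h) * β * (g * h)⁻¹ = (h * g) * β * (h * g)⁻¹ := by
    intro g h
    obtain ⟨k, hk⟩ := Subgroup.mem_zpowers_iff.1 (hn g)
    obtain ⟨l, hl⟩ := Subgroup.mem_zpowers_iff.1 (hn h)
    have e1 : (g * h) * β * (g * h)⁻¹ = g * (h * β * h⁻¹) * g⁻¹ := by group
    have e2 : (h * g) * β * (h * g)⁻¹ = h * (g * β * g⁻¹) * h⁻¹ := by group
    rw [e1, e2, ← hk, ← hl, ← conj_zpow, ← conj_zpow, ← hk, ← hl, ← zpow_mul, ← zpow_mul,
      mul_comm]
  have h1 := key g⁻¹ h⁻¹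
  rw [commutatorElement_def]
  calc g * h * g⁻¹ * h⁻¹ * β
      = (h⁻¹ * g⁻¹)⁻¹ * ((g⁻¹ * h⁻¹) * β * (g⁻¹ * h⁻¹)⁻¹) * (g⁻¹ * h⁻¹) := by group
    _ = (h⁻¹ * g⁻¹)⁻¹ * ((h⁻¹ * g⁻¹) * β * (h⁻¹ * g⁻¹)⁻¹) * (g⁻¹ * h⁻¹) := by rw [h1]
    _ = β * (g * h * g⁻¹ * h⁻¹) := by group

/-- Let i ≥ 1. If in the derived series of a group the quotient of the i-th term by the (i+1)-st and the quotient of the (i+1)-st by the (i+2)-nd are both cyclic, then the (i+1)-st and (i+2)-nd terms coincide. -/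
theorem result {G : Type*} [Group G] (i : ℕ) (hi : 1 ≤ i) (h₁ : IsCyclic (↥(derivedSeries G i) ⧸ (derivedSeries G (i + 1)).subgroupOf (derivedSeries G i))) (h₂ : IsCyclic (↥(derivedSeries G (i + 1)) ⧸ (derivedSeries G (i + 2)).subgroupOf (derivedSeries G (i + 1)))) : derivedSeries G (i + 1) = derivedSeries G (i + 2) := by
  have hanti : derivedSeries G (i + 2) ≤ derivedSeries G (i + 1) :=
    derivedSeries_antitone G (by omega)
  refine le_antisymm ?_ hanti
  obtain ⟨a₀, ha₀, hA⟩ := cyc_aux (derivedSeries G i) (derivedSeries G (i + 1)) h₁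
  obtain ⟨b₀, hb₀, hB⟩ := cyc_aux (derivedSeries G (i + 1)) (derivedSeries G (i + 2)) h₂
  have hNn : (derivedSeries G (i + 2)).Normal := derivedSeries_normal G (i + 2)
  have hπ : ∀ x y : G, x⁻¹ * y ∈ derivedSeries G (i + 2) →
      QuotientGroup.mk' (derivedSeries G (i + 2)) x =
        QuotientGroup.mk' (derivedSeries G (i + 2)) y := fun x y h => QuotientGroup.eq.2 h
  have hβ : ∀ q : G ⧸ derivedSeries G (i + 2),
      q * QuotientGroup.mk' (derivedSeries G (i + 2)) b₀ * q⁻¹ ∈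
        Subgroup.zpowers (QuotientGroup.mk' (derivedSeries G (i + 2)) b₀) := by
    intro q
    obtain ⟨g, rfl⟩ := QuotientGroup.mk'_surjective (derivedSeries G (i + 2)) q
    have hmem : g * b₀ * g⁻¹ ∈ derivedSeries G (i + 1) :=
      (derivedSeries_normal G (i + 1)).conj_mem b₀ hb₀ g
    obtain ⟨k, hk⟩ := hB _ hmem
    rw [Subgroup.mem_zpowers_iff]
    refine ⟨k, ?_⟩
    have h1 := hπ _ _ hk
    rw [map_zpow, map_mul, map_mul, map_inv] at h1
    exact h1
  have hAc : ∀ a ∈ derivedSeries G i,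
      QuotientGroup.mk' (derivedSeries G (i + 2)) a *
        QuotientGroup.mk' (derivedSeries G (i + 2)) b₀ =
      QuotientGroup.mk' (derivedSeries G (i + 2)) b₀ *
        QuotientGroup.mk' (derivedSeries G (i + 2)) a := by
    intro a ha
    have h1 : a ∈ _root_.commutator G := by
      have := derivedSeries_antitone G hi ha
      rwa [derivedSeries_one] at this
    have hle : _root_.commutator G ≤
        (Subgroup.centralizer {QuotientGroup.mk' (derivedSeries G (i + 2)) b₀}).comap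
          (QuotientGroup.mk' (derivedSeries G (i + 2))) := by
      rw [commutator_def, Subgroup.commutator_le]
      intro g _ h _
      rw [Subgroup.mem_comap, Subgroup.mem_centralizer_iff]
      intro x hx
      rw [Set.mem_singleton_iff] at hx
      subst hx
      rw [map_commutatorElement]
      exact (conj_comm_aux _ hβ _ _).symm
    have h2 := hle h1
    rw [Subgroup.mem_comap, Subgroup.mem_centralizer_iff] at h2
    exact (h2 _ rfl).symm
  rw [derivedSeries_succ, Subgroup.commutator_le]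
  intro x hx y hy
  obtain ⟨k, hk⟩ := hA x hx
  obtain ⟨l, hl⟩ := hA y hy
  obtain ⟨m, hm⟩ := hB _ hk
  obtain ⟨n, hn⟩ := hB _ hl
  have ex : QuotientGroup.mk' (derivedSeries G (i + 2)) x =
      QuotientGroup.mk' (derivedSeries G (i + 2)) a₀ ^ k *
        QuotientGroup.mk' (derivedSeries G (i + 2)) b₀ ^ m := by
    have h1 := hπ _ _ hm
    rw [map_zpow, map_mul, map_inv, map_zpow] at h1
    rw [h1]; group
  have ey : QuotientGroup.mk' (derivedSeries G (i + 2)) y =
      QuotientGroup.mk' (derivedSeries G (i + 2)) a₀ ^ l *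
        QuotientGroup.mk' (derivedSeries G (i + 2)) b₀ ^ n := by
    have h1 := hπ _ _ hn
    rw [map_zpow, map_mul, map_inv, map_zpow] at h1
    rw [h1]; group
  have hc : Commute (QuotientGroup.mk' (derivedSeries G (i + 2)) a₀)
      (QuotientGroup.mk' (derivedSeries G (i + 2)) b₀) := hAc a₀ ha₀
  have c1 := (Commute.refl (QuotientGroup.mk' (derivedSeries G (i + 2)) a₀)).zpow_zpow k l
  have c2 := hc.zpow_zpow k n
  have c3 := hc.symm.zpow_zpow m l
  have c4 := (Commute.refl (QuotientGroup.mk' (derivedSeries G (i + 2)) b₀)).zpow_zpow m n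
  have hcomm : Commute (QuotientGroup.mk' (derivedSeries G (i + 2)) x)
      (QuotientGroup.mk' (derivedSeries G (i + 2)) y) := by
    rw [ex, ey]
    exact (c1.mul_right c2).mul_left (c3.mul_right c4)
  have h3 : QuotientGroup.mk' (derivedSeries G (i + 2)) ⁅x, y⁆ = 1 := by
    rw [map_commutatorElement, commutatorElement_eq_one_iff_commute]
    exact hcomm
  exact (QuotientGroup.eq_one_iff _).1 h3

end Cfsg.Agent.S0555
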