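import Cfsg.Statements.S0557
import Mathlib
import Cfsg.Agent.Lib.Helper10.Card
import Cfsg.Agent.Lib.Helper10.Thompson

set_option autoImplicit false
open Cfsg

namespace Cfsg.Agent.S0557

open scoped commutatorElement
open Cfsg.Agent.Lib.Helper10

theorem focal_mono {G : Type*} [Group G] {L L' : Subgroup G} (h : L ≤ L') :
    L.focalSubgroup ≤ L'.focalSubgroup := by
  rw [Subgroup.focalSubgroup_def, Subgroup.focalSubgroup_def]
  apply Subgroup.closure_mono
  rintro g ⟨hg, x, hx, u, rfl⟩
  exact ⟨h hg, x, h hx, u, rfl⟩

theorem map_focal_le {G : Type*} [Group G] (K : Subgroup G) (L : Subgroup K) :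
    L.focalSubgroup.map K.subtype ≤ (L.map K.subtype).focalSubgroup := by
  rw [Subgroup.focalSubgroup_def, Subgroup.focalSubgroup_def, MonoidHom.map_closure]
  apply Subgroup.closure_mono
  rintro _ ⟨g, ⟨hg, x, hx, u, rfl⟩, rfl⟩
  refine ⟨⟨_, hg, rfl⟩, x, ⟨x, hx, rfl⟩, u, ?_⟩
  rw [map_commutatorElement]
  rfl

theorem map_iterate_focal_le {G : Type*} [Group G] (K : Subgroup G) (L : Subgroup K) (n : ℕ) :
    ((fun M : Subgroup K => M.focalSubgroup)^[n] L).map K.subtype ≤
      (fun M : Subgroup G => M.focalSubgroup)^[n] (L.map K.subtype) := by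
  induction n with
  | zero => exact le_rfl
  | succ n ih =>
    rw [Function.iterate_succ_apply', Function.iterate_succ_apply']
    exact (map_focal_le K _).trans (focal_mono ih)

/-- Transfer into `H / H*` for a Hall subgroup `H`: the kernel meets `H` in the focal subgroup and
supplements `H`. -/
theorem hall_transfer {G : Type*} [Group G] [Finite G] (H : Subgroup G)
    (hHall : (Nat.card H).Coprime H.index) :
    H.transferFocal.ker ⊓ H = H.focalSubgroup ∧ H ⊔ H.transferFocal.ker = ⊤ := by
  have hcop : (Nat.card (H ⧸ H.focalSubgroupOf)).Coprime H.index :=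
    Nat.Coprime.coprime_dvd_left (Subgroup.card_quotient_dvd_card _) hHall
  have hinj : Function.Injective (fun y : H ⧸ H.focalSubgroupOf => y ^ H.index) :=
    (powCoprime hcop).injective
  have hsurj : Function.Surjective (fun y : H ⧸ H.focalSubgroupOf => y ^ H.index) :=
    (powCoprime hcop).surjective
  constructor
  · ext g
    constructor
    · rintro ⟨hgK, hgH⟩
      have h1 : H.transferFocal ((⟨g, hgH⟩ : H) : G) = 1 := hgK
      rw [Subgroup.transferFocal_eq_pow] at h1
      have h2 : (QuotientGroup.mk ⟨g, hgH⟩ : H ⧸ H.focalSubgroupOf) = 1 := by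
        apply hinj
        show (QuotientGroup.mk ⟨g, hgH⟩ : H ⧸ H.focalSubgroupOf) ^ H.index = 1 ^ H.index
        rw [h1, one_pow]
      rw [QuotientGroup.eq_one_iff, Subgroup.focalSubgroupOf_def, Subgroup.mem_subgroupOf] at h2
      exact h2
    · intro hg
      have hgH := H.focalSubgroup_le hg
      refine ⟨?_, hgH⟩
      show H.transferFocal ((⟨g, hgH⟩ : H) : G) = 1
      rw [Subgroup.transferFocal_eq_pow]
      have h2 : (QuotientGroup.mk ⟨g, hgH⟩ : H ⧸ H.focalSubgroupOf) = 1 := by
        rw [QuotientGroup.eq_one_iff, Subgroup.focalSubgroupOf_def, Subgroup.mem_subgroupOf]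
        exact hg
      rw [h2, one_pow]
  · rw [eq_top_iff]
    intro g _
    obtain ⟨y, hy⟩ := hsurj (H.transferFocal g)
    obtain ⟨x, rfl⟩ := QuotientGroup.mk_surjective y
    have h1 : H.transferFocal (x : G) = H.transferFocal g := by
      rw [Subgroup.transferFocal_eq_pow]; exact hy
    have h2 : (x : G)⁻¹ * g ∈ H.transferFocal.ker := by
      rw [MonoidHom.mem_ker, map_mul, map_inv, h1, inv_mul_cancel]
    have e : g = (x : G) * ((x : G)⁻¹ * g) := by group
    rw [e]
    exact Subgroup.mul_mem _ (Subgroup.mem_sup_left x.2) (Subgroup.mem_sup_right h2)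

theorem focal_complement.{u} (n : ℕ) : ∀ (G : Type u) [Group G] [Finite G] (H : Subgroup G),
    (Nat.card H).Coprime H.index → (fun K : Subgroup G => K.focalSubgroup)^[n] H = ⊥ →
    ∃ N : Subgroup G, N.Normal ∧ Subgroup.IsComplement' N H := by
  induction n with
  | zero =>
    intro G _ _ H _ hfoc
    rw [Function.iterate_zero, id] at hfoc
    subst hfoc
    exact ⟨⊤, inferInstance, Subgroup.isComplement'_top_bot⟩
  | succ n ih =>
    intro G _ _ H hHall hfoc
    rw [Function.iterate_succ_apply] at hfoc
    obtain ⟨hT1, hT2⟩ := hall_transfer H hHall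
    have hKn : (H.transferFocal.ker).Normal := MonoidHom.normal_ker _
    have hcard : Nat.card G * Nat.card H.focalSubgroup =
        Nat.card H * Nat.card H.transferFocal.ker := by
      have h := card_sup_mul_card_inf_of_normal H H.transferFocal.ker
      rw [hT2, inf_comm, hT1, Subgroup.card_top] at h
      exact h
    have hle : H.focalSubgroup ≤ H.transferFocal.ker := by
      rw [← hT1]; exact inf_le_left
    have hLmap : (H.focalSubgroup.subgroupOf H.transferFocal.ker).map
        (H.transferFocal.ker).subtype = H.focalSubgroup := Subgroup.map_subgroupOf_eq_of_le hle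
    have hLcard : Nat.card (H.focalSubgroup.subgroupOf H.transferFocal.ker) =
        Nat.card H.focalSubgroup := card_subgroupOf_of_le hle
    have hpos : 0 < Nat.card H.focalSubgroup := Nat.card_pos
    have hLidx : (H.focalSubgroup.subgroupOf H.transferFocal.ker).index = H.index := by
      have h1 := Subgroup.index_mul_card (H.focalSubgroup.subgroupOf H.transferFocal.ker)
      rw [hLcard] at h1
      have h2 := Subgroup.index_mul_card H
      have h3 : (H.focalSubgroup.subgroupOf H.transferFocal.ker).index * Nat.card H *
          Nat.card H.focalSubgroup = H.index * Nat.card H * Nat.card H.focalSubgroup := by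
        calc (H.focalSubgroup.subgroupOf H.transferFocal.ker).index * Nat.card H *
              Nat.card H.focalSubgroup
            = Nat.card H * ((H.focalSubgroup.subgroupOf H.transferFocal.ker).index *
                Nat.card H.focalSubgroup) := by ring
          _ = Nat.card H * Nat.card H.transferFocal.ker := by rw [h1]
          _ = Nat.card G * Nat.card H.focalSubgroup := hcard.symm
          _ = H.index * Nat.card H * Nat.card H.focalSubgroup := by rw [h2]
      have h4 := Nat.eq_of_mul_eq_mul_right hpos h3
      exact Nat.eq_of_mul_eq_mul_right Nat.card_pos h4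
    have hLcop : (Nat.card (H.focalSubgroup.subgroupOf H.transferFocal.ker)).Coprime
        (H.focalSubgroup.subgroupOf H.transferFocal.ker).index := by
      rw [hLidx, hLcard]
      exact Nat.Coprime.coprime_dvd_left (Subgroup.card_dvd_of_le H.focalSubgroup_le) hHall
    have hLfoc : (fun M : Subgroup H.transferFocal.ker => M.focalSubgroup)^[n]
        (H.focalSubgroup.subgroupOf H.transferFocal.ker) = ⊥ := by
      have h := map_iterate_focal_le H.transferFocal.ker
        (H.focalSubgroup.subgroupOf H.transferFocal.ker) n
      rw [hLmap, hfoc, le_bot_iff] at h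
      exact (Subgroup.map_eq_bot_iff_of_injective _ (Subgroup.subtype_injective _)).1 h
    obtain ⟨N', hN'n, hN'c⟩ := ih H.transferFocal.ker _ hLcop hLfoc
    have hm : Nat.card N' * Nat.card H.focalSubgroup = Nat.card H.transferFocal.ker := by
      rw [← hLcard]; exact hN'c.card_mul_card
    have hmH : Nat.card N' * Nat.card H = Nat.card G := by
      have h3 : Nat.card N' * Nat.card H * Nat.card H.focalSubgroup =
          Nat.card G * Nat.card H.focalSubgroup := by
        calc Nat.card N' * Nat.card H * Nat.card H.focalSubgroup
            = Nat.card H * (Nat.card N' * Nat.card H.focalSubgroup) := by ring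
          _ = Nat.card H * Nat.card H.transferFocal.ker := by rw [hm]
          _ = Nat.card G * Nat.card H.focalSubgroup := hcard.symm
      exact Nat.eq_of_mul_eq_mul_right hpos h3
    have hmidx : Nat.card N' = H.index := by
      have h2 := Subgroup.index_mul_card H
      rw [← hmH] at h2
      exact (Nat.eq_of_mul_eq_mul_right Nat.card_pos h2).symm
    have hNidx : N'.index = Nat.card H.focalSubgroup := by
      have h1 := Subgroup.card_mul_index N'
      rw [← hm] at h1
      exact Nat.eq_of_mul_eq_mul_left Nat.card_pos h1
    have hchar : ∀ x : H.transferFocal.ker, x ^ Nat.card N' = 1 → x ∈ N' := by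
      intro x hx
      have h1 : (QuotientGroup.mk x : H.transferFocal.ker ⧸ N') ^ Nat.card N' = 1 := by
        rw [← QuotientGroup.mk_pow, hx]; rfl
      have h2 : (QuotientGroup.mk x : H.transferFocal.ker ⧸ N') ^
          Nat.card (H.transferFocal.ker ⧸ N') = 1 := pow_card_eq_one'
      have hcop' : (Nat.card N').Coprime (Nat.card (H.transferFocal.ker ⧸ N')) := by
        rw [← Subgroup.index_eq_card, hNidx, hmidx]
        exact (Nat.Coprime.coprime_dvd_left
          (Subgroup.card_dvd_of_le H.focalSubgroup_le) hHall).symm
      have h3 := pow_gcd_eq_one.2 ⟨h1, h2⟩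
      rw [Nat.Coprime.gcd_eq_one hcop', pow_one] at h3
      exact (QuotientGroup.eq_one_iff x).1 h3
    have hNn : (N'.map (H.transferFocal.ker).subtype).Normal := by
      constructor
      rintro _ ⟨x, hx, rfl⟩ g
      have hk : g * (x : G) * g⁻¹ ∈ H.transferFocal.ker := hKn.conj_mem _ x.2 g
      refine ⟨⟨_, hk⟩, hchar _ ?_, rfl⟩
      apply Subtype.ext
      have hxm : x ^ Nat.card N' = 1 := by
        have h := pow_card_eq_one' (G := N') (x := ⟨x, hx⟩)
        exact congrArg Subtype.val h
      have hxm' : (x : G) ^ Nat.card N' = 1 := by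
        have := congrArg Subtype.val hxm
        simpa using this
      show (g * (x : G) * g⁻¹) ^ Nat.card N' = 1
      rw [conj_pow, hxm']; group
    refine ⟨_, hNn, ?_⟩
    have hNcard : Nat.card (N'.map (H.transferFocal.ker).subtype) = Nat.card N' :=
      Subgroup.card_map_of_injective (Subgroup.subtype_injective _)
    apply Subgroup.isComplement'_of_coprime
    · rw [hNcard]; exact hmH
    · rw [hNcard, hmidx]; exact hHall.symm

/-- Let H be a subgroup of a finite group G with order coprime to its index. If iterating the focal-subgroup construction starting from H reaches the trivial subgroup after finitely many steps, then H has a normal complement in G. -/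
theorem result {G : Type*} [Group G] [Finite G] (H : Subgroup G) (hHall : (Nat.card H).Coprime H.index) (n : ℕ) (hfoc : (fun K : Subgroup G => Subgroup.focalSubgroup K)^[n] H = ⊥) : ∃ N : Subgroup G, N.Normal ∧ Subgroup.IsComplement' N H := by
  exact focal_complement n G H hHall hfoc

end Cfsg.Agent.S0557
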