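import Cfsg.Statements.S0560
import Mathlib
import Cfsg.Agent.Lib.Helper10.Card

set_option autoImplicit false
open Pointwise
open Cfsg

namespace Cfsg.Agent.S0560

open Cfsg.Agent.Lib.Helper10
open scoped Pointwise

/-- A `p`-subgroup `X ≤ H` has order `p ^ c` with `c` at most the `p`-adic valuation of `|H|`. -/
theorem card_pSubgroup_le {G : Type*} [Group G] [Finite G] {p : ℕ} [hp : Fact p.Prime]
    {X H : Subgroup G} (hX : IsPGroup p X) (hXH : X ≤ H) :
    ∃ c : ℕ, c ≤ (Nat.card H).factorization p ∧ Nat.card X = p ^ c := by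
  obtain ⟨c, hc⟩ := IsPGroup.iff_card.1 hX
  refine ⟨c, ?_, hc⟩
  have hdvd : p ^ c ∣ Nat.card H := hc ▸ Subgroup.card_dvd_of_le hXH
  exact (hp.out.pow_dvd_iff_le_factorization Nat.card_pos.ne').1 hdvd

/-- Some Sylow `p`-subgroup of `G` meets `H` in a Sylow `p`-subgroup of `H`. -/
theorem exists_good {G : Type*} [Group G] [Finite G] (p : ℕ) [Fact p.Prime] (H : Subgroup G) :
    ∃ R : Sylow p G, Nat.card ↥((R : Subgroup G) ⊓ H) = p ^ (Nat.card H).factorization p := by
  obtain ⟨P₀⟩ : Nonempty (Sylow p H) := inferInstance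
  obtain ⟨R, hR⟩ := (P₀.2.map H.subtype).exists_le_sylow
  refine ⟨R, ?_⟩
  obtain ⟨c, hc, hcard⟩ := card_pSubgroup_le (p := p) (X := (R : Subgroup G) ⊓ H) (H := H)
    (R.2.to_le inf_le_left) inf_le_right
  have h1 : Nat.card ((P₀ : Subgroup H).map H.subtype) = p ^ (Nat.card H).factorization p := by
    rw [Subgroup.card_map_of_injective H.subtype_injective]
    exact P₀.card_eq_multiplicity
  have h2 : (P₀ : Subgroup H).map H.subtype ≤ (R : Subgroup G) ⊓ H :=
    le_inf hR (Subgroup.map_subtype_le _)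
  have h3 := Subgroup.card_le_of_le h2
  rw [h1, hcard] at h3
  have h4 : (Nat.card H).factorization p ≤ c :=
    (Nat.pow_le_pow_iff_right (Fact.out : p.Prime).one_lt).1 h3
  rw [hcard, le_antisymm hc h4]

/-- Conjugating by an element of `H` preserves goodness. -/
theorem good_smul {G : Type*} [Group G] [Finite G] {p : ℕ} [Fact p.Prime] (H : Subgroup G)
    (R : Sylow p G) {h : G} (hh : h ∈ H) :
    Nat.card ↥(((h • R : Sylow p G) : Subgroup G) ⊓ H) = Nat.card ↥((R : Subgroup G) ⊓ H) := by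
  have e : ((h • R : Sylow p G) : Subgroup G) ⊓ H = MulAut.conj h • ((R : Subgroup G) ⊓ H) := by
    rw [Subgroup.smul_inf, Subgroup.conj_smul_eq_self_of_mem hh, Sylow.coe_subgroup_smul]
  rw [e]
  exact (Nat.card_congr (Subgroup.equivSMul (MulAut.conj h) ((R : Subgroup G) ⊓ H)).toEquiv).symm

/-- Let the finite group G be the product HK of two subgroups and p a prime. Then there are Sylow p-subgroups P of H and Q of K and a Sylow p-subgroup R of G whose underlying set is the product set of P and Q. -/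
theorem result {G : Type*} [Group G] [Finite G] (H K : Subgroup G) (hHK : ∀ g : G, ∃ h ∈ H, ∃ k ∈ K, g = h * k) (p : ℕ) [Fact p.Prime] : ∃ (P : Sylow p H) (Q : Sylow p K) (R : Sylow p G), ((R : Subgroup G) : Set G) = (((P : Subgroup H).map H.subtype : Subgroup G) : Set G) * (((Q : Subgroup K).map K.subtype : Subgroup G) : Set G) := by
  classical
  obtain ⟨RH, hRH⟩ := exists_good p H
  obtain ⟨RK, hRK⟩ := exists_good p K
  obtain ⟨g, hg⟩ := MulAction.exists_smul_eq G RH RK
  obtain ⟨h', hh', k', hk', hgi⟩ := hHK g⁻¹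
  have hg' : k' * g = h'⁻¹ := by
    have : g = k'⁻¹ * h'⁻¹ := by
      rw [← mul_inv_rev, ← hgi, inv_inv]
    rw [this]; group
  have hR1 : h'⁻¹ • RH = k' • RK := by
    rw [← hg, ← mul_smul, hg']
  have gH : Nat.card ↥(((h'⁻¹ • RH : Sylow p G) : Subgroup G) ⊓ H) =
      p ^ (Nat.card H).factorization p := by
    rw [good_smul H RH (H.inv_mem hh'), hRH]
  have gK : Nat.card ↥(((h'⁻¹ • RH : Sylow p G) : Subgroup G) ⊓ K) =
      p ^ (Nat.card K).factorization p := by
    rw [hR1, good_smul K RK hk', hRK]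
  obtain ⟨R, hR⟩ : ∃ R : Sylow p G, R = h'⁻¹ • RH := ⟨_, rfl⟩
  rw [← hR] at gH gK
  have cH : Nat.card ↥((R : Subgroup G).subgroupOf H) = p ^ (Nat.card H).factorization p := by
    rw [← gH, ← Subgroup.subgroupOf_map_subtype, Subgroup.card_map_of_injective H.subtype_injective]
  have cK : Nat.card ↥((R : Subgroup G).subgroupOf K) = p ^ (Nat.card K).factorization p := by
    rw [← gK, ← Subgroup.subgroupOf_map_subtype, Subgroup.card_map_of_injective K.subtype_injective]
  refine ⟨Sylow.ofCard _ cH, Sylow.ofCard _ cK, R, ?_⟩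
  rw [Sylow.coe_ofCard, Sylow.coe_ofCard, Subgroup.subgroupOf_map_subtype,
    Subgroup.subgroupOf_map_subtype]
  symm
  have hsub : ((((R : Subgroup G) ⊓ H : Subgroup G) : Set G) *
      (((R : Subgroup G) ⊓ K : Subgroup G) : Set G)) ⊆ ((R : Subgroup G) : Set G) := by
    rintro _ ⟨x, hx, y, hy, rfl⟩
    exact (R : Subgroup G).mul_mem hx.1 hy.1
  apply Set.eq_of_subset_of_ncard_le hsub
  rw [← Nat.card_coe_set_eq, ← Nat.card_coe_set_eq]
  -- counting
  have e1 := card_mul_card_inf ((R : Subgroup G) ⊓ H) ((R : Subgroup G) ⊓ K)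
  rw [gH, gK] at e1
  obtain ⟨c, hc, hcard⟩ := card_pSubgroup_le (p := p)
    (X := ((R : Subgroup G) ⊓ H) ⊓ ((R : Subgroup G) ⊓ K)) (H := H ⊓ K)
    (R.2.to_le (inf_le_left.trans inf_le_left)) (inf_le_inf inf_le_right inf_le_right)
  rw [hcard] at e1
  have e2 := card_mul_card_inf H K
  have huniv : ((H : Set G) * (K : Set G)) = Set.univ := by
    rw [Set.eq_univ_iff_forall]
    intro x
    obtain ⟨h, hh, k, hk, rfl⟩ := hHK x
    exact Set.mul_mem_mul hh hk
  rw [huniv, Nat.card_congr (Equiv.Set.univ G)] at e2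
  have e3 : (Nat.card G).factorization p + (Nat.card ↥(H ⊓ K)).factorization p =
      (Nat.card H).factorization p + (Nat.card K).factorization p := by
    have h1 : (Nat.card G * Nat.card ↥(H ⊓ K)).factorization p =
        (Nat.card H * Nat.card K).factorization p := by rw [e2]
    rw [Nat.factorization_mul Nat.card_pos.ne' Nat.card_pos.ne',
      Nat.factorization_mul Nat.card_pos.ne' Nat.card_pos.ne'] at h1
    simpa using h1
  have e4 : Nat.card ↥(R : Subgroup G) = p ^ (Nat.card G).factorization p := R.card_eq_multiplicity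
  have hp1 : 0 < p ^ c := pow_pos (Fact.out : p.Prime).pos c
  have e5 : Nat.card ↥(R : Subgroup G) * p ^ c ≤
      Nat.card ↥((((R : Subgroup G) ⊓ H : Subgroup G) : Set G) *
        (((R : Subgroup G) ⊓ K : Subgroup G) : Set G)) * p ^ c := by
    rw [e1, e4, ← pow_add, ← pow_add, ← e3]
    exact Nat.pow_le_pow_right (Fact.out : p.Prime).pos (Nat.add_le_add_left hc _)
  exact Nat.le_of_mul_le_mul_right e5 hp1

end Cfsg.Agent.S0560
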