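import Cfsg.Statements.S0567
import Cfsg.Agent.Lib.Helper9.Subnormal2
import Cfsg.Agent.Lib.Helper1.Basic

set_option autoImplicit false
open Cfsg

namespace Cfsg.Agent.S0567

open Subgroup Pointwise
open scoped commutatorElement

theorem forward_aux {G : Type*} [Group G] (H : Subgroup G) :
    ∀ {L : Subgroup G}, L.IsSubnormal → H ≤ L →
      ∃ m : ℕ, (fun K : Subgroup G => ⁅K, H⁆)^[m] ⊤ ≤ L := by
  intro L hL
  induction hL with
  | top => intro _; exact ⟨0, le_top⟩
  | step L M hle hM hN ih =>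
    intro hHL
    obtain ⟨m, hm⟩ := ih (hHL.trans hle)
    refine ⟨m + 1, ?_⟩
    rw [Function.iterate_succ_apply']
    have h1 : ⁅(fun K : Subgroup G => ⁅K, H⁆)^[m] ⊤, H⁆ ≤ ⁅M, L⁆ := Subgroup.commutator_mono hm hHL
    have h2 : ⁅M, L⁆ ≤ L :=
      Subgroup.le_normalizer_iff_commutator_le_right.mp
        ((Subgroup.normal_subgroupOf_iff_le_normalizer hle).mp hN)
    exact h1.trans h2

theorem step_normalizer {G : Type*} [Group G] (H X : Subgroup G) :
    H ⊔ X ≤ normalizer ((H ⊔ ⁅X, H⁆ : Subgroup G) : Set G) := by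
  have hXC : X ≤ normalizer ((⁅X, H⁆ : Subgroup G) : Set G) :=
    Subgroup.normalizer_commutator_ge_left X H
  have hHC : H ≤ normalizer ((⁅X, H⁆ : Subgroup G) : Set G) :=
    Subgroup.normalizer_commutator_ge_right X H
  have key : ∀ k ∈ X, MulAut.conj k • (H ⊔ ⁅X, H⁆) ≤ H ⊔ ⁅X, H⁆ := by
    intro k hk
    rw [Subgroup.smul_sup]
    apply sup_le
    · intro x hx
      rw [Cfsg.Agent.Lib.Helper1.mem_conj_smul] at hx
      have h1 : ⁅k, k⁻¹ * x * k⁆ ∈ ⁅X, H⁆ := Subgroup.commutator_mem_commutator hk hx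
      have h2 : x = ⁅k, k⁻¹ * x * k⁆ * (k⁻¹ * x * k) := by
        rw [commutatorElement_def]; group
      rw [h2]
      exact mul_mem (le_sup_right (a := H) h1) (le_sup_left (b := ⁅X, H⁆) hx)
    · rw [Cfsg.Agent.Lib.Helper9.conj_smul_eq_of_mem_normalizer (hXC hk)]
      exact le_sup_right
  apply sup_le
  · intro h hh
    have h1 : h ∈ normalizer (H : Set G) ⊓ normalizer ((⁅X, H⁆ : Subgroup G) : Set G) :=
      mem_inf.mpr ⟨le_normalizer hh, hHC hh⟩
    exact Subgroup.normalizer_inf_normalizer_le_normalizer_sup H ⁅X, H⁆ h1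
  · intro k hk
    exact Cfsg.Agent.Lib.Helper9.mem_normalizer_of_conj_smul_le (key k hk) (key k⁻¹ (inv_mem hk))

theorem backward_aux {G : Type*} [Group G] (H : Subgroup G) (i : ℕ) :
    (H ⊔ (fun K : Subgroup G => ⁅K, H⁆)^[i] ⊤).IsSubnormal := by
  induction i with
  | zero =>
    have : H ⊔ (fun K : Subgroup G => ⁅K, H⁆)^[0] ⊤ = ⊤ := by
      rw [Function.iterate_zero, id_eq, sup_top_eq]
    rw [this]; exact Subgroup.IsSubnormal.top
  | succ i ih =>
    rw [Function.iterate_succ_apply']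
    have hle : H ⊔ ⁅(fun K : Subgroup G => ⁅K, H⁆)^[i] ⊤, H⁆
        ≤ H ⊔ (fun K : Subgroup G => ⁅K, H⁆)^[i] ⊤ := by
      apply sup_le le_sup_left
      exact (Subgroup.commutator_le_sup _ _).trans (by rw [sup_comm])
    exact Subgroup.IsSubnormal.step _ _ hle ih
      ((Subgroup.normal_subgroupOf_iff_le_normalizer hle).mpr (step_normalizer H _))

/-- A subgroup H of a group G is subnormal exactly when, for some m, the subgroup obtained from G by taking the commutator with H m times in succession is contained in H. -/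
theorem result {G : Type*} [Group G] (H : Subgroup G) : H.IsSubnormal ↔ ∃ m : ℕ, (fun K : Subgroup G => ⁅K, H⁆)^[m] ⊤ ≤ H := by
  constructor
  · intro h
    exact forward_aux H h le_rfl
  · rintro ⟨m, hm⟩
    have := backward_aux H m
    rwa [sup_of_le_left hm] at this

end Cfsg.Agent.S0567
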