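import Cfsg.Statements.S0572
import Mathlib

set_option autoImplicit false
open Cfsg

namespace Cfsg.Agent.S0572

open scoped commutatorElement

theorem comm_mul_left_eq {G : Type*} [Group G] {x y z : G} (h : z * y = y * z) :
    ⁅x * z, y⁆ = ⁅x, y⁆ := by
  rw [commutatorElement_def, commutatorElement_def]
  calc x * z * y * (x * z)⁻¹ * y⁻¹ = x * (z * y) * z⁻¹ * x⁻¹ * y⁻¹ := by group
    _ = x * (y * z) * z⁻¹ * x⁻¹ * y⁻¹ := by rw [h]
    _ = x * y * x⁻¹ * y⁻¹ := by group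

theorem comm_mul_right_eq {G : Type*} [Group G] {x y z : G} (h : z * x = x * z) :
    ⁅x, y * z⁆ = ⁅x, y⁆ := by
  have h' : z * x⁻¹ = x⁻¹ * z := by
    calc z * x⁻¹ = x⁻¹ * (x * z) * x⁻¹ := by group
      _ = x⁻¹ * (z * x) * x⁻¹ := by rw [h]
      _ = x⁻¹ * z := by group
  rw [commutatorElement_def, commutatorElement_def]
  calc x * (y * z) * x⁻¹ * (y * z)⁻¹ = x * y * (z * x⁻¹) * z⁻¹ * y⁻¹ := by group
    _ = x * y * (x⁻¹ * z) * z⁻¹ * y⁻¹ := by rw [h']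
    _ = x * y * x⁻¹ * y⁻¹ := by group

theorem conj_comm_eq {G : Type*} [Group G] (g x y : G) :
    g * ⁅x, y⁆ * g⁻¹ = ⁅g * x * g⁻¹, g * y * g⁻¹⁆ := by
  rw [commutatorElement_def, commutatorElement_def]; group

theorem conj_eq_self {G : Type*} [Group G] {g x : G} (h : g * x = x * g) : g * x * g⁻¹ = x := by
  rw [h]; group

/-- The key identity of Itô's theorem. -/
theorem ito_conj {G : Type*} [Group G] (A B : Subgroup G)
    (hA : ∀ x ∈ A, ∀ y ∈ A, x * y = y * x) (hB : ∀ x ∈ B, ∀ y ∈ B, x * y = y * x)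
    (hAB : ∀ g : G, ∃ a ∈ A, ∃ b ∈ B, g = a * b) {a a₁ b b₁ : G} (ha : a ∈ A) (ha₁ : a₁ ∈ A)
    (hb : b ∈ B) (hb₁ : b₁ ∈ B) :
    (a₁ * b₁) * ⁅a, b⁆ * (a₁ * b₁)⁻¹ = (b₁ * a₁) * ⁅a, b⁆ * (b₁ * a₁)⁻¹ := by
  obtain ⟨a₃, ha₃, b₃, hb₃, e3⟩ := hAB (b₁ * a * b₁⁻¹)
  obtain ⟨a', ha', b', hb', e2'⟩ := hAB (a₁ * b * a₁⁻¹)⁻¹
  have e2 : a₁ * b * a₁⁻¹ = b'⁻¹ * a'⁻¹ := by
    rw [← mul_inv_rev, ← e2', inv_inv]
  have hb'i : b'⁻¹ ∈ B := B.inv_mem hb'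
  have ha'i : a'⁻¹ ∈ A := A.inv_mem ha'
  -- both sides equal `⁅a₃, b'⁻¹⁆`
  have L : (a₁ * b₁) * ⁅a, b⁆ * (a₁ * b₁)⁻¹ = ⁅a₃, b'⁻¹⁆ := by
    have s1 : b₁ * ⁅a, b⁆ * b₁⁻¹ = ⁅a₃, b⁆ := by
      rw [conj_comm_eq, e3, conj_eq_self (hB b₁ hb₁ b hb), comm_mul_left_eq (hB b₃ hb₃ b hb)]
    have s2 : a₁ * ⁅a₃, b⁆ * a₁⁻¹ = ⁅a₃, b'⁻¹⁆ := by
      rw [conj_comm_eq, e2, conj_eq_self (hA a₁ ha₁ a₃ ha₃),
        comm_mul_right_eq (hA a'⁻¹ ha'i a₃ ha₃)]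
    calc (a₁ * b₁) * ⁅a, b⁆ * (a₁ * b₁)⁻¹ = a₁ * (b₁ * ⁅a, b⁆ * b₁⁻¹) * a₁⁻¹ := by group
      _ = ⁅a₃, b'⁻¹⁆ := by rw [s1, s2]
  have R : (b₁ * a₁) * ⁅a, b⁆ * (b₁ * a₁)⁻¹ = ⁅a₃, b'⁻¹⁆ := by
    have s1 : a₁ * ⁅a, b⁆ * a₁⁻¹ = ⁅a, b'⁻¹⁆ := by
      rw [conj_comm_eq, e2, conj_eq_self (hA a₁ ha₁ a ha),
        comm_mul_right_eq (hA a'⁻¹ ha'i a ha)]
    have s2 : b₁ * ⁅a, b'⁻¹⁆ * b₁⁻¹ = ⁅a₃, b'⁻¹⁆ := by
      rw [conj_comm_eq, e3, conj_eq_self (hB b₁ hb₁ b'⁻¹ hb'i),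
        comm_mul_left_eq (hB b₃ hb₃ b'⁻¹ hb'i)]
    calc (b₁ * a₁) * ⁅a, b⁆ * (b₁ * a₁)⁻¹ = b₁ * (a₁ * ⁅a, b⁆ * a₁⁻¹) * b₁⁻¹ := by group
      _ = ⁅a₃, b'⁻¹⁆ := by rw [s1, s2]
  rw [L, R]

/-- Commutators `⁅a, b⁆`, `a ∈ A`, `b ∈ B`, commute with each other. -/
theorem ito_comm {G : Type*} [Group G] (A B : Subgroup G)
    (hA : ∀ x ∈ A, ∀ y ∈ A, x * y = y * x) (hB : ∀ x ∈ B, ∀ y ∈ B, x * y = y * x)
    (hAB : ∀ g : G, ∃ a ∈ A, ∃ b ∈ B, g = a * b) {a a₁ b b₁ : G} (ha : a ∈ A) (ha₁ : a₁ ∈ A)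
    (hb : b ∈ B) (hb₁ : b₁ ∈ B) : ⁅a, b⁆ * ⁅a₁, b₁⁆ = ⁅a₁, b₁⁆ * ⁅a, b⁆ := by
  have h := ito_conj A B hA hB hAB ha (A.inv_mem ha₁) hb (B.inv_mem hb₁)
  have e : ⁅a₁, b₁⁆ = (b₁⁻¹ * a₁⁻¹)⁻¹ * (a₁⁻¹ * b₁⁻¹) := by
    rw [commutatorElement_def]; group
  rw [e]
  calc ⁅a, b⁆ * ((b₁⁻¹ * a₁⁻¹)⁻¹ * (a₁⁻¹ * b₁⁻¹))
      = (b₁⁻¹ * a₁⁻¹)⁻¹ * ((b₁⁻¹ * a₁⁻¹) * ⁅a, b⁆ * (b₁⁻¹ * a₁⁻¹)⁻¹) * (a₁⁻¹ * b₁⁻¹) := by group
    _ = (b₁⁻¹ * a₁⁻¹)⁻¹ * ((a₁⁻¹ * b₁⁻¹) * ⁅a, b⁆ * (a₁⁻¹ * b₁⁻¹)⁻¹) * (a₁⁻¹ * b₁⁻¹) := by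
        rw [h]
    _ = (b₁⁻¹ * a₁⁻¹)⁻¹ * (a₁⁻¹ * b₁⁻¹) * ⁅a, b⁆ := by group

/-- `⁅A, B⁆` is normalized by `A` and `B`. -/
theorem conj_mem_commutator_left {G : Type*} [Group G] (A B : Subgroup G) {c : G} (hc : c ∈ A)
    {n : G} (hn : n ∈ ⁅A, B⁆) : c * n * c⁻¹ ∈ ⁅A, B⁆ := by
  have hle : ⁅A, B⁆ ≤ (⁅A, B⁆ : Subgroup G).comap (MulAut.conj c).toMonoidHom := by
    rw [Subgroup.commutator_le]
    intro a ha b hb
    rw [Subgroup.mem_comap]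
    have e : (MulAut.conj c).toMonoidHom ⁅a, b⁆ = ⁅c * a, b⁆ * ⁅c, b⁆⁻¹ := by
      simp only [MulEquiv.toMonoidHom_eq_coe, MonoidHom.coe_coe, MulAut.conj_apply,
        commutatorElement_def]
      group
    rw [e]
    exact Subgroup.mul_mem _ (Subgroup.commutator_mem_commutator (A.mul_mem hc ha) hb)
      (Subgroup.inv_mem _ (Subgroup.commutator_mem_commutator hc hb))
  have := hle hn
  simpa using this

theorem conj_mem_commutator_right {G : Type*} [Group G] (A B : Subgroup G) {c : G} (hc : c ∈ B)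
    {n : G} (hn : n ∈ ⁅A, B⁆) : c * n * c⁻¹ ∈ ⁅A, B⁆ := by
  have hle : ⁅A, B⁆ ≤ (⁅A, B⁆ : Subgroup G).comap (MulAut.conj c).toMonoidHom := by
    rw [Subgroup.commutator_le]
    intro a ha b hb
    rw [Subgroup.mem_comap]
    have e : (MulAut.conj c).toMonoidHom ⁅a, b⁆ = ⁅a, c⁆⁻¹ * ⁅a, c * b⁆ := by
      simp only [MulEquiv.toMonoidHom_eq_coe, MonoidHom.coe_coe, MulAut.conj_apply,
        commutatorElement_def]
      group
    rw [e]
    exact Subgroup.mul_mem _ (Subgroup.inv_mem _ (Subgroup.commutator_mem_commutator ha hc))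
      (Subgroup.commutator_mem_commutator ha (B.mul_mem hc hb))
  have := hle hn
  simpa using this

/-- Itô's Theorem: if a group G is the product AB of two abelian subgroups, then the commutator subgroup of G is abelian, i.e. the second term of the derived series is trivial. -/
theorem result {G : Type*} [Group G] (A B : Subgroup G) [IsMulCommutative A] [IsMulCommutative B] (hAB : ∀ g : G, ∃ a ∈ A, ∃ b ∈ B, g = a * b) : derivedSeries G 2 = ⊥ := by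
  have hA : ∀ x ∈ A, ∀ y ∈ A, x * y = y * x := fun x hx y hy => setLike_mul_comm hx hy
  have hB : ∀ x ∈ B, ∀ y ∈ B, x * y = y * x := fun x hx y hy => setLike_mul_comm hx hy
  -- `N = ⁅A, B⁆` is normal
  have hN : (⁅A, B⁆ : Subgroup G).Normal := by
    constructor
    intro n hn g
    obtain ⟨a, ha, b, hb, rfl⟩ := hAB g
    have h1 := conj_mem_commutator_right A B hb hn
    have h2 := conj_mem_commutator_left A B ha h1
    have e : a * b * n * (a * b)⁻¹ = a * (b * n * b⁻¹) * a⁻¹ := by group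
    rw [e]
    exact h2
  -- `N` is commutative
  have hNc : IsMulCommutative (⁅A, B⁆ : Subgroup G) := by
    rw [Subgroup.commutator_def]
    apply Subgroup.isMulCommutative_closure
    rintro _ ⟨a, ha, b, hb, rfl⟩ _ ⟨a₁, ha₁, b₁, hb₁, rfl⟩
    exact ito_comm A B hA hB hAB ha ha₁ hb hb₁
  -- `G / N` is commutative
  have hq : _root_.commutator G ≤ ⁅A, B⁆ := by
    rw [← Subgroup.Normal.quotient_commutative_iff_commutator_le]
    have hcomm : ∀ a ∈ A, ∀ b ∈ B, (QuotientGroup.mk a : G ⧸ (⁅A, B⁆ : Subgroup G)) *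
        QuotientGroup.mk b = QuotientGroup.mk b * QuotientGroup.mk a := by
      intro a ha b hb
      have h1 : (QuotientGroup.mk ⁅a, b⁆ : G ⧸ (⁅A, B⁆ : Subgroup G)) = 1 :=
        (QuotientGroup.eq_one_iff _).2 (Subgroup.commutator_mem_commutator ha hb)
      rw [commutatorElement_def] at h1
      have h2 : (QuotientGroup.mk a : G ⧸ (⁅A, B⁆ : Subgroup G)) * QuotientGroup.mk b *
          (QuotientGroup.mk a)⁻¹ * (QuotientGroup.mk b)⁻¹ = 1 := h1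
      calc (QuotientGroup.mk a : G ⧸ (⁅A, B⁆ : Subgroup G)) * QuotientGroup.mk b
          = (QuotientGroup.mk a * QuotientGroup.mk b *
              (QuotientGroup.mk a)⁻¹ * (QuotientGroup.mk b)⁻¹) *
              (QuotientGroup.mk b * QuotientGroup.mk a) := by group
        _ = QuotientGroup.mk b * QuotientGroup.mk a := by rw [h2, one_mul]
    refine ⟨⟨fun x y => ?_⟩⟩
    induction x using QuotientGroup.induction_on with
    | H g =>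
    induction y using QuotientGroup.induction_on with
    | H h =>
    obtain ⟨a, ha, b, hb, rfl⟩ := hAB g
    obtain ⟨a', ha', b', hb', rfl⟩ := hAB h
    have c1 := hcomm a ha b' hb'
    have c2 := hcomm a' ha' b hb
    have c3 : (QuotientGroup.mk a : G ⧸ (⁅A, B⁆ : Subgroup G)) * QuotientGroup.mk a' =
        QuotientGroup.mk a' * QuotientGroup.mk a := by
      rw [← QuotientGroup.mk_mul, ← QuotientGroup.mk_mul, hA a ha a' ha']
    have c4 : (QuotientGroup.mk b : G ⧸ (⁅A, B⁆ : Subgroup G)) * QuotientGroup.mk b' =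
        QuotientGroup.mk b' * QuotientGroup.mk b := by
      rw [← QuotientGroup.mk_mul, ← QuotientGroup.mk_mul, hB b hb b' hb']
    simp only [QuotientGroup.mk_mul]
    calc (QuotientGroup.mk a : G ⧸ (⁅A, B⁆ : Subgroup G)) * QuotientGroup.mk b *
          (QuotientGroup.mk a' * QuotientGroup.mk b')
        = QuotientGroup.mk a * (QuotientGroup.mk b * QuotientGroup.mk a') *
            QuotientGroup.mk b' := by group
      _ = QuotientGroup.mk a * (QuotientGroup.mk a' * QuotientGroup.mk b) *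
            QuotientGroup.mk b' := by rw [c2]
      _ = (QuotientGroup.mk a * QuotientGroup.mk a') *
            (QuotientGroup.mk b * QuotientGroup.mk b') := by group
      _ = (QuotientGroup.mk a' * QuotientGroup.mk a) *
            (QuotientGroup.mk b' * QuotientGroup.mk b) := by rw [c3, c4]
      _ = QuotientGroup.mk a' * (QuotientGroup.mk a * QuotientGroup.mk b') *
            QuotientGroup.mk b := by group
      _ = QuotientGroup.mk a' * (QuotientGroup.mk b' * QuotientGroup.mk a) *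
            QuotientGroup.mk b := by rw [c1]
      _ = QuotientGroup.mk a' * QuotientGroup.mk b' *
            (QuotientGroup.mk a * QuotientGroup.mk b) := by group
  have h2 : derivedSeries G 2 = ⁅_root_.commutator G, _root_.commutator G⁆ := by
    rw [derivedSeries_succ, derivedSeries_one]
  rw [h2, eq_bot_iff]
  refine (Subgroup.commutator_mono hq hq).trans ?_
  rw [le_bot_iff, Subgroup.commutator_eq_bot_iff_le_centralizer]
  intro x hx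
  rw [Subgroup.mem_centralizer_iff]
  intro y hy
  exact setLike_mul_comm hy hx

end Cfsg.Agent.S0572
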