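import Mathlib
import Cfsg.Statements.S0573
import Cfsg.Agent.S0572

set_option autoImplicit false
open Cfsg

namespace Cfsg.Agent.S0573

open scoped commutatorElement

private lemma ncard_range_le {α β γ : Type*} [Finite α] (f : α → β) (g : α → γ)
    (h : ∀ a a', g a = g a' → f a = f a') : (Set.range f).ncard ≤ (Set.range g).ncard := by
  rw [← Nat.card_coe_set_eq, ← Nat.card_coe_set_eq]
  let ψ : Set.range g → Set.range f := fun b => ⟨f b.2.choose, ⟨_, rfl⟩⟩
  have hψ : Function.Surjective ψ := by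
    rintro ⟨_, a, rfl⟩
    refine ⟨⟨g a, ⟨a, rfl⟩⟩, ?_⟩
    apply Subtype.ext
    change f (Exists.choose (⟨a, rfl⟩ : ∃ y, g y = g a)) = f a
    exact h _ _ (Exists.choose_spec (⟨a, rfl⟩ : ∃ y, g y = g a))
  exact Nat.card_le_card_of_surjective ψ hψ

/-- central case -/
private lemma central_case {G : Type*} [Group G] (A B : Subgroup G)
    (hA : ∀ x ∈ A, ∀ y ∈ A, x * y = y * x) (hB : ∀ x ∈ B, ∀ y ∈ B, x * y = y * x)
    (hAB : ∀ g : G, ∃ a ∈ A, ∃ b ∈ B, g = a * b)
    (z : G) (hz1 : z ≠ 1) (hz : ∀ g : G, g * z = z * g) :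
    ∃ N : Subgroup G, N.Normal ∧ N ≠ ⊥ ∧ (N ≤ A ∨ N ≤ B) := by
  obtain ⟨a, ha, b, hb, rfl⟩ := hAB z
  -- a is central
  have hac : ∀ g : G, g * a = a * g := by
    intro g
    obtain ⟨a', ha', b', hb', rfl⟩ := hAB g
    have h1 : b' * a = a * b' := by
      have h2 := hz b'
      have h3 := hB b' hb' b hb
      calc b' * a = b' * (a * b) * b⁻¹ := by group
        _ = a * b * b' * b⁻¹ := by rw [h2]
        _ = a * (b * b') * b⁻¹ := by group
        _ = a * (b' * b) * b⁻¹ := by rw [h3]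
        _ = a * b' := by group
    calc a' * b' * a = a' * (b' * a) := by group
      _ = a' * (a * b') := by rw [h1]
      _ = (a' * a) * b' := by group
      _ = (a * a') * b' := by rw [hA a' ha' a ha]
      _ = a * (a' * b') := by group
  have hbc : ∀ g : G, g * b = b * g := by
    intro g
    have h1 := hz g
    have h2 := hac g
    calc g * b = a⁻¹ * (a * g) * b := by group
      _ = a⁻¹ * (g * a) * b := by rw [h2]
      _ = a⁻¹ * (g * (a * b)) := by group
      _ = a⁻¹ * (a * b * g) := by rw [h1]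
      _ = b * g := by group
  have key : ∀ c : G, c ≠ 1 → (∀ g : G, g * c = c * g) →
      (Subgroup.zpowers c).Normal ∧ Subgroup.zpowers c ≠ ⊥ := by
    intro c hc1 hcc
    refine ⟨⟨?_⟩, ?_⟩
    · intro n hn g
      obtain ⟨k, rfl⟩ := Subgroup.mem_zpowers_iff.1 hn
      have h1 : Commute g c := hcc g
      have h2 := (h1.zpow_right k).eq
      rw [h2, mul_assoc, mul_inv_cancel, mul_one]
      exact Subgroup.zpow_mem_zpowers c k
    · intro hbot
      have : c ∈ Subgroup.zpowers c := Subgroup.mem_zpowers c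
      rw [hbot, Subgroup.mem_bot] at this
      exact hc1 this
  by_cases ha1 : a = 1
  · have hb1 : b ≠ 1 := by
      intro hb1
      apply hz1
      rw [ha1, hb1, one_mul]
    obtain ⟨h1, h2⟩ := key b hb1 hbc
    exact ⟨_, h1, h2, Or.inr (by rw [Subgroup.zpowers_le]; exact hb)⟩
  · obtain ⟨h1, h2⟩ := key a ha1 hac
    exact ⟨_, h1, h2, Or.inl (by rw [Subgroup.zpowers_le]; exact ha)⟩

/-- fixed-point dichotomy on a minimal normal subgroup inside the (abelian) derived subgroup -/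
private lemma fpf_or_trivial {G : Type*} [Group G] (M : Subgroup G) [M.Normal]
    (hMmin : ∀ K : Subgroup G, K.Normal → K ≤ M → K = ⊥ ∨ K = M)
    (hMG' : ∀ c ∈ commutator G, ∀ m ∈ M, c * m = m * c)
    (g : G) (m0 : G) (hm0 : m0 ∈ M) (hm01 : m0 ≠ 1) (hg : g * m0 = m0 * g) :
    ∀ m ∈ M, g * m = m * g := by
  have hKn : (M ⊓ Subgroup.centralizer ({g} : Set G)).Normal := by
    constructor
    intro m hm h
    obtain ⟨hmM, hmc⟩ := Subgroup.mem_inf.1 hm
    refine Subgroup.mem_inf.2 ⟨‹M.Normal›.conj_mem m hmM h, ?_⟩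
    rw [Subgroup.mem_centralizer_iff] at hmc ⊢
    intro g' hg'
    rw [Set.mem_singleton_iff] at hg'
    subst hg'
    have h1 : g' * m = m * g' := hmc g' rfl
    have hc : ⁅h⁻¹, g'⁆ ∈ commutator G := by
      rw [commutator_def]
      exact Subgroup.commutator_mem_commutator (Subgroup.mem_top _) (Subgroup.mem_top _)
    have h2 := hMG' _ hc m hmM
    rw [commutatorElement_def, inv_inv] at h2
    -- h2 : h⁻¹ * g' * h * g'⁻¹ * m = m * (h⁻¹ * g' * h * g'⁻¹)
    calc g' * (h * m * h⁻¹) = h * ((h⁻¹ * g' * h * g'⁻¹) * (g' * m)) * h⁻¹ := by group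
      _ = h * ((h⁻¹ * g' * h * g'⁻¹) * (m * g')) * h⁻¹ := by rw [h1]
      _ = h * ((h⁻¹ * g' * h * g'⁻¹ * m) * g') * h⁻¹ := by group
      _ = h * ((m * (h⁻¹ * g' * h * g'⁻¹)) * g') * h⁻¹ := by rw [h2]
      _ = h * m * h⁻¹ * g' := by group
  rcases hMmin _ hKn inf_le_left with h | h
  · exfalso
    have : m0 ∈ M ⊓ Subgroup.centralizer ({g} : Set G) := by
      refine Subgroup.mem_inf.2 ⟨hm0, ?_⟩
      rw [Subgroup.mem_centralizer_iff]
      intro g' hg'
      rw [Set.mem_singleton_iff] at hg'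
      subst hg'
      exact hg
    rw [h, Subgroup.mem_bot] at this
    exact hm01 this
  · intro m hm
    have : m ∈ M ⊓ Subgroup.centralizer ({g} : Set G) := by rw [h]; exact hm
    have h2 := (Subgroup.mem_inf.1 this).2
    rw [Subgroup.mem_centralizer_iff] at h2
    exact h2 g rfl

/-- If a nontrivial finite group G is the product AB of abelian subgroups A and B, then some nontrivial normal subgroup of G is contained in A or in B. -/
theorem result {G : Type*} [Group G] [Finite G] [Nontrivial G] (A B : Subgroup G) [IsMulCommutative A] [IsMulCommutative B] (hAB : ∀ g : G, ∃ a ∈ A, ∃ b ∈ B, g = a * b) : ∃ N : Subgroup G, N.Normal ∧ N ≠ ⊥ ∧ (N ≤ A ∨ N ≤ B) := by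
  have hA : ∀ x ∈ A, ∀ y ∈ A, x * y = y * x := fun x hx y hy => setLike_mul_comm hx hy
  have hB : ∀ x ∈ B, ∀ y ∈ B, x * y = y * x := fun x hx y hy => setLike_mul_comm hx hy
  by_cases hZ : ∃ z : G, z ≠ 1 ∧ ∀ g : G, g * z = z * g
  · obtain ⟨z, hz1, hz⟩ := hZ
    exact central_case A B hA hB hAB z hz1 hz
  push Not at hZ
  have hZ' : ∀ z : G, (∀ g : G, g * z = z * g) → z = 1 := by
    intro z hz
    by_contra h
    obtain ⟨g, hg⟩ := hZ z h
    exact hg (hz g)
  -- an element commuting with A and B is trivial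
  have hcent : ∀ z : G, (∀ a ∈ A, a * z = z * a) → (∀ b ∈ B, b * z = z * b) → z = 1 := by
    intro z hza hzb
    apply hZ'
    intro g
    obtain ⟨a, ha, b, hb, rfl⟩ := hAB g
    calc a * b * z = a * (b * z) := by group
      _ = a * (z * b) := by rw [hzb b hb]
      _ = (a * z) * b := by group
      _ = (z * a) * b := by rw [hza a ha]
      _ = z * (a * b) := by group
  have hAB1 : ∀ x : G, x ∈ A → x ∈ B → x = 1 := by
    intro x hxA hxB
    exact hcent x (fun a ha => hA a ha x hxA) (fun b hb => hB b hb x hxB)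
  -- self-centralizing
  have hCA : ∀ g : G, (∀ a ∈ A, a * g = g * a) → g ∈ A := by
    intro g hg
    obtain ⟨a, ha, b, hb, rfl⟩ := hAB g
    have hb1 : b = 1 := by
      apply hcent b
      · intro a' ha'
        have h1 := hg a' ha'
        have h2 := hA a' ha' a ha
        calc a' * b = a⁻¹ * ((a * a') * b) := by group
          _ = a⁻¹ * ((a' * a) * b) := by rw [h2]
          _ = a⁻¹ * (a' * (a * b)) := by group
          _ = a⁻¹ * (a * b * a') := by rw [h1]
          _ = b * a' := by group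
      · intro b' hb'
        exact hB b' hb' b hb
    rw [hb1, mul_one]
    exact ha
  have hCB : ∀ g : G, (∀ b ∈ B, b * g = g * b) → g ∈ B := by
    intro g hg
    obtain ⟨a, ha, b, hb, rfl⟩ := hAB g
    have ha1 : a = 1 := by
      apply hcent a
      · intro a' ha'
        exact hA a' ha' a ha
      · intro b' hb'
        have h1 := hg b' hb'
        have h2 := hB b' hb' b hb
        calc b' * a = (b' * (a * b)) * b⁻¹ := by group
          _ = (a * b * b') * b⁻¹ := by rw [h1]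
          _ = a * (b * b') * b⁻¹ := by group
          _ = a * (b' * b) * b⁻¹ := by rw [← h2]
          _ = a * b' := by group
    rw [ha1, one_mul]
    exact hb
  -- derived subgroup is abelian
  have hD : ∀ u ∈ commutator G, ∀ v ∈ commutator G, u * v = v * u := by
    have h2 := Cfsg.Agent.S0572.result A B hAB
    rw [derivedSeries_succ, derivedSeries_one, Subgroup.commutator_eq_bot_iff_le_centralizer] at h2
    intro u hu v hv
    have := h2 hu
    rw [Subgroup.mem_centralizer_iff] at this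
    exact (this v hv).symm
  -- derived subgroup nontrivial
  have hDne : commutator G ≠ ⊥ := by
    intro hbot
    obtain ⟨z, hz⟩ := exists_ne (1 : G)
    apply hz
    apply hZ'
    intro g
    have hc : ⁅g, z⁆ ∈ commutator G := by
      rw [commutator_def]
      exact Subgroup.commutator_mem_commutator (Subgroup.mem_top _) (Subgroup.mem_top _)
    rw [hbot, Subgroup.mem_bot, commutatorElement_def] at hc
    calc g * z = (g * z * g⁻¹ * z⁻¹) * (z * g) := by group
      _ = z * g := by rw [hc, one_mul]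
  -- minimal normal subgroup inside the derived subgroup
  have hne : {N : Subgroup G | N.Normal ∧ N ≠ ⊥ ∧ N ≤ commutator G}.Nonempty :=
    ⟨_, inferInstance, hDne, le_rfl⟩
  obtain ⟨M, ⟨hMn, hM1, hMle⟩, hmin⟩ :=
    (Set.toFinite {N : Subgroup G | N.Normal ∧ N ≠ ⊥ ∧ N ≤ commutator G}).exists_minimal hne
  have hMmin : ∀ K : Subgroup G, K.Normal → K ≤ M → K = ⊥ ∨ K = M := by
    intro K hKn hKle
    by_cases hb : K = ⊥
    · exact Or.inl hb
    · right
      exact le_antisymm hKle (hmin ⟨hKn, hb, hKle.trans hMle⟩ hKle)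
  have hMG' : ∀ c ∈ commutator G, ∀ m ∈ M, c * m = m * c := fun c hc m hm => hD c hc m (hMle hm)
  have hMab : ∀ m ∈ M, ∀ m' ∈ M, m * m' = m' * m := fun m hm m' hm' => hD m (hMle hm) m' (hMle hm')
  have fpf := fpf_or_trivial M hMmin hMG'
  -- case 1 : M meets A
  by_cases hMA : ∃ m ∈ M, m ∈ A ∧ m ≠ 1
  · obtain ⟨m0, hm0, hm0A, hm01⟩ := hMA
    refine ⟨M, hMn, hM1, Or.inl ?_⟩
    intro m hm
    apply hCA
    intro a ha
    exact fpf a m0 hm0 hm01 (hA a ha m0 hm0A) m hm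
  by_cases hMB : ∃ m ∈ M, m ∈ B ∧ m ≠ 1
  · obtain ⟨m0, hm0, hm0B, hm01⟩ := hMB
    refine ⟨M, hMn, hM1, Or.inr ?_⟩
    intro m hm
    apply hCB
    intro b hb
    exact fpf b m0 hm0 hm01 (hB b hb m0 hm0B) m hm
  exfalso
  push Not at hMA hMB
  -- a nonidentity element of M
  obtain ⟨m1, hm1, hm11⟩ : ∃ m ∈ M, m ≠ 1 := by
    by_contra hcon
    push Not at hcon
    apply hM1
    rw [eq_bot_iff]
    intro x hx
    rw [Subgroup.mem_bot]
    exact hcon x hx
  obtain ⟨a0, ha0, b0, hb0, hm1ab⟩ := hAB m1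
  -- b0 centralizes M
  have hb0M : ∀ m ∈ M, b0 * m = m * b0 := by
    by_contra hcon
    have hfix : ∀ m ∈ M, b0 * m = m * b0 → m = 1 := by
      intro m hm hbm
      by_contra hm1'
      exact hcon (fpf b0 m hm hm1' hbm)
    let φ : M → M := fun n => ⟨(n : G) * b0 * (n : G)⁻¹ * b0⁻¹, by
      have h1 := hMn.conj_mem (n : G)⁻¹ (inv_mem n.2) b0
      have h2 : (n : G) * b0 * (n : G)⁻¹ * b0⁻¹ = (n : G) * (b0 * (n : G)⁻¹ * b0⁻¹) := by group
      rw [h2]
      exact mul_mem n.2 h1⟩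
    have hφ : Function.Injective φ := by
      intro n n' hnn
      have h1 : (n : G) * b0 * (n : G)⁻¹ * b0⁻¹ = (n' : G) * b0 * (n' : G)⁻¹ * b0⁻¹ :=
        congrArg Subtype.val hnn
      have h3 : (n : G) * b0 * (n : G)⁻¹ = (n' : G) * b0 * (n' : G)⁻¹ := mul_right_cancel h1
      have h2 : b0 * ((n' : G)⁻¹ * n) = ((n' : G)⁻¹ * n) * b0 := by
        calc b0 * ((n' : G)⁻¹ * n) = (n' : G)⁻¹ * ((n' : G) * b0 * (n' : G)⁻¹) * n := by group
          _ = (n' : G)⁻¹ * ((n : G) * b0 * (n : G)⁻¹) * n := by rw [h3]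
          _ = ((n' : G)⁻¹ * n) * b0 := by group
      have h4 := hfix _ (mul_mem (inv_mem n'.2) n.2) h2
      apply Subtype.ext
      calc (n : G) = (n' : G) * ((n' : G)⁻¹ * n) := by group
        _ = n' := by rw [h4, mul_one]
    have hφs : Function.Surjective φ := Finite.surjective_of_injective hφ
    have htM : b0 * m1⁻¹ * b0⁻¹ ∈ M := hMn.conj_mem m1⁻¹ (inv_mem hm1) b0
    obtain ⟨n, hn⟩ := hφs ⟨_, htM⟩
    have hn' : (n : G) * b0 * (n : G)⁻¹ * b0⁻¹ = b0 * m1⁻¹ * b0⁻¹ := congrArg Subtype.val hn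
    have hn2 : (n : G) * b0 * (n : G)⁻¹ = a0⁻¹ := by
      have h5 := mul_right_cancel hn'
      rw [h5, hm1ab]; group
    obtain ⟨an, han, bn, hbn, hnab⟩ := hAB (n : G)
    have hb0A : b0 ∈ A := by
      have h1 : bn * b0 * bn⁻¹ = b0 := by
        rw [hB bn hbn b0 hb0]; group
      have h2 : b0 = an⁻¹ * a0⁻¹ * an := by
        rw [← hn2, hnab]
        calc b0 = an⁻¹ * (an * (bn * b0 * bn⁻¹) * an⁻¹) * an := by rw [h1]; group
          _ = an⁻¹ * (an * bn * b0 * (an * bn)⁻¹) * an := by group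
      rw [h2]
      exact mul_mem (mul_mem (inv_mem han) (inv_mem ha0)) han
    have hb01 : b0 = 1 := hAB1 b0 hb0A hb0
    apply hcon
    intro m _
    rw [hb01, one_mul, mul_one]
  have ha0eq : a0 = m1 * b0⁻¹ := by rw [hm1ab]; group
  have hb0eq : b0 = a0⁻¹ * m1 := by rw [hm1ab]; group
  have ha0M : ∀ m ∈ M, a0 * m = m * a0 := by
    intro m hm
    have h1 := hb0M m hm
    have h2 := hMab m1 hm1 m hm
    have h3 : b0⁻¹ * m = m * b0⁻¹ := by
      calc b0⁻¹ * m = b0⁻¹ * (m * b0) * b0⁻¹ := by group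
        _ = b0⁻¹ * (b0 * m) * b0⁻¹ := by rw [h1]
        _ = m * b0⁻¹ := by group
    rw [ha0eq]
    calc m1 * b0⁻¹ * m = m1 * (b0⁻¹ * m) := by group
      _ = m1 * (m * b0⁻¹) := by rw [h3]
      _ = (m1 * m) * b0⁻¹ := by group
      _ = (m * m1) * b0⁻¹ := by rw [h2]
      _ = m * (m1 * b0⁻¹) := by group
  -- elements of A and B acting nontrivially
  obtain ⟨x1, hx1, hx1M⟩ : ∃ x ∈ A, ¬ ∀ m ∈ M, x * m = m * x := by
    by_contra hcon
    push Not at hcon
    have : m1 ∈ A := hCA m1 (fun a ha => hcon a ha m1 hm1)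
    exact hm11 (hMA m1 hm1 this)
  obtain ⟨y1, hy1, hy1M⟩ : ∃ y ∈ B, ¬ ∀ m ∈ M, y * m = m * y := by
    by_contra hcon
    push Not at hcon
    have : m1 ∈ B := hCB m1 (fun b hb => hcon b hb m1 hm1)
    exact hm11 (hMB m1 hm1 this)
  have free : ∀ g : G, (¬ ∀ m ∈ M, g * m = m * g) → ∀ m ∈ M, g * m = m * g → m = 1 := by
    intro g hg m hm hgm
    by_contra h
    exact hg (fpf g m hm h hgm)
  have transfer : ∀ g g' : G, ∀ m ∈ M, m ≠ 1 → g * m * g⁻¹ = g' * m * g'⁻¹ →
      ∀ m' ∈ M, g * m' * g⁻¹ = g' * m' * g'⁻¹ := by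
    intro g g' m hm hmne h m' hm'
    have h1 : (g'⁻¹ * g) * m = m * (g'⁻¹ * g) := by
      calc (g'⁻¹ * g) * m = g'⁻¹ * (g * m * g⁻¹) * g := by group
        _ = g'⁻¹ * (g' * m * g'⁻¹) * g := by rw [h]
        _ = m * (g'⁻¹ * g) := by group
    have h2 := fpf (g'⁻¹ * g) m hm hmne h1 m' hm'
    calc g * m' * g⁻¹ = g' * ((g'⁻¹ * g) * m') * g⁻¹ := by group
      _ = g' * (m' * (g'⁻¹ * g)) * g⁻¹ := by rw [h2]
      _ = g' * m' * g'⁻¹ := by group
  obtain ⟨c, hc⟩ : ∃ c : G → G, ∀ g, c g = g * m1 * g⁻¹ * m1⁻¹ := ⟨_, fun _ => rfl⟩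
  have hcM : ∀ g, c g ∈ M := by
    intro g
    rw [hc]
    exact mul_mem (hMn.conj_mem m1 hm1 g) (inv_mem hm1)
  have hc1 : c 1 = 1 := by rw [hc]; group
  have hcne : ∀ g : G, (¬ ∀ m ∈ M, g * m = m * g) → c g ≠ 1 := by
    intro g hg hcg
    rw [hc] at hcg
    have h1 : g * m1 = m1 * g := by
      calc g * m1 = (g * m1 * g⁻¹ * m1⁻¹) * (m1 * g) := by group
        _ = m1 * g := by rw [hcg, one_mul]
    exact hm11 (free g hg m1 hm1 h1)
  -- conjugation formulas
  have dagB : ∀ y ∈ B, y * a0 * y⁻¹ = c y * a0 := by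
    intro y hy
    have h1 : b0⁻¹ * y⁻¹ = y⁻¹ * b0⁻¹ := by
      rw [← mul_inv_rev, ← mul_inv_rev, hB y hy b0 hb0]
    calc y * a0 * y⁻¹ = y * m1 * (b0⁻¹ * y⁻¹) := by rw [ha0eq]; group
      _ = y * m1 * (y⁻¹ * b0⁻¹) := by rw [h1]
      _ = c y * a0 := by rw [hc, ha0eq]; group
  have dagA : ∀ x ∈ A, x * b0 * x⁻¹ = c x * b0 := by
    intro x hx
    have h0 := hA x hx a0 ha0
    have h1 : x * a0⁻¹ = a0⁻¹ * x := by
      calc x * a0⁻¹ = a0⁻¹ * (a0 * x) * a0⁻¹ := by group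
        _ = a0⁻¹ * (x * a0) * a0⁻¹ := by rw [h0]
        _ = a0⁻¹ * x := by group
    have h3 := ha0M (c x) (hcM x)
    have h2 : a0⁻¹ * c x = c x * a0⁻¹ := by
      calc a0⁻¹ * c x = a0⁻¹ * (c x * a0) * a0⁻¹ := by group
        _ = a0⁻¹ * (a0 * c x) * a0⁻¹ := by rw [h3]
        _ = c x * a0⁻¹ := by group
    have h4 : x * m1 * x⁻¹ = c x * m1 := by rw [hc]; group
    calc x * b0 * x⁻¹ = (x * a0⁻¹) * m1 * x⁻¹ := by rw [hb0eq]; group
      _ = (a0⁻¹ * x) * m1 * x⁻¹ := by rw [h1]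
      _ = a0⁻¹ * (x * m1 * x⁻¹) := by group
      _ = a0⁻¹ * (c x * m1) := by rw [h4]
      _ = (a0⁻¹ * c x) * m1 := by group
      _ = (c x * a0⁻¹) * m1 := by rw [h2]
      _ = c x * b0 := by rw [hb0eq]; group
  -- stability
  have stabA : ∀ x ∈ A, ∀ y ∈ B, ∃ y' ∈ B, x * c y * x⁻¹ = c y' := by
    intro x hx y hy
    obtain ⟨a, ha, b, hb, hxy⟩ := hAB (x * y)⁻¹
    refine ⟨b⁻¹, inv_mem hb, ?_⟩
    have hxy' : x * y = b⁻¹ * a⁻¹ := by
      have h0 : x * y = ((x * y)⁻¹)⁻¹ := (inv_inv _).symm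
      rw [h0, hxy]; group
    have e1 : (x * y) * a0 * (x * y)⁻¹ = (x * c y * x⁻¹) * a0 := by
      have h1 := dagB y hy
      have h0 := hA x hx a0 ha0
      have h2 : a0 * x⁻¹ = x⁻¹ * a0 := by
        calc a0 * x⁻¹ = x⁻¹ * (x * a0) * x⁻¹ := by group
          _ = x⁻¹ * (a0 * x) * x⁻¹ := by rw [h0]
          _ = x⁻¹ * a0 := by group
      calc (x * y) * a0 * (x * y)⁻¹ = x * (y * a0 * y⁻¹) * x⁻¹ := by group
        _ = x * (c y * a0) * x⁻¹ := by rw [h1]
        _ = x * c y * (a0 * x⁻¹) := by group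
        _ = x * c y * (x⁻¹ * a0) := by rw [h2]
        _ = (x * c y * x⁻¹) * a0 := by group
    have e2 : (x * y) * a0 * (x * y)⁻¹ = c b⁻¹ * a0 := by
      rw [hxy']
      have h1 := dagB b⁻¹ (inv_mem hb)
      have h0 := hA a ha a0 ha0
      have h2 : a⁻¹ * a0 * a = a0 := by
        calc a⁻¹ * a0 * a = a⁻¹ * (a0 * a) := by group
          _ = a⁻¹ * (a * a0) := by rw [h0]
          _ = a0 := by group
      calc b⁻¹ * a⁻¹ * a0 * (b⁻¹ * a⁻¹)⁻¹ = b⁻¹ * (a⁻¹ * a0 * a) * b⁻¹⁻¹ := by group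
        _ = b⁻¹ * a0 * b⁻¹⁻¹ := by rw [h2]
        _ = c b⁻¹ * a0 := h1
    exact mul_right_cancel (e1.symm.trans e2)
  have stabB : ∀ y ∈ B, ∀ x ∈ A, ∃ x' ∈ A, y * c x * y⁻¹ = c x' := by
    intro y hy x hx
    obtain ⟨a, ha, b, hb, hyx⟩ := hAB (y * x)
    refine ⟨a, ha, ?_⟩
    have e1 : (y * x) * b0 * (y * x)⁻¹ = (y * c x * y⁻¹) * b0 := by
      have h1 := dagA x hx
      have h0 := hB y hy b0 hb0
      have h2 : b0 * y⁻¹ = y⁻¹ * b0 := by
        calc b0 * y⁻¹ = y⁻¹ * (y * b0) * y⁻¹ := by group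
          _ = y⁻¹ * (b0 * y) * y⁻¹ := by rw [h0]
          _ = y⁻¹ * b0 := by group
      calc (y * x) * b0 * (y * x)⁻¹ = y * (x * b0 * x⁻¹) * y⁻¹ := by group
        _ = y * (c x * b0) * y⁻¹ := by rw [h1]
        _ = y * c x * (b0 * y⁻¹) := by group
        _ = y * c x * (y⁻¹ * b0) := by rw [h2]
        _ = (y * c x * y⁻¹) * b0 := by group
    have e2 : (y * x) * b0 * (y * x)⁻¹ = c a * b0 := by
      rw [hyx]
      have h1 := dagA a ha
      have h0 := hB b hb b0 hb0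
      have h2 : b * b0 * b⁻¹ = b0 := by
        calc b * b0 * b⁻¹ = (b * b0) * b⁻¹ := by group
          _ = (b0 * b) * b⁻¹ := by rw [h0]
          _ = b0 := by group
      calc a * b * b0 * (a * b)⁻¹ = a * (b * b0 * b⁻¹) * a⁻¹ := by group
        _ = a * b0 * a⁻¹ := by rw [h2]
        _ = c a * b0 := h1
    exact mul_right_cancel (e1.symm.trans e2)
  -- counting
  have hUfin : (Set.range (fun y : B => c y)).Finite := Set.toFinite _
  have hVfin : (Set.range (fun x : A => c x)).Finite := Set.toFinite _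
  have h1U : (1 : G) ∈ Set.range (fun y : B => c y) := ⟨1, by simpa using hc1⟩
  have h1V : (1 : G) ∈ Set.range (fun x : A => c x) := ⟨1, by simpa using hc1⟩
  have hu1 := hcne y1 hy1M
  have hv1 := hcne x1 hx1M
  have ineq1 : (Set.range (fun x : A => c x)).ncard + 1 ≤ (Set.range (fun y : B => c y)).ncard := by
    have s1 : (Set.range (fun x : A => c x)).ncard ≤
        (Set.range (fun x : A => (x : G) * c y1 * (x : G)⁻¹)).ncard := by
      apply ncard_range_le
      intro x x' hxx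
      have h1 := transfer (x : G) (x' : G) (c y1) (hcM y1) hu1 hxx m1 hm1
      change c (x : G) = c (x' : G)
      rw [hc, hc, h1]
    have s2 : Set.range (fun x : A => (x : G) * c y1 * (x : G)⁻¹) ⊆
        Set.range (fun y : B => c y) \ {1} := by
      rintro _ ⟨x, rfl⟩
      obtain ⟨y', hy', hxy⟩ := stabA (x : G) x.2 y1 hy1
      refine ⟨⟨⟨y', hy'⟩, hxy.symm⟩, ?_⟩
      rw [Set.mem_singleton_iff]
      intro h1
      have h1' : (x : G) * c y1 * (x : G)⁻¹ = 1 := h1
      apply hu1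
      calc c y1 = (x : G)⁻¹ * ((x : G) * c y1 * (x : G)⁻¹) * (x : G) := by group
        _ = 1 := by rw [h1']; group
    have s3 := Set.ncard_le_ncard s2 (hUfin.subset Set.sdiff_subset)
    have s4 := Set.ncard_sdiff_singleton_of_mem h1U
    have s5 : 0 < (Set.range (fun y : B => c y)).ncard := (Set.ncard_pos hUfin).2 ⟨1, h1U⟩
    omega
  have ineq2 : (Set.range (fun y : B => c y)).ncard + 1 ≤ (Set.range (fun x : A => c x)).ncard := by
    have s1 : (Set.range (fun y : B => c y)).ncard ≤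
        (Set.range (fun y : B => (y : G) * c x1 * (y : G)⁻¹)).ncard := by
      apply ncard_range_le
      intro y y' hyy
      have h1 := transfer (y : G) (y' : G) (c x1) (hcM x1) hv1 hyy m1 hm1
      change c (y : G) = c (y' : G)
      rw [hc, hc, h1]
    have s2 : Set.range (fun y : B => (y : G) * c x1 * (y : G)⁻¹) ⊆
        Set.range (fun x : A => c x) \ {1} := by
      rintro _ ⟨y, rfl⟩
      obtain ⟨x', hx', hyx⟩ := stabB (y : G) y.2 x1 hx1
      refine ⟨⟨⟨x', hx'⟩, hyx.symm⟩, ?_⟩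
      rw [Set.mem_singleton_iff]
      intro h1
      have h1' : (y : G) * c x1 * (y : G)⁻¹ = 1 := h1
      apply hv1
      calc c x1 = (y : G)⁻¹ * ((y : G) * c x1 * (y : G)⁻¹) * (y : G) := by group
        _ = 1 := by rw [h1']; group
    have s3 := Set.ncard_le_ncard s2 (hVfin.subset Set.sdiff_subset)
    have s4 := Set.ncard_sdiff_singleton_of_mem h1V
    have s5 : 0 < (Set.range (fun x : A => c x)).ncard := (Set.ncard_pos hVfin).2 ⟨1, h1V⟩
    omega
  omega

end Cfsg.Agent.S0573
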