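import Cfsg.Statements.S0571
import Mathlib
import Cfsg.Agent.Lib.Helper9.Supersolvable4
import Cfsg.Agent.S0573

set_option autoImplicit false
open Cfsg

namespace Cfsg.Agent.S0571

theorem cyc_prod.{u} (k : ℕ) : ∀ (G : Type u) [Group G] [Finite G], Nat.card G ≤ k →
    ∀ (A B : Subgroup G), IsCyclic A → IsCyclic B → (∀ g : G, ∃ a ∈ A, ∃ b ∈ B, g = a * b) →
    Cfsg.IsSupersolvable G := by
  induction k with
  | zero =>
    intro G _ _ hk
    have := Nat.card_pos (α := G)
    omega
  | succ k ih =>
    intro G _ _ hk A B hA hB hAB
    rcases subsingleton_or_nontrivial G with hs | hn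
    · exact Cfsg.Agent.Lib.Helper9.isSupersolvable_of_subsingleton
    · obtain ⟨N, hNn, hNb, hNle⟩ := Cfsg.Agent.S0573.result A B hAB
      have hNc : IsCyclic N := by
        rcases hNle with h | h
        · exact Subgroup.isCyclic_of_le h
        · exact Subgroup.isCyclic_of_le h
      have hlt : Nat.card (G ⧸ N) ≤ k := by
        have h1 := Subgroup.card_eq_card_quotient_mul_card_subgroup N
        have h2 : 2 ≤ Nat.card N := by
          have h3 : Nat.card N ≠ 1 := fun h => hNb (Subgroup.card_eq_one.1 h)
          have h4 := Nat.card_pos (α := N)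
          omega
        have h5 := Nat.card_pos (α := G ⧸ N)
        nlinarith
      have hAq : IsCyclic (A.map (QuotientGroup.mk' N)) :=
        isCyclic_of_surjective ((QuotientGroup.mk' N).subgroupMap A)
          (MonoidHom.subgroupMap_surjective _ _)
      have hBq : IsCyclic (B.map (QuotientGroup.mk' N)) :=
        isCyclic_of_surjective ((QuotientGroup.mk' N).subgroupMap B)
          (MonoidHom.subgroupMap_surjective _ _)
      have hq := ih (G ⧸ N) hlt (A.map (QuotientGroup.mk' N)) (B.map (QuotientGroup.mk' N))
        hAq hBq (by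
          intro x
          obtain ⟨g, rfl⟩ := QuotientGroup.mk'_surjective N x
          obtain ⟨a, ha, b, hb, rfl⟩ := hAB g
          exact ⟨_, Subgroup.mem_map_of_mem _ ha, _, Subgroup.mem_map_of_mem _ hb,
            map_mul _ _ _⟩)
      exact Cfsg.Agent.Lib.Helper9.isSupersolvable_of_cyclic_normal N hq

/-- If a finite group G is the product AB of two cyclic subgroups (every element is a product ab), then G is supersolvable. -/
theorem result {G : Type*} [Group G] [Finite G] (A B : Subgroup G) [IsCyclic A] [IsCyclic B] (hAB : ∀ g : G, ∃ a ∈ A, ∃ b ∈ B, g = a * b) : Cfsg.IsSupersolvable G := by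
  exact cyc_prod (Nat.card G) G le_rfl A B inferInstance inferInstance hAB

end Cfsg.Agent.S0571
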