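import Cfsg.Statements.S0575
import Mathlib

set_option autoImplicit false
open Cfsg

namespace Cfsg.Agent.S0575

/-- If H is a normal subgroup of a finite group G, then the Frattini subgroup of H, viewed in G, lies in the Frattini subgroup of G. -/
theorem result {G : Type*} [Group G] [Finite G] (H : Subgroup G) [H.Normal] : (frattini ↥H).map H.subtype ≤ frattini G := by
  classical
  refine (le_iInf₂ (fun M hM => ?_) : _ ≤ Order.radical (Subgroup G))
  have hM' : IsCoatom M := hM
  by_contra hFM
  have hFn : ((frattini ↥H).map H.subtype).Normal := inferInstance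
  have hsup : (frattini ↥H).map H.subtype ⊔ M = ⊤ := hM'.2 _ (right_lt_sup.mpr hFM)
  have hK : (M.subgroupOf H) ⊔ frattini ↥H = ⊤ := by
    rw [eq_top_iff]
    intro h _
    have hg : (h : G) ∈ (((frattini ↥H).map H.subtype ⊔ M : Subgroup G) : Set G) := by
      rw [hsup]; trivial
    rw [Subgroup.normal_mul] at hg
    obtain ⟨f, ⟨f', hf', rfl⟩, m, hm, hfm⟩ := hg
    have hmH : m ∈ H := by
      have : m = (f' : G)⁻¹ * h := by rw [← hfm]; simp
      rw [this]; exact H.mul_mem (H.inv_mem f'.2) h.2
    have : h = f' * ⟨m, hmH⟩ := Subtype.ext (by simpa using hfm.symm)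
    rw [this]
    exact Subgroup.mul_mem _ (Subgroup.mem_sup_right hf')
      (Subgroup.mem_sup_left (by simpa [Subgroup.mem_subgroupOf] using hm))
  have htop := frattini_nongenerating hK
  apply hFM
  rintro _ ⟨f, hf, rfl⟩
  have : f ∈ M.subgroupOf H := by rw [htop]; trivial
  exact this

end Cfsg.Agent.S0575
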