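import Cfsg.Statements.S0576
import Mathlib

set_option autoImplicit false
open Cfsg

namespace Cfsg.Agent.S0576

/-- Let H be a normal subgroup of a finite group G with H contained in the Frattini subgroup of G. Then the group of inner automorphisms of H is contained in the Frattini subgroup of the automorphism group of H. -/
theorem result {G : Type*} [Group G] [Finite G] (H : Subgroup G) [H.Normal] (hH : H ≤ frattini G) : (MulAut.conj : ↥H →* MulAut ↥H).range ≤ frattini (MulAut ↥H) := by
  classical
  rw [frattini, Order.radical]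
  refine le_iInf₂ ?_
  intro M hM
  by_contra hIM
  have hIn : ((MulAut.conj : ↥H →* MulAut ↥H).range).Normal := by
    constructor
    rintro _ ⟨h, rfl⟩ φ
    refine ⟨φ h, ?_⟩
    ext x
    simp [MulAut.conj_apply]
  have hsup : (MulAut.conj : ↥H →* MulAut ↥H).range ⊔ M = ⊤ :=
    hM.2 _ (right_lt_sup.mpr hIM)
  have hK : M.comap (MulAut.conjNormal : G →* MulAut ↥H) ⊔ frattini G = ⊤ := by
    rw [eq_top_iff]
    intro g _
    have hg : (MulAut.conjNormal g : MulAut ↥H) ∈
        (((MulAut.conj : ↥H →* MulAut ↥H).range ⊔ M : Subgroup (MulAut ↥H)) : Set (MulAut ↥H)) := by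
      rw [hsup]; trivial
    rw [Subgroup.normal_mul] at hg
    obtain ⟨i, ⟨h, rfl⟩, m, hm, him⟩ := hg
    have h1 : ((h : G))⁻¹ * g ∈ M.comap (MulAut.conjNormal : G →* MulAut ↥H) := by
      rw [Subgroup.mem_comap, map_mul, map_inv, ← him, MulAut.conjNormal_val]
      simpa using hm
    have h2 : (h : G) ∈ frattini G := hH h.2
    have : g = ((h : G))⁻¹ * g * ((((h : G))⁻¹ * g)⁻¹ * (h : G) * (((h : G))⁻¹ * g)) := by group
    rw [this]
    refine Subgroup.mul_mem _ (Subgroup.mem_sup_left h1) (Subgroup.mem_sup_right ?_)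
    have hn : (frattini G).Normal := inferInstance
    have := hn.conj_mem _ h2 ((((h : G))⁻¹ * g)⁻¹)
    simpa using this
  have hK' := frattini_nongenerating hK
  apply hIM
  rintro _ ⟨h, rfl⟩
  have : (h : G) ∈ M.comap (MulAut.conjNormal : G →* MulAut ↥H) := by rw [hK']; trivial
  rw [Subgroup.mem_comap, MulAut.conjNormal_val] at this
  exact this

end Cfsg.Agent.S0576
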