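import Cfsg.Statements.S0578
import Mathlib

set_option autoImplicit false
open Cfsg

namespace Cfsg.Agent.S0578

/-- If in a finite group the normalizer of each abelian subgroup coincides with its centralizer, then the group is abelian. -/
theorem result {G : Type*} [Group G] [Finite G] (h : ∀ A : Subgroup G, IsMulCommutative A → Subgroup.normalizer (A : Set G) = Subgroup.centralizer (A : Set G)) : IsMulCommutative G := by
  classical
  -- Sylow subgroups are abelian
  have hsyl : ∀ (p : ℕ) [Fact p.Prime] (P : Sylow p G), IsMulCommutative (P : Subgroup G) := by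
    intro p _ P
    obtain ⟨A, -, hA⟩ := Finite.exists_le_maximal
      (p := fun A : Subgroup G => A ≤ (P : Subgroup G) ∧ IsMulCommutative A) (a := ⊥)
      ⟨bot_le, inferInstance⟩
    have hAP : A ≤ (P : Subgroup G) := hA.prop.1
    have hAc : IsMulCommutative A := hA.prop.2
    by_cases hEq : A = (P : Subgroup G)
    · rw [← hEq]; exact hAc
    exfalso
    have hne : A.subgroupOf (P : Subgroup G) ≠ ⊤ := by
      intro htop
      exact hEq (le_antisymm hAP (Subgroup.subgroupOf_eq_top.mp htop))
    have hnil : Group.IsNilpotent (P : Subgroup G) := P.isPGroup'.isNilpotent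
    have hnc := Group.normalizerCondition_of_isNilpotent (G := (P : Subgroup G))
      (A.subgroupOf (P : Subgroup G)) (lt_top_iff_ne_top.mpr hne)
    obtain ⟨x, hxN, hxA⟩ := SetLike.exists_of_lt hnc
    rw [← Subgroup.subgroupOf_normalizer_eq hAP] at hxN
    have hxN' : (x : G) ∈ Subgroup.normalizer (A : Set G) := hxN
    rw [h A hAc] at hxN'
    have hzc : Subgroup.zpowers (x : G) ≤ Subgroup.centralizer (A : Set G) :=
      Subgroup.zpowers_le.mpr hxN'
    have hAA : A ≤ Subgroup.centralizer (A : Set G) :=
      Subgroup.le_centralizer_iff_isMulCommutative.mpr hAc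
    have hzz : Subgroup.zpowers (x : G) ≤ Subgroup.centralizer (Subgroup.zpowers (x : G) : Set G) :=
      Subgroup.le_centralizer_iff_isMulCommutative.mpr inferInstance
    have hcomm : IsMulCommutative (A ⊔ Subgroup.zpowers (x : G) : Subgroup G) := by
      rw [← Subgroup.le_centralizer_iff_isMulCommutative]
      apply sup_le
      · exact Subgroup.le_centralizer_iff.mp (sup_le hAA hzc)
      · exact Subgroup.le_centralizer_iff.mp (sup_le (Subgroup.le_centralizer_iff.mp hzc) hzz)
    have hle : A ⊔ Subgroup.zpowers (x : G) ≤ (P : Subgroup G) :=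
      sup_le hAP (Subgroup.zpowers_le.mpr x.2)
    have := hA.le_of_ge ⟨hle, hcomm⟩ le_sup_left
    exact hxA (this (le_sup_right (a := A) (Subgroup.mem_zpowers (x : G))))
  rw [isMulCommutative_iff]
  intro a b
  have key : ∀ p : ℕ, p.Prime → ¬ p ∣ orderOf (a * b * a⁻¹ * b⁻¹) := by
    intro p hp
    have : Fact p.Prime := ⟨hp⟩
    obtain ⟨P⟩ : Nonempty (Sylow p G) := Sylow.nonempty
    have hPc : IsMulCommutative (P : Subgroup G) := hsyl p P
    have hP : Subgroup.normalizer ((P : Subgroup G) : Set G)
        ≤ Subgroup.centralizer ((P : Subgroup G) : Set G) := (h _ hPc).le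
    have hmem : a * b * a⁻¹ * b⁻¹ ∈ (MonoidHom.transferSylow P hP).ker := by
      rw [MonoidHom.mem_ker, map_mul, map_mul, map_mul, map_inv, map_inv]
      have hc := (isMulCommutative_iff.mp hPc) (MonoidHom.transferSylow P hP a)
        (MonoidHom.transferSylow P hP b)
      rw [hc]; group
    intro hdvd
    exact MonoidHom.not_dvd_card_ker_transferSylow P hP
      (hdvd.trans (Subgroup.orderOf_dvd_natCard _ hmem))
  have h1 : orderOf (a * b * a⁻¹ * b⁻¹) = 1 := by
    by_contra hne
    obtain ⟨p, hp, hpd⟩ := Nat.exists_prime_and_dvd hne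
    exact key p hp hpd
  have h2 : a * b * a⁻¹ * b⁻¹ = 1 := orderOf_eq_one_iff.mp h1
  calc a * b = (a * b * a⁻¹ * b⁻¹) * (b * a) := by group
    _ = b * a := by rw [h2, one_mul]

end Cfsg.Agent.S0578
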