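import Mathlib
import Cfsg.Statements.S0583
import Cfsg.Agent.Lib.Helper71.Fitting
import Cfsg.Agent.S0065
-- import your own Cfsg.Agent.* helpers here

set_option autoImplicit false
open Cfsg

namespace Cfsg.Agent.S0583

/-- In a finite group the Fitting subgroup is contained in the centralizer of each minimal normal subgroup. -/
theorem result {G : Type*} [Group G] [Finite G] (M : Subgroup G) [M.Normal] (hM : M ≠ ⊥) (hmin : ∀ K : Subgroup G, K.Normal → K ≤ M → K = ⊥ ∨ K = M) : Cfsg.fittingSubgroup G ≤ Subgroup.centralizer (M : Set G) := by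
  have hFn : (Cfsg.fittingSubgroup G).Normal := Cfsg.Agent.Lib.Helper71.fittingSubgroup_normal
  have hFnil : Group.IsNilpotent (Cfsg.fittingSubgroup G) :=
    Cfsg.Agent.Lib.Helper71.fittingSubgroup_isNilpotent
  have hMFn : (M ⊓ Cfsg.fittingSubgroup G).Normal := inferInstance
  rcases hmin _ hMFn inf_le_left with h | h
  · -- M ⊓ F = ⊥ : commutators lie in both
    intro f hf
    rw [Subgroup.mem_centralizer_iff]
    intro m hm
    have h1 : m * f * m⁻¹ * f⁻¹ ∈ M ⊓ Cfsg.fittingSubgroup G := by
      refine Subgroup.mem_inf.2 ⟨?_, ?_⟩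
      · have := ‹M.Normal›.conj_mem m⁻¹ (inv_mem hm) f
        have h2 : m * f * m⁻¹ * f⁻¹ = m * (f * m⁻¹ * f⁻¹) := by group
        rw [h2]
        exact mul_mem hm this
      · exact mul_mem (hFn.conj_mem f hf m) (inv_mem hf)
    rw [h, Subgroup.mem_bot] at h1
    have h3 : m * f = (m * f * m⁻¹ * f⁻¹) * (f * m) := by group
    rw [h3, h1, one_mul]
  · -- M ≤ F
    have hMF : M ≤ Cfsg.fittingSubgroup G := by rw [← h]; exact inf_le_right
    have hne : M.subgroupOf (Cfsg.fittingSubgroup G) ≠ ⊥ := by
      intro hbot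
      apply hM
      rw [Subgroup.subgroupOf_eq_bot] at hbot
      exact disjoint_self.1 (hbot.mono_right hMF)
    have hsn : (M.subgroupOf (Cfsg.fittingSubgroup G)).Normal := inferInstance
    have hZ := Cfsg.Agent.S0065.result (M.subgroupOf (Cfsg.fittingSubgroup G)) hne
    -- Z(F) mapped to G is normal
    have hZc : (Subgroup.center (Cfsg.fittingSubgroup G)).Characteristic := inferInstance
    have hZn : ((Subgroup.center (Cfsg.fittingSubgroup G)).map (Cfsg.fittingSubgroup G).subtype).Normal :=
      ConjAct.normal_of_characteristic_of_normal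
    have hKn : (M ⊓ (Subgroup.center (Cfsg.fittingSubgroup G)).map (Cfsg.fittingSubgroup G).subtype).Normal :=
      inferInstance
    have hKne : M ⊓ (Subgroup.center (Cfsg.fittingSubgroup G)).map (Cfsg.fittingSubgroup G).subtype ≠ ⊥ := by
      intro hbot
      apply hZ
      rw [eq_bot_iff]
      intro x hx
      obtain ⟨hx1, hx2⟩ := Subgroup.mem_inf.1 hx
      rw [Subgroup.mem_subgroupOf] at hx1
      have : (x : G) ∈ M ⊓ (Subgroup.center (Cfsg.fittingSubgroup G)).map (Cfsg.fittingSubgroup G).subtype :=
        Subgroup.mem_inf.2 ⟨hx1, Subgroup.mem_map_of_mem _ hx2⟩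
      rw [hbot, Subgroup.mem_bot] at this
      rw [Subgroup.mem_bot]
      exact Subtype.ext this
    rcases hmin _ hKn inf_le_left with h' | h'
    · exact absurd h' hKne
    · have hMZ : M ≤ (Subgroup.center (Cfsg.fittingSubgroup G)).map (Cfsg.fittingSubgroup G).subtype := by
        rw [← h']; exact inf_le_right
      intro f hf
      rw [Subgroup.mem_centralizer_iff]
      intro m hm
      obtain ⟨z, hz, rfl⟩ := Subgroup.mem_map.1 (hMZ hm)
      have := Subgroup.mem_center_iff.1 hz ⟨f, hf⟩
      have h4 := congrArg Subtype.val this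
      simpa using h4.symm

end Cfsg.Agent.S0583
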