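import Mathlib
import Cfsg.Statements.S0586
import Cfsg.Agent.Lib.Helper71.Fitting
import Cfsg.Agent.Lib.Helper29.Fstar
import Cfsg.Agent.S0583
import Cfsg.Agent.S0585
-- import your own Cfsg.Agent.* helpers here

set_option autoImplicit false
open Cfsg

namespace Cfsg.Agent.S0586

/-- If the Frattini subgroup of a finite group G is trivial, then the Fitting subgroup of G equals the join of all abelian minimal normal subgroups of G. -/
theorem result {G : Type*} [Group G] [Finite G] (hΦ : frattini G = ⊥) : Cfsg.fittingSubgroup G = sSup {N : Subgroup G | N.Normal ∧ N ≠ ⊥ ∧ IsMulCommutative N ∧ ∀ K : Subgroup G, K.Normal → K ≤ N → K = ⊥ ∨ K = N} := by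
  have hFn : (Cfsg.fittingSubgroup G).Normal := Cfsg.Agent.Lib.Helper71.fittingSubgroup_normal
  -- every member lies in F
  have hge : sSup {N : Subgroup G | N.Normal ∧ N ≠ ⊥ ∧ IsMulCommutative N ∧
      ∀ K : Subgroup G, K.Normal → K ≤ N → K = ⊥ ∨ K = N} ≤ Cfsg.fittingSubgroup G := by
    apply sSup_le
    rintro N ⟨hNn, -, hNc, -⟩
    exact le_sSup ⟨hNn, Cfsg.Agent.Lib.Helper29.isNilpotent_of_isMulCommutative _⟩
  refine le_antisymm ?_ hge
  obtain ⟨S, hS⟩ : ∃ S : Subgroup G, S = sSup {N : Subgroup G | N.Normal ∧ N ≠ ⊥ ∧ IsMulCommutative N ∧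
      ∀ K : Subgroup G, K.Normal → K ≤ N → K = ⊥ ∨ K = N} := ⟨_, rfl⟩
  rw [← hS] at hge ⊢
  -- F centralizes S
  have hFS : ∀ f ∈ Cfsg.fittingSubgroup G, ∀ s ∈ S, s * f = f * s := by
    intro f hf
    have : S ≤ Subgroup.centralizer ({f} : Set G) := by
      rw [hS]
      apply sSup_le
      rintro N ⟨hNn, hN1, -, hNmin⟩ n hn
      rw [Subgroup.mem_centralizer_iff]
      intro h hh
      rw [Set.mem_singleton_iff] at hh
      subst hh
      have := hNn
      have h1 := Cfsg.Agent.S0583.result N hN1 hNmin hf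
      rw [Subgroup.mem_centralizer_iff] at h1
      exact (h1 n hn).symm
    intro s hs
    have h2 := this hs
    rw [Subgroup.mem_centralizer_iff] at h2
    exact (h2 f rfl).symm
  have hSn : S.Normal := by
    rw [hS]; exact Subgroup.sSup_normal _ (fun _ h => h.1)
  have hSc : IsMulCommutative S := by
    refine ⟨⟨?_⟩⟩
    rintro ⟨a, ha⟩ ⟨b, hb⟩
    apply Subtype.ext
    exact hFS b (hge hb) a ha
  obtain ⟨K, hK⟩ := Cfsg.Agent.S0585.result hΦ S
  have hdisj : ∀ x, x ∈ S → x ∈ K → x = 1 := fun x hx hx' => Subgroup.disjoint_def.1 hK.disjoint hx hx'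
  have htop : S ⊔ K = ⊤ := hK.sup_eq_top
  have hdecomp : ∀ g : G, ∃ s ∈ S, ∃ k ∈ K, g = s * k := by
    intro g
    have hg : g ∈ ((S ⊔ K : Subgroup G) : Set G) := by rw [htop]; exact Set.mem_univ g
    rw [Subgroup.normal_mul] at hg
    obtain ⟨s, hs, k, hk, rfl⟩ := Set.mem_mul.1 hg
    exact ⟨s, hs, k, hk, rfl⟩
  -- D = F ⊓ K is normal
  have hDn : (Cfsg.fittingSubgroup G ⊓ K).Normal := by
    constructor
    intro d hd g
    obtain ⟨hdF, hdK⟩ := Subgroup.mem_inf.1 hd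
    obtain ⟨s, hs, k, hk, rfl⟩ := hdecomp g
    have h1 : k * d * k⁻¹ ∈ Cfsg.fittingSubgroup G ⊓ K :=
      Subgroup.mem_inf.2 ⟨hFn.conj_mem d hdF k, mul_mem (mul_mem hk hdK) (inv_mem hk)⟩
    have hc := hFS (k * d * k⁻¹) (Subgroup.mem_inf.1 h1).1 s hs
    have h2 : s * k * d * (s * k)⁻¹ = k * d * k⁻¹ := by
      calc s * k * d * (s * k)⁻¹ = s * (k * d * k⁻¹) * s⁻¹ := by group
        _ = (k * d * k⁻¹) * s * s⁻¹ := by rw [hc]
        _ = k * d * k⁻¹ := by group
    rw [h2]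
    exact h1
  have hD : Cfsg.fittingSubgroup G ⊓ K = ⊥ := by
    by_contra hcon
    have hne : {N : Subgroup G | N.Normal ∧ N ≠ ⊥ ∧ N ≤ Cfsg.fittingSubgroup G ⊓ K}.Nonempty :=
      ⟨_, hDn, hcon, le_rfl⟩
    obtain ⟨N, ⟨hNn, hN1, hNle⟩, hmin⟩ :=
      (Set.toFinite {N : Subgroup G | N.Normal ∧ N ≠ ⊥ ∧ N ≤ Cfsg.fittingSubgroup G ⊓ K}).exists_minimal hne
    have hNmin : ∀ K' : Subgroup G, K'.Normal → K' ≤ N → K' = ⊥ ∨ K' = N := by
      intro K' hK'n hK'le
      by_cases hb : K' = ⊥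
      · exact Or.inl hb
      · right
        exact le_antisymm hK'le (hmin ⟨hK'n, hb, hK'le.trans hNle⟩ hK'le)
    have := hNn
    have hcent := Cfsg.Agent.S0583.result N hN1 hNmin
    have hNc : IsMulCommutative N := by
      refine ⟨⟨?_⟩⟩
      rintro ⟨a, ha⟩ ⟨b, hb⟩
      apply Subtype.ext
      have h1 := hcent ((hNle ha).1)
      rw [Subgroup.mem_centralizer_iff] at h1
      exact (h1 b hb).symm
    have hNS : N ≤ S := by
      rw [hS]
      exact le_sSup ⟨hNn, hN1, hNc, hNmin⟩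
    apply hN1
    rw [eq_bot_iff]
    intro x hx
    rw [Subgroup.mem_bot]
    exact hdisj x (hNS hx) (hNle hx).2
  intro f hf
  obtain ⟨s, hs, k, hk, rfl⟩ := hdecomp f
  have hkF : k ∈ Cfsg.fittingSubgroup G := by
    have : k = s⁻¹ * (s * k) := by group
    rw [this]
    exact mul_mem (inv_mem (hge hs)) hf
  have hk1 : k ∈ Cfsg.fittingSubgroup G ⊓ K := Subgroup.mem_inf.2 ⟨hkF, hk⟩
  rw [hD, Subgroup.mem_bot] at hk1
  rw [hk1, mul_one]
  exact hs

end Cfsg.Agent.S0586
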