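import Cfsg.Statements.S0587
import Mathlib
import Cfsg.Agent.Lib.Helper10.CoreFree
import Cfsg.Agent.Lib.Helper10.ElemAb

set_option autoImplicit false
open Cfsg

namespace Cfsg.Agent.S0587

open Cfsg.Agent.Lib.Helper10

/-- A `q`-group `Q` acting by conjugation on a normal subgroup `L` with `C_L(Q) = 1` forces
`|L| ≡ 1 (mod q)`. -/
theorem card_modEq_one_of_centralizer_trivial {G : Type*} [Group G] [Finite G] {q : ℕ}
    [Fact q.Prime] (L Q : Subgroup G) [L.Normal] (hQ : IsPGroup q Q)
    (h : L ⊓ Subgroup.centralizer (Q : Set G) = ⊥) : Nat.card L % q = 1 % q := by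
  let φ : Q →* MulAut L := (MulAut.conjNormal (H := L)).comp Q.subtype
  let _inst : MulAction Q L := MulAction.compHom L φ
  have hfix : MulAction.fixedPoints Q L = {1} := by
    ext l
    simp only [MulAction.mem_fixedPoints, Set.mem_singleton_iff]
    constructor
    · intro hl
      have hmem : (l : G) ∈ L ⊓ Subgroup.centralizer (Q : Set G) := by
        refine Subgroup.mem_inf.2 ⟨l.2, ?_⟩
        rw [Subgroup.mem_centralizer_iff]
        intro x hx
        have h1 : φ ⟨x, hx⟩ l = l := hl ⟨x, hx⟩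
        have h2 : x * (l : G) * x⁻¹ = l := by
          have h3 := congrArg Subtype.val h1
          rw [show ((φ ⟨x, hx⟩) l : G) = x * l * x⁻¹ from MulAut.conjNormal_apply x l] at h3
          exact h3
        calc x * l = (x * l * x⁻¹) * x := by group
          _ = l * x := by rw [h2]
      rw [h, Subgroup.mem_bot] at hmem
      exact Subtype.ext hmem
    · rintro rfl x
      show φ x 1 = 1
      exact map_one _
  have h4 := hQ.card_modEq_card_fixedPoints L
  rw [hfix] at h4
  have h5 : Nat.card ↥({1} : Set L) = 1 := by simp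
  rw [h5] at h4
  exact h4

/-- Let G be a finite group whose largest normal p-subgroup L is nontrivial, and M a maximal subgroup of G with trivial normal core. Then L is elementary abelian, M is a complement to L, L is a minimal normal subgroup of G, the centralizer of L is L, and for every prime q such that the largest normal q-subgroup of M is nontrivial, the order of L is congruent to 1 modulo q and q ≠ p. -/
theorem result {G : Type*} [Group G] [Finite G] (p : ℕ) [Fact p.Prime] (hL : Cfsg.pCore p G ≠ ⊥) (M : Subgroup G) (hM : IsCoatom M) (hcore : M.normalCore = ⊥) : Cfsg.IsElementaryAbelian p (Cfsg.pCore p G) ∧ Subgroup.IsComplement' (Cfsg.pCore p G) M ∧ (∀ K : Subgroup G, K.Normal → K ≤ Cfsg.pCore p G → K = ⊥ ∨ K = Cfsg.pCore p G) ∧ Subgroup.centralizer ((Cfsg.pCore p G : Subgroup G) : Set G) = Cfsg.pCore p G ∧ ∀ (q : ℕ) [Fact q.Prime], Cfsg.pCore q ↥M ≠ ⊥ → Nat.card (Cfsg.pCore p G) % q = 1 % q ∧ q ≠ p := by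
  classical
  have hLn0 : (Cfsg.pCore p G).Normal := Subgroup.sSup_normal _ (fun _ h => h.1)
  have hLp0 : IsPGroup p (Cfsg.pCore p G) :=
    Sylow.sSup_of_normal _ (fun _ h => h.2) (fun _ h => h.1)
  obtain ⟨L, hLdef⟩ : ∃ L : Subgroup G, L = Cfsg.pCore p G := ⟨_, rfl⟩
  rw [← hLdef] at hLn0 hLp0 hL ⊢
  have hLn : L.Normal := hLn0
  have hZn : (L ⊓ Subgroup.centralizer (L : Set G)).Normal := inferInstance
  have hnt : Nontrivial L := (Subgroup.nontrivial_iff_ne_bot L).2 hL
  have hZ : L ⊓ Subgroup.centralizer (L : Set G) ≠ ⊥ := by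
    have hc := hLp0.center_nontrivial
    obtain ⟨z, hz⟩ := exists_ne (1 : Subgroup.center L)
    intro hbot
    apply hz
    have hmem : ((z : L) : G) ∈ L ⊓ Subgroup.centralizer (L : Set G) := by
      refine Subgroup.mem_inf.2 ⟨(z : L).2, ?_⟩
      rw [Subgroup.mem_centralizer_iff]
      intro h hh
      have h1 := (Subgroup.mem_center_iff.1 z.2) ⟨h, hh⟩
      exact congrArg Subtype.val h1
    rw [hbot, Subgroup.mem_bot] at hmem
    exact Subtype.ext (Subtype.ext hmem)
  have hsup : L ⊔ M = ⊤ := sup_eq_top_of_coreFree M hM hcore L hL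
  have hfac := exists_mul_of_sup_eq_top L M hsup
  have hLCZ : L ≤ Subgroup.centralizer
      ((L ⊓ Subgroup.centralizer (L : Set G) : Subgroup G) : Set G) := by
    intro l hl
    rw [Subgroup.mem_centralizer_iff]
    intro z hz
    exact (hz.2 l hl).symm
  have hCZM := centralizer_inf_eq_bot_of_coreFree M hM hcore
    (L ⊓ Subgroup.centralizer (L : Set G)) hZ
  have hCZ : Subgroup.centralizer
      ((L ⊓ Subgroup.centralizer (L : Set G) : Subgroup G) : Set G) = L := by
    apply le_antisymm _ hLCZ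
    intro g hg
    obtain ⟨l, hl, m, hm, rfl⟩ := hfac g
    have hm' : m ∈ Subgroup.centralizer
        ((L ⊓ Subgroup.centralizer (L : Set G) : Subgroup G) : Set G) ⊓ M := by
      refine Subgroup.mem_inf.2 ⟨?_, hm⟩
      have e : m = l⁻¹ * (l * m) := by group
      rw [e]
      exact Subgroup.mul_mem _ (Subgroup.inv_mem _ (hLCZ hl)) hg
    rw [hCZM, Subgroup.mem_bot] at hm'
    rw [hm', mul_one]
    exact hl
  have hmin : ∀ K : Subgroup G, K.Normal → K ≤ L → K = ⊥ ∨ K = L := by
    intro K hKn hKL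
    have h1 := centralizer_minimal_of_coreFree M hM hcore _ hZ K hKn (by rw [hCZ]; exact hKL)
    rwa [hCZ] at h1
  have hZL : L ⊓ Subgroup.centralizer (L : Set G) = L :=
    (hmin _ hZn inf_le_left).resolve_left hZ
  have hcomm : ∀ x ∈ L, ∀ y ∈ L, x * y = y * x := by
    intro x hx y hy
    have hy' : y ∈ L ⊓ Subgroup.centralizer (L : Set G) := by rw [hZL]; exact hy
    exact hy'.2 x hx
  have hCL : Subgroup.centralizer (L : Set G) = L := by
    have h1 := hCZ
    rwa [hZL] at h1
  have hLM : L ⊓ M = ⊥ := by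
    have h1 := centralizer_inf_eq_bot_of_coreFree M hM hcore L hL
    rwa [hCL] at h1
  have hexp : ∀ x ∈ L, x ^ p = 1 := by
    let K : Subgroup G :=
      { carrier := {x | x ∈ L ∧ x ^ p = 1}
        mul_mem' := by
          rintro a b ⟨ha, hap⟩ ⟨hb, hbp⟩
          refine ⟨L.mul_mem ha hb, ?_⟩
          have hc : Commute a b := hcomm a ha b hb
          rw [hc.mul_pow, hap, hbp, one_mul]
        one_mem' := ⟨L.one_mem, one_pow p⟩
        inv_mem' := by
          rintro a ⟨ha, hap⟩
          exact ⟨L.inv_mem ha, by rw [inv_pow, hap, inv_one]⟩ }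
    have hKn : K.Normal := by
      constructor
      rintro x ⟨hx, hxp⟩ g
      refine ⟨hLn.conj_mem x hx g, ?_⟩
      rw [conj_pow, hxp]; group
    have hKL : K ≤ L := fun x hx => hx.1
    have hKne : K ≠ ⊥ := by
      obtain ⟨n, hn0, hn⟩ := hLp0.nontrivial_iff_card.1 hnt
      have hdvd : p ∣ Nat.card L := hn ▸ dvd_pow_self p hn0.ne'
      obtain ⟨x, hx⟩ := exists_prime_orderOf_dvd_card' p hdvd
      intro hK
      have hxp : (x : G) ^ p = 1 := by
        have h1 := pow_orderOf_eq_one x
        rw [hx] at h1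
        have h2 := congrArg Subtype.val h1
        simpa using h2
      have hxK : (x : G) ∈ K := ⟨x.2, hxp⟩
      rw [hK, Subgroup.mem_bot] at hxK
      have hx1 : x = 1 := Subtype.ext hxK
      rw [hx1, orderOf_one] at hx
      exact (Fact.out : p.Prime).one_lt.ne hx
    have hKeq := (hmin K hKn hKL).resolve_left hKne
    intro x hx
    have hxK : x ∈ K := by rw [hKeq]; exact hx
    exact hxK.2
  refine ⟨isElementaryAbelian_iff.2 ⟨hcomm, hexp⟩, ?_, hmin, hCL, ?_⟩
  · apply Subgroup.isComplement'_of_disjoint_and_mul_eq_univ (disjoint_iff.2 hLM)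
    rw [Set.eq_univ_iff_forall]
    intro g
    obtain ⟨l, hl, m, hm, rfl⟩ := hfac g
    exact Set.mul_mem_mul hl hm
  · intro q hq hQ
    have hQp : IsPGroup q (Cfsg.pCore q ↥M) :=
      Sylow.sSup_of_normal _ (fun _ h => h.2) (fun _ h => h.1)
    have hQn : (Cfsg.pCore q ↥M).Normal := Subgroup.sSup_normal _ (fun _ h => h.1)
    obtain ⟨Q, hQdef⟩ : ∃ Q : Subgroup G, Q = (Cfsg.pCore q ↥M).map M.subtype := ⟨_, rfl⟩
    have hQM : Q ≤ M := by rw [hQdef]; exact Subgroup.map_subtype_le _
    have hQne : Q ≠ ⊥ := by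
      rw [hQdef]
      intro h
      exact hQ ((Subgroup.map_eq_bot_iff_of_injective _ M.subtype_injective).1 h)
    have hQp' : IsPGroup q Q := by rw [hQdef]; exact hQp.map _
    have hQconj : ∀ m ∈ M, ∀ x ∈ Q, m * x * m⁻¹ ∈ Q := by
      intro m hm x hx
      rw [hQdef] at hx ⊢
      obtain ⟨y, hy, rfl⟩ := hx
      exact ⟨⟨m, hm⟩ * y * ⟨m, hm⟩⁻¹, hQn.conj_mem y hy ⟨m, hm⟩, rfl⟩
    have hQL : ¬ Q ≤ L := by
      intro h
      apply hQne
      rw [eq_bot_iff, ← hLM]
      exact le_inf h hQM
    have hCn : (L ⊓ Subgroup.centralizer (Q : Set G)).Normal := by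
      constructor
      intro x hx g
      obtain ⟨l, hl, m, hm, rfl⟩ := hfac g
      have h1 : m * x * m⁻¹ ∈ L := hLn.conj_mem x hx.1 m
      have h2 : m * x * m⁻¹ ∈ Subgroup.centralizer (Q : Set G) := by
        rw [Subgroup.mem_centralizer_iff]
        intro y hy
        have hy' : m⁻¹ * y * m ∈ Q := by
          have h4 := hQconj m⁻¹ (M.inv_mem hm) y hy
          rwa [inv_inv] at h4
        have h3 := (Subgroup.mem_centralizer_iff.1 hx.2) _ hy'
        calc y * (m * x * m⁻¹) = m * ((m⁻¹ * y * m) * x) * m⁻¹ := by group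
          _ = m * (x * (m⁻¹ * y * m)) * m⁻¹ := by rw [h3]
          _ = m * x * m⁻¹ * y := by group
      have e : l * m * x * (l * m)⁻¹ = m * x * m⁻¹ := by
        have hc := hcomm l hl _ h1
        calc l * m * x * (l * m)⁻¹ = (l * (m * x * m⁻¹)) * l⁻¹ := by group
          _ = ((m * x * m⁻¹) * l) * l⁻¹ := by rw [hc]
          _ = m * x * m⁻¹ := by group
      rw [e]
      exact Subgroup.mem_inf.2 ⟨h1, h2⟩
    have hCbot : L ⊓ Subgroup.centralizer (Q : Set G) = ⊥ := by
      rcases hmin _ hCn inf_le_left with h | h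
      · exact h
      · exfalso
        apply hQL
        have hLC : L ≤ Subgroup.centralizer (Q : Set G) := by rw [← h]; exact inf_le_right
        have h5 : Q ≤ Subgroup.centralizer (L : Set G) := Subgroup.le_centralizer_iff.1 hLC
        rwa [hCL] at h5
    refine ⟨card_modEq_one_of_centralizer_trivial L Q hQp' hCbot, ?_⟩
    intro hqp
    apply hQL
    have hQp'' : IsPGroup p Q := by rw [← hqp]; exact hQp'
    have hsupP : IsPGroup p (L ⊔ Q : Subgroup G) := IsPGroup.to_sup_of_normal_left hLp0 hQp''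
    have hsupN : (L ⊔ Q).Normal := by
      rw [← Subgroup.normalizer_eq_top_iff, eq_top_iff, ← hsup]
      refine sup_le (le_sup_left.trans Subgroup.le_normalizer) ?_
      intro m hm
      apply Subgroup.normalizer_inf_normalizer_le_normalizer_sup
      refine Subgroup.mem_inf.2 ⟨?_, ?_⟩
      · rw [Subgroup.normalizer_eq_top_iff.2 hLn]; trivial
      · rw [Subgroup.mem_normalizer_iff]
        intro x
        constructor
        · exact hQconj m hm x
        · intro hx
          have h6 := hQconj m⁻¹ (M.inv_mem hm) _ hx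
          have e : m⁻¹ * (m * x * m⁻¹) * m⁻¹⁻¹ = x := by group
          rwa [e] at h6
    have h7 : L ⊔ Q ≤ Cfsg.pCore p G := le_sSup ⟨hsupN, hsupP⟩
    rw [← hLdef] at h7
    exact le_sup_right.trans h7

end Cfsg.Agent.S0587
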