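import Cfsg.Statements.S0589
import Mathlib
import Cfsg.Agent.Lib.Helper10.FrobAction

set_option autoImplicit false
open Pointwise
open Cfsg

namespace Cfsg.Agent.S0589

open Cfsg.Agent.Lib.Helper10
open scoped Pointwise

/-- In `G / H` with `H` a Frobenius complement, a nonidentity element fixes at most one coset. -/
theorem fix_unique {G : Type*} [Group G] (H : Subgroup G)
    (hH : ∀ g : G, g ∉ H → H ⊓ (MulAut.conj g • H) = ⊥) {x : G} (hx : x ≠ 1) (a b : G ⧸ H)
    (ha : x • a = a) (hb : x • b = b) : a = b := by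
  induction a using QuotientGroup.induction_on with
  | H a =>
  induction b using QuotientGroup.induction_on with
  | H b =>
  have ha' : a⁻¹ * x * a ∈ H := by
    have h1 : ((x * a : G) : G ⧸ H) = (a : G ⧸ H) := ha
    have h2 := QuotientGroup.eq.1 h1
    have h3 := H.inv_mem h2
    have e : ((x * a)⁻¹ * a)⁻¹ = a⁻¹ * x * a := by group
    rwa [e] at h3
  have hb' : b⁻¹ * x * b ∈ H := by
    have h1 : ((x * b : G) : G ⧸ H) = (b : G ⧸ H) := hb
    have h2 := QuotientGroup.eq.1 h1
    have h3 := H.inv_mem h2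
    have e : ((x * b)⁻¹ * b)⁻¹ = b⁻¹ * x * b := by group
    rwa [e] at h3
  by_contra hab
  have hg : a⁻¹ * b ∉ H := fun h => hab (QuotientGroup.eq.2 h)
  have hmem : a⁻¹ * x * a ∈ H ⊓ (MulAut.conj (a⁻¹ * b) • H) := by
    refine Subgroup.mem_inf.2 ⟨ha', ?_⟩
    rw [Subgroup.mem_pointwise_smul_iff_inv_smul_mem]
    have e : (MulAut.conj (a⁻¹ * b))⁻¹ • (a⁻¹ * x * a) = b⁻¹ * x * b := by
      rw [← map_inv, MulAut.smul_def, MulAut.conj_apply]
      group
    rw [e]
    exact hb'
  rw [hH _ hg, Subgroup.mem_bot] at hmem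
  apply hx
  calc x = a * (a⁻¹ * x * a) * a⁻¹ := by group
    _ = 1 := by rw [hmem]; group

/-- Let H be a Frobenius complement in a finite group G and L a subgroup of G whose order divides the order of H. Then L is contained in some conjugate of H. -/
theorem result {G : Type*} [Group G] [Finite G] (H : Subgroup G) (hH : Cfsg.IsFrobeniusComplement H) (L : Subgroup G) (hL : Nat.card L ∣ Nat.card H) : ∃ x : G, L ≤ MulAut.conj x • H := by
  classical
  obtain ⟨-, -, hTI⟩ := hH
  -- `H` acts on `G / H` with the fixed point `H`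
  have hFH : ∀ x : H, x ≠ 1 → ∀ a b : G ⧸ H, x • a = a → x • b = b → a = b := by
    intro x hx a b ha hb
    exact fix_unique H hTI (x := (x : G)) (fun h => hx (Subtype.ext h)) a b ha hb
  have hfixH : ∀ x : H, x • ((1 : G) : G ⧸ H) = ((1 : G) : G ⧸ H) := by
    intro x
    show (((x : G) * 1 : G) : G ⧸ H) = ((1 : G) : G ⧸ H)
    rw [QuotientGroup.eq]
    simp
  have hmodH := card_mod_of_fixed hFH _ hfixH
  have hmodL : Nat.card (G ⧸ H) % Nat.card L = 1 % Nat.card L :=
    Nat.ModEq.of_dvd hL hmodH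
  have hFL : ∀ x : L, x ≠ 1 → ∀ a b : G ⧸ H, x • a = a → x • b = b → a = b := by
    intro x hx a b ha hb
    exact fix_unique H hTI (x := (x : G)) (fun h => hx (Subtype.ext h)) a b ha hb
  obtain ⟨ω, hω⟩ := exists_fixed_of_card_mod hFL hmodL
  induction ω using QuotientGroup.induction_on with
  | H g =>
  refine ⟨g, fun l hl => ?_⟩
  rw [Subgroup.mem_pointwise_smul_iff_inv_smul_mem]
  have h1 : (((l * g : G)) : G ⧸ H) = (g : G ⧸ H) := hω ⟨l, hl⟩
  have h2 := QuotientGroup.eq.1 h1
  have h3 := H.inv_mem h2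
  have e : ((l * g)⁻¹ * g)⁻¹ = (MulAut.conj g)⁻¹ • l := by
    rw [← map_inv, MulAut.smul_def, MulAut.conj_apply]
    group
  rwa [e] at h3

end Cfsg.Agent.S0589
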