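import Mathlib
import Cfsg.Statements.S0590

set_option autoImplicit false
open Cfsg
open scoped commutatorElement

namespace Cfsg.Agent.S0590

/-- power trick: if `z = h s h⁻¹ s⁻¹` commutes with `s`, then `h s^k h⁻¹ = z^k s^k`. -/
theorem conj_pow_eq {G : Type*} [Group G] (h s : G) (hz : Commute (h * s * h⁻¹ * s⁻¹) s) (k : ℕ) :
    h * s ^ k * h⁻¹ = (h * s * h⁻¹ * s⁻¹) ^ k * s ^ k := by
  have h1 : h * s * h⁻¹ = (h * s * h⁻¹ * s⁻¹) * s := by group
  have h2 : h * s ^ k * h⁻¹ = (h * s * h⁻¹) ^ k := by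
    rw [conj_pow]
  rw [h2, h1, hz.mul_pow]
  congr 1
  congr 1
  group

/-- Quadratic action on an elementary abelian p-group forces the acting group modulo the kernel of the action to be elementary abelian. -/
theorem result {G : Type*} [Group G] [Finite G] {p : ℕ} [Fact p.Prime] (V H : Subgroup G) (hV : Cfsg.IsElementaryAbelian p V) (hHV : H ≤ Subgroup.normalizer (V : Set G)) (hq : ⁅⁅V, H⁆, H⁆ = ⊥) : ⁅H, H⁆ ≤ Subgroup.centralizer (V : Set G) ∧ ∀ a ∈ H, a ^ p ∈ Subgroup.centralizer (V : Set G) := by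
  constructor
  · rw [← Subgroup.commutator_eq_bot_iff_le_centralizer]
    apply Subgroup.commutator_commutator_eq_bot_of_rotate
    · rw [Subgroup.commutator_comm H V]; exact hq
    · exact hq
  · intro a ha
    rw [Subgroup.mem_centralizer_iff]
    intro v hv
    have hcV : v * a * v⁻¹ * a⁻¹ ∈ V := by
      have h1 : a * v⁻¹ * a⁻¹ ∈ V := (Subgroup.mem_normalizer_iff.mp (hHV ha) v⁻¹).mp (V.inv_mem hv)
      have : v * a * v⁻¹ * a⁻¹ = v * (a * v⁻¹ * a⁻¹) := by group
      rw [this]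
      exact V.mul_mem hv h1
    have hc : Commute (v * a * v⁻¹ * a⁻¹) a := by
      have h1 : ⁅⁅v, a⁆, a⁆ ∈ ⁅⁅V, H⁆, H⁆ :=
        Subgroup.commutator_mem_commutator (Subgroup.commutator_mem_commutator hv ha) ha
      rw [hq, Subgroup.mem_bot, commutatorElement_eq_one_iff_commute] at h1
      rwa [commutatorElement_def] at h1
    have hpow := conj_pow_eq v a hc p
    rw [hV.2 _ hcV, one_mul] at hpow
    -- v * a^p * v⁻¹ = a^p
    have : v * a ^ p = (v * a ^ p * v⁻¹) * v := by group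
    rw [this, hpow]

end Cfsg.Agent.S0590
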