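import Cfsg.Statements.S0591
import Mathlib
import Cfsg.Agent.Lib.Helper10.Offender

set_option autoImplicit false
open Cfsg

namespace Cfsg.Agent.S0591

open scoped commutatorElement

/-- For a quadratically acting element a on an elementary abelian p-group V, the fixed points C_V(a) have order at least the square root of the order of V. -/
theorem result {G : Type*} [Group G] [Finite G] {p : ℕ} [Fact p.Prime] (V : Subgroup G) (hV : Cfsg.IsElementaryAbelian p V) (a : G) (ha : a ∈ Subgroup.normalizer (V : Set G)) (hq : ⁅⁅V, Subgroup.zpowers a⁆, Subgroup.zpowers a⁆ = ⊥) : Nat.card V ≤ Nat.card ↥(V ⊓ Subgroup.centralizer (Subgroup.zpowers a : Set G)) ^ 2 := by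
  classical
  have hc : ⁅V, Subgroup.zpowers a⁆ ≤ Subgroup.centralizer (Subgroup.zpowers a : Set G) :=
    Subgroup.commutator_eq_bot_iff_le_centralizer.1 hq
  have hmem : ∀ v : V, ⁅(v : G), a⁆ ∈
      V ⊓ Subgroup.centralizer (Subgroup.zpowers a : Set G) := by
    intro v
    refine Subgroup.mem_inf.2
      ⟨?_, hc (Subgroup.commutator_mem_commutator v.2 (Subgroup.mem_zpowers a))⟩
    have h1 : a * (v : G)⁻¹ * a⁻¹ ∈ V :=
      (Subgroup.mem_normalizer_iff.1 ha _).1 (V.inv_mem v.2)
    have e : ⁅(v : G), a⁆ = v * (a * (v : G)⁻¹ * a⁻¹) := by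
      rw [commutatorElement_def]; group
    rw [e]
    exact V.mul_mem v.2 h1
  let f : V → ↥(V ⊓ Subgroup.centralizer (Subgroup.zpowers a : Set G)) :=
    fun v => ⟨⁅(v : G), a⁆, hmem v⟩
  have hf : ∀ v v' : V, f v = f v' →
      v⁻¹ * v' ∈ (V ⊓ Subgroup.centralizer (Subgroup.zpowers a : Set G)).subgroupOf V := by
    intro v v' h
    have h1 : ⁅(v : G), a⁆ = ⁅(v' : G), a⁆ := congrArg Subtype.val h
    rw [Subgroup.mem_subgroupOf]
    refine Subgroup.mem_inf.2 ⟨(v⁻¹ * v').2, ?_⟩
    rw [Subgroup.mem_centralizer_iff]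
    intro h hh
    obtain ⟨n, rfl⟩ := Subgroup.mem_zpowers_iff.1 hh
    have hca : Commute a ((v : G)⁻¹ * v') := by
      rw [commutatorElement_def, commutatorElement_def] at h1
      have h2 : (v : G) * a * (v : G)⁻¹ = v' * a * (v' : G)⁻¹ := by
        have := congrArg (· * a) h1
        simpa using this
      show a * ((v : G)⁻¹ * v') = (v : G)⁻¹ * v' * a
      calc a * ((v : G)⁻¹ * v') = (v : G)⁻¹ * ((v : G) * a * (v : G)⁻¹) * v' := by group
        _ = (v : G)⁻¹ * (v' * a * (v' : G)⁻¹) * v' := by rw [h2]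
        _ = (v : G)⁻¹ * v' * a := by group
    exact (hca.zpow_left n).eq
  have h4 := Cfsg.Agent.Lib.Helper10.card_le_of_fiber_coset f _ hf
  rw [Cfsg.Agent.Lib.Helper10.card_subgroupOf_of_le inf_le_left] at h4
  rw [sq]
  exact h4

end Cfsg.Agent.S0591
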