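import Mathlib
import Cfsg.Statements.S0592
import Cfsg.Agent.Lib.Helper11.QuadLin

set_option autoImplicit false
open Cfsg

namespace Cfsg.Agent.S0592

/-- Two quadratically acting generators of a linear group that is not a p-group, with the p'-part of the order of their product dividing q - 1, give a homomorphism onto a subgroup of SL(2, q) that is not a p-group. -/
theorem result {K : Type*} [Field K] [Fintype K] {p : ℕ} [Fact p.Prime] [CharP K p] {W : Type*} [AddCommGroup W] [Module K W] [FiniteDimensional K W] [Finite W] [Nontrivial W] (H : Subgroup (W ≃ₗ[K] W)) (a b : W ≃ₗ[K] W) (hH : H = Subgroup.closure {a, b}) (ha : ∀ w : W, a (a w - w) = a w - w) (hb : ∀ w : W, b (b w - w) = b w - w) (hnp : ¬ IsPGroup p H) (hk : ∃ e k : ℕ, orderOf (a * b) = p ^ e * k ∧ k ∣ Fintype.card K - 1) : ∃ φ : H →* Matrix.SpecialLinearGroup (Fin 2) K, ¬ IsPGroup p φ.range := by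
  subst hH
  obtain ⟨e, k, hord, hk1⟩ := hk
  have he : (a * b) ^ (p ^ e * (Fintype.card K - 1)) = 1 := by
    rw [← orderOf_dvd_iff_pow_eq_one, hord]
    exact Nat.mul_dvd_mul_left _ hk1
  have hg : ∃ g : Subgroup.closure ({a, b} : Set (W ≃ₗ[K] W)), ∀ k : ℕ, g ^ (p ^ k) ≠ 1 := by
    by_contra hcon
    push Not at hcon
    exact hnp hcon
  obtain ⟨g, hg⟩ := hg
  have hg' : ∀ k : ℕ, (g : W ≃ₗ[K] W) ^ (p ^ k) ≠ 1 := by
    intro k hk
    apply hg k
    apply Subtype.ext
    rw [Subgroup.coe_pow]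
    exact hk
  obtain ⟨φ, g', hφ⟩ := Cfsg.Agent.Lib.Helper11.quad_main (p := p) (Module.finrank K W) W le_rfl a b ha hb
    ⟨e, he⟩ g.1 g.2 hg'
  refine ⟨φ, fun hP => ?_⟩
  obtain ⟨k, hk⟩ := hP ⟨φ g', ⟨g', rfl⟩⟩
  apply hφ k
  have := congrArg Subtype.val hk
  simpa using this

end Cfsg.Agent.S0592
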