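import Mathlib
import Cfsg.Statements.S0593
import Cfsg.Agent.Lib.Helper11.QuadStable
import Cfsg.Agent.Lib.Helper11.Quadratic

set_option autoImplicit false
open Cfsg

namespace Cfsg.Agent.S0593

/-- For odd p, a faithful group on an elementary abelian p-group generated by two quadratically acting elements is a p-group or has non-abelian Sylow 2-subgroups. -/
theorem result {G : Type*} [Group G] [Finite G] {p : ℕ} [Fact p.Prime] (hp : p ≠ 2) (V H : Subgroup G) (hV : Cfsg.IsElementaryAbelian p V) (hHV : H ≤ Subgroup.normalizer (V : Set G)) (hf : H ⊓ Subgroup.centralizer (V : Set G) = ⊥) (a b : G) (hab : H = Subgroup.closure {a, b}) (ha : ⁅⁅V, Subgroup.zpowers a⁆, Subgroup.zpowers a⁆ = ⊥) (hb : ⁅⁅V, Subgroup.zpowers b⁆, Subgroup.zpowers b⁆ = ⊥) (hnp : ¬ IsPGroup p H) (T : Sylow 2 H) : ¬ IsMulCommutative T := by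
  intro hT
  have h2 := Cfsg.Agent.Lib.Helper11.twoAb_of_sylow H T hT
  have haH : a ∈ H := by rw [hab]; exact Subgroup.subset_closure (by simp)
  have hbH : b ∈ H := by rw [hab]; exact Subgroup.subset_closure (by simp)
  have h1 := Cfsg.Agent.Lib.Helper11.quad_mem_pCore hp V H hV hHV hf h2 a haH ha
  have h3 := Cfsg.Agent.Lib.Helper11.quad_mem_pCore hp V H hV hHV hf h2 b hbH hb
  have hle : H ≤ (Cfsg.pCore p H).map H.subtype := by
    conv_lhs => rw [hab]
    rw [Subgroup.closure_le]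
    rintro x (hx | hx)
    · rw [hx]; exact h1
    · rw [Set.mem_singleton_iff.mp hx]; exact h3
  apply hnp
  have hcore : IsPGroup p (Cfsg.pCore p H) := Cfsg.Agent.Lib.Helper11.pCore_isPGroup' p H
  intro x
  obtain ⟨y, hy, hyx⟩ := hle x.2
  obtain ⟨k, hk⟩ := hcore ⟨y, hy⟩
  refine ⟨k, ?_⟩
  have : y = x := Subtype.ext hyx
  rw [← this]
  exact congrArg Subtype.val hk

end Cfsg.Agent.S0593
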