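import Cfsg.Statements.S0597
import Mathlib
import Cfsg.Agent.Lib.Helper10.ElemAb
import Cfsg.Agent.Lib.Helper9.Subnormal
import Cfsg.Agent.Lib.Helper47.Subn
import Cfsg.Agent.S0572

set_option autoImplicit false
open Cfsg

namespace Cfsg.Agent.S0597

open scoped commutatorElement
open Cfsg.Agent.Lib.Helper10

/-- The elements centralizing `W` and acting trivially on `V / W`. -/
def stabChain {G : Type*} [Group G] (V W : Subgroup G) : Subgroup G where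
  carrier := {g | (∀ w ∈ W, g * w = w * g) ∧ ∀ v ∈ V, g * v * g⁻¹ * v⁻¹ ∈ W}
  one_mem' := by
    refine ⟨fun w _ => by group, fun v _ => ?_⟩
    have e : (1 : G) * v * 1⁻¹ * v⁻¹ = 1 := by group
    rw [e]
    exact W.one_mem
  mul_mem' := by
    rintro g h ⟨hg1, hg2⟩ ⟨hh1, hh2⟩
    refine ⟨fun w hw => ?_, fun v hv => ?_⟩
    · calc g * h * w = g * (h * w) := by group
        _ = g * (w * h) := by rw [hh1 w hw]
        _ = (g * w) * h := by group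
        _ = w * g * h := by rw [hg1 w hw]
        _ = w * (g * h) := by group
    · have e : g * h * v * (g * h)⁻¹ * v⁻¹ =
          (g * (h * v * h⁻¹ * v⁻¹)) * g⁻¹ * (g * v * g⁻¹ * v⁻¹) := by group
      rw [e, hg1 _ (hh2 v hv)]
      have e2 : (h * v * h⁻¹ * v⁻¹) * g * g⁻¹ * (g * v * g⁻¹ * v⁻¹) =
          (h * v * h⁻¹ * v⁻¹) * (g * v * g⁻¹ * v⁻¹) := by group
      rw [e2]
      exact W.mul_mem (hh2 v hv) (hg2 v hv)
  inv_mem' := by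
    rintro g ⟨hg1, hg2⟩
    have hinv : ∀ w ∈ W, g⁻¹ * w = w * g⁻¹ := by
      intro w hw
      calc g⁻¹ * w = g⁻¹ * (w * g) * g⁻¹ := by group
        _ = g⁻¹ * (g * w) * g⁻¹ := by rw [hg1 w hw]
        _ = w * g⁻¹ := by group
    refine ⟨hinv, fun v hv => ?_⟩
    have e : g⁻¹ * v * g⁻¹⁻¹ * v⁻¹ = g⁻¹ * (g * v * g⁻¹ * v⁻¹)⁻¹ * g := by group
    rw [e, hinv _ (W.inv_mem (hg2 v hv))]
    have e2 : (g * v * g⁻¹ * v⁻¹)⁻¹ * g⁻¹ * g = (g * v * g⁻¹ * v⁻¹)⁻¹ := by group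
    rw [e2]
    exact W.inv_mem (hg2 v hv)

theorem pow_centralizes {G : Type*} [Group G] (V W : Subgroup G) {p : ℕ}
    (hWp : ∀ w ∈ W, w ^ p = 1) {d : G} (hd : d ∈ stabChain V W) :
    d ^ p ∈ Subgroup.centralizer (V : Set G) := by
  obtain ⟨hd1, hd2⟩ := hd
  rw [Subgroup.mem_centralizer_iff]
  intro v hv
  have hw := hd2 v hv
  have hcomm : Commute d (d * v * d⁻¹ * v⁻¹) := hd1 _ hw
  have key : ∀ k : ℕ, d ^ k * v * (d ^ k)⁻¹ = (d * v * d⁻¹ * v⁻¹) ^ k * v := by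
    intro k
    induction k with
    | zero => simp
    | succ k ih =>
      have hc := (hcomm.pow_right k).eq
      calc d ^ (k + 1) * v * (d ^ (k + 1))⁻¹ = d * (d ^ k * v * (d ^ k)⁻¹) * d⁻¹ := by
            rw [pow_succ']; group
        _ = d * ((d * v * d⁻¹ * v⁻¹) ^ k * v) * d⁻¹ := by rw [ih]
        _ = (d * (d * v * d⁻¹ * v⁻¹) ^ k) * v * d⁻¹ := by group
        _ = ((d * v * d⁻¹ * v⁻¹) ^ k * d) * v * d⁻¹ := by rw [hc]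
        _ = (d * v * d⁻¹ * v⁻¹) ^ k * (d * v * d⁻¹ * v⁻¹) * v := by group
        _ = (d * v * d⁻¹ * v⁻¹) ^ (k + 1) * v := by rw [pow_succ]
  have h1 := key p
  rw [hWp _ hw, one_mul] at h1
  calc v * d ^ p = (d ^ p * v * (d ^ p)⁻¹) * d ^ p := by rw [h1]
    _ = d ^ p * v := by group

theorem le_normalizer_of_conj_mem' {G : Type*} [Group G] (K L : Subgroup G)
    (h : ∀ g ∈ K, ∀ n ∈ L, g * n * g⁻¹ ∈ L) : K ≤ Subgroup.normalizer (L : Set G) := by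
  intro g hg
  rw [Subgroup.mem_normalizer_iff]
  intro n
  constructor
  · exact h g hg n
  · intro hn
    have h1 := h g⁻¹ (K.inv_mem hg) _ hn
    have e : g⁻¹ * (g * n * g⁻¹) * g⁻¹⁻¹ = n := by group
    rw [e] at h1
    exact h1

/-- If two subnormal subgroups of a faithful group on an elementary abelian p-group satisfy [V, E₁, E₂] = 1, then their commutator lies in the largest normal p-subgroup. -/
theorem result {G : Type*} [Group G] [Finite G] {p : ℕ} [Fact p.Prime] (V H : Subgroup G) (hV : Cfsg.IsElementaryAbelian p V) (hHV : H ≤ Subgroup.normalizer (V : Set G)) (hf : H ⊓ Subgroup.centralizer (V : Set G) = ⊥) (E₁ E₂ : Subgroup G) (h₁ : E₁ ≤ H) (h₂ : E₂ ≤ H) (hs₁ : (E₁.subgroupOf H).IsSubnormal) (hs₂ : (E₂.subgroupOf H).IsSubnormal) (hc : ⁅⁅V, E₁⁆, E₂⁆ = ⊥) : ⁅E₁, E₂⁆ ≤ (Cfsg.pCore p H).map H.subtype := by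
  classical
  have hWV : ⁅V, E₁⁆ ≤ V := by
    rw [Subgroup.commutator_le]
    intro v hv e he
    have h1 : e * v⁻¹ * e⁻¹ ∈ V :=
      (Subgroup.mem_normalizer_iff.1 (hHV (h₁ he)) _).1 (V.inv_mem hv)
    have e' : ⁅v, e⁆ = v * (e * v⁻¹ * e⁻¹) := by rw [commutatorElement_def]; group
    rw [e']
    exact V.mul_mem hv h1
  have hWc : ⁅V, E₁⁆ ≤ Subgroup.centralizer (E₂ : Set G) :=
    Subgroup.commutator_eq_bot_iff_le_centralizer.1 hc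
  have hVe := isElementaryAbelian_iff.1 hV
  have hgen : ∀ e₁ ∈ E₁, ∀ e₂ ∈ E₂, ⁅e₁, e₂⁆ ∈ stabChain V ⁅V, E₁⁆ := by
    intro e₁ he₁ e₂ he₂
    have hN1 : ∀ e ∈ E₁, ∀ w ∈ ⁅V, E₁⁆, e * w * e⁻¹ ∈ ⁅V, E₁⁆ :=
      fun e he w hw => Cfsg.Agent.S0572.conj_mem_commutator_right V E₁ he hw
    have hC2 : ∀ e ∈ E₂, ∀ w ∈ ⁅V, E₁⁆, e * w = w * e :=
      fun e he w hw => (Subgroup.mem_centralizer_iff.1 (hWc hw)) e he
    have hV1 : ∀ e ∈ E₁, ∀ u ∈ V, e * u * e⁻¹ * u⁻¹ ∈ ⁅V, E₁⁆ := by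
      intro e he u hu
      have h1 : ⁅u, e⁆ ∈ ⁅V, E₁⁆ := Subgroup.commutator_mem_commutator hu he
      have e' : e * u * e⁻¹ * u⁻¹ = ⁅u, e⁆⁻¹ := by rw [commutatorElement_def]; group
      rw [e']
      exact Subgroup.inv_mem _ h1
    have hV2 : ∀ e ∈ E₂, ∀ u ∈ V, e * u * e⁻¹ ∈ V :=
      fun e he u hu => (Subgroup.mem_normalizer_iff.1 (hHV (h₂ he)) u).1 hu
    constructor
    · intro w hw
      have hw' : e₁⁻¹ * w * e₁ ∈ ⁅V, E₁⁆ := by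
        have h1 := hN1 e₁⁻¹ (E₁.inv_mem he₁) w hw
        rwa [inv_inv] at h1
      have a1 := hC2 e₂⁻¹ (E₂.inv_mem he₂) w hw
      have a2 := hC2 e₂ he₂ _ hw'
      rw [commutatorElement_def]
      calc e₁ * e₂ * e₁⁻¹ * e₂⁻¹ * w = e₁ * e₂ * e₁⁻¹ * (e₂⁻¹ * w) := by group
        _ = e₁ * e₂ * e₁⁻¹ * (w * e₂⁻¹) := by rw [a1]
        _ = e₁ * (e₂ * (e₁⁻¹ * w * e₁)) * e₁⁻¹ * e₂⁻¹ := by group
        _ = e₁ * ((e₁⁻¹ * w * e₁) * e₂) * e₁⁻¹ * e₂⁻¹ := by rw [a2]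
        _ = w * (e₁ * e₂ * e₁⁻¹ * e₂⁻¹) := by group
    · intro v hv
      have hv₁V : e₂⁻¹ * v * e₂ ∈ V := by
        have h1 := hV2 e₂⁻¹ (E₂.inv_mem he₂) v hv
        rwa [inv_inv] at h1
      have hw₂ : e₁⁻¹ * (e₂⁻¹ * v * e₂) * e₁ * (e₂⁻¹ * v * e₂)⁻¹ ∈ ⁅V, E₁⁆ := by
        have h1 := hV1 e₁⁻¹ (E₁.inv_mem he₁) _ hv₁V
        rwa [inv_inv] at h1
      have hw₁ := hV1 e₁ he₁ v hv
      have hw₃ := hN1 e₁ he₁ _ hw₂
      have a := hC2 e₂ he₂ _ hw₂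
      have key : ⁅e₁, e₂⁆ * v * ⁅e₁, e₂⁆⁻¹ * v⁻¹ =
          (e₁ * (e₁⁻¹ * (e₂⁻¹ * v * e₂) * e₁ * (e₂⁻¹ * v * e₂)⁻¹) * e₁⁻¹) *
            (e₁ * v * e₁⁻¹ * v⁻¹) := by
        rw [commutatorElement_def]
        calc e₁ * e₂ * e₁⁻¹ * e₂⁻¹ * v * (e₁ * e₂ * e₁⁻¹ * e₂⁻¹)⁻¹ * v⁻¹
            = e₁ * (e₂ * (e₁⁻¹ * (e₂⁻¹ * v * e₂) * e₁ * (e₂⁻¹ * v * e₂)⁻¹)) *
                (e₂⁻¹ * v * e₂) * e₂⁻¹ * e₁⁻¹ * v⁻¹ := by group
          _ = e₁ * ((e₁⁻¹ * (e₂⁻¹ * v * e₂) * e₁ * (e₂⁻¹ * v * e₂)⁻¹) * e₂) *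
                (e₂⁻¹ * v * e₂) * e₂⁻¹ * e₁⁻¹ * v⁻¹ := by rw [a]
          _ = (e₁ * (e₁⁻¹ * (e₂⁻¹ * v * e₂) * e₁ * (e₂⁻¹ * v * e₂)⁻¹) * e₁⁻¹) *
                (e₁ * v * e₁⁻¹ * v⁻¹) := by group
      rw [key]
      exact Subgroup.mul_mem _ hw₃ hw₁
  have hDT : ⁅E₁, E₂⁆ ≤ stabChain V ⁅V, E₁⁆ := Subgroup.commutator_le.2 hgen
  have hDH : ⁅E₁, E₂⁆ ≤ H :=
    (Subgroup.commutator_mono h₁ h₂).trans (Subgroup.commutator_le_self H)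
  have hDp : IsPGroup p ↥(⁅E₁, E₂⁆ : Subgroup G) := by
    intro d
    refine ⟨1, ?_⟩
    apply Subtype.ext
    rw [pow_one]
    have h1 := pow_centralizes V ⁅V, E₁⁆ (fun w hw => hVe.2 w (hWV hw)) (hDT d.2)
    have h2 : (d : G) ^ p ∈ H ⊓ Subgroup.centralizer (V : Set G) :=
      Subgroup.mem_inf.2 ⟨H.pow_mem (hDH d.2) p, h1⟩
    rw [hf, Subgroup.mem_bot] at h2
    simpa using h2
  have hJ : ((E₁ ⊔ E₂).subgroupOf H).IsSubnormal := by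
    rw [Subgroup.subgroupOf_sup h₁ h₂]
    exact Cfsg.Agent.Lib.Helper9.isSubnormal_sup hs₁ hs₂
  have hDJ : ⁅E₁, E₂⁆ ≤ E₁ ⊔ E₂ :=
    (Subgroup.commutator_mono le_sup_left le_sup_right).trans (Subgroup.commutator_le_self _)
  have hNG : E₁ ⊔ E₂ ≤ Subgroup.normalizer ((⁅E₁, E₂⁆ : Subgroup G) : Set G) :=
    sup_le
      (le_normalizer_of_conj_mem' _ _ fun g hg n hn =>
        Cfsg.Agent.S0572.conj_mem_commutator_left E₁ E₂ hg hn)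
      (le_normalizer_of_conj_mem' _ _ fun g hg n hn =>
        Cfsg.Agent.S0572.conj_mem_commutator_right E₁ E₂ hg hn)
  have hle' : (⁅E₁, E₂⁆ : Subgroup G).subgroupOf H ≤ (E₁ ⊔ E₂).subgroupOf H := by
    intro x hx
    rw [Subgroup.mem_subgroupOf] at hx ⊢
    exact hDJ hx
  have hDsn : ((⁅E₁, E₂⁆ : Subgroup G).subgroupOf H).IsSubnormal := by
    refine Subgroup.IsSubnormal.step _ _ hle' hJ ?_
    rw [Subgroup.normal_subgroupOf_iff_le_normalizer hle']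
    intro x hx
    rw [Subgroup.mem_subgroupOf] at hx
    have hxN := hNG hx
    rw [Subgroup.mem_normalizer_iff] at hxN ⊢
    intro y
    rw [Subgroup.mem_subgroupOf, Subgroup.mem_subgroupOf]
    exact hxN y
  have hfin := Cfsg.Agent.Lib.Helper47.le_pCore_of_isSubnormal_of_isPGroup hDsn
    (hDp.comap_of_injective H.subtype H.subtype_injective)
  intro d hd
  exact ⟨⟨d, hDH hd⟩, hfin (Subgroup.mem_subgroupOf.2 hd), rfl⟩

end Cfsg.Agent.S0597
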