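import Cfsg.Statements.S0600
import Mathlib

set_option autoImplicit false
open Cfsg

namespace Cfsg.Agent.S0600

/-- A normal elementary abelian p-subgroup generated by the fixed points of the Sylow p-subgroups admits no nontrivial normal p-subgroup of G modulo its centralizer. -/
theorem result {G : Type*} [Group G] [Finite G] {p : ℕ} [Fact p.Prime] (V : Subgroup G) [V.Normal] (hV : Cfsg.IsElementaryAbelian p V) (hgen : V = ⨆ S : Sylow p G, V ⊓ Subgroup.centralizer ((S : Subgroup G) : Set G)) : Cfsg.pCore p (G ⧸ Subgroup.centralizer (V : Set G)) = ⊥ := by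
  classical
  have hQ : IsPGroup p (Cfsg.pCore p (G ⧸ Subgroup.centralizer (V : Set G))) :=
    Sylow.sSup_of_normal _ (fun _ h => h.2) (fun _ h => h.1)
  rw [eq_bot_iff]
  intro x hx
  induction x using QuotientGroup.induction_on with
  | H d =>
    rw [Subgroup.mem_bot, QuotientGroup.eq_one_iff]
    have hsurj : Function.Surjective (QuotientGroup.mk' (Subgroup.centralizer (V : Set G))) :=
      QuotientGroup.mk'_surjective _
    have key : V ≤ Subgroup.centralizer ({d} : Set G) := by
      refine hgen.le.trans ?_
      refine iSup_le fun S => ?_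
      intro v hv
      have hdS : (QuotientGroup.mk' (Subgroup.centralizer (V : Set G)) d) ∈
          ((S.mapSurjective hsurj : Sylow p _) : Subgroup _) := hQ.le_sylow_of_normal _ hx
      rw [Sylow.coe_mapSurjective] at hdS
      obtain ⟨s, hs, hsd⟩ := hdS
      have hc : s⁻¹ * d ∈ Subgroup.centralizer (V : Set G) := QuotientGroup.eq.1 hsd
      rw [Subgroup.mem_centralizer_iff]
      intro h hh
      rw [Set.mem_singleton_iff] at hh
      subst hh
      have h1 : v * (s⁻¹ * h) = s⁻¹ * h * v := hc v hv.1
      have h2 : s * v = v * s := hv.2 s hs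
      calc h * v = s * (s⁻¹ * h * v) := by group
        _ = s * (v * (s⁻¹ * h)) := by rw [h1]
        _ = (s * v) * (s⁻¹ * h) := by group
        _ = (v * s) * (s⁻¹ * h) := by rw [h2]
        _ = v * h := by group
    rw [Subgroup.mem_centralizer_iff]
    intro v hv
    exact ((Subgroup.mem_centralizer_iff.1 (key hv)) d rfl).symm

end Cfsg.Agent.S0600
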