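import Cfsg.Statements.S0601
import Mathlib
import Cfsg.Agent.Lib.Helper10.ElemAb

set_option autoImplicit false
open Cfsg

namespace Cfsg.Agent.S0601

open Cfsg.Agent.Lib.Helper10

theorem omegaOne_mono {G : Type*} [Group G] (p : ℕ) {H K : Subgroup G} (h : H ≤ K) :
    Cfsg.omegaOne p H ≤ Cfsg.omegaOne p K :=
  Subgroup.closure_mono fun _ hx => ⟨h hx.1, hx.2⟩

theorem omegaOne_le {G : Type*} [Group G] (p : ℕ) (H : Subgroup G) : Cfsg.omegaOne p H ≤ H :=
  (Subgroup.closure_le H).2 fun _ hx => hx.1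

/-- `Ω₁` of a commutative subgroup is elementary abelian. -/
theorem isElementaryAbelian_omegaOne {G : Type*} [Group G] (p : ℕ) (H : Subgroup G)
    (hH : ∀ x ∈ H, ∀ y ∈ H, x * y = y * x) : Cfsg.IsElementaryAbelian p (Cfsg.omegaOne p H) := by
  rw [isElementaryAbelian_iff]
  refine ⟨fun a ha b hb => hH a (omegaOne_le p H ha) b (omegaOne_le p H hb), ?_⟩
  intro a ha
  have hle : Cfsg.omegaOne p H ≤ H := omegaOne_le p H
  unfold Cfsg.omegaOne at ha hle
  induction ha using Subgroup.closure_induction with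
  | mem x hx => exact hx.2
  | one => exact one_pow p
  | mul x y hx hy ihx ihy =>
    have hc : Commute x y := hH x (hle hx) y (hle hy)
    rw [hc.mul_pow, ihx, ihy, one_mul]
  | inv x hx ihx => rw [inv_pow, ihx, inv_one]

/-- A normal subgroup `D ≥ C_G(V)` of `p`-power index over `C_G(V)` lies in `S C_G(V)` for every
Sylow `p`-subgroup `S`. -/
theorem exists_sylow_mul_centralizer {G : Type*} [Group G] [Finite G] {p : ℕ} [Fact p.Prime]
    (V : Subgroup G) [V.Normal] (D : Subgroup G) (hD : D.Normal)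
    (hk : ∃ k : ℕ, (Subgroup.centralizer (V : Set G)).relIndex D = p ^ k) (S : Sylow p G) {d : G}
    (hd : d ∈ D) : ∃ s ∈ (S : Subgroup G), s⁻¹ * d ∈ Subgroup.centralizer (V : Set G) := by
  obtain ⟨k, hk⟩ := hk
  have hsurj : Function.Surjective (QuotientGroup.mk' (Subgroup.centralizer (V : Set G))) :=
    QuotientGroup.mk'_surjective _
  have hDn : (D.map (QuotientGroup.mk' (Subgroup.centralizer (V : Set G)))).Normal :=
    Subgroup.Normal.map hD _ hsurj
  have hDp : IsPGroup p ↥(D.map (QuotientGroup.mk' (Subgroup.centralizer (V : Set G)))) := by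
    rintro ⟨x, hx⟩
    obtain ⟨e, he, rfl⟩ := hx
    refine ⟨k, Subtype.ext ?_⟩
    have h1 := Subgroup.pow_relIndex_mem (Subgroup.centralizer (V : Set G)) he
    rw [hk] at h1
    show (QuotientGroup.mk' (Subgroup.centralizer (V : Set G)) e) ^ p ^ k = 1
    rw [← map_pow]
    exact (QuotientGroup.eq_one_iff _).2 h1
  have hdS : (QuotientGroup.mk' (Subgroup.centralizer (V : Set G)) d) ∈
      ((S.mapSurjective hsurj : Sylow p _) : Subgroup _) :=
    hDp.le_sylow_of_normal _ ⟨d, hd, rfl⟩
  rw [Sylow.coe_mapSurjective] at hdS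
  obtain ⟨s, hs, hsd⟩ := hdS
  exact ⟨s, hs, QuotientGroup.eq.1 hsd⟩

/-- When O_p(G) contains its centralizer, the normal closure of Ω₁(Z(S)) is elementary abelian and G has no nontrivial normal p-subgroup modulo its centralizer. -/
theorem result {G : Type*} [Group G] [Finite G] {p : ℕ} [Fact p.Prime] (hc : Subgroup.centralizer (Cfsg.pCore p G : Set G) ≤ Cfsg.pCore p G) : (⨆ S : Sylow p G, Cfsg.omegaOne p (((S : Subgroup G)) ⊓ Subgroup.centralizer ((S : Subgroup G) : Set G))).Normal ∧ Cfsg.IsElementaryAbelian p (⨆ S : Sylow p G, Cfsg.omegaOne p (((S : Subgroup G)) ⊓ Subgroup.centralizer ((S : Subgroup G) : Set G))) ∧ ∀ D : Subgroup G, D.Normal → Subgroup.centralizer ((⨆ S : Sylow p G, Cfsg.omegaOne p (((S : Subgroup G)) ⊓ Subgroup.centralizer ((S : Subgroup G) : Set G)) : Subgroup G) : Set G) ≤ D → (∃ k : ℕ, (Subgroup.centralizer ((⨆ S : Sylow p G, Cfsg.omegaOne p (((S : Subgroup G)) ⊓ Subgroup.centralizer ((S : Subgroup G) : Set G)) : Subgroup G) : Set G)).relIndex D =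 p ^ k) → D = Subgroup.centralizer ((⨆ S : Sylow p G, Cfsg.omegaOne p (((S : Subgroup G)) ⊓ Subgroup.centralizer ((S : Subgroup G) : Set G)) : Subgroup G) : Set G) := by
  classical
  have hQ : IsPGroup p (Cfsg.pCore p G) :=
    Sylow.sSup_of_normal _ (fun _ h => h.2) (fun _ h => h.1)
  -- each `Ω₁(Z(S))` lies in `Ω₁(Z(O_p(G)))`
  have hZ : ∀ S : Sylow p G, (S : Subgroup G) ⊓ Subgroup.centralizer ((S : Subgroup G) : Set G) ≤
      Cfsg.pCore p G ⊓ Subgroup.centralizer (Cfsg.pCore p G : Set G) := by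
    intro S x hx
    have hQS : Cfsg.pCore p G ≤ (S : Subgroup G) := hQ.le_sylow_of_normal S
    have h1 : x ∈ Subgroup.centralizer (Cfsg.pCore p G : Set G) :=
      Subgroup.centralizer_le (SetLike.coe_subset_coe.2 hQS) hx.2
    exact Subgroup.mem_inf.2 ⟨hc h1, h1⟩
  have hEA0 : Cfsg.IsElementaryAbelian p (Cfsg.omegaOne p
      (Cfsg.pCore p G ⊓ Subgroup.centralizer (Cfsg.pCore p G : Set G))) := by
    apply isElementaryAbelian_omegaOne
    intro x hx y hy
    exact hy.2 x hx.1
  have hle : (⨆ S : Sylow p G, Cfsg.omegaOne p (((S : Subgroup G)) ⊓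
      Subgroup.centralizer ((S : Subgroup G) : Set G))) ≤ Cfsg.omegaOne p
      (Cfsg.pCore p G ⊓ Subgroup.centralizer (Cfsg.pCore p G : Set G)) :=
    iSup_le fun S => omegaOne_mono p (hZ S)
  have hnorm : (⨆ S : Sylow p G, Cfsg.omegaOne p (((S : Subgroup G)) ⊓
      Subgroup.centralizer ((S : Subgroup G) : Set G))).Normal := by
    constructor
    intro n hn g
    have hmap : (⨆ S : Sylow p G, Cfsg.omegaOne p (((S : Subgroup G)) ⊓
        Subgroup.centralizer ((S : Subgroup G) : Set G))).map (MulAut.conj g).toMonoidHom ≤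
        (⨆ S : Sylow p G, Cfsg.omegaOne p (((S : Subgroup G)) ⊓
        Subgroup.centralizer ((S : Subgroup G) : Set G))) := by
      rw [Subgroup.map_iSup]
      refine iSup_le fun S => ?_
      refine le_trans ?_ (le_iSup (fun S : Sylow p G => Cfsg.omegaOne p (((S : Subgroup G)) ⊓
        Subgroup.centralizer ((S : Subgroup G) : Set G))) (g • S))
      unfold Cfsg.omegaOne
      rw [MonoidHom.map_closure, Subgroup.closure_le]
      rintro _ ⟨x, ⟨hx, hxp⟩, rfl⟩
      apply Subgroup.subset_closure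
      have hmem : ∀ y, y ∈ ((g • S : Sylow p G) : Subgroup G) ↔ g⁻¹ * y * g ∈ (S : Subgroup G) := by
        intro y
        rw [Sylow.coe_subgroup_smul, Subgroup.mem_pointwise_smul_iff_inv_smul_mem]
        simp [MulAut.smul_def]
      refine ⟨Subgroup.mem_inf.2 ⟨?_, ?_⟩, ?_⟩
      · rw [hmem]
        have e : g⁻¹ * ((MulAut.conj g).toMonoidHom x) * g = x := by
          simp only [MulEquiv.toMonoidHom_eq_coe, MonoidHom.coe_coe, MulAut.conj_apply]
          group
        rw [e]; exact hx.1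
      · rw [Subgroup.mem_centralizer_iff]
        intro y hy
        have hy' := (hmem y).1 hy
        have h1 := (Subgroup.mem_centralizer_iff.1 hx.2) _ hy'
        have e : (MulAut.conj g).toMonoidHom x = g * x * g⁻¹ := by simp
        rw [e]
        calc y * (g * x * g⁻¹) = g * ((g⁻¹ * y * g) * x) * g⁻¹ := by group
          _ = g * (x * (g⁻¹ * y * g)) * g⁻¹ := by rw [h1]
          _ = g * x * g⁻¹ * y := by group
      · show ((MulAut.conj g).toMonoidHom x) ^ p = 1
        rw [← map_pow, hxp, map_one]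
    have := hmap (Subgroup.mem_map_of_mem _ hn)
    simpa using this
  refine ⟨hnorm, isElementaryAbelian_mono hEA0 hle, ?_⟩
  intro D hD hCD hk
  refine le_antisymm ?_ hCD
  intro d hd
  have key : (⨆ S : Sylow p G, Cfsg.omegaOne p (((S : Subgroup G)) ⊓
      Subgroup.centralizer ((S : Subgroup G) : Set G))) ≤ Subgroup.centralizer ({d} : Set G) := by
    refine iSup_le fun S => ?_
    unfold Cfsg.omegaOne
    rw [Subgroup.closure_le]
    intro x hx
    have hxV : x ∈ (⨆ S : Sylow p G, Cfsg.omegaOne p (((S : Subgroup G)) ⊓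
        Subgroup.centralizer ((S : Subgroup G) : Set G))) :=
      (le_iSup (fun S : Sylow p G => Cfsg.omegaOne p (((S : Subgroup G)) ⊓
        Subgroup.centralizer ((S : Subgroup G) : Set G))) S) (Subgroup.subset_closure hx)
    obtain ⟨s, hs, hcd⟩ := exists_sylow_mul_centralizer _ D hD hk S hd
    rw [SetLike.mem_coe, Subgroup.mem_centralizer_iff]
    intro h hh
    rw [Set.mem_singleton_iff] at hh
    subst hh
    have h1 : x * (s⁻¹ * h) = s⁻¹ * h * x := hcd x hxV
    have h2 : s * x = x * s := hx.1.2 s hs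
    calc h * x = s * (s⁻¹ * h * x) := by group
      _ = s * (x * (s⁻¹ * h)) := by rw [h1]
      _ = (s * x) * (s⁻¹ * h) := by group
      _ = (x * s) * (s⁻¹ * h) := by rw [h2]
      _ = x * h := by group
  rw [Subgroup.mem_centralizer_iff]
  intro v hv
  exact ((Subgroup.mem_centralizer_iff.1 (key hv)) d rfl).symm

end Cfsg.Agent.S0601
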