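import Cfsg.Statements.S0606
import Mathlib
import Cfsg.Agent.Lib.Helper10.Offender2

set_option autoImplicit false
open Cfsg

namespace Cfsg.Agent.S0606

/-- Elementary abelian p-subgroups of maximal order are best offenders on any normal elementary abelian p-subgroup. -/
theorem result {G : Type*} [Group G] [Finite G] {p : ℕ} [Fact p.Prime] (V : Subgroup G) [V.Normal] (hV : Cfsg.IsElementaryAbelian p V) (A : Subgroup G) (hA : A ∈ Cfsg.maxElementaryAbelianSubgroups p G) : Cfsg.IsBestOffenderOn p V A := by
  exact Cfsg.Agent.Lib.Helper10.isBestOffenderOn_of_mem_max V A hV hA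

end Cfsg.Agent.S0606
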