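import Mathlib
import Cfsg.Statements.S0608
import Cfsg.Agent.Lib.Helper11.ThompsonSylow

set_option autoImplicit false
open Cfsg
open Cfsg.Agent.Lib.Helper11

namespace Cfsg.Agent.S0608

/-- `Ω₁(Z(S))` as written in the statement. -/
theorem omegaZ_conj {G : Type*} [Group G] {p : ℕ} (S : Sylow p G) (g : G) {y : G}
    (hy : y ∈ ((g • S : Sylow p G) : Subgroup G) ⊓
      Subgroup.centralizer (((g • S : Sylow p G) : Subgroup G) : Set G)) :
    g⁻¹ * y * g ∈ (S : Subgroup G) ⊓ Subgroup.centralizer ((S : Subgroup G) : Set G) := by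
  rw [Subgroup.mem_inf] at hy ⊢
  obtain ⟨h1, h2⟩ := hy
  refine ⟨(mem_sylow_smul_iff' g y S).mp h1, ?_⟩
  rw [Subgroup.mem_centralizer_iff]
  intro s hs
  have hs' : g * s * g⁻¹ ∈ ((g • S : Sylow p G) : Subgroup G) := by
    rw [mem_sylow_smul_iff']
    have e : g⁻¹ * (g * s * g⁻¹) * g = s := by group
    rw [e]
    exact hs
  have := Subgroup.mem_centralizer_iff.mp h2 _ hs'
  calc s * (g⁻¹ * y * g) = g⁻¹ * ((g * s * g⁻¹) * y) * g := by group
    _ = g⁻¹ * (y * (g * s * g⁻¹)) * g := by rw [this]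
    _ = g⁻¹ * y * g * s := by group

theorem V_normal {G : Type*} [Group G] {p : ℕ} :
    (⨆ S : Sylow p G, Cfsg.omegaOne p (((S : Subgroup G)) ⊓
      Subgroup.centralizer ((S : Subgroup G) : Set G)) : Subgroup G).Normal := by
  constructor
  intro v hv g
  have hmap : (⨆ S : Sylow p G, Cfsg.omegaOne p (((S : Subgroup G)) ⊓
      Subgroup.centralizer ((S : Subgroup G) : Set G)) : Subgroup G).map
        (MulAut.conj g).toMonoidHom ≤
      (⨆ S : Sylow p G, Cfsg.omegaOne p (((S : Subgroup G)) ⊓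
      Subgroup.centralizer ((S : Subgroup G) : Set G)) : Subgroup G) := by
    rw [Subgroup.map_iSup]
    apply iSup_le
    intro S
    refine le_trans ?_ (le_iSup _ (g • S))
    unfold Cfsg.omegaOne
    rw [MonoidHom.map_closure]
    apply Subgroup.closure_mono
    rintro _ ⟨y, ⟨hy, hyp⟩, rfl⟩
    refine ⟨?_, ?_⟩
    · have h := omegaZ_conj (g • S) g⁻¹ (y := y) (by rw [inv_smul_smul]; exact hy)
      rw [inv_inv] at h
      exact h
    · simp only [MulEquiv.coe_toMonoidHom, MulAut.conj_apply]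
      rw [conj_pow, hyp]; simp
  have := hmap (Subgroup.mem_map_of_mem _ hv)
  simpa using this

/-- With trivial p'-core, Thompson factorizability is equivalent to J(G) centralizing the subgroup generated by all Ω₁(Z(S)), S Sylow. -/
theorem result {G : Type*} [Group G] [Finite G] {p : ℕ} [Fact p.Prime] (hO : Cfsg.pPrimeCore p G = ⊥) : Cfsg.IsThompsonFactorizable p G ↔ Cfsg.thompsonSubgroup p G ≤ Subgroup.centralizer ((⨆ S : Sylow p G, Cfsg.omegaOne p (((S : Subgroup G)) ⊓ Subgroup.centralizer ((S : Subgroup G) : Set G)) : Subgroup G) : Set G) := by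
  constructor
  · intro hTF
    rw [Subgroup.le_centralizer_iff]
    apply iSup_le
    intro S'
    unfold Cfsg.omegaOne
    rw [Subgroup.closure_le]
    rintro y ⟨hy, hyp⟩
    rw [SetLike.mem_coe, Subgroup.mem_centralizer_iff]
    intro a ha
    -- reduce to a in a largest elementary abelian subgroup
    have hle : Cfsg.thompsonSubgroup p G ≤ Subgroup.centralizer ({y} : Set G) := by
      unfold Cfsg.thompsonSubgroup
      rw [sSup_le_iff]
      intro A hA a ha
      rw [Subgroup.mem_centralizer_iff]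
      intro z hz
      rw [Set.mem_singleton_iff] at hz; subst hz
      obtain ⟨S, hS⟩ := (elemAb_isPGroup hA.1).exists_le_sylow
      obtain ⟨g, hg⟩ := MulAction.exists_smul_eq G S S'
      obtain ⟨x, hx, c, hc, n, hn, hgcn⟩ := hTF S g⁻¹
      rw [hO, Subgroup.mem_bot] at hx
      subst hx
      rw [one_mul] at hgcn
      have haJ : a ∈ Cfsg.thompsonSubgroupOf p (S : Subgroup G) :=
        le_thompsonSubgroupOf (mem_maxElemAbIn_of_le hA hS) ha
      have hnJ : n * a * n⁻¹ ∈ Cfsg.thompsonSubgroupOf p (S : Subgroup G) :=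
        (Subgroup.mem_normalizer_iff.mp hn a).mp haJ
      have hnS : n * a * n⁻¹ ∈ (S : Subgroup G) := thompsonSubgroupOf_le p _ hnJ
      rw [← hg] at hy
      have hy' := omegaZ_conj S g hy
      have hy'Z : g⁻¹ * z * g ∈ Cfsg.omegaOne p ((S : Subgroup G) ⊓
          Subgroup.centralizer ((S : Subgroup G) : Set G)) := by
        apply Subgroup.subset_closure
        refine ⟨hy', ?_⟩
        have : g⁻¹ * z * g = (MulAut.conj g⁻¹) z := by simp
        rw [this, ← map_pow, hyp, map_one]
      have h1 : (g⁻¹ * z * g) * c = c * (g⁻¹ * z * g) :=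
        Subgroup.mem_centralizer_iff.mp hc _ hy'Z
      have h2 : (n * a * n⁻¹) * (g⁻¹ * z * g) = (g⁻¹ * z * g) * (n * a * n⁻¹) :=
        Subgroup.mem_centralizer_iff.mp hy'.2 _ hnS
      have hg' : g = n⁻¹ * c⁻¹ := by
        have : g = (g⁻¹)⁻¹ := by simp
        rw [this, hgcn]; group
      have hz : z = n⁻¹ * (g⁻¹ * z * g) * n := by
        have e : c⁻¹ * (g⁻¹ * z * g) * c = g⁻¹ * z * g := by
          rw [mul_assoc, h1]; group
        calc z = g * (g⁻¹ * z * g) * g⁻¹ := by group
          _ = n⁻¹ * (c⁻¹ * (g⁻¹ * z * g) * c) * n := by rw [hg']; group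
          _ = n⁻¹ * (g⁻¹ * z * g) * n := by rw [e]
      set w := g⁻¹ * z * g with hw
      rw [hz]
      calc n⁻¹ * w * n * a = n⁻¹ * (w * (n * a * n⁻¹)) * n := by group
        _ = n⁻¹ * ((n * a * n⁻¹) * w) * n := by rw [h2]
        _ = a * (n⁻¹ * w * n) := by group
    have := Subgroup.mem_centralizer_iff.mp (hle ha) y rfl
    exact this.symm
  · intro hJ S g
    refine ⟨1, one_mem _, ?_⟩
    set V : Subgroup G := (⨆ S : Sylow p G, Cfsg.omegaOne p (((S : Subgroup G)) ⊓
      Subgroup.centralizer ((S : Subgroup G) : Set G)) : Subgroup G) with hV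
    have hVn : V.Normal := V_normal
    set C₀ : Subgroup G := Subgroup.centralizer (V : Set G) with hC₀
    have hCn : C₀.Normal := Subgroup.normal_centralizer
    set JS := Cfsg.thompsonSubgroupOf p (S : Subgroup G) with hJS
    have hJC : JS ≤ C₀ := (thompsonSubgroupOf_sylow_le S).trans hJ
    have hJp : IsPGroup p JS := S.isPGroup'.to_le (thompsonSubgroupOf_le p _)
    obtain ⟨Q, hQ⟩ := (hJp.comap_subtype (K := C₀)).exists_le_sylow
    set T : Subgroup G := (Q : Subgroup C₀).map C₀.subtype with hT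
    have hTp : IsPGroup p T := Q.isPGroup'.map _
    have hJT : JS ≤ T := by
      intro x hx
      exact ⟨⟨x, hJC hx⟩, hQ (by simpa [Subgroup.mem_subgroupOf] using hx), rfl⟩
    have hfr : Subgroup.normalizer (T : Set G) ⊔ C₀ = ⊤ := Sylow.normalizer_sup_eq_top Q
    have hg : g ∈ Subgroup.normalizer (T : Set G) ⊔ C₀ := by rw [hfr]; exact Subgroup.mem_top g
    rw [Subgroup.mem_sup_of_normal_right] at hg
    obtain ⟨m, hm, c, hc, rfl⟩ := hg
    have hJeq : Cfsg.thompsonSubgroupOf p T = JS := thompsonSubgroupOf_eq_of_le_pGroup S hTp hJT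
    refine ⟨m * c * m⁻¹, ?_, m, ?_, by group⟩
    · have hc' : m * c * m⁻¹ ∈ C₀ := hCn.conj_mem c hc m
      refine Subgroup.centralizer_le ?_ hc'
      exact SetLike.coe_subset_coe.mpr (le_iSup (fun S : Sylow p G => Cfsg.omegaOne p
        (((S : Subgroup G)) ⊓ Subgroup.centralizer ((S : Subgroup G) : Set G))) S)
    · rw [← hJeq]
      exact normalizer_le_normalizer_thompsonSubgroupOf p T hm

end Cfsg.Agent.S0608
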