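import Cfsg.Statements.S0609
import Mathlib
import Cfsg.Agent.Lib.Helper49.TFQuot

set_option autoImplicit false
open Cfsg

namespace Cfsg.Agent.S0609

/-- Thompson factorizability passes to and from the quotient by the largest normal subgroup of order prime to p. -/
theorem result {G : Type*} [Group G] [Finite G] {p : ℕ} [Fact p.Prime] : Cfsg.IsThompsonFactorizable p G ↔ Cfsg.IsThompsonFactorizable p (G ⧸ Cfsg.pPrimeCore p G) := by
  have hOn : (Cfsg.pPrimeCore p G).Normal := Cfsg.Agent.Lib.Helper22.pPrimeCore_normal' p G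
  have hcop := Cfsg.Agent.Lib.Helper22.card_pPrimeCore_coprime p G
  have hObar : Cfsg.pPrimeCore p (G ⧸ Cfsg.pPrimeCore p G) = ⊥ :=
    Cfsg.Agent.Lib.Helper22.pPrimeCore_quotient_eq_bot p G
  have hsurj := QuotientGroup.mk'_surjective (Cfsg.pPrimeCore p G)
  have hinjS : ∀ S : Sylow p G, ∀ x ∈ (S : Subgroup G),
      (QuotientGroup.mk' (Cfsg.pPrimeCore p G)) x = 1 → x = 1 := by
    intro S x hx h1
    exact Cfsg.Agent.Lib.Helper49.eq_one_of_mem_pgroup_of_mem_coprime hcop S.isPGroup' hx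
      ((QuotientGroup.eq_one_iff x).mp h1)
  have hJ : ∀ S : Sylow p G,
      Cfsg.thompsonSubgroupOf p ((S : Subgroup G).map (QuotientGroup.mk' (Cfsg.pPrimeCore p G))) =
        (Cfsg.thompsonSubgroupOf p (S : Subgroup G)).map (QuotientGroup.mk' (Cfsg.pPrimeCore p G)) :=
    fun S => Cfsg.Agent.Lib.Helper49.thompsonSubgroupOf_map_of_injOn p _ _ (hinjS S)
  have hΩ : ∀ S : Sylow p G,
      Cfsg.omegaOne p ((S : Subgroup G).map (QuotientGroup.mk' (Cfsg.pPrimeCore p G)) ⊓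
        Subgroup.centralizer (((S : Subgroup G).map (QuotientGroup.mk' (Cfsg.pPrimeCore p G)) :
          Subgroup (G ⧸ Cfsg.pPrimeCore p G)) : Set (G ⧸ Cfsg.pPrimeCore p G))) =
      (Cfsg.omegaOne p ((S : Subgroup G) ⊓ Subgroup.centralizer ((S : Subgroup G) : Set G))).map
        (QuotientGroup.mk' (Cfsg.pPrimeCore p G)) := by
    intro S
    rw [← Cfsg.Agent.Lib.Helper49.map_inf_centralizer_of_injOn _ _ (hinjS S),
      Cfsg.Agent.Lib.Helper49.omegaOne_map_of_injOn p _ _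
        (fun x (hx : x ∈ (S : Subgroup G) ⊓ Subgroup.centralizer ((S : Subgroup G) : Set G)) =>
          hinjS S x hx.1)]
  have hΩp : ∀ S : Sylow p G, IsPGroup p ↥(Cfsg.omegaOne p ((S : Subgroup G) ⊓
      Subgroup.centralizer ((S : Subgroup G) : Set G))) :=
    fun S => S.isPGroup'.to_le ((Cfsg.Agent.Lib.Helper11.omegaOne_le p _).trans inf_le_left)
  have hJp : ∀ S : Sylow p G, IsPGroup p ↥(Cfsg.thompsonSubgroupOf p (S : Subgroup G)) :=
    fun S => S.isPGroup'.to_le (Cfsg.Agent.Lib.Helper11.thompsonSubgroupOf_le p _)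
  have hC := fun S : Sylow p G => Cfsg.Agent.Lib.Helper49.centralizer_map_mk_of_coprime
    (Cfsg.pPrimeCore p G) hcop _ (hΩp S)
  have hN := fun S : Sylow p G => Cfsg.Agent.Lib.Helper22.normalizer_map_mk_of_coprime
    (Cfsg.pPrimeCore p G) hcop _ (hJp S)
  constructor
  · intro h Sb gb
    obtain ⟨S, rfl⟩ := Sylow.mapSurjective_surjective hsurj p Sb
    obtain ⟨g, rfl⟩ := hsurj gb
    obtain ⟨x, hx, c, hc, n, hn, rfl⟩ := h S g
    refine ⟨1, Subgroup.one_mem _, (QuotientGroup.mk' (Cfsg.pPrimeCore p G)) c, ?_,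
      (QuotientGroup.mk' (Cfsg.pPrimeCore p G)) n, ?_, ?_⟩
    · show (QuotientGroup.mk' (Cfsg.pPrimeCore p G)) c ∈ Subgroup.centralizer
        ((Cfsg.omegaOne p ((S : Subgroup G).map (QuotientGroup.mk' (Cfsg.pPrimeCore p G)) ⊓
          Subgroup.centralizer (((S : Subgroup G).map (QuotientGroup.mk' (Cfsg.pPrimeCore p G)) :
            Subgroup (G ⧸ Cfsg.pPrimeCore p G)) : Set (G ⧸ Cfsg.pPrimeCore p G))) :
          Subgroup (G ⧸ Cfsg.pPrimeCore p G)) : Set (G ⧸ Cfsg.pPrimeCore p G))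
      rw [hΩ S, ← hC S]
      exact ⟨c, hc, rfl⟩
    · show (QuotientGroup.mk' (Cfsg.pPrimeCore p G)) n ∈ Subgroup.normalizer
        ((Cfsg.thompsonSubgroupOf p ((S : Subgroup G).map
          (QuotientGroup.mk' (Cfsg.pPrimeCore p G))) : Subgroup (G ⧸ Cfsg.pPrimeCore p G)) :
          Set (G ⧸ Cfsg.pPrimeCore p G))
      rw [hJ S, ← hN S]
      exact ⟨n, hn, rfl⟩
    · have hx1 : (QuotientGroup.mk' (Cfsg.pPrimeCore p G)) x = 1 := (QuotientGroup.eq_one_iff x).mpr hx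
      rw [map_mul, map_mul, hx1]
  · intro h S g
    obtain ⟨xb, hxb, cb, hcb, nb, hnb, hg⟩ := h (S.mapSurjective hsurj)
      ((QuotientGroup.mk' (Cfsg.pPrimeCore p G)) g)
    rw [hObar, Subgroup.mem_bot] at hxb
    have hcb' : cb ∈ Subgroup.centralizer
        ((Cfsg.omegaOne p ((S : Subgroup G).map (QuotientGroup.mk' (Cfsg.pPrimeCore p G)) ⊓
          Subgroup.centralizer (((S : Subgroup G).map (QuotientGroup.mk' (Cfsg.pPrimeCore p G)) :
            Subgroup (G ⧸ Cfsg.pPrimeCore p G)) : Set (G ⧸ Cfsg.pPrimeCore p G))) :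
          Subgroup (G ⧸ Cfsg.pPrimeCore p G)) : Set (G ⧸ Cfsg.pPrimeCore p G)) := hcb
    rw [hΩ S, ← hC S] at hcb'
    obtain ⟨c, hc, rfl⟩ := hcb'
    have hnb' : nb ∈ Subgroup.normalizer
        ((Cfsg.thompsonSubgroupOf p ((S : Subgroup G).map
          (QuotientGroup.mk' (Cfsg.pPrimeCore p G))) : Subgroup (G ⧸ Cfsg.pPrimeCore p G)) :
          Set (G ⧸ Cfsg.pPrimeCore p G)) := hnb
    rw [hJ S, ← hN S] at hnb'
    obtain ⟨n, hn, rfl⟩ := hnb'
    subst hxb
    rw [one_mul, ← map_mul] at hg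
    have hmem : g * (c * n)⁻¹ ∈ Cfsg.pPrimeCore p G := by
      rw [← QuotientGroup.eq_one_iff]
      show (QuotientGroup.mk' (Cfsg.pPrimeCore p G)) (g * (c * n)⁻¹) = 1
      rw [map_mul, map_inv, hg, mul_inv_cancel]
    exact ⟨g * (c * n)⁻¹, hmem, c, hc, n, hn, by group⟩

end Cfsg.Agent.S0609
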