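import Mathlib
import Cfsg.Statements.S0611
import Cfsg.Agent.Lib.Helper11.FFHyp

set_option autoImplicit false
open Cfsg

namespace Cfsg.Agent.S0611

/-- Minimal nontrivially-acting best offenders in such a faithful group have order p, commutator [V, B] of order p and fixed points of index p. -/
theorem result {G : Type*} [Group G] [Finite G] {p : ℕ} [Fact p.Prime] (V H : Subgroup G) (hV : Cfsg.IsElementaryAbelian p V) (hHV : H ≤ Subgroup.normalizer (V : Set G)) (hf : H ⊓ Subgroup.centralizer (V : Set G) = ⊥) (hS1 : Subgroup.centralizer (Cfsg.pPrimeCore p ↥H : Set ↥H) ≤ Cfsg.pPrimeCore p ↥H) (hS3 : H = ⨆ A : {A : Subgroup G // A ≤ H ∧ Cfsg.IsBestOffenderOn p V A}, (A : Subgroup G)) (hH1 : H ≠ ⊥) (A : Subgroup G) (hAH : A ≤ H) (hA : Cfsg.IsBestOffenderOn p V A) (hAV : ⁅V, A⁆ ≠ ⊥) (hmin : ∀ B : Subgroup G, B ≤ A → Cfsg.IsBestOffenderOn p V B → ⁅V, B⁆ ≠ ⊥ → B = A) : Nat.card A = p ∧ Nat.card ↥(⁅V, A⁆) = p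 ∧ ((V ⊓ Subgroup.centralizer (A : Set G))).relIndex V = p := by
  have hs := Cfsg.Agent.Lib.Helper11.FF.setup_of_hyp V H hV hHV hf
  have hCK := Cfsg.Agent.Lib.Helper11.FF.hCK_of_hyp H hS1
  have hmin' : Cfsg.Agent.Lib.Helper11.FF.IsMinOff p V A := ⟨hA, hAV, hmin⟩
  have hcard := hmin'.card hs hCK hAH
  obtain ⟨a, rfl, ht⟩ := hmin'.exists_transv hs hCK hAH
  refine ⟨hcard, ht.card, ?_⟩
  have h1 := Cfsg.Agent.Lib.Helper11.FF.offender_card hs hCK _ _ rfl hAH hA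
  have h2 := Cfsg.Agent.Lib.Helper1.card_eq_card_mul_relIndex
    (inf_le_left : V ⊓ Subgroup.centralizer ((Subgroup.zpowers a : Subgroup G) : Set G) ≤ V)
  rw [hcard, h2, mul_comm] at h1
  have hpos : 0 < Nat.card ↥(V ⊓ Subgroup.centralizer ((Subgroup.zpowers a : Subgroup G) : Set G)) :=
    Nat.card_pos
  exact (Nat.eq_of_mul_eq_mul_left hpos h1).symm

end Cfsg.Agent.S0611
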