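import Mathlib
import Cfsg.Statements.S0615
import Cfsg.Agent.Lib.Helper11.SubnPair

set_option autoImplicit false
open Cfsg

namespace Cfsg.Agent.S0615

/-- Two subnormal subgroups acting irreducibly on their incomparable commutator modules, in a faithful group with trivial largest normal p-subgroup, generate their direct product, and the commutator module splits accordingly. -/
theorem result {G : Type*} [Group G] [Finite G] {p : ℕ} [Fact p.Prime] (V E E₁ E₂ : Subgroup G) (hV : Cfsg.IsElementaryAbelian p V) (hEV : E ≤ Subgroup.normalizer (V : Set G)) (hf : E ⊓ Subgroup.centralizer (V : Set G) = ⊥) (hgen : E = E₁ ⊔ E₂) (hs₁ : (E₁.subgroupOf E).IsSubnormal) (hs₂ : (E₂.subgroupOf E).IsSubnormal) (hOp : Cfsg.pCore p ↥E = ⊥) (hirr₁ : (∀ U : Subgroup G, U ≤ ⁅V, E₁⁆ → E₁ ≤ Subgroup.normalizer (U : Set G) → U = ⊥ ∨ U = ⁅V, E₁⁆)) (hirr₂ : (∀ U : Subgroup G, U ≤ ⁅V, E₂⁆ → E₂ ≤ Subgroup.normalizer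 (U : Set G) → U = ⊥ ∨ U = ⁅V, E₂⁆)) (h12 : ¬ ⁅V, E₁⁆ ≤ ⁅V, E₂⁆) (h21 : ¬ ⁅V, E₂⁆ ≤ ⁅V, E₁⁆) (hc₁ : 2 < Nat.card E₁) (hc₂ : 2 < Nat.card E₂) : ⁅E₁, E₂⁆ = ⊥ ∧ E₁ ⊓ E₂ = ⊥ ∧ ⁅V, E₁⁆ ⊓ ⁅V, E₂⁆ = ⊥ ∧ ⁅V, E⁆ = ⁅V, E₁⁆ ⊔ ⁅V, E₂⁆ := by
  classical
  have hle₁ : E₁ ≤ E := hgen ▸ le_sup_left
  have hle₂ : E₂ ≤ E := hgen ▸ le_sup_right
  have hpc : Cfsg.Agent.Lib.Helper31.pcOf p E = ⊥ := by
    unfold Cfsg.Agent.Lib.Helper31.pcOf
    rw [hOp]
    exact Subgroup.map_bot _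
  have hA : Cfsg.Agent.Lib.Helper11.SubnPair.Good p V E E₁ :=
    { le := hle₁
      sn := hs₁
      op := by
        intro P hP hN hp
        have h1 := Cfsg.Agent.Lib.Helper31.le_pcOf hP hN hp
        have h2 := Cfsg.Agent.Lib.Helper31.pcOf_le_pcOf_of_subnormal (p := p) hle₁ hs₁
        rw [hpc] at h2
        exact le_bot_iff.mp (h1.trans h2)
      irr := hirr₁
      card := hc₁ }
  have hB : Cfsg.Agent.Lib.Helper11.SubnPair.Good p V E E₂ :=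
    { le := hle₂
      sn := hs₂
      op := by
        intro P hP hN hp
        have h1 := Cfsg.Agent.Lib.Helper31.le_pcOf hP hN hp
        have h2 := Cfsg.Agent.Lib.Helper31.pcOf_le_pcOf_of_subnormal (p := p) hle₂ hs₂
        rw [hpc] at h2
        exact le_bot_iff.mp (h1.trans h2)
      irr := hirr₂
      card := hc₂ }
  have h1 : ⁅⁅V, E₁⁆, E₂⁆ = ⊥ :=
    Cfsg.Agent.Lib.Helper11.SubnPair.main hV _ E rfl hEV hf E₁ E₂ hgen hA hB h12 h21
  have h2 : ⁅⁅V, E₂⁆, E₁⁆ = ⊥ :=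
    Cfsg.Agent.Lib.Helper11.SubnPair.main hV _ E rfl hEV hf E₂ E₁ (hgen.trans (sup_comm _ _))
      hB hA h21 h12
  refine ⟨?_, ?_, ?_, ?_⟩
  · have h3 : ⁅⁅E₁, E₂⁆, V⁆ = ⊥ := by
      apply Subgroup.commutator_commutator_eq_bot_of_rotate
      · rw [Subgroup.commutator_comm E₂ V]; exact h2
      · exact h1
    rw [Subgroup.commutator_eq_bot_iff_le_centralizer] at h3
    have h4 : ⁅E₁, E₂⁆ ≤ E := by
      rw [Subgroup.commutator_le]
      intro a ha b hb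
      rw [commutatorElement_def]
      exact E.mul_mem (E.mul_mem (E.mul_mem (hle₁ ha) (hle₂ hb)) (E.inv_mem (hle₁ ha)))
        (E.inv_mem (hle₂ hb))
    rw [eq_bot_iff, ← hf]
    exact le_inf h4 h3
  · have h3 : E₁ ≤ Subgroup.centralizer ((⁅V, E₂⁆ : Subgroup G) : Set G) := by
      rw [← Subgroup.commutator_eq_bot_iff_le_centralizer, Subgroup.commutator_comm]
      exact h2
    rw [eq_bot_iff, ← hB.inf_centralizer_comm hV hEV hf]
    exact le_inf inf_le_right (inf_le_left.trans h3)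
  · have h3 : ⁅V, E₂⁆ ≤ Subgroup.centralizer (E₁ : Set G) := by
      rw [← Subgroup.commutator_eq_bot_iff_le_centralizer]
      exact h2
    rw [eq_bot_iff, ← hA.comm_inf_centralizer hV hEV hf]
    exact le_inf inf_le_left (inf_le_right.trans h3)
  · rw [hgen]
    exact Cfsg.Agent.Lib.Helper47.commutator_sup_right V E₁ E₂ (hle₁.trans hEV) (hle₂.trans hEV)

end Cfsg.Agent.S0615
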