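import Mathlib
import Cfsg.Statements.S0622
import Cfsg.Agent.Lib.Helper11.StableClosure

set_option autoImplicit false
open Cfsg
open Cfsg.Agent.Lib.Helper11

namespace Cfsg.Agent.S0622

universe u

/-- Basic properties of the stable normal closure W(S) of Ω₁(Z(S)) in a finite p-group: characteristic, squeezed between Ω₁(Z(S)) and Ω₁(Z(J(S))), nontrivial for S ≠ 1, and transported by group isomorphisms. -/
theorem result {S : Type u} [Group S] [Finite S] {p : ℕ} [Fact p.Prime] (hS : IsPGroup p S) : (Cfsg.stableNormalClosure p S).Characteristic ∧ Cfsg.omegaOne p (Subgroup.center S) ≤ Cfsg.stableNormalClosure p S ∧ Cfsg.stableNormalClosure p S ≤ Cfsg.omegaCenterThompson p S ∧ (Nontrivial S → Cfsg.stableNormalClosure p S ≠ ⊥) ∧ ∀ (S' : Type u) [Group S'] (η : S ≃* S'), (Cfsg.stableNormalClosure p S).map η.toMonoidHom = Cfsg.stableNormalClosure p S' := by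
  have hmem := stableNormalClosure_mem p S
  refine ⟨?_, hmem.1, sInf_le (omegaCenterThompson_mem_stableFamily p S), ?_, ?_⟩
  · rw [Subgroup.characteristic_iff_map_eq]
    intro φ
    exact stableNormalClosure_map_equiv p φ
  · intro hnt hbot
    have hc : Nontrivial (Subgroup.center S) := hS.center_nontrivial
    have hcp : IsPGroup p (Subgroup.center S) := hS.to_subgroup _
    obtain ⟨n, hn⟩ := IsPGroup.iff_card.mp hcp
    have hn0 : n ≠ 0 := by
      rintro rfl
      rw [pow_zero] at hn
      have : Subsingleton (Subgroup.center S) := (Nat.card_eq_one_iff_unique.mp hn).1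
      exact not_subsingleton _ this
    have hdvd : p ∣ Nat.card (Subgroup.center S) := by rw [hn]; exact dvd_pow_self p hn0
    obtain ⟨x, hx⟩ := exists_prime_orderOf_dvd_card' p hdvd
    have hxp : (x : S) ^ p = 1 := by
      have := pow_orderOf_eq_one x
      rw [hx] at this
      exact_mod_cast congrArg Subtype.val this
    have hx1 : (x : S) ≠ 1 := by
      intro h
      have : x = 1 := Subtype.ext h
      rw [this, orderOf_one] at hx
      exact (Fact.out : p.Prime).one_lt.ne hx
    have hxW : (x : S) ∈ Cfsg.stableNormalClosure p S :=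
      hmem.1 (Subgroup.subset_closure ⟨x.2, hxp⟩)
    rw [hbot, Subgroup.mem_bot] at hxW
    exact hx1 hxW
  · intro S' _ η
    exact stableNormalClosure_map_equiv p η

end Cfsg.Agent.S0622
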