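import Cfsg.Statements.S0630
import Mathlib
import Cfsg.Agent.Lib.Helper49.PConstr

set_option autoImplicit false
open Cfsg

namespace Cfsg.Agent.S0630

/-- p-constraint passes to and from the quotient by the largest normal subgroup of order prime to p. -/
theorem result {G : Type*} [Group G] [Finite G] {p : ℕ} [Fact p.Prime] : Cfsg.IsPConstrained p G ↔ Cfsg.IsPConstrained p (G ⧸ Cfsg.pPrimeCore p G) := by
  have hOn : (Cfsg.pPrimeCore p G).Normal := Cfsg.Agent.Lib.Helper22.pPrimeCore_normal' p G
  have hcop := Cfsg.Agent.Lib.Helper22.card_pPrimeCore_coprime p G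
  have hObar : Cfsg.pPrimeCore p (G ⧸ Cfsg.pPrimeCore p G) = ⊥ :=
    Cfsg.Agent.Lib.Helper22.pPrimeCore_quotient_eq_bot p G
  have hidker : (Nat.card (MonoidHom.id (G ⧸ Cfsg.pPrimeCore p G)).ker).Coprime p := by
    have h1 : (MonoidHom.id (G ⧸ Cfsg.pPrimeCore p G)).ker = ⊥ := by
      ext y
      rw [MonoidHom.mem_ker, Subgroup.mem_bot]
      rfl
    rw [h1, Subgroup.card_bot]
    exact Nat.coprime_one_left p
  constructor
  · intro h
    exact Cfsg.Agent.Lib.Helper49.isPConstrained_of_surjective_charp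
      (MonoidHom.id (G ⧸ Cfsg.pPrimeCore p G)) Function.surjective_id hidker
      (Cfsg.Agent.Lib.Helper49.charp_quotient_of_isPConstrained h)
  · intro h
    have hchar := Cfsg.Agent.Lib.Helper49.charp_of_surjective_isPConstrained
      (MonoidHom.id (G ⧸ Cfsg.pPrimeCore p G)) Function.surjective_id hidker hObar h
    exact Cfsg.Agent.Lib.Helper49.isPConstrained_of_surjective_charp
      (QuotientGroup.mk' (Cfsg.pPrimeCore p G)) (QuotientGroup.mk'_surjective _)
      (by rw [QuotientGroup.ker_mk']; exact hcop) hchar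

end Cfsg.Agent.S0630
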