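import Cfsg.Statements.S0632
import Mathlib
import Cfsg.Agent.Lib.Helper49.PStab

set_option autoImplicit false
open Cfsg

namespace Cfsg.Agent.S0632

/-- For a group with a nontrivial normal p-subgroup, p-stability passes to and from the quotient by the largest normal subgroup of order prime to p. -/
theorem result {G : Type*} [Group G] [Finite G] {p : ℕ} [Fact p.Prime] (hO : Cfsg.pCore p G ≠ ⊥) : Cfsg.IsPStable p G ↔ Cfsg.IsPStable p (G ⧸ Cfsg.pPrimeCore p G) := by
  have hOn : (Cfsg.pPrimeCore p G).Normal := Cfsg.Agent.Lib.Helper22.pPrimeCore_normal' p G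
  have hcop := Cfsg.Agent.Lib.Helper22.card_pPrimeCore_coprime p G
  have hObar : Cfsg.pPrimeCore p (G ⧸ Cfsg.pPrimeCore p G) = ⊥ :=
    Cfsg.Agent.Lib.Helper22.pPrimeCore_quotient_eq_bot p G
  have hker : (QuotientGroup.mk' (Cfsg.pPrimeCore p G)).ker = Cfsg.pPrimeCore p G :=
    QuotientGroup.ker_mk' _
  have hsurj := QuotientGroup.mk'_surjective (Cfsg.pPrimeCore p G)
  constructor
  · rintro ⟨hodd, -, hst⟩
    refine ⟨hodd, ?_, ?_⟩
    · intro hbot
      apply hO
      rw [eq_bot_iff]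
      intro z hz
      have h1 : (QuotientGroup.mk' (Cfsg.pPrimeCore p G)) z ∈
          Cfsg.pCore p (G ⧸ Cfsg.pPrimeCore p G) :=
        Cfsg.Agent.Lib.Helper49.le_pCore ((Cfsg.pCore_normal p G).map _ hsurj)
          ((Cfsg.Agent.Lib.Helper49.pCore_isPGroup p G).map _) ⟨z, hz, rfl⟩
      rw [hbot, Subgroup.mem_bot] at h1
      have h2 : z ∈ Cfsg.pPrimeCore p G := by rw [← hker]; exact h1
      exact Subgroup.mem_bot.mpr (Cfsg.Agent.Lib.Helper49.eq_one_of_mem_pgroup_of_mem_coprime hcop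
        (Cfsg.Agent.Lib.Helper49.pCore_isPGroup p G) hz h2)
    · intro Ab Pb hAb hPb hnorm hle hnormal hcomm
      have hPbn : Pb.Normal := by rw [hObar, bot_sup_eq] at hnormal; exact hnormal
      obtain ⟨P, hP, rfl⟩ := Cfsg.Agent.Lib.Helper49.exists_isPGroup_map_eq
        (QuotientGroup.mk' (Cfsg.pPrimeCore p G)) hsurj Pb hPb
      have hfr := Cfsg.Agent.Lib.Helper22.normalizer_map_mk_of_coprime (Cfsg.pPrimeCore p G) hcop P hP
      have hNtop : Subgroup.normalizer ((P.map (QuotientGroup.mk' (Cfsg.pPrimeCore p G)) :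
          Subgroup (G ⧸ Cfsg.pPrimeCore p G)) : Set (G ⧸ Cfsg.pPrimeCore p G)) = ⊤ :=
        Subgroup.normalizer_eq_top _
      let fN : ↥(Subgroup.normalizer (P : Set G)) →* G ⧸ Cfsg.pPrimeCore p G :=
        (QuotientGroup.mk' (Cfsg.pPrimeCore p G)).comp (Subgroup.normalizer (P : Set G)).subtype
      have hfN : Function.Surjective fN := by
        intro y
        have hy : y ∈ (Subgroup.normalizer (P : Set G)).map
            (QuotientGroup.mk' (Cfsg.pPrimeCore p G)) := by
          rw [hfr, hNtop]; trivial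
        obtain ⟨n, hn, rfl⟩ := hy
        exact ⟨⟨n, hn⟩, rfl⟩
      obtain ⟨A', hA', hA'map⟩ := Cfsg.Agent.Lib.Helper49.exists_isPGroup_map_eq fN hfN Ab hAb
      have hAN : A'.map (Subgroup.normalizer (P : Set G)).subtype ≤
          Subgroup.normalizer (P : Set G) := Subgroup.map_subtype_le A'
      have hAmap : (A'.map (Subgroup.normalizer (P : Set G)).subtype).map
          (QuotientGroup.mk' (Cfsg.pPrimeCore p G)) = Ab := by
        rw [Subgroup.map_map]; exact hA'map
      subst hAmap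
      have hcommP : ⁅⁅P, A'.map (Subgroup.normalizer (P : Set G)).subtype⁆,
          A'.map (Subgroup.normalizer (P : Set G)).subtype⁆ ≤ P := by
        have h1 : ⁅P, A'.map (Subgroup.normalizer (P : Set G)).subtype⁆ ≤ P := by
          rw [Subgroup.commutator_le]
          intro x hx a ha
          have h2 : a * x⁻¹ * a⁻¹ ∈ P :=
            (Subgroup.mem_normalizer_iff.mp (hAN ha) x⁻¹).mp (P.inv_mem hx)
          have h3 : x * a * x⁻¹ * a⁻¹ = x * (a * x⁻¹ * a⁻¹) := by group
          rw [commutatorElement_def, h3]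
          exact P.mul_mem hx h2
        exact (Subgroup.commutator_mono h1 le_rfl).trans h1
      have key := hst (A'.map (Subgroup.normalizer (P : Set G)).subtype) P (hA'.map _) hP ?_ ?_ ?_ ?_
      · exact (Cfsg.Agent.Lib.Helper49.pstable_transfer (Cfsg.pPrimeCore p G) hcop P _ hP hAN).mp key
      · intro a ha x hx
        exact (Subgroup.mem_normalizer_iff.mp (hAN ha) x).mp hx
      · intro x hx
        show (QuotientGroup.mk' (Cfsg.pPrimeCore p G)) x ∈ Cfsg.pCore p (G ⧸ Cfsg.pPrimeCore p G)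
        exact Cfsg.Agent.Lib.Helper49.le_pCore hPbn hPb ⟨x, hx, rfl⟩
      · have h4 : Cfsg.pPrimeCore p G ⊔ P = (P.map (QuotientGroup.mk' (Cfsg.pPrimeCore p G))).comap
            (QuotientGroup.mk' (Cfsg.pPrimeCore p G)) := by
          rw [Subgroup.comap_map_eq, hker, sup_comm]
        rw [h4]
        exact hPbn.comap _
      · rw [eq_bot_iff]
        intro z hz
        have hzP : z ∈ P := hcommP hz
        have hzO : z ∈ Cfsg.pPrimeCore p G := by
          rw [← hker, MonoidHom.mem_ker]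
          have h5 : (QuotientGroup.mk' (Cfsg.pPrimeCore p G)) z ∈
              (⁅⁅P, A'.map (Subgroup.normalizer (P : Set G)).subtype⁆,
                A'.map (Subgroup.normalizer (P : Set G)).subtype⁆).map
                (QuotientGroup.mk' (Cfsg.pPrimeCore p G)) := ⟨z, hz, rfl⟩
          rw [Subgroup.map_commutator, Subgroup.map_commutator, hcomm] at h5
          exact Subgroup.mem_bot.mp h5
        exact Subgroup.mem_bot.mpr
          (Cfsg.Agent.Lib.Helper49.eq_one_of_mem_pgroup_of_mem_coprime hcop hP hzP hzO)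
  · rintro ⟨hodd, -, hst⟩
    refine ⟨hodd, hO, ?_⟩
    intro A P hA hP hnorm hle hnormal hcomm
    have hAN : A ≤ Subgroup.normalizer (P : Set G) := by
      intro a ha
      rw [Subgroup.mem_normalizer_iff]
      intro x
      constructor
      · exact hnorm a ha x
      · intro hx
        have h1 := hnorm a⁻¹ (A.inv_mem ha) _ hx
        have h2 : a⁻¹ * (a * x * a⁻¹) * a⁻¹⁻¹ = x := by group
        rwa [h2] at h1
    have key := hst (A.map (QuotientGroup.mk' (Cfsg.pPrimeCore p G)))
      (P.map (QuotientGroup.mk' (Cfsg.pPrimeCore p G))) (hA.map _) (hP.map _) ?_ ?_ ?_ ?_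
    · exact (Cfsg.Agent.Lib.Helper49.pstable_transfer (Cfsg.pPrimeCore p G) hcop P A hP hAN).mpr key
    · rintro _ ⟨a, ha, rfl⟩ _ ⟨x, hx, rfl⟩
      exact ⟨a * x * a⁻¹, hnorm a ha x hx, by simp⟩
    · have h1 : P.map (QuotientGroup.mk' (Cfsg.pPrimeCore p G)) ≤
          Cfsg.pCore p (G ⧸ Cfsg.pPrimeCore p G) := by
        rw [Subgroup.map_le_iff_le_comap]; exact hle
      have h2 : Cfsg.pCore p (G ⧸ Cfsg.pPrimeCore p G) ≤
          Cfsg.pPrimePCore p (G ⧸ Cfsg.pPrimeCore p G) := by
        intro y hy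
        show (QuotientGroup.mk' (Cfsg.pPrimeCore p (G ⧸ Cfsg.pPrimeCore p G))) y ∈
          Cfsg.pCore p ((G ⧸ Cfsg.pPrimeCore p G) ⧸ Cfsg.pPrimeCore p (G ⧸ Cfsg.pPrimeCore p G))
        exact Cfsg.Agent.Lib.Helper49.le_pCore
          ((Cfsg.pCore_normal p (G ⧸ Cfsg.pPrimeCore p G)).map _ (QuotientGroup.mk'_surjective _))
          ((Cfsg.Agent.Lib.Helper49.pCore_isPGroup p (G ⧸ Cfsg.pPrimeCore p G)).map _) ⟨y, hy, rfl⟩
      exact h1.trans h2
    · rw [hObar, bot_sup_eq]
      have h3 : P.map (QuotientGroup.mk' (Cfsg.pPrimeCore p G)) =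
          (Cfsg.pPrimeCore p G ⊔ P).map (QuotientGroup.mk' (Cfsg.pPrimeCore p G)) := by
        rw [Subgroup.map_sup, (Subgroup.map_eq_bot_iff _).mpr (le_of_eq hker.symm), bot_sup_eq]
      rw [h3]
      exact hnormal.map _ hsurj
    · rw [← Subgroup.map_commutator, ← Subgroup.map_commutator, hcomm, Subgroup.map_bot]

end Cfsg.Agent.S0632
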