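import Mathlib
import Cfsg.Statements.S0634
import Cfsg.Agent.Lib.Helper63.HallHigman

set_option autoImplicit false
open Cfsg

namespace Cfsg.Agent.S0634

open Cfsg.Agent.Lib.Helper63

/-- In a p-soluble group each p-factor of the upper p-series contains its own centralizer in the corresponding quotient. -/
theorem result {G : Type*} [Group G] [Finite G] {p : ℕ} [Fact p.Prime] (hsol : Cfsg.IsPSolvable p G) (k : ℕ) : Subgroup.centralizer ((((Cfsg.upperPSeries p G (2 * k + 2)).1.map (QuotientGroup.mk' (Cfsg.upperPSeries p G (2 * k + 1)).1)) : Subgroup (G ⧸ (Cfsg.upperPSeries p G (2 * k + 1)).1)) : Set (G ⧸ (Cfsg.upperPSeries p G (2 * k + 1)).1)) ≤ (Cfsg.upperPSeries p G (2 * k + 2)).1.map (QuotientGroup.mk' (Cfsg.upperPSeries p G (2 * k + 1)).1) := by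
  have h1 : (U p G (2 * k + 2)).map (QuotientGroup.mk' (U p G (2 * k + 1)))
      = pCore p (G ⧸ U p G (2 * k + 1)) := by
    have hodd : ¬ Even (2 * k + 1) := by simp
    rw [show 2 * k + 2 = (2 * k + 1) + 1 from rfl, U_succ_odd p G hodd,
      Subgroup.map_comap_eq_self_of_surjective (QuotientGroup.mk'_surjective _)]
  show Subgroup.centralizer
      (((U p G (2 * k + 2)).map (QuotientGroup.mk' (U p G (2 * k + 1))) : Subgroup _) : Set _)
    ≤ (U p G (2 * k + 2)).map (QuotientGroup.mk' (U p G (2 * k + 1)))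
  rw [h1]
  apply centralizer_pCore_le (pPrimeCore_quotient_U_eq_bot p G k)
  obtain ⟨j, hj⟩ := exists_plengthLE_of_isPSolvable hsol
  exact ⟨j, plengthLE_quotient _ hj⟩

end Cfsg.Agent.S0634
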