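import Mathlib
import Cfsg.Statements.S0635
import Cfsg.Agent.Lib.Helper63.HallHigman

set_option autoImplicit false
open Cfsg

namespace Cfsg.Agent.S0635

open Cfsg.Agent.Lib.Helper63

theorem main.{u} (p : ℕ) [Fact p.Prime] (c : ℕ) :
    ∀ (G : Type u) [Group G] [Finite G], (∃ k, PLengthLE p k G) → ∀ S : Sylow p G,
      Group.nilpotencyClass ↥(S : Subgroup G) ≤ c → PLengthLE p c G := by
  induction c with
  | zero =>
    intro G _ _ _ S hS
    haveI : Group.IsNilpotent ↥(S : Subgroup G) := S.isPGroup'.isNilpotent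
    have h1 : Subsingleton ↥(S : Subgroup G) :=
      Group.nilpotencyClass_zero_iff_subsingleton.1 (Nat.le_zero.1 hS)
    rw [plengthLE_zero_iff, Nat.coprime_comm, Nat.Prime.coprime_iff_not_dvd Fact.out]
    intro hdvd
    exact Sylow.ne_bot_of_dvd_card S hdvd (Subgroup.eq_bot_of_subsingleton _)
  | succ c ih =>
    intro G _ _ hl S hS
    obtain ⟨k, hk⟩ := hl
    haveI : Group.IsNilpotent ↥(S : Subgroup G) := S.isPGroup'.isNilpotent
    set N := pPrimeCore p G with hN
    let π₁ := QuotientGroup.mk' N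
    have hπ₁ : Function.Surjective π₁ := QuotientGroup.mk'_surjective N
    let S₁ : Sylow p (G ⧸ N) := S.mapSurjective hπ₁
    haveI : Group.IsNilpotent ↥(S₁ : Subgroup (G ⧸ N)) := S₁.isPGroup'.isNilpotent
    have hc1 : Group.nilpotencyClass ↥(S₁ : Subgroup (G ⧸ N)) ≤ c + 1 :=
      (Group.nilpotencyClass_le_of_surjective (π₁.subgroupMap (S : Subgroup G))
        (MonoidHom.subgroupMap_surjective _ _)).trans hS
    have h0 : pPrimeCore p (G ⧸ N) = ⊥ := pPrimeCore_quotient_eq_bot p G
    have hl1 : PLengthLE p k (G ⧸ N) := plengthLE_quotient N hk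
    set P := pCore p (G ⧸ N) with hP
    have hPS : P ≤ (S₁ : Subgroup (G ⧸ N)) := pCore_le_sylow' p S₁
    have hcent := centralizer_pCore_le h0 ⟨k, hl1⟩
    have hZ : ∀ z : ↥(S₁ : Subgroup (G ⧸ N)), z ∈ Subgroup.center ↥(S₁ : Subgroup (G ⧸ N)) →
        (z : G ⧸ N) ∈ P := by
      intro z hz
      apply hcent
      rw [Subgroup.mem_centralizer_iff]
      intro h hh
      have h2 := Subgroup.mem_center_iff.1 hz ⟨h, hPS hh⟩
      exact congrArg Subtype.val h2
    let π₂ := QuotientGroup.mk' P
    have hπ₂ : Function.Surjective π₂ := QuotientGroup.mk'_surjective P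
    let S₂ : Sylow p ((G ⧸ N) ⧸ P) := S₁.mapSurjective hπ₂
    have hc2 : Group.nilpotencyClass ↥(S₂ : Subgroup ((G ⧸ N) ⧸ P)) ≤ c := by
      let f := π₂.subgroupMap (S₁ : Subgroup (G ⧸ N))
      have hf : Function.Surjective f := MonoidHom.subgroupMap_surjective _ _
      have hker : Subgroup.center ↥(S₁ : Subgroup (G ⧸ N)) ≤ f.ker := by
        intro z hz
        rw [MonoidHom.mem_ker]
        apply Subtype.ext
        show π₂ (z : G ⧸ N) = 1
        exact (QuotientGroup.eq_one_iff _).2 (hZ z hz)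
      have h1 := Group.nilpotencyClass_le_of_surjective (QuotientGroup.lift _ f hker)
        (QuotientGroup.lift_surjective_of_surjective _ _ hf hker)
      rw [Group.nilpotencyClass_quotient_center] at h1
      exact h1.trans (by omega)
    have h3 : PLengthLE p c ((G ⧸ N) ⧸ P) := ih _ ⟨k, plengthLE_quotient P hl1⟩ S₂ hc2
    have h4 : PLengthLE p (1 + c) (G ⧸ N) :=
      plengthLE_of_normal P (plengthLE_one_of_isPGroup (pCore_isPGroup' p _)) h3
    have h5 : PLengthLE p (0 + (1 + c)) G :=
      plengthLE_of_normal N (plengthLE_zero_iff.2 (card_pPrimeCore_coprime' p G)) h4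
    have e : 0 + (1 + c) = c + 1 := by ring
    rw [e] at h5; exact h5

/-- The p-length of a p-soluble group is at most the nilpotency class of its Sylow p-subgroups. -/
theorem result {G : Type*} [Group G] [Finite G] {p : ℕ} [Fact p.Prime] (hsol : Cfsg.IsPSolvable p G) (S : Sylow p G) : Cfsg.PLengthLE p (Group.nilpotencyClass ↥(S : Subgroup G)) G := by
  exact main p _ G (exists_plengthLE_of_isPSolvable hsol) S le_rfl

end Cfsg.Agent.S0635
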