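import Mathlib
import Cfsg.Statements.S0642

set_option autoImplicit false
open Cfsg
open scoped commutatorElement

namespace Cfsg.Agent.S0642

/-- In a nontrivial finite 2-group the squares generate a proper subgroup. -/
theorem squares_proper {G : Type*} [Group G] [Finite G] (hG : IsPGroup 2 G) (D : Subgroup G)
    (hD : D ≤ Subgroup.closure {y : G | ∃ x ∈ D, y = x ^ 2}) : D = ⊥ := by
  by_contra hne
  have : Fact (Nat.Prime 2) := ⟨Nat.prime_two⟩
  have hDp : IsPGroup 2 D := hG.to_subgroup D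
  obtain ⟨k, hk⟩ := IsPGroup.iff_card.mp hDp
  have hk0 : k ≠ 0 := by
    rintro rfl
    rw [pow_zero, Subgroup.card_eq_one] at hk
    exact hne hk
  obtain ⟨j, rfl⟩ := Nat.exists_eq_succ_of_ne_zero hk0
  obtain ⟨K, hK⟩ := Sylow.exists_subgroup_card_pow_prime (G := D) 2 (n := j)
    (by rw [hk]; exact pow_dvd_pow 2 (Nat.le_succ j))
  have hidx : K.index = 2 := by
    have h1 := K.card_mul_index
    rw [hK, hk, pow_succ] at h1
    exact Nat.eq_of_mul_eq_mul_left (pow_pos (by norm_num) j) h1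
  have hle : Subgroup.closure {y : G | ∃ x ∈ D, y = x ^ 2} ≤ K.map D.subtype := by
    rw [Subgroup.closure_le]
    rintro y ⟨x, hx, rfl⟩
    exact ⟨⟨x, hx⟩ ^ 2, Subgroup.sq_mem_of_index_two hidx ⟨x, hx⟩, rfl⟩
  have hDK : D ≤ K.map D.subtype := hD.trans hle
  have hKtop : K = ⊤ := by
    rw [eq_top_iff]
    intro x _
    obtain ⟨y, hy, hxy⟩ := hDK x.2
    have : y = x := Subtype.ext hxy
    rwa [← this]
  rw [hKtop, Subgroup.index_top] at hidx
  norm_num at hidx

/-- Among finite 2-groups the regular ones are exactly the abelian ones. -/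
theorem result {G : Type*} [Group G] [Finite G] (hG : IsPGroup 2 G) : Cfsg.IsRegularPGroup 2 G ↔ ∀ a b : G, a * b = b * a := by
  constructor
  · intro hreg
    have hcomm : (⁅(⊤ : Subgroup G), (⊤ : Subgroup G)⁆ : Subgroup G) ≤
        Subgroup.closure {y : G | ∃ x ∈ (⁅(⊤ : Subgroup G), (⊤ : Subgroup G)⁆ : Subgroup G), y = x ^ 2} := by
      rw [Subgroup.commutator_le]
      intro x _ y _
      obtain ⟨c, hc, hab⟩ := hreg.2 (x⁻¹ * y⁻¹ * x) x⁻¹ 1
      have hc' : c = ⁅x, y⁆ := by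
        rw [pow_one] at hab
        rw [commutatorElement_def]
        simp only [pow_two] at hab
        have h2 : c = (x⁻¹ * x⁻¹)⁻¹ * (x⁻¹ * y⁻¹ * x * (x⁻¹ * y⁻¹ * x))⁻¹ * (x⁻¹ * y⁻¹ * x * x⁻¹ * (x⁻¹ * y⁻¹ * x * x⁻¹)) := by
          rw [hab]; group
        rw [h2]; group
      rw [← hc']
      have hmono : Cfsg.powerClosure 2 1 ⁅Subgroup.closure ({x⁻¹ * y⁻¹ * x, x⁻¹} : Set G), Subgroup.closure ({x⁻¹ * y⁻¹ * x, x⁻¹} : Set G)⁆ ≤
          Subgroup.closure {y : G | ∃ x ∈ (⁅(⊤ : Subgroup G), (⊤ : Subgroup G)⁆ : Subgroup G), y = x ^ 2} := by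
        unfold Cfsg.powerClosure
        apply Subgroup.closure_mono
        rintro z ⟨w, hw, rfl⟩
        exact ⟨w, Subgroup.commutator_mono le_top le_top hw, by rw [pow_one]⟩
      exact hmono hc
    have hbot := squares_proper hG _ hcomm
    intro a b
    have : ⁅a, b⁆ ∈ (⁅(⊤ : Subgroup G), (⊤ : Subgroup G)⁆ : Subgroup G) :=
      Subgroup.commutator_mem_commutator (Subgroup.mem_top a) (Subgroup.mem_top b)
    rw [hbot, Subgroup.mem_bot, commutatorElement_eq_one_iff_mul_comm] at this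
    exact this
  · intro hab
    refine ⟨hG, ?_⟩
    intro a b n
    refine ⟨1, one_mem _, ?_⟩
    rw [mul_one]
    exact (show Commute a b from hab a b).mul_pow _

end Cfsg.Agent.S0642
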