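import Mathlib
import Cfsg.Statements.S0643
import Cfsg.Agent.Lib.Helper38.Regular

set_option autoImplicit false
open Cfsg
open Cfsg.Agent.Lib.Helper38.Regular

namespace Cfsg.Agent.S0643

theorem result {G : Type*} [Group G] [Finite G] {p : ℕ} [Fact p.Prime] (hG : IsPGroup p G) : Cfsg.IsRegularPGroup p G ↔ ∀ a b : G, ∃ c ∈ ⁅Subgroup.closure ({a, b} : Set G), Subgroup.closure ({a, b} : Set G)⁆, (a * b) ^ p = a ^ p * b ^ p * c ^ p := by
  constructor
  · intro hreg a b
    exact reg1_strong hG (reg1_of_regular hreg) a b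
  · intro h
    have h1 : Reg1 p G := by
      intro a b
      obtain ⟨c, hc, e⟩ := h a b
      exact ⟨c ^ p, Subgroup.subset_closure ⟨c, hc, by rw [pow_one]⟩, e⟩
    refine ⟨hG, ?_⟩
    intro a b n
    obtain ⟨c, hc, e⟩ := mul_pow_regular hG h1 n a b
    exact ⟨c ^ (p ^ n), Subgroup.subset_closure ⟨c, hc, rfl⟩, e⟩

end Cfsg.Agent.S0643
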