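-- Statement S0645: non-abelian p-groups (p odd) with a cyclic maximal subgroup.
import Mathlib
import Cfsg.Statements.S0645
import Cfsg.Agent.Lib.Helper95.CyclicMax

set_option autoImplicit false
open Cfsg

namespace Cfsg.Agent.S0645

/-- Conjugation by a power of `t` when `t a t⁻¹ = a z` with `z` central. -/
lemma conj_pow_aux {G : Type*} [Group G] (a t z : G) (h : t * a * t⁻¹ = a * z)
    (hz : z ∈ Subgroup.center G) (j : ℕ) : t ^ j * a * (t ^ j)⁻¹ = a * z ^ j := by
  induction j with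
  | zero => simp
  | succ j ih =>
    have hzc : ∀ g : G, g * z ^ j = z ^ j * g :=
      fun g => Subgroup.mem_center_iff.mp (pow_mem hz j) g
    calc t ^ (j + 1) * a * (t ^ (j + 1))⁻¹ = t * (t ^ j * a * (t ^ j)⁻¹) * t⁻¹ := by
          rw [pow_succ']
          group
      _ = t * (a * z ^ j) * t⁻¹ := by rw [ih]
      _ = t * a * (z ^ j * t⁻¹) := by simp only [mul_assoc]
      _ = t * a * (t⁻¹ * z ^ j) := by rw [hzc t⁻¹]
      _ = (t * a * t⁻¹) * z ^ j := by simp only [mul_assoc]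
      _ = a * z * z ^ j := by rw [h]
      _ = a * z ^ (j + 1) := by rw [mul_assoc, ← pow_succ']

/-- Classification of p-groups with a cyclic maximal subgroup, odd p: a non-abelian one of order p^n has generators a of order p^(n-1) and b of order p, b outside the cyclic subgroup generated by a, with b a b⁻¹ = a^(1 + p^(n-2)). -/
theorem result {G : Type*} [Group G] [Finite G] {p : ℕ} [Fact p.Prime] (hp : p ≠ 2) (n : ℕ) (hn : 3 ≤ n) (hG : Nat.card G = p ^ n) (C : Subgroup G) (hC : IsCyclic C) (hCi : C.index = p) (hna : ∃ x y : G, x * y ≠ y * x) : ∃ a b : G, orderOf a = p ^ (n - 1) ∧ orderOf b = p ∧ b ∉ Subgroup.zpowers a ∧ b * a * b⁻¹ = a ^ (1 + p ^ (n - 2)) := by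
  have hpp : p.Prime := Fact.out
  have hR : IsPGroup p G := IsPGroup.of_card hG
  have hnc : ¬ IsCyclic G := by
    intro hcyc
    obtain ⟨x, y, hxy⟩ := hna
    obtain ⟨g, hg⟩ := hcyc.exists_generator
    obtain ⟨i, rfl⟩ := Subgroup.mem_zpowers_iff.mp (hg x)
    obtain ⟨j, rfl⟩ := Subgroup.mem_zpowers_iff.mp (hg y)
    exact hxy ((Commute.refl g).zpow_zpow i j).eq
  obtain ⟨a, t, N, hCa, hCn, hNn, hNc, hNcard, hNe, htN, htC, hzcent, hzC, hzp, hgen⟩ :=
    Cfsg.Agent.Lib.Helper95.CyclicMax.core hp hR hnc C hC hCi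
  have hcomm := Cfsg.Agent.Lib.Helper95.CyclicMax.commutator_mem_zpowers a t hgen hzcent
  have hconj : t * a * t⁻¹ = a * (t * a * t⁻¹ * a⁻¹) := by
    rw [Subgroup.mem_center_iff.mp hzcent a]
    group
  generalize t * a * t⁻¹ * a⁻¹ = z at hzcent hzC hzp hcomm hconj
  -- order of a
  have hCcard : Nat.card C = p ^ (n - 1) := by
    have h1 := Subgroup.card_mul_index C
    rw [hCi, hG] at h1
    have h2 : p ^ n = p ^ (n - 1) * p := by
      rw [← pow_succ, Nat.sub_add_cancel (by omega)]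
    rw [h2] at h1
    exact Nat.eq_of_mul_eq_mul_right hpp.pos h1
  have hao : orderOf a = p ^ (n - 1) := by
    rw [← Nat.card_zpowers, ← hCa, hCcard]
  -- z is nontrivial
  have hz1 : z ≠ 1 := by
    rintro rfl
    obtain ⟨x, y, hxy⟩ := hna
    have h1 := hcomm x y
    rw [Subgroup.zpowers_one_eq_bot, Subgroup.mem_bot] at h1
    apply hxy
    have h2 : y * x = x * y := by
      have h3 : y * x = x * y * (y⁻¹ * x⁻¹ * y * x) := by group
      rw [h3, h1, mul_one]
    exact h2.symm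
  -- z is a power of a
  have hza : z ∈ Subgroup.zpowers a := hCa ▸ hzC
  obtain ⟨i, hi⟩ := (Submonoid.mem_powers_iff _ _).mp (mem_powers_iff_mem_zpowers.mpr hza)
  have hdvd : p ^ (n - 2) ∣ i := by
    have h1 : a ^ (i * p) = 1 := by rw [pow_mul, hi, hzp]
    have h2 : p ^ (n - 1) ∣ i * p := by
      rw [← hao]
      exact orderOf_dvd_of_pow_eq_one h1
    have h3 : p ^ (n - 1) = p ^ (n - 2) * p := by
      rw [← pow_succ]
      congr 1
      omega
    rw [h3] at h2
    exact Nat.dvd_of_mul_dvd_mul_right hpp.pos h2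
  obtain ⟨k, rfl⟩ := hdvd
  have hz0p : (a ^ (p ^ (n - 2))) ^ p = 1 := by
    have h3 : n - 2 + 1 = n - 1 := by omega
    rw [← pow_mul, ← pow_succ, h3, ← hao]
    exact pow_orderOf_eq_one a
  have hz0 : a ^ (p ^ (n - 2)) ≠ 1 := by
    intro h
    have h1 : p ^ (n - 1) ∣ p ^ (n - 2) := by
      rw [← hao]
      exact orderOf_dvd_of_pow_eq_one h
    rw [Nat.pow_dvd_pow_iff_le_right hpp.one_lt] at h1
    omega
  have hzk : z = (a ^ (p ^ (n - 2))) ^ k := by rw [← hi, pow_mul]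
  have hpk : ¬ p ∣ k := by
    rintro ⟨k', rfl⟩
    apply hz1
    rw [hzk, pow_mul, hz0p, one_pow]
  obtain ⟨j, -, hj⟩ := Nat.exists_mul_mod_eq_one_of_coprime
    ((Nat.Prime.coprime_iff_not_dvd hpp).mpr hpk).symm hpp.one_lt
  have hzj : z ^ j = a ^ (p ^ (n - 2)) := by
    rw [hzk, ← pow_mul, pow_eq_pow_mod (k * j) hz0p, hj, pow_one]
  have hb : t ^ j * a * (t ^ j)⁻¹ = a ^ (1 + p ^ (n - 2)) := by
    rw [conj_pow_aux a t z hconj hzcent j, hzj, pow_add, pow_one]
  have hbnot : t ^ j ∉ Subgroup.zpowers a := by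
    intro h
    obtain ⟨l, hl⟩ := Subgroup.mem_zpowers_iff.mp h
    have h1 : t ^ j * a * (t ^ j)⁻¹ = a := by
      rw [← hl, ((Commute.refl a).zpow_left l).eq, mul_inv_cancel_right]
    rw [h1, pow_add, pow_one] at hb
    exact hz0 (left_eq_mul.mp hb)
  have hb1 : t ^ j ≠ 1 := by
    intro h
    apply hbnot
    rw [h]
    exact one_mem _
  have hbp : (t ^ j) ^ p = 1 := by
    rw [← pow_mul, mul_comm, pow_mul, hNe t htN, one_pow]
  exact ⟨a, t ^ j, hao, orderOf_eq_prime hbp hb1, hbnot, hb⟩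

end Cfsg.Agent.S0645
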