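import Cfsg.Statements.S0646
import Mathlib
import Cfsg.Agent.Lib.Helper73.MaximalClassTwo
import Cfsg.Agent.Lib.Helper73.ModularTwo

set_option autoImplicit false
open Cfsg

namespace Cfsg.Agent.S0646

open Cfsg.Agent.Lib.Helper73 in
open scoped commutatorElement in
/-- Classification of non-abelian 2-groups with a cyclic maximal subgroup: dihedral, generalized quaternion, and for order at least 16 the modular group and the semidihedral group, each given by generators a (of index 2) and b with the stated relations. -/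
theorem result {G : Type*} [Group G] [Finite G] (n : ℕ) (hn : 3 ≤ n) (hG : Nat.card G = 2 ^ n) (C : Subgroup G) (hC : IsCyclic C) (hCi : C.index = 2) (hna : ∃ x y : G, x * y ≠ y * x) : ∃ a b : G, orderOf a = 2 ^ (n - 1) ∧ b ∉ Subgroup.zpowers a ∧ ((b ^ 2 = 1 ∧ b * a * b⁻¹ = a⁻¹) ∨ (b ^ 2 = a ^ (2 ^ (n - 2)) ∧ b * a * b⁻¹ = a⁻¹) ∨ (4 ≤ n ∧ b ^ 2 = 1 ∧ b * a * b⁻¹ = a ^ (1 + 2 ^ (n - 2))) ∨ (4 ≤ n ∧ b ^ 2 = 1 ∧ b * a * b⁻¹ = a ^ (2 ^ (n - 2) - 1))) := by
  have : Fact (Nat.Prime 2) := ⟨Nat.prime_two⟩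
  have h2 : IsPGroup 2 G := IsPGroup.of_card hG
  have hne : commutator G ≠ ⊥ := by
    intro h
    obtain ⟨x, y, hxy⟩ := hna
    apply hxy
    have hmem : ⁅x, y⁆ ∈ commutator G := by
      rw [commutator_def]
      exact Subgroup.commutator_mem_commutator (Subgroup.mem_top x) (Subgroup.mem_top y)
    rw [h, Subgroup.mem_bot, commutatorElement_def] at hmem
    calc x * y = (x * y * x⁻¹ * y⁻¹) * (y * x) := by group
      _ = y * x := by rw [hmem, one_mul]
  by_cases hidx : (commutator G).index = 4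
  · obtain ⟨m, a, b, hm, hcard, ha, hb, hrel⟩ := maximal_class_structure G h2 hidx hne
    have hnm : n = m + 1 := by
      rw [hG] at hcard
      exact Nat.pow_right_injective (le_refl 2) hcard
    subst hnm
    refine ⟨a, b, by simpa using ha, hb, ?_⟩
    have e1 : m + 1 - 2 = m - 1 := by omega
    rw [e1]
    rcases hrel with ⟨h1, h2⟩ | ⟨h1, h2⟩ | ⟨h0, h1, h2⟩
    · exact Or.inl ⟨h2, h1⟩
    · exact Or.inr (Or.inl ⟨h2, h1⟩)
    · exact Or.inr (Or.inr (Or.inr ⟨by omega, h2, h1⟩))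
  · obtain ⟨a, hCeq⟩ : ∃ a : G, C = Subgroup.zpowers a := by
      obtain ⟨a', ha'⟩ := hC.exists_generator
      refine ⟨(a' : G), ?_⟩
      apply le_antisymm
      · intro x hx
        obtain ⟨k, hk⟩ := Subgroup.mem_zpowers_iff.mp (ha' ⟨x, hx⟩)
        rw [Subgroup.mem_zpowers_iff]
        refine ⟨k, ?_⟩
        have := congrArg Subtype.val hk
        simpa using this
      · exact Subgroup.zpowers_le.mpr a'.2
    subst hCeq
    obtain ⟨l, rfl⟩ : ∃ l, n = l + 3 := ⟨n - 3, by omega⟩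
    have hCcard : Nat.card (Subgroup.zpowers a) = 2 ^ (l + 2) := by
      have h1 := (Subgroup.zpowers a).card_mul_index
      rw [hCi, hG] at h1
      have h3 : 2 ^ (l + 2) * 2 = 2 ^ (l + 3) := by ring
      rw [← h3] at h1
      exact Nat.eq_of_mul_eq_mul_right (by norm_num) h1
    have ha : orderOf a = 2 ^ (l + 2) := by
      rw [← hCcard, Nat.card_zpowers]
    obtain ⟨hl, b, hb, hb2, hbab⟩ := modular_structure a l ha hCi hne hidx
    refine ⟨a, b, ha, hb, Or.inr (Or.inr (Or.inl ⟨by omega, hb2, hbab⟩))⟩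

end Cfsg.Agent.S0646
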