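import Cfsg.Statements.S0656
import Cfsg.Agent.Lib.Helper89.QuadSection

set_option autoImplicit false
open Cfsg

namespace Cfsg.Agent.S0656

/-- For odd p, a faithful group on an elementary abelian p-group with no nontrivial normal p-subgroup in which some nontrivial p-element acts quadratically has a section isomorphic to SL(2, p). -/
theorem result {G : Type*} [Group G] [Finite G] {p : ℕ} [Fact p.Prime] (hp : p ≠ 2) (V H : Subgroup G) (hV : Cfsg.IsElementaryAbelian p V) (hHV : H ≤ Subgroup.normalizer (V : Set G)) (hf : H ⊓ Subgroup.centralizer (V : Set G) = ⊥) (hO : Cfsg.pCore p ↥H = ⊥) (x : G) (hxH : x ∈ H) (hx1 : x ≠ 1) (hxp : ∃ k : ℕ, orderOf x = p ^ k) (hq : ⁅⁅V, Subgroup.zpowers x⁆, Subgroup.zpowers x⁆ = ⊥) : ∃ (K L : Subgroup G) (hL : (L.subgroupOf K).Normal), K ≤ H ∧ Nonempty ((K ⧸ L.subgroupOf K) ≃* Matrix.SpecialLinearGroup (Fin 2) (ZMod p)) := by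
  classical
  have := hV.1
  have hcomm : ∀ u v : V, u * v = v * u := fun u v => mul_comm' u v
  have hA : ∀ v : V, v ^ p = 1 := fun v => Subtype.ext (by rw [Subgroup.coe_pow]; exact hV.2 v v.2)
  obtain ⟨ρ, hρdef⟩ : ∃ ρ : H →* MulAut V,
      ρ = V.normalizerMonoidHom.comp (Subgroup.inclusion hHV) := ⟨_, rfl⟩
  have hρ : ∀ (h : H) (v : V), ((ρ h v : V) : G) = h * v * (h : G)⁻¹ := by
    intro h v
    rw [hρdef]; rfl
  have hρinj : ∀ d : H, ρ d = 1 → d = 1 := by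
    intro h hh
    have hmem : (h : G) ∈ H ⊓ Subgroup.centralizer (V : Set G) := by
      refine Subgroup.mem_inf.2 ⟨h.2, ?_⟩
      rw [Subgroup.mem_centralizer_iff]
      intro v hv
      have h1 := congrArg (fun e : MulAut V => ((e ⟨v, hv⟩ : V) : G)) hh
      simp only [hρ] at h1
      have h2 : (h : G) * v * (h : G)⁻¹ = v := h1
      calc v * (h : G) = ((h : G) * v * (h : G)⁻¹) * h := by rw [h2]
        _ = h * v := by group
    rw [hf, Subgroup.mem_bot] at hmem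
    exact Subtype.ext hmem
  have hqx : ∀ v : V, ρ ⟨x, hxH⟩ (ρ ⟨x, hxH⟩ v / v) = ρ ⟨x, hxH⟩ v / v := by
    intro v
    rw [hρdef]
    exact Cfsg.Agent.Lib.Helper89.quad_of_commutator V H hHV ⟨x, hxH⟩ hq v
  -- Baer–Suzuki
  have hex : ∃ g : H, ¬ IsPGroup p (Subgroup.closure
      ({(⟨x, hxH⟩ : H), g * ⟨x, hxH⟩ * g⁻¹} : Set H)) := by
    by_contra hall
    push Not at hall
    obtain ⟨N, hN, hNp, hxN⟩ := Cfsg.Agent.Lib.Helper64.baerSuzuki_elt p (⟨x, hxH⟩ : H) hall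
    have hle : N ≤ Cfsg.pCore p H := le_sSup ⟨hN, hNp⟩
    rw [hO] at hle
    have h1 := Subgroup.mem_bot.1 (hle hxN)
    exact hx1 (congrArg Subtype.val h1)
  obtain ⟨g, hg⟩ := hex
  have hnp : ∃ d ∈ Subgroup.closure ({(⟨x, hxH⟩ : H), g * ⟨x, hxH⟩ * g⁻¹} : Set H),
      ∀ k : ℕ, ρ d ^ p ^ k ≠ 1 := by
    by_contra hcon
    push Not at hcon
    apply hg
    rintro ⟨d, hd⟩
    obtain ⟨k, hk⟩ := hcon d hd
    refine ⟨k, ?_⟩
    apply Subtype.ext
    rw [Subgroup.coe_pow]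
    apply hρinj
    rw [map_pow]
    exact hk
  have hconj := Cfsg.Agent.Lib.Helper89.quad_conj ρ ⟨x, hxH⟩ g hqx
  have key := Cfsg.Agent.Lib.Helper89.quad_section_of_action hp hcomm hA ρ ⟨x, hxH⟩
    (g * ⟨x, hxH⟩ * g⁻¹) hqx hconj
  obtain ⟨K₀, ψ, -, hψ⟩ := key hnp
  obtain ⟨ψ', hψ'⟩ := Cfsg.Agent.Lib.Helper89.exists_surjective_map H.subtype
    (Subgroup.subtype_injective H) K₀ ψ hψ
  exact Cfsg.Agent.Lib.Helper89.section_of_surjective H (K₀.map H.subtype)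
    (by rintro _ ⟨d, -, rfl⟩; exact d.2) ψ' hψ'

end Cfsg.Agent.S0656
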