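import Cfsg.Statements.S0660
import Mathlib
-- import your own Cfsg.Agent.* helpers here

set_option autoImplicit false
open Cfsg

namespace Cfsg.Agent.S0660

open scoped IsMulCommutative

/-- In a finite group, an element conjugating `H` into itself normalizes `H`. -/
theorem mem_normalizer_of_conj_le' {G : Type*} [Group G] [Finite G] (H : Subgroup G) (g : G)
    (h : ∀ x ∈ H, g * x * g⁻¹ ∈ H) : g ∈ Subgroup.normalizer (H : Set G) := by
  have hinj : Function.Injective (fun x : H => (⟨g * x * g⁻¹, h x x.2⟩ : H)) := by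
    intro x y hxy
    have h1 : g * (x : G) * g⁻¹ = g * (y : G) * g⁻¹ := congrArg Subtype.val hxy
    apply Subtype.ext
    have h2 := congrArg (fun t => g⁻¹ * t * g) h1
    simpa [mul_assoc] using h2
  have hsurj := Finite.surjective_of_injective hinj
  rw [Subgroup.mem_normalizer_iff]
  intro x
  refine ⟨fun hx => h x hx, fun hx => ?_⟩
  obtain ⟨y, hy⟩ := hsurj ⟨g * x * g⁻¹, hx⟩
  have h1 : g * (y : G) * g⁻¹ = g * x * g⁻¹ := congrArg Subtype.val hy
  have h2 := congrArg (fun t => g⁻¹ * t * g) h1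
  have h3 : (y : G) = x := by simpa [mul_assoc] using h2
  rw [← h3]
  exact y.2

theorem maschke_comm {M A : Type*} [CommGroup M] [Finite M] [Group A] [Finite A]
    (f : A →* MulAut M) (hcop : (Nat.card A).Coprime (Nat.card M)) (U W : Subgroup M)
    (hU : ∀ a : A, ∀ u ∈ U, f a u ∈ U) (hUW : U ⊓ W = ⊥) (hsup : U ⊔ W = ⊤) :
    ∃ W' : Subgroup M, (∀ a : A, ∀ w ∈ W', f a w ∈ W') ∧ U ⊓ W' = ⊥ ∧ U ⊔ W' = ⊤ := by
  classical
  have := Fintype.ofFinite A
  let c : U × W →* M := U.subtype.coprod W.subtype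
  have hc_inj : Function.Injective c := by
    rw [injective_iff_map_eq_one]
    rintro ⟨u, w⟩ h
    have h1 : (u : M) * (w : M) = 1 := h
    have h2 : (u : M) ∈ U ⊓ W := by
      refine ⟨u.2, ?_⟩
      have : (u : M) = (w : M)⁻¹ := eq_inv_of_mul_eq_one_left h1
      rw [this]; exact W.inv_mem w.2
    rw [hUW, Subgroup.mem_bot] at h2
    have h3 : (w : M) = 1 := by rw [h2, one_mul] at h1; exact h1
    exact Prod.ext (Subtype.ext h2) (Subtype.ext h3)
  have hc_surj : Function.Surjective c := by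
    intro m
    have hm : m ∈ U ⊔ W := by rw [hsup]; trivial
    obtain ⟨u, hu, w, hw, huw⟩ := Subgroup.mem_sup.mp hm
    exact ⟨(⟨u, hu⟩, ⟨w, hw⟩), huw⟩
  let e : U × W ≃* M := MulEquiv.ofBijective c ⟨hc_inj, hc_surj⟩
  let π : M →* M := (U.subtype.comp (MonoidHom.fst U W)).comp e.symm.toMonoidHom
  have hπU : ∀ m, π m ∈ U := fun m => (e.symm m).1.2
  have hπu : ∀ u ∈ U, π u = u := by
    intro u hu
    have h1 : e.symm u = ((⟨u, hu⟩ : U), (1 : W)) := by
      rw [MulEquiv.symm_apply_eq]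
      show u = (u : M) * ((1 : W) : M)
      simp
    show ((e.symm u).1 : M) = u
    rw [h1]
  let φ : M →* M := ∏ a : A, ((f a).toMonoidHom.comp π).comp (f a⁻¹).toMonoidHom
  have hφ_apply : ∀ m, φ m = ∏ a : A, f a (π (f a⁻¹ m)) := by
    intro m
    simp [φ, MonoidHom.finsetProd_apply]
  have hφU : ∀ m, φ m ∈ U := by
    intro m
    rw [hφ_apply]
    exact Subgroup.prod_mem _ (fun a _ => hU a _ (hπU _))
  have hφu : ∀ u ∈ U, φ u = u ^ Nat.card A := by
    intro u hu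
    rw [hφ_apply]
    have h1 : ∀ a : A, f a (π (f a⁻¹ u)) = u := by
      intro a
      rw [hπu _ (hU a⁻¹ u hu)]
      have : f a (f a⁻¹ u) = (f a * f a⁻¹) u := rfl
      rw [this, ← map_mul, mul_inv_cancel, map_one]; rfl
    rw [Finset.prod_congr rfl (fun a _ => h1 a), Finset.prod_const, Finset.card_univ,
      Nat.card_eq_fintype_card]
  have hφeq : ∀ (b : A) (m : M), φ (f b m) = f b (φ m) := by
    intro b m
    rw [hφ_apply, hφ_apply, map_prod]
    symm
    apply Fintype.prod_equiv (Equiv.mulLeft b)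
    intro c
    show f b (f c (π (f c⁻¹ m))) = f (b * c) (π (f (b * c)⁻¹ (f b m)))
    have h1 : f (b * c)⁻¹ (f b m) = f c⁻¹ m := by
      have : f (b * c)⁻¹ (f b m) = (f (b * c)⁻¹ * f b) m := rfl
      rw [this, ← map_mul]
      congr 2
      group
    rw [h1, map_mul]; rfl
  obtain ⟨k, -, hk⟩ := Nat.exists_mul_mod_eq_of_coprime 1 hcop (Nat.card_pos (α := M)).ne'
  have hpow : ∀ m : M, (m ^ Nat.card A) ^ k = m := by
    intro m
    rw [← pow_mul, ← pow_mod_natCard, hk, pow_mod_natCard, pow_one]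
  let π' : M →* M := (powMonoidHom k).comp φ
  have hπ'U : ∀ m, π' m ∈ U := fun m => U.pow_mem (hφU m) k
  have hπ'u : ∀ u ∈ U, π' u = u := by
    intro u hu
    show (φ u) ^ k = u
    rw [hφu u hu, hpow]
  have hπ'eq : ∀ (b : A) (m : M), π' (f b m) = f b (π' m) := by
    intro b m
    show (φ (f b m)) ^ k = f b ((φ m) ^ k)
    rw [hφeq, map_pow]
  refine ⟨π'.ker, ?_, ?_, ?_⟩
  · intro a w hw
    rw [MonoidHom.mem_ker] at hw ⊢
    rw [hπ'eq, hw, map_one]
  · rw [eq_bot_iff]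
    rintro x ⟨hxU, hxk⟩
    rw [Subgroup.mem_bot]
    have h1 := hπ'u x hxU
    rw [← h1]; exact MonoidHom.mem_ker.mp hxk
  · rw [eq_top_iff]
    intro v _
    have h1 : v = π' v * ((π' v)⁻¹ * v) := by group
    rw [h1]
    apply Subgroup.mul_mem_sup (hπ'U v)
    rw [MonoidHom.mem_ker, map_mul, map_inv, hπ'u _ (hπ'U v), inv_mul_cancel]

/-- Under a coprime action on an abelian group, an invariant subgroup that is complemented admits an invariant complement. -/
theorem result {G : Type*} [Group G] [Finite G] (V A U : Subgroup G) (hVab : IsMulCommutative V) (hAV : A ≤ Subgroup.normalizer (V : Set G)) (hcop : (Nat.card A).Coprime (Nat.card V)) (hUV : U ≤ V) (hAU : A ≤ Subgroup.normalizer (U : Set G)) (W : Subgroup G) (hWV : W ≤ V) (hUW : U ⊓ W = ⊥) (hUWV : U ⊔ W = V) : ∃ W' : Subgroup G, W' ≤ V ∧ A ≤ Subgroup.normalizer (W' : Set G) ∧ U ⊓ W' = ⊥ ∧ U ⊔ W' = V := by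
  have hinst : IsMulCommutative V := hVab
  let f : A →* MulAut V := V.normalizerMonoidHom.comp (Subgroup.inclusion hAV)
  have hs1 : ∀ a : A, ∀ u ∈ U.subgroupOf V, f a u ∈ U.subgroupOf V := by
    intro a u hu
    rw [Subgroup.mem_subgroupOf] at hu ⊢
    have h1 := hAU a.2
    exact (Subgroup.mem_normalizer_iff.mp h1 _).mp hu
  have hs2 : U.subgroupOf V ⊓ W.subgroupOf V = ⊥ := by
    rw [eq_bot_iff]
    rintro x ⟨h1, h2⟩
    have h3 : (x : G) ∈ U ⊓ W := ⟨h1, h2⟩
    rw [hUW, Subgroup.mem_bot] at h3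
    exact Subtype.ext h3
  have hs3 : U.subgroupOf V ⊔ W.subgroupOf V = ⊤ := by
    rw [← Subgroup.subgroupOf_sup hUV hWV, hUWV, Subgroup.subgroupOf_self]
  obtain ⟨W'', hW1, hW2, hW3⟩ := maschke_comm f hcop (U.subgroupOf V) (W.subgroupOf V) hs1 hs2 hs3
  refine ⟨W''.map V.subtype, Subgroup.map_subtype_le W'', ?_, ?_, ?_⟩
  · intro a ha
    apply mem_normalizer_of_conj_le'
    rintro x ⟨w, hw, rfl⟩
    exact ⟨f ⟨a, ha⟩ w, hW1 ⟨a, ha⟩ w hw, rfl⟩
  · rw [eq_bot_iff]
    rintro x ⟨hxU, w, hw, rfl⟩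
    have h1 : w ∈ U.subgroupOf V ⊓ W'' := ⟨hxU, hw⟩
    rw [hW2, Subgroup.mem_bot] at h1
    rw [Subgroup.mem_bot, h1]; rfl
  · apply le_antisymm (sup_le hUV (Subgroup.map_subtype_le W''))
    intro v hv
    have h1 : (⟨v, hv⟩ : V) ∈ U.subgroupOf V ⊔ W'' := by rw [hW3]; trivial
    obtain ⟨u, hu, w, hw, huw⟩ := Subgroup.mem_sup.mp h1
    have h2 : v = (u : G) * (w : G) := congrArg Subtype.val huw.symm
    rw [h2]
    exact Subgroup.mul_mem_sup hu ⟨w, hw, rfl⟩

end Cfsg.Agent.S0660
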