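import Cfsg.Statements.S0666
import Cfsg.Agent.S0035
import Cfsg.Agent.Lib.Helper58.FrobAvg

set_option autoImplicit false
open Cfsg

namespace Cfsg.Agent.S0666

open scoped Pointwise


/-- A Frobenius group acting on a nontrivial abelian group of order prime to that of its kernel, with the kernel acting without nontrivial fixed points, has a complement with a nontrivial fixed point. -/
theorem result {G : Type*} [Group G] [Finite G] (V F : Subgroup G) (hVab : IsMulCommutative V) (hV1 : V ≠ ⊥) (hFV : F ≤ Subgroup.normalizer (V : Set G)) (H : Subgroup ↥F) (hH : Cfsg.IsFrobeniusComplement H) (hcop : (Nat.card V).Coprime (Nat.card (Cfsg.frobeniusKernel H))) (hCK : V ⊓ Subgroup.centralizer (Subtype.val '' Cfsg.frobeniusKernel H : Set G) = ⊥) : V ⊓ Subgroup.centralizer ((H.map F.subtype : Subgroup G) : Set G) ≠ ⊥ := by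
  classical
  obtain ⟨N, hNK, hNn, hNc⟩ := Cfsg.Agent.S0035.result H hH
  intro hCH
  haveI : Fintype F := Fintype.ofFinite F
  haveI := hNn
  letI : CommGroup V :=
    { (inferInstance : Group V) with mul_comm := fun a b => hVab.is_comm.comm a b }
  have hker : ∀ f : F, f ∉ N → ∃ g : F, f ∈ MulAut.conj g • H := by
    intro f hf
    have h1 : f ∉ Cfsg.frobeniusKernel H := by rw [← hNK]; exact hf
    unfold Cfsg.frobeniusKernel at h1
    simp only [Set.mem_ofPred_eq, not_or, not_forall, not_not] at h1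
    exact h1.2
  have hN : ∀ v : V, (∀ n ∈ N, Cfsg.Agent.Lib.Helper58.conjOn V F hFV n v = v) → v = 1 := by
    intro v hv
    have h1 : (v : G) ∈ V ⊓ Subgroup.centralizer (Subtype.val '' Cfsg.frobeniusKernel H : Set G) := by
      refine Subgroup.mem_inf.mpr ⟨v.2, ?_⟩
      rw [Subgroup.mem_centralizer_iff]
      rintro x ⟨n, hn, rfl⟩
      have hn' : n ∈ N := by rw [← SetLike.mem_coe, hNK]; exact hn
      have h2 := congrArg Subtype.val (hv n hn')
      rw [Cfsg.Agent.Lib.Helper58.conjOn_apply] at h2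
      exact mul_inv_eq_iff_eq_mul.mp h2
    rw [hCK] at h1
    exact Subtype.ext (Subgroup.mem_bot.mp h1)
  have hHf : ∀ v : V, (∀ h ∈ H, Cfsg.Agent.Lib.Helper58.conjOn V F hFV h v = v) → v = 1 := by
    intro v hv
    have h1 : (v : G) ∈ V ⊓ Subgroup.centralizer ((H.map F.subtype : Subgroup G) : Set G) := by
      refine Subgroup.mem_inf.mpr ⟨v.2, ?_⟩
      rw [Subgroup.mem_centralizer_iff]
      rintro x ⟨h, hh, rfl⟩
      have h2 := congrArg Subtype.val (hv h hh)
      rw [Cfsg.Agent.Lib.Helper58.conjOn_apply] at h2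
      exact mul_inv_eq_iff_eq_mul.mp h2
    rw [hCH] at h1
    exact Subtype.ext (Subgroup.mem_bot.mp h1)
  have key := Cfsg.Agent.Lib.Helper58.frob_avg (Cfsg.Agent.Lib.Helper58.conjOn V F hFV) N H hNc
    hH.2.2 hker hN hHf
  have hcop' : (Nat.card V).Coprime (Nat.card N) := by
    have : Nat.card (Cfsg.frobeniusKernel H) = Nat.card N := by rw [← hNK]; rfl
    rw [← this]
    exact hcop
  apply hV1
  rw [Subgroup.eq_bot_iff_forall]
  intro x hx
  have h1 := key ⟨x, hx⟩
  have h2 : orderOf (⟨x, hx⟩ : V) ∣ Nat.card N := orderOf_dvd_of_pow_eq_one h1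
  have h3 : orderOf (⟨x, hx⟩ : V) ∣ Nat.card V := orderOf_dvd_natCard _
  have h4 : orderOf (⟨x, hx⟩ : V) = 1 := Nat.eq_one_of_dvd_coprimes hcop' h3 h2
  exact congrArg Subtype.val (orderOf_eq_one_iff.mp h4)

end Cfsg.Agent.S0666
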