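import Mathlib
import Cfsg.Statements.S0668

set_option autoImplicit false
open Cfsg

namespace Cfsg.Agent.S0668

theorem permRep_apply' {G : Type*} [Group G] {K : Type*} [Field K] {Ω : Type*} [MulAction G Ω]
    (g : G) (f : Ω → K) (x : Ω) :
    Cfsg.permRep K G Ω g f x = f (g⁻¹ • x) := rfl

/-- The equivariant linear maps between the permutation modules of two finite `G`-sets form a space whose dimension is the number of `G`-orbits on the product of the two sets. -/
theorem result {G : Type*} [Group G] {K : Type*} [Field K] {Ω₁ Ω₂ : Type*} [Fintype Ω₁] [Fintype Ω₂] [MulAction G Ω₁] [MulAction G Ω₂] : Module.finrank K ((Cfsg.permRep K G Ω₁).linHom (Cfsg.permRep K G Ω₂)).invariants = Nat.card (MulAction.orbitRel.Quotient G (Ω₁ × Ω₂)) := by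
  classical
  let Ψ : (MulAction.orbitRel.Quotient G (Ω₁ × Ω₂) → K) →ₗ[K] Matrix Ω₂ Ω₁ K :=
    { toFun := fun c => Matrix.of fun j i => c (Quotient.mk'' (i, j))
      map_add' := fun _ _ => rfl
      map_smul' := fun _ _ => rfl }
  let Φ : (MulAction.orbitRel.Quotient G (Ω₁ × Ω₂) → K) →ₗ[K] ((Ω₁ → K) →ₗ[K] (Ω₂ → K)) :=
    (Matrix.toLin' : Matrix Ω₂ Ω₁ K ≃ₗ[K] _).toLinearMap.comp Ψ
  have hΨinj : Function.Injective Ψ := by
    intro c d h
    funext q
    induction q using Quotient.inductionOn' with | _ p => ?_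
    obtain ⟨i, j⟩ := p
    exact congrFun (congrFun h j) i
  have hΦinj : Function.Injective Φ := by
    intro c d h
    apply hΨinj
    exact (Matrix.toLin' : Matrix Ω₂ Ω₁ K ≃ₗ[K] _).injective h
  have hrange : LinearMap.range Φ =
      ((Cfsg.permRep K G Ω₁).linHom (Cfsg.permRep K G Ω₂)).invariants := by
    ext f
    rw [Representation.mem_invariants]
    constructor
    · rintro ⟨c, rfl⟩ g
      apply LinearMap.ext
      intro v
      funext j
      rw [Representation.linHom_apply, LinearMap.comp_apply, LinearMap.comp_apply, permRep_apply']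
      change (Matrix.toLin' (Ψ c)) (Cfsg.permRep K G Ω₁ g⁻¹ v) (g⁻¹ • j) = (Matrix.toLin' (Ψ c)) v j
      rw [Matrix.toLin'_apply, Matrix.toLin'_apply]
      simp only [Matrix.mulVec, dotProduct]
      apply Fintype.sum_equiv (MulAction.toPerm g)
      intro i
      rw [permRep_apply', inv_inv]
      change c (Quotient.mk'' (i, g⁻¹ • j)) * v (g • i) = c (Quotient.mk'' (g • i, j)) * v (g • i)
      congr 2
      rw [Quotient.eq'']
      change MulAction.orbitRel _ _ (i, g⁻¹ • j) (g • i, j)
      rw [MulAction.orbitRel_apply]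
      exact ⟨g⁻¹, by simp [Prod.smul_mk]⟩
    · intro hf
      have hM : ∀ (g : G) (i : Ω₁) (j : Ω₂),
          LinearMap.toMatrix' f (g • j) (g • i) = LinearMap.toMatrix' f j i := by
        intro g i j
        rw [LinearMap.toMatrix'_apply, LinearMap.toMatrix'_apply]
        have := congrArg (fun F : (Ω₁ → K) →ₗ[K] (Ω₂ → K) =>
          F (Pi.single (g • i) 1) (g • j)) (hf g)
        simp only [Representation.linHom_apply, LinearMap.comp_apply] at this
        rw [permRep_apply', inv_smul_smul] at this
        have hs : (Cfsg.permRep K G Ω₁ g⁻¹) (Pi.single (g • i) 1) = Pi.single i 1 := by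
          funext x
          rw [permRep_apply', inv_inv]
          simp [Pi.single_apply]
        rw [← this, hs]
      have hwd : ∀ a b : Ω₁ × Ω₂, (MulAction.orbitRel G (Ω₁ × Ω₂)) a b →
          LinearMap.toMatrix' f a.2 a.1 = LinearMap.toMatrix' f b.2 b.1 := by
        rintro ⟨i, j⟩ ⟨i', j'⟩ h
        rw [MulAction.orbitRel_apply] at h
        obtain ⟨g, hg⟩ := h
        have h1 : g • i' = i := congrArg Prod.fst hg
        have h2 : g • j' = j := congrArg Prod.snd hg
        change LinearMap.toMatrix' f j i = LinearMap.toMatrix' f j' i'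
        rw [← h1, ← h2, hM]
      refine ⟨fun q => Quotient.liftOn' q (fun p => LinearMap.toMatrix' f p.2 p.1) hwd, ?_⟩
      change Matrix.toLin' (Ψ _) = f
      have : Ψ (fun q => Quotient.liftOn' q (fun p => LinearMap.toMatrix' f p.2 p.1) hwd)
          = LinearMap.toMatrix' f := by
        ext j i
        rfl
      rw [this, Matrix.toLin'_toMatrix']
  rw [← hrange, LinearMap.finrank_range_of_inj hΦinj]
  have : Fintype (MulAction.orbitRel.Quotient G (Ω₁ × Ω₂)) := Fintype.ofFinite _
  rw [Module.finrank_fintype_fun_eq_card, Nat.card_eq_fintype_card]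

end Cfsg.Agent.S0668
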