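import Mathlib
import Cfsg.Statements.S0670

set_option autoImplicit false
open Cfsg

namespace Cfsg.Agent.S0670

theorem sylow_transitive {G : Type*} [Group G] [Finite G] {p f : ℕ} [hp : Fact p.Prime]
    {Ω : Type*} [Fintype Ω] [MulAction G Ω] [MulAction.IsPretransitive G Ω]
    (hcard : Fintype.card Ω = p ^ f) (P : Sylow p G) : MulAction.IsPretransitive P Ω := by
  have hne : Nonempty Ω := by
    rw [← Fintype.card_pos_iff, hcard]
    exact pow_pos hp.out.pos f
  obtain ⟨a⟩ := hne
  have h1 : (MulAction.orbit P a).ncard * Nat.card (MulAction.stabilizer P a) = Nat.card P := by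
    rw [← MulAction.index_stabilizer]
    exact Subgroup.index_mul_card _
  have h2 : p ^ f * Nat.card (MulAction.stabilizer G a) = Nat.card G := by
    rw [← hcard, ← Nat.card_eq_fintype_card, ← MulAction.index_stabilizer_of_transitive G a]
    exact Subgroup.index_mul_card _
  have h3 : Nat.card (MulAction.stabilizer P a) ∣ Nat.card (MulAction.stabilizer G a) := by
    let φ : MulAction.stabilizer P a →* MulAction.stabilizer G a :=
      { toFun := fun x => ⟨((x : P) : G), x.2⟩
        map_one' := rfl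
        map_mul' := fun _ _ => rfl }
    apply Subgroup.card_dvd_of_injective φ
    intro x y h
    have : ((x : P) : G) = ((y : P) : G) := congrArg (fun z : MulAction.stabilizer G a => (z : G)) h
    exact Subtype.ext (Subtype.ext this)
  obtain ⟨n, hn⟩ := P.2.exists_card_eq
  have h4 := (P : Subgroup G).card_mul_index
  have h5 := P.not_dvd_index
  rw [hn] at h1 h4
  have h6 : Nat.card (MulAction.stabilizer P a) ∣ p ^ n := Dvd.intro_left _ h1
  obtain ⟨j, hj, hsj⟩ := (Nat.dvd_prime_pow hp.out).mp h6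
  rw [hsj] at h1 h3
  obtain ⟨t', ht'⟩ := h3
  have h7 : p ^ (f + j) ∣ p ^ n * (P : Subgroup G).index := by
    rw [h4, ← h2, ht', pow_add, ← mul_assoc]
    exact Dvd.intro _ rfl
  have h8 : p ^ (f + j) ∣ p ^ n :=
    (Nat.Coprime.pow_left _ ((Nat.Prime.coprime_iff_not_dvd hp.out).mpr h5)).dvd_of_dvd_mul_right h7
  have h9 : f + j ≤ n := (Nat.pow_dvd_pow_iff_le_right hp.out.one_lt).mp h8
  have h10 : (MulAction.orbit P a).ncard = p ^ (n - j) := by
    have : p ^ n = p ^ (n - j) * p ^ j := by rw [← pow_add]; congr 1; omega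
    rw [this] at h1
    exact Nat.eq_of_mul_eq_mul_right (pow_pos hp.out.pos j) h1
  have h11 : MulAction.orbit P a = Set.univ := by
    apply Set.eq_of_subset_of_ncard_le (Set.subset_univ _)
    rw [Set.ncard_univ, Nat.card_eq_fintype_card, hcard, h10]
    exact Nat.pow_le_pow_right hp.out.pos (by omega)
  constructor
  intro x y
  have hx : x ∈ MulAction.orbit P a := by rw [h11]; trivial
  have hy : y ∈ MulAction.orbit P a := by rw [h11]; trivial
  obtain ⟨g, rfl⟩ := hx
  obtain ⟨h, rfl⟩ := hy
  exact ⟨h * g⁻¹, by rw [mul_smul, inv_smul_smul]⟩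

theorem exists_fixed_ne_zero {p : ℕ} [hp : Fact p.Prime] {P : Type*} [Group P] [Finite P]
    (hP : IsPGroup p P) {V : Type*} [AddCommGroup V] (ρ : P → V →+ V)
    (hρ1 : ∀ x, ρ 1 x = x) (hρmul : ∀ g h x, ρ (g * h) x = ρ g (ρ h x))
    (hV : ∀ v : V, p • v = 0) (v : V) (hv : v ≠ 0) :
    ∃ w ∈ AddSubgroup.closure (Set.range fun g : P => ρ g v), w ≠ 0 ∧ ∀ g : P, ρ g w = w := by
  classical
  set S := Set.range fun g : P => ρ g v with hS
  set A := AddSubgroup.closure S with hA
  have hinv : ∀ (g : P) (x : V), x ∈ A → ρ g x ∈ A := by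
    intro g x hx
    induction hx using AddSubgroup.closure_induction with
    | mem x hx =>
      obtain ⟨h, rfl⟩ := hx
      apply AddSubgroup.subset_closure
      exact ⟨g * h, hρmul g h v⟩
    | zero => rw [map_zero]; exact A.zero_mem
    | add x y _ _ hx hy => rw [map_add]; exact A.add_mem hx hy
    | neg x _ hx => rw [map_neg]; exact A.neg_mem hx
  have hfin : Finite A := by
    have : Finite S := Set.finite_range _
    have : AddGroup.FG A := AddGroup.closure_finite_fg S
    apply AddCommGroup.finite_of_fg_isAddTorsion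
    intro x
    rw [isOfFinAddOrder_iff_nsmul_eq_zero]
    exact ⟨p, hp.out.pos, Subtype.ext (hV x.1)⟩
  let _ : MulAction P A :=
    { smul := fun g x => ⟨ρ g x.1, hinv g x.1 x.2⟩
      one_smul := fun x => Subtype.ext (hρ1 _)
      mul_smul := fun g h x => Subtype.ext (hρmul _ _ _) }
  have hmod := hP.card_modEq_card_fixedPoints A
  have hvA : v ∈ A := AddSubgroup.subset_closure ⟨1, hρ1 v⟩
  have hpA : p ∣ Nat.card A := by
    have h1 : addOrderOf (⟨v, hvA⟩ : A) = p := by
      apply addOrderOf_eq_prime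
      · exact Subtype.ext (hV v)
      · intro h; exact hv (congrArg Subtype.val h)
    rw [← h1]; exact addOrderOf_dvd_natCard _
  have hpF : p ∣ Nat.card (MulAction.fixedPoints P A) :=
    (Nat.modEq_zero_iff_dvd.mp ((hmod.symm).trans (Nat.modEq_zero_iff_dvd.mpr hpA)))
  have h0 : (0 : A) ∈ MulAction.fixedPoints P A := fun g => Subtype.ext (map_zero (ρ g))
  have hnt : Nontrivial (MulAction.fixedPoints P A) := by
    rw [← Finite.one_lt_card_iff_nontrivial]
    have hne : Nonempty (MulAction.fixedPoints P A) := ⟨⟨0, h0⟩⟩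
    have h1 : 0 < Nat.card (MulAction.fixedPoints P A) := Nat.card_pos
    have h2 := Nat.le_of_dvd h1 hpF
    have h3 := hp.out.two_le
    omega
  obtain ⟨⟨w, hw⟩, hne⟩ := exists_ne (⟨0, h0⟩ : MulAction.fixedPoints P A)
  refine ⟨w.1, w.2, ?_, ?_⟩
  · intro h; apply hne; exact Subtype.ext (Subtype.ext h)
  · intro g; exact congrArg Subtype.val (hw g)

/-- In characteristic `p`, the permutation module of a transitive action of degree `p ^ f` has the line of constant functions as its only irreducible submodule: every non-zero subrepresentation contains it. -/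
theorem result {G : Type*} [Group G] [Finite G] {K : Type*} [Field K] {p f : ℕ} [Fact p.Prime] [CharP K p] {Ω : Type*} [Fintype Ω] [MulAction G Ω] [MulAction.IsPretransitive G Ω] (hf : 1 ≤ f) (hcard : Fintype.card Ω = p ^ f) (W : Subrepresentation (Cfsg.permRep K G Ω)) (hW : W.toSubmodule ≠ ⊥) : (Cfsg.permConstants K G Ω).toSubmodule ≤ W.toSubmodule := by
  obtain ⟨P⟩ : Nonempty (Sylow p G) := inferInstance
  have htr := sylow_transitive hcard P
  obtain ⟨v, hv, hv0⟩ := (Submodule.ne_bot_iff _).mp hW
  let ρ : P → (Ω → K) →+ (Ω → K) := fun g => (Cfsg.permRep K G Ω (g : G)).toAddMonoidHom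
  have hV : ∀ w : Ω → K, p • w = 0 := by
    intro w
    funext x
    simp [nsmul_eq_mul]
  obtain ⟨w, hwA, hw0, hwfix⟩ := exists_fixed_ne_zero (p := p) P.2 ρ
    (fun x => by simp [ρ]) (fun g h x => by simp [ρ]) hV v hv0
  have hwW : w ∈ W.toSubmodule := by
    have : AddSubgroup.closure (Set.range fun g : P => ρ g v) ≤ W.toSubmodule.toAddSubgroup := by
      rw [AddSubgroup.closure_le]
      rintro _ ⟨g, rfl⟩
      exact W.apply_mem_toSubmodule (g : G) hv
    exact this hwA
  have hconst : ∀ x y : Ω, w x = w y := by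
    intro x y
    obtain ⟨g, rfl⟩ := htr.exists_smul_eq x y
    have := congrFun (hwfix g⁻¹) x
    have h2 : ρ g⁻¹ w x = w (g • x) := by
      change w ((((g⁻¹ : P) : G))⁻¹ • x) = w (g • x)
      simp
      rfl
    rw [h2] at this
    exact this.symm
  have hne : Nonempty Ω := by
    rw [← Fintype.card_pos_iff, hcard]
    exact pow_pos (Fact.out : p.Prime).pos f
  obtain ⟨x₀⟩ := hne
  have hc : w x₀ ≠ 0 := by
    intro h0
    apply hw0
    funext x
    rw [hconst x x₀, h0]; rfl
  change Submodule.span K {fun _ => 1} ≤ W.toSubmodule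
  rw [Submodule.span_le, Set.singleton_subset_iff]
  have h5 := W.toSubmodule.smul_mem (w x₀)⁻¹ hwW
  have h6 : (w x₀)⁻¹ • w = fun _ => (1 : K) := by
    funext x
    simp [hconst x x₀, hc]
  rwa [h6] at h5

end Cfsg.Agent.S0670
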