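import Mathlib
import Cfsg.Statements.S0671
import Cfsg.Agent.Lib.Helper12.Orbital

set_option autoImplicit false
open Cfsg

namespace Cfsg.Agent.S0671

open MulAction Cfsg.Agent.Lib.Helper12.Orbital
open scoped Matrix

/-- If the heart of the permutation module in characteristic `p` of a transitive action of degree `p ^ f` has no trivial composition factor, the action is doubly transitive. The hypothesis is phrased without composition series: no invariant subspaces `W < W'` between the constants and the sum-zero functions with trivial action on the quotient. -/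
theorem result {G : Type*} [Group G] [Finite G] {K : Type*} [Field K] {p f : ℕ} [Fact p.Prime] [CharP K p] {Ω : Type*} [Fintype Ω] [MulAction G Ω] [MulAction.IsPretransitive G Ω] (hf : 1 ≤ f) (hcard : Fintype.card Ω = p ^ f) (h : ∀ W W' : Subrepresentation (Cfsg.permRep K G Ω), (Cfsg.permConstants K G Ω).toSubmodule ≤ W.toSubmodule → W.toSubmodule < W'.toSubmodule → W'.toSubmodule ≤ (Cfsg.permSumZero K G Ω).toSubmodule → ∃ g : G, ∃ v ∈ W'.toSubmodule, Cfsg.permRep K G Ω g v - v ∉ W.toSubmodule) : MulAction.IsMultiplyPretransitive G Ω 2 := by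
  classical
  obtain ⟨P⟩ : Nonempty (Sylow p G) := inferInstance
  have hPt := sylow_transitive hcard P
  have hPp : IsPGroup p (P : Subgroup G) := P.isPGroup'
  rw [MulAction.is_two_pretransitive_iff]
  intro a b c d hab hcd
  suffices key : ∀ a b b' : Ω, a ≠ b → a ≠ b' → ∃ g : G, g • a = a ∧ g • b = b' by
    obtain ⟨g₁, hg₁⟩ := exists_smul_eq G a c
    have hne : a ≠ g₁⁻¹ • d := by
      intro h
      apply hcd
      rw [← hg₁, h, smul_inv_smul]
    obtain ⟨g₂, hg₂a, hg₂b⟩ := key a b (g₁⁻¹ • d) hab hne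
    exact ⟨g₁ * g₂, by rw [mul_smul, hg₂a, hg₁], by rw [mul_smul, hg₂b, smul_inv_smul]⟩
  clear hab hcd a b c d
  intro a b b' hab hab'
  obtain ⟨R, hRdef⟩ : ∃ R : Ω → Ω → Prop, R = fun x y => ∃ g : G, g • a = x ∧ g • b = y := ⟨_, rfl⟩
  have hRinv : ∀ (g : G) (x y : Ω), R (g • x) (g • y) ↔ R x y := by
    intro g x y
    rw [hRdef]
    constructor
    · rintro ⟨g', h1, h2⟩
      refine ⟨g⁻¹ * g', ?_, ?_⟩
      · rw [mul_smul, h1, inv_smul_smul]
      · rw [mul_smul, h2, inv_smul_smul]
    · rintro ⟨g', h1, h2⟩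
      exact ⟨g * g', by rw [mul_smul, h1], by rw [mul_smul, h2]⟩
  have hRab : R a b := by
    rw [hRdef]
    exact ⟨1, one_smul _ _, one_smul _ _⟩
  have hRne : ∀ x y, R x y → x ≠ y := by
    intro x y hxy
    rw [hRdef] at hxy
    obtain ⟨g, rfl, rfl⟩ := hxy
    intro h
    exact hab (smul_left_cancel g h)
  obtain ⟨A, hAdef⟩ : ∃ A : Matrix Ω Ω K, A = Matrix.of (fun x y => if R x y then 1 else 0) := ⟨_, rfl⟩
  have hA : MInv G A := by
    intro g x y
    rw [hAdef, Matrix.of_apply, Matrix.of_apply]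
    exact if_congr (hRinv g x y) rfl rfl
  obtain ⟨k, hkdef⟩ : ∃ k : ℕ, k = (Finset.univ.filter (fun x => R x b)).card := ⟨_, rfl⟩
  have hk : ∀ y, (Finset.univ.filter (fun x => R x y)).card = k := by
    intro y
    obtain ⟨g, rfl⟩ := exists_smul_eq G b y
    rw [hkdef]
    symm
    refine Finset.card_bij (fun x _ => g • x) ?_ ?_ ?_
    · intro x hx
      rw [Finset.mem_filter] at hx ⊢
      exact ⟨Finset.mem_univ _, (hRinv g x b).mpr hx.2⟩
    · intro x _ x' _ h
      exact smul_left_cancel g h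
    · intro x hx
      rw [Finset.mem_filter] at hx
      refine ⟨g⁻¹ • x, ?_, smul_inv_smul g x⟩
      rw [Finset.mem_filter]
      refine ⟨Finset.mem_univ _, ?_⟩
      have h1 := hRinv g (g⁻¹ • x) b
      rw [smul_inv_smul] at h1
      exact h1.mp hx.2
  obtain ⟨B, hBdef⟩ : ∃ B : Matrix Ω Ω K, B = A - (k : K) • (1 : Matrix Ω Ω K) := ⟨_, rfl⟩
  have hB : MInv G B := by
    rw [hBdef]
    exact hA.sub (MInv.smul_one _)
  have hBapp : ∀ x y, B x y = (if R x y then 1 else 0) - (k : K) * (if x = y then 1 else 0) := by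
    intro x y
    rw [hBdef, hAdef, Matrix.sub_apply, Matrix.smul_apply, Matrix.one_apply, smul_eq_mul,
      Matrix.of_apply]
  have hcol : ∀ y, ∑ x, B x y = 0 := by
    intro y
    simp_rw [hBapp]
    rw [Finset.sum_sub_distrib, Finset.sum_boole, hk y, ← Finset.mul_sum, Finset.sum_ite_eq']
    simp
  have hsum : ∀ f : Ω → K, ∑ x, (B *ᵥ f) x = 0 := by
    intro f
    simp only [Matrix.mulVec, dotProduct]
    rw [Finset.sum_comm]
    simp_rw [← Finset.sum_mul, hcol, zero_mul]
    simp
  have hsingle : ∀ (y x : Ω), (B *ᵥ (Pi.single y 1)) x = B x y := by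
    intro y x
    simp [Matrix.mulVec, dotProduct, Pi.single_apply]
  let I : Subrepresentation (Cfsg.permRep K G Ω) := mapSub B hB ⊤
  let I₀ : Subrepresentation (Cfsg.permRep K G Ω) := mapSub B hB (Cfsg.permSumZero K G Ω)
  by_cases hI₀ : I₀.toSubmodule = ⊥
  · have hz : ∀ f : Ω → K, ∑ x, f x = 0 → B *ᵥ f = 0 := by
      intro f hf
      have h1 : B *ᵥ f ∈ I₀.toSubmodule := ⟨f, hf, rfl⟩
      rw [hI₀] at h1
      exact (Submodule.mem_bot K).mp h1
    have h1 := hz (Pi.single b 1 - Pi.single b' 1) (by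
      simp only [Pi.sub_apply]
      rw [Finset.sum_sub_distrib]
      simp)
    have h2 := congrFun h1 a
    rw [Matrix.mulVec_sub, Pi.sub_apply, hsingle, hsingle, hBapp, hBapp, if_pos hRab, if_neg hab,
      if_neg hab', Pi.zero_apply] at h2
    by_cases hR : R a b'
    · rw [hRdef] at hR
      exact hR
    · exfalso
      rw [if_neg hR] at h2
      simp at h2
  · exfalso
    have hC : (Cfsg.permConstants K G Ω).toSubmodule ≤ I₀.toSubmodule := by
      have h1 := one_mem_of_pgroup (P : Subgroup G) hPp hPt I₀.toSubmodule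
        (fun g _ u hu => I₀.apply_mem_toSubmodule g hu) hI₀
      show Submodule.span K {fun _ => (1 : K)} ≤ _
      rw [Submodule.span_le]
      rintro _ rfl
      exact h1
    have hI₀I : I₀.toSubmodule ≤ I.toSubmodule := Submodule.map_mono le_top
    have hIM₀ : I.toSubmodule ≤ (Cfsg.permSumZero K G Ω).toSubmodule := by
      rintro _ ⟨f, -, rfl⟩
      exact hsum f
    have hne : I₀.toSubmodule ≠ I.toSubmodule := by
      intro heq
      have h1 : B *ᵥ (Pi.single a 1) ∈ I₀.toSubmodule := by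
        rw [heq]
        exact ⟨_, trivial, rfl⟩
      obtain ⟨m, hm, hmB⟩ := h1
      have hmB' : B *ᵥ m = B *ᵥ (Pi.single a 1) := hmB
      have hz : B *ᵥ (Pi.single a 1 - m) = 0 := by
        rw [Matrix.mulVec_sub, hmB', sub_self]
      have hBT : LinearMap.range (Bᵀ).mulVecLin ≠ ⊥ := by
        intro h0
        have hB0 : ∀ x y, B x y = 0 := by
          intro x y
          have h2 : Bᵀ *ᵥ (Pi.single x 1) ∈ LinearMap.range (Bᵀ).mulVecLin := ⟨_, rfl⟩
          rw [h0] at h2
          have h3 := congrFun ((Submodule.mem_bot K).mp h2) y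
          simpa [Matrix.mulVec, dotProduct, Pi.single_apply] using h3
        apply hI₀
        rw [eq_bot_iff]
        rintro _ ⟨f, -, rfl⟩
        rw [Submodule.mem_bot]
        funext x
        show (B *ᵥ f) x = 0
        simp [Matrix.mulVec, dotProduct, hB0]
      have h1T := one_mem_of_pgroup (P : Subgroup G) hPp hPt (LinearMap.range (Bᵀ).mulVecLin)
        (fun g _ u hu => by
          obtain ⟨w, rfl⟩ := hu
          exact ⟨Cfsg.permRep K G Ω g w, mulVec_permRep Bᵀ hB.transpose g w⟩) hBT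
      obtain ⟨u, hu⟩ := h1T
      have hu' : Bᵀ *ᵥ u = fun _ => (1 : K) := hu
      have h2 : ∑ x, (Pi.single a (1 : K) - m : Ω → K) x = 0 := by
        have h3 : (fun _ => (1 : K)) ⬝ᵥ (Pi.single a 1 - m) = 0 := by
          rw [← hu', Matrix.mulVec_transpose, ← Matrix.dotProduct_mulVec, hz, dotProduct_zero]
        simpa [dotProduct] using h3
      have h3 : ∑ x, (Pi.single a (1 : K) - m : Ω → K) x = 1 := by
        simp only [Pi.sub_apply]
        rw [Finset.sum_sub_distrib, show ∑ x, m x = 0 from hm]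
        simp
      rw [h3] at h2
      exact one_ne_zero h2
    obtain ⟨g, v, hv, hgv⟩ := h I₀ I hC (lt_of_le_of_ne hI₀I hne) hIM₀
    apply hgv
    obtain ⟨w, -, rfl⟩ := hv
    refine ⟨Cfsg.permRep K G Ω g w - w, ?_, ?_⟩
    · show ∑ x, (Cfsg.permRep K G Ω g w - w) x = 0
      simp only [Pi.sub_apply]
      rw [Finset.sum_sub_distrib, sub_eq_zero]
      exact Fintype.sum_equiv (MulAction.toPerm g⁻¹) _ _ (fun x => rfl)
    · show B *ᵥ (Cfsg.permRep K G Ω g w - w) = Cfsg.permRep K G Ω g (B *ᵥ w) - B *ᵥ w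
      rw [Matrix.mulVec_sub, mulVec_permRep B hB]

end Cfsg.Agent.S0671
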