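import Mathlib
import Cfsg.Statements.S0677
import Cfsg.Agent.S0675
import Cfsg.Agent.Lib.Helper1.HallConj
import Cfsg.Agent.Lib.Helper12.PrimeDeg2
import Cfsg.Agent.Lib.Helper12.DiffSet

set_option autoImplicit false
open Cfsg

namespace Cfsg.Agent.S0677

open MulAction Cfsg.Agent.Lib.Helper12.PrimeDeg2 Cfsg.Agent.Lib.Helper12.DiffSet
open scoped Pointwise

/-- In a transitive permutation group of prime degree `p` whose Sylow `p`-normaliser has even order, the point stabilisers are the only subgroups of index `p`. -/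
theorem result {α : Type*} [Fintype α] [DecidableEq α] {p : ℕ} [Fact p.Prime] (hα : Fintype.card α = p) (G : Subgroup (Equiv.Perm α)) [MulAction.IsPretransitive G α] (P : Sylow p G) (heven : Even (Nat.card (Subgroup.normalizer ((P : Subgroup G) : Set G)))) (H : Subgroup G) (hH : H.index = p) : ∃ a : α, H = MulAction.stabilizer G a := by
  classical
  have hp : p.Prime := Fact.out
  have hα' : (Fintype.card α).Prime := by rw [hα]; exact hp
  have hsq := not_sq_dvd_card hα G
  have hstab : ∀ a : α, (stabilizer G a).index = p := by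
    intro a
    rw [index_stabilizer_of_transitive, Nat.card_eq_fintype_card, hα]
  have hne : Nonempty α := by
    rw [← Fintype.card_pos_iff, hα]
    exact hp.pos
  rcases Cfsg.Agent.S0675.result hα' G with hsolv | h2t
  · -- solvable case: Hall subgroups are conjugate
    obtain ⟨a₀⟩ := hne
    have hcH := Subgroup.card_mul_index H
    have hcS := Subgroup.card_mul_index (stabilizer G a₀)
    rw [hH] at hcH
    rw [hstab a₀] at hcS
    have hcS' : Nat.card (stabilizer G a₀) = Nat.card H :=
      Nat.eq_of_mul_eq_mul_right hp.pos (hcS.trans hcH.symm)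
    have hcop : (Nat.card H).Coprime p := by
      rw [Nat.coprime_comm, hp.coprime_iff_not_dvd]
      intro hdvd
      apply hsq
      rw [← hcH, pow_two]
      exact Nat.mul_dvd_mul_right hdvd p
    obtain ⟨g, hg⟩ := Cfsg.Agent.Lib.Helper1.hall_conj (Nat.card H) p hcH.symm hcop
      (stabilizer G a₀) H hcS' rfl
    refine ⟨g • a₀, eq_of_le_of_index_eq ?_ (by rw [hH, hstab])⟩
    intro h hh
    rw [← hg, Subgroup.mem_smul_pointwise_iff_exists] at hh
    obtain ⟨k, hk, rfl⟩ := hh
    rw [mem_stabilizer_iff] at hk ⊢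
    show (g * k * g⁻¹) • g • a₀ = g • a₀
    rw [mul_smul, mul_smul, inv_smul_smul, hk]
  · -- doubly transitive case
    by_cases hp2 : p = 2
    · -- then `H` is trivial
      have h3 : Nat.card G ∣ 2 := by
        have h5 := Subgroup.card_subgroup_dvd_card G
        rw [Nat.card_perm, Nat.card_eq_fintype_card (α := α), hα, hp2] at h5
        exact h5
      have hcH := Subgroup.card_mul_index H
      rw [hH, hp2] at hcH
      have hH1 : Nat.card H = 1 := by
        have h4 : Nat.card H * 2 ≤ 2 := by
          rw [hcH]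
          exact Nat.le_of_dvd (by norm_num) h3
        have h5 : 0 < Nat.card H := Nat.card_pos
        omega
      obtain ⟨a₀⟩ := hne
      refine ⟨a₀, eq_of_le_of_index_eq ?_ (by rw [hH, hstab])⟩
      rw [Subgroup.card_eq_one.mp hH1]
      exact bot_le
    · obtain ⟨e, t, s, het, hes, hs1, hss, htord, i, hi, hi1⟩ := exists_setup hα hp2 G P heven
      have : Fintype (G ⧸ H) := Fintype.ofFinite _
      have hcardY : Fintype.card (G ⧸ H) = p := by
        rw [← Nat.card_eq_fintype_card]
        exact hH
      obtain ⟨τ, hτ⟩ : ∃ τ : Equiv.Perm (G ⧸ H), τ = MulAction.toPermHom G (G ⧸ H) t := ⟨_, rfl⟩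
      obtain ⟨σ, hσ⟩ : ∃ σ : Equiv.Perm (G ⧸ H), σ = MulAction.toPermHom G (G ⧸ H) s := ⟨_, rfl⟩
      have hτapp : ∀ y, τ y = t • y := fun y => by rw [hτ]; rfl
      have hσapp : ∀ y, σ y = s • y := fun y => by rw [hσ]; rfl
      have hστ : σ * τ * σ⁻¹ = τ ^ i := by
        rw [hτ, hσ, ← map_inv, ← map_mul, ← map_mul, ← map_pow, hi]
      have hτ1 : τ ≠ 1 := by
        intro h
        have h1 : t • ((1 : G) : G ⧸ H) = ((1 : G) : G ⧸ H) := by
          rw [← hτapp, h, Equiv.Perm.one_apply]
        rw [MulAction.Quotient.smul_mk, QuotientGroup.eq, smul_eq_mul, mul_one] at h1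
        have h2 : t ∈ H := by
          have := H.inv_mem h1
          rw [inv_inv] at this
          exact this
        have h3 : orderOf t ∣ Nat.card H := by
          rw [← Subgroup.orderOf_mk t h2]
          exact orderOf_dvd_natCard _
        rw [htord] at h3
        apply hsq
        have hcH := Subgroup.card_mul_index H
        rw [hH] at hcH
        rw [← hcH, pow_two]
        exact Nat.mul_dvd_mul_right h3 p
      have hτord : orderOf τ = p := by
        apply orderOf_eq_prime _ hτ1
        rw [hτ, ← map_pow, ← htord, pow_orderOf_eq_one, map_one]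
      obtain ⟨e₀, he₀⟩ := exists_coord_of_orderOf hcardY τ hτord
      obtain ⟨e', he't, he's⟩ := exists_coord_neg hp2 e₀ τ σ he₀ i hστ hi1
      have hfix := fix_of_coords (G := G) (X := α) (Y := G ⧸ H) hp2 hsq h2t e e' t s het hes
        (fun y => by rw [← hτapp]; exact he't y) (fun y => by rw [← hσapp]; exact he's y)
      obtain ⟨g₀, hg₀⟩ := QuotientGroup.mk_surjective (e'.symm 0)
      refine ⟨g₀⁻¹ • e.symm 0, (eq_of_le_of_index_eq ?_ (by rw [hH, hstab])).symm⟩
      intro h hh
      rw [mem_stabilizer_iff] at hh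
      have h1 : (g₀ * h * g₀⁻¹) • e.symm 0 = e.symm 0 := by
        rw [mul_smul, mul_smul, hh, smul_inv_smul]
      have h2 := hfix _ h1
      rw [← hg₀, MulAction.Quotient.smul_mk, QuotientGroup.eq, smul_eq_mul] at h2
      have h3 : (g₀ * h * g₀⁻¹ * g₀)⁻¹ * g₀ = h⁻¹ := by group
      rw [h3] at h2
      have := H.inv_mem h2
      rw [inv_inv] at this
      exact this

end Cfsg.Agent.S0677
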