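import Cfsg.Statements.S0679
import Cfsg.Agent.Lib.Helper98.S11.Data.Final
import Cfsg.Agent.Lib.Helper90.S11.Cos
import Cfsg.Agent.Lib.Helper90.S11.Cyc
import Cfsg.Agent.Lib.Helper90.S11.Jordan
import Cfsg.Agent.Lib.Helper90.S11.L11
import Cfsg.Agent.Lib.Helper90.S11.Norm
import Cfsg.Agent.Lib.Helper90.S11.Pow
import Cfsg.Agent.Lib.Helper90.S11.Sharp
import Cfsg.Agent.Lib.Helper90.S11.Simp
import Cfsg.Agent.Lib.Helper90.S11.Solv
import Cfsg.Agent.Lib.Helper90.S11.Supp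
import Cfsg.Agent.Lib.Helper90.S11.Transport

set_option autoImplicit false
open Cfsg

namespace Cfsg.Agent.S0679

/-- A non-solvable transitive permutation group on 11 points that does not contain the alternating group is either sharply 4-transitive (of order 7920) or isomorphic to the projective special linear group of degree 2 over the field with 11 elements. -/
theorem result {α : Type*} [Fintype α] [DecidableEq α] (hα : Fintype.card α = 11) (G : Subgroup (Equiv.Perm α)) [MulAction.IsPretransitive G α] (hG : ¬ Group.IsSolvable G) (hA : ¬ alternatingGroup α ≤ G) : (MulAction.IsMultiplyPretransitive G α 4 ∧ ∀ x : Fin 4 ↪ α, MulAction.stabilizer G x = ⊥) ∨ Nonempty (G ≃* Matrix.ProjectiveSpecialLinearGroup (Fin 2) (ZMod 11)) := by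
  have pk : Cfsg.Agent.Lib.Helper98.S11.Pkgs11 :=
    ⟨Cfsg.Agent.Lib.Helper90.S11.pkgConj11, Cfsg.Agent.Lib.Helper90.S11.pkgJordan11,
      Cfsg.Agent.Lib.Helper90.S11.pkgSolv11, Cfsg.Agent.Lib.Helper90.S11.pkgSharp11,
      Cfsg.Agent.Lib.Helper90.S11.pkgL11, Cfsg.Agent.Lib.Helper90.S11.pkgSimp11,
      Cfsg.Agent.Lib.Helper90.S11.pkgNorm11, Cfsg.Agent.Lib.Helper90.S11.pkgPow11,
      Cfsg.Agent.Lib.Helper90.S11.pkgCos11, Cfsg.Agent.Lib.Helper90.S11.pkgSupp11⟩
  exact Cfsg.Agent.Lib.Helper98.S11.final_of_root pk Cfsg.Agent.Lib.Helper90.S11.pkgTrans11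
    Cfsg.Agent.Lib.Helper90.S11.pkgCyc11 Cfsg.Agent.Lib.Helper98.S11.g11c
    Cfsg.Agent.Lib.Helper98.S11.g11c_order (Cfsg.Agent.Lib.Helper98.S11.PR11 pk) hα G hG hA

end Cfsg.Agent.S0679
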