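import Mathlib
import Cfsg.Statements.S0681

set_option autoImplicit false
open Cfsg

namespace Cfsg.Agent.S0681

variable {F : Type*} [Cfsg.NearField F]

theorem nf_zero_mul (a : F) : (0 : F) * a = 0 := by
  have h := Cfsg.NearField.right_distrib (0 : F) 0 a
  rw [add_zero] at h
  exact (add_eq_left.mp h.symm)

theorem nf_neg_mul (x a : F) : (-x) * a = -(x * a) := by
  have h := Cfsg.NearField.right_distrib x (-x) a
  rw [add_neg_cancel, nf_zero_mul] at h
  exact (neg_eq_of_add_eq_zero_right h.symm).symm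

theorem nf_sub_mul (x y a : F) : (x - y) * a = x * a - y * a := by
  rw [sub_eq_add_neg, Cfsg.NearField.right_distrib, nf_neg_mul, ← sub_eq_add_neg]

theorem nf_mul_ne_zero {a b : F} (ha : a ≠ 0) (hb : b ≠ 0) : a * b ≠ 0 := by
  intro h
  obtain ⟨b', hb1, -⟩ := Cfsg.NearField.exists_inv b hb
  apply ha
  calc a = a * (b * b') := by rw [hb1, mul_one]
    _ = (a * b) * b' := by rw [mul_assoc]
    _ = 0 := by rw [h, nf_zero_mul]

theorem nf_inv_ne_zero {a a' : F} (h : a * a' = 1) : a' ≠ 0 := by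
  intro h0
  rw [h0, Cfsg.NearField.mul_zero] at h
  exact Cfsg.NearField.zero_ne_one h

/-- the affine group -/
def affH : Subgroup (Equiv.Perm F) where
  carrier := {σ | ∃ a b : F, a ≠ 0 ∧ ∀ x : F, σ x = x * a + b}
  one_mem' := ⟨1, 0, fun h => Cfsg.NearField.zero_ne_one h.symm, fun x => by simp⟩
  mul_mem' := by
    rintro σ τ ⟨a, b, ha, hσ⟩ ⟨c, d, hc, hτ⟩
    refine ⟨c * a, d * a + b, nf_mul_ne_zero hc ha, fun x => ?_⟩
    rw [Equiv.Perm.mul_apply, hτ, hσ, Cfsg.NearField.right_distrib, mul_assoc, add_assoc]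
  inv_mem' := by
    rintro σ ⟨a, b, ha, hσ⟩
    obtain ⟨a', h1, h2⟩ := Cfsg.NearField.exists_inv a ha
    refine ⟨a', (-b) * a', nf_inv_ne_zero h1, fun y => ?_⟩
    apply σ.injective
    rw [Equiv.Perm.inv_def, Equiv.apply_symm_apply, hσ, Cfsg.NearField.right_distrib, mul_assoc, mul_assoc, h2,
      mul_one, mul_one, add_assoc, neg_add_cancel, add_zero]

theorem mem_affH (σ : Equiv.Perm F) :
    σ ∈ (affH : Subgroup (Equiv.Perm F)) ↔ ∃ a b : F, a ≠ 0 ∧ ∀ x : F, σ x = x * a + b := Iff.rfl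

/-- The affine maps `x ↦ x * a + b`, `a ≠ 0`, of a near-field form a sharply doubly transitive permutation group. -/
theorem result {F : Type*} [Cfsg.NearField F] : ∃ H : Subgroup (Equiv.Perm F), (∀ σ : Equiv.Perm F, σ ∈ H ↔ ∃ a b : F, a ≠ 0 ∧ ∀ x : F, σ x = x * a + b) ∧ MulAction.IsMultiplyPretransitive H F 2 ∧ ∀ x : Fin 2 ↪ F, MulAction.stabilizer H x = ⊥ := by
  refine ⟨affH, mem_affH, ?_, ?_⟩
  · rw [MulAction.is_two_pretransitive_iff]
    intro x y u v hxy huv
    have hxy' : x - y ≠ 0 := sub_ne_zero.mpr hxy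
    have huv' : u - v ≠ 0 := sub_ne_zero.mpr huv
    obtain ⟨c, hc1, hc2⟩ := Cfsg.NearField.exists_inv (x - y) hxy'
    have hc0 : c ≠ 0 := nf_inv_ne_zero hc1
    have ha : c * (u - v) ≠ 0 := nf_mul_ne_zero hc0 huv'
    obtain ⟨a', ha1, ha2⟩ := Cfsg.NearField.exists_inv _ ha
    set a := c * (u - v) with hadef
    let σ : Equiv.Perm F :=
      { toFun := fun z => z * a + (-(x * a) + u)
        invFun := fun w => (w - (-(x * a) + u)) * a'
        left_inv := by
          intro z
          simp only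
          rw [add_sub_cancel_right, mul_assoc, ha1, mul_one]
        right_inv := by
          intro w
          simp only
          rw [mul_assoc, ha2, mul_one, sub_add_cancel] }
    have hσ : σ ∈ (affH : Subgroup (Equiv.Perm F)) := ⟨a, -(x * a) + u, ha, fun z => rfl⟩
    refine ⟨⟨σ, hσ⟩, ?_, ?_⟩
    · change x * a + (-(x * a) + u) = u
      rw [add_neg_cancel_left]
    · change y * a + (-(x * a) + u) = v
      have h1 : x * a - y * a = u - v := by
        rw [← nf_sub_mul, hadef, ← mul_assoc, hc1, one_mul]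
      rw [← add_assoc, ← sub_eq_add_neg, ← neg_sub, h1, neg_sub, sub_add_cancel]
  · intro x
    rw [eq_bot_iff]
    intro h hh
    rw [MulAction.mem_stabilizer_iff] at hh
    rw [Subgroup.mem_bot]
    obtain ⟨a, b, ha, hσ⟩ := (mem_affH _).mp h.2
    have h0 : (h : Equiv.Perm F) (x 0) = x 0 := congrArg (fun e : Fin 2 ↪ F => e 0) hh
    have h1 : (h : Equiv.Perm F) (x 1) = x 1 := congrArg (fun e : Fin 2 ↪ F => e 1) hh
    rw [hσ] at h0 h1
    have hne : x 0 - x 1 ≠ 0 := by
      rw [sub_ne_zero]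
      intro h'
      have := x.injective h'
      exact absurd this (by decide)
    have h2 : (x 0 - x 1) * a = x 0 - x 1 := by
      rw [nf_sub_mul]
      conv_rhs => rw [← h0, ← h1]
      rw [add_sub_add_right_eq_sub]
    obtain ⟨c, hc1, hc2⟩ := Cfsg.NearField.exists_inv _ hne
    have ha1 : a = 1 := by
      calc a = (c * (x 0 - x 1)) * a := by rw [hc2, one_mul]
        _ = c * ((x 0 - x 1) * a) := by rw [mul_assoc]
        _ = 1 := by rw [h2, hc2]
    have hb : b = 0 := by
      rw [ha1, mul_one] at h0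
      exact add_eq_left.mp h0
    ext z
    change (h : Equiv.Perm F) z = z
    rw [hσ, ha1, hb, mul_one, add_zero]

end Cfsg.Agent.S0681
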