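import Mathlib
import Cfsg.Statements.S0682
import Cfsg.Agent.S0681

set_option autoImplicit false
open Cfsg

namespace Cfsg.Agent.S0682

open Cfsg.Agent.S0681

variable {F : Type*} [Cfsg.NearField F]

theorem nf_nsmul_mul (n : ℕ) (y x : F) : (n • y) * x = n • (y * x) := by
  induction n with
  | zero => rw [zero_nsmul, zero_nsmul, nf_zero_mul]
  | succ n ih => rw [succ_nsmul, succ_nsmul, Cfsg.NearField.right_distrib, ih]

/-- A finite near-field has prime-power order; its additive group is commutative of prime exponent. -/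
theorem result {F : Type*} [Cfsg.NearField F] [Finite F] : ∃ p j : ℕ, p.Prime ∧ 1 ≤ j ∧ Nat.card F = p ^ j ∧ (∀ x y : F, x + y = y + x) ∧ ∀ x : F, p • x = 0 := by
  have h01 : (0 : F) ≠ 1 := Cfsg.NearField.zero_ne_one
  set p := addOrderOf (1 : F) with hpdef
  have hp1 : p • (1 : F) = 0 := addOrderOf_nsmul_eq_zero 1
  have hppos : 0 < p := addOrderOf_pos (1 : F)
  have hpne1 : p ≠ 1 := by
    intro h
    rw [h, one_nsmul] at hp1
    exact h01 hp1.symm
  have hall : ∀ x : F, p • x = 0 := by
    intro x
    calc p • x = p • (1 * x) := by rw [one_mul]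
      _ = (p • (1 : F)) * x := (nf_nsmul_mul p 1 x).symm
      _ = 0 := by rw [hp1, nf_zero_mul]
  have hprime : p.Prime := by
    have hq := Nat.minFac_prime hpne1
    have hqd := Nat.minFac_dvd p
    by_cases hx : p.minFac • (1 : F) = 0
    · have := addOrderOf_dvd_of_nsmul_eq_zero hx
      have h5 : p = p.minFac := Nat.dvd_antisymm this hqd
      rw [h5]; exact hq
    · exfalso
      obtain ⟨e, he⟩ := hqd
      obtain ⟨y', hy1, hy2⟩ := Cfsg.NearField.exists_inv _ hx
      have h6 : e • (p.minFac • (1 : F)) = 0 := by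
        rw [← mul_nsmul, ← he]; exact hp1
      have h7 : e • (1 : F) = 0 := by
        calc e • (1 : F) = e • ((p.minFac • (1 : F)) * y') := by rw [hy1]
          _ = (e • (p.minFac • (1 : F))) * y' := (nf_nsmul_mul e _ y').symm
          _ = 0 := by rw [h6, nf_zero_mul]
      have h8 : p ∣ e := addOrderOf_dvd_of_nsmul_eq_zero h7
      have hepos : 0 < e := by
        rcases Nat.eq_zero_or_pos e with h0 | h0
        · rw [h0, mul_zero] at he; omega
        · exact h0
      have h9 : p ≤ e := Nat.le_of_dvd hepos h8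
      have h10 : 2 ≤ p.minFac := hq.two_le
      nlinarith
  have : Fact p.Prime := ⟨hprime⟩
  have hpg : IsPGroup p (Multiplicative F) := by
    intro g
    refine ⟨1, ?_⟩
    rw [pow_one]
    exact congrArg Multiplicative.ofAdd (hall (Multiplicative.toAdd g))
  have hnt : Nontrivial (Multiplicative F) := ⟨⟨Multiplicative.ofAdd 0, Multiplicative.ofAdd 1, h01⟩⟩
  obtain ⟨j, hj⟩ := (IsPGroup.iff_card).mp hpg
  have hcardF : Nat.card F = p ^ j := hj
  have hcomm : ∀ x y : F, x + y = y + x := by
    have hcn : Nontrivial (Subgroup.center (Multiplicative F)) := hpg.center_nontrivial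
    obtain ⟨⟨z, hz⟩, hz1⟩ := exists_ne (1 : Subgroup.center (Multiplicative F))
    have hz0 : Multiplicative.toAdd z ≠ 0 := by
      intro h
      apply hz1
      ext
      exact h
    rw [Subgroup.mem_center_iff] at hz
    have hzc : ∀ y : F, y + Multiplicative.toAdd z = Multiplicative.toAdd z + y := fun y =>
      hz (Multiplicative.ofAdd y)
    set z₀ := Multiplicative.toAdd z with hz₀
    obtain ⟨z', hz'1, hz'2⟩ := Cfsg.NearField.exists_inv z₀ hz0
    intro x y
    by_cases hx : x = 0
    · rw [hx, zero_add, add_zero]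
    · have hw : z' * x ≠ 0 := nf_mul_ne_zero (nf_inv_ne_zero hz'1) hx
      obtain ⟨w', hw1, hw2⟩ := Cfsg.NearField.exists_inv _ hw
      have hxz : x = z₀ * (z' * x) := by rw [← mul_assoc, hz'1, one_mul]
      have hy : y = (y * w') * (z' * x) := by rw [mul_assoc, hw2, mul_one]
      calc x + y = z₀ * (z' * x) + (y * w') * (z' * x) := by rw [← hxz, ← hy]
        _ = (z₀ + y * w') * (z' * x) := (Cfsg.NearField.right_distrib _ _ _).symm
        _ = (y * w' + z₀) * (z' * x) := by rw [hzc]
        _ = (y * w') * (z' * x) + z₀ * (z' * x) := Cfsg.NearField.right_distrib _ _ _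
        _ = y + x := by rw [← hxz, ← hy]
  refine ⟨p, j, hprime, ?_, hcardF, hcomm, hall⟩
  rcases Nat.eq_zero_or_pos j with h0 | h0
  · exfalso
    rw [h0, pow_zero] at hcardF
    have := (Nat.card_eq_one_iff_unique.mp hcardF).1
    exact h01 (Subsingleton.elim _ _)
  · exact h0

end Cfsg.Agent.S0682
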