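import Cfsg.Statements.S0683
import Cfsg.Agent.Lib.Helper58.NearFieldOfSharp

set_option autoImplicit false
open Cfsg

namespace Cfsg.Agent.S0683


/-- A finite sharply doubly transitive permutation group is the affine group of a near-field: the permuted set carries a near-field structure for which the group consists exactly of the maps `x ↦ x * a + b` with `a ≠ 0`. -/
theorem result {α : Type*} [Fintype α] [DecidableEq α] (H : Subgroup (Equiv.Perm α)) [MulAction.IsMultiplyPretransitive H α 2] (hsharp : ∀ x : Fin 2 ↪ α, MulAction.stabilizer H x = ⊥) (h2 : 2 ≤ Fintype.card α) : ∃ _ : Cfsg.NearField α, ∀ σ : Equiv.Perm α, σ ∈ H ↔ ∃ a b : α, a ≠ 0 ∧ ∀ x : α, σ x = x * a + b := by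
  have S : Cfsg.Agent.Lib.Helper58.SharpTwo H α := Cfsg.Agent.Lib.Helper58.SharpTwo.of_multiply hsharp
  haveI : Nontrivial α := Fintype.one_lt_card_iff_nontrivial.mp (by omega)
  obtain ⟨nf, h1, h2'⟩ := S.exists_nearField
  refine ⟨nf, fun σ => ⟨fun hσ => ?_, ?_⟩⟩
  · obtain ⟨a, b, ha, hab⟩ := h1 ⟨σ, hσ⟩
    exact ⟨a, b, ha, fun x => hab x⟩
  · rintro ⟨a, b, ha, hab⟩
    obtain ⟨g, hg⟩ := h2' a b ha
    have : σ = (g : Equiv.Perm α) := by
      ext x
      rw [hab x]
      exact (hg x).symm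
    rw [this]
    exact g.2

end Cfsg.Agent.S0683
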