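import Cfsg.Statements.S0691
import Cfsg.Agent.Lib.Helper12.GL2

set_option autoImplicit false
open Cfsg

namespace Cfsg.Agent.S0691

open Cfsg.Agent.Lib.Helper12.GL2

/-- sorted codes of the group elements -/
def L : List ℕ := [45, 60, 90, 105, 126, 163, 183, 223, 243, 253, 289, 309, 349, 369, 377, 411, 431, 471, 491, 504, 537, 557, 597, 617]

/-- words in the generators for the elements of `L` -/
def W : List (List ℕ) := [[1, 0, 0], [1, 0], [0, 1], [1], [], [2, 1, 2], [2], [2, 0, 1], [2, 2, 0], [0], [2, 0], [2, 2, 0, 0], [2, 1, 2, 0], [2, 1], [0, 0, 0], [1, 2, 0], [2, 2, 1], [2, 2], [0, 1, 2], [0, 0], [2, 0, 1, 2], [1, 2], [2, 0, 0], [2, 2, 0, 1]]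

/-- codes of the generators -/
def gen : ℕ → ℕ
  | 0 => 253
  | 1 => 105
  | 2 => 183
  | _ => 126

theorem h1 : L.contains (enc4 5 1 0 0 1) = true := by decide +kernel

theorem hclosed : (List.range 3).all (fun i => L.all (fun x => L.contains (mulc 5 (gen i) x))) = true := by
  decide +kernel

theorem hword : W.map (evalw 5 gen) = L := by decide +kernel

theorem hsorted : sortedB L = true := by decide +kernel

theorem hfpf : L.all (fun x => fpf 5 x) = true := by decide +kernel

theorem hlen : L.length = 24 := by decide +kernel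

/-- An exceptional sharply doubly transitive group of degree 5^2: the listed matrices generate a subgroup of GL(2,5) of order 24 acting regularly on the non-zero vectors. -/
theorem result (A : Matrix.GeneralLinearGroup (Fin 2) (ZMod 5)) (B : Matrix.GeneralLinearGroup (Fin 2) (ZMod 5)) (C : Matrix.GeneralLinearGroup (Fin 2) (ZMod 5)) (hA : (A : Matrix (Fin 2) (Fin 2) (ZMod 5)) = !![2, 0; 0, -2]) (hB : (B : Matrix (Fin 2) (Fin 2) (ZMod 5)) = !![0, -1; 1, 0]) (hC : (C : Matrix (Fin 2) (Fin 2) (ZMod 5)) = !![1, 2; 1, -2]) : Nat.card (Subgroup.closure ({A, B, C} : Set (Matrix.GeneralLinearGroup (Fin 2) (ZMod 5)))) = 24 ∧ ∀ v w : Fin 2 → ZMod 5, v ≠ 0 → w ≠ 0 → ∃! h : Subgroup.closure ({A, B, C} : Set (Matrix.GeneralLinearGroup (Fin 2) (ZMod 5))), Matrix.mulVec ((h : Matrix.GeneralLinearGroup (Fin 2) (ZMod 5)) : Matrix (Fin 2) (Fin 2) (ZMod 5)) v = w := by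
  have hp : Fact (Nat.Prime 5) := ⟨by norm_num⟩
  let G : ℕ → GL (Fin 2) (ZMod 5) := fun i => match i with
    | 0 => A
    | 1 => B
    | 2 => C
    | _ => 1
  have hG : ∀ i, G i ∈ Subgroup.closure ({A, B, C} : Set (GL (Fin 2) (ZMod 5))) := by
    intro i
    match i with
    | 0 => exact Subgroup.subset_closure (Or.inl rfl)
    | 1 => exact Subgroup.subset_closure (Or.inr (Or.inl rfl))
    | 2 => exact Subgroup.subset_closure (Or.inr (Or.inr (rfl)))
    | (k + 3) => exact Subgroup.one_mem _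
  have hgen : ∀ i, code (G i).1 = gen i := by
    intro i
    match i with
    | 0 => change code (A : Matrix (Fin 2) (Fin 2) (ZMod 5)) = _; rw [hA]; decide +kernel
    | 1 => change code (B : Matrix (Fin 2) (Fin 2) (ZMod 5)) = _; rw [hB]; decide +kernel
    | 2 => change code (C : Matrix (Fin 2) (Fin 2) (ZMod 5)) = _; rw [hC]; decide +kernel
    | (k + 3) => change code (1 : Matrix (Fin 2) (Fin 2) (ZMod 5)) = _; rw [code_one]; rfl
  have hs : ∀ g ∈ ({A, B, C} : Set (GL (Fin 2) (ZMod 5))), ∃ i < 3, g = G i := by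
    intro g hg
    rcases hg with rfl | rfl | rfl
    · exact ⟨0, by norm_num, rfl⟩
    · exact ⟨1, by norm_num, rfl⟩
    · exact ⟨2, by norm_num, rfl⟩
  obtain ⟨hiff, hcard⟩ := closure_spec ({A, B, C} : Set (GL (Fin 2) (ZMod 5))) G gen 3 hG hgen hs
    L W h1 hclosed hword hsorted
  rw [hlen] at hcard
  refine ⟨hcard, ?_⟩
  apply regular_of_fpf _ (by rw [hcard]; norm_num)
  intro h hh
  have hmem := (hiff h).mp hh
  have := hfpf
  rw [List.all_eq_true] at this
  exact this _ hmem

end Cfsg.Agent.S0691
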