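import Cfsg.Statements.S0692
import Cfsg.Agent.Lib.Helper12.GL2

set_option autoImplicit false
open Cfsg

namespace Cfsg.Agent.S0692

open Cfsg.Agent.Lib.Helper12.GL2

/-- sorted codes of the group elements -/
def L : List ℕ := [231, 304, 450, 573, 634, 829, 890, 1013, 1159, 1221, 1332, 1465, 1693, 1771, 1865, 2011, 2121, 2211, 2405, 2515, 2573, 2745, 2835, 2934, 3063, 3165, 3343, 3453, 3515, 3738, 3848, 3983, 4107, 4167, 4266, 4396, 4497, 4705, 4790, 4936, 5046, 5145, 5207, 5338, 5448, 5621, 5728, 5859, 5951, 6167, 6255, 6401, 6511, 6607, 6741, 6803, 6913, 7090, 7193, 7318, 7420, 7511, 7713, 7859, 7969, 8032, 8135, 8245, 8391, 8472, 8684, 8786, 8911, 9014, 9191, 9301, 9435, 9497, 9593, 9703, 9849, 9937, 10142, 10245, 10376, 10472, 10535, 10666, 10776, 10959, 11058, 11168, 11314, 11399, 11607, 11708, 11838,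 11937, 12028, 12121, 12256, 12366, 12468, 12651, 12761, 12939, 13041, 13170, 13269, 13320, 13531, 13589, 13699, 13882, 13983, 14093, 14239, 14322, 14411, 14639]

/-- words in the generators for the elements of `L` -/
def W : List (List ℕ) := [[0, 0, 0], [1, 1, 0, 1, 1, 0], [1, 0, 1, 1, 0, 1, 0, 0, 0], [1, 1, 0, 1, 0, 1, 1, 0, 0, 0], [1, 0, 1, 0], [1, 0, 1, 0, 0, 0], [1, 1, 0, 1, 0, 1, 1, 0], [1, 0, 1, 1, 0, 1, 0], [1, 1, 0, 1, 1, 0, 0, 0], [0], [], [0, 1, 0, 1, 1], [1, 0, 1, 1], [0, 1, 1, 0, 1, 0, 1, 1, 0, 0], [1, 1, 0, 1, 0, 1, 1, 0, 1, 0], [1, 1, 0, 1, 0, 1, 0, 0], [1, 0, 1, 0, 1, 1, 0, 0, 0], [0, 1, 0, 1, 1, 0, 1], [0, 1, 0, 0], [0, 1, 1], [0, 1, 0, 1, 1, 0], [1, 1, 0, 1, 1, 0, 0], [0, 1, 1, 0, 0, 0], [0, 1, 0, 1, 1, 0, 1, 0, 1, 0, 0, 0], [0, 1, 0, 1, 1, 0, 1, 0, 1, 1], [1], [1, 1, 0, 1, 1, 0, 1], [0,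 1, 1, 0, 1, 0, 1, 0, 0, 0], [0, 1, 0, 1, 0, 0, 0], [1, 0, 1, 1, 0, 1, 0, 1, 0, 0, 0], [0, 1, 0, 1, 1, 0, 1, 0, 1], [1, 0, 1, 1, 0], [1, 0, 1, 1, 0, 1], [0, 1, 0], [1, 0, 1, 1, 0, 1, 0, 1, 0, 0], [1, 0, 1, 0, 1, 1, 0, 1], [1, 1, 0, 0], [1, 0, 1, 1, 0, 1, 0, 1, 1], [1, 1, 0, 1, 0, 0, 0], [1, 1, 0, 1, 1, 0, 1, 0, 1, 0, 0], [1, 0, 1, 0, 1, 1, 0, 1, 0], [0, 1, 0, 1, 1, 0, 1, 0, 1, 1, 0], [1, 0, 1, 0, 1, 1, 0, 1, 0, 1], [1, 1, 0, 1, 0, 1, 1], [0, 1, 0, 1, 1, 0, 1, 0, 0, 0], [0, 1, 0, 1, 0, 0], [1, 1, 0, 1, 1, 0, 1, 0, 1, 0], [1, 1, 0, 1, 0, 1, 1, 0, 1, 0, 1, 1], [1, 0, 1, 0, 1, 0, 0, 0], [1, 0, 1, 0, 1, 1, 0, 1, 0, 1, 1, 0], [0, 1, 0, 1, 1, 0, 1, 0, 1, 1, 0, 1], [1, 1, 0, 0, 0], [1, 0], [1, 1, 0, 1, 0, 1, 1, 0, 1, 0, 0], [1, 0, 1, 0, 0], [1, 0, 1, 0, 1, 1, 0, 0], [0, 1, 1, 0, 1, 0, 1, 0, 0], [1, 1, 0, 1, 0, 0],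 [1, 0, 1, 0, 1, 1, 0, 1, 0, 1, 1], [0, 1, 1, 0, 1, 0, 0], [0, 1, 1, 0, 1, 0, 0, 0], [1, 0, 1, 0, 1], [1, 0, 1, 1, 0, 1, 0, 1, 1, 0], [1, 1, 0, 1, 1, 0, 1, 0], [1, 1, 0, 1, 0, 1, 0, 0, 0], [1, 0, 1], [1, 1, 0, 1, 0, 1, 0], [1, 1, 0, 1, 1, 0, 1, 0, 0, 0], [1, 1, 0, 1, 0, 1, 1, 0, 1, 0, 1], [1, 0, 1, 0, 1, 0, 0], [0, 1, 1, 0, 1, 0], [0, 1, 1, 0, 1], [0, 1, 1, 0, 1, 0, 1, 1, 0, 1], [1, 1, 0, 1], [0, 1, 1, 0, 1, 0, 1], [1, 0, 1, 0, 1, 1], [1, 1, 0, 1, 0, 1, 1, 0, 0], [1, 1, 0, 1, 0, 1, 1, 0, 1], [1, 0, 0, 0], [1, 1, 0], [1, 0, 1, 1, 0, 1, 0, 1, 1, 0, 1, 0], [0, 1, 1, 0, 1, 0, 1, 1, 0, 1, 0], [1, 0, 1, 0, 1, 0], [1, 0, 1, 1, 0, 1, 0, 1, 1, 0, 1], [1, 1, 0, 1, 1, 0, 1, 0, 1, 0, 0, 0], [0, 1, 0, 1], [0, 1, 0, 1, 1, 0, 1, 0], [1, 0, 1, 1, 0, 1, 0, 0], [0, 1, 1, 0, 1, 0, 1, 1, 0], [0, 1, 1, 0, 1, 0, 1, 1, 0, 1, 0,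 1], [1, 0, 1, 0, 1, 1, 0, 1, 0, 0, 0], [1, 1, 0, 1, 1, 0, 1, 0, 1], [1, 1, 0, 1, 0], [1, 0, 1, 1, 0, 1, 0, 1, 1, 0, 0], [1, 1], [1, 0, 1, 0, 1, 1, 0, 1, 0, 0], [1, 0, 1, 1, 0, 1, 0, 1], [0, 1, 0, 0, 0], [1, 1, 0, 1, 1], [1, 0, 1, 1, 0, 0, 0], [0, 1, 0, 1, 1, 0, 1, 0, 1, 0, 0], [1, 0, 1, 1, 0, 1, 0, 1, 0], [0, 1, 0, 1, 0], [0, 1, 1, 0, 1, 0, 1, 0], [1, 1, 0, 1, 1, 0, 1, 0, 0], [1, 0, 0], [0, 1, 0, 1, 1, 0, 1, 0, 1, 1, 0, 0], [0, 1, 0, 1, 1, 0, 1, 0, 1, 0], [0, 1, 1, 0], [0, 0], [0, 1, 0, 1, 1, 0, 0, 0], [0, 1, 1, 0, 0], [0, 1], [0, 1, 0, 1, 1, 0, 1, 0, 0], [1, 0, 1, 0, 1, 1, 0], [1, 1, 0, 1, 0, 1], [1, 1, 0, 1, 0, 1, 1, 0, 1, 0, 0, 0], [0, 1, 1, 0, 1, 0, 1, 1], [1, 0, 1, 1, 0, 0], [0, 1, 0, 1, 1, 0, 0]]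

/-- codes of the generators -/
def gen : ℕ → ℕ
  | 0 => 1221
  | 1 => 3165
  | _ => 1332

theorem h1 : L.contains (enc4 11 1 0 0 1) = true := by decide +kernel

theorem hclosed : (List.range 2).all (fun i => L.all (fun x => L.contains (mulc 11 (gen i) x))) = true := by
  decide +kernel

theorem hword : W.map (evalw 11 gen) = L := by decide +kernel

theorem hsorted : sortedB L = true := by decide +kernel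

theorem hfpf : L.all (fun x => fpf 11 x) = true := by decide +kernel

theorem hlen : L.length = 120 := by decide +kernel

/-- An exceptional sharply doubly transitive group of degree 11^2: the listed matrices generate a subgroup of GL(2,11) of order 120 acting regularly on the non-zero vectors. -/
theorem result (A : Matrix.GeneralLinearGroup (Fin 2) (ZMod 11)) (B : Matrix.GeneralLinearGroup (Fin 2) (ZMod 11)) (hA : (A : Matrix (Fin 2) (Fin 2) (ZMod 11)) = !![0, -1; 1, 0]) (hB : (B : Matrix (Fin 2) (Fin 2) (ZMod 11)) = !![2, 4; 1, -3]) : Nat.card (Subgroup.closure ({A, B} : Set (Matrix.GeneralLinearGroup (Fin 2) (ZMod 11)))) = 120 ∧ ∀ v w : Fin 2 → ZMod 11, v ≠ 0 → w ≠ 0 → ∃! h : Subgroup.closure ({A, B} : Set (Matrix.GeneralLinearGroup (Fin 2) (ZMod 11))), Matrix.mulVec ((h : Matrix.GeneralLinearGroup (Fin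 2) (ZMod 11)) : Matrix (Fin 2) (Fin 2) (ZMod 11)) v = w := by
  have hp : Fact (Nat.Prime 11) := ⟨by norm_num⟩
  let G : ℕ → GL (Fin 2) (ZMod 11) := fun i => match i with
    | 0 => A
    | 1 => B
    | _ => 1
  have hG : ∀ i, G i ∈ Subgroup.closure ({A, B} : Set (GL (Fin 2) (ZMod 11))) := by
    intro i
    match i with
    | 0 => exact Subgroup.subset_closure (Or.inl rfl)
    | 1 => exact Subgroup.subset_closure (Or.inr (rfl))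
    | (k + 2) => exact Subgroup.one_mem _
  have hgen : ∀ i, code (G i).1 = gen i := by
    intro i
    match i with
    | 0 => change code (A : Matrix (Fin 2) (Fin 2) (ZMod 11)) = _; rw [hA]; decide +kernel
    | 1 => change code (B : Matrix (Fin 2) (Fin 2) (ZMod 11)) = _; rw [hB]; decide +kernel
    | (k + 2) => change code (1 : Matrix (Fin 2) (Fin 2) (ZMod 11)) = _; rw [code_one]; rfl
  have hs : ∀ g ∈ ({A, B} : Set (GL (Fin 2) (ZMod 11))), ∃ i < 2, g = G i := by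
    intro g hg
    rcases hg with rfl | rfl
    · exact ⟨0, by norm_num, rfl⟩
    · exact ⟨1, by norm_num, rfl⟩
  obtain ⟨hiff, hcard⟩ := closure_spec ({A, B} : Set (GL (Fin 2) (ZMod 11))) G gen 2 hG hgen hs
    L W h1 hclosed hword hsorted
  rw [hlen] at hcard
  refine ⟨hcard, ?_⟩
  apply regular_of_fpf _ (by rw [hcard]; norm_num)
  intro h hh
  have hmem := (hiff h).mp hh
  have := hfpf
  rw [List.all_eq_true] at this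
  exact this _ hmem

end Cfsg.Agent.S0692
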