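import Mathlib
import Cfsg.Statements.S0694

set_option autoImplicit false
open Cfsg

namespace Cfsg.Agent.S0694

theorem dvd_of_padic {N M : ℕ} (hN : N ≠ 0) (hM : M ≠ 0)
    (h : ∀ s : ℕ, s.Prime → s ∣ N → padicValNat s N ≤ padicValNat s M) : N ∣ M := by
  rw [← Nat.factorization_le_iff_dvd hN hM]
  intro s
  by_cases hs : s.Prime
  · rw [Nat.factorization_def _ hs, Nat.factorization_def _ hs]
    by_cases hsN : s ∣ N
    · exact h s hs hsN
    · rw [padicValNat.eq_zero_of_not_dvd hsN]; exact Nat.zero_le _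
  · rw [Nat.factorization_eq_zero_of_not_prime _ hs]; exact Nat.zero_le _

theorem padic_mono {s N M : ℕ} (hs : s.Prime) (hM : M ≠ 0) (h : N ∣ M) :
    padicValNat s N ≤ padicValNat s M := by
  have := Fact.mk hs
  exact (padicValNat_dvd_iff_le hM).mp (pow_padicValNat_dvd.trans h)

theorem lte_two_odd {x k : ℕ} (hx : 1 < x) (hx2 : ¬ 2 ∣ x) (hk : ¬ 2 ∣ k) :
    padicValNat 2 (x ^ k - 1) = padicValNat 2 (x - 1) := by
  have h := emultiplicity_pow_sub_pow_of_prime (R := ℤ) Int.prime_two (x := (x : ℤ)) (y := 1)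
    (n := k) (by omega) (by omega) (by omega)
  rw [one_pow] at h
  have hk0 : k ≠ 0 := by rintro rfl; simp at hk
  have hxk : 1 < x ^ k := Nat.one_lt_pow hk0 hx
  have h1 : ((x ^ k - 1 : ℕ) : ℤ) = (x : ℤ) ^ k - 1 := by
    rw [Nat.cast_sub hxk.le]; simp
  have h2 : ((x - 1 : ℕ) : ℤ) = (x : ℤ) - 1 := by
    rw [Nat.cast_sub hx.le]; simp
  rw [← h1, ← h2] at h
  have h3 : ((2 : ℕ) : ℤ) = 2 := rfl
  rw [← h3, Int.natCast_emultiplicity, Int.natCast_emultiplicity] at h
  have : Fact (Nat.Prime 2) := ⟨Nat.prime_two⟩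
  rw [← padicValNat_eq_emultiplicity (by omega), ← padicValNat_eq_emultiplicity (by omega)] at h
  exact_mod_cast h

/-- LTE in the good case -/
theorem lte_good {s x k : ℕ} (hs : s.Prime) (hx : 1 < x) (hsx : s ∣ x - 1)
    (h2 : s ≠ 2 ∨ 4 ∣ x - 1) (hk : k ≠ 0) :
    padicValNat s (x ^ k - 1) = padicValNat s (x - 1) + padicValNat s k := by
  have := Fact.mk hs
  have hnx : ¬ s ∣ x := by
    intro h
    have h1 : s ∣ x - (x - 1) := Nat.dvd_sub h hsx
    have : x - (x - 1) = 1 := by omega
    rw [this] at h1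
    exact hs.one_lt.ne' (Nat.dvd_one.mp h1)
  by_cases hs2 : s = 2
  · subst hs2
    have h4 : 4 ∣ x - 1 := h2.resolve_left (by simp)
    rcases Nat.even_or_odd k with hev | hodd
    · have h := padicValNat.pow_two_sub_one hx hnx hk hev
      have hx1 : padicValNat 2 (x + 1) = 1 := by
        obtain ⟨t, ht⟩ := h4
        have : x + 1 = 2 * (2 * t + 1) := by omega
        rw [this, padicValNat.mul (by norm_num) (by omega), padicValNat_self,
          padicValNat.eq_zero_of_not_dvd (by omega)]
      omega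
    · have hk2 : ¬ 2 ∣ k := by
        rw [← even_iff_two_dvd, Nat.not_even_iff_odd]; exact hodd
      rw [lte_two_odd hx hnx hk2, padicValNat.eq_zero_of_not_dvd hk2, add_zero]
  · have h := padicValNat.pow_sub_pow (hs.odd_of_ne_two hs2) hx hsx hnx hk
    rwa [one_pow] at h

theorem val_le_one {a : ℕ} (ha : a ≠ 0) (h4 : ¬ 4 ∣ a) : padicValNat 2 a ≤ 1 := by
  have : Fact (Nat.Prime 2) := ⟨Nat.prime_two⟩
  by_contra hc
  apply h4
  have : 2 ^ 2 ∣ a := (padicValNat_dvd_iff_le ha).mpr (by omega)
  simpa using this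

/-- The Dickson pair condition: for a prime power `q` and `n > 1`, (every prime factor of `n` divides `q - 1`, and `4 ∣ n → 4 ∣ q - 1`) holds exactly when `q ^ n ≡ 1` modulo `n * (q - 1)` but `q ^ i` is not, for `0 < i < n`. -/
theorem result (q n : ℕ) (hq : IsPrimePow q) (hn : 1 < n) : ((∀ r : ℕ, r.Prime → r ∣ n → r ∣ q - 1) ∧ (4 ∣ n → 4 ∣ q - 1)) ↔ (q ^ n ≡ 1 [MOD n * (q - 1)] ∧ ∀ i : ℕ, 0 < i → i < n → ¬ q ^ i ≡ 1 [MOD n * (q - 1)]) := by
  have hq2 : 2 ≤ q := hq.two_le
  have hq1 : q - 1 ≠ 0 := by omega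
  have hn0 : n ≠ 0 := by omega
  have hN0 : n * (q - 1) ≠ 0 := mul_ne_zero hn0 hq1
  have hpow1 : ∀ m, m ≠ 0 → 1 < q ^ m := fun m hm => Nat.one_lt_pow hm (by omega)
  have hpow : ∀ m, m ≠ 0 → q ^ m - 1 ≠ 0 := by
    intro m hm
    have := hpow1 m hm
    omega
  have hmod : ∀ m, (q ^ m ≡ 1 [MOD n * (q - 1)]) ↔ n * (q - 1) ∣ q ^ m - 1 := by
    intro m
    rw [Nat.ModEq.comm, Nat.modEq_iff_dvd' (Nat.one_le_pow _ _ (by omega))]
  simp only [hmod]
  have hvalN : ∀ s, s.Prime →
      padicValNat s (n * (q - 1)) = padicValNat s n + padicValNat s (q - 1) := by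
    intro s hs; have := Fact.mk hs; exact padicValNat.mul hn0 hq1
  have hbase : ∀ s m, s.Prime → m ≠ 0 → padicValNat s (q - 1) ≤ padicValNat s (q ^ m - 1) := by
    intro s m hs hm
    apply padic_mono hs (hpow m hm)
    have := Nat.sub_dvd_pow_sub_pow q 1 m
    rwa [one_pow] at this
  have h2p : Fact (Nat.Prime 2) := ⟨Nat.prime_two⟩
  constructor
  · rintro ⟨hgood, h4⟩
    constructor
    · apply dvd_of_padic hN0 (hpow n hn0)
      intro s hs hsN
      rw [hvalN s hs]
      have := Fact.mk hs
      by_cases hsn : s ∣ n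
      · have hsq := hgood s hs hsn
        by_cases hc : s ≠ 2 ∨ 4 ∣ q - 1
        · rw [lte_good hs (by omega) hsq hc hn0]; omega
        · push Not at hc
          obtain ⟨rfl, hc4⟩ := hc
          have h1 : padicValNat 2 (q - 1) ≤ 1 := val_le_one hq1 hc4
          have hqodd : ¬ 2 ∣ q := by omega
          have h3 := padicValNat.pow_two_sub_one_ge (x := q) (n := n) (by omega) hqodd hn0
            (even_iff_two_dvd.mpr hsn)
          omega
      · rw [padicValNat.eq_zero_of_not_dvd hsn, zero_add]; exact hbase s n hs hn0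
    · intro i hi0 hin hdiv
      have hi0' : i ≠ 0 := by omega
      have : n ∣ i := by
        apply dvd_of_padic hn0 hi0'
        intro s hs hsn
        have hle := padic_mono hs (hpow i hi0') hdiv
        rw [hvalN s hs] at hle
        have hsq := hgood s hs hsn
        have := Fact.mk hs
        by_cases hc : s ≠ 2 ∨ 4 ∣ q - 1
        · rw [lte_good hs (by omega) hsq hc hi0'] at hle; omega
        · push Not at hc
          obtain ⟨rfl, hc4⟩ := hc
          have h1 : padicValNat 2 n ≤ 1 := val_le_one hn0 (fun h => hc4 (h4 h))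
          have hqodd : ¬ 2 ∣ q := by omega
          by_cases hi2 : 2 ∣ i
          · have := one_le_padicValNat_of_dvd hi0' hi2
            omega
          · rw [lte_two_odd (by omega) hqodd hi2] at hle
            have := one_le_padicValNat_of_dvd hn0 hsn
            omega
      exact absurd (Nat.le_of_dvd hi0 this) (by omega)
  · rintro ⟨hP, hmin⟩
    -- bad primes are odd
    have hbadodd : ∀ s : ℕ, s.Prime → s ∣ n → ¬ s ∣ q - 1 → s ≠ 2 := by
      rintro s hs hsn hsq rfl
      have h1 : 2 ∣ q := by omega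
      have h2 : 2 ∣ q ^ n := dvd_pow h1 hn0
      have h3 : 2 ∣ q ^ n - 1 := (hsn.trans (Dvd.intro _ rfl)).trans hP
      have h4 := hpow1 n hn0
      omega
    have hgood : ∀ r : ℕ, r.Prime → r ∣ n → r ∣ q - 1 := by
      by_contra hbad
      push Not at hbad
      obtain ⟨r0, hr0p, hr0n, hr0q⟩ := hbad
      let B := (Finset.range (n + 1)).filter (fun r => r.Prime ∧ r ∣ n ∧ ¬ r ∣ q - 1)
      have hB : B.Nonempty := ⟨r0, by
        simp only [B, Finset.mem_filter, Finset.mem_range]
        exact ⟨Nat.lt_succ_of_le (Nat.le_of_dvd (by omega) hr0n), hr0p, hr0n, hr0q⟩⟩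
      obtain ⟨r, hrB, hrmax⟩ := B.exists_max_image id hB
      simp only [B, Finset.mem_filter, Finset.mem_range, id] at hrB hrmax
      obtain ⟨-, hr, hrn, hrq⟩ := hrB
      have hmax : ∀ s : ℕ, s.Prime → s ∣ n → ¬ s ∣ q - 1 → s ≤ r := fun s hs hsn hsq =>
        hrmax s ⟨Nat.lt_succ_of_le (Nat.le_of_dvd (by omega) hsn), hs, hsn, hsq⟩
      have hr2 : r ≠ 2 := hbadodd r hr hrn hrq
      obtain ⟨m, hnm⟩ := hrn
      have hm0 : m ≠ 0 := by rintro rfl; simp at hnm; omega
      have hmn : m < n := by
        rw [hnm]; have := hr.two_le; nlinarith [Nat.pos_of_ne_zero hm0]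
      apply hmin m (Nat.pos_of_ne_zero hm0) hmn
      apply dvd_of_padic hN0 (hpow m hm0)
      intro s hs hsN
      rw [hvalN s hs]
      have := Fact.mk hs
      have := Fact.mk hr
      by_cases hsq : s ∣ q - 1
      · have hsr : s ≠ r := by rintro rfl; exact hrq hsq
        have hvn : padicValNat s n = padicValNat s m := by
          rw [hnm, padicValNat.mul hr.ne_zero hm0, padicValNat_primes hsr, zero_add]
        by_cases hc : s ≠ 2 ∨ 4 ∣ q - 1
        · rw [lte_good hs (by omega) hsq hc hm0]; omega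
        · push Not at hc
          obtain ⟨rfl, hc4⟩ := hc
          have h1 : padicValNat 2 (q - 1) ≤ 1 := val_le_one hq1 hc4
          have hqodd : ¬ 2 ∣ q := by omega
          by_cases hn2 : 2 ∣ n
          · have hm2 : 2 ∣ m := by
              rw [hnm] at hn2
              rcases (Nat.Prime.dvd_mul Nat.prime_two).mp hn2 with h | h
              · exact absurd ((Nat.prime_dvd_prime_iff_eq Nat.prime_two hr).mp h) (Ne.symm hr2)
              · exact h
            have h3 := padicValNat.pow_two_sub_one_ge (x := q) (n := m) (by omega) hqodd hm0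
              (even_iff_two_dvd.mpr hm2)
            omega
          · rw [padicValNat.eq_zero_of_not_dvd hn2, zero_add]; exact hbase 2 m Nat.prime_two hm0
      · have hsn : s ∣ n := ((Nat.Prime.dvd_mul hs).mp hsN).resolve_right hsq
        have hsr : s ≤ r := hmax s hs hsn hsq
        have hs2 : s ≠ 2 := hbadodd s hs hsn hsq
        have hsqn : s ∣ q ^ n - 1 := (hsn.trans (Dvd.intro _ rfl)).trans hP
        have hqn : (q : ZMod s) ^ n = 1 := by
          have := (ZMod.natCast_eq_zero_iff (q ^ n - 1) s).mpr hsqn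
          rw [Nat.cast_sub (hpow1 n hn0).le, Nat.cast_pow, Nat.cast_one, sub_eq_zero] at this
          exact this
        have hen : orderOf (q : ZMod s) ∣ n := orderOf_dvd_of_pow_eq_one hqn
        have hq0 : (q : ZMod s) ≠ 0 := by
          intro h; rw [h, zero_pow hn0] at hqn; exact zero_ne_one hqn
        have hes : orderOf (q : ZMod s) ∣ s - 1 := ZMod.orderOf_dvd_card_sub_one hq0
        have hs2le := hs.two_le
        have he0 : 0 < orderOf (q : ZMod s) := Nat.pos_of_dvd_of_pos hes (by omega)
        have hes' : orderOf (q : ZMod s) < s := by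
          have := Nat.le_of_dvd (by omega) hes; omega
        have hex : s ∣ q ^ orderOf (q : ZMod s) - 1 := by
          rw [← ZMod.natCast_eq_zero_iff, Nat.cast_sub (Nat.one_le_pow _ _ (by omega)),
            Nat.cast_pow, pow_orderOf_eq_one, Nat.cast_one, sub_self]
        generalize orderOf (q : ZMod s) = e at hen hes he0 hes' hex
        have hem : e ∣ m := by
          have hcop : Nat.Coprime e r := by
            rw [Nat.coprime_comm, Nat.Prime.coprime_iff_not_dvd hr]
            exact Nat.not_dvd_of_pos_of_lt he0 (by omega)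
          rw [hnm] at hen
          exact hcop.dvd_of_dvd_mul_left hen
        obtain ⟨k, hk⟩ := hem
        have hk0 : k ≠ 0 := by rintro rfl; simp at hk; exact hm0 hk
        have hlte := lte_good hs (x := q ^ e) (k := k) (hpow1 e he0.ne') hex (Or.inl hs2) hk0
        rw [← pow_mul, ← hk] at hlte
        have hvk : padicValNat s m = padicValNat s k := by
          rw [hk, padicValNat.mul he0.ne' hk0,
            padicValNat.eq_zero_of_not_dvd (Nat.not_dvd_of_pos_of_lt he0 hes'), zero_add]
        have hvx : 1 ≤ padicValNat s (q ^ e - 1) :=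
          one_le_padicValNat_of_dvd (hpow e he0.ne') hex
        have hvn : padicValNat s n ≤ 1 + padicValNat s m := by
          rw [hnm, padicValNat.mul hr.ne_zero hm0]
          by_cases hsr' : s = r
          · subst hsr'; rw [padicValNat_self]
          · rw [padicValNat_primes hsr']; omega
        rw [padicValNat.eq_zero_of_not_dvd hsq]
        omega
    refine ⟨hgood, ?_⟩
    intro h4n
    by_contra hc4
    have h2n : 2 ∣ n := (by norm_num : 2 ∣ 4).trans h4n
    obtain ⟨m, hnm⟩ := h2n
    have hm0 : m ≠ 0 := by rintro rfl; omega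
    have hm2 : 2 ∣ m := by omega
    have hmn : m < n := by omega
    have h2q : 2 ∣ q - 1 := hgood 2 Nat.prime_two ⟨m, hnm⟩
    have hqodd : ¬ 2 ∣ q := by omega
    apply hmin m (Nat.pos_of_ne_zero hm0) hmn
    apply dvd_of_padic hN0 (hpow m hm0)
    intro s hs hsN
    rw [hvalN s hs]
    have := Fact.mk hs
    by_cases hs2 : s = 2
    · subst hs2
      have h1 : padicValNat 2 (q - 1) ≤ 1 := val_le_one hq1 hc4
      have h3 := padicValNat.pow_two_sub_one_ge (x := q) (n := m) (by omega) hqodd hm0
        (even_iff_two_dvd.mpr hm2)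
      have hvn : padicValNat 2 n = 1 + padicValNat 2 m := by
        rw [hnm, padicValNat.mul (by norm_num) hm0, padicValNat_self]
      omega
    · have hsq : s ∣ q - 1 := by
        rcases (Nat.Prime.dvd_mul hs).mp hsN with h | h
        · exact hgood s hs h
        · exact h
      have hvn : padicValNat s n = padicValNat s m := by
        rw [hnm, padicValNat.mul (by norm_num) hm0, padicValNat_primes hs2, zero_add]
      rw [lte_good hs (by omega) hsq (Or.inl hs2) hm0]; omega

end Cfsg.Agent.S0694
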