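import Mathlib
import Cfsg.Statements.S0696
import Cfsg.Agent.S0695

set_option autoImplicit false
open Cfsg

namespace Cfsg.Agent.S0696

open Cfsg.Agent.S0695

theorem conj_smul {G : Type*} [Group G] {X : Type*} [MulAction G X] (a : X)
    (g m : G) (hg : g • a = a) : g • m • a = (g * m * g⁻¹) • a := by
  rw [mul_smul, mul_smul]
  congr 2
  rw [eq_inv_smul_iff, hg]

/-- A triply primitive group has a regular normal subgroup only in degree 3 or 4. -/
theorem result {G : Type*} [Group G] {X : Type*} [Fintype X] [MulAction G X] (hX : 3 ≤ Fintype.card X) (h3 : MulAction.IsMultiplyPreprimitive G X 3) (N : Subgroup G) [N.Normal] (htrans : MulAction.IsPretransitive N X) (hreg : ∀ x : X, MulAction.stabilizer N x = ⊥) : Fintype.card X = 3 ∨ Fintype.card X = 4 := by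
  classical
  have hN : N.Normal := inferInstance
  have h2 : MulAction.IsMultiplyPreprimitive G X 2 := by
    apply MulAction.isMultiplyPreprimitive_of_le G X h3 (by norm_num)
    rw [ENat.card_eq_coe_fintype_card]
    exact_mod_cast hX
  rcases Cfsg.Agent.S0695.result (by omega) h2 N htrans hreg with h | ⟨-, hsq, -⟩
  · left; exact h
  by_cases hc3 : Fintype.card X = 3
  · left; exact hc3
  right
  have hne : Nonempty X := by
    rw [← Fintype.card_pos_iff]; omega
  obtain ⟨a⟩ := hne
  have huniq := reg_uniq N hreg a
  have hcardN : Nat.card N = Fintype.card X := by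
    rw [← Nat.card_eq_fintype_card, ← MulAction.index_stabilizer_of_transitive N a, hreg a,
      Subgroup.index_bot]
  have hfinN : Finite N := Nat.finite_of_card_ne_zero (by rw [hcardN]; omega)
  -- pick n ≠ 1 and m ∉ {1, n}
  have hex : ∃ n m : N, n ≠ 1 ∧ m ≠ 1 ∧ m ≠ n := by
    have : Fintype N := Fintype.ofFinite N
    have hc : 4 ≤ Fintype.card N := by rw [← Nat.card_eq_fintype_card, hcardN]; omega
    have h1 : ∃ n : N, n ∉ ({1} : Finset N) := by
      by_contra hcon
      push Not at hcon
      have hs : (Finset.univ : Finset N) ⊆ {1} := fun x _ => hcon x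
      have := Finset.card_le_card hs
      rw [Finset.card_univ, Finset.card_singleton] at this
      omega
    obtain ⟨n, hn⟩ := h1
    have h1 : ∃ m : N, m ∉ ({1, n} : Finset N) := by
      by_contra hcon
      push Not at hcon
      have hs : (Finset.univ : Finset N) ⊆ {1, n} := fun x _ => hcon x
      have := Finset.card_le_card hs
      have h2 : ({1, n} : Finset N).card ≤ 2 := Finset.card_le_two
      rw [Finset.card_univ] at this
      omega
    obtain ⟨m, hm⟩ := h1
    simp only [Finset.mem_insert, Finset.mem_singleton, not_or] at hn hm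
    exact ⟨n, m, hn, hm.1, hm.2⟩
  obtain ⟨⟨n, hn⟩, ⟨m, hm⟩, hn1, hm1, hmn⟩ := hex
  have hn1' : n ≠ 1 := fun h => hn1 (Subtype.ext h)
  have hm1' : m ≠ 1 := fun h => hm1 (Subtype.ext h)
  have hmn' : m ≠ n := fun h => hmn (Subtype.ext h)
  have hninv : n⁻¹ = n := by
    rw [inv_eq_iff_mul_eq_one, ← pow_two]; exact hsq n hn
  set b := n • a with hb
  have hba : b ≠ a := fun h => hn1' (huniq n hn 1 N.one_mem (by rw [← hb, h, one_smul]))
  have hmnN : m * n ∈ N := N.mul_mem hm hn
  -- the two points
  have hz1 : m • a ∉ ({a, b} : Set X) := by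
    intro h
    rcases h with h | h
    · exact hm1' (huniq m hm 1 N.one_mem (by rw [h, one_smul]))
    · exact hmn' (huniq m hm n hn h)
  have hz2 : (m * n) • a ∉ ({a, b} : Set X) := by
    intro h
    rcases h with h | h
    · have := huniq (m * n) hmnN 1 N.one_mem (by rw [h, one_smul])
      apply hmn'
      rw [← hninv]
      exact eq_inv_of_mul_eq_one_left this
    · have := huniq (m * n) hmnN n hn h
      apply hm1'
      exact mul_eq_right.mp this
  let z : SubMulAction.ofFixingSubgroup G ({a, b} : Set X) := ⟨m • a, hz1⟩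
  let z' : SubMulAction.ofFixingSubgroup G ({a, b} : Set X) := ⟨(m * n) • a, hz2⟩
  have hzz' : z ≠ z' := by
    intro h
    have h1 : m • a = (m * n) • a := congrArg Subtype.val h
    have := huniq m hm (m * n) hmnN h1
    apply hn1'
    exact (mul_eq_left.mp this.symm)
  have hnt : Nontrivial (SubMulAction.ofFixingSubgroup G ({a, b} : Set X)) := ⟨⟨z, z', hzz'⟩⟩
  have hprim : MulAction.IsPreprimitive (fixingSubgroup G ({a, b} : Set X))
      (SubMulAction.ofFixingSubgroup G ({a, b} : Set X)) := by
    apply MulAction.IsMultiplyPreprimitive.isPreprimitive_ofFixingSubgroup G 3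
    rw [Set.encard_pair hba.symm]
    norm_num
  have hfa : ∀ g : fixingSubgroup G ({a, b} : Set X), (g : G) • a = a := fun g =>
    (mem_fixingSubgroup_iff G).mp g.2 a (by simp)
  have hfb : ∀ g : fixingSubgroup G ({a, b} : Set X), (g : G) • b = b := fun g =>
    (mem_fixingSubgroup_iff G).mp g.2 b (by simp)
  have hcn : ∀ g : fixingSubgroup G ({a, b} : Set X), (g : G) * n * (g : G)⁻¹ = n := by
    intro g
    apply huniq _ (hN.conj_mem n hn g) _ hn
    rw [← conj_smul a (g : G) n (hfa g)]
    exact hfb g
  let H : Subgroup (fixingSubgroup G ({a, b} : Set X)) :=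
    { carrier := {g | (g : G) * m * (g : G)⁻¹ = m ∨ (g : G) * m * (g : G)⁻¹ = m * n}
      one_mem' := Or.inl (by simp)
      mul_mem' := by
        rintro g h hg hh
        simp only [Set.mem_ofPred_eq, Subgroup.coe_mul, mul_inv_rev] at *
        have e : (g : G) * (h : G) * m * ((h : G)⁻¹ * (g : G)⁻¹)
            = (g : G) * ((h : G) * m * (h : G)⁻¹) * (g : G)⁻¹ := by group
        have e' : (g : G) * (m * n) * (g : G)⁻¹
            = ((g : G) * m * (g : G)⁻¹) * ((g : G) * n * (g : G)⁻¹) := by group
        rw [e]
        rcases hh with hh | hh <;> rcases hg with hg | hg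
        · left; rw [hh, hg]
        · right; rw [hh, hg]
        · right; rw [hh, e', hg, hcn]
        · left
          rw [hh, e', hg, hcn, mul_assoc]
          have : n * n = 1 := by rw [← pow_two]; exact hsq n hn
          rw [this, mul_one]
      inv_mem' := by
        rintro g hg
        simp only [Set.mem_ofPred_eq, Subgroup.coe_inv, inv_inv] at *
        have hcn' : (g : G)⁻¹ * n * (g : G) = n := by
          calc (g : G)⁻¹ * n * g = (g : G)⁻¹ * ((g : G) * n * (g : G)⁻¹) * g := by rw [hcn]
            _ = n := by group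
        rcases hg with hg | hg
        · left
          calc (g : G)⁻¹ * m * g = (g : G)⁻¹ * ((g : G) * m * (g : G)⁻¹) * g := by rw [hg]
            _ = m := by group
        · right
          have : (g : G)⁻¹ * (m * n) * g = m := by
            calc (g : G)⁻¹ * (m * n) * g = (g : G)⁻¹ * ((g : G) * m * (g : G)⁻¹) * g := by rw [hg]
              _ = m := by group
          have e2 : (g : G)⁻¹ * (m * n) * g = ((g : G)⁻¹ * m * g) * ((g : G)⁻¹ * n * g) := by group
          rw [e2, hcn'] at this
          have h5 := eq_mul_inv_of_mul_eq this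
          rw [hninv] at h5
          exact h5 }
  have hT : MulAction.stabilizer (fixingSubgroup G ({a, b} : Set X)) z ≤ H := by
    intro g hg
    rw [MulAction.mem_stabilizer_iff] at hg
    have h1 : (g : G) • m • a = m • a := congrArg Subtype.val hg
    rw [conj_smul a (g : G) m (hfa g)] at h1
    left
    exact huniq _ (hN.conj_mem m hm g) _ hm h1
  have hco := MulAction.IsPreprimitive.isCoatom_stabilizer_of_isPreprimitive
    (G := fixingSubgroup G ({a, b} : Set X)) z
  have htr := hprim.toIsPretransitive
  rcases eq_or_lt_of_le hT with heq | hlt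
  · exfalso
    obtain ⟨g, hg⟩ := htr.exists_smul_eq z z'
    have h1 : (g : G) • m • a = (m * n) • a := congrArg Subtype.val hg
    rw [conj_smul a (g : G) m (hfa g)] at h1
    have h2 : (g : G) * m * (g : G)⁻¹ = m * n := huniq _ (hN.conj_mem m hm g) _ hmnN h1
    have hgH : g ∈ H := Or.inr h2
    rw [← heq, MulAction.mem_stabilizer_iff] at hgH
    rw [hgH] at hg
    exact hzz' hg
  · have htop : H = ⊤ := hco.2 _ hlt
    have hall : ∀ x : X, x ∈ ({a, b, m • a, (m * n) • a} : Finset X) := by
      intro x
      by_cases hx : x ∈ ({a, b} : Set X)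
      · rcases hx with hx | hx
        · simp [hx]
        · have hx' : x = b := hx
          simp [hx']
      · obtain ⟨g, hg⟩ := htr.exists_smul_eq z ⟨x, hx⟩
        have hgH : g ∈ H := by rw [htop]; trivial
        have h1 : (g : G) • m • a = x := congrArg Subtype.val hg
        rw [conj_smul a (g : G) m (hfa g)] at h1
        rcases hgH with h | h
        · rw [h] at h1; simp [← h1]
        · rw [h] at h1; simp [← h1]
    have hle : Fintype.card X ≤ 4 := by
      rw [← Finset.card_univ]
      calc (Finset.univ : Finset X).card ≤ ({a, b, m • a, (m * n) • a} : Finset X).card :=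
            Finset.card_le_card (fun x _ => hall x)
        _ ≤ 4 := Finset.card_le_four
    omega

end Cfsg.Agent.S0696
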