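import Mathlib
import Cfsg.Statements.S0701

set_option autoImplicit false
open Cfsg

namespace Cfsg.Agent.S0701

/-- The centraliser in the symmetric group of a transitive permutation group is semiregular; it is transitive exactly when the group is regular. -/
theorem result {α : Type*} (G : Subgroup (Equiv.Perm α)) [MulAction.IsPretransitive G α] : (∀ c ∈ Subgroup.centralizer (G : Set (Equiv.Perm α)), ∀ a : α, c a = a → c = 1) ∧ (MulAction.IsPretransitive (Subgroup.centralizer (G : Set (Equiv.Perm α))) α ↔ ∀ a : α, MulAction.stabilizer G a = ⊥) := by
  constructor
  · intro c hc a ha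
    rw [Subgroup.mem_centralizer_iff] at hc
    ext b
    obtain ⟨t, rfl⟩ := MulAction.exists_smul_eq G a b
    have := congrArg (fun f : Equiv.Perm α => f a) (hc t t.2)
    simp only [Equiv.Perm.coe_mul, Function.comp_apply] at this
    change c ((t : Equiv.Perm α) a) = (t : Equiv.Perm α) a
    rw [← this, ha]
  · constructor
    · intro htr a
      rw [eq_bot_iff]
      intro g hg
      rw [MulAction.mem_stabilizer_iff] at hg
      rw [Subgroup.mem_bot]
      ext b
      obtain ⟨c, rfl⟩ := htr.exists_smul_eq a b
      have hc := c.2
      rw [Subgroup.mem_centralizer_iff] at hc
      have := congrArg (fun f : Equiv.Perm α => f a) (hc g g.2)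
      simp only [Equiv.Perm.coe_mul, Function.comp_apply] at this
      change (g : Equiv.Perm α) ((c : Equiv.Perm α) a) = (c : Equiv.Perm α) a
      rw [this]
      exact congrArg _ hg
    · intro hreg
      have huniq : ∀ (a : α) (g₁ g₂ : G), g₁ • a = g₂ • a → g₁ = g₂ := by
        intro a g₁ g₂ h
        have : g₂⁻¹ * g₁ ∈ MulAction.stabilizer G a := by
          rw [MulAction.mem_stabilizer_iff, mul_smul, h, inv_smul_smul]
        rw [hreg a, Subgroup.mem_bot] at this
        exact (inv_mul_eq_one.mp this).symm
      have hex : ∀ a x : α, ∃ g : G, g • a = x := fun a x => MulAction.exists_smul_eq G a x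
      choose g hg using hex
      constructor
      intro a b
      let c : Equiv.Perm α :=
        { toFun := fun x => g a x • b
          invFun := fun y => g b y • a
          left_inv := by
            intro x
            have : g b (g a x • b) = g a x := huniq b _ _ (hg b _)
            change g b (g a x • b) • a = x
            rw [this, hg]
          right_inv := by
            intro y
            have : g a (g b y • a) = g b y := huniq a _ _ (hg a _)
            change g a (g b y • a) • b = y
            rw [this, hg] }
      have hc : c ∈ Subgroup.centralizer (G : Set (Equiv.Perm α)) := by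
        rw [Subgroup.mem_centralizer_iff]
        intro h hh
        ext x
        change h (g a x • b) = g a (h x) • b
        have : g a (h x) = ⟨h, hh⟩ * g a x := by
          apply huniq a
          rw [hg, mul_smul, hg]
          rfl
        rw [this, mul_smul]
        rfl
      refine ⟨⟨c, hc⟩, ?_⟩
      change g a a • b = b
      have : g a a = 1 := huniq a _ _ (by rw [hg, one_smul])
      rw [this, one_smul]

end Cfsg.Agent.S0701
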