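import Mathlib
import Cfsg.Statements.S0702

set_option autoImplicit false
open Cfsg

namespace Cfsg.Agent.S0702

variable {α : Type*} (G : Subgroup (Equiv.Perm α)) (a : α)

/-- the underlying function of the centralizing permutation attached to `n` -/
noncomputable def cfun [MulAction.IsPretransitive G α] (n : G) : α → α := fun x =>
  (Classical.choose (MulAction.exists_smul_eq G a x) * n⁻¹) • a

theorem cfun_spec [MulAction.IsPretransitive G α] (n : G)
    (hn : n ∈ Subgroup.normalizer ((MulAction.stabilizer G a : Subgroup G) : Set G)) (h : G) :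
    cfun G a n (h • a) = (h * n⁻¹) • a := by
  have hg := Classical.choose_spec (MulAction.exists_smul_eq G a (h • a))
  set g := Classical.choose (MulAction.exists_smul_eq G a (h • a)) with hgdef
  change (g * n⁻¹) • a = (h * n⁻¹) • a
  have hs : h⁻¹ * g ∈ MulAction.stabilizer G a := by
    rw [MulAction.mem_stabilizer_iff, mul_smul, hg, inv_smul_smul]
  have hs' : n * (h⁻¹ * g) * n⁻¹ ∈ MulAction.stabilizer G a :=
    (Subgroup.mem_normalizer_iff.mp hn _).mp hs
  rw [MulAction.mem_stabilizer_iff] at hs'
  have : (g * n⁻¹) • a = (h * n⁻¹) • ((n * (h⁻¹ * g) * n⁻¹) • a) := by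
    rw [← mul_smul]
    congr 1
    group
  rw [this, hs']

theorem cfun_mul [MulAction.IsPretransitive G α] (n m : G)
    (hn : n ∈ Subgroup.normalizer ((MulAction.stabilizer G a : Subgroup G) : Set G))
    (hm : m ∈ Subgroup.normalizer ((MulAction.stabilizer G a : Subgroup G) : Set G)) (x : α) :
    cfun G a n (cfun G a m x) = cfun G a (n * m) x := by
  obtain ⟨h, rfl⟩ := MulAction.exists_smul_eq G a x
  rw [cfun_spec G a m hm, cfun_spec G a n hn, cfun_spec G a (n * m) (Subgroup.mul_mem _ hn hm),
    mul_inv_rev, mul_assoc]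

theorem cfun_one [MulAction.IsPretransitive G α] (x : α) : cfun G a 1 x = x := by
  obtain ⟨h, rfl⟩ := MulAction.exists_smul_eq G a x
  rw [cfun_spec G a 1 (Subgroup.one_mem _)]
  simp

/-- the centralizing permutation attached to `n` in the normalizer -/
noncomputable def cperm [MulAction.IsPretransitive G α]
    (n : Subgroup.normalizer ((MulAction.stabilizer G a : Subgroup G) : Set G)) :
    Equiv.Perm α where
  toFun := cfun G a n
  invFun := cfun G a (n⁻¹ : Subgroup.normalizer ((MulAction.stabilizer G a : Subgroup G) : Set G))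
  left_inv := by
    intro x
    have := cfun_mul G a (n⁻¹ : Subgroup.normalizer _) n (Subgroup.inv_mem _ n.2) n.2 x
    simp only [Subgroup.coe_inv] at this ⊢
    rw [this, inv_mul_cancel, cfun_one]
  right_inv := by
    intro x
    have := cfun_mul G a n (n⁻¹ : Subgroup.normalizer _) n.2 (Subgroup.inv_mem _ n.2) x
    simp only [Subgroup.coe_inv] at this ⊢
    rw [this, mul_inv_cancel, cfun_one]

theorem cperm_mem [MulAction.IsPretransitive G α]
    (n : Subgroup.normalizer ((MulAction.stabilizer G a : Subgroup G) : Set G)) :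
    cperm G a n ∈ Subgroup.centralizer (G : Set (Equiv.Perm α)) := by
  rw [Subgroup.mem_centralizer_iff]
  intro k hk
  ext x
  obtain ⟨h, rfl⟩ := MulAction.exists_smul_eq G a x
  change k (cfun G a n (h • a)) = cfun G a n (k (h • a))
  have h1 : k (h • a) = ((⟨k, hk⟩ : G) * h) • a := by rw [mul_smul]; rfl
  rw [h1, cfun_spec G a n n.2, cfun_spec G a n n.2, mul_assoc, mul_smul]
  rfl

/-- the homomorphism from the normalizer to the centralizer -/
noncomputable def θ [MulAction.IsPretransitive G α] :
    Subgroup.normalizer ((MulAction.stabilizer G a : Subgroup G) : Set G) →*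
      Subgroup.centralizer (G : Set (Equiv.Perm α)) where
  toFun n := ⟨cperm G a n, cperm_mem G a n⟩
  map_one' := by
    apply Subtype.ext
    ext x
    exact cfun_one G a x
  map_mul' n m := by
    apply Subtype.ext
    ext x
    exact (cfun_mul G a n m n.2 m.2 x).symm

theorem mem_norm_of_fixed [Finite α] [MulAction.IsPretransitive G α] (k : G)
    (hk : k • a ∈ MulAction.fixedPoints (MulAction.stabilizer G a) α) :
    k⁻¹ ∈ Subgroup.normalizer ((MulAction.stabilizer G a : Subgroup G) : Set G) := by
  have hconj : ∀ s ∈ MulAction.stabilizer G a, k⁻¹ * s * k ∈ MulAction.stabilizer G a := by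
    intro s hs
    have := hk ⟨s, hs⟩
    rw [MulAction.mem_stabilizer_iff, mul_smul, mul_smul]
    change s • k • a = k • a at this
    rw [this, inv_smul_smul]
  let f : MulAction.stabilizer G a → MulAction.stabilizer G a := fun s =>
    ⟨k⁻¹ * s * k, hconj s s.2⟩
  have hinj : Function.Injective f := by
    intro s t h
    have : k⁻¹ * (s : G) * k = k⁻¹ * (t : G) * k := congrArg Subtype.val h
    apply Subtype.ext
    simpa using this
  have hsurj : Function.Surjective f := Finite.surjective_of_injective hinj
  rw [Subgroup.mem_normalizer_iff]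
  intro h
  rw [inv_inv]
  constructor
  · exact hconj h
  · intro hh
    obtain ⟨s, hs⟩ := hsurj ⟨_, hh⟩
    have : k⁻¹ * (s : G) * k = k⁻¹ * h * k := congrArg Subtype.val hs
    have h2 : (s : G) = h := by simpa using this
    rw [← h2]
    exact s.2

/-- For a finite transitive permutation group `G` with point stabiliser `G_a`, the centraliser of `G` in the symmetric group is isomorphic to `N_G(G_a) / G_a`, and its orbit of `a` is the set of fixed points of `G_a`. -/
theorem result {α : Type*} [Finite α] (G : Subgroup (Equiv.Perm α)) [MulAction.IsPretransitive G α] (a : α) : Nonempty (Subgroup.centralizer (G : Set (Equiv.Perm α)) ≃* Subgroup.normalizer ((MulAction.stabilizer G a : Subgroup G) : Set G) ⧸ (MulAction.stabilizer G a).subgroupOf (Subgroup.normalizer ((MulAction.stabilizer G a : Subgroup G) : Set G))) ∧ MulAction.orbit (Subgroup.centralizer (G : Set (Equiv.Perm α))) a = MulAction.fixedPoints (MulAction.stabilizer G a) α := by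
  have hfix : ∀ c ∈ Subgroup.centralizer (G : Set (Equiv.Perm α)),
      c a ∈ MulAction.fixedPoints (MulAction.stabilizer G a) α := by
    intro c hc s
    rw [Subgroup.mem_centralizer_iff] at hc
    have h1 := congrArg (fun f : Equiv.Perm α => f a) (hc (s : G) (s : G).2)
    simp only [Equiv.Perm.coe_mul, Function.comp_apply] at h1
    have h2 : ((s : G) : Equiv.Perm α) a = a := s.2
    rw [h2] at h1
    exact h1
  have hsurjθ : ∀ c ∈ Subgroup.centralizer (G : Set (Equiv.Perm α)), ∀ k : G, k • a = c a →
      ∃ n : Subgroup.normalizer ((MulAction.stabilizer G a : Subgroup G) : Set G),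
        cperm G a n = c := by
    intro c hc k hk
    have hkn := mem_norm_of_fixed G a k (by rw [hk]; exact hfix c hc)
    refine ⟨⟨k⁻¹, hkn⟩, ?_⟩
    ext x
    obtain ⟨h, rfl⟩ := MulAction.exists_smul_eq G a x
    change cfun G a k⁻¹ (h • a) = c (h • a)
    rw [cfun_spec G a k⁻¹ hkn, inv_inv, mul_smul, hk]
    rw [Subgroup.mem_centralizer_iff] at hc
    have h1 := congrArg (fun f : Equiv.Perm α => f a) (hc (h : Equiv.Perm α) h.2)
    simp only [Equiv.Perm.coe_mul, Function.comp_apply] at h1
    exact h1
  constructor
  · have hker : (θ G a).ker = (MulAction.stabilizer G a).subgroupOf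
        (Subgroup.normalizer ((MulAction.stabilizer G a : Subgroup G) : Set G)) := by
      ext n
      rw [MonoidHom.mem_ker, Subgroup.mem_subgroupOf, MulAction.mem_stabilizer_iff]
      constructor
      · intro h
        have h1 : cperm G a n a = a := by
          have := congrArg (fun c : Subgroup.centralizer (G : Set (Equiv.Perm α)) =>
            (c : Equiv.Perm α) a) h
          exact this
        have h2 : cfun G a n ((1 : G) • a) = ((1 : G) * (n : G)⁻¹) • a := cfun_spec G a n n.2 1
        rw [one_smul, one_mul] at h2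
        have h3 : (n : G)⁻¹ • a = a := by rw [← h2]; exact h1
        rw [inv_smul_eq_iff] at h3
        exact h3.symm
      · intro h
        apply Subtype.ext
        ext x
        obtain ⟨k, rfl⟩ := MulAction.exists_smul_eq G a x
        change cfun G a n (k • a) = k • a
        rw [cfun_spec G a n n.2, mul_smul]
        congr 1
        rw [inv_smul_eq_iff]
        exact h.symm
    have hsurj : Function.Surjective (θ G a) := by
      rintro ⟨c, hc⟩
      obtain ⟨k, hk⟩ := MulAction.exists_smul_eq G a (c a)
      obtain ⟨n, hn⟩ := hsurjθ c hc k hk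
      exact ⟨n, Subtype.ext hn⟩
    exact ⟨((QuotientGroup.quotientMulEquivOfEq hker).symm.trans
      (QuotientGroup.quotientKerEquivOfSurjective (θ G a) hsurj)).symm⟩
  · ext x
    constructor
    · rintro ⟨c, rfl⟩
      exact hfix c.1 c.2
    · intro hx
      obtain ⟨k, rfl⟩ := MulAction.exists_smul_eq G a x
      have hkn := mem_norm_of_fixed G a k hx
      refine ⟨⟨cperm G a ⟨k⁻¹, hkn⟩, cperm_mem G a _⟩, ?_⟩
      change cfun G a k⁻¹ a = k • a
      have h2 : cfun G a k⁻¹ ((1 : G) • a) = ((1 : G) * (k⁻¹)⁻¹) • a := cfun_spec G a k⁻¹ hkn 1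
      rw [one_smul, one_mul, inv_inv] at h2
      exact h2

end Cfsg.Agent.S0702
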