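import Cfsg.Statements.S0704

set_option autoImplicit false
open Cfsg

namespace Cfsg.Agent.S0704

variable {α : Type*}

theorem eq_one_of_commute_of_fixed (T : Subgroup (Equiv.Perm α))
    (hT : ∀ a b : α, ∃ t ∈ T, t a = b) (c : Equiv.Perm α) (hc : ∀ t ∈ T, c * t = t * c)
    (a : α) (ha : c a = a) : c = 1 := by
  ext b
  obtain ⟨t, ht, rfl⟩ := hT a b
  have := congrArg (fun f : Equiv.Perm α => f a) (hc t ht)
  simp only [Equiv.Perm.coe_mul, Function.comp_apply] at this
  rw [Equiv.Perm.one_apply, this, ha]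

theorem commute_of_disj (G : Subgroup (Equiv.Perm α)) (M N : Subgroup G) [hM : M.Normal]
    [hN : N.Normal] (hdisj : M ⊓ N = ⊥) (m : G) (hm : m ∈ M) (n : G) (hn : n ∈ N) :
    (m : Equiv.Perm α) * n = n * m := by
  have := Subgroup.commute_of_normal_of_disjoint M N hM hN (disjoint_iff.mpr hdisj) m n hm hn
  have h2 := congrArg (Subtype.val) this.eq
  simpa using h2

theorem trans_map (G : Subgroup (Equiv.Perm α)) (M : Subgroup G)
    (hMt : MulAction.IsPretransitive M α) : ∀ a b : α, ∃ t ∈ M.map G.subtype, t a = b := by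
  intro a b
  obtain ⟨m, hm⟩ := hMt.exists_smul_eq a b
  exact ⟨G.subtype m.1, Subgroup.mem_map_of_mem _ m.2, hm⟩

theorem half (G : Subgroup (Equiv.Perm α)) (M N : Subgroup G) [M.Normal] [N.Normal]
    (hdisj : M ⊓ N = ⊥) (hMt : MulAction.IsPretransitive M α)
    (hNt : MulAction.IsPretransitive N α) :
    (∀ a : α, MulAction.stabilizer N a = ⊥) ∧
    Subgroup.centralizer ((M.map G.subtype : Subgroup (Equiv.Perm α)) : Set (Equiv.Perm α))
      = N.map G.subtype := by
  have hMT := trans_map G M hMt
  have hNT := trans_map G N hNt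
  have hsemi : ∀ c ∈ N.map G.subtype, ∀ a, c a = a → c = 1 := by
    rintro c ⟨n, hn, rfl⟩ a ha
    apply eq_one_of_commute_of_fixed (M.map G.subtype) hMT _ _ a ha
    rintro t ⟨m, hm, rfl⟩
    exact (commute_of_disj G M N hdisj m hm n hn).symm
  constructor
  · intro a
    rw [eq_bot_iff]
    intro n hn
    rw [MulAction.mem_stabilizer_iff] at hn
    rw [Subgroup.mem_bot]
    have := hsemi (G.subtype n.1) (Subgroup.mem_map_of_mem _ n.2) a hn
    ext x
    exact congrArg (fun f : Equiv.Perm α => f x) this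
  · apply le_antisymm
    · intro c hc
      rw [Subgroup.mem_centralizer_iff] at hc
      by_cases hα : Nonempty α
      · obtain ⟨a⟩ := hα
        obtain ⟨n, hn, hna⟩ := hNT a (c a)
        have hn' := hn
        obtain ⟨n₀, hn₀, rfl⟩ := hn
        have h1 : (G.subtype n₀)⁻¹ * c = 1 := by
          apply eq_one_of_commute_of_fixed (M.map G.subtype) hMT _ _ a
          · simp [← hna]
          · rintro t ⟨m, hm, rfl⟩
            have e1 := commute_of_disj G M N hdisj m hm n₀ hn₀
            have e2 := hc (G.subtype m) (Subgroup.mem_map_of_mem _ hm)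
            simp only [Subgroup.coe_subtype] at e2 ⊢
            rw [mul_assoc, ← e2, ← mul_assoc, ← mul_assoc]
            congr 1
            rw [inv_mul_eq_iff_eq_mul, ← mul_assoc, ← e1, mul_assoc, mul_inv_cancel, mul_one]
        have h2 : c = G.subtype n₀ := by
          rw [inv_mul_eq_one] at h1
          exact h1.symm
        rw [h2]
        exact hn'
      · have : c = 1 := by
          ext x
          exact (hα ⟨x⟩).elim
        rw [this]
        exact one_mem _
    · rintro c ⟨n, hn, rfl⟩
      rw [Subgroup.mem_centralizer_iff]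
      rintro t ⟨m, hm, rfl⟩
      exact commute_of_disj G M N hdisj m hm n hn

theorem disj_of_min (G : Subgroup (Equiv.Perm α)) (M N : Subgroup G) [M.Normal] [N.Normal]
    (hM : M ≠ ⊥)
    (hMmin : ∀ L : Subgroup G, L.Normal → L ≤ M → L = ⊥ ∨ L = M)
    (hNmin : ∀ L : Subgroup G, L.Normal → L ≤ N → L = ⊥ ∨ L = N) (hMN : M ≠ N) :
    M ⊓ N = ⊥ := by
  rcases hMmin (M ⊓ N) inferInstance inf_le_left with h | h
  · exact h
  · have hle : M ≤ N := by rw [← h]; exact inf_le_right
    rcases hNmin M inferInstance hle with h' | h'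
    · exact absurd h' hM
    · exact absurd h' hMN

/-- If a permutation group has two distinct transitive minimal normal subgroups `M` and `N`, then both are regular and non-abelian, they are isomorphic, each is the full centraliser of the other in the symmetric group, and they are the only minimal normal subgroups. -/
theorem result {α : Type*} (G : Subgroup (Equiv.Perm α)) (M N : Subgroup G) [M.Normal] [N.Normal] (hM : M ≠ ⊥) (hN : N ≠ ⊥) (hMmin : ∀ L : Subgroup G, L.Normal → L ≤ M → L = ⊥ ∨ L = M) (hNmin : ∀ L : Subgroup G, L.Normal → L ≤ N → L = ⊥ ∨ L = N) (hMN : M ≠ N) (hMt : MulAction.IsPretransitive M α) (hNt : MulAction.IsPretransitive N α) : (∀ a : α, MulAction.stabilizer M a = ⊥) ∧ (∀ a : α, MulAction.stabilizer N a = ⊥) ∧ ¬ IsMulCommutative M ∧ Nonempty (M ≃* N) ∧ Subgroup.centralizer ((M.map G.subtype : Subgroup (Equiv.Perm α)) : Set (Equiv.Perm α)) = N.map G.subtype ∧ Subgroup.centralizer ((N.map G.subtype : Subgroup (Equiv.Perm α)) : Set (Equiv.Perm α)) = M.map G.subtype ∧ ∀ L : Subgroup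 G, L.Normal → L ≠ ⊥ → (∀ L' : Subgroup G, L'.Normal → L' ≤ L → L' = ⊥ ∨ L' = L) → L = M ∨ L = N := by
  have hdisj : M ⊓ N = ⊥ := disj_of_min G M N hM hMmin hNmin hMN
  have hdisj' : N ⊓ M = ⊥ := by rw [inf_comm]; exact hdisj
  obtain ⟨hregN, hCM⟩ := half G M N hdisj hMt hNt
  obtain ⟨hregM, hCN⟩ := half G N M hdisj' hNt hMt
  have hmapinj : ∀ A B : Subgroup G, A.map G.subtype ≤ B.map G.subtype → A ≤ B := by
    intro A B h
    exact (Subgroup.map_le_map_iff_of_injective (Subgroup.subtype_injective G)).mp h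
  have hα : Nonempty α := by
    by_contra hα
    apply hM
    rw [eq_bot_iff]
    intro m _
    rw [Subgroup.mem_bot]
    ext x
    exact (hα ⟨x⟩).elim
  refine ⟨hregM, hregN, ?_, ?_, hCM, hCN, ?_⟩
  · intro hcomm
    apply hM
    have hle : M.map G.subtype ≤ N.map G.subtype := by
      rw [← hCM]
      rintro c ⟨m, hm, rfl⟩
      rw [Subgroup.mem_centralizer_iff]
      rintro t ⟨m', hm', rfl⟩
      have := hcomm.is_comm.comm ⟨m', hm'⟩ ⟨m, hm⟩
      have h2 := congrArg (fun x : M => ((x : G) : Equiv.Perm α)) this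
      simpa using h2
    have hle' : M ≤ N := hmapinj M N hle
    rw [← hdisj]
    exact (inf_eq_left.mpr hle').symm
  · obtain ⟨a⟩ := hα
    have hex : ∀ m : M, ∃ n : N, n • a = m⁻¹ • a := fun m => hNt.exists_smul_eq a (m⁻¹ • a)
    choose χ hχ using hex
    have huniqN : ∀ n n' : N, n • a = n' • a → n = n' := by
      intro n n' h
      have : n'⁻¹ * n ∈ MulAction.stabilizer N a := by
        rw [MulAction.mem_stabilizer_iff, mul_smul, h, inv_smul_smul]
      rw [hregN a, Subgroup.mem_bot] at this
      exact (inv_mul_eq_one.mp this).symm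
    have huniqM : ∀ n n' : M, n • a = n' • a → n = n' := by
      intro n n' h
      have : n'⁻¹ * n ∈ MulAction.stabilizer M a := by
        rw [MulAction.mem_stabilizer_iff, mul_smul, h, inv_smul_smul]
      rw [hregM a, Subgroup.mem_bot] at this
      exact (inv_mul_eq_one.mp this).symm
    have hcomm : ∀ (m : M) (n : N) (x : α), m • n • x = n • m • x := by
      intro m n x
      have := commute_of_disj G M N hdisj m.1 m.2 n.1 n.2
      exact congrArg (fun f : Equiv.Perm α => f x) this
    let χhom : M →* N := MonoidHom.mk' χ (by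
      intro m₁ m₂
      apply huniqN
      rw [hχ, mul_inv_rev, mul_smul, ← hχ m₁, hcomm, ← hχ m₂, mul_smul])
    refine ⟨MulEquiv.ofBijective χhom ⟨?_, ?_⟩⟩
    · rw [injective_iff_map_eq_one]
      intro m hm
      have h1 : χ m = 1 := hm
      have h2 := hχ m
      rw [h1, one_smul] at h2
      have h3 : m⁻¹ = 1 := huniqM _ _ (by rw [← h2, one_smul])
      exact inv_eq_one.mp h3
    · intro n
      obtain ⟨m, hm⟩ := hMt.exists_smul_eq a (n • a)
      refine ⟨m⁻¹, ?_⟩
      apply huniqN
      change χ m⁻¹ • a = n • a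
      rw [hχ, inv_inv, hm]
  · intro L hLn hL hLmin
    by_contra hcon
    push Not at hcon
    have hLM : L ⊓ M = ⊥ := disj_of_min G L M hL hLmin hMmin hcon.1
    have hML : M ⊓ L = ⊥ := by rw [inf_comm]; exact hLM
    apply hL
    have hle : L.map G.subtype ≤ N.map G.subtype := by
      rw [← hCM]
      rintro c ⟨l, hl, rfl⟩
      rw [Subgroup.mem_centralizer_iff]
      rintro t ⟨m, hm, rfl⟩
      exact commute_of_disj G M L hML m hm l hl
    have hle' : L ≤ N := hmapinj L N hle
    have hLN : L ⊓ N = ⊥ := disj_of_min G L N hL hLmin hNmin hcon.2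
    rw [← hLN]
    exact (inf_eq_left.mpr hle').symm

end Cfsg.Agent.S0704
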