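import Cfsg.Statements.S0703
import Cfsg.Agent.S0704
import Mathlib.GroupTheory.Perm.Cycle.Type

set_option autoImplicit false
open Cfsg

namespace Cfsg.Agent.S0703

open Cfsg.Agent.S0704

/-- A transitive abelian minimal normal subgroup of a finite permutation group is regular, elementary abelian and self-centralising in the symmetric group, and it is the only minimal normal subgroup. -/
theorem result {α : Type*} [Finite α] (G : Subgroup (Equiv.Perm α)) (M : Subgroup G) [M.Normal] (hM : M ≠ ⊥) (hmin : ∀ L : Subgroup G, L.Normal → L ≤ M → L = ⊥ ∨ L = M) (hab : IsMulCommutative M) (htrans : MulAction.IsPretransitive M α) : Subgroup.centralizer ((M.map G.subtype : Subgroup (Equiv.Perm α)) : Set (Equiv.Perm α)) = M.map G.subtype ∧ (∀ a : α, MulAction.stabilizer M a = ⊥) ∧ (∃ p : ℕ, p.Prime ∧ ∀ m ∈ M, m ^ p = 1) ∧ ∀ L : Subgroup G, L.Normal → L ≠ ⊥ → (∀ L' : Subgroup G, L'.Normal → L' ≤ L → L' = ⊥ ∨ L' = L) → L = M := by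
  have hMT := trans_map G M htrans
  have hcomm : ∀ g ∈ M, ∀ h ∈ M, g * h = h * g := by
    intro g hg h hh
    have := hab.is_comm.comm ⟨g, hg⟩ ⟨h, hh⟩
    exact congrArg Subtype.val this
  have hcomm' : ∀ g ∈ M, ∀ h ∈ M, (g : Equiv.Perm α) * h = h * g := by
    intro g hg h hh
    exact congrArg Subtype.val (hcomm g hg h hh)
  have hα : Nonempty α := by
    by_contra hα
    apply hM
    rw [eq_bot_iff]
    intro m _
    rw [Subgroup.mem_bot]
    ext x
    exact (hα ⟨x⟩).elim
  have hCM : Subgroup.centralizer ((M.map G.subtype : Subgroup (Equiv.Perm α)) : Set (Equiv.Perm α))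
      = M.map G.subtype := by
    apply le_antisymm
    · intro c hc
      rw [Subgroup.mem_centralizer_iff] at hc
      obtain ⟨a⟩ := hα
      obtain ⟨n, hn, hna⟩ := hMT a (c a)
      have hn' := hn
      obtain ⟨n₀, hn₀, rfl⟩ := hn
      have h1 : (G.subtype n₀)⁻¹ * c = 1 := by
        apply eq_one_of_commute_of_fixed (M.map G.subtype) hMT _ _ a
        · simp [← hna]
        · rintro t ⟨m, hm, rfl⟩
          have e1 := hcomm' m hm n₀ hn₀
          have e2 := hc (G.subtype m) (Subgroup.mem_map_of_mem _ hm)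
          simp only [Subgroup.coe_subtype] at e2 ⊢
          rw [mul_assoc, ← e2, ← mul_assoc, ← mul_assoc]
          congr 1
          rw [inv_mul_eq_iff_eq_mul, ← mul_assoc, ← e1, mul_assoc, mul_inv_cancel, mul_one]
      have h2 : c = G.subtype n₀ := by
        rw [inv_mul_eq_one] at h1
        exact h1.symm
      rw [h2]
      exact hn'
    · rintro c ⟨n, hn, rfl⟩
      rw [Subgroup.mem_centralizer_iff]
      rintro t ⟨m, hm, rfl⟩
      exact hcomm' m hm n hn
  have hmapinj : ∀ A B : Subgroup G, A.map G.subtype ≤ B.map G.subtype → A ≤ B := by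
    intro A B h
    exact (Subgroup.map_le_map_iff_of_injective (Subgroup.subtype_injective G)).mp h
  refine ⟨hCM, ?_, ?_, ?_⟩
  · intro a
    rw [eq_bot_iff]
    intro n hn
    rw [MulAction.mem_stabilizer_iff] at hn
    rw [Subgroup.mem_bot]
    have : G.subtype n.1 = 1 := by
      apply eq_one_of_commute_of_fixed (M.map G.subtype) hMT _ _ a hn
      rintro t ⟨m, hm, rfl⟩
      exact hcomm' n.1 n.2 m hm
    ext x
    exact congrArg (fun f : Equiv.Perm α => f x) this
  · have hfin : Finite M := inferInstance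
    have hcard : Nat.card M ≠ 1 := by
      intro h
      exact hM ((Subgroup.eq_bot_iff_card M).mpr h)
    obtain ⟨p, hp, hpd⟩ := Nat.exists_prime_and_dvd hcard
    have : Fact p.Prime := ⟨hp⟩
    obtain ⟨x, hx⟩ := exists_prime_orderOf_dvd_card' (G := M) p hpd
    let L : Subgroup G :=
      { carrier := {g | g ∈ M ∧ g ^ p = 1}
        mul_mem' := by
          rintro g h ⟨hg, hg1⟩ ⟨hh, hh1⟩
          refine ⟨M.mul_mem hg hh, ?_⟩
          have hc : Commute g h := hcomm g hg h hh
          rw [hc.mul_pow, hg1, hh1, one_mul]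
        one_mem' := ⟨M.one_mem, one_pow _⟩
        inv_mem' := by
          rintro g ⟨hg, hg1⟩
          exact ⟨M.inv_mem hg, by rw [inv_pow, hg1, inv_one]⟩ }
    have hLn : L.Normal := by
      constructor
      rintro g ⟨hg, hg1⟩ y
      refine ⟨(inferInstance : M.Normal).conj_mem g hg y, ?_⟩
      rw [conj_pow, hg1, mul_one, mul_inv_cancel]
    have hLle : L ≤ M := fun g hg => hg.1
    have hxL : (x : G) ∈ L := by
      refine ⟨x.2, ?_⟩
      have := pow_orderOf_eq_one x
      rw [hx] at this
      exact congrArg Subtype.val this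
    have hLbot : L ≠ ⊥ := by
      intro h
      rw [h, Subgroup.mem_bot] at hxL
      have hx1 : x = 1 := Subtype.ext hxL
      rw [hx1, orderOf_one] at hx
      exact hp.one_lt.ne hx
    rcases hmin L hLn hLle with h | h
    · exact absurd h hLbot
    · refine ⟨p, hp, fun m hm => ?_⟩
      rw [← h] at hm
      exact hm.2
  · intro L hLn hL hLmin
    by_contra hcon
    have hLM : L ⊓ M = ⊥ := disj_of_min G L M hL hLmin hmin hcon
    have hML : M ⊓ L = ⊥ := by rw [inf_comm]; exact hLM
    apply hL
    have hle : L.map G.subtype ≤ M.map G.subtype := by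
      rw [← hCM]
      rintro c ⟨l, hl, rfl⟩
      rw [Subgroup.mem_centralizer_iff]
      rintro t ⟨m, hm, rfl⟩
      exact commute_of_disj G M L hML m hm l hl
    have hle' : L ≤ M := hmapinj L M hle
    rw [← hLM]
    exact (inf_eq_left.mpr hle').symm

end Cfsg.Agent.S0703
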