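import Mathlib
import Cfsg.Statements.S0705

set_option autoImplicit false
open Cfsg
open scoped Pointwise

namespace Cfsg.Agent.S0705

/-- swapping lemma -/
theorem star {α : Type*} [Fintype α] [DecidableEq α] (G : Subgroup (Equiv.Perm α)) {k : ℕ}
    (hk : k < Fintype.card α)
    (hgen : ∀ s : Finset α, s.card = k + 1 → ∀ σ : Equiv.Perm ↥s, ∃ g ∈ G, ∀ x : ↥s, g (x : α) = σ x)
    (a b : α) (T : Finset α) (haT : a ∉ T) (hbT : b ∉ T) (hT : T.card + 2 ≤ k + 1) :
    ∃ g ∈ G, g a = b ∧ ∀ t ∈ T, g t = t := by
  by_cases hab : a = b
  · exact ⟨1, G.one_mem, by simp [hab], fun t _ => rfl⟩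
  · have hU : (insert a (insert b T)).card ≤ k + 1 := by
      rw [Finset.card_insert_of_notMem, Finset.card_insert_of_notMem hbT]
      · omega
      · simp [hab, haT]
    obtain ⟨s, hUs, -, hs⟩ := Finset.exists_subsuperset_card_eq (Finset.subset_univ _) hU
      (by rw [Finset.card_univ]; omega)
    have has : a ∈ s := hUs (Finset.mem_insert_self _ _)
    have hbs : b ∈ s := hUs (Finset.mem_insert_of_mem (Finset.mem_insert_self _ _))
    obtain ⟨g, hg, hgs⟩ := hgen s hs (Equiv.swap ⟨a, has⟩ ⟨b, hbs⟩)
    refine ⟨g, hg, ?_, ?_⟩
    · have := hgs ⟨a, has⟩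
      rw [Equiv.swap_apply_left] at this
      exact this
    · intro t ht
      have hts : t ∈ s := hUs (Finset.mem_insert_of_mem (Finset.mem_insert_of_mem ht))
      have := hgs ⟨t, hts⟩
      rw [Equiv.swap_apply_of_ne_of_ne] at this
      · exact this
      · intro h
        apply haT
        have : t = a := congrArg Subtype.val h
        rw [← this]; exact ht
      · intro h
        apply hbT
        have : t = b := congrArg Subtype.val h
        rw [← this]; exact ht

/-- A generously `k`-transitive permutation group (every `(k+1)`-subset has its full symmetric group induced by the setwise stabiliser) of degree greater than `k` is `k`-transitive, and for a `k`-subset the setwise and pointwise stabilisers have the same orbits outside it. -/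
theorem result {α : Type*} [Fintype α] [DecidableEq α] (G : Subgroup (Equiv.Perm α)) {k : ℕ} (hk : k < Fintype.card α) (hgen : ∀ s : Finset α, s.card = k + 1 → ∀ σ : Equiv.Perm ↥s, ∃ g ∈ G, ∀ x : ↥s, g (x : α) = σ x) : MulAction.IsMultiplyPretransitive G α k ∧ ∀ s : Finset α, s.card = k → ∀ a b : α, a ∉ s → b ∉ s → (∃ g ∈ G, g • s = s ∧ g a = b) → ∃ g ∈ G, (∀ x ∈ s, g x = x) ∧ g a = b := by
  constructor
  · constructor
    intro x y
    have key : ∀ j : ℕ, j ≤ k → ∃ g ∈ G, ∀ i : Fin k, (i : ℕ) < j → g (x i) = y i := by
      intro j
      induction j with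
      | zero => intro _; exact ⟨1, G.one_mem, fun i hi => absurd hi (Nat.not_lt_zero _)⟩
      | succ j ih =>
        intro hj
        obtain ⟨g, hg, hgx⟩ := ih (by omega)
        let T : Finset α := (Finset.univ.filter (fun i : Fin k => (i : ℕ) < j)).image y
        have hTcard : T.card ≤ j := by
          calc T.card ≤ (Finset.univ.filter (fun i : Fin k => (i : ℕ) < j)).card :=
                Finset.card_image_le
            _ ≤ j := by
              have : (Finset.univ.filter (fun i : Fin k => (i : ℕ) < j)).card
                  ≤ (Finset.range j).card := by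
                apply Finset.card_le_card_of_injOn (fun i : Fin k => (i : ℕ))
                · intro i hi
                  simp only [Finset.coe_filter, Finset.mem_univ, true_and, Set.mem_ofPred_eq] at hi
                  simpa using hi
                · intro i _ i' _ h
                  exact Fin.ext h
              simpa using this
        have haT : g (x ⟨j, by omega⟩) ∉ T := by
          intro h
          simp only [T, Finset.mem_image, Finset.mem_filter, Finset.mem_univ, true_and] at h
          obtain ⟨i, hi, hyi⟩ := h
          rw [← hgx i hi] at hyi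
          have := x.injective (g.injective hyi)
          rw [this] at hi
          simp at hi
        have hbT : y ⟨j, by omega⟩ ∉ T := by
          intro h
          simp only [T, Finset.mem_image, Finset.mem_filter, Finset.mem_univ, true_and] at h
          obtain ⟨i, hi, hyi⟩ := h
          have := y.injective hyi
          rw [this] at hi
          simp at hi
        obtain ⟨h, hh, hab, hT⟩ := star G hk hgen _ _ T haT hbT (by omega)
        refine ⟨h * g, G.mul_mem hh hg, fun i hi => ?_⟩
        rw [Equiv.Perm.mul_apply]
        rcases Nat.lt_succ_iff_lt_or_eq.mp hi with hlt | heq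
        · rw [hgx i hlt]
          apply hT
          simp only [T, Finset.mem_image, Finset.mem_filter, Finset.mem_univ, true_and]
          exact ⟨i, hlt, rfl⟩
        · have : i = ⟨j, by omega⟩ := Fin.ext heq
          rw [this]
          exact hab
    obtain ⟨g, hg, hgx⟩ := key k le_rfl
    refine ⟨⟨g, hg⟩, ?_⟩
    ext i
    exact hgx i i.2
  · intro s hs a b has hbs ⟨g, hg, hgs, hgab⟩
    have hmem : ∀ x, g x ∈ s ↔ x ∈ s := by
      intro x
      have : g • x ∈ g • s ↔ x ∈ s := Finset.smul_mem_smul_finset_iff g
      rw [hgs] at this
      exact this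
    set c := g b with hc
    have hcs : c ∉ s := fun h => hbs ((hmem b).mp h)
    let f : Equiv.Perm α := Equiv.swap b c * g
    have hfs : ∀ x ∈ s, f x = g x := by
      intro x hx
      have h1 : g x ∈ s := (hmem x).mpr hx
      change Equiv.swap b c (g x) = g x
      apply Equiv.swap_apply_of_ne_of_ne
      · intro h; rw [h] at h1; exact hbs h1
      · intro h; rw [h] at h1; exact hcs h1
    have hfb : f b = b := by
      change Equiv.swap b c (g b) = b
      rw [← hc, Equiv.swap_apply_right]
    have hft : ∀ x, f x ∈ insert b s ↔ x ∈ insert b s := by
      intro x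
      by_cases hxb : x = b
      · rw [hxb, hfb]
      · have hne : f x ≠ b := by
          intro h
          rw [← hfb] at h
          exact hxb (f.injective h)
        simp only [Finset.mem_insert, hne, hxb, false_or]
        by_cases hxs : x ∈ s
        · rw [hfs x hxs]
          exact hmem x
        · constructor
          · intro hfx
            exfalso
            -- f x ∈ s, x ∉ s
            have hgx : g x ∉ s := fun h => hxs ((hmem x).mp h)
            have : f x = Equiv.swap b c (g x) := rfl
            by_cases hgxc : g x = c
            · apply hxb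
              exact g.injective hgxc
            · by_cases hgxb : g x = b
              · rw [this, hgxb, Equiv.swap_apply_left] at hfx
                exact hcs hfx
              · rw [this, Equiv.swap_apply_of_ne_of_ne hgxb hgxc] at hfx
                exact hgx hfx
          · intro h; exact absurd h hxs
    have hcard : (insert b s).card = k + 1 := by
      rw [Finset.card_insert_of_notMem hbs, hs]
    obtain ⟨h', hh', hh's⟩ := hgen (insert b s) hcard (f.subtypePerm hft)
    have h1 : ∀ x ∈ s, h' x = g x := by
      intro x hx
      have := hh's ⟨x, Finset.mem_insert_of_mem hx⟩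
      rw [Equiv.Perm.subtypePerm_apply] at this
      rw [this]
      exact hfs x hx
    have h2 : h' b = b := by
      have := hh's ⟨b, Finset.mem_insert_self _ _⟩
      rw [Equiv.Perm.subtypePerm_apply] at this
      rw [this]
      exact hfb
    refine ⟨h'⁻¹ * g, G.mul_mem (G.inv_mem hh') hg, ?_, ?_⟩
    · intro x hx
      rw [Equiv.Perm.mul_apply, ← h1 x hx, Equiv.Perm.inv_def, Equiv.symm_apply_apply]
    · rw [Equiv.Perm.mul_apply, hgab, Equiv.Perm.inv_eq_iff_eq]
      exact h2.symm

end Cfsg.Agent.S0705
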