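import Cfsg.Statements.S0706
import Mathlib

set_option autoImplicit false
open Cfsg

namespace Cfsg.Agent.S0706

theorem card_fixing_eq {α : Type*} [Fintype α] [DecidableEq α] (G : Subgroup (Equiv.Perm α))
    {k : ℕ}
    (hgen : ∀ s : Finset α, s.card = k + 1 → ∀ σ : Equiv.Perm ↥s, ∃ g ∈ G,
      ∀ x : ↥s, g (x : α) = σ x)
    (Γ : Finset α) (hΓ : Γ.card = k) :
    ∀ (n : ℕ) (Γ' : Finset α), Γ'.card = k → (Γ' \ Γ).card = n →
      Nat.card (fixingSubgroup G (Γ' : Set α)) = Nat.card (fixingSubgroup G (Γ : Set α)) := by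
  intro n
  induction n with
  | zero =>
    intro Γ' hΓ' h0
    have hsub : Γ' ⊆ Γ := by
      rw [Finset.card_eq_zero, Finset.sdiff_eq_empty_iff_subset] at h0
      exact h0
    have : Γ' = Γ := Finset.eq_of_subset_of_card_le hsub (by rw [hΓ, hΓ'])
    rw [this]
  | succ n ih =>
    intro Γ' hΓ' hn
    have hne : (Γ' \ Γ).Nonempty := by
      rw [← Finset.card_pos, hn]
      omega
    obtain ⟨x', hx'⟩ := hne
    rw [Finset.mem_sdiff] at hx'
    have hne2 : (Γ \ Γ').Nonempty := by
      rw [← Finset.card_pos]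
      have h1 := Finset.card_sdiff_add_card_inter Γ Γ'
      have h2 := Finset.card_sdiff_add_card_inter Γ' Γ
      rw [Finset.inter_comm] at h2
      omega
    obtain ⟨x, hx⟩ := hne2
    rw [Finset.mem_sdiff] at hx
    have hs : (insert x Γ').card = k + 1 := by
      rw [Finset.card_insert_of_notMem hx.2, hΓ']
    obtain ⟨g, hgG, hg⟩ := hgen (insert x Γ') hs
      (Equiv.swap ⟨x, Finset.mem_insert_self x Γ'⟩ ⟨x', Finset.mem_insert_of_mem hx'.1⟩)
    have hgx' : g x' = x := by
      have h := hg ⟨x', Finset.mem_insert_of_mem hx'.1⟩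
      rw [Equiv.swap_apply_right] at h
      exact h
    have hgfix : ∀ y ∈ Γ', y ≠ x' → g y = y := by
      intro y hy hyx'
      have h := hg ⟨y, Finset.mem_insert_of_mem hy⟩
      rw [Equiv.swap_apply_of_ne_of_ne] at h
      · exact h
      · intro h'
        have h'' : y = x := congrArg Subtype.val h'
        exact hx.2 (h'' ▸ hy)
      · intro h'
        exact hyx' (congrArg Subtype.val h')
    have hkpos : 0 < k := by
      rw [← hΓ']
      exact Finset.card_pos.mpr ⟨x', hx'.1⟩
    have hΓ'' : (insert x (Γ'.erase x')).card = k := by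
      rw [Finset.card_insert_of_notMem (fun h => hx.2 (Finset.mem_of_mem_erase h)),
        Finset.card_erase_of_mem hx'.1, hΓ']
      omega
    have hdiff : ((insert x (Γ'.erase x')) \ Γ).card = n := by
      have h1 : (insert x (Γ'.erase x')) \ Γ = (Γ' \ Γ).erase x' := by
        ext y
        simp only [Finset.mem_sdiff, Finset.mem_insert, Finset.mem_erase]
        constructor
        · rintro ⟨h1 | ⟨h1, h2⟩, h3⟩
          · exact absurd (h1 ▸ hx.1) h3
          · exact ⟨h1, h2, h3⟩
        · rintro ⟨h1, h2, h3⟩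
          exact ⟨Or.inr ⟨h1, h2⟩, h3⟩
      rw [h1, Finset.card_erase_of_mem (Finset.mem_sdiff.mpr hx'), hn]
      rfl
    rw [← ih _ hΓ'' hdiff]
    have hfwd : ∀ l : G, l ∈ fixingSubgroup G (Γ' : Set α) →
        (⟨g, hgG⟩ : G) * l * (⟨g, hgG⟩ : G)⁻¹ ∈
          fixingSubgroup G ((insert x (Γ'.erase x') : Finset α) : Set α) := by
      intro l hl
      rw [mem_fixingSubgroup_iff] at hl ⊢
      intro y hy
      have hy' : y = x ∨ (y ≠ x' ∧ y ∈ Γ') := by
        have : y ∈ insert x (Γ'.erase x') := hy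
        rw [Finset.mem_insert, Finset.mem_erase] at this
        exact this
      show g ((l : Equiv.Perm α) (g⁻¹ y)) = y
      rcases hy' with rfl | ⟨h1, h2⟩
      · have e1 : g⁻¹ y = x' := by rw [Equiv.Perm.inv_eq_iff_eq, hgx']
        have e2 : (l : Equiv.Perm α) x' = x' := hl x' hx'.1
        rw [e1, e2, hgx']
      · have e1 : g⁻¹ y = y := by rw [Equiv.Perm.inv_eq_iff_eq, hgfix y h2 h1]
        have e2 : (l : Equiv.Perm α) y = y := hl y h2
        rw [e1, e2, hgfix y h2 h1]
    have hbwd : ∀ l : G, l ∈ fixingSubgroup G ((insert x (Γ'.erase x') : Finset α) : Set α) →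
        (⟨g, hgG⟩ : G)⁻¹ * l * (⟨g, hgG⟩ : G) ∈ fixingSubgroup G (Γ' : Set α) := by
      intro l hl
      rw [mem_fixingSubgroup_iff] at hl ⊢
      intro y hy
      have hy' : y ∈ Γ' := hy
      show g⁻¹ ((l : Equiv.Perm α) (g y)) = y
      by_cases h1 : y = x'
      · subst h1
        have e2 : (l : Equiv.Perm α) x = x := hl x (by
          show x ∈ insert x (Γ'.erase y)
          exact Finset.mem_insert_self _ _)
        rw [hgx', e2, Equiv.Perm.inv_eq_iff_eq, hgx']
      · have e2 : (l : Equiv.Perm α) y = y := hl y (by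
          show y ∈ insert x (Γ'.erase x')
          exact Finset.mem_insert_of_mem (Finset.mem_erase.mpr ⟨h1, hy'⟩))
        rw [hgfix y hy' h1, e2, Equiv.Perm.inv_eq_iff_eq, hgfix y hy' h1]
    exact (Nat.card_congr (α := fixingSubgroup G (Γ' : Set α))
      (β := fixingSubgroup G ((insert x (Γ'.erase x') : Finset α) : Set α))
      { toFun := fun l => ⟨(⟨g, hgG⟩ : G) * (l : G) * (⟨g, hgG⟩ : G)⁻¹, hfwd (l : G) l.2⟩
        invFun := fun l => ⟨(⟨g, hgG⟩ : G)⁻¹ * (l : G) * (⟨g, hgG⟩ : G), hbwd (l : G) l.2⟩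
        left_inv := fun l => Subtype.ext (by simp [mul_assoc])
        right_inv := fun l => Subtype.ext (by simp [mul_assoc]) })

/-- In a generously `k`-transitive permutation group, for a prime `p ≤ k` and a `k`-set `Γ`, there are no `p` points outside `Γ` lying in distinct orbits of the pointwise stabiliser of `Γ` all of length prime to `p` (at most `p - 1` such orbits). -/
theorem result {α : Type*} [Fintype α] [DecidableEq α] (G : Subgroup (Equiv.Perm α)) {k : ℕ} (hk : k < Fintype.card α) (hgen : ∀ s : Finset α, s.card = k + 1 → ∀ σ : Equiv.Perm ↥s, ∃ g ∈ G, ∀ x : ↥s, g (x : α) = σ x) {p : ℕ} (hp : p.Prime) (hpk : p ≤ k) (Γ : Finset α) (hΓ : Γ.card = k) (f : Fin p → α) (hf : ∀ i, f i ∉ Γ) (hdist : ∀ i j, i ≠ j → f j ∉ MulAction.orbit (fixingSubgroup G (Γ : Set α)) (f i)) : ∃ i, p ∣ Nat.card (MulAction.orbit (fixingSubgroup G (Γ : Set α)) (f i)) := by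
  classical
  by_contra hcon
  push Not at hcon
  haveI : Fact p.Prime := ⟨hp⟩
  obtain ⟨C, hCΓ, hCcard⟩ := Finset.exists_subset_card_eq (hΓ ▸ hpk : p ≤ Γ.card)
  -- the p-cycle on C
  obtain ⟨τ, hτdef⟩ : ∃ τ : Equiv.Perm α, τ = C.toList.formPerm := ⟨_, rfl⟩
  have hnd : C.toList.Nodup := Finset.nodup_toList C
  have hlen : C.toList.length = p := by rw [Finset.length_toList, hCcard]
  have hτcyc : τ.IsCycle := by
    rw [hτdef]
    exact List.isCycle_formPerm hnd (by rw [hlen]; exact hp.two_le)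
  have hτout : ∀ x, x ∉ C → τ x = x := by
    intro x hx
    rw [hτdef]
    exact List.formPerm_apply_of_notMem (by simpa using hx)
  have hτin : ∀ x, x ∈ C → τ x ∈ C := by
    intro x hx
    have h := List.formPerm_apply_mem_of_mem (l := C.toList) (x := x) (by simpa using hx)
    rw [hτdef]
    exact Finset.mem_toList.mp h
  have hτne : ∀ x, x ∈ C → τ x ≠ x := by
    intro x hx
    have h := List.support_formPerm_of_nodup' C.toList hnd (by
      intro y hy
      have h' := congrArg List.length hy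
      rw [hlen] at h'
      have := hp.two_le
      simp at h'
      omega)
    have hx' : x ∈ {x | C.toList.formPerm x ≠ x} := by
      rw [h]
      simpa using hx
    rw [hτdef]
    exact hx'
  have hτord : orderOf τ = p := by
    rw [hτcyc.orderOf]
    have h : τ.support = C := by
      ext x
      rw [Equiv.Perm.mem_support]
      constructor
      · intro h
        by_contra hxC
        exact h (hτout x hxC)
      · exact hτne x
    rw [h, hCcard]
  have hτΓ : ∀ (j : ℕ) (x : α), x ∈ Γ → (τ ^ j) x ∈ Γ := by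
    intro j
    induction j with
    | zero => intro x hx; simpa using hx
    | succ j ih =>
      intro x hx
      rw [pow_succ, Equiv.Perm.mul_apply]
      apply ih
      by_cases hxC : x ∈ C
      · exact hCΓ (hτin x hxC)
      · rw [hτout x hxC]
        exact hx
  have hτoutpow : ∀ (j : ℕ) (x : α), x ∉ C → (τ ^ j) x = x := by
    intro j
    induction j with
    | zero => intro x _; simp
    | succ j ih =>
      intro x hx
      rw [pow_succ, Equiv.Perm.mul_apply, hτout x hx, ih x hx]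
  have hτinv : ∀ (j : ℕ) (x : α), (τ ^ j) ((τ ^ (j * (p - 1))) x) = x := by
    intro j x
    rw [← Equiv.Perm.mul_apply, ← pow_add]
    have h : j + j * (p - 1) = p * j := by
      obtain ⟨q, rfl⟩ : ∃ q, p = q + 1 := ⟨p - 1, by have := hp.one_le; omega⟩
      simp only [Nat.add_sub_cancel]
      ring
    rw [h, pow_mul, ← hτord, pow_orderOf_eq_one, one_pow, Equiv.Perm.one_apply]
  -- the elements t i
  have ht : ∀ i : Fin p, ∃ t ∈ G, (∀ x ∈ Γ, t x = τ x) ∧ t (f i) = f i := by
    intro i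
    have hs : (insert (f i) Γ).card = k + 1 := by
      rw [Finset.card_insert_of_notMem (hf i), hΓ]
    have hfC : f i ∉ C := fun h => hf i (hCΓ h)
    have hpres : ∀ x, τ x ∈ insert (f i) Γ ↔ x ∈ insert (f i) Γ := by
      intro x
      by_cases hxC : x ∈ C
      · constructor
        · intro _
          exact Finset.mem_insert_of_mem (hCΓ hxC)
        · intro _
          exact Finset.mem_insert_of_mem (hCΓ (hτin x hxC))
      · rw [hτout x hxC]
    obtain ⟨t, htG, ht⟩ := hgen (insert (f i) Γ) hs (τ.subtypePerm hpres)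
    refine ⟨t, htG, ?_, ?_⟩
    · intro x hx
      exact ht ⟨x, Finset.mem_insert_of_mem hx⟩
    · have h := ht ⟨f i, Finset.mem_insert_self _ _⟩
      rw [Equiv.Perm.subtypePerm_apply] at h
      simp only at h
      rw [h, hτout _ hfC]
  choose t htG htΓ htf using ht
  have htpow : ∀ (i : Fin p) (j : ℕ) (x : α), x ∈ Γ → ((t i) ^ j) x = (τ ^ j) x := by
    intro i j
    induction j with
    | zero => intro x _; simp
    | succ j ih =>
      intro x hx
      rw [pow_succ, Equiv.Perm.mul_apply, pow_succ, Equiv.Perm.mul_apply, htΓ i x hx]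
      apply ih
      by_cases hxC : x ∈ C
      · exact hCΓ (hτin x hxC)
      · rw [hτout x hxC]
        exact hx
  have htfpow : ∀ (i : Fin p) (j : ℕ), ((t i) ^ j) (f i) = f i := by
    intro i j
    induction j with
    | zero => simp
    | succ j ih => rw [pow_succ, Equiv.Perm.mul_apply, htf, ih]
  -- the subgroup Y₀
  let Y₀ : Subgroup G :=
    { carrier := {g | ∃ j : ℕ, ∀ x ∈ Γ, (g : Equiv.Perm α) x = (τ ^ j) x}
      one_mem' := ⟨0, fun x _ => by simp⟩
      mul_mem' := by
        rintro a b ⟨j, hj⟩ ⟨j', hj'⟩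
        refine ⟨j + j', fun x hx => ?_⟩
        rw [Subgroup.coe_mul, Equiv.Perm.mul_apply, hj' x hx, hj _ (hτΓ j' x hx), pow_add,
          Equiv.Perm.mul_apply]
      inv_mem' := by
        rintro a ⟨j, hj⟩
        refine ⟨j * (p - 1), fun x hx => ?_⟩
        have h1 : (a : Equiv.Perm α) ((τ ^ (j * (p - 1))) x) = x := by
          rw [hj _ (hτΓ _ x hx), hτinv]
        rw [Subgroup.coe_inv, Equiv.Perm.inv_eq_iff_eq]
        exact h1.symm }
  have hY₀mem : ∀ g : G, g ∈ Y₀ ↔ ∃ j : ℕ, ∀ x ∈ Γ, (g : Equiv.Perm α) x = (τ ^ j) x :=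
    fun g => Iff.rfl
  have hLmem : ∀ g : G, g ∈ fixingSubgroup G (Γ : Set α) ↔ ∀ x ∈ Γ, (g : Equiv.Perm α) x = x := by
    intro g
    rw [mem_fixingSubgroup_iff]
    rfl
  have hLY : fixingSubgroup G (Γ : Set α) ≤ Y₀ := by
    intro g hg
    rw [hLmem] at hg
    exact ⟨0, fun x hx => by rw [hg x hx]; simp⟩
  have htY : ∀ (i : Fin p) (j : ℕ), (⟨t i, htG i⟩ : G) ^ j ∈ Y₀ := by
    intro i j
    refine ⟨j, fun x hx => ?_⟩
    rw [Subgroup.coe_pow]
    exact htpow i j x hx
  -- invariance of the orbits under Y₀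
  have hinv : ∀ (i : Fin p) (g : G), g ∈ Y₀ →
      ∀ x ∈ MulAction.orbit (fixingSubgroup G (Γ : Set α)) (f i),
        (g : Equiv.Perm α) x ∈ MulAction.orbit (fixingSubgroup G (Γ : Set α)) (f i) := by
    rintro i g ⟨j, hj⟩ _ ⟨l, rfl⟩
    have hl := (hLmem l).mp l.2
    have hcoe : ((g * (l : G) * ((⟨t i, htG i⟩ : G) ^ j)⁻¹ : G) : Equiv.Perm α) =
        (g : Equiv.Perm α) * ((l : G) : Equiv.Perm α) * ((t i) ^ j)⁻¹ := rfl
    refine ⟨⟨g * (l : G) * ((⟨t i, htG i⟩ : G) ^ j)⁻¹, ?_⟩, ?_⟩
    · rw [hLmem]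
      intro y hy
      rw [hcoe, Equiv.Perm.mul_apply, Equiv.Perm.mul_apply]
      have e1 : ((t i) ^ j)⁻¹ y = (τ ^ (j * (p - 1))) y := by
        rw [Equiv.Perm.inv_eq_iff_eq, htpow i j _ (hτΓ _ y hy), hτinv]
      rw [e1, hl _ (hτΓ _ y hy), hj _ (hτΓ _ y hy), hτinv]
    · show ((g * (l : G) * ((⟨t i, htG i⟩ : G) ^ j)⁻¹ : G) : Equiv.Perm α) (f i) =
        (g : Equiv.Perm α) (((l : G) : Equiv.Perm α) (f i))
      rw [hcoe, Equiv.Perm.mul_apply, Equiv.Perm.mul_apply]
      have e1 : ((t i) ^ j)⁻¹ (f i) = f i := by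
        rw [Equiv.Perm.inv_eq_iff_eq, htfpow]
      rw [e1]
  -- card Y₀ = p * card L
  have hCne : C.Nonempty := by
    rw [← Finset.card_pos, hCcard]
    exact hp.pos
  obtain ⟨c₀, hc₀⟩ := hCne
  have hcardY : Nat.card Y₀ = Nat.card (fixingSubgroup G (Γ : Set α)) * p := by
    have h1 := Subgroup.card_mul_index (MulAction.stabilizer Y₀ c₀)
    rw [MulAction.index_stabilizer] at h1
    have h2 : MulAction.orbit Y₀ c₀ = (C : Set α) := by
      ext c
      constructor
      · rintro ⟨g, rfl⟩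
        obtain ⟨j, hj⟩ := g.2
        show ((g : G) : Equiv.Perm α) c₀ ∈ C
        rw [hj c₀ (hCΓ hc₀)]
        clear hj
        induction j with
        | zero => simpa using hc₀
        | succ j ih =>
          rw [pow_succ', Equiv.Perm.mul_apply]
          exact hτin _ ih
      · intro hc
        obtain ⟨j, hj⟩ := hτcyc.exists_pow_eq (hτne c₀ hc₀) (hτne c hc)
        refine ⟨⟨(⟨t ⟨0, hp.pos⟩, htG _⟩ : G) ^ j, htY _ j⟩, ?_⟩
        show (((⟨t ⟨0, hp.pos⟩, htG _⟩ : G) ^ j : G) : Equiv.Perm α) c₀ = c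
        rw [Subgroup.coe_pow]
        show ((t ⟨0, hp.pos⟩) ^ j) c₀ = c
        rw [htpow _ j c₀ (hCΓ hc₀), hj]
    rw [h2, Set.ncard_coe_finset, hCcard] at h1
    rw [← h1]
    congr 1
    refine Nat.card_congr
      { toFun := fun s => ⟨((s : Y₀) : G), ?_⟩
        invFun := fun l => ⟨⟨(l : G), hLY l.2⟩, ?_⟩
        left_inv := fun s => rfl
        right_inv := fun l => rfl }
    · rw [hLmem]
      obtain ⟨j, hj⟩ := (s : Y₀).2
      have hs : (((s : Y₀) : G) : Equiv.Perm α) c₀ = c₀ := s.2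
      rw [hj c₀ (hCΓ hc₀)] at hs
      have hτj : τ ^ j = 1 := (hτcyc.pow_eq_one_iff' (hτne c₀ hc₀)).mpr hs
      intro x hx
      rw [hj x hx, hτj, Equiv.Perm.one_apply]
    · rw [MulAction.mem_stabilizer_iff]
      exact (hLmem l).mp l.2 c₀ (hCΓ hc₀)
  -- Sylow subgroup and its fixed points
  obtain ⟨S⟩ : Nonempty (Sylow p Y₀) := inferInstance
  have hz : ∀ i : Fin p, ∃ z : α, z ∈ MulAction.orbit (fixingSubgroup G (Γ : Set α)) (f i) ∧
      ∀ s : Y₀, s ∈ (S : Subgroup Y₀) → ((s : G) : Equiv.Perm α) z = z := by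
    intro i
    let O : SubMulAction Y₀ α :=
      { carrier := MulAction.orbit (fixingSubgroup G (Γ : Set α)) (f i)
        smul_mem' := fun g x hx => hinv i g g.2 x hx }
    have hO : ¬ p ∣ Nat.card O := hcon i
    obtain ⟨z, hz⟩ := IsPGroup.nonempty_fixed_point_of_prime_not_dvd_card S.isPGroup' O hO
    refine ⟨(z : α), z.2, ?_⟩
    intro s hs
    have := hz ⟨s, hs⟩
    exact congrArg Subtype.val this
  choose z hzO hzfix using hz
  have hzΓ : ∀ i, z i ∉ Γ := by
    intro i hzi
    obtain ⟨l, hl⟩ := hzO i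
    have hl' : ((l : G) : Equiv.Perm α) (f i) = z i := hl
    have h1 : ((l : G) : Equiv.Perm α) (z i) = z i := (hLmem l).mp l.2 _ hzi
    have h2 : f i = z i := by
      apply ((l : G) : Equiv.Perm α).injective
      rw [hl', h1]
    exact hf i (h2 ▸ hzi)
  have hzinj : Function.Injective z := by
    intro i j hij
    by_contra hne
    apply hdist i j hne
    have h1 : MulAction.orbit (fixingSubgroup G (Γ : Set α)) (z i) =
        MulAction.orbit (fixingSubgroup G (Γ : Set α)) (f i) := MulAction.orbit_eq_iff.mpr (hzO i)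
    have h2 : MulAction.orbit (fixingSubgroup G (Γ : Set α)) (z j) =
        MulAction.orbit (fixingSubgroup G (Γ : Set α)) (f j) := MulAction.orbit_eq_iff.mpr (hzO j)
    rw [← h1, hij, h2]
    exact MulAction.mem_orbit_self _
  -- the new k-set
  have hdisj : Disjoint (Γ \ C) (Finset.image z Finset.univ) := by
    rw [Finset.disjoint_left]
    intro x hx hx'
    obtain ⟨i, -, rfl⟩ := Finset.mem_image.mp hx'
    exact hzΓ i (Finset.mem_sdiff.mp hx).1
  have hcard' : ((Γ \ C) ∪ Finset.image z Finset.univ).card = k := by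
    rw [Finset.card_union_of_disjoint hdisj, Finset.card_sdiff_of_subset hCΓ,
      Finset.card_image_of_injective _ hzinj, Finset.card_univ, Fintype.card_fin, hΓ, hCcard]
    omega
  have hcardL' := card_fixing_eq G hgen Γ hΓ _ _ hcard' rfl
  have hSle : (S : Subgroup Y₀).map Y₀.subtype ≤
      fixingSubgroup G (((Γ \ C) ∪ Finset.image z Finset.univ : Finset α) : Set α) := by
    rintro _ ⟨s, hs, rfl⟩
    rw [mem_fixingSubgroup_iff]
    intro y hy
    have hy' : y ∈ (Γ \ C) ∪ Finset.image z Finset.univ := hy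
    show ((s : G) : Equiv.Perm α) y = y
    rcases Finset.mem_union.mp hy' with h | h
    · obtain ⟨j, hj⟩ := s.2
      rw [Finset.mem_sdiff] at h
      rw [hj y h.1, hτoutpow j y h.2]
    · obtain ⟨i, -, rfl⟩ := Finset.mem_image.mp h
      exact hzfix i s hs
  have hdvd := Subgroup.card_dvd_of_le hSle
  rw [Subgroup.card_map_of_injective (Subgroup.subtype_injective Y₀), hcardL',
    Sylow.card_eq_multiplicity, hcardY] at hdvd
  have hLne : Nat.card (fixingSubgroup G (Γ : Set α)) ≠ 0 := Nat.card_pos.ne'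
  rw [Nat.factorization_mul hLne hp.ne_zero, Finsupp.add_apply, hp.factorization_self] at hdvd
  exact Nat.pow_succ_factorization_not_dvd hLne hp hdvd

end Cfsg.Agent.S0706
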