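import Mathlib
import Cfsg.Statements.S0707

set_option autoImplicit false
open Cfsg

namespace Cfsg.Agent.S0707

theorem prime_card_of_isCoatom_bot {G : Type*} [Group G] (h : IsCoatom (⊥ : Subgroup G)) :
    (Nat.card G).Prime := by
  have hsimple : ∀ K : Subgroup G, K = ⊥ ∨ K = ⊤ := fun K => by
    by_cases hK : K = ⊥
    · left; exact hK
    · right; exact h.2 K (bot_lt_iff_ne_bot.mpr hK)
  have hne : (⊥ : Subgroup G) ≠ ⊤ := h.1
  obtain ⟨g, hg⟩ : ∃ g : G, g ≠ 1 := by
    by_contra hcon
    push Not at hcon
    apply hne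
    ext x
    simp [hcon x]
  have hz : ∀ x : G, x ≠ 1 → Subgroup.zpowers x = ⊤ := fun x hx =>
    (hsimple _).resolve_left (by rw [Subgroup.zpowers_eq_bot]; exact hx)
  have hord : orderOf g ≠ 0 := by
    intro h0
    have hg2 : g ^ 2 ≠ 1 := by
      intro h2
      have := orderOf_dvd_of_pow_eq_one h2
      rw [h0] at this
      simp at this
    have hmem : g ∈ Subgroup.zpowers (g ^ 2) := by rw [hz (g ^ 2) hg2]; trivial
    obtain ⟨k, hk⟩ := Subgroup.mem_zpowers_iff.mp hmem
    have h3 : g ^ (2 * k - 1) = 1 := by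
      rw [zpow_sub, zpow_mul, zpow_one, zpow_ofNat, hk, mul_inv_cancel]
    have h4 : IsOfFinOrder g := isOfFinOrder_iff_zpow_eq_one.mpr ⟨2 * k - 1, by omega, h3⟩
    exact h4.orderOf_pos.ne' h0
  have hcard : Nat.card G = orderOf g := by
    rw [← Nat.card_zpowers g, hz g hg, Subgroup.card_top]
  rw [hcard]
  have h1 : orderOf g ≠ 1 := by
    intro h1
    exact hg (orderOf_eq_one_iff.mp h1)
  have hq := Nat.minFac_prime h1
  have hqd := Nat.minFac_dvd (orderOf g)
  by_cases hx : g ^ (orderOf g).minFac = 1
  · have := orderOf_dvd_of_pow_eq_one hx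
    have h5 : orderOf g = (orderOf g).minFac := Nat.dvd_antisymm this hqd
    rw [h5]; exact hq
  · exfalso
    have h6 := hz _ hx
    have h7 : orderOf (g ^ (orderOf g).minFac) = orderOf g := by
      rw [← Nat.card_zpowers, h6, Subgroup.card_top, hcard]
    rw [orderOf_pow' _ hq.ne_zero, Nat.gcd_eq_right hqd] at h7
    have h8 : orderOf g / (orderOf g).minFac < orderOf g :=
      Nat.div_lt_self (Nat.pos_of_ne_zero hord) hq.one_lt
    omega

/-- In a primitive permutation group that is not regular of prime degree, distinct points have distinct stabilisers. -/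
theorem result {α : Type*} (G : Subgroup (Equiv.Perm α)) [MulAction.IsPreprimitive G α] (h : ¬ (Nat.card α).Prime ∨ ∃ a : α, MulAction.stabilizer G a ≠ ⊥) {a b : α} (hab : a ≠ b) : MulAction.stabilizer G a ≠ MulAction.stabilizer G b := by
  intro heq
  have hnt : Nontrivial α := ⟨⟨a, b, hab⟩⟩
  have hco : IsCoatom (MulAction.stabilizer G a) :=
    MulAction.IsPreprimitive.isCoatom_stabilizer_of_isPreprimitive (G := G) a
  obtain ⟨g, hg⟩ := MulAction.exists_smul_eq G a b
  have hgn : g ∈ Subgroup.normalizer (MulAction.stabilizer G a : Set G) := by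
    rw [Subgroup.mem_normalizer_iff]
    intro k
    constructor
    · intro hk
      rw [heq, MulAction.mem_stabilizer_iff, ← hg, mul_smul, mul_smul, inv_smul_smul]
      rw [MulAction.mem_stabilizer_iff] at hk
      rw [hk]
    · intro hk
      rw [heq, MulAction.mem_stabilizer_iff, ← hg, mul_smul, mul_smul, inv_smul_smul] at hk
      rw [MulAction.mem_stabilizer_iff]
      exact smul_left_cancel g hk
  have hgS : g ∉ MulAction.stabilizer G a := by
    intro hgS
    rw [MulAction.mem_stabilizer_iff] at hgS
    exact hab (hgS.symm.trans hg)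
  have hlt : MulAction.stabilizer G a < Subgroup.normalizer (MulAction.stabilizer G a : Set G) :=
    lt_of_le_of_ne Subgroup.le_normalizer (fun h' => hgS (by rw [h']; exact hgn))
  have hnorm : (MulAction.stabilizer G a).Normal :=
    Subgroup.normalizer_eq_top_iff.mp (hco.2 _ hlt)
  have hbot : MulAction.stabilizer G a = ⊥ := by
    rw [eq_bot_iff]
    intro s hs
    rw [Subgroup.mem_bot]
    ext x
    obtain ⟨k, rfl⟩ := MulAction.exists_smul_eq G a x
    have h1 := hnorm.conj_mem s hs k⁻¹
    rw [MulAction.mem_stabilizer_iff, mul_smul, mul_smul, inv_inv] at h1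
    have h2 : s • k • a = k • a := by
      have := congrArg (fun y => k • y) h1
      simpa using this
    exact h2
  have hall : ∀ x : α, MulAction.stabilizer G x = ⊥ := by
    intro x
    obtain ⟨k, rfl⟩ := MulAction.exists_smul_eq G a x
    rw [MulAction.stabilizer_smul_eq_stabilizer_map_conj, hbot, Subgroup.map_bot]
  rcases h with h | ⟨x, hx⟩
  · apply h
    have h1 : Nat.card α = Nat.card G := by
      rw [← MulAction.index_stabilizer_of_transitive G a, hbot, Subgroup.index_bot]
    rw [h1]
    apply prime_card_of_isCoatom_bot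
    rw [← hbot]
    exact hco
  · exact hx (hall x)

end Cfsg.Agent.S0707
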