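import Mathlib
import Cfsg.Statements.S0709

set_option autoImplicit false
set_option linter.unusedSectionVars false
open Cfsg

namespace Cfsg.Agent.S0709

section

variable {α : Type*}

theorem perm_inv_apply (f : Equiv.Perm α) (x : α) : f⁻¹ (f x) = x :=
  Equiv.symm_apply_apply f x

theorem perm_apply_inv (f : Equiv.Perm α) (x : α) : f (f⁻¹ x) = x :=
  Equiv.apply_symm_apply f x

/-- one step of Witt's lemma: `K ∪ K s K` is a group -/
theorem step (K : Subgroup (Equiv.Perm α)) (s u : Equiv.Perm α) (a : α)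
    (hdc : ∀ g ∈ K, g a ≠ a → ∃ g1 ∈ K, ∃ g2 ∈ K, g1 a = a ∧ g2 a = a ∧ g = g1 * u * g2)
    (hss : s * s ∈ K)
    (hnorm : ∀ g ∈ K, g a = a → s * g * s⁻¹ ∈ K)
    (hsus : ∃ k1 ∈ K, ∃ k2 ∈ K, s * u * s = k1 * s * k2) :
    ∀ m ∈ Subgroup.closure ((K : Set (Equiv.Perm α)) ∪ {s}),
      m ∈ K ∨ ∃ k1 ∈ K, ∃ k2 ∈ K, m = k1 * s * k2 := by
  obtain ⟨M, hM⟩ : ∃ M : Equiv.Perm α → Prop,
      M = fun m => m ∈ K ∨ ∃ k1 ∈ K, ∃ k2 ∈ K, m = k1 * s * k2 := ⟨_, rfl⟩
  have hKM : ∀ k ∈ K, ∀ m, M m → M (k * m) := by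
    intro k hk m hm
    rw [hM] at hm ⊢
    rcases hm with hm | ⟨k1, hk1, k2, hk2, rfl⟩
    · exact Or.inl (K.mul_mem hk hm)
    · exact Or.inr ⟨k * k1, K.mul_mem hk hk1, k2, hk2, by group⟩
  have hMK : ∀ m, M m → ∀ k ∈ K, M (m * k) := by
    intro m hm k hk
    rw [hM] at hm ⊢
    rcases hm with hm | ⟨k1, hk1, k2, hk2, rfl⟩
    · exact Or.inl (K.mul_mem hm hk)
    · exact Or.inr ⟨k1, hk1, k2 * k, K.mul_mem hk2 hk, by group⟩
  have hnorm' : ∀ g ∈ K, g a = a → s⁻¹ * g * s ∈ K := by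
    intro g hg hga
    have h1 : s⁻¹ * g * s = (s * s)⁻¹ * (s * g * s⁻¹) * (s * s) := by group
    rw [h1]
    exact K.mul_mem (K.mul_mem (K.inv_mem hss) (hnorm g hg hga)) hss
  have hsK : ∀ k ∈ K, M (s * k * s) := by
    intro k hk
    by_cases hka : k a = a
    · rw [hM]
      left
      have h1 : s * k * s = (s * k * s⁻¹) * (s * s) := by group
      rw [h1]
      exact K.mul_mem (hnorm k hk hka) hss
    · obtain ⟨g1, hg1, g2, hg2, hg1a, hg2a, rfl⟩ := hdc k hk hka
      obtain ⟨k1, hk1, k2, hk2, hsus⟩ := hsus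
      have h1 : s * (g1 * u * g2) * s = (s * g1 * s⁻¹) * (s * u * s) * (s⁻¹ * g2 * s) := by group
      rw [h1, hsus, hM]
      right
      exact ⟨s * g1 * s⁻¹ * k1, K.mul_mem (hnorm g1 hg1 hg1a) hk1, k2 * (s⁻¹ * g2 * s),
        K.mul_mem hk2 (hnorm' g2 hg2 hg2a), by group⟩
  have hsM : ∀ m, M m → M (s * m) := by
    intro m hm
    have hm' := hm
    rw [hM] at hm'
    rcases hm' with hm' | ⟨k1, hk1, k2, hk2, rfl⟩
    · rw [hM]
      exact Or.inr ⟨1, K.one_mem, m, hm', by group⟩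
    · have h1 : s * (k1 * s * k2) = (s * k1 * s) * k2 := by group
      rw [h1]
      exact hMK _ (hsK k1 hk1) k2 hk2
  have hmul : ∀ m m', M m → M m' → M (m * m') := by
    intro m m' hm hm'
    have hm2 := hm
    rw [hM] at hm2
    rcases hm2 with hm2 | ⟨k1, hk1, k2, hk2, rfl⟩
    · exact hKM m hm2 m' hm'
    · have h1 : k1 * s * k2 * m' = k1 * (s * (k2 * m')) := by group
      rw [h1]
      exact hKM k1 hk1 _ (hsM _ (hKM k2 hk2 m' hm'))
  have hinv : ∀ m, M m → M m⁻¹ := by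
    intro m hm
    rw [hM] at hm ⊢
    rcases hm with hm | ⟨k1, hk1, k2, hk2, rfl⟩
    · exact Or.inl (K.inv_mem hm)
    · exact Or.inr ⟨k2⁻¹ * (s * s)⁻¹, K.mul_mem (K.inv_mem hk2) (K.inv_mem hss), k1⁻¹,
        K.inv_mem hk1, by group⟩
  intro m hm
  have : M m := by
    refine Subgroup.closure_induction (p := fun x _ => M x) ?_ ?_ ?_ ?_ hm
    · intro x hx
      rcases hx with hx | hx
      · rw [hM]
        exact Or.inl hx
      · rw [Set.mem_singleton_iff] at hx
        rw [hx, hM]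
        exact Or.inr ⟨1, K.one_mem, 1, K.one_mem, by group⟩
    · rw [hM]
      exact Or.inl K.one_mem
    · intro x y _ _ hx hy
      exact hmul x y hx hy
    · intro x _ hx
      exact hinv x hx
  rw [hM] at this
  exact this

/-- transitivity on injective `k`-tuples of points of `S` -/
def Trans (K : Subgroup (Equiv.Perm α)) (k : ℕ) (S : Set α) : Prop :=
  ∀ x y : Fin k → α, Function.Injective x → Function.Injective y → (∀ i, x i ∈ S) →
    (∀ i, y i ∈ S) → ∃ g ∈ K, ∀ i, g (x i) = y i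

theorem trans_succ (K M : Subgroup (Equiv.Perm α)) (k : ℕ) (S : Set α) (b : α) (hKM : K ≤ M)
    (hKb : ∀ g ∈ K, g b = b)
    (hMS : ∀ g ∈ M, ∀ c, c ∈ S ∨ c = b → g c ∈ S ∨ g c = b)
    (htr : ∀ c, c ∈ S → ∃ g ∈ M, g c = b) (hK : Trans K k S) :
    Trans M (k + 1) {c | c ∈ S ∨ c = b} := by
  intro x y hx hy hxS hyS
  have hex : ∀ z : Fin (k + 1) → α, Function.Injective z → (∀ i, z i ∈ {c | c ∈ S ∨ c = b}) →
      ∃ g ∈ M, g (z (Fin.last k)) = b ∧ Function.Injective (fun i : Fin k => g (z i.castSucc)) ∧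
        ∀ i : Fin k, g (z i.castSucc) ∈ S := by
    intro z hz hzS
    obtain ⟨g, hg, hgb⟩ : ∃ g ∈ M, g (z (Fin.last k)) = b := by
      rcases hzS (Fin.last k) with h | h
      · exact htr _ h
      · exact ⟨1, M.one_mem, h⟩
    refine ⟨g, hg, hgb, ?_, ?_⟩
    · intro i j hij
      have h1 := hz (g.injective hij)
      exact Fin.castSucc_injective k h1
    · intro i
      rcases hMS g hg _ (hzS i.castSucc) with h | h
      · exact h
      · exfalso
        rw [← hgb] at h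
        have h1 := hz (g.injective h)
        exact Fin.castSucc_ne_last i h1
  obtain ⟨g1, hg1, hg1b, hinj1, hS1⟩ := hex x hx hxS
  obtain ⟨g2, hg2, hg2b, hinj2, hS2⟩ := hex y hy hyS
  obtain ⟨h, hh, hhxy⟩ := hK _ _ hinj1 hinj2 hS1 hS2
  refine ⟨g2⁻¹ * h * g1, M.mul_mem (M.mul_mem (M.inv_mem hg2) (hKM hh)) hg1, ?_⟩
  intro i
  refine Fin.lastCases ?_ (fun j => ?_) i
  · rw [Equiv.Perm.mul_apply, Equiv.Perm.mul_apply, hg1b, hKb h hh, ← hg2b, perm_inv_apply]
  · rw [Equiv.Perm.mul_apply, Equiv.Perm.mul_apply]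
    have h3 : h (g1 (x j.castSucc)) = g2 (y j.castSucc) := hhxy j
    rw [h3, perm_inv_apply]

end

/-- Witt's Lemma for constructing transitive extensions. Points `q 1, …, q t` (`t ≥ 2`) of a finite set are given; `G` fixes `q i` for `i ≥ 3` and is doubly transitive on the remaining points; `s 1 ∈ G` swaps `q 1, q 2`; for `2 ≤ i ≤ t-1`, `s i` swaps `q i, q (i+1)` and fixes the other `q j`; with `H` the stabiliser of `q 1, q 2` in `G`: `s i ^ 2 ∈ H`, `(s i * s (i+1)) ^ 3 ∈ H`, `(s i * s j) ^ 2 ∈ H` for `j ≥ i + 2`, and `s i` (`i ≥ 2`) normalises the stabiliser of `q 2` in `G`. Then `G` and the `s i` generate a `t`-transitive group whose pointwise stabiliser of the `q`'s is `H`. -/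
theorem result {α : Type*} [Fintype α] [DecidableEq α] (t : ℕ) (ht : 2 ≤ t) (q : ℕ → α) (hq : ∀ i j : ℕ, 1 ≤ i → i ≤ t → 1 ≤ j → j ≤ t → q i = q j → i = j) (G : Subgroup (Equiv.Perm α)) (hfix : ∀ g ∈ G, ∀ i : ℕ, 3 ≤ i → i ≤ t → g (q i) = q i) (h2 : ∀ a b c d : α, (∀ i, 3 ≤ i → i ≤ t → a ≠ q i ∧ b ≠ q i ∧ c ≠ q i ∧ d ≠ q i) → a ≠ b → c ≠ d → ∃ g ∈ G, g a = c ∧ g b = d) (s : ℕ → Equiv.Perm α) (hs1 : s 1 ∈ G) (hs1q : s 1 (q 1) = q 2 ∧ s 1 (q 2) = q 1) (hsq : ∀ i : ℕ, 2 ≤ i → i + 1 ≤ t → s i (q i) = q (i + 1) ∧ s i (q (i + 1)) = q i ∧ ∀ j : ℕ, 1 ≤ j → j ≤ t → j ≠ i → j ≠ i + 1 → s i (q j) = q j) (H : Subgroup (Equiv.Perm α)) (hH : H = G ⊓ MulAction.stabilizer (Equiv.Perm α) (q 1) ⊓ MulAction.stabilizer (Equiv.Perm α) (q 2)) (hsq2 : ∀ i : ℕ, 1 ≤ i → i + 1 ≤ t → s i ^ 2 ∈ H) (hbraid : ∀ i : ℕ, 1 ≤ i → i + 2 ≤ t → (s i * s (i + 1)) ^ 3 ∈ H) (hcomm : ∀ i j : ℕ, 1 ≤ i → i + 2 ≤ j → j + 1 ≤ t → (s i * s j) ^ 2 ∈ H ∧ (s j * s i) ^ 2 ∈ H) (hnorm : ∀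 i : ℕ, 2 ≤ i → i + 1 ≤ t → ∀ g ∈ G ⊓ MulAction.stabilizer (Equiv.Perm α) (q 2), s i * g * (s i)⁻¹ ∈ G ⊓ MulAction.stabilizer (Equiv.Perm α) (q 2)) : MulAction.IsMultiplyPretransitive ↥(Subgroup.closure ((G : Set (Equiv.Perm α)) ∪ {x | ∃ i : ℕ, 2 ≤ i ∧ i + 1 ≤ t ∧ x = s i})) α t ∧ Subgroup.closure ((G : Set (Equiv.Perm α)) ∪ {x | ∃ i : ℕ, 2 ≤ i ∧ i + 1 ≤ t ∧ x = s i}) ⊓ fixingSubgroup (Equiv.Perm α) {x | ∃ i : ℕ, 1 ≤ i ∧ i ≤ t ∧ x = q i} = H := by
  classical
  have hqne : ∀ i j : ℕ, 1 ≤ i → i ≤ t → 1 ≤ j → j ≤ t → i ≠ j → q i ≠ q j :=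
    fun i j h1 h2 h3 h4 hij h => hij (hq i j h1 h2 h3 h4 h)
  have hHmem : ∀ g, g ∈ H ↔ g ∈ G ∧ g (q 1) = q 1 ∧ g (q 2) = q 2 := by
    intro g
    rw [hH, Subgroup.mem_inf, Subgroup.mem_inf, MulAction.mem_stabilizer_iff,
      MulAction.mem_stabilizer_iff]
    exact and_assoc
  have hHG : H ≤ G := fun g hg => ((hHmem g).mp hg).1
  obtain ⟨Gk, hGk⟩ : ∃ Gk : ℕ → Subgroup (Equiv.Perm α), Gk = fun k =>
      Subgroup.closure ((G : Set (Equiv.Perm α)) ∪ {x | ∃ i : ℕ, 2 ≤ i ∧ i + 1 ≤ k ∧ x = s i}) :=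
    ⟨_, rfl⟩
  have hGkdef : ∀ k, Gk k = Subgroup.closure ((G : Set (Equiv.Perm α)) ∪
      {x | ∃ i : ℕ, 2 ≤ i ∧ i + 1 ≤ k ∧ x = s i}) := fun k => by rw [hGk]
  have hGle : ∀ k, G ≤ Gk k := by
    intro k g hg
    rw [hGkdef]
    exact Subgroup.subset_closure (Or.inl hg)
  have hsmem : ∀ k i, 2 ≤ i → i + 1 ≤ k → s i ∈ Gk k := by
    intro k i h1 h2
    rw [hGkdef]
    exact Subgroup.subset_closure (Or.inr ⟨i, h1, h2, rfl⟩)
  have hG2 : Gk 2 = G := by
    rw [hGkdef]
    have : {x : Equiv.Perm α | ∃ i : ℕ, 2 ≤ i ∧ i + 1 ≤ 2 ∧ x = s i} = ∅ := by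
      apply Set.eq_empty_of_forall_notMem
      rintro x ⟨i, h1, h2, -⟩
      omega
    rw [this, Set.union_empty, Subgroup.closure_eq]
  have hGmono : ∀ k, Gk k ≤ Gk (k + 1) := by
    intro k
    rw [hGkdef, hGkdef]
    apply Subgroup.closure_mono
    rintro x (hx | ⟨i, h1, h2, rfl⟩)
    · exact Or.inl hx
    · exact Or.inr ⟨i, h1, by omega, rfl⟩
  have hGsucc : ∀ k, 2 ≤ k →
      Gk (k + 1) = Subgroup.closure ((Gk k : Set (Equiv.Perm α)) ∪ {s k}) := by
    intro k hk
    apply le_antisymm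
    · rw [hGkdef (k + 1), Subgroup.closure_le]
      rintro x (hx | ⟨i, hi1, hi2, rfl⟩)
      · exact Subgroup.subset_closure (Or.inl (hGle k hx))
      · by_cases hik : i = k
        · rw [hik]
          exact Subgroup.subset_closure (Or.inr rfl)
        · exact Subgroup.subset_closure (Or.inl (hsmem k i hi1 (by omega)))
    · rw [Subgroup.closure_le]
      rintro x (hx | hx)
      · exact hGmono k hx
      · rw [Set.mem_singleton_iff] at hx
        rw [hx]
        exact hsmem (k + 1) k hk (le_refl _)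
  have hS : ∀ k', 1 ≤ k' → k' + 1 ≤ t → s k' (q (k' + 1)) = q k' := by
    intro k' h1 h2
    rcases Nat.lt_or_ge k' 2 with h | h
    · have : k' = 1 := by omega
      subst this
      exact hs1q.2
    · exact (hsq k' h h2).2.1
  have hH_sq : ∀ i, 1 ≤ i → i + 1 ≤ t → s i * s i ∈ H := by
    intro i h1 h2
    have := hsq2 i h1 h2
    rw [pow_two] at this
    exact this
  have hconj_id : ∀ (x y : Equiv.Perm α), x * y * x⁻¹ = (x * y) ^ 2 * y⁻¹ * (x * x)⁻¹ := by
    intro x y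
    rw [pow_two]
    group
  -- the invariant
  obtain ⟨Om, hOm⟩ : ∃ Om : ℕ → α → Prop, Om = fun k c => ∀ j, k < j → j ≤ t → c ≠ q j :=
    ⟨_, rfl⟩
  have hOmdef : ∀ k c, Om k c ↔ ∀ j, k < j → j ≤ t → c ≠ q j := fun k c => by rw [hOm]
  obtain ⟨P, hP⟩ : ∃ P : ℕ → Prop, P = fun k =>
      (∀ g ∈ Gk k, ∀ j, k < j → j ≤ t → g (q j) = q j) ∧
      (∀ c d, Om k c → Om k d → ∃ g ∈ Gk k, g c = d) ∧
      (∀ c d, Om k c → Om k d → c ≠ q k → d ≠ q k → ∃ g ∈ Gk k, g (q k) = q k ∧ g c = d) ∧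
      Trans (Gk k) k {c | Om k c} ∧
      (∀ g ∈ Gk k, (∀ j, 1 ≤ j → j ≤ k → g (q j) = q j) → g ∈ H) ∧
      (∀ k', k = k' + 1 → 2 ≤ k' → ∀ g ∈ Gk k, g (q k) = q k → g ∈ Gk k') := ⟨_, rfl⟩
  have hP2 : P 2 := by
    rw [hP]
    refine ⟨?_, ?_, ?_, ?_, ?_, ?_⟩
    · intro g hg j hj hjt
      rw [hG2] at hg
      exact hfix g hg j (by omega) hjt
    · intro c d hc hd
      rw [hOmdef] at hc hd
      rw [hG2]
      by_cases hcd : c = d
      · exact ⟨1, G.one_mem, by rw [hcd]; rfl⟩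
      · obtain ⟨g, hg, hgc, -⟩ := h2 c d d c (fun i h3 hit => ⟨hc i (by omega) hit,
          hd i (by omega) hit, hd i (by omega) hit, hc i (by omega) hit⟩) hcd (Ne.symm hcd)
        exact ⟨g, hg, hgc⟩
    · intro c d hc hd hc2 hd2
      rw [hOmdef] at hc hd
      rw [hG2]
      obtain ⟨g, hg, hg2, hgc⟩ := h2 (q 2) c (q 2) d (fun i h3 hit =>
        ⟨hqne 2 i (by omega) (by omega) (by omega) hit (by omega), hc i (by omega) hit,
          hqne 2 i (by omega) (by omega) (by omega) hit (by omega), hd i (by omega) hit⟩)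
        (Ne.symm hc2) (Ne.symm hd2)
      exact ⟨g, hg, hg2, hgc⟩
    · intro x y hx hy hxS hyS
      rw [hG2]
      have hxS' : ∀ i, ∀ j, 2 < j → j ≤ t → x i ≠ q j := fun i => (hOmdef 2 (x i)).mp (hxS i)
      have hyS' : ∀ i, ∀ j, 2 < j → j ≤ t → y i ≠ q j := fun i => (hOmdef 2 (y i)).mp (hyS i)
      obtain ⟨g, hg, h0, h1⟩ := h2 (x 0) (x 1) (y 0) (y 1) (fun i h3 hit =>
        ⟨hxS' 0 i (by omega) hit, hxS' 1 i (by omega) hit, hyS' 0 i (by omega) hit,
          hyS' 1 i (by omega) hit⟩) (hx.ne (by decide)) (hy.ne (by decide))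
      refine ⟨g, hg, fun i => ?_⟩
      fin_cases i
      · exact h0
      · exact h1
    · intro g hg hfixq
      rw [hG2] at hg
      exact (hHmem g).mpr ⟨hg, hfixq 1 (by omega) (by omega), hfixq 2 (by omega) (by omega)⟩
    · intro k' hk' h2k'
      omega
  -- the double coset decomposition
  have hdc_gen : ∀ k k', k = k' + 1 → 1 ≤ k' → k ≤ t → P k → ∀ g ∈ Gk k, g (q k) ≠ q k →
      ∃ g1 ∈ Gk k, ∃ g2 ∈ Gk k, g1 (q k) = q k ∧ g2 (q k) = q k ∧ g = g1 * s k' * g2 := by
    intro k k' hk' h1k' hkt hPk g hg hga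
    rw [hP] at hPk
    obtain ⟨hA, -, hB2, -, -, -⟩ := hPk
    have hu : s k' (q k) = q k' := by
      rw [hk']
      exact hS k' h1k' (by omega)
    have hc : Om k (q k') := by
      rw [hOmdef]
      intro j hj hjt
      exact hqne k' j h1k' (by omega) (by omega) hjt (by omega)
    have hd : Om k (g (q k)) := by
      rw [hOmdef]
      intro j hj hjt h
      rw [← hA g hg j hj hjt] at h
      exact hqne k j (by omega) hkt (by omega) hjt (by omega) (g.injective h)
    obtain ⟨g1, hg1, hg1a, hg1c⟩ := hB2 (q k') (g (q k)) hc hd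
      (hqne k' k h1k' (by omega) (by omega) hkt (by omega)) hga
    have hu' : s k' ∈ Gk k := by
      rcases Nat.lt_or_ge k' 2 with h | h
      · have : k' = 1 := by omega
        rw [this]
        exact hGle k hs1
      · exact hsmem k k' h (by omega)
    refine ⟨g1, hg1, (g1 * s k')⁻¹ * g, (Gk k).mul_mem ((Gk k).inv_mem ((Gk k).mul_mem hg1 hu'))
      hg, hg1a, ?_, by group⟩
    have h3 : g (q k) = (g1 * s k') (q k) := by
      rw [Equiv.Perm.mul_apply, hu, hg1c]
    rw [Equiv.Perm.mul_apply, h3, perm_inv_apply]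
  have hdcG : ∀ g ∈ G, g (q 2) ≠ q 2 →
      ∃ g1 ∈ G, ∃ g2 ∈ G, g1 (q 2) = q 2 ∧ g2 (q 2) = q 2 ∧ g = g1 * s 1 * g2 := by
    intro g hg hg2
    have := hdc_gen 2 1 rfl le_rfl ht hP2 g (by rw [hG2]; exact hg) hg2
    rw [hG2] at this
    exact this
  have hconjG : ∀ j, 3 ≤ j → j + 1 ≤ t → ∀ g ∈ G, s j * g * (s j)⁻¹ ∈ G := by
    intro j hj hjt g hg
    have hN : ∀ g' ∈ G, g' (q 2) = q 2 → s j * g' * (s j)⁻¹ ∈ G := by
      intro g' hg' hg'2
      exact (Subgroup.mem_inf.mp (hnorm j (by omega) hjt g'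
        (Subgroup.mem_inf.mpr ⟨hg', MulAction.mem_stabilizer_iff.mpr hg'2⟩))).1
    by_cases hg2 : g (q 2) = q 2
    · exact hN g hg hg2
    · obtain ⟨g1, hg1, g2, hg2', h1, h2', rfl⟩ := hdcG g hg hg2
      have h3 : s j * (g1 * s 1 * g2) * (s j)⁻¹ =
          (s j * g1 * (s j)⁻¹) * (s j * s 1 * (s j)⁻¹) * (s j * g2 * (s j)⁻¹) := by group
      rw [h3]
      refine G.mul_mem (G.mul_mem (hN g1 hg1 h1) ?_) (hN g2 hg2' h2')
      rw [hconj_id]
      exact G.mul_mem (G.mul_mem (hHG (hcomm 1 j le_rfl (by omega) hjt).2) (G.inv_mem hs1))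
        (G.inv_mem (hHG (hH_sq j (by omega) hjt)))
  -- the induction
  have hind : ∀ k, 2 ≤ k → k ≤ t → P k := by
    intro k hk
    induction k, hk using Nat.le_induction with
    | base => exact fun _ => hP2
    | succ k hk ih =>
      intro hkt
      have hPk := ih (by omega)
      have hPk' := hPk
      rw [hP] at hPk'
      obtain ⟨hA, hB1, hB2, hB, hC, hD⟩ := hPk'
      obtain ⟨k', hk'⟩ : ∃ k', k = k' + 1 := ⟨k - 1, by omega⟩
      have h1k' : 1 ≤ k' := by omega
      have hsa : s k (q k) = q (k + 1) := (hsq k hk hkt).1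
      have hsb : s k (q (k + 1)) = q k := (hsq k hk hkt).2.1
      have hsfix := (hsq k hk hkt).2.2
      have hab : q k ≠ q (k + 1) := hqne k (k + 1) (by omega) (by omega) (by omega) hkt (by omega)
      have hu' : s k' ∈ Gk k := by
        rcases Nat.lt_or_ge k' 2 with h | h
        · have : k' = 1 := by omega
          rw [this]
          exact hGle k hs1
        · exact hsmem k k' h (by omega)
      have hss : s k * s k ∈ Gk k := hGle k (hHG (hH_sq k (by omega) hkt))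
      have hnormK : ∀ g ∈ Gk k, g (q k) = q k → s k * g * (s k)⁻¹ ∈ Gk k := by
        intro g hg hga
        rcases Nat.lt_or_ge k' 2 with h | h
        · have hk2 : k = 2 := by omega
          rw [hk2] at hg hga ⊢
          rw [hG2] at hg ⊢
          exact (Subgroup.mem_inf.mp (hnorm 2 le_rfl (by omega) g
            (Subgroup.mem_inf.mpr ⟨hg, MulAction.mem_stabilizer_iff.mpr hga⟩))).1
        · have hg' := hD k' hk' h g hg hga
          have hle : Gk k' ≤ Gk k := by
            rw [hk']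
            exact hGmono k'
          apply hle
          rw [hGkdef k'] at hg'
          refine Subgroup.closure_induction (p := fun x _ => s k * x * (s k)⁻¹ ∈ Gk k')
            ?_ ?_ ?_ ?_ hg'
          · rintro x (hx | ⟨i, hi1, hi2, rfl⟩)
            · exact hGle k' (hconjG k (by omega) hkt x hx)
            · rw [hconj_id]
              exact (Gk k').mul_mem ((Gk k').mul_mem
                (hGle k' (hHG (hcomm i k (by omega) (by omega) hkt).2))
                ((Gk k').inv_mem (hsmem k' i hi1 hi2)))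
                ((Gk k').inv_mem (hGle k' (hHG (hH_sq k (by omega) hkt))))
          · rw [mul_one, mul_inv_cancel]
            exact (Gk k').one_mem
          · intro x y _ _ hx hy
            have h3 : s k * (x * y) * (s k)⁻¹ = (s k * x * (s k)⁻¹) * (s k * y * (s k)⁻¹) := by
              group
            rw [h3]
            exact (Gk k').mul_mem hx hy
          · intro x _ hx
            have h3 : s k * x⁻¹ * (s k)⁻¹ = (s k * x * (s k)⁻¹)⁻¹ := by group
            rw [h3]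
            exact (Gk k').inv_mem hx
      have hsus : ∃ k1 ∈ Gk k, ∃ k2 ∈ Gk k, s k * s k' * s k = k1 * s k * k2 := by
        have hbr : (s k' * s k) ^ 3 ∈ H := by
          have := hbraid k' h1k' (by omega)
          rw [← hk'] at this
          exact this
        refine ⟨(s k')⁻¹ * (s k' * s k) ^ 3 * (s k * s k)⁻¹,
          (Gk k).mul_mem ((Gk k).mul_mem ((Gk k).inv_mem hu') (hGle k (hHG hbr)))
            ((Gk k).inv_mem hss), (s k')⁻¹, (Gk k).inv_mem hu', ?_⟩
        have h3 : (s k' * s k) ^ 3 = s k' * s k * (s k' * s k) * (s k' * s k) := by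
          rw [pow_succ, pow_two]
        rw [h3]
        group
      have hstep := step (Gk k) (s k) (s k') (q k)
        (hdc_gen k k' hk' h1k' (by omega) hPk) hss hnormK hsus
      rw [← hGsucc k hk] at hstep
      have hC2 : ∀ m ∈ Gk (k + 1), m (q (k + 1)) = q (k + 1) → m ∈ Gk k := by
        intro m hm hmb
        rcases hstep m hm with h | ⟨k1, hk1, k2, hk2, rfl⟩
        · exact h
        · exfalso
          rw [Equiv.Perm.mul_apply, Equiv.Perm.mul_apply, hA k2 hk2 (k + 1) (by omega) hkt, hsb]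
            at hmb
          have h3 := hA k1 hk1 (k + 1) (by omega) hkt
          rw [← h3] at hmb
          exact hab (k1.injective hmb)
      have hsk : s k ∈ Gk (k + 1) := hsmem (k + 1) k hk le_rfl
      have hA' : ∀ g ∈ Gk (k + 1), ∀ j, k + 1 < j → j ≤ t → g (q j) = q j := by
        intro g hg j hj hjt
        have hsj : s k (q j) = q j := hsfix j (by omega) hjt (by omega) (by omega)
        rcases hstep g hg with h | ⟨k1, hk1, k2, hk2, rfl⟩
        · exact hA g h j (by omega) hjt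
        · rw [Equiv.Perm.mul_apply, Equiv.Perm.mul_apply, hA k2 hk2 j (by omega) hjt, hsj,
            hA k1 hk1 j (by omega) hjt]
      have hOmk : Om k (q k) := by
        rw [hOmdef]
        intro j hj hjt
        exact hqne k j (by omega) (by omega) (by omega) hjt (by omega)
      have hOmsucc : ∀ c, Om (k + 1) c ↔ (Om k c ∨ c = q (k + 1)) := by
        intro c
        rw [hOmdef, hOmdef]
        constructor
        · intro h
          by_cases hc : c = q (k + 1)
          · exact Or.inr hc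
          · left
            intro j hj hjt
            by_cases hj' : j = k + 1
            · rw [hj']
              exact hc
            · exact h j (by omega) hjt
        · rintro (h | h)
          · intro j hj hjt
            exact h j (by omega) hjt
          · intro j hj hjt
            rw [h]
            exact hqne (k + 1) j (by omega) hkt (by omega) hjt (by omega)
      have hto_a : ∀ c, Om (k + 1) c → ∃ g ∈ Gk (k + 1), g c = q k := by
        intro c hc
        rcases (hOmsucc c).mp hc with h | h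
        · obtain ⟨g, hg, hgc⟩ := hB1 c (q k) h hOmk
          exact ⟨g, hGmono k hg, hgc⟩
        · exact ⟨s k, hsk, by rw [h, hsb]⟩
      rw [hP]
      refine ⟨hA', ?_, ?_, ?_, ?_, ?_⟩
      · intro c d hc hd
        obtain ⟨g1, hg1, hg1c⟩ := hto_a c hc
        obtain ⟨g2, hg2, hg2d⟩ := hto_a d hd
        refine ⟨g2⁻¹ * g1, (Gk (k + 1)).mul_mem ((Gk (k + 1)).inv_mem hg2) hg1, ?_⟩
        rw [Equiv.Perm.mul_apply, hg1c, ← hg2d, perm_inv_apply]
      · intro c d hc hd hcb hdb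
        have hc' : Om k c := ((hOmsucc c).mp hc).resolve_right hcb
        have hd' : Om k d := ((hOmsucc d).mp hd).resolve_right hdb
        obtain ⟨g, hg, hgc⟩ := hB1 c d hc' hd'
        exact ⟨g, hGmono k hg, hA g hg (k + 1) (by omega) hkt, hgc⟩
      · have h3 := trans_succ (Gk k) (Gk (k + 1)) k {c | Om k c} (q (k + 1)) (hGmono k)
          (fun g hg => hA g hg (k + 1) (by omega) hkt) ?_ ?_ hB
        · have hset : {c | c ∈ {c | Om k c} ∨ c = q (k + 1)} = {c | Om (k + 1) c} := by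
            ext c
            exact (hOmsucc c).symm
          rw [hset] at h3
          exact h3
        · intro g hg c hc
          have hc' : Om (k + 1) c := (hOmsucc c).mpr hc
          apply (hOmsucc (g c)).mp
          rw [hOmdef] at hc' ⊢
          intro j hj hjt h
          rw [← hA' g hg j hj hjt] at h
          exact hc' j hj hjt (g.injective h)
        · intro c hc
          obtain ⟨g, hg, hgc⟩ := hB1 c (q k) hc hOmk
          refine ⟨s k * g, (Gk (k + 1)).mul_mem hsk (hGmono k hg), ?_⟩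
          rw [Equiv.Perm.mul_apply, hgc, hsa]
      · intro g hg hfixq
        have hgK := hC2 g hg (hfixq (k + 1) (by omega) le_rfl)
        exact hC g hgK (fun j h1 h2 => hfixq j h1 (by omega))
      · intro k'' hk'' h2k'' g hg hgb
        have : k'' = k := by omega
        rw [this]
        exact hC2 g hg hgb
  have hPt := hind t ht le_rfl
  rw [hP] at hPt
  obtain ⟨hA, -, -, hB, hC, -⟩ := hPt
  rw [← hGkdef t]
  constructor
  · refine ⟨fun x y => ?_⟩
    obtain ⟨g, hg, hgxy⟩ := hB (fun i => x i) (fun i => y i) x.injective y.injective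
      (fun i => by
        show Om t (x i)
        rw [hOmdef]
        intro j hj hjt
        omega)
      (fun i => by
        show Om t (y i)
        rw [hOmdef]
        intro j hj hjt
        omega)
    refine ⟨⟨g, hg⟩, ?_⟩
    ext i
    exact hgxy i
  · ext g
    rw [Subgroup.mem_inf, mem_fixingSubgroup_iff]
    constructor
    · rintro ⟨hg, hfixq⟩
      exact hC g hg (fun j h1 h2 => hfixq (q j) ⟨j, h1, h2, rfl⟩)
    · intro hg
      obtain ⟨hgG, hg1, hg2⟩ := (hHmem g).mp hg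
      refine ⟨hGle t hgG, ?_⟩
      rintro y ⟨i, hi1, hit, rfl⟩
      show g (q i) = q i
      rcases Nat.lt_or_ge i 3 with h | h
      · have : i = 1 ∨ i = 2 := by omega
        rcases this with rfl | rfl
        · exact hg1
        · exact hg2
      · exact hfix g hgG i h hit

end Cfsg.Agent.S0709
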