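import Cfsg.Statements.S0712

set_option autoImplicit false
open Cfsg

namespace Cfsg.Agent.S0712

open MulAction SubMulAction

theorem aux (m : ℕ) : ∀ {G α : Type*} [Group G] [MulAction G α] [Finite α]
    (_ : IsPreprimitive G α) (s : Set α), s.ncard = m → m + 2 ≤ Nat.card α →
    IsMultiplyPretransitive (fixingSubgroup G s) (ofFixingSubgroup G s) 2 →
    IsMultiplyPretransitive G α (m + 2) := by
  induction m with
  | zero =>
    intro G α _ _ _ hG s hs hcard h2
    have hs' : s = ∅ := by rwa [Set.ncard_eq_zero] at hs
    subst hs'
    exact (IsPretransitive.of_embedding_congr of_fixingSubgroupEmpty_mapScalars_surjective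
      ofFixingSubgroupEmpty_equivariantMap_bijective).mp h2
  | succ n ih =>
    intro G α _ _ _ hG s hs hcard h2
    have hprim : IsPreprimitive (fixingSubgroup G s) (ofFixingSubgroup G s) :=
      isPreprimitive_of_is_two_pretransitive h2
    have h2prim : IsMultiplyPreprimitive G α 2 := hG.is_two_preprimitive hs (by omega) hprim
    have hne : s.Nonempty := by
      rw [← Set.ncard_pos, hs]; exact Nat.succ_pos n
    obtain ⟨a, ha⟩ := hne
    let t : Set (SubMulAction.ofStabilizer G a) := Subtype.val ⁻¹' s
    have hst : s = insert a (Subtype.val '' t) := by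
      ext x
      by_cases hx : x = a <;> simp [hx, mem_ofStabilizer_iff, ha, t]
    have ha' : a ∉ Subtype.val '' t := by
      intro h; rw [Set.mem_image] at h; obtain ⟨x, hx⟩ := h
      apply x.prop; rw [hx.right]; exact Set.mem_singleton a
    have : IsPretransitive G α := hG.toIsPretransitive
    have ht_prim : IsPreprimitive (stabilizer G a) (SubMulAction.ofStabilizer G a) := by
      rw [← is_one_preprimitive_iff]
      rw [← isMultiplyPreprimitive_succ_iff_ofStabilizer]
      · exact h2prim
      · norm_num
    have h2' : IsMultiplyPretransitive ↥(fixingSubgroup G (insert a (Subtype.val '' t)))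
          (ofFixingSubgroup G (insert a (Subtype.val '' t))) 2 :=
      IsPretransitive.of_embedding
          (ofFixingSubgroup_of_eq_bijective (hst := hst)).surjective
    have h2'' : IsMultiplyPretransitive (fixingSubgroup (stabilizer G a) t)
        (ofFixingSubgroup (stabilizer G a) t) 2 :=
      IsPretransitive.of_embedding
          ofFixingSubgroup_insert_map_bijective.surjective
    rw [← Nat.succ_eq_add_one (n + 1 + 1)]
    rw [ofStabilizer.isMultiplyPretransitive (a := a)]
    have := ih ht_prim t ?_ ?_ h2''
    · exact this
    · rw [← Set.ncard_image_of_injective t Subtype.val_injective]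
      apply Nat.add_right_cancel
      rw [← Set.ncard_insert_of_notMem ha', ← hst, hs]
    · have := nat_card_ofStabilizer_add_one_eq G a
      omega

/-- Jordan: a primitive group in which the pointwise stabiliser of a set `s` is doubly transitive on the complement of `s` (which has at least 2 points) is `(|s| + 2)`-transitive. -/
theorem result {α : Type*} [Fintype α] [DecidableEq α] (G : Subgroup (Equiv.Perm α)) (hG : MulAction.IsPreprimitive G α) (s : Set α) {m : ℕ} (hsm : s.ncard = m) (hm : m + 2 ≤ Fintype.card α) (h2 : MulAction.IsMultiplyPretransitive (fixingSubgroup G s) (SubMulAction.ofFixingSubgroup G s) 2) : MulAction.IsMultiplyPretransitive G α (m + 2) := by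
  apply aux m hG s hsm _ h2
  rwa [Nat.card_eq_fintype_card]

end Cfsg.Agent.S0712
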