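import Cfsg.Statements.S0714
import Mathlib.GroupTheory.GroupAction.MultipleTransitivity

set_option autoImplicit false
open Cfsg

namespace Cfsg.Agent.S0714

variable {α : Type*} [Fintype α] [DecidableEq α] {K : Type*} [Field K]

omit [Fintype α] [DecidableEq α] in
theorem permRep_apply' {G : Type*} [Group G] [MulAction G α] (g : G) (f : α → K) (x : α) :
    Cfsg.permRep K G α g f x = f (g⁻¹ • x) := rfl

theorem diff_mem (W : Subrepresentation (Cfsg.permRep K (alternatingGroup α) α))
    (σ : Equiv.Perm α) (hσ : σ ∈ alternatingGroup α) (w : α → K) (hw : w ∈ W.toSubmodule) :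
    (fun x => w x - w (σ x)) ∈ W.toSubmodule := by
  have h1 := W.apply_mem_toSubmodule ((⟨σ, hσ⟩ : alternatingGroup α)⁻¹) hw
  have h2 := W.toSubmodule.sub_mem hw h1
  convert h2 using 1
  funext x
  rw [Pi.sub_apply, permRep_apply', inv_inv]
  rfl

theorem exists_three (hα : 5 ≤ Fintype.card α) (i j : α) :
    ∃ k l m : α, k ≠ i ∧ k ≠ j ∧ l ≠ i ∧ l ≠ j ∧ l ≠ k ∧ m ≠ i ∧ m ≠ j ∧ m ≠ k ∧ m ≠ l := by
  classical
  have h1 : ∃ k, k ∉ ({i, j} : Finset α) := by
    by_contra h
    push Not at h
    have : (Finset.univ : Finset α) ⊆ {i, j} := fun x _ => h x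
    have := Finset.card_le_card this
    have h2 : ({i, j} : Finset α).card ≤ 2 := Finset.card_le_two
    rw [Finset.card_univ] at this
    omega
  obtain ⟨k, hk⟩ := h1
  have h1 : ∃ l, l ∉ ({i, j, k} : Finset α) := by
    by_contra h
    push Not at h
    have : (Finset.univ : Finset α) ⊆ {i, j, k} := fun x _ => h x
    have := Finset.card_le_card this
    have h2 : ({i, j, k} : Finset α).card ≤ 3 := Finset.card_le_three
    rw [Finset.card_univ] at this
    omega
  obtain ⟨l, hl⟩ := h1
  have h1 : ∃ m, m ∉ ({i, j, k, l} : Finset α) := by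
    by_contra h
    push Not at h
    have : (Finset.univ : Finset α) ⊆ {i, j, k, l} := fun x _ => h x
    have := Finset.card_le_card this
    have h2 : ({i, j, k, l} : Finset α).card ≤ 4 := Finset.card_le_four
    rw [Finset.card_univ] at this
    omega
  obtain ⟨m, hm⟩ := h1
  simp only [Finset.mem_insert, Finset.mem_singleton, not_or] at hk hl hm
  exact ⟨k, l, m, hk.1, hk.2, hl.1, hl.2.1, hl.2.2, hm.1, hm.2.1, hm.2.2.1, hm.2.2.2⟩

theorem mem_alt_swap_swap {a b c : α} (hab : a ≠ b) (hbc : b ≠ c) :
    Equiv.swap a b * Equiv.swap b c ∈ alternatingGroup α := by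
  simp [Equiv.Perm.mem_alternatingGroup, Equiv.Perm.sign_swap hab, Equiv.Perm.sign_swap hbc]

/-- From a non-constant vector we get a difference of two basis vectors. -/
theorem exists_single_sub_single_mem (hα : 5 ≤ Fintype.card α)
    (W : Subrepresentation (Cfsg.permRep K (alternatingGroup α) α))
    (v : α → K) (hv : v ∈ W.toSubmodule) (i j : α) (hij : v i ≠ v j) :
    ∃ a b : α, a ≠ b ∧ (Pi.single a 1 - Pi.single b 1 : α → K) ∈ W.toSubmodule := by
  have hij' : i ≠ j := fun h => hij (by rw [h])
  obtain ⟨k, l, m, hki, hkj, hli, hlj, hlk, hmi, hmj, hmk, hml⟩ := exists_three hα i j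
  -- step 1
  have hw := diff_mem W _ (mem_alt_swap_swap hij' hkj.symm) v hv
  set w : α → K := fun x => v x - v ((Equiv.swap i j * Equiv.swap j k) x) with hwdef
  have hwi : w i = v i - v j := by
    simp only [hwdef, Equiv.Perm.coe_mul, Function.comp_apply]
    rw [Equiv.swap_apply_of_ne_of_ne hij' hki.symm, Equiv.swap_apply_left]
  have hw0 : ∀ x, x ≠ i → x ≠ j → x ≠ k → w x = 0 := by
    intro x hxi hxj hxk
    simp only [hwdef, Equiv.Perm.coe_mul, Function.comp_apply]
    rw [Equiv.swap_apply_of_ne_of_ne hxj hxk, Equiv.swap_apply_of_ne_of_ne hxi hxj, sub_self]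
  have hwi0 : w i ≠ 0 := by rw [hwi]; exact sub_ne_zero.mpr hij
  -- step 2
  have hu := diff_mem W _ (mem_alt_swap_swap hli.symm hml.symm) w hw
  have hu' : (fun x => w x - w ((Equiv.swap i l * Equiv.swap l m) x))
      = w i • (Pi.single i 1 - Pi.single m 1 : α → K) := by
    funext x
    simp only [Equiv.Perm.coe_mul, Function.comp_apply, Pi.smul_apply, Pi.sub_apply,
      Pi.single_apply, smul_eq_mul]
    by_cases hxi : x = i
    · subst hxi
      rw [Equiv.swap_apply_of_ne_of_ne hli.symm hmi.symm, Equiv.swap_apply_left,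
        hw0 l hli hlj hlk]
      simp [hmi.symm]
    · by_cases hxm : x = m
      · subst hxm
        rw [Equiv.swap_apply_right, Equiv.swap_apply_right, hw0 x hmi hmj hmk]
        simp [hmi]
      · by_cases hxl : x = l
        · subst hxl
          rw [Equiv.swap_apply_left, Equiv.swap_apply_of_ne_of_ne hmi hml,
            hw0 x hli hlj hlk, hw0 m hmi hmj hmk]
          simp [hxi, hxm]
        · rw [Equiv.swap_apply_of_ne_of_ne hxl hxm, Equiv.swap_apply_of_ne_of_ne hxi hxl]
          simp [hxi, hxm]
  rw [hu'] at hu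
  refine ⟨i, m, hmi.symm, ?_⟩
  have := W.toSubmodule.smul_mem (w i)⁻¹ hu
  rwa [smul_smul, inv_mul_cancel₀ hwi0, one_smul] at this

theorem sumZero_le (hα : 5 ≤ Fintype.card α)
    (W : Subrepresentation (Cfsg.permRep K (alternatingGroup α) α))
    (v : α → K) (hv : v ∈ W.toSubmodule) (i j : α) (hij : v i ≠ v j) :
    (Cfsg.permSumZero K (alternatingGroup α) α).toSubmodule ≤ W.toSubmodule := by
  obtain ⟨a, b, hab, hmem⟩ := exists_single_sub_single_mem hα W v hv i j hij
  have h2 : MulAction.IsMultiplyPretransitive (alternatingGroup α) α 2 := by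
    have h := alternatingGroup.isMultiplyPretransitive α
    have h5 : 5 ≤ Nat.card α := by rwa [Nat.card_eq_fintype_card]
    exact MulAction.isMultiplyPretransitive_of_le (n := Nat.card α - 2) (by omega) (by omega)
  rw [MulAction.is_two_pretransitive_iff] at h2
  have hall : ∀ c d : α, c ≠ d → (Pi.single c 1 - Pi.single d 1 : α → K) ∈ W.toSubmodule := by
    intro c d hcd
    obtain ⟨g, hga, hgb⟩ := h2 hab hcd
    have := W.apply_mem_toSubmodule g hmem
    convert this using 1
    funext x
    rw [permRep_apply']
    simp only [Pi.sub_apply, Pi.single_apply]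
    rw [← hga, ← hgb]
    simp only [inv_smul_eq_iff]
  intro f hf
  have hf0 : ∑ x, f x = 0 := hf
  have hne : Nonempty α := by
    rw [← Fintype.card_pos_iff]; omega
  obtain ⟨x₀⟩ := hne
  have hf' : f = ∑ x, f x • (Pi.single x 1 - Pi.single x₀ 1 : α → K) := by
    funext y
    simp only [Finset.sum_apply, Pi.smul_apply, Pi.sub_apply, Pi.single_apply, smul_eq_mul,
      mul_sub, mul_ite, mul_one, mul_zero, Finset.sum_sub_distrib]
    rw [Finset.sum_ite_eq, if_pos (Finset.mem_univ _)]
    by_cases hy : y = x₀
    · simp [hy, hf0]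
    · simp [hy]
  rw [hf']
  apply Submodule.sum_mem
  intro x _
  apply Submodule.smul_mem
  by_cases hx : x = x₀
  · rw [hx, sub_self]; exact Submodule.zero_mem _
  · exact hall x x₀ hx

/-- The alternating group of degree at least 5 has exactly four invariant subspaces in its natural permutation module over any field: zero, the constants, the sum-zero functions and everything. (No condition on the characteristic: when it divides the degree the four form a chain.) -/
theorem result {α : Type*} [Fintype α] [DecidableEq α] (hα : 5 ≤ Fintype.card α) {K : Type*} [Field K] (W : Subrepresentation (Cfsg.permRep K (alternatingGroup α) α)) : W.toSubmodule = ⊥ ∨ W = Cfsg.permConstants K (alternatingGroup α) α ∨ W = Cfsg.permSumZero K (alternatingGroup α) α ∨ W.toSubmodule = ⊤ := by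
  by_cases h : ∃ v ∈ W.toSubmodule, ∃ i j : α, v i ≠ v j
  · obtain ⟨v, hv, i, j, hij⟩ := h
    have hle := sumZero_le hα W v hv i j hij
    right; right
    by_cases h2 : W.toSubmodule ≤ (Cfsg.permSumZero K (alternatingGroup α) α).toSubmodule
    · left
      exact Subrepresentation.toSubmodule_injective (le_antisymm h2 hle)
    · right
      rw [SetLike.not_le_iff_exists] at h2
      obtain ⟨w, hw, hw2⟩ := h2
      have hs : ∑ x, w x ≠ 0 := hw2
      rw [eq_top_iff]
      intro f _
      have h3 : f - ((∑ x, f x) / (∑ x, w x)) • w ∈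
          (Cfsg.permSumZero K (alternatingGroup α) α).toSubmodule := by
        change ∑ x, (f - ((∑ x, f x) / (∑ x, w x)) • w) x = 0
        simp only [Pi.sub_apply, Pi.smul_apply, smul_eq_mul, Finset.sum_sub_distrib,
          ← Finset.mul_sum]
        field_simp
        ring
      have h4 := W.toSubmodule.add_mem (hle h3) (W.toSubmodule.smul_mem ((∑ x, f x) / (∑ x, w x)) hw)
      simpa using h4
  · push Not at h
    by_cases hbot : W.toSubmodule = ⊥
    · left; exact hbot
    · right; left
      apply Subrepresentation.toSubmodule_injective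
      have hne : Nonempty α := by
        rw [← Fintype.card_pos_iff]; omega
      obtain ⟨x₀⟩ := hne
      have hconst : ∀ v ∈ W.toSubmodule, v = v x₀ • (fun _ => (1 : K)) := by
        intro v hv
        funext x
        simp [h v hv x x₀]
      change W.toSubmodule = Submodule.span K {fun _ => 1}
      apply le_antisymm
      · intro v hv
        rw [hconst v hv]
        exact Submodule.smul_mem _ _ (Submodule.subset_span rfl)
      · rw [Submodule.span_le, Set.singleton_subset_iff]
        obtain ⟨v, hv, hv0⟩ := (Submodule.ne_bot_iff _).mp hbot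
        have hc : v x₀ ≠ 0 := by
          intro h0
          apply hv0
          rw [hconst v hv, h0, zero_smul]
        have h5 := W.toSubmodule.smul_mem (v x₀)⁻¹ hv
        have h6 : (v x₀)⁻¹ • v = fun _ => (1 : K) := by
          funext x
          simp [h v hv x x₀, hc]
        rwa [h6] at h5

end Cfsg.Agent.S0714
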