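import Mathlib
import Cfsg.Statements.S0715
import Cfsg.Agent.Lib.Helper12.Subdeg

set_option autoImplicit false
open Cfsg

namespace Cfsg.Agent.S0715

open MulAction Cfsg.Agent.Lib.Helper12.Hecke Cfsg.Agent.Lib.Helper12.Subdeg
  Cfsg.Agent.Lib.Helper3 Cfsg.Agent.Lib.Helper75 Cfsg.Agent.Lib.Helper74

/-- If a natural number `f` divides the degree of every non-principal irreducible constituent of the permutation character of a transitive group, then `f` divides every non-trivial subdegree. -/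
theorem result {G : Type*} [Group G] [Fintype G] {Ω : Type*} [Fintype Ω] [MulAction G Ω] [MulAction.IsPretransitive G Ω] (f : ℕ) (hf : ∀ χ : G → ℂ, Cfsg.IsIrrCharacter G χ → χ ≠ (fun _ => 1) → Cfsg.classInner (fun g : G => (Nat.card (MulAction.fixedBy Ω g) : ℂ)) χ ≠ 0 → ∃ m : ℕ, χ 1 = (f : ℂ) * m) (a b : Ω) (hab : b ≠ a) : f ∣ Nat.card (MulAction.orbit (MulAction.stabilizer G a) b) := by
  classical
  have := Fintype.ofFinite (Cfsg.IrrCharacter G)
  have hBinv := orbMat_invariant G a b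
  have key : ∀ χ : Cfsg.IrrCharacter G, χ ≠ irrOne G → ∃ d : ℂ, IsIntegral ℤ d ∧
      (χ : G → ℂ) 1 * coef a (orbMat G a b) (χ : G → ℂ) = (f : ℂ) * d := by
    intro χ hχ
    by_cases h0 : Cfsg.classInner (permChar G Ω) (χ : G → ℂ) = 0
    · exact ⟨0, isIntegral_zero, by rw [coef_eq_zero a _ χ.2 h0]; simp⟩
    · have hne : (χ : G → ℂ) ≠ fun _ => 1 := fun h => hχ (Subtype.ext h)
      obtain ⟨m, hm⟩ := hf χ.1 χ.2 hne h0
      refine ⟨m * coef a (orbMat G a b) χ.1, ?_, by rw [hm]; ring⟩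
      exact (isIntegral_algebraMap (R := ℤ) (A := ℂ) (x := (m : ℤ))).mul
        (coef_isIntegral a _ hBinv χ.2) |> (by simpa using ·)
  choose! d hd using key
  have hsum := sum_degree_mul_coef (G := G) a (orbMat G a b)
  rw [orbMat_self G a b hab] at hsum
  simp only [Int.cast_zero, zero_mul, mul_zero] at hsum
  rw [← Finset.add_sum_erase Finset.univ _ (Finset.mem_univ (irrOne G))] at hsum
  have h1 : (irrOne G : G → ℂ) 1 * coef a (orbMat G a b) (irrOne G : G → ℂ) =
      (Nat.card (orbit (stabilizer G a) b) : ℂ) := by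
    rw [irrOne_apply, one_mul]
    show coef a (orbMat G a b) (fun _ => 1) = _
    rw [coef_one, sum_orbMat]
  have h2 : ∑ χ ∈ Finset.univ.erase (irrOne G), (χ : G → ℂ) 1 * coef a (orbMat G a b) (χ : G → ℂ)
      = (f : ℂ) * ∑ χ ∈ Finset.univ.erase (irrOne G), d χ := by
    rw [Finset.mul_sum]
    exact Finset.sum_congr rfl (fun χ hχ => (hd χ (Finset.ne_of_mem_erase hχ)).2)
  rw [h1, h2] at hsum
  have hD : IsIntegral ℤ (∑ χ ∈ Finset.univ.erase (irrOne G), d χ) :=
    IsIntegral.sum _ (fun χ hχ => (hd χ (Finset.ne_of_mem_erase hχ)).1)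
  generalize (∑ χ ∈ Finset.univ.erase (irrOne G), d χ) = D at hsum hD
  generalize Nat.card (orbit (stabilizer G a) b) = n at hsum ⊢
  by_cases hf0 : f = 0
  · rw [hf0] at hsum ⊢
    simp only [Nat.cast_zero, zero_mul, add_zero] at hsum
    have : n = 0 := by exact_mod_cast hsum
    rw [this]
  · have hfne : (f : ℂ) ≠ 0 := by exact_mod_cast hf0
    have hD' : -D = algebraMap ℚ ℂ ((n : ℚ) / (f : ℚ)) := by
      have h3 : D = -(n : ℂ) / f := by
        field_simp
        linear_combination hsum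
      rw [h3]
      simp
      ring
    have hint : IsIntegral ℤ (-D) := hD.neg
    rw [hD', isIntegral_algebraMap_iff (algebraMap ℚ ℂ).injective] at hint
    obtain ⟨y, hy⟩ := IsIntegrallyClosed.isIntegral_iff.mp hint
    have hfq : (f : ℚ) ≠ 0 := by exact_mod_cast hf0
    have h3 : (n : ℚ) = (y : ℚ) * (f : ℚ) := by
      have : (y : ℚ) = (n : ℚ) / (f : ℚ) := by simpa using hy
      rw [this]
      field_simp
    have h4 : (n : ℤ) = y * (f : ℤ) := by exact_mod_cast h3
    have h5 : ((f : ℕ) : ℤ) ∣ ((n : ℕ) : ℤ) := ⟨y, by rw [h4]; ring⟩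
    exact Int.natCast_dvd_natCast.mp h5

end Cfsg.Agent.S0715
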