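import Mathlib
import Cfsg.Statements.S0716
import Cfsg.Agent.Lib.Helper12.PermChar
import Cfsg.Agent.S0715

set_option autoImplicit false
open Cfsg

namespace Cfsg.Agent.S0716

open MulAction Cfsg.Agent.Lib.Helper12.Hecke Cfsg.Agent.Lib.Helper12.Subdeg
  Cfsg.Agent.Lib.Helper12.PermChar
  Cfsg.Agent.Lib.Helper3 Cfsg.Agent.Lib.Helper75 Cfsg.Agent.Lib.Helper74

/-- the counting core -/
theorem core {I Q : Type*} [Fintype I] [Fintype Q] [DecidableEq I] [DecidableEq Q]
    (m deg : I → ℕ) (s : Q → ℕ) (i0 : I) (q0 : Q) (f : ℕ)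
    (hm1 : m i0 = 1) (hdeg1 : deg i0 = 1) (hdegpos : ∀ i, 0 < deg i)
    (hrank : ∑ i, m i ^ 2 = Fintype.card Q) (hn1 : ∑ i, m i * deg i = ∑ q, s q)
    (hs0 : s q0 = 1) (hsf : ∀ q, q ≠ q0 → f ≤ s q)
    (hf : ∀ i, i ≠ i0 → m i ≠ 0 → deg i = f) :
    (∀ i, m i ≤ 1) ∧ ∀ q, q ≠ q0 → s q = f := by
  have e1 : ∑ i, m i * deg i = 1 + (∑ i ∈ Finset.univ.erase i0, m i) * f := by
    rw [← Finset.add_sum_erase Finset.univ _ (Finset.mem_univ i0), hm1, hdeg1, Finset.sum_mul]
    congr 1
    refine Finset.sum_congr rfl (fun i hi => ?_)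
    by_cases h : m i = 0
    · rw [h, zero_mul, zero_mul]
    · rw [hf i (Finset.ne_of_mem_erase hi) h]
  have e2 : ∑ q, s q = 1 + ∑ q ∈ Finset.univ.erase q0, s q := by
    rw [← Finset.add_sum_erase Finset.univ _ (Finset.mem_univ q0), hs0]
  have e3 : ∑ i, m i ^ 2 = 1 + ∑ i ∈ Finset.univ.erase i0, m i ^ 2 := by
    rw [← Finset.add_sum_erase Finset.univ _ (Finset.mem_univ i0), hm1, one_pow]
  have e3' : ∑ i ∈ Finset.univ.erase i0, m i ^ 2 = Fintype.card Q - 1 := by omega
  have e4 : (∑ i ∈ Finset.univ.erase i0, m i ^ 2) * f ≤ ∑ q ∈ Finset.univ.erase q0, s q := by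
    have h1 : ∑ q ∈ Finset.univ.erase q0, f ≤ ∑ q ∈ Finset.univ.erase q0, s q :=
      Finset.sum_le_sum (fun q hq => hsf q (Finset.ne_of_mem_erase hq))
    rw [Finset.sum_const, Finset.card_erase_of_mem (Finset.mem_univ q0), Finset.card_univ,
      smul_eq_mul] at h1
    rw [e3']
    exact h1
  have e5 : (∑ i ∈ Finset.univ.erase i0, m i) * f = ∑ q ∈ Finset.univ.erase q0, s q := by
    have := hn1
    rw [e1, e2] at this
    exact Nat.add_left_cancel this
  rcases Nat.eq_zero_or_pos f with hf0 | hfpos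
  · subst hf0
    refine ⟨fun i => ?_, fun q hq => ?_⟩
    · by_cases hi : i = i0
      · rw [hi, hm1]
      · by_contra hcon
        have hmi : m i ≠ 0 := by omega
        have h1 := hf i hi hmi
        have h2 := hdegpos i
        omega
    · have hz : ∑ q ∈ Finset.univ.erase q0, s q = 0 := by rw [← e5, mul_zero]
      exact (Finset.sum_eq_zero_iff.mp hz) q (Finset.mem_erase.mpr ⟨hq, Finset.mem_univ q⟩)
  · have e6 : ∑ i ∈ Finset.univ.erase i0, m i ^ 2 ≤ ∑ i ∈ Finset.univ.erase i0, m i := by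
      have h1 := e4
      rw [← e5] at h1
      exact Nat.le_of_mul_le_mul_right h1 hfpos
    have e7 : ∀ i ∈ Finset.univ.erase i0, m i ≤ m i ^ 2 :=
      fun i _ => Nat.le_self_pow (by norm_num) _
    have e8 : ∑ i ∈ Finset.univ.erase i0, m i = ∑ i ∈ Finset.univ.erase i0, m i ^ 2 :=
      le_antisymm (Finset.sum_le_sum e7) e6
    have e9 := (Finset.sum_eq_sum_iff_of_le e7).mp e8
    refine ⟨fun i => ?_, fun q hq => ?_⟩
    · by_cases hi : i = i0
      · rw [hi, hm1]
      · have h1 := e9 i (Finset.mem_erase.mpr ⟨hi, Finset.mem_univ i⟩)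
        by_contra hcon
        push Not at hcon
        have h2 : m i * 2 ≤ m i * m i := Nat.mul_le_mul_left _ hcon
        nlinarith
    · have h10 : ∑ q ∈ Finset.univ.erase q0, f = ∑ q ∈ Finset.univ.erase q0, s q := by
        rw [Finset.sum_const, Finset.card_erase_of_mem (Finset.mem_univ q0), Finset.card_univ,
          smul_eq_mul, ← e5, e8, e3']
      have h11 := (Finset.sum_eq_sum_iff_of_le
        (fun q hq => hsf q (Finset.ne_of_mem_erase hq))).mp h10
      exact (h11 q (Finset.mem_erase.mpr ⟨hq, Finset.mem_univ q⟩)).symm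

section

variable {G : Type*} [Group G] [Fintype G] {Ω : Type*} [Fintype Ω] [MulAction G Ω]
  [MulAction.IsPretransitive G Ω]

/-- part (a), in terms of multiplicities -/
theorem partA (a : Ω) (f : ℕ)
    (hfχ : ∀ χ : G → ℂ, Cfsg.IsIrrCharacter G χ → χ ≠ (fun _ => 1) →
      Cfsg.classInner (permChar G Ω) χ ≠ 0 → χ 1 = f) :
    (∀ χ : G → ℂ, Cfsg.IsIrrCharacter G χ → Cfsg.classInner (permChar G Ω) χ = 0 ∨
      Cfsg.classInner (permChar G Ω) χ = 1) ∧
    ∀ b : Ω, b ≠ a → Nat.card (MulAction.orbit (MulAction.stabilizer G a) b) = f := by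
  classical
  have := Fintype.ofFinite (Cfsg.IrrCharacter G)
  have := Fintype.ofFinite (orbitRel.Quotient (stabilizer G a) Ω)
  obtain ⟨m, hm, hm1, hrank, hdegsum⟩ := exists_mult (G := G) (Ω := Ω) a
  choose deg hdegpos hdeg using fun ψ : Cfsg.IrrCharacter G => irr_degree ψ
  have hdeg1 : deg (irrOne G) = 1 := by
    have h1 := hdeg (irrOne G)
    rw [irrOne_apply] at h1
    exact_mod_cast h1.symm
  have hs0 : Nat.card (orbitRel.Quotient.orbit
      (Quotient.mk'' a : orbitRel.Quotient (stabilizer G a) Ω)) = 1 := by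
    rw [orbitRel.Quotient.orbit_mk, orbit_stabilizer_self]
    simp
  have hsf : ∀ q : orbitRel.Quotient (stabilizer G a) Ω, q ≠ Quotient.mk'' a →
      f ≤ Nat.card q.orbit := by
    intro q
    induction q using Quotient.inductionOn' with
    | h b =>
      intro hq
      have hb : b ≠ a := by
        rintro rfl
        exact hq rfl
      have hdvd := Cfsg.Agent.S0715.result f (fun χ h1 h2 h3 => ⟨1, by
        rw [hfχ χ h1 h2 h3]; simp⟩) a b hb
      have hpos : 0 < Nat.card (orbit (stabilizer G a) b) := by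
        have : Nonempty (orbit (stabilizer G a) b) := ⟨⟨b, mem_orbit_self b⟩⟩
        exact Nat.card_pos
      exact Nat.le_of_dvd hpos hdvd
  have hfcore : ∀ i : Cfsg.IrrCharacter G, i ≠ irrOne G → m i ≠ 0 → deg i = f := by
    intro i hi hmi
    have hne : (i : G → ℂ) ≠ fun _ => 1 := fun h => hi (Subtype.ext h)
    have h0 : Cfsg.classInner (permChar G Ω) (i : G → ℂ) ≠ 0 := by
      rw [hm i]
      exact_mod_cast hmi
    have h1 := hfχ i.1 i.2 hne h0
    rw [hdeg i] at h1
    exact_mod_cast h1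
  have hn1 : ∑ i, m i * deg i = ∑ q : orbitRel.Quotient (stabilizer G a) Ω, Nat.card q.orbit := by
    rw [hdegsum deg hdeg, card_eq_sum_orbits (G := stabilizer G a)]
  have hrank' : ∑ i, m i ^ 2 = Fintype.card (orbitRel.Quotient (stabilizer G a) Ω) := by
    rw [hrank, Nat.card_eq_fintype_card]
  obtain ⟨c1, c2⟩ := core m deg (fun q : orbitRel.Quotient (stabilizer G a) Ω => Nat.card q.orbit)
    (irrOne G) (Quotient.mk'' a) f hm1 hdeg1 hdegpos hrank' hn1 hs0 hsf hfcore
  refine ⟨fun χ hχ => ?_, fun b hb => ?_⟩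
  · have h1 := hm ⟨χ, hχ⟩
    have h2 := c1 ⟨χ, hχ⟩
    change Cfsg.classInner (permChar G Ω) χ = _ at h1
    rw [h1]
    interval_cases (m ⟨χ, hχ⟩)
    · left; simp
    · right; simp
  · have hq : (Quotient.mk'' b : orbitRel.Quotient (stabilizer G a) Ω) ≠ Quotient.mk'' a := by
      intro h
      have h1 : b ∈ orbit (stabilizer G a) a := by
        rw [← orbitRel.Quotient.orbit_mk, ← h, orbitRel.Quotient.orbit_mk]
        exact mem_orbit_self b
      rw [orbit_stabilizer_self] at h1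
      exact hb h1
    have := c2 _ hq
    rwa [orbitRel.Quotient.orbit_mk] at this

end

/-- (a) If all non-principal irreducible constituents of the permutation character of a transitive group have the same degree `f`, the character is multiplicity-free and all non-trivial subdegrees equal `f`. (b) A transitive group of rank at most 5 has multiplicity-free permutation character. -/
theorem result {G : Type*} [Group G] [Fintype G] {Ω : Type*} [Fintype Ω] [MulAction G Ω] [MulAction.IsPretransitive G Ω] (a : Ω) : ((f : ℕ) → (∀ χ : G → ℂ, Cfsg.IsIrrCharacter G χ → χ ≠ (fun _ => 1) → Cfsg.classInner (fun g : G => (Nat.card (MulAction.fixedBy Ω g) : ℂ)) χ ≠ 0 → χ 1 = f) → (∀ χ : G → ℂ, Cfsg.IsIrrCharacter G χ → Cfsg.classInner (fun g : G => (Nat.card (MulAction.fixedBy Ω g) : ℂ)) χ = 0 ∨ Cfsg.classInner (fun g : G => (Nat.card (MulAction.fixedBy Ω g) : ℂ)) χ = 1) ∧ ∀ b : Ω, b ≠ a → Nat.card (MulAction.orbit (MulAction.stabilizer G a) b) = f) ∧ (Nat.card (MulAction.orbitRel.Quotient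 (MulAction.stabilizer G a) Ω) ≤ 5 → ∀ χ : G → ℂ, Cfsg.IsIrrCharacter G χ → Cfsg.classInner (fun g : G => (Nat.card (MulAction.fixedBy Ω g) : ℂ)) χ = 0 ∨ Cfsg.classInner (fun g : G => (Nat.card (MulAction.fixedBy Ω g) : ℂ)) χ = 1) := by
  classical
  refine ⟨fun f hf => partA a f hf, fun hr χ hχ => ?_⟩
  have := Fintype.ofFinite (Cfsg.IrrCharacter G)
  obtain ⟨m, hm, hm1, hrank, hdegsum⟩ := exists_mult (G := G) (Ω := Ω) a
  choose deg hdegpos hdeg using fun ψ : Cfsg.IrrCharacter G => irr_degree ψ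
  have h1 := hm ⟨χ, hχ⟩
  change Cfsg.classInner (permChar G Ω) χ = _ at h1
  by_cases hle : m ⟨χ, hχ⟩ ≤ 1
  · change Cfsg.classInner (permChar G Ω) χ = 0 ∨ Cfsg.classInner (permChar G Ω) χ = 1
    rw [h1]
    interval_cases (m ⟨χ, hχ⟩)
    · left; simp
    · right; simp
  · exfalso
    push Not at hle
    set ψ : Cfsg.IrrCharacter G := ⟨χ, hχ⟩ with hψ
    have hψ1 : ψ ≠ irrOne G := by
      intro h
      rw [h, hm1] at hle
      omega
    have hsplit : ∑ i, m i ^ 2 = m (irrOne G) ^ 2 + (m ψ ^ 2 +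
        ∑ i ∈ (Finset.univ.erase (irrOne G)).erase ψ, m i ^ 2) := by
      rw [← Finset.add_sum_erase Finset.univ _ (Finset.mem_univ (irrOne G)),
        ← Finset.add_sum_erase (Finset.univ.erase (irrOne G)) _
          (Finset.mem_erase.mpr ⟨hψ1, Finset.mem_univ ψ⟩)]
    have h4 : 4 ≤ m ψ ^ 2 := by nlinarith
    have hrest : ∑ i ∈ (Finset.univ.erase (irrOne G)).erase ψ, m i ^ 2 = 0 := by
      rw [hm1] at hsplit
      omega
    have hzero : ∀ i : Cfsg.IrrCharacter G, i ≠ irrOne G → i ≠ ψ → m i = 0 := by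
      intro i hi1 hi2
      have := (Finset.sum_eq_zero_iff.mp hrest) i
        (Finset.mem_erase.mpr ⟨hi2, Finset.mem_erase.mpr ⟨hi1, Finset.mem_univ i⟩⟩)
      exact pow_eq_zero_iff (by norm_num) |>.mp this
    obtain ⟨c1, -⟩ := partA a (deg ψ) (fun χ' hχ' hne h0 => by
      have hi1 : (⟨χ', hχ'⟩ : Cfsg.IrrCharacter G) ≠ irrOne G := fun h => hne (congrArg Subtype.val h)
      have hmi : m ⟨χ', hχ'⟩ ≠ 0 := by
        intro hz
        apply h0
        have := hm ⟨χ', hχ'⟩
        rw [hz] at this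
        simpa using this
      have hi2 : (⟨χ', hχ'⟩ : Cfsg.IrrCharacter G) = ψ := by
        by_contra hne2
        exact hmi (hzero _ hi1 hne2)
      have h5 := hdeg ⟨χ', hχ'⟩
      rw [hi2] at h5
      have h6 : χ' = (ψ : G → ℂ) := congrArg Subtype.val hi2
      rw [h6]
      exact h5)
    rcases c1 χ hχ with h | h
    · rw [h1] at h
      have : m ψ = 0 := by exact_mod_cast h
      omega
    · rw [h1] at h
      have : m ψ = 1 := by exact_mod_cast h
      omega

end Cfsg.Agent.S0716
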