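import Mathlib
import Cfsg.Statements.S0718
import Cfsg.Agent.Lib.Helper3.RepDecomp
import Cfsg.Agent.Lib.Helper3.CharCore
import Cfsg.Agent.Lib.Helper80.Schur

set_option autoImplicit false
open Cfsg

namespace Cfsg.Agent.S0718

open Representation Module Cfsg.Agent.Lib.Helper3
open scoped ComplexConjugate

section

variable {G : Type*} [Group G] [Fintype G]

omit [Fintype G] in
/-- the character of a permutation representation counts fixed points -/
theorem permRep_character {Ω : Type*} [Fintype Ω] [MulAction G Ω] (g : G) :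
    (Cfsg.permRep ℂ G Ω).character g = (Nat.card (MulAction.fixedBy Ω g) : ℂ) := by
  classical
  unfold Representation.character
  rw [LinearMap.trace_eq_matrix_trace ℂ (Pi.basisFun ℂ Ω), Matrix.trace]
  have h : ∀ x : Ω, (LinearMap.toMatrix (Pi.basisFun ℂ Ω) (Pi.basisFun ℂ Ω)
      (Cfsg.permRep ℂ G Ω g)).diag x = if g • x = x then 1 else 0 := by
    intro x
    rw [Matrix.diag_apply, LinearMap.toMatrix_apply, Pi.basisFun_apply, Pi.basisFun_repr]
    show (Pi.single x (1:ℂ) : Ω → ℂ) (g⁻¹ • x) = _
    rw [Pi.single_apply]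
    refine if_congr ?_ rfl rfl
    rw [inv_smul_eq_iff, eq_comm]
  simp_rw [h]
  rw [Finset.sum_boole, Nat.card_eq_fintype_card, Fintype.card_subtype]
  congr 2

/-- multiplicities are dimensions of spaces of intertwining maps -/
theorem mult_eq_finrank {V : Type*} [AddCommGroup V] [Module ℂ V] [FiniteDimensional ℂ V]
    {W : Type*} [AddCommGroup W] [Module ℂ W] [FiniteDimensional ℂ W]
    (τ : Representation ℂ G W) (P : Representation ℂ G V) :
    Cfsg.classInner P.character τ.character = (finrank ℂ (IntertwiningMap τ P) : ℂ) := by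
  have : Invertible (Nat.card G : ℂ) := invertibleOfNonzero card_ne_zero'
  rw [← card_inv_mul_sum_char_mul_char_eq_finrank τ P]
  unfold Cfsg.classInner
  congr 1
  refine Finset.sum_congr rfl fun g _ => ?_
  rw [Cfsg.Agent.Lib.Helper80.char_inv]

/-- if the multiplicity is at most one, intertwining maps from an irreducible are proportional -/
theorem prop_of_multfree {V : Type*} [AddCommGroup V] [Module ℂ V] [FiniteDimensional ℂ V]
    (P : Representation ℂ G V)
    (h : ∀ χ : G → ℂ, Cfsg.IsIrrCharacter G χ →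
      Cfsg.classInner P.character χ = 0 ∨ Cfsg.classInner P.character χ = 1)
    {W : Type*} [AddCommGroup W] [Module ℂ W] [FiniteDimensional ℂ W]
    (τ : Representation ℂ G W) [τ.IsIrreducible] (φ ψ : IntertwiningMap τ P) (hφ : φ ≠ 0) :
    ∃ c : ℂ, c • φ = ψ := by
  have h1 := h τ.character (isIrrCharacter_character τ)
  rw [mult_eq_finrank τ P] at h1
  have h2 : finrank ℂ (IntertwiningMap τ P) = 1 := by
    rcases h1 with h1 | h1
    · exfalso
      have h3 : finrank ℂ (IntertwiningMap τ P) = 0 := by exact_mod_cast h1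
      rw [Module.finrank_zero_iff] at h3
      exact hφ (Subsingleton.elim _ _)
    · exact_mod_cast h1
  exact (finrank_eq_one_iff_of_nonzero' φ hφ).mp h2 ψ

/-- the commutator of two equivariant endomorphisms kills every irreducible -/
theorem comm_comp_of_multfree {V : Type*} [AddCommGroup V] [Module ℂ V] [FiniteDimensional ℂ V]
    (P : Representation ℂ G V)
    (h : ∀ χ : G → ℂ, Cfsg.IsIrrCharacter G χ →
      Cfsg.classInner P.character χ = 0 ∨ Cfsg.classInner P.character χ = 1)
    (S T : IntertwiningMap P P)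
    {W : Type*} [AddCommGroup W] [Module ℂ W] [FiniteDimensional ℂ W]
    (τ : Representation ℂ G W) [τ.IsIrreducible] (φ : IntertwiningMap τ P) (w : W) :
    S (T (φ w)) = T (S (φ w)) := by
  by_cases hφ : φ = 0
  · subst hφ
    simp
  · obtain ⟨a, ha⟩ := prop_of_multfree P h τ φ (S.comp φ) hφ
    obtain ⟨b, hb⟩ := prop_of_multfree P h τ φ (T.comp φ) hφ
    have ha' : ∀ w, S (φ w) = a • φ w := fun w => (DFunLike.congr_fun ha w).symm
    have hb' : ∀ w, T (φ w) = b • φ w := fun w => (DFunLike.congr_fun hb w).symm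
    rw [hb', ha', map_smul, map_smul, ha', hb', smul_comm]

/-- multiplicity-free implies commutative -/
theorem comm_of_multfree {V : Type*} [AddCommGroup V] [Module ℂ V] [FiniteDimensional ℂ V]
    (P : Representation ℂ G V)
    (h : ∀ χ : G → ℂ, Cfsg.IsIrrCharacter G χ →
      Cfsg.classInner P.character χ = 0 ∨ Cfsg.classInner P.character χ = 1)
    (S T : IntertwiningMap P P) (v : V) : S (T v) = T (S v) := by
  have : NeZero (Nat.card G : ℂ) := ⟨card_ne_zero'⟩
  let C : IntertwiningMap P P := S.comp T - T.comp S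
  have hC : ∀ x, C x = S (T x) - T (S x) := fun x => rfl
  let K : Subrepresentation P := C.ker
  obtain ⟨r, hr⟩ := exists_retraction (subrepIncl K) (subrepIncl_injective K)
  let U : Subrepresentation P := r.ker
  by_contra hv
  have hCv : C v ≠ 0 := by
    rw [hC]
    exact sub_ne_zero.mpr hv
  let x : V := v - subrepIncl K (r v)
  have hxU : x ∈ U.toSubmodule := by
    show r (v - subrepIncl K (r v)) = 0
    rw [map_sub, hr, sub_self]
  have hx0 : x ≠ 0 := by
    intro hx
    have hv' : v = subrepIncl K (r v) := sub_eq_zero.mp hx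
    have : C (subrepIncl K (r v)) = 0 := (r v).2
    rw [← hv'] at this
    exact hCv this
  have hnt : Nontrivial U.toSubmodule := ⟨⟨⟨x, hxU⟩, 0, fun hh => hx0 (congrArg Subtype.val hh)⟩⟩
  obtain ⟨W', hW'⟩ := exists_irreducible_subrep U.toRepresentation
  have hntW := Cfsg.Agent.Lib.Helper80.nontrivial_of_isIrreducible W'.toRepresentation
  obtain ⟨w, hw⟩ := exists_ne (0 : W'.toSubmodule)
  let φ : IntertwiningMap W'.toRepresentation P := (subrepIncl U).comp (subrepIncl W')
  have h1 := comm_comp_of_multfree P h S T W'.toRepresentation φ w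
  have h2 : C (φ w) = 0 := by rw [hC, h1, sub_self]
  have h3 : r (φ w) = 0 := (w : U.toSubmodule).2
  have h4 : r (subrepIncl K ⟨φ w, h2⟩) = ⟨φ w, h2⟩ := hr _
  have h5 : φ w = 0 := by
    have : (⟨φ w, h2⟩ : K.toSubmodule) = 0 := by
      rw [← h4]
      exact h3
    exact congrArg Subtype.val this
  apply hw
  apply Subtype.ext
  apply Subtype.ext
  exact h5

/-- commutative implies multiplicity-free -/
theorem multfree_of_comm {V : Type*} [AddCommGroup V] [Module ℂ V] [FiniteDimensional ℂ V]
    (P : Representation ℂ G V)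
    (hc : ∀ (S T : IntertwiningMap P P) (v : V), S (T v) = T (S v))
    {W : Type*} [AddCommGroup W] [Module ℂ W] [FiniteDimensional ℂ W]
    (τ : Representation ℂ G W) [hτ : τ.IsIrreducible] :
    finrank ℂ (IntertwiningMap τ P) ≤ 1 := by
  have : NeZero (Nat.card G : ℂ) := ⟨card_ne_zero'⟩
  by_cases hall : ∀ φ : IntertwiningMap τ P, φ = 0
  · have : Subsingleton (IntertwiningMap τ P) := ⟨fun a b => by rw [hall a, hall b]⟩
    rw [Module.finrank_zero_of_subsingleton]
    exact Nat.zero_le _
  · push Not at hall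
    obtain ⟨φ, hφ⟩ := hall
    have hinj : Function.Injective φ := by
      rcases hτ.eq_bot_or_eq_top φ.ker with hk | hk
      · rw [injective_iff_map_eq_zero]
        intro u hu
        have : u ∈ φ.ker := (IntertwiningMap.mem_ker _ _ φ u).mpr hu
        rw [hk] at this
        exact this
      · exfalso
        apply hφ
        apply DFunLike.ext
        intro u
        have : u ∈ φ.ker := by rw [hk]; trivial
        exact (IntertwiningMap.mem_ker _ _ φ u).mp this
    obtain ⟨r, hr⟩ := exists_retraction φ hinj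
    refine finrank_le_one φ (fun ψ => ?_)
    obtain ⟨c, hcE⟩ := Cfsg.Agent.Lib.Helper80.schur_scalar τ (r.comp ψ).toLinearMap (fun g => by
      apply LinearMap.ext
      intro u
      show r (ψ (τ g u)) = τ g (r (ψ u))
      rw [ψ.isIntertwining, r.isIntertwining])
    refine ⟨c, ?_⟩
    apply DFunLike.ext
    intro u
    have h1 := hc (ψ.comp r) (φ.comp r) (φ u)
    simp only [IntertwiningMap.comp_apply, hr] at h1
    have h2 : r (ψ u) = c • u := by
      have := LinearMap.congr_fun hcE u
      simpa using this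
    rw [h2, map_smul] at h1
    rw [h1]
    rfl

end

/-- Multiplicity-freeness of the permutation character is equivalent to commutativity of the centraliser ring, i.e. of the algebra of `G`-equivariant endomorphisms of the complex permutation module. -/
theorem result {G : Type*} [Group G] [Fintype G] {Ω : Type*} [Fintype Ω] [MulAction G Ω] : (∀ χ : G → ℂ, Cfsg.IsIrrCharacter G χ → Cfsg.classInner (fun g : G => (Nat.card (MulAction.fixedBy Ω g) : ℂ)) χ = 0 ∨ Cfsg.classInner (fun g : G => (Nat.card (MulAction.fixedBy Ω g) : ℂ)) χ = 1) ↔ ∀ S T : (Ω → ℂ) →ₗ[ℂ] (Ω → ℂ), S ∈ ((Cfsg.permRep ℂ G Ω).linHom (Cfsg.permRep ℂ G Ω)).invariants → T ∈ ((Cfsg.permRep ℂ G Ω).linHom (Cfsg.permRep ℂ G Ω)).invariants → S ∘ₗ T = T ∘ₗ S := by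
  have hπ : (fun g : G => (Nat.card (MulAction.fixedBy Ω g) : ℂ)) =
      (Cfsg.permRep ℂ G Ω).character := by
    funext g
    exact (permRep_character g).symm
  rw [hπ]
  constructor
  · intro h S T hS hT
    let S' := invariantsEquivIntertwiningMap (Cfsg.permRep ℂ G Ω) (Cfsg.permRep ℂ G Ω) ⟨S, hS⟩
    let T' := invariantsEquivIntertwiningMap (Cfsg.permRep ℂ G Ω) (Cfsg.permRep ℂ G Ω) ⟨T, hT⟩
    apply LinearMap.ext
    intro v
    exact comm_of_multfree (Cfsg.permRep ℂ G Ω) h S' T' v
  · intro hc χ hχ
    obtain ⟨n, τ, hτ, rfl⟩ := hχ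
    rw [mult_eq_finrank τ (Cfsg.permRep ℂ G Ω)]
    have h1 := multfree_of_comm (Cfsg.permRep ℂ G Ω) (fun S T v => by
      have hS := ((invariantsEquivIntertwiningMap (Cfsg.permRep ℂ G Ω) (Cfsg.permRep ℂ G Ω)).symm S).2
      have hT := ((invariantsEquivIntertwiningMap (Cfsg.permRep ℂ G Ω) (Cfsg.permRep ℂ G Ω)).symm T).2
      exact LinearMap.congr_fun (hc S.toLinearMap T.toLinearMap hS hT) v) τ
    have h2 : finrank ℂ (IntertwiningMap τ (Cfsg.permRep ℂ G Ω)) = 0 ∨
        finrank ℂ (IntertwiningMap τ (Cfsg.permRep ℂ G Ω)) = 1 := by omega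
    rcases h2 with h2 | h2
    · left; rw [h2]; simp
    · right; rw [h2]; simp

end Cfsg.Agent.S0718
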