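import Mathlib
import Cfsg.Statements.S0720
import Cfsg.Agent.Lib.Helper12.TwoP5
import Cfsg.Agent.S0713

set_option autoImplicit false
open Cfsg

namespace Cfsg.Agent.S0720

open MulAction Cfsg.Agent.Lib.Helper12.Hecke Cfsg.Agent.Lib.Helper12.Subdeg
  Cfsg.Agent.Lib.Helper12.PermChar Cfsg.Agent.Lib.Helper12.Coef
  Cfsg.Agent.Lib.Helper12.TwoP1 Cfsg.Agent.Lib.Helper12.TwoP2 Cfsg.Agent.Lib.Helper12.TwoP3
  Cfsg.Agent.Lib.Helper12.TwoP4 Cfsg.Agent.Lib.Helper12.TwoP5
  Cfsg.Agent.Lib.Helper3 Cfsg.Agent.Lib.Helper74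
open scoped ComplexConjugate

theorem two_trans_of_rank_two {G : Type*} [Group G] {Ω : Type*} [Fintype Ω] [MulAction G Ω]
    [IsPretransitive G Ω] (a : Ω)
    (hrank : Nat.card (orbitRel.Quotient (stabilizer G a) Ω) = 2) :
    IsMultiplyPretransitive G Ω 2 := by
  classical
  have : Fintype (orbitRel.Quotient (stabilizer G a) Ω) := Fintype.ofFinite _
  have hmem : ∀ x y : Ω, (Quotient.mk'' x : orbitRel.Quotient (stabilizer G a) Ω) =
      Quotient.mk'' y ↔ x ∈ orbit (stabilizer G a) y := by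
    intro x y
    rw [Quotient.eq'']
    rfl
  have hself : ∀ y, y ∈ orbit (stabilizer G a) a → y = a := by
    intro y hy
    rw [orbit_stabilizer_self] at hy
    exact hy
  have hsame : ∀ u v : Ω, u ≠ a → v ≠ a → u ∈ orbit (stabilizer G a) v := by
    intro u v hu hv
    by_contra hnot
    have h1 : (Quotient.mk'' a : orbitRel.Quotient (stabilizer G a) Ω) ≠ Quotient.mk'' u :=
      fun h => hu (hself u ((hmem u a).mp h.symm))
    have h2 : (Quotient.mk'' a : orbitRel.Quotient (stabilizer G a) Ω) ≠ Quotient.mk'' v :=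
      fun h => hv (hself v ((hmem v a).mp h.symm))
    have h3 : (Quotient.mk'' u : orbitRel.Quotient (stabilizer G a) Ω) ≠ Quotient.mk'' v :=
      fun h => hnot ((hmem u v).mp h)
    have h4 : ({Quotient.mk'' a, Quotient.mk'' u, Quotient.mk'' v} :
        Finset (orbitRel.Quotient (stabilizer G a) Ω)).card = 3 := by
      rw [Finset.card_insert_of_notMem (by simp [h1, h2]),
        Finset.card_insert_of_notMem (by simp [h3]), Finset.card_singleton]
    have h5 := Finset.card_le_univ ({Quotient.mk'' a, Quotient.mk'' u, Quotient.mk'' v} :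
        Finset (orbitRel.Quotient (stabilizer G a) Ω))
    rw [h4, ← Nat.card_eq_fintype_card, hrank] at h5
    omega
  rw [is_two_pretransitive_iff]
  intro x y z w hxy hzw
  obtain ⟨g₁, hg₁⟩ := exists_smul_eq G x a
  obtain ⟨g₂, hg₂⟩ := exists_smul_eq G z a
  have h1 : g₁ • y ≠ a := by
    rw [← hg₁]
    exact fun h => hxy (smul_left_cancel g₁ h).symm
  have h2 : g₂ • w ≠ a := by
    rw [← hg₂]
    exact fun h => hzw (smul_left_cancel g₂ h).symm
  obtain ⟨k, hk⟩ := hsame (g₂ • w) (g₁ • y) h2 h1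
  have hk' : (k : G) • g₁ • y = g₂ • w := hk
  have hka : (k : G) • a = a := k.2
  refine ⟨g₂⁻¹ * (k : G) * g₁, ?_, ?_⟩
  · rw [mul_smul, mul_smul, hg₁, hka, inv_smul_eq_iff, hg₂]
  · rw [mul_smul, mul_smul, inv_smul_eq_iff]
    exact hk'

theorem two_trans_of_alt {α : Type*} [Fintype α] [DecidableEq α] (G : Subgroup (Equiv.Perm α))
    (h : alternatingGroup α ≤ G) (h4 : 4 ≤ Fintype.card α) :
    IsMultiplyPretransitive G α 2 := by
  have h1 := alternatingGroup.isMultiplyPretransitive α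
  have h2 : IsMultiplyPretransitive (alternatingGroup α) α 2 := by
    have h3 : 2 ≤ Nat.card α - 2 := by
      rw [Nat.card_eq_fintype_card]
      omega
    exact isMultiplyPretransitive_of_le (n := Nat.card α - 2) h3 (Nat.sub_le _ _)
  rw [is_two_pretransitive_iff] at h2 ⊢
  intro a b c d hab hcd
  obtain ⟨g, hg1, hg2⟩ := h2 hab hcd
  exact ⟨⟨g.1, h g.2⟩, hg1, hg2⟩

theorem abstract_case {G : Type*} [Group G] [Fintype G] {Ω : Type*} [Fintype Ω] [DecidableEq Ω]
    [MulAction G Ω] [IsPreprimitive G Ω] {p : ℕ} (hp : p.Prime)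
    (hcard : Fintype.card Ω = 2 * p) (P : Subgroup G) [Fintype P] (hPcard : Fintype.card P = p)
    (hsr : ∀ u : P, u ≠ 1 → ∀ x : Ω, (u : G) • x ≠ x) (a : Ω) :
    IsMultiplyPretransitive G Ω 2 ∨
      (Nat.card (orbitRel.Quotient (stabilizer G a) Ω) = 3 ∧ ∃ A : ℕ, 0 < A ∧
        p = 2 * A ^ 2 + 2 * A + 1 ∧ ∀ b : Ω, b ≠ a →
          Nat.card (orbit (stabilizer G a) b) = A * (2 * A + 1) ∨
          Nat.card (orbit (stabilizer G a) b) = (A + 1) * (2 * A + 1)) := by
  classical
  have : Fintype (Cfsg.IrrCharacter G) := Fintype.ofFinite _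
  have hp2 := hp.two_le
  have hcard' : Fintype.card Ω = 2 * Fintype.card P := by rw [hPcard, hcard]
  have : Fact p.Prime := ⟨hp⟩
  have hcomm : ∀ u v : P, u * v = v * u := by
    have hcyc : IsCyclic P := isCyclic_of_prime_card (p := p)
      (by rw [Nat.card_eq_fintype_card, hPcard])
    obtain ⟨g, hg⟩ := hcyc.exists_generator
    intro u v
    obtain ⟨i, rfl⟩ := hg u
    obtain ⟨j, rfl⟩ := hg v
    exact zpow_mul_comm g i j
  have : Nontrivial Ω := by
    rw [← Fintype.one_lt_card_iff_nontrivial, hcard]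
    omega
  obtain ⟨m, hm, hm1, hrank, hdegsum⟩ := exists_mult (G := G) a
  obtain ⟨χ₂, hne, hm2, ha2, huniq⟩ := exists_chi2 P hsr hcard' m hm hm1
  have hpow := chi2_pow P m hm χ₂ hne hm2 ha2 huniq
  have hconst := chi2_const P hp hPcard (χ := (χ₂ : G → ℂ)) hpow
  rcases chi2_degree P hp hPcard hcard' m hm1 hdegsum χ₂ hne hm2 ha2 hconst with
    ⟨h1, hP1⟩ | ⟨hd, hvan⟩ | hd
  · exfalso
    obtain ⟨u₀, hu₀⟩ : ∃ u₀ : P, u₀ ≠ 1 := by
      have : Nontrivial P := by
        rw [← Fintype.one_lt_card_iff_nontrivial, hPcard]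
        omega
      exact exists_ne 1
    exact chi2_degree_ne_one P a χ₂ hne (by rw [hm χ₂, hm2, Nat.cast_one]) h1 hsr u₀ hu₀
      (hP1 u₀)
  · right
    obtain ⟨ω₂, h12⟩ : ∃ ω₂ : Ω, ∀ u : P, (u : G) • a ≠ ω₂ := by
      by_contra hcon
      push Not at hcon
      have hsurj : Function.Surjective (fun u : P => (u : G) • a) := fun ω => hcon ω
      have h1 := Fintype.card_le_of_surjective _ hsurj
      rw [hcard, hPcard] at h1
      omega
    have hmain := fun ψ' h2' hm' =>
      constituents_main P hPcard hcomm hsr hcard' m hm χ₂ hm2 hd hvan ψ' h2' hm'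
    have hMC : MainCase P p a ω₂ m χ₂ :=
      { hp := hp, hPcard := hPcard, hcomm := hcomm, hsr := hsr, hcard := hcard', h12 := h12,
        hm := hm, hne := hne, hm1 := hm1, hm2 := hm2, hd2 := hd, hvan := hvan,
        hmf := fun ψ hψ => by
          by_cases h : ψ = χ₂
          · rw [h]
            exact hm2
          · exact (hmain ψ h hψ).1
        hYself := fun ψ h2 hψ => (hmain ψ h2 hψ).2.1
        hYorth := fun ψ ψ' h2 h2' hne' hψ hψ' => (hmain ψ' h2' hψ').2.2 ψ h2 hne' hψ }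
    exact main_case hMC
  · left
    have hex : ∀ ψ : Cfsg.IrrCharacter G, ∃ n : ℕ, 0 < n ∧ (ψ : G → ℂ) 1 = n :=
      fun ψ => Cfsg.Agent.Lib.Helper81.irr_one_eq ψ
    choose deg hdegpos hdeg using hex
    have hsum := hdegsum deg hdeg
    have hd1 : deg (irrOne G) = 1 := by
      have e := hdeg (irrOne G)
      rw [irrOne_apply] at e
      exact_mod_cast e.symm
    have hd2 : deg χ₂ + 1 = 2 * p := by
      have e := hdeg χ₂
      rw [hd] at e
      have e2 : ((deg χ₂ + 1 : ℕ) : ℂ) = ((2 * p : ℕ) : ℂ) := by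
        push_cast
        rw [← e]
        ring
      exact_mod_cast e2
    have e1 := Finset.add_sum_erase Finset.univ (fun ψ => m ψ * deg ψ) (Finset.mem_univ χ₂)
    have hi : irrOne G ∈ Finset.univ.erase χ₂ :=
      Finset.mem_erase.mpr ⟨hne.symm, Finset.mem_univ _⟩
    have e2 := Finset.add_sum_erase (Finset.univ.erase χ₂) (fun ψ => m ψ * deg ψ) hi
    beta_reduce at e1 e2
    rw [hm2, one_mul] at e1
    rw [hm1, one_mul, hd1] at e2
    rw [hsum, hcard] at e1
    have e3 : ∑ ψ ∈ (Finset.univ.erase χ₂).erase (irrOne G), m ψ * deg ψ = 0 := by omega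
    have hm0 : ∀ ψ : Cfsg.IrrCharacter G, ψ ≠ irrOne G ∧ ψ ≠ χ₂ → m ψ ^ 2 = 0 := by
      intro ψ hψ
      have e4 := Finset.sum_eq_zero_iff.mp e3 ψ
        (Finset.mem_erase.mpr ⟨hψ.1, Finset.mem_erase.mpr ⟨hψ.2, Finset.mem_univ _⟩⟩)
      rcases Nat.mul_eq_zero.mp e4 with e5 | e5
      · rw [e5]
        norm_num
      · exact absurd e5 (hdegpos ψ).ne'
    have hr2 : Nat.card (orbitRel.Quotient (stabilizer G a) Ω) = 2 := by
      rw [← hrank, Finset.sum_eq_add (irrOne G) χ₂ hne.symm (fun ψ _ hψ => hm0 ψ hψ)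
        (fun h => absurd (Finset.mem_univ _) h) (fun h => absurd (Finset.mem_univ _) h), hm1, hm2]
      norm_num
    exact two_trans_of_rank_two a hr2

/-- Wielandt's Theorem on primitive groups of degree `2p`: such a group is doubly transitive, or it has rank 3, `p = 2a² + 2a + 1`, and subdegrees `a(2a+1)` and `(a+1)(2a+1)`. -/
theorem result {α : Type*} [Fintype α] [DecidableEq α] {p : ℕ} (hp : p.Prime) (hα : Fintype.card α = 2 * p) (G : Subgroup (Equiv.Perm α)) (hG : MulAction.IsPreprimitive G α) (a₀ : α) : MulAction.IsMultiplyPretransitive G α 2 ∨ (Nat.card (MulAction.orbitRel.Quotient (MulAction.stabilizer G a₀) α) = 3 ∧ ∃ a : ℕ, 0 < a ∧ p = 2 * a ^ 2 + 2 * a + 1 ∧ ∀ b : α, b ≠ a₀ → Nat.card (MulAction.orbit (MulAction.stabilizer G a₀) b) = a * (2 * a + 1) ∨ Nat.card (MulAction.orbit (MulAction.stabilizer G a₀) b) = (a + 1) * (2 * a + 1)) := by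
  classical
  have : Fintype G := Fintype.ofFinite G
  have hp2 := hp.two_le
  have : Fact p.Prime := ⟨hp⟩
  have hdvd : p ∣ Nat.card G := by
    have h1 := card_eq_stab_mul (G := G) (Ω := α) a₀
    have h2 : Nat.card G = Nat.card (stabilizer G a₀) * Fintype.card α := by exact_mod_cast h1
    rw [h2, hα]
    exact dvd_mul_of_dvd_right (dvd_mul_left p 2) _
  obtain ⟨x, hx⟩ := exists_prime_orderOf_dvd_card' p hdvd
  obtain ⟨P, hPdef⟩ : ∃ P : Subgroup G, P = Subgroup.zpowers x := ⟨_, rfl⟩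
  have : Fintype P := Fintype.ofFinite P
  have hPcard : Fintype.card P = p := by
    rw [← Nat.card_eq_fintype_card, hPdef, Nat.card_zpowers, hx]
  by_cases hsr : ∀ u : P, u ≠ 1 → ∀ ω : α, (u : G) • ω ≠ ω
  · exact abstract_case hp hα P hPcard hsr a₀
  · left
    push Not at hsr
    obtain ⟨u, hu1, ω, hω⟩ := hsr
    have hord : orderOf u = p := orderOf_eq_prime (by rw [← hPcard, pow_card_eq_one]) hu1
    have hordy : orderOf (((u : G) : Equiv.Perm α)) = p := by
      rw [Subgroup.orderOf_coe, Subgroup.orderOf_coe, hord]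
    have hfixed : ω ∉ (((u : G) : Equiv.Perm α)).support := by
      rw [Equiv.Perm.mem_support, not_not]
      exact hω
    have hcyc : (((u : G) : Equiv.Perm α)).IsCycle := by
      apply Equiv.Perm.isCycle_of_prime_order (by rw [hordy]; exact hp)
      rw [hordy]
      have h1 : (((u : G) : Equiv.Perm α)).support ⊆ Finset.univ.erase ω :=
        fun z hz => Finset.mem_erase.mpr ⟨fun h => hfixed (h ▸ hz), Finset.mem_univ _⟩
      have h2 := Finset.card_le_card h1
      rw [Finset.card_erase_of_mem (Finset.mem_univ _), Finset.card_univ, hα] at h2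
      omega
    have hsupp : (((u : G) : Equiv.Perm α)).support.card = p := by
      rw [← hcyc.orderOf, hordy]
    have hmem : (((u : G) : Equiv.Perm α)) ∈ G := (u : G).2
    by_cases hp3 : p = 2
    · have hswap : (((u : G) : Equiv.Perm α)).IsSwap :=
        Equiv.Perm.card_support_eq_two.mp (by rw [hsupp, hp3])
      have htop := Equiv.Perm.subgroup_eq_top_of_isPreprimitive_of_isSwap_mem hG _ hswap hmem
      exact two_trans_of_alt G (by rw [htop]; exact le_top) (by rw [hα]; omega)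
    · have halt := Cfsg.Agent.S0713.result G hG hp (by rw [hα]; omega) (by rw [hα]; omega)
        hcyc hsupp hmem
      exact two_trans_of_alt G halt (by rw [hα]; omega)

end Cfsg.Agent.S0720
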