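import Mathlib
import Cfsg.Statements.S0722

set_option autoImplicit false
open Cfsg

namespace Cfsg.Agent.S0722

/-- In a finite primitive permutation group `H` with a minimal normal subgroup `N` and point stabiliser `H_a`, the subgroup `H_a ∩ N` is a maximal `H_a`-invariant subgroup of `N`: every subgroup `X` of `N` that contains `H_a ∩ N` and is normalised by `H_a` equals `H_a ∩ N` or `N`. -/
theorem result {α : Type*} [Finite α] (H : Subgroup (Equiv.Perm α)) [MulAction.IsPreprimitive H α] (N : Subgroup H) [N.Normal] (hN : N ≠ ⊥) (hmin : ∀ M : Subgroup H, M.Normal → M ≤ N → M = ⊥ ∨ M = N) (a : α) (X : Subgroup H) (hX : X ≤ N) (hKX : MulAction.stabilizer H a ⊓ N ≤ X) (hinv : MulAction.stabilizer H a ≤ Subgroup.normalizer (X : Set H)) : X = MulAction.stabilizer H a ⊓ N ∨ X = N := by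
  have hnt : Nontrivial α := by
    by_contra h
    rw [not_nontrivial_iff_subsingleton] at h
    apply hN
    rw [eq_bot_iff]
    intro n _
    rw [Subgroup.mem_bot]
    ext x
    exact Subsingleton.elim _ _
  have hco : IsCoatom (MulAction.stabilizer H a) :=
    MulAction.IsPreprimitive.isCoatom_stabilizer_of_isPreprimitive (G := H) a
  have hle : MulAction.stabilizer H a ≤ MulAction.stabilizer H a ⊔ X := le_sup_left
  rcases eq_or_lt_of_le hle with h | h
  · left
    apply le_antisymm
    · apply le_inf _ hX
      rw [h]; exact le_sup_right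
    · exact hKX
  · right
    have htop : MulAction.stabilizer H a ⊔ X = ⊤ := hco.2 _ h
    apply le_antisymm hX
    intro n hn
    have hmem : n ∈ ((MulAction.stabilizer H a ⊔ X : Subgroup H) : Set H) := by
      rw [htop]; trivial
    rw [Subgroup.coe_mul_of_left_le_normalizer_right _ X hinv] at hmem
    obtain ⟨s, hs, x, hx, rfl⟩ := hmem
    have hsN : s ∈ N := by
      have := N.mul_mem hn (N.inv_mem (hX hx))
      simpa using this
    have : s ∈ X := hKX ⟨hs, hsN⟩
    exact X.mul_mem this hx

end Cfsg.Agent.S0722
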