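import Mathlib
import Cfsg.Statements.S0723
import Cfsg.Agent.Lib.Helper12.OSProd
import Cfsg.Agent.Lib.Helper12.MinNormalNA

set_option autoImplicit false
open Cfsg

namespace Cfsg.Agent.S0723

open Cfsg.Agent.Lib.Helper12 Cfsg.Agent.Lib.Helper12.MinNormalNA

/-- the group-theoretic core: `K` a maximal subgroup with `H = K N`, `N` a non-abelian minimal
normal subgroup not contained in `K`. -/
theorem core {H : Type*} [Group H] [Finite H] (N : Subgroup H) [N.Normal] (hN : N ≠ ⊥)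
    (hmin : ∀ M : Subgroup H, M.Normal → M ≤ N → M = ⊥ ∨ M = N)
    (hnab : ∃ x ∈ N, ∃ y ∈ N, x * y ≠ y * x)
    (K : Subgroup H) (hK : IsCoatom K) (hKN : ∀ h : H, ∃ k ∈ K, ∃ n ∈ N, h = k * n)
    (hNK : ¬ N ≤ K) :
    ∃ (T : Type) (_ : Group T) (m : ℕ) (e : N ≃* (Fin m → T)), IsSimpleGroup T ∧
      (∃ a b : T, a * b ≠ b * a) ∧ 0 < m ∧
      ((∃ L : Fin m → Subgroup T, (∀ i, L i ≠ ⊤) ∧ ∀ n : N, (n : H) ∈ K ↔ ∀ i, e n i ∈ L i) ∨
       (∃ (k : ℕ) (c : Fin m → Fin m), 2 ≤ k ∧
        (∀ j : Fin m, Nat.card {i : Fin m // c i = j} = k ∨ Nat.card {i : Fin m // c i = j} = 0) ∧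
        ∀ n : N, (n : H) ∈ K ↔ ∀ i j : Fin m, c i = c j → e n i = e n j)) := by
  classical
  obtain ⟨m, S, hm, hSinj, hSN, hSnorm, hScomm, hind, hsup, hSsimple, hSna, hSperm, hStrans⟩ :=
    exists_family N hN hmin hnab
  have hcomm' : Pairwise fun i j : Fin m => ∀ x y : H, x ∈ S i → y ∈ S j → Commute x y :=
    fun i j hij x y hx hy => hScomm i j hij x hx y hy
  let ψ : (∀ i, S i) →* H := Subgroup.noncommPiCoprod hcomm'
  have hψinj : Function.Injective ψ := Subgroup.injective_noncommPiCoprod_of_iSupIndep hind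
  have hψrange : ψ.range = N := by rw [Subgroup.noncommPiCoprod_range, hsup]
  let ψN : (∀ i, S i) ≃* N := (MonoidHom.ofInjective hψinj).trans (MulEquiv.subgroupCongr hψrange)
  have hψN : ∀ x, ((ψN x : N) : H) = ψ x := fun x => rfl
  -- coordinates
  have hπ1 : ∀ (l : Fin m) (y : S l) (yN : N), (yN : H) = (y : H) →
      ψN.symm yN = Pi.mulSingle l y := by
    intro l y yN hy
    rw [MulEquiv.symm_apply_eq]
    apply Subtype.ext
    rw [hψN, hy]
    exact (Subgroup.noncommPiCoprod_mulSingle l y).symm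
  have hπ2 : ∀ (h : H) (i j : Fin m), cj h (S i) = S j → ∀ n : N,
      (((ψN.symm (MulAut.conjNormal h n)) j : S j) : H) = h * ((ψN.symm n) i : H) * h⁻¹ := by
    intro h i j hij n
    let F₁ : (∀ l, S l) →* H :=
      (S j).subtype.comp ((Pi.evalMonoidHom (fun l => S l) j).comp
        (ψN.symm.toMonoidHom.comp ((MulAut.conjNormal h : MulAut N).toMonoidHom.comp
          ψN.toMonoidHom)))
    let F₂ : (∀ l, S l) →* H :=
      (MulAut.conj h).toMonoidHom.comp ((S i).subtype.comp (Pi.evalMonoidHom (fun l => S l) i))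
    have hF : F₁ = F₂ := by
      apply MonoidHom.pi_ext
      intro l y
      obtain ⟨l', hl'⟩ := hSperm h l
      have hz : h * (y : H) * h⁻¹ ∈ S l' := by rw [← hl']; exact conj_mem_cj y.2
      have h1 : ψN.symm (MulAut.conjNormal h (ψN (Pi.mulSingle l y))) =
          Pi.mulSingle l' ⟨h * (y : H) * h⁻¹, hz⟩ := by
        apply hπ1
        rw [MulAut.conjNormal_apply, hψN]
        show h * ψ (Pi.mulSingle l y) * h⁻¹ = _
        rw [show ψ (Pi.mulSingle l y) = (y : H) from Subgroup.noncommPiCoprod_mulSingle l y]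
      show (((ψN.symm (MulAut.conjNormal h (ψN (Pi.mulSingle l y)))) j : S j) : H) =
        h * ((Pi.mulSingle l y : ∀ l, S l) i : H) * h⁻¹
      rw [h1]
      by_cases hli : l = i
      · subst hli
        have hl'j : l' = j := hSinj (by rw [← hl', hij])
        subst hl'j
        rw [Pi.mulSingle_eq_same, Pi.mulSingle_eq_same]
      · have hl'j : l' ≠ j := by
          intro h2
          apply hli
          apply hSinj
          apply cj_injective h
          rw [hl', h2, hij]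
        rw [Pi.mulSingle_eq_of_ne (Ne.symm hl'j), Pi.mulSingle_eq_of_ne (Ne.symm hli)]
        simp
    have := DFunLike.congr_fun hF (ψN.symm n)
    simp only [F₁, F₂, MonoidHom.comp_apply, MulEquiv.coe_toMonoidHom, MulEquiv.apply_symm_apply,
      Subgroup.coe_subtype, Pi.evalMonoidHom_apply, MulAut.conj_apply] at this
    exact this
  -- the abstract simple group
  let i₀ : Fin m := ⟨0, hm⟩
  have hS₀ : IsSimpleGroup (S i₀) := hSsimple i₀
  let T : Type := Shrink.{0} (S i₀)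
  let sh : T ≃* S i₀ := Shrink.mulEquiv
  have hTsimple : IsSimpleGroup T := sh.isSimpleGroup
  have hTna : ∃ a b : T, a * b ≠ b * a := by
    obtain ⟨x, hx, y, hy, hxy⟩ := hSna i₀
    refine ⟨sh.symm ⟨x, hx⟩, sh.symm ⟨y, hy⟩, ?_⟩
    intro h
    apply hxy
    rw [← map_mul, ← map_mul] at h
    have := sh.symm.injective h
    exact congrArg Subtype.val this
  choose g hg using fun i => hStrans i i₀
  let φ : ∀ i, S i ≃* T := fun i => (conjEquiv (g i) (S i) (S i₀) (hg i)).trans sh.symm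
  let e : N ≃* (Fin m → T) := ψN.symm.trans (MulEquiv.piCongrRight φ)
  have he : ∀ (n : N) (i : Fin m), e n i = φ i ((ψN.symm n) i) := fun n i => rfl
  -- the automorphisms
  let 𝒜 : Set (MulAut (Fin m → T)) :=
    {A | ∃ k ∈ K, ∀ n : N, A (e n) = e (MulAut.conjNormal k n)}
  let D : Subgroup (Fin m → T) := (K.subgroupOf N).map e.toMonoidHom
  have hDmem : ∀ n : N, e n ∈ D ↔ (n : H) ∈ K := by
    intro n
    show e.toMonoidHom n ∈ (K.subgroupOf N).map e.toMonoidHom ↔ _
    rw [Subgroup.mem_map_iff_mem e.injective, Subgroup.mem_subgroupOf]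
  have hrel : ∀ (A : MulAut (Fin m → T)) (k : H),
      (∀ n : N, A (e n) = e (MulAut.conjNormal k n)) → ∀ i j, cj k (S i) = S j →
        OSProd.Rel A i j := by
    intro A k hA i j hij
    refine ⟨(φ i).symm.trans ((conjEquiv k (S i) (S j) hij).trans (φ j)), fun x => ?_⟩
    obtain ⟨n, rfl⟩ := e.surjective x
    rw [hA n, he, he]
    simp only [MulEquiv.trans_apply, MulEquiv.symm_apply_apply]
    congr 1
    apply Subtype.ext
    rw [hπ2 k i j hij n, conjEquiv_coe]
  have hAk : ∀ k : H, ∃ A : MulAut (Fin m → T), ∀ n : N, A (e n) = e (MulAut.conjNormal k n) := by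
    intro k
    refine ⟨e.symm.trans ((MulAut.conjNormal k : MulAut N).trans e), fun n => ?_⟩
    simp
  have hinv : ∀ A ∈ 𝒜, A⁻¹ ∈ 𝒜 := by
    rintro A ⟨k, hk, hA⟩
    refine ⟨k⁻¹, K.inv_mem hk, fun n => ?_⟩
    have h1 := hA (MulAut.conjNormal k⁻¹ n)
    have h2 : MulAut.conjNormal k (MulAut.conjNormal k⁻¹ n) = n := by
      rw [map_inv]; simp
    rw [h2] at h1
    rw [← h1, MulAut.inv_apply_self]
  have hD : ∀ A ∈ 𝒜, ∀ x ∈ D, A x ∈ D := by
    rintro A ⟨k, hk, hA⟩ x hx
    obtain ⟨n, rfl⟩ := e.surjective x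
    rw [hDmem] at hx
    rw [hA n, hDmem, MulAut.conjNormal_apply]
    exact K.mul_mem (K.mul_mem hk hx) (K.inv_mem hk)
  have hperm : ∀ A ∈ 𝒜, ∀ i, ∃ j, OSProd.Rel A i j := by
    rintro A ⟨k, hk, hA⟩ i
    obtain ⟨j, hj⟩ := hSperm k i
    exact ⟨j, hrel A k hA i j hj⟩
  have htrans : ∀ i j, ∃ A ∈ 𝒜, OSProd.Rel A i j := by
    intro i j
    obtain ⟨h, hh⟩ := hStrans i j
    obtain ⟨k, hk, n, hn, rfl⟩ := hKN h
    have hkij : cj k (S i) = S j := by
      rw [← hh, ← cj_mul, cj_eq_of_normBy (hSnorm i) hn]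
    obtain ⟨A, hA⟩ := hAk k
    exact ⟨A, ⟨k, hk, hA⟩, hrel A k hA i j hkij⟩
  have hDtop : D ≠ ⊤ := by
    intro h
    apply hNK
    intro n hn
    have : e ⟨n, hn⟩ ∈ D := by rw [h]; trivial
    rw [hDmem] at this
    exact this
  have hmax : ∀ R : Subgroup (Fin m → T), (∀ A ∈ 𝒜, ∀ x ∈ R, A x ∈ R) → D ≤ R →
      R = D ∨ R = ⊤ := by
    intro R hRinv hDR
    -- the subgroup `K R₀`
    let Q : Subgroup H :=
      { carrier := {h | ∃ k ∈ K, ∃ r : N, e r ∈ R ∧ h = k * r}
        mul_mem' := by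
          rintro _ _ ⟨k, hk, r, hr, rfl⟩ ⟨k', hk', r', hr', rfl⟩
          obtain ⟨A, hA⟩ := hAk k'⁻¹
          refine ⟨k * k', K.mul_mem hk hk', MulAut.conjNormal k'⁻¹ r * r', ?_, ?_⟩
          · rw [map_mul]
            refine R.mul_mem ?_ hr'
            rw [← hA r]
            exact hRinv A ⟨k'⁻¹, K.inv_mem hk', hA⟩ _ hr
          · rw [Subgroup.coe_mul, MulAut.conjNormal_apply]
            group
        one_mem' := ⟨1, K.one_mem, 1, by rw [map_one]; exact R.one_mem, by simp⟩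
        inv_mem' := by
          rintro _ ⟨k, hk, r, hr, rfl⟩
          obtain ⟨A, hA⟩ := hAk k
          refine ⟨k⁻¹, K.inv_mem hk, MulAut.conjNormal k r⁻¹, ?_, ?_⟩
          · rw [← hA, map_inv]
            exact hRinv A ⟨k, hk, hA⟩ _ (R.inv_mem hr)
          · rw [MulAut.conjNormal_apply, Subgroup.coe_inv]
            group }
    have hKQ : K ≤ Q := fun k hk => ⟨k, hk, 1, by rw [map_one]; exact R.one_mem, by simp⟩
    have hRQ : ∀ r : N, e r ∈ R → (r : H) ∈ Q := fun r hr => ⟨1, K.one_mem, r, hr, by simp⟩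
    by_cases hQK : Q = K
    · left
      apply le_antisymm _ hDR
      intro x hx
      obtain ⟨n, rfl⟩ := e.surjective x
      rw [hDmem, ← hQK]
      exact hRQ n hx
    · right
      have hQtop : Q = ⊤ := hK.2 Q (lt_of_le_of_ne hKQ (Ne.symm hQK))
      rw [eq_top_iff]
      intro x _
      obtain ⟨n, rfl⟩ := e.surjective x
      have hnQ : (n : H) ∈ Q := by rw [hQtop]; trivial
      obtain ⟨k, hk, r, hr, hnkr⟩ := hnQ
      have hkN : k ∈ N := by
        have : k = (n : H) * (r : H)⁻¹ := by rw [hnkr]; group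
        rw [this]
        exact N.mul_mem n.2 (N.inv_mem r.2)
      have hkR : e ⟨k, hkN⟩ ∈ R := hDR ((hDmem ⟨k, hkN⟩).2 hk)
      have : n = ⟨k, hkN⟩ * r := Subtype.ext hnkr
      rw [this, map_mul]
      exact R.mul_mem hkR hr
  obtain ⟨θ, hθ⟩ := OSProd.main hTna hm D 𝒜 hinv hD hperm htrans hmax hDtop
  let e' : N ≃* (Fin m → T) := e.trans (MulEquiv.piCongrRight θ)
  have he' : ∀ (n : N) (i : Fin m), e' n i = θ i (e n i) := fun n i => rfl
  refine ⟨T, inferInstance, m, e', hTsimple, hTna, hm, ?_⟩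
  rcases hθ with ⟨L, hL, hLD⟩ | ⟨k, c, hk, hc, hcD⟩
  · left
    refine ⟨L, hL, fun n => ?_⟩
    rw [← hDmem, hLD]
    rfl
  · right
    refine ⟨k, c, hk, hc, fun n => ?_⟩
    rw [← hDmem, hcD]
    rfl

/-- The core of the O'Nan–Scott Theorem. Let `H` be a primitive permutation group on a finite set whose unique minimal normal subgroup `N` is non-abelian, and `K` a point stabiliser. Then there are a non-abelian simple group `T` and an isomorphism `N ≃* T^m` (`m ≥ 1`) under which `K ⊓ N` becomes either a product `∏ K_i` of proper subgroups `K_i < T`, or the set of functions constant on each block of a partition of the index set into blocks of one common size `k ≥ 2`. -/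
theorem result {α : Type*} [Finite α] (H : Subgroup (Equiv.Perm α)) [MulAction.IsPreprimitive H α] (N : Subgroup H) [N.Normal] (hN : N ≠ ⊥) (hmin : ∀ M : Subgroup H, M.Normal → M ≤ N → M = ⊥ ∨ M = N) (huniq : ∀ L : Subgroup H, L.Normal → L ≠ ⊥ → (∀ M : Subgroup H, M.Normal → M ≤ L → M = ⊥ ∨ M = L) → L = N) (hnab : ¬ IsMulCommutative N) (a : α) : ∃ (T : Type) (_ : Group T) (m : ℕ) (e : N ≃* (Fin m → T)), IsSimpleGroup T ∧ ¬ IsMulCommutative T ∧ 0 < m ∧ ((∃ K : Fin m → Subgroup T, (∀ i, K i ≠ ⊤) ∧ ∀ n : N, (n : H) ∈ MulAction.stabilizer H a ↔ ∀ i, e n i ∈ K i) ∨ (∃ (k : ℕ) (c : Fin m → Fin m), 2 ≤ k ∧ (∀ j : Fin m, Nat.card {i : Fin m // c i = j} = k ∨ Nat.card {i : Fin m // c i = j} = 0) ∧ ∀ n : N, (n : H) ∈ MulAction.stabilizer H a ↔ ∀ i j : Fin m, c i = c j → e n i = e n j)) := by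
  have _ := huniq
  -- `N` contains a non-commuting pair
  have hnab' : ∃ x ∈ N, ∃ y ∈ N, x * y ≠ y * x := by
    by_contra hcon
    push Not at hcon
    exact hnab ⟨⟨fun x y => Subtype.ext (hcon x x.2 y y.2)⟩⟩
  -- elements of `N` fixing every point are trivial
  have hfix : ∀ n : H, (∀ b : α, n • b = b) → n = 1 := by
    intro n hn
    apply Subtype.ext
    ext b
    exact hn b
  have hNfix : MulAction.fixedPoints N α ≠ Set.univ := by
    intro h
    apply hN
    rw [eq_bot_iff]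
    intro n hn
    rw [Subgroup.mem_bot]
    apply hfix
    intro b
    have : b ∈ MulAction.fixedPoints N α := by rw [h]; trivial
    exact this ⟨n, hn⟩
  have hNtrans : MulAction.IsPretransitive N α :=
    MulAction.IsQuasiPreprimitive.isPretransitive_of_normal hNfix
  have hnontriv : Nontrivial α := by
    by_contra hcon
    rw [not_nontrivial_iff_subsingleton] at hcon
    apply hN
    rw [eq_bot_iff]
    intro n _
    rw [Subgroup.mem_bot]
    apply hfix
    intro b
    exact Subsingleton.elim _ _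
  have hK : IsCoatom (MulAction.stabilizer H a) :=
    MulAction.IsPreprimitive.isCoatom_stabilizer_of_isPreprimitive H a
  have hKN : ∀ h : H, ∃ k ∈ MulAction.stabilizer H a, ∃ n ∈ N, h = k * n := by
    intro h
    obtain ⟨n, hn⟩ := MulAction.exists_smul_eq N a (h⁻¹ • a)
    refine ⟨h * (n : H), ?_, (n : H)⁻¹, N.inv_mem n.2, by group⟩
    rw [MulAction.mem_stabilizer_iff, mul_smul]
    have : (n : H) • a = h⁻¹ • a := hn
    rw [this, smul_inv_smul]
  have hNK : ¬ N ≤ MulAction.stabilizer H a := by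
    intro hle
    obtain ⟨b, c, hbc⟩ := hnontriv
    obtain ⟨n, hn⟩ := MulAction.exists_smul_eq N a b
    obtain ⟨n', hn'⟩ := MulAction.exists_smul_eq N a c
    have h1 : (n : H) • a = a := MulAction.mem_stabilizer_iff.1 (hle n.2)
    have h2 : (n' : H) • a = a := MulAction.mem_stabilizer_iff.1 (hle n'.2)
    have h3 : (n : H) • a = b := hn
    have h4 : (n' : H) • a = c := hn'
    exact hbc (by rw [← h3, ← h4, h1, h2])
  obtain ⟨T, hTg, m, e, hTs, hTna, hm, hcase⟩ :=
    core N hN hmin hnab' (MulAction.stabilizer H a) hK hKN hNK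
  refine ⟨T, hTg, m, e, hTs, ?_, hm, hcase⟩
  intro hc
  obtain ⟨x, y, hxy⟩ := hTna
  exact hxy (hc.is_comm.comm x y)

end Cfsg.Agent.S0723
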