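import Mathlib
import Cfsg.Statements.S0724

set_option autoImplicit false
open Cfsg

namespace Cfsg.Agent.S0724

open MulAction

theorem card_fixedBy_pi {G : Type*} [Group G] {α : Type*} [Fintype α] [DecidableEq α]
    [MulAction G α] (k : ℕ) (g : G) :
    Nat.card (fixedBy (Fin k → α) g) = Nat.card (fixedBy α g) ^ k := by
  classical
  have e : fixedBy (Fin k → α) g ≃ (Fin k → fixedBy α g) :=
    (Equiv.subtypeEquivRight (fun f => by
      change g • f = f ↔ ∀ i, f i ∈ fixedBy α g
      rw [funext_iff]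
      rfl)).trans (Equiv.subtypePiEquivPi (p := fun _ a => a ∈ fixedBy α g))
  rw [Nat.card_congr e, Nat.card_fun, Nat.card_fin]

theorem lemmaA {G : Type*} [Group G] [Fintype G] {α : Type*} [Fintype α] [DecidableEq α]
    [MulAction G α] (k : ℕ) :
    (Nat.card G : ℤ) ∣ ∑ g : G, (Nat.card (fixedBy α g) : ℤ) ^ k := by
  classical
  have h := MulAction.sum_card_fixedBy_eq_card_orbits_mul_card_group G (Fin k → α)
  have h2 : ∑ g : G, (Nat.card (fixedBy α g) : ℤ) ^ k
      = ((∑ g : G, Fintype.card (fixedBy (Fin k → α) g) : ℕ) : ℤ) := by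
    rw [Nat.cast_sum]
    apply Finset.sum_congr rfl
    intro g _
    rw [← Nat.card_eq_fintype_card, card_fixedBy_pi, Nat.cast_pow]
  rw [h2, h, Nat.card_eq_fintype_card, Nat.cast_mul]
  exact dvd_mul_left _ _

theorem lemmaB {G : Type*} [Group G] [Fintype G] {α : Type*} [Fintype α] [DecidableEq α]
    [MulAction G α] (L : Finset ℕ) :
    ∀ k : ℕ, (Nat.card G : ℤ) ∣
      ∑ g : G, (Nat.card (fixedBy α g) : ℤ) ^ k * ∏ l ∈ L, ((Nat.card (fixedBy α g) : ℤ) - l) := by
  induction L using Finset.induction_on with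
  | empty =>
    intro k
    simpa using lemmaA (G := G) (α := α) k
  | insert a L ha ih =>
    intro k
    have h1 := ih (k + 1)
    have h2 := ih k
    have h3 : ∑ g : G, (Nat.card (fixedBy α g) : ℤ) ^ k *
        ∏ l ∈ insert a L, ((Nat.card (fixedBy α g) : ℤ) - l)
        = ∑ g : G, (Nat.card (fixedBy α g) : ℤ) ^ (k + 1) *
            ∏ l ∈ L, ((Nat.card (fixedBy α g) : ℤ) - l)
          - (a : ℤ) * ∑ g : G, (Nat.card (fixedBy α g) : ℤ) ^ k *
            ∏ l ∈ L, ((Nat.card (fixedBy α g) : ℤ) - l) := by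
      rw [Finset.mul_sum, ← Finset.sum_sub_distrib]
      apply Finset.sum_congr rfl
      intro g _
      rw [Finset.prod_insert ha]
      ring
    rw [h3]
    exact dvd_sub h1 (Dvd.dvd.mul_left h2 _)

/-- Blichfeldt's divisibility: if every non-identity element of a permutation group `G` of degree `n` has its number of fixed points in the finite set `L`, then `|G|` divides the product of `n - l` over `l ∈ L`. -/
theorem result {α : Type*} [Fintype α] [DecidableEq α] (G : Subgroup (Equiv.Perm α)) (L : Finset ℕ) (hL : ∀ g ∈ G, g ≠ 1 → Nat.card (MulAction.fixedBy α g) ∈ L) : Nat.card G ∣ ∏ l ∈ L, (Fintype.card α - l) := by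
  classical
  by_cases hbig : ∃ l ∈ L, Fintype.card α < l
  · obtain ⟨l, hl, hlt⟩ := hbig
    have : ∏ l ∈ L, (Fintype.card α - l) = 0 :=
      Finset.prod_eq_zero hl (Nat.sub_eq_zero_of_le hlt.le)
    rw [this]
    exact dvd_zero _
  · push Not at hbig
    have : Fintype G := Fintype.ofFinite G
    have hB := lemmaB (G := G) (α := α) L 0
    simp only [pow_zero, one_mul] at hB
    have hsum : ∑ g : G, ∏ l ∈ L, ((Nat.card (fixedBy α g) : ℤ) - l)
        = ∏ l ∈ L, ((Fintype.card α : ℤ) - l) := by
      rw [Finset.sum_eq_single (1 : G)]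
      · have h1 : fixedBy α (1 : G) = Set.univ := by
          ext a
          simp [mem_fixedBy]
        rw [h1, Nat.card_coe_set_eq, Set.ncard_univ, Nat.card_eq_fintype_card]
      · intro g _ hg
        have hg' : (g : Equiv.Perm α) ≠ 1 := fun h => hg (Subtype.ext h)
        have hmem := hL g g.2 hg'
        apply Finset.prod_eq_zero hmem
        rw [sub_eq_zero]
        rfl
      · intro h
        exact absurd (Finset.mem_univ _) h
    rw [hsum] at hB
    have hcast : ∏ l ∈ L, ((Fintype.card α : ℤ) - l) = ((∏ l ∈ L, (Fintype.card α - l) : ℕ) : ℤ) := by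
      rw [Nat.cast_prod]
      apply Finset.prod_congr rfl
      intro l hl
      rw [Nat.cast_sub (hbig l hl)]
    rw [hcast] at hB
    exact Int.natCast_dvd_natCast.mp hB

end Cfsg.Agent.S0724
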