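import Mathlib
import Cfsg.Statements.S0728

set_option autoImplicit false
open Cfsg

namespace Cfsg.Agent.S0728

/-- sharpness in permutation form: an element of `G` fixing three distinct points is trivial. -/
theorem sharp {α : Type*} [Fintype α] [DecidableEq α] (G : Subgroup (Equiv.Perm α))
    (hsharp : ∀ x : Fin 3 ↪ α, MulAction.stabilizer G x = ⊥)
    (g : Equiv.Perm α) (hg : g ∈ G) {c d e : α} (hcd : c ≠ d) (hce : c ≠ e) (hde : d ≠ e)
    (h1 : g c = c) (h2 : g d = d) (h3 : g e = e) : g = 1 := by
  let x : Fin 3 ↪ α := ⟨![c, d, e], by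
    intro i j hij
    fin_cases i <;> fin_cases j <;> simp_all⟩
  have hx : (⟨g, hg⟩ : G) ∈ MulAction.stabilizer G x := by
    rw [MulAction.mem_stabilizer_iff]
    ext i
    fin_cases i <;> simpa [x, Subgroup.smul_def]
  rw [hsharp x, Subgroup.mem_bot] at hx
  exact congrArg Subtype.val hx

/-- triple transitivity in permutation form. -/
theorem trans3 {α : Type*} [Fintype α] [DecidableEq α] (G : Subgroup (Equiv.Perm α))
    (h3 : MulAction.IsMultiplyPretransitive G α 3)
    {c d e c' d' e' : α} (hcd : c ≠ d) (hce : c ≠ e) (hde : d ≠ e)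
    (hcd' : c' ≠ d') (hce' : c' ≠ e') (hde' : d' ≠ e') :
    ∃ g ∈ G, g c = c' ∧ g d = d' ∧ g e = e' := by
  let x : Fin 3 ↪ α := ⟨![c, d, e], by
    intro i j hij
    fin_cases i <;> fin_cases j <;> simp_all⟩
  let y : Fin 3 ↪ α := ⟨![c', d', e'], by
    intro i j hij
    fin_cases i <;> fin_cases j <;> simp_all⟩
  obtain ⟨g, hg⟩ := h3.exists_smul_eq x y
  refine ⟨g, g.2, ?_, ?_, ?_⟩
  · exact DFunLike.congr_fun hg 0
  · exact DFunLike.congr_fun hg 1
  · exact DFunLike.congr_fun hg 2

open Classical in
/-- the counting core: at most two elements of order 3 fix both `a` and `b`. -/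
theorem card_le_two {α : Type*} [Fintype α] [DecidableEq α] (h6 : 6 ≤ Fintype.card α)
    (G : Subgroup (Equiv.Perm α)) (h3 : MulAction.IsMultiplyPretransitive G α 3)
    (hsharp : ∀ x : Fin 3 ↪ α, MulAction.stabilizer G x = ⊥) {a b : α} (hab : a ≠ b) :
    ((Finset.univ.filter (fun g : Equiv.Perm α => g ∈ G ∧ g ≠ 1 ∧ g ^ 3 = 1)).filter
      (fun g => g a = a ∧ g b = b)).card ≤ 2 := by
  set T : Finset (Equiv.Perm α) :=
    Finset.univ.filter (fun g : Equiv.Perm α => g ∈ G ∧ g ≠ 1 ∧ g ^ 3 = 1) with hT
  set n := Fintype.card α with hn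
  have hTmem : ∀ g, g ∈ T ↔ g ∈ G ∧ g ≠ 1 ∧ g ^ 3 = 1 := by
    intro g; simp [hT]
  have hcube : ∀ g ∈ T, ∀ c : α, g (g (g c)) = c := by
    intro g hg c
    have := ((hTmem g).1 hg).2.2
    have h2 := congrArg (fun f : Equiv.Perm α => f c) this
    simpa [pow_succ, Equiv.Perm.mul_apply] using h2
  have hinv : ∀ (f : Equiv.Perm α) (x : α), f⁻¹ (f x) = x := fun f x => by simp
  -- Step A : fixed points
  have hfix : ∀ g ∈ T, (Finset.univ.filter (fun c : α => g c = c)).card ≤ 2 := by
    intro g hg
    by_contra hcon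
    rw [not_le, Finset.two_lt_card] at hcon
    obtain ⟨c, hc, d, hd, e, he, hcd, hce, hde⟩ := hcon
    simp only [Finset.mem_filter, Finset.mem_univ, true_and] at hc hd he
    exact ((hTmem g).1 hg).2.1 (sharp G hsharp g ((hTmem g).1 hg).1 hcd hce hde hc hd he)
  -- Step B
  have hB : ∀ c : α, (T.filter (fun g => g c ≠ c)).card ≤ (n - 1) * (n - 1) - (n - 1) := by
    intro c
    have hcard : ((Finset.univ.erase c).offDiag).card = (n - 1) * (n - 1) - (n - 1) := by
      rw [Finset.offDiag_card, Finset.card_erase_of_mem (Finset.mem_univ c), Finset.card_univ]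
    rw [← hcard]
    apply Finset.card_le_card_of_injOn (fun g => (g c, g (g c)))
    · intro g hg
      have hg' := Finset.mem_filter.1 (Finset.mem_coe.1 hg)
      have hgT := hg'.1
      have hgc := hg'.2
      simp only [Finset.coe_offDiag, Set.mem_offDiag, Finset.mem_coe, Finset.mem_erase,
        Finset.mem_univ, and_true]
      refine ⟨hgc, ?_, ?_⟩
      · intro h
        apply hgc
        have := hcube g hgT c
        rw [h] at this
        exact this
      · intro h
        exact hgc (g.injective h.symm)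
    · intro g hg g' hg' hgg
      have hg1 := Finset.mem_filter.1 (Finset.mem_coe.1 hg)
      have hg1' := Finset.mem_filter.1 (Finset.mem_coe.1 hg')
      simp only [Prod.mk.injEq] at hgg
      obtain ⟨e1, e2⟩ := hgg
      have hk : g⁻¹ * g' = 1 := by
        refine sharp G hsharp (g⁻¹ * g')
          (G.mul_mem (G.inv_mem ((hTmem g).1 hg1.1).1) ((hTmem g').1 hg1'.1).1)
          (c := c) (d := g c) (e := g (g c)) ?_ ?_ ?_ ?_ ?_ ?_
        · exact fun h => hg1.2 h.symm
        · intro h
          apply hg1.2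
          have := hcube g hg1.1 c
          rw [← h] at this
          exact this
        · intro h
          exact hg1.2 (g.injective h.symm)
        · rw [Equiv.Perm.mul_apply, ← e1, hinv]
        · rw [Equiv.Perm.mul_apply, e1, ← e2, hinv]
          exact e1
        · rw [Equiv.Perm.mul_apply, e2, hcube g' hg1'.1 c, Equiv.Perm.inv_eq_iff_eq, ← e2,
            hcube g hg1.1 c]
      have := congrArg (fun k => g * k) hk
      simpa using this.symm
  -- Step C
  have hC : ∑ c : α, (T.filter (fun g => g c ≠ c)).card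
      = ∑ g ∈ T, (Finset.univ.filter (fun c : α => g c ≠ c)).card :=
    Finset.sum_card_bipartiteAbove_eq_sum_card_bipartiteBelow (s := Finset.univ) (t := T)
      (fun (c : α) (g : Equiv.Perm α) => g c ≠ c)
  have hC2 : T.card * (n - 2) ≤ n * ((n - 1) * (n - 1) - (n - 1)) := by
    calc T.card * (n - 2) = ∑ g ∈ T, (n - 2) := by rw [Finset.sum_const, smul_eq_mul]
      _ ≤ ∑ g ∈ T, (Finset.univ.filter (fun c : α => g c ≠ c)).card := by
          apply Finset.sum_le_sum
          intro g hg
          have h1 := Finset.card_filter_add_card_filter_not (s := (Finset.univ : Finset α))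
            (fun c : α => g c = c)
          rw [Finset.card_univ] at h1
          have h2 := hfix g hg
          have : (Finset.univ.filter (fun c : α => ¬ g c = c)).card = n - (Finset.univ.filter (fun c : α => g c = c)).card := by omega
          show n - 2 ≤ (Finset.univ.filter (fun c : α => ¬ g c = c)).card
          omega
      _ = ∑ c : α, (T.filter (fun g => g c ≠ c)).card := hC.symm
      _ ≤ ∑ c : α, ((n - 1) * (n - 1) - (n - 1)) := Finset.sum_le_sum (fun c _ => hB c)
      _ = n * ((n - 1) * (n - 1) - (n - 1)) := by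
          rw [Finset.sum_const, smul_eq_mul, Finset.card_univ]
  -- Step D
  have hthird : ∀ c d : α, ∃ e, c ≠ e ∧ d ≠ e := by
    intro c d
    by_contra hcon
    push Not at hcon
    have : (Finset.univ : Finset α) ⊆ {c, d} := by
      intro e _
      by_cases hce : c = e
      · simp [hce]
      · simp [hcon e hce]
    have h1 := Finset.card_le_card this
    have h2 : ({c, d} : Finset α).card ≤ 2 := Finset.card_le_two
    rw [Finset.card_univ] at h1
    omega
  have hD : ∀ c d : α, c ≠ d →
      (T.filter (fun g => g a = a ∧ g b = b)).card ≤ (T.filter (fun g => g c = c ∧ g d = d)).card := by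
    intro c d hcd
    obtain ⟨e, hae, hbe⟩ := hthird a b
    obtain ⟨e', hce', hde'⟩ := hthird c d
    obtain ⟨k, hk, hka, hkb, -⟩ := trans3 G h3 hab hae hbe hcd hce' hde'
    apply Finset.card_le_card_of_injOn (fun g => k * g * k⁻¹)
    · intro g hg
      have hg' := Finset.mem_filter.1 (Finset.mem_coe.1 hg)
      have hgT := (hTmem g).1 hg'.1
      rw [Finset.mem_coe, Finset.mem_filter]
      refine ⟨(hTmem _).2 ⟨G.mul_mem (G.mul_mem hk hgT.1) (G.inv_mem hk), ?_, ?_⟩, ?_, ?_⟩
      · intro h
        apply hgT.2.1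
        have := congrArg (fun x => k⁻¹ * x * k) h
        simpa [mul_assoc] using this
      · rw [conj_pow, hgT.2.2]; simp
      · rw [Equiv.Perm.mul_apply, Equiv.Perm.mul_apply, ← hka, hinv, hg'.2.1]
      · rw [Equiv.Perm.mul_apply, Equiv.Perm.mul_apply, ← hkb, hinv, hg'.2.2]
    · intro g _ g' _ h
      have := congrArg (fun x => k⁻¹ * x * k) h
      simpa [mul_assoc] using this
  -- Step E
  have hE : ∑ p ∈ (Finset.univ : Finset α).offDiag, (T.filter (fun g => g p.1 = p.1 ∧ g p.2 = p.2)).card
      = ∑ g ∈ T, ((Finset.univ : Finset α).offDiag.filter (fun p => g p.1 = p.1 ∧ g p.2 = p.2)).card :=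
    Finset.sum_card_bipartiteAbove_eq_sum_card_bipartiteBelow
      (s := (Finset.univ : Finset α).offDiag) (t := T)
      (fun (p : α × α) (g : Equiv.Perm α) => g p.1 = p.1 ∧ g p.2 = p.2)
  have hE2 : (n * n - n) * (T.filter (fun g => g a = a ∧ g b = b)).card ≤ 2 * T.card := by
    calc (n * n - n) * (T.filter (fun g => g a = a ∧ g b = b)).card
        = ∑ p ∈ (Finset.univ : Finset α).offDiag, (T.filter (fun g => g a = a ∧ g b = b)).card := by
          rw [Finset.sum_const, smul_eq_mul, Finset.offDiag_card, Finset.card_univ]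
      _ ≤ ∑ p ∈ (Finset.univ : Finset α).offDiag, (T.filter (fun g => g p.1 = p.1 ∧ g p.2 = p.2)).card := by
          apply Finset.sum_le_sum
          intro p hp
          rw [Finset.mem_offDiag] at hp
          exact hD p.1 p.2 hp.2.2
      _ = ∑ g ∈ T, ((Finset.univ : Finset α).offDiag.filter (fun p => g p.1 = p.1 ∧ g p.2 = p.2)).card := hE
      _ ≤ ∑ g ∈ T, 2 := by
          apply Finset.sum_le_sum
          intro g hg
          have hsub : (Finset.univ : Finset α).offDiag.filter (fun p => g p.1 = p.1 ∧ g p.2 = p.2)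
              ⊆ (Finset.univ.filter (fun c : α => g c = c)).offDiag := by
            intro p hp
            rw [Finset.mem_filter, Finset.mem_offDiag] at hp
            rw [Finset.mem_offDiag]
            simp only [Finset.mem_filter, Finset.mem_univ, true_and]
            exact ⟨hp.2.1, hp.2.2, hp.1.2.2⟩
          refine (Finset.card_le_card hsub).trans ?_
          rw [Finset.offDiag_card]
          have h2 := hfix g hg
          generalize (Finset.univ.filter (fun c : α => g c = c)).card = f at h2
          interval_cases f <;> simp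
      _ = 2 * T.card := by rw [Finset.sum_const, smul_eq_mul, mul_comm]
  -- Step F
  obtain ⟨m, hm⟩ : ∃ m, n = m + 3 := ⟨n - 3, by omega⟩
  rw [hm] at hC2 hE2
  have e1 : m + 3 - 2 = m + 1 := by omega
  have e2 : (m + 3 - 1) * (m + 3 - 1) - (m + 3 - 1) = (m + 2) * (m + 1) := by
    have : m + 3 - 1 = m + 2 := by omega
    rw [this]
    have : (m + 2) * (m + 2) = (m + 2) * (m + 1) + (m + 2) := by ring
    omega
  have e3 : (m + 3) * (m + 3) - (m + 3) = (m + 3) * (m + 2) := by
    have : (m + 3) * (m + 3) = (m + 3) * (m + 2) + (m + 3) := by ring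
    omega
  rw [e1, e2] at hC2
  rw [e3] at hE2
  have hTle : T.card ≤ (m + 3) * (m + 2) := by
    have : T.card * (m + 1) ≤ ((m + 3) * (m + 2)) * (m + 1) := by
      calc T.card * (m + 1) ≤ (m + 3) * ((m + 2) * (m + 1)) := hC2
        _ = ((m + 3) * (m + 2)) * (m + 1) := by ring
    exact Nat.le_of_mul_le_mul_right this (by omega)
  have : (m + 3) * (m + 2) * (T.filter (fun g => g a = a ∧ g b = b)).card ≤ (m + 3) * (m + 2) * 2 := by
    calc (m + 3) * (m + 2) * (T.filter (fun g => g a = a ∧ g b = b)).card ≤ 2 * T.card := hE2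
      _ ≤ 2 * ((m + 3) * (m + 2)) := Nat.mul_le_mul_left 2 hTle
      _ = (m + 3) * (m + 2) * 2 := by ring
  exact Nat.le_of_mul_le_mul_left this (by positivity)

open Classical in
/-- a subgroup of order 3 in the two-point stabiliser contains all order-3 elements fixing `a`, `b`. -/
theorem mem_of_order_three {α : Type*} [Fintype α] [DecidableEq α] (h6 : 6 ≤ Fintype.card α)
    (G : Subgroup (Equiv.Perm α)) (h3 : MulAction.IsMultiplyPretransitive G α 3)
    (hsharp : ∀ x : Fin 3 ↪ α, MulAction.stabilizer G x = ⊥) {a b : α} (hab : a ≠ b)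
    (A : Subgroup G) (hA : A ≤ MulAction.stabilizer G a ⊓ MulAction.stabilizer G b)
    (hA3 : Nat.card A = 3) (g : G) (hg1 : g ≠ 1) (hg3 : g ^ 3 = 1)
    (hga : g • a = a) (hgb : g • b = b) : g ∈ A := by
  set Tab : Finset (Equiv.Perm α) :=
    ((Finset.univ.filter (fun g : Equiv.Perm α => g ∈ G ∧ g ≠ 1 ∧ g ^ 3 = 1)).filter
      (fun g => g a = a ∧ g b = b)) with hTab
  have hle := card_le_two h6 G h3 hsharp hab
  rw [← hTab] at hle
  have hmem : ∀ x : G, x ≠ 1 → x ^ 3 = 1 → x • a = a → x • b = b → (x : Equiv.Perm α) ∈ Tab := by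
    intro x hx1 hx3 hxa hxb
    rw [hTab]
    simp only [Finset.mem_filter, Finset.mem_univ, true_and]
    refine ⟨⟨x.2, ?_, ?_⟩, hxa, hxb⟩
    · intro h; exact hx1 (Subtype.ext h)
    · have := congrArg Subtype.val hx3
      simpa using this
  -- the image of A minus 1
  have : Fintype A := Fintype.ofFinite A
  let SA : Finset (Equiv.Perm α) :=
    (Finset.univ.filter (fun x : A => x ≠ 1)).image (fun x : A => ((x : G) : Equiv.Perm α))
  have hSAcard : SA.card = 2 := by
    rw [Finset.card_image_of_injective]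
    · have h1 : (Finset.univ.filter (fun x : A => x ≠ 1)) = Finset.univ.erase 1 := by
        ext x; simp
      rw [h1, Finset.card_erase_of_mem (Finset.mem_univ _), Finset.card_univ,
        ← Nat.card_eq_fintype_card, hA3]
    · intro x y hxy
      exact Subtype.ext (Subtype.ext hxy)
  have hSAsub : SA ⊆ Tab := by
    intro y hy
    obtain ⟨x, hx, rfl⟩ := Finset.mem_image.1 hy
    have hx1 : x ≠ 1 := (Finset.mem_filter.1 hx).2
    have hxs := hA x.2
    rw [Subgroup.mem_inf, MulAction.mem_stabilizer_iff, MulAction.mem_stabilizer_iff] at hxs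
    refine hmem (x : G) (fun h => hx1 (Subtype.ext h)) ?_ hxs.1 hxs.2
    have := pow_card_eq_one' (G := A) (x := x)
    rw [hA3] at this
    have := congrArg Subtype.val this
    simpa using this
  have hSAeq : SA = Tab := Finset.eq_of_subset_of_card_le hSAsub (by rw [hSAcard]; exact hle)
  have hgT := hmem g hg1 hg3 hga hgb
  rw [← hSAeq] at hgT
  obtain ⟨x, _, hx⟩ := Finset.mem_image.1 hgT
  have : (x : G) = g := Subtype.ext hx
  rw [← this]
  exact x.2

/-- In a sharply triply transitive group of even degree at least 6 (degree `q + 1`, `q` odd), a two-point stabiliser has at most one subgroup of order 3. -/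
theorem result {α : Type*} [Fintype α] [DecidableEq α] (heven : Even (Fintype.card α)) (h6 : 6 ≤ Fintype.card α) (G : Subgroup (Equiv.Perm α)) (h3 : MulAction.IsMultiplyPretransitive G α 3) (hsharp : ∀ x : Fin 3 ↪ α, MulAction.stabilizer G x = ⊥) {a b : α} (hab : a ≠ b) (A B : Subgroup G) (hA : A ≤ MulAction.stabilizer G a ⊓ MulAction.stabilizer G b) (hB : B ≤ MulAction.stabilizer G a ⊓ MulAction.stabilizer G b) (hA3 : Nat.card A = 3) (hB3 : Nat.card B = 3) : A = B := by
  have _ := heven
  have hAB : A ≤ B := by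
    intro x hx
    by_cases hx1 : x = 1
    · rw [hx1]; exact B.one_mem
    · have hxs := hA hx
      rw [Subgroup.mem_inf, MulAction.mem_stabilizer_iff, MulAction.mem_stabilizer_iff] at hxs
      refine mem_of_order_three h6 G h3 hsharp hab B hB hB3 x hx1 ?_ hxs.1 hxs.2
      have := pow_card_eq_one' (G := A) (x := ⟨x, hx⟩)
      rw [hA3] at this
      have := congrArg Subtype.val this
      simpa using this
  have : Finite B := Nat.finite_of_card_ne_zero (by rw [hB3]; norm_num)
  exact Subgroup.eq_of_le_of_card_ge hAB (by rw [hA3, hB3])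

end Cfsg.Agent.S0728
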