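-- Statement S0733: proof by helper13.
import Mathlib
import Cfsg.Statements.S0733
-- import your own Cfsg.Agent.* helpers here

set_option autoImplicit false
open Cfsg

namespace Cfsg.Agent.S0733


open scoped Pointwise in
theorem irred_of_prim {p : ℕ} [Fact p.Prime] {V : Type*} [AddCommGroup V] [Module (ZMod p) V]
    (G₀ : Subgroup (V ≃ₗ[ZMod p] V)) (G : Subgroup (Equiv.Perm V))
    (hG : ∀ σ : Equiv.Perm V, σ ∈ G ↔ ∃ g ∈ G₀, ∃ b : V, ∀ x : V, σ x = (g : V ≃ₗ[ZMod p] V) x + b)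
    (hprim : MulAction.IsPreprimitive G V) (W : Submodule (ZMod p) V)
    (hW : ∀ g ∈ G₀, ∀ v ∈ W, (g : V ≃ₗ[ZMod p] V) v ∈ W) : W = ⊥ ∨ W = ⊤ := by
  have hblock : MulAction.IsBlock G (W : Set V) := by
    rw [MulAction.isBlock_iff_smul_eq_of_mem]
    intro σ a ha hσa
    obtain ⟨g₀, hg₀, b, hσ⟩ := (hG σ.1).mp σ.2
    have hσ' : ∀ x : V, σ • x = g₀ x + b := fun x => hσ x
    have hb : b ∈ W := by
      rw [hσ'] at hσa
      have h1 := hW g₀ hg₀ a ha
      have h2 := W.sub_mem hσa h1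
      simpa using h2
    ext v
    constructor
    · rintro ⟨w, hw, rfl⟩
      show σ • w ∈ W
      rw [hσ']
      exact W.add_mem (hW g₀ hg₀ w hw) hb
    · intro hv
      refine ⟨g₀.symm (v - b), ?_, ?_⟩
      · exact hW g₀⁻¹ (G₀.inv_mem hg₀) (v - b) (W.sub_mem hv hb)
      · show σ • (g₀.symm (v - b)) = v
        rw [hσ']
        simp
  rcases hprim.isTrivialBlock_of_isBlock hblock with h | h
  · left
    rw [Submodule.eq_bot_iff]
    intro x hx
    exact h hx W.zero_mem
  · right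
    rw [Submodule.eq_top_iff']
    intro x
    have : x ∈ (W : Set V) := by rw [h]; trivial
    exact this

open scoped Pointwise in
theorem prim_of_irred {p : ℕ} [Fact p.Prime] {V : Type*} [AddCommGroup V] [Module (ZMod p) V]
    (G₀ : Subgroup (V ≃ₗ[ZMod p] V)) (G : Subgroup (Equiv.Perm V))
    (hG : ∀ σ : Equiv.Perm V, σ ∈ G ↔ ∃ g ∈ G₀, ∃ b : V, ∀ x : V, σ x = (g : V ≃ₗ[ZMod p] V) x + b)
    (hirr : ∀ W : Submodule (ZMod p) V,
      (∀ g ∈ G₀, ∀ v ∈ W, (g : V ≃ₗ[ZMod p] V) v ∈ W) → W = ⊥ ∨ W = ⊤) :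
    MulAction.IsPreprimitive G V := by
  have hτmem : ∀ w : V, Equiv.addRight w ∈ G := fun w =>
    (hG _).mpr ⟨1, G₀.one_mem, w, fun x => by simp⟩
  have htrans : MulAction.IsPretransitive G V :=
    ⟨fun x y => ⟨⟨Equiv.addRight (y - x), hτmem _⟩, by
      show x + (y - x) = y
      abel⟩⟩
  apply MulAction.IsPreprimitive.mk
  intro B hB
  rcases B.eq_empty_or_nonempty with rfl | ⟨a, ha⟩
  · left
    exact Set.subsingleton_empty
  rw [MulAction.isBlock_iff_smul_eq_of_mem] at hB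
  have hτ : ∀ w : V, a + w ∈ B → (⟨Equiv.addRight w, hτmem w⟩ : G) • B = B := by
    intro w hw
    exact hB (g := ⟨Equiv.addRight w, hτmem w⟩) ha hw
  have hWadd : ∀ w : V, a + w ∈ B → ∀ x ∈ B, x + w ∈ B := by
    intro w hw x hx
    rw [← hτ w hw]
    exact ⟨x, hx, rfl⟩
  have hWsub : ∀ w : V, a + w ∈ B → ∀ x ∈ B, x - w ∈ B := by
    intro w hw x hx
    rw [← hτ w hw] at hx
    obtain ⟨y, hy, hyx⟩ := hx
    have : y + w = x := hyx
    rw [← this]
    simpa using hy
  let W₀ : AddSubgroup V :=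
    { carrier := {w | a + w ∈ B}
      zero_mem' := by simpa using ha
      add_mem' := by
        intro w w' hw hw'
        have := hWadd w' hw' (a + w) hw
        simpa [add_assoc] using this
      neg_mem' := by
        intro w hw
        have := hWsub w hw a ha
        simpa [sub_eq_add_neg] using this }
  have hWmem : ∀ w : V, w ∈ AddSubgroup.toZModSubmodule p W₀ ↔ a + w ∈ B := fun w => Iff.rfl
  have hinv : ∀ g ∈ G₀, ∀ v ∈ AddSubgroup.toZModSubmodule p W₀,
      (g : V ≃ₗ[ZMod p] V) v ∈ AddSubgroup.toZModSubmodule p W₀ := by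
    intro g hg v hv
    rw [hWmem] at hv ⊢
    have hσmem : (g.toEquiv).trans (Equiv.addRight (a - g a)) ∈ G :=
      (hG _).mpr ⟨g, hg, a - g a, fun x => rfl⟩
    have hσa : (⟨(g.toEquiv).trans (Equiv.addRight (a - g a)), hσmem⟩ : G) • a = a := by
      show g a + (a - g a) = a
      abel
    have h1 := hB (g := ⟨(g.toEquiv).trans (Equiv.addRight (a - g a)), hσmem⟩) ha
      (by rw [hσa]; exact ha)
    rw [← h1]
    refine ⟨a + v, hv, ?_⟩
    show g (a + v) + (a - g a) = a + g v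
    rw [map_add]
    abel
  rcases hirr _ hinv with h | h
  · left
    intro x hx y hy
    have hx' : x - a ∈ AddSubgroup.toZModSubmodule p W₀ := (hWmem _).mpr (by simpa using hx)
    have hy' : y - a ∈ AddSubgroup.toZModSubmodule p W₀ := (hWmem _).mpr (by simpa using hy)
    rw [h, Submodule.mem_bot, sub_eq_zero] at hx' hy'
    rw [hx', hy']
  · right
    ext v
    simp only [Set.mem_univ, iff_true]
    have : v - a ∈ AddSubgroup.toZModSubmodule p W₀ := by rw [h]; trivial
    rw [hWmem] at this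
    simpa using this

/-- A permutation group of affine type — generated by the translations of a finite vector space `V` over `ZMod p` together with a group `G₀` of linear automorphisms — is primitive on `V` if and only if `G₀` is irreducible on `V`. -/
theorem result {p : ℕ} [Fact p.Prime] {V : Type*} [AddCommGroup V] [Module (ZMod p) V] [Finite V] [Nontrivial V] (G₀ : Subgroup (V ≃ₗ[ZMod p] V)) (G : Subgroup (Equiv.Perm V)) (hG : ∀ σ : Equiv.Perm V, σ ∈ G ↔ ∃ g ∈ G₀, ∃ b : V, ∀ x : V, σ x = (g : V ≃ₗ[ZMod p] V) x + b) : MulAction.IsPreprimitive G V ↔ ∀ W : Submodule (ZMod p) V, (∀ g ∈ G₀, ∀ v ∈ W, (g : V ≃ₗ[ZMod p] V) v ∈ W) → W = ⊥ ∨ W = ⊤ := by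
  exact ⟨fun hprim W hW => irred_of_prim G₀ G hG hprim W hW, fun hirr => prim_of_irred G₀ G hG hirr⟩

end Cfsg.Agent.S0733
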