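-- Statement S0734: proof by helper13.
import Mathlib
import Cfsg.Statements.S0734
-- import your own Cfsg.Agent.* helpers here

set_option autoImplicit false
open Cfsg

namespace Cfsg.Agent.S0734


/-- the group acts by automorphisms of each orbital graph. -/
theorem reach_smul {G : Type*} [Group G] {Ω : Type*} [MulAction G Ω] (a b : Ω) (g : G) (x y : Ω)
    (h : (SimpleGraph.fromRel fun x y : Ω => ∃ g : G, g • a = x ∧ g • b = y).Reachable x y) :
    (SimpleGraph.fromRel fun x y : Ω => ∃ g : G, g • a = x ∧ g • b = y).Reachable (g • x) (g • y) := by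
  let f : (SimpleGraph.fromRel fun x y : Ω => ∃ g : G, g • a = x ∧ g • b = y) →g
      (SimpleGraph.fromRel fun x y : Ω => ∃ g : G, g • a = x ∧ g • b = y) :=
    { toFun := fun x => g • x
      map_rel' := by
        intro u v huv
        rw [SimpleGraph.fromRel_adj] at huv ⊢
        refine ⟨fun e => huv.1 (smul_left_cancel g e), ?_⟩
        rcases huv.2 with ⟨k, hk1, hk2⟩ | ⟨k, hk1, hk2⟩
        · exact Or.inl ⟨g * k, by rw [mul_smul, hk1], by rw [mul_smul, hk2]⟩
        · exact Or.inr ⟨g * k, by rw [mul_smul, hk1], by rw [mul_smul, hk2]⟩ }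
  exact h.map f

open scoped Pointwise in
theorem conn_of_prim {G : Type*} [Group G] {Ω : Type*} [MulAction G Ω]
    (hprim : MulAction.IsPreprimitive G Ω) (a b : Ω) (hab : a ≠ b) :
    (SimpleGraph.fromRel fun x y : Ω => ∃ g : G, g • a = x ∧ g • b = y).Connected := by
  set Γ := (SimpleGraph.fromRel fun x y : Ω => ∃ g : G, g • a = x ∧ g • b = y) with hΓ
  have hblock : MulAction.IsBlock G {x | Γ.Reachable a x} := by
    rw [MulAction.isBlock_iff_smul_eq_of_mem]
    intro g x hx hgx
    have hx' : Γ.Reachable a x := hx
    have hgx' : Γ.Reachable a (g • x) := hgx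
    have h1 : Γ.Reachable (g • a) (g • x) := reach_smul a b g a x hx'
    have h2 : Γ.Reachable a (g • a) := hgx'.trans h1.symm
    ext z
    rw [Set.mem_smul_set_iff_inv_smul_mem]
    constructor
    · intro hz
      have hz' : Γ.Reachable a (g⁻¹ • z) := hz
      have h3 := reach_smul a b g a (g⁻¹ • z) hz'
      rw [smul_inv_smul] at h3
      exact h2.trans h3
    · intro hz
      have hz' : Γ.Reachable a z := hz
      have h3 : Γ.Reachable (g • a) z := h2.symm.trans hz'
      have h4 := reach_smul a b g⁻¹ (g • a) z h3
      rw [inv_smul_smul] at h4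
      exact h4
  have hadj : Γ.Adj a b := by
    rw [hΓ, SimpleGraph.fromRel_adj]
    exact ⟨hab, Or.inl ⟨1, one_smul _ _, one_smul _ _⟩⟩
  rcases hprim.isTrivialBlock_of_isBlock hblock with h | h
  · exfalso
    exact hab (h (SimpleGraph.Reachable.refl a) hadj.reachable)
  · rw [SimpleGraph.connected_iff_exists_forall_reachable]
    refine ⟨a, fun w => ?_⟩
    have : w ∈ {x | Γ.Reachable a x} := by rw [h]; trivial
    exact this

open scoped Pointwise in
theorem prim_of_conn {G : Type*} [Group G] {Ω : Type*} [MulAction G Ω]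
    [MulAction.IsPretransitive G Ω]
    (hconn : ∀ a b : Ω, a ≠ b →
      (SimpleGraph.fromRel fun x y : Ω => ∃ g : G, g • a = x ∧ g • b = y).Connected) :
    MulAction.IsPreprimitive G Ω := by
  apply MulAction.IsPreprimitive.mk
  intro B hB
  rcases B.subsingleton_or_nontrivial with h | h
  · left
    exact h
  · right
    obtain ⟨a, ha, b, hb, hab⟩ := h
    rw [MulAction.isBlock_iff_smul_eq_of_mem] at hB
    have hc := hconn a b hab
    have hadj : ∀ x y : Ω,
        (SimpleGraph.fromRel fun x y : Ω => ∃ g : G, g • a = x ∧ g • b = y).Adj x y →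
        x ∈ B → y ∈ B := by
      intro x y hxy hx
      rw [SimpleGraph.fromRel_adj] at hxy
      rcases hxy.2 with ⟨g, hg1, hg2⟩ | ⟨g, hg1, hg2⟩
      · have h1 := hB (g := g) ha (by rw [hg1]; exact hx)
        rw [← h1, ← hg2]
        exact Set.smul_mem_smul_set hb
      · have h1 := hB (g := g) hb (by rw [hg2]; exact hx)
        rw [← h1, ← hg1]
        exact Set.smul_mem_smul_set ha
    ext z
    simp only [Set.mem_univ, iff_true]
    have hreach := hc.preconnected a z
    rw [SimpleGraph.reachable_iff_reflTransGen] at hreach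
    induction hreach with
    | refl => exact ha
    | tail _ hadj' ih => exact hadj _ _ hadj' ih

/-- Higman's criterion for primitivity: a transitive action on a finite set is primitive if and only if every non-trivial orbital graph (edges = images of a fixed pair of distinct points) is connected. -/
theorem result {G : Type*} [Group G] {Ω : Type*} [Finite Ω] [MulAction G Ω] [MulAction.IsPretransitive G Ω] [Nontrivial Ω] : MulAction.IsPreprimitive G Ω ↔ ∀ a b : Ω, a ≠ b → (SimpleGraph.fromRel fun x y : Ω => ∃ g : G, g • a = x ∧ g • b = y).Connected := by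
  exact ⟨fun hprim a b hab => conn_of_prim hprim a b hab, fun hconn => prim_of_conn hconn⟩

end Cfsg.Agent.S0734
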