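-- Statement S0735: proof by helper13.
import Mathlib
import Cfsg.Statements.S0735
-- import your own Cfsg.Agent.* helpers here

set_option autoImplicit false
open Cfsg

namespace Cfsg.Agent.S0735


open scoped Pointwise in
theorem pair_trans {α : Type*} [Fintype α] [DecidableEq α] (G : Subgroup (Equiv.Perm α))
    (h2 : MulAction.IsPretransitive G (Set.powersetCard α 2)) (x y z w : α) (hxy : x ≠ y)
    (hzw : z ≠ w) : ∃ g : G, (g • x = z ∧ g • y = w) ∨ (g • x = w ∧ g • y = z) := by
  obtain ⟨g, hg⟩ := MulAction.exists_smul_eq G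
    (Set.powersetCard.ofCard (Finset.card_pair hxy))
    (Set.powersetCard.ofCard (Finset.card_pair hzw))
  refine ⟨g, ?_⟩
  have h : g • ({x, y} : Finset α) = {z, w} := by
    have h1 := congrArg Subtype.val hg
    have h3 := Set.powersetCard.coe_smul (g := g)
      (s := Set.powersetCard.ofCard (Finset.card_pair hxy))
    exact h3.symm.trans h1
  simp only [Finset.smul_finset_insert, Finset.smul_finset_singleton] at h
  have hx : g • x ∈ ({z, w} : Finset α) := by rw [← h]; simp
  have hy : g • y ∈ ({z, w} : Finset α) := by rw [← h]; simp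
  simp only [Finset.mem_insert, Finset.mem_singleton] at hx hy
  have hne : g • x ≠ g • y := fun e => hxy (smul_left_cancel g e)
  rcases hx with hx | hx <;> rcases hy with hy | hy
  · exact absurd (hx.trans hy.symm) hne
  · exact Or.inl ⟨hx, hy⟩
  · exact Or.inr ⟨hx, hy⟩
  · exact absurd (hx.trans hy.symm) hne

/-- A 2-homogeneous permutation group (transitive on 2-subsets) of even order is doubly transitive; a non-trivial 2-homogeneous group is primitive. -/
theorem result {α : Type*} [Fintype α] [DecidableEq α] (G : Subgroup (Equiv.Perm α)) (h2 : MulAction.IsPretransitive G (Set.powersetCard α 2)) (hα : 3 ≤ Fintype.card α) : (Even (Nat.card G) → MulAction.IsMultiplyPretransitive G α 2) ∧ (G ≠ ⊥ → MulAction.IsPreprimitive G α) := by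
  classical
  have h0 := pair_trans G h2
  -- a third point
  have h3 : ∀ x y : α, ∃ z : α, z ≠ x ∧ z ≠ y := by
    intro x y
    by_contra hcon
    push Not at hcon
    have hsub : (Finset.univ : Finset α) ⊆ {x, y} := by
      intro z _
      by_cases hz : z = x
      · simp [hz]
      · simp [hcon z hz]
    have := Finset.card_le_card hsub
    rw [Finset.card_univ] at this
    have h2' : ({x, y} : Finset α).card ≤ 2 := Finset.card_le_two
    omega
  have htrans : ∀ x y : α, ∃ g : G, g • x = y := by
    intro x y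
    by_cases hxy : x = y
    · exact ⟨1, by rw [one_smul, hxy]⟩
    obtain ⟨z, hzx, hzy⟩ := h3 x y
    obtain ⟨g, hg | hg⟩ := h0 x z x y (Ne.symm hzx) hxy
    · obtain ⟨h, hh | hh⟩ := h0 x y y z hxy (Ne.symm hzy)
      · exact ⟨h, hh.1⟩
      · exact ⟨g * h, by rw [mul_smul, hh.1, hg.2]⟩
    · exact ⟨g, hg.1⟩
  constructor
  · intro heven
    have : Fact (Nat.Prime 2) := ⟨Nat.prime_two⟩
    obtain ⟨t, ht⟩ := exists_prime_orderOf_dvd_card' (G := ↥G) 2 heven.two_dvd
    have ht1 : t ≠ 1 := by
      intro h
      rw [h, orderOf_one] at ht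
      omega
    have ht2 : t * t = 1 := by rw [← sq, ← ht, pow_orderOf_eq_one]
    have hc : ∃ c : α, t • c ≠ c := by
      by_contra hcon
      push Not at hcon
      apply ht1
      apply Subtype.ext
      apply Equiv.Perm.ext
      intro c
      exact hcon c
    obtain ⟨c, hc⟩ := hc
    have key : ∀ x y : α, x ≠ y → ∃ g : G, g • x = c ∧ g • y = t • c := by
      intro x y hxy
      obtain ⟨g, hg | hg⟩ := h0 x y c (t • c) hxy (Ne.symm hc)
      · exact ⟨g, hg⟩
      · refine ⟨t * g, ?_, ?_⟩
        · rw [mul_smul, hg.1, ← mul_smul, ht2, one_smul]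
        · rw [mul_smul, hg.2]
    rw [MulAction.is_two_pretransitive_iff]
    intro x y z w hxy hzw
    obtain ⟨g1, hg1⟩ := key x y hxy
    obtain ⟨g2, hg2⟩ := key z w hzw
    refine ⟨g2⁻¹ * g1, ?_, ?_⟩
    · rw [mul_smul, hg1.1, inv_smul_eq_iff, hg2.1]
    · rw [mul_smul, hg1.2, inv_smul_eq_iff, hg2.2]
  · intro _
    have : MulAction.IsPretransitive G α := ⟨htrans⟩
    apply MulAction.IsPreprimitive.mk
    intro B hB
    rcases B.subsingleton_or_nontrivial with h | h
    · left
      exact h
    · right
      obtain ⟨a, ha, b, hb, hab⟩ := h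
      rw [← Set.top_eq_univ, eq_top_iff]
      intro c _
      by_cases h' : a = c
      · rw [← h']; exact ha
      · rw [MulAction.isBlock_iff_smul_eq_of_mem] at hB
        obtain ⟨g, hg | hg⟩ := h0 a b a c hab h'
        · rw [← hB (g := g) ha (by rw [hg.1]; exact ha), ← hg.2]
          exact Set.smul_mem_smul_set hb
        · rw [← hB (g := g) hb (by rw [hg.2]; exact ha), ← hg.1]
          exact Set.smul_mem_smul_set ha

end Cfsg.Agent.S0735
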