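-- Statement S0740: proof by helper13.
import Cfsg.Statements.S0740
import Cfsg.Agent.Lib.Helper13.Zass

set_option autoImplicit false
open Cfsg

namespace Cfsg.Agent.S0740

/-- In a finite Zassenhaus group any two points `a ≠ b` are swapped by an involution; every such involution has exactly one fixed point when the degree is odd and 0 or 2 fixed points when the degree is even; and if the two-point stabiliser has even order, some such involution has exactly 2 fixed points. -/
theorem result {G Ω : Type*} [Group G] [Finite G] [MulAction G Ω] [Fintype Ω] (hZ : Cfsg.IsZassenhausGroup G Ω) {a b : Ω} (hab : a ≠ b) : (∃ s : G, orderOf s = 2 ∧ s • a = b ∧ s • b = a) ∧ (∀ s : G, orderOf s = 2 → s • a = b → s • b = a → (Odd (Fintype.card Ω) → Nat.card (MulAction.fixedBy Ω s) = 1) ∧ (Even (Fintype.card Ω) → Nat.card (MulAction.fixedBy Ω s) = 0 ∨ Nat.card (MulAction.fixedBy Ω s) = 2)) ∧ (Even (Fintype.card Ω) → Even (Nat.card ↥(MulAction.stabilizer G a ⊓ MulAction.stabilizer G b)) → ∃ s : G, orderOf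 s = 2 ∧ s • a = b ∧ s • b = a ∧ Nat.card (MulAction.fixedBy Ω s) = 2) := by
  classical
  have hcardΩ : Nat.card Ω = Fintype.card Ω := Nat.card_eq_fintype_card
  have hne1 : ∀ s : G, orderOf s = 2 → s ≠ 1 := by
    intro s hs h
    rw [h, orderOf_one] at hs
    omega
  refine ⟨?_, ?_, ?_⟩
  · obtain ⟨t, ht⟩ := Lib.Helper13.zass_exists_involution hZ hab
    obtain ⟨x, h1, h2⟩ := Lib.Helper13.zass_exists_conj_swap hZ ht hab
    exact ⟨x * t * x⁻¹, by rw [Lib.Helper13.orderOf_conj_eq, ht], h1, h2⟩
  · intro s hs hsa hsb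
    have hle := Lib.Helper13.zass_card_fixedBy_le_two hZ (hne1 s hs)
    have hmod := Lib.Helper13.card_modEq_card_fixedBy_two (Ω := Ω) hs
    rw [hcardΩ] at hmod
    unfold Nat.ModEq at hmod
    constructor
    · intro hodd
      have := Nat.odd_iff.mp hodd
      omega
    · intro heven
      have := Nat.even_iff.mp heven
      omega
  · intro heven hH
    have : Fact (Nat.Prime 2) := ⟨Nat.prime_two⟩
    obtain ⟨t, ht⟩ := exists_prime_orderOf_dvd_card'
      (G := ↥(MulAction.stabilizer G a ⊓ MulAction.stabilizer G b)) 2 hH.two_dvd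
    have ht' : orderOf (t : G) = 2 := by rw [Subgroup.orderOf_coe]; exact ht
    have hta : (t : G) • a = a := (Subgroup.mem_inf.mp t.2).1
    obtain ⟨x, h1, h2⟩ := Lib.Helper13.zass_exists_conj_swap hZ ht' hab
    have hs : orderOf (x * (t : G) * x⁻¹) = 2 := by rw [Lib.Helper13.orderOf_conj_eq, ht']
    have hle := Lib.Helper13.zass_card_fixedBy_le_two hZ (hne1 _ hs)
    have hmod := Lib.Helper13.card_modEq_card_fixedBy_two (Ω := Ω) hs
    rw [hcardΩ] at hmod
    unfold Nat.ModEq at hmod
    have hfixed : x • a ∈ MulAction.fixedBy Ω (x * (t : G) * x⁻¹) := by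
      rw [MulAction.mem_fixedBy, mul_smul, mul_smul, inv_smul_smul, hta]
    have hpos : 0 < Nat.card (MulAction.fixedBy Ω (x * (t : G) * x⁻¹)) :=
      Nat.card_pos_iff.mpr ⟨⟨⟨x • a, hfixed⟩⟩, inferInstance⟩
    refine ⟨x * (t : G) * x⁻¹, hs, h1, h2, ?_⟩
    have := Nat.even_iff.mp heven
    omega

end Cfsg.Agent.S0740
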