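-- Statement S0741: proof by helper13.
import Cfsg.Statements.S0741
import Cfsg.Agent.Lib.Helper13.Zass

set_option autoImplicit false
open Cfsg

namespace Cfsg.Agent.S0741

/-- If the two-point stabilisers of a finite Zassenhaus group of degree `n + 1` have even order `d`, then `2d ≥ n - 1`. -/
theorem result {G Ω : Type*} [Group G] [Finite G] [MulAction G Ω] [Fintype Ω] (hZ : Cfsg.IsZassenhausGroup G Ω) {a b : Ω} (hab : a ≠ b) (heven : Even (Nat.card ↥(MulAction.stabilizer G a ⊓ MulAction.stabilizer G b))) : Fintype.card Ω - 2 ≤ 2 * Nat.card ↥(MulAction.stabilizer G a ⊓ MulAction.stabilizer G b) := by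
  classical
  have : Fintype G := Fintype.ofFinite G
  have : Fact (Nat.Prime 2) := ⟨Nat.prime_two⟩
  obtain ⟨t0, ht0⟩ := exists_prime_orderOf_dvd_card'
    (G := ↥(MulAction.stabilizer G a ⊓ MulAction.stabilizer G b)) 2 heven.two_dvd
  obtain ⟨t, htdef⟩ : ∃ t : G, t = (t0 : G) := ⟨_, rfl⟩
  have ht : orderOf t = 2 := by rw [htdef, Subgroup.orderOf_coe]; exact ht0
  have hta : t • a = a := by rw [htdef]; exact (Subgroup.mem_inf.mp t0.2).1
  have htb : t • b = b := by rw [htdef]; exact (Subgroup.mem_inf.mp t0.2).2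
  have ht1 := Lib.Helper13.ne_one_of_orderOf_two ht
  have ht2 := Lib.Helper13.mul_self_of_orderOf_two ht
  have htinv : ∀ p : Ω, t⁻¹ • p = t • p := Lib.Helper13.inv_smul_of_mul_self ht2
  have htt : ∀ p : Ω, t • (t • p) = p := fun p => by rw [← mul_smul, ht2, one_smul]
  have htfix : ∀ p : Ω, t • p = p → p = a ∨ p = b := by
    intro p hp
    by_contra h
    push Not at h
    exact ht1 (Lib.Helper13.zass_three hZ hab (Ne.symm h.2) (Ne.symm h.1) hta htb hp)
  have hmoved : ∀ c : Ω, c ≠ a → c ≠ b → c ≠ t • c := by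
    intro c hca hcb h
    rcases htfix c h.symm with h | h
    · exact hca h
    · exact hcb h
  have hu : ∀ c : Ω, c ≠ a → c ≠ b →
      ∃ u : G, orderOf u = 2 ∧ u • c = c ∧ u • (t • c) = t • c := by
    intro c hca hcb
    obtain ⟨g, hga, hgb⟩ := Lib.Helper13.zass_two_trans hZ hab (hmoved c hca hcb)
    refine ⟨g * t * g⁻¹, by rw [Lib.Helper13.orderOf_conj_eq, ht], ?_, ?_⟩
    · have : g⁻¹ • c = a := by rw [inv_smul_eq_iff, hga]
      rw [mul_smul, mul_smul, this, hta, hga]
    · have : g⁻¹ • (t • c) = b := by rw [inv_smul_eq_iff, hgb]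
      rw [mul_smul, mul_smul, this, htb, hgb]
  choose! u hu2 huc huc' using hu
  -- u c swaps a and b
  have hswap : ∀ c : Ω, c ≠ a → c ≠ b → u c • a = b ∧ u c • b = a := by
    intro c hca hcb
    have hu1 := Lib.Helper13.ne_one_of_orderOf_two (hu2 c hca hcb)
    have hu22 := Lib.Helper13.mul_self_of_orderOf_two (hu2 c hca hcb)
    have hcomm : t * u c * t⁻¹ = u c := by
      apply Lib.Helper13.zass_involution_unique hZ (hmoved c hca hcb)
        (by rw [Lib.Helper13.orderOf_conj_eq]; exact hu2 c hca hcb) (hu2 c hca hcb) _ _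
        (huc c hca hcb) (huc' c hca hcb)
      · rw [mul_smul, mul_smul, htinv, huc' c hca hcb, htt]
      · rw [mul_smul, mul_smul, htinv, htt, huc c hca hcb]
    have hfix : t • (u c • a) = u c • a := by
      have h1 : t • (u c • a) = (t * u c * t⁻¹) • (t • a) := by
        rw [mul_smul, mul_smul, inv_smul_smul]
      rw [h1, hcomm, hta]
    have hne : u c • a ≠ a := by
      intro h
      apply hu1
      have hac' : a ≠ t • c := by
        intro h'
        apply hca
        have : t • a = t • c := by rw [hta]; exact h'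
        exact (smul_left_cancel _ this).symm
      exact Lib.Helper13.zass_three hZ (Ne.symm hca) (hmoved c hca hcb) hac' h
        (huc c hca hcb) (huc' c hca hcb)
    have hub : u c • a = b := by
      rcases htfix _ hfix with h | h
      · exact absurd h hne
      · exact h
    refine ⟨hub, ?_⟩
    rw [← hub, ← mul_smul, hu22, one_smul]
  -- counting
  set X : Finset Ω := (Finset.univ.erase a).erase b with hX
  have hXmem : ∀ c : Ω, c ∈ X ↔ c ≠ a ∧ c ≠ b := by
    intro c
    simp [hX, and_comm]
  have hXcard : X.card = Fintype.card Ω - 2 := by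
    rw [hX, Finset.card_erase_of_mem, Finset.card_erase_of_mem (Finset.mem_univ a),
      Finset.card_univ]
    · omega
    · simp [Ne.symm hab]
  set S : Finset G := Finset.univ.filter (fun g : G => g • a = b ∧ g • b = a) with hS
  set HF : Finset G := Finset.univ.filter (fun g : G => g • a = a ∧ g • b = b) with hHF
  have hHcard : Nat.card ↥(MulAction.stabilizer G a ⊓ MulAction.stabilizer G b) = HF.card := by
    rw [Nat.card_eq_fintype_card, Fintype.card_subtype]
    congr 1
    ext g
    simp [hHF, Subgroup.mem_inf, MulAction.mem_stabilizer_iff]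
  have h1 : X.card ≤ 2 * (X.image u).card := by
    apply Finset.card_le_mul_card_image
    intro v hv
    obtain ⟨c, hcX, rfl⟩ := Finset.mem_image.mp hv
    obtain ⟨hca, hcb⟩ := (hXmem c).mp hcX
    have hu1 := Lib.Helper13.ne_one_of_orderOf_two (hu2 c hca hcb)
    have hsub : (X.filter (fun e => u e = u c)) ⊆ {c, t • c} := by
      intro e he
      obtain ⟨heX, hee⟩ := Finset.mem_filter.mp he
      obtain ⟨hea, heb⟩ := (hXmem e).mp heX
      have hfe : u c • e = e := by rw [← hee]; exact huc e hea heb
      by_contra hne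
      simp only [Finset.mem_insert, Finset.mem_singleton, not_or] at hne
      exact hu1 (Lib.Helper13.zass_three hZ (hmoved c hca hcb) (Ne.symm hne.2) (Ne.symm hne.1)
        (huc c hca hcb) (huc' c hca hcb) hfe)
    exact (Finset.card_le_card hsub).trans Finset.card_le_two
  have h2 : (X.image u).card ≤ S.card := by
    apply Finset.card_le_card
    intro v hv
    obtain ⟨c, hcX, rfl⟩ := Finset.mem_image.mp hv
    obtain ⟨hca, hcb⟩ := (hXmem c).mp hcX
    rw [hS, Finset.mem_filter]
    exact ⟨Finset.mem_univ _, hswap c hca hcb⟩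
  have h3 : S.card ≤ HF.card := by
    obtain ⟨s0, hs0a, hs0b⟩ := Lib.Helper13.zass_two_trans hZ hab (Ne.symm hab)
    apply Finset.card_le_card_of_injOn (fun g => s0 * g)
    · intro g hg
      rw [hS, Finset.mem_coe, Finset.mem_filter] at hg
      rw [hHF, Finset.mem_coe, Finset.mem_filter]
      obtain ⟨-, hg⟩ := hg
      refine ⟨Finset.mem_univ _, ?_⟩
      constructor
      · rw [mul_smul, hg.1, hs0b]
      · rw [mul_smul, hg.2, hs0a]
    · intro g _ g' _ hgg'
      exact mul_left_cancel hgg'
  rw [hHcard, ← hXcard]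
  calc X.card ≤ 2 * (X.image u).card := h1
    _ ≤ 2 * S.card := Nat.mul_le_mul_left 2 h2
    _ ≤ 2 * HF.card := Nat.mul_le_mul_left 2 h3

end Cfsg.Agent.S0741
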