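-- Statement S0754: proof by helper13.
import Cfsg.Statements.S0754
-- import your own Cfsg.Agent.* helpers here

set_option autoImplicit false
open Cfsg

namespace Cfsg.Agent.S0754

/-- In a field F with q^2 elements, every non-zero μ with μ^q = μ (that is, μ in the subfield of order q) has exactly q + 1 solutions λ of λ^(q+1) = μ. -/
theorem result {F : Type*} [Field F] [Fintype F] {q : ℕ} (hF : Fintype.card F = q ^ 2) (μ : F) (hμ : μ ≠ 0) (hμq : μ ^ q = μ) : Nat.card {x : F // x ^ (q + 1) = μ} = q + 1 := by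
  classical
  have hq2 : 2 ≤ q := by
    have h1 : 1 < Fintype.card F := Fintype.one_lt_card
    rw [hF] at h1
    by_contra hlt
    have : q ≤ 1 := by omega
    interval_cases q <;> simp at h1
  have hcardG : Nat.card Fˣ = (q - 1) * (q + 1) := by
    rw [Nat.card_units, Nat.card_eq_fintype_card, hF]
    obtain ⟨k, rfl⟩ : ∃ k, q = k + 2 := ⟨q - 2, by omega⟩
    have : (k + 2) ^ 2 = (k + 2 - 1) * (k + 2 + 1) + 1 := by
      have h : k + 2 - 1 = k + 1 := by omega
      rw [h]; ring
    omega
  have hker : Nat.card (powMonoidHom (q + 1) : Fˣ →* Fˣ).ker = q + 1 := by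
    rw [IsCyclic.card_powMonoidHom_ker, hcardG]
    exact Nat.gcd_eq_right (Dvd.intro_left _ rfl)
  have hrange : Nat.card (powMonoidHom (q + 1) : Fˣ →* Fˣ).range = q - 1 := by
    rw [IsCyclic.card_powMonoidHom_range, hcardG, Nat.gcd_eq_right (Dvd.intro_left _ rfl)]
    exact Nat.mul_div_cancel _ (by omega)
  have hker' : Nat.card (powMonoidHom (q - 1) : Fˣ →* Fˣ).ker = q - 1 := by
    rw [IsCyclic.card_powMonoidHom_ker, hcardG]
    exact Nat.gcd_eq_right (Dvd.intro _ rfl)
  have hle : (powMonoidHom (q + 1) : Fˣ →* Fˣ).range ≤ (powMonoidHom (q - 1) : Fˣ →* Fˣ).ker := by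
    rintro _ ⟨x, rfl⟩
    rw [MonoidHom.mem_ker, powMonoidHom_apply, powMonoidHom_apply, ← pow_mul, mul_comm, ← hcardG]
    exact pow_card_eq_one'
  have heq : (powMonoidHom (q + 1) : Fˣ →* Fˣ).range = (powMonoidHom (q - 1) : Fˣ →* Fˣ).ker :=
    Subgroup.eq_of_le_of_card_ge hle (by rw [hrange, hker'])
  have hu : Units.mk0 μ hμ ∈ (powMonoidHom (q - 1) : Fˣ →* Fˣ).ker := by
    rw [MonoidHom.mem_ker, powMonoidHom_apply]
    apply Units.ext
    rw [Units.val_pow_eq_pow_val, Units.val_mk0, Units.val_one]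
    have h1 : μ ^ (q - 1) * μ = μ := by
      rw [← pow_succ]
      have : q - 1 + 1 = q := by omega
      rw [this, hμq]
    have h2 : (μ ^ (q - 1) - 1) * μ = 0 := by linear_combination h1
    rcases mul_eq_zero.mp h2 with h | h
    · exact sub_eq_zero.mp h
    · exact absurd h hμ
  rw [← heq] at hu
  obtain ⟨x0, hx0⟩ := hu
  rw [powMonoidHom_apply] at hx0
  have hx0' : (x0 : F) ^ (q + 1) = μ := by
    have := congrArg Units.val hx0
    simpa using this
  refine (Nat.card_congr ?_).trans hker
  refine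
    { toFun := fun x => ⟨x0⁻¹ * Units.mk0 x.1 (by
          intro h0
          have := x.2
          rw [h0, zero_pow (by omega)] at this
          exact hμ this.symm), ?_⟩
      invFun := fun y => ⟨((x0 * y.1 : Fˣ) : F), ?_⟩
      left_inv := ?_
      right_inv := ?_ }
  · rw [MonoidHom.mem_ker, powMonoidHom_apply]
    apply Units.ext
    rw [Units.val_pow_eq_pow_val, Units.val_mul, Units.val_mk0, Units.val_one, mul_pow, x.2,
      ← Units.val_pow_eq_pow_val, inv_pow, hx0]
    simp [inv_mul_cancel₀ hμ]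
  · have hy := y.2
    rw [MonoidHom.mem_ker, powMonoidHom_apply] at hy
    have hy' : ((y.1 : Fˣ) : F) ^ (q + 1) = 1 := by
      have := congrArg Units.val hy
      simpa using this
    rw [Units.val_mul, mul_pow, hx0', hy', mul_one]
  · intro x
    apply Subtype.ext
    simp
  · intro y
    apply Subtype.ext
    apply Units.ext
    simp

end Cfsg.Agent.S0754
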