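-- Statement S0757: proof by helper13.
import Cfsg.Statements.S0757
-- import your own Cfsg.Agent.* helpers here

set_option autoImplicit false
open Cfsg

namespace Cfsg.Agent.S0757

/-- The two diagonal forms Σ x_i^2 and Σ_(i<n) x_i^2 + α x_n^2 on F^(n+1), with α a non-square and 2 ≠ 0 in F, are inequivalent quadratic forms (so over a finite field of odd order there are exactly two classes of non-singular symmetric bilinear forms in each dimension). -/
theorem result {F : Type*} [Field F] (h2 : (2 : F) ≠ 0) (n : ℕ) (α : F) (hα : ¬ IsSquare α) : ¬ (QuadraticMap.weightedSumSquares F (fun _ : Fin (n + 1) => (1 : F))).Equivalent (QuadraticMap.weightedSumSquares F (fun i : Fin (n + 1) => if i = Fin.last n then α else (1 : F))) := by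
  classical
  rintro ⟨e⟩
  set w : Fin (n + 1) → F := fun i => if i = Fin.last n then α else (1 : F) with hw
  set P : Matrix (Fin (n + 1)) (Fin (n + 1)) F :=
    LinearMap.toMatrix' (e.toLinearEquiv : (Fin (n + 1) → F) →ₗ[F] (Fin (n + 1) → F)) with hP
  have hPv : ∀ v : Fin (n + 1) → F, P.mulVec v = e v := by
    intro v
    rw [hP, LinearMap.toMatrix'_mulVec]
    rfl
  have hiso : ∀ v : Fin (n + 1) → F, ∑ k, w k * (P.mulVec v k * P.mulVec v k) = ∑ k, v k * v k := by
    intro v
    have h := e.map_app v
    rw [QuadraticMap.weightedSumSquares_apply, QuadraticMap.weightedSumSquares_apply] at h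
    rw [hPv]
    simpa [hw, smul_eq_mul] using h
  have hpol : ∀ u v : Fin (n + 1) → F,
      ∑ k, w k * (P.mulVec u k * P.mulVec v k) = ∑ k, u k * v k := by
    intro u v
    have h1 := hiso (u + v)
    have h2' := hiso u
    have h3 := hiso v
    have h4 : (2 : F) * ∑ k, w k * (P.mulVec u k * P.mulVec v k) = 2 * ∑ k, u k * v k := by
      have e1 : ∑ k, w k * (P.mulVec (u + v) k * P.mulVec (u + v) k)
          = ∑ k, w k * (P.mulVec u k * P.mulVec u k) + ∑ k, w k * (P.mulVec v k * P.mulVec v k)
            + 2 * ∑ k, w k * (P.mulVec u k * P.mulVec v k) := by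
        rw [Finset.mul_sum, ← Finset.sum_add_distrib, ← Finset.sum_add_distrib]
        apply Finset.sum_congr rfl
        intro k _
        rw [Matrix.mulVec_add]
        simp only [Pi.add_apply]
        ring
      have e2 : ∑ k, (u + v) k * (u + v) k
          = ∑ k, u k * u k + ∑ k, v k * v k + 2 * ∑ k, u k * v k := by
        rw [Finset.mul_sum, ← Finset.sum_add_distrib, ← Finset.sum_add_distrib]
        apply Finset.sum_congr rfl
        intro k _
        simp only [Pi.add_apply]
        ring
      rw [e1, e2, h2', h3] at h1
      linear_combination h1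
    exact mul_left_cancel₀ h2 h4
  have hmat : P.transpose * Matrix.diagonal w * P = 1 := by
    ext i j
    have h := hpol (Pi.single i 1) (Pi.single j 1)
    simp only [Matrix.mulVec_single_one] at h
    rw [Matrix.mul_apply]
    simp only [Matrix.mul_diagonal, Matrix.transpose_apply]
    rw [Matrix.one_apply]
    have h5 : ∑ k, (Pi.single i (1 : F) : Fin (n + 1) → F) k * (Pi.single j (1 : F) : Fin (n + 1) → F) k
        = if i = j then 1 else 0 := by
      simp [Pi.single_apply, eq_comm]
    rw [h5] at h
    rw [← h]
    apply Finset.sum_congr rfl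
    intro k _
    simp only [Matrix.col_apply]
    ring
  have hdet := congrArg Matrix.det hmat
  rw [Matrix.det_mul, Matrix.det_mul, Matrix.det_transpose, Matrix.det_diagonal, Matrix.det_one] at hdet
  have hprod : ∏ i, w i = α := by
    simp [hw, Finset.prod_ite_eq']
  rw [hprod] at hdet
  have hd : P.det ≠ 0 := by
    intro h0
    rw [h0] at hdet
    simp at hdet
  apply hα
  refine ⟨P.det⁻¹, ?_⟩
  field_simp
  linear_combination hdet

end Cfsg.Agent.S0757
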