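-- Statement S0758: proof by helper13.
import Cfsg.Statements.S0758
-- import your own Cfsg.Agent.* helpers here

set_option autoImplicit false
open Cfsg

namespace Cfsg.Agent.S0758

/-- For a finite field F of odd order q and a non-square α: the form x² + y² is isotropic iff q ≡ 1 mod 4, and the form x² + α y² is isotropic iff q ≡ 3 mod 4. -/
theorem result {F : Type*} [Field F] [Fintype F] (h2 : (2 : F) ≠ 0) (α : F) (hα : ¬ IsSquare α) : ((∃ x y : F, (x ≠ 0 ∨ y ≠ 0) ∧ x ^ 2 + y ^ 2 = 0) ↔ Fintype.card F % 4 = 1) ∧ ((∃ x y : F, (x ≠ 0 ∨ y ≠ 0) ∧ x ^ 2 + α * y ^ 2 = 0) ↔ Fintype.card F % 4 = 3) := by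
  classical
  have hF : ringChar F ≠ 2 := by
    intro h
    apply h2
    have h' := ringChar.Nat.cast_ringChar (R := F)
    rw [h] at h'
    exact_mod_cast h'
  have hodd := FiniteField.odd_card_of_char_ne_two hF
  have hα0 : α ≠ 0 := by
    intro h
    apply hα
    rw [h]
    exact ⟨0, by simp⟩
  have hm1 : (-1 : F) ≠ 0 := by simp
  constructor
  · constructor
    · rintro ⟨x, y, hxy, h⟩
      have hy : y ≠ 0 := by
        intro hy
        rw [hy] at h
        rcases hxy with hx | hy'
        · apply hx
          simpa using h
        · exact hy' hy
      have hsq : IsSquare (-1 : F) := by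
        refine ⟨x / y, ?_⟩
        field_simp
        linear_combination -h
      have := FiniteField.isSquare_neg_one_iff.mp hsq
      omega
    · intro h
      have hsq : IsSquare (-1 : F) := FiniteField.isSquare_neg_one_iff.mpr (by omega)
      obtain ⟨r, hr⟩ := hsq
      refine ⟨r, 1, Or.inr one_ne_zero, ?_⟩
      linear_combination -hr
  · constructor
    · rintro ⟨x, y, hxy, h⟩
      have hy : y ≠ 0 := by
        intro hy
        rw [hy] at h
        rcases hxy with hx | hy'
        · apply hx
          simpa using h
        · exact hy' hy
      have hsq : IsSquare (-α) := by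
        refine ⟨x / y, ?_⟩
        field_simp
        linear_combination -h
      have hnot : ¬ IsSquare (-1 : F) := by
        intro h1
        apply hα
        have := h1.mul hsq
        simpa using this
      have := (not_congr FiniteField.isSquare_neg_one_iff).mp hnot
      omega
    · intro h
      have hnot : ¬ IsSquare (-1 : F) := by
        rw [FiniteField.isSquare_neg_one_iff]
        omega
      have h1 : (-1 : F) ^ (Fintype.card F / 2) = -1 := by
        rcases FiniteField.pow_dichotomy hF hm1 with h' | h'
        · exact absurd ((FiniteField.isSquare_iff hF hm1).mpr h') hnot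
        · exact h'
      have h3 : α ^ (Fintype.card F / 2) = -1 := by
        rcases FiniteField.pow_dichotomy hF hα0 with h' | h'
        · exact absurd ((FiniteField.isSquare_iff hF hα0).mpr h') hα
        · exact h'
      have hnα : -α ≠ 0 := by simpa using hα0
      have hsq : IsSquare (-α) := by
        rw [FiniteField.isSquare_iff hF hnα]
        have : -α = (-1) * α := by ring
        rw [this, mul_pow, h1, h3]
        ring
      obtain ⟨r, hr⟩ := hsq
      refine ⟨r, 1, Or.inr one_ne_zero, ?_⟩
      linear_combination -hr

end Cfsg.Agent.S0758
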