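import Cfsg.Statements.S0759
import Cfsg.Agent.Lib.Helper99.Quad
import Cfsg.Agent.Lib.Helper99.Gram

set_option autoImplicit false
open Cfsg

namespace Cfsg.Agent.S0759

open Module Cfsg.Agent.Lib.Helper99

section aux
variable {F : Type*} [Field F]

theorem graph_ti {ι : Type} [Fintype ι] (T : (ι → F) →ₗ[F] (ι → F))
    (hT : ∀ a, ∑ i, (T a i) ^ 2 = -∑ i, (a i) ^ 2) (m : ℕ) (hι : Fintype.card ι = m) :
    ∃ W : Submodule F (Fin (2 * m) → F), finrank F W = m ∧ ∀ w ∈ W, ∑ i, w i ^ 2 = 0 := by
  classical
  let φ : (ι → F) →ₗ[F] (ι ⊕ ι → F) :=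
    { toFun := fun a => Sum.elim a (T a)
      map_add' := by
        intro a b
        funext s
        cases s <;> simp
      map_smul' := by
        intro c a
        funext s
        cases s <;> simp }
  have hφinj : Function.Injective φ := by
    intro a b h
    funext i
    exact congrFun h (Sum.inl i)
  let e : Fin (2 * m) ≃ ι ⊕ ι := Fintype.equivOfCardEq (by
    rw [Fintype.card_fin, Fintype.card_sum, hι]; ring)
  let E : (ι ⊕ ι → F) ≃ₗ[F] (Fin (2 * m) → F) := LinearEquiv.funCongrLeft F F e
  refine ⟨(LinearMap.range φ).map (E : (ι ⊕ ι → F) →ₗ[F] (Fin (2 * m) → F)), ?_, ?_⟩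
  · rw [LinearEquiv.finrank_map_eq, LinearMap.finrank_range_of_inj hφinj,
      Module.finrank_fintype_fun_eq_card, hι]
  · rintro _ ⟨_, ⟨a, rfl⟩, rfl⟩
    have h1 : ∑ i, (E (φ a)) i ^ 2 = ∑ s, (φ a s) ^ 2 :=
      Equiv.sum_comp e (fun s => φ a s ^ 2)
    have h3 : ∑ s, (φ a s) ^ 2 = ∑ i, (a i) ^ 2 + ∑ i, (T a i) ^ 2 := by
      rw [Fintype.sum_sum_type]
      rfl
    have h4 : ∑ i, ((E : (ι ⊕ ι → F) →ₗ[F] (Fin (2 * m) → F)) (φ a)) i ^ 2
        = ∑ i, (E (φ a)) i ^ 2 := rfl
    rw [h4, h1, h3, hT]
    ring

theorem exists_sq_add_sq [Fintype F] (hns : ¬ IsSquare (-1 : F)) :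
    ∃ a b : F, a ^ 2 + b ^ 2 = -1 := by
  obtain ⟨x, hx, h⟩ := cw3 (fun i j : Fin 3 => if i = j then (1 : F) else 0)
  simp [Fin.sum_univ_three] at h
  by_cases hx2 : x 2 = 0
  · exfalso
    rw [hx2] at h
    by_cases hx1 : x 1 = 0
    · rw [hx1] at h
      have hx0 : x 0 = 0 := by simpa using h
      apply hx
      funext i
      fin_cases i
      · exact hx0
      · exact hx1
      · exact hx2
    · apply hns
      refine ⟨x 0 / x 1, ?_⟩
      field_simp
      linear_combination -h
  · refine ⟨x 0 / x 2, x 1 / x 2, ?_⟩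
    field_simp
    linear_combination h

end aux

/-- Type of the orthonormal form: over a finite field of odd order q and for m ≥ 1, the quadratic form Σ_(i<2m) x_i² on F^(2m) admits an m-dimensional subspace on which it vanishes identically if and only if it is not the case that q ≡ 3 (mod 4) and m is odd. -/
theorem result {F : Type*} [Field F] [Fintype F] (h2 : (2 : F) ≠ 0) (m : ℕ) (hm : 1 ≤ m) : (∃ W : Submodule F (Fin (2 * m) → F), Module.finrank F W = m ∧ ∀ w ∈ W, ∑ i, w i ^ 2 = 0) ↔ ¬ (Fintype.card F % 4 = 3 ∧ Odd m) := by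
  classical
  constructor
  · rintro ⟨W, hW, hti⟩ ⟨hq, hm_odd⟩
    have hns : ¬ IsSquare (-1 : F) := by
      rw [FiniteField.isSquare_neg_one_iff]
      exact fun h => h hq
    apply hns
    let β : LinearMap.BilinForm F (Fin (2 * m) → F) :=
      Matrix.toBilin' (1 : Matrix (Fin (2 * m)) (Fin (2 * m)) F)
    have hβ : ∀ u v, β u v = ∑ i, u i * v i := by
      intro u v
      simp [β, Matrix.toBilin'_apply', dotProduct]
    have hβsymm : ∀ u v, β u v = β v u := by
      intro u v
      rw [hβ, hβ]
      exact Finset.sum_congr rfl (fun i _ => mul_comm _ _)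
    have hW0 : ∀ u ∈ W, ∀ v ∈ W, β u v = 0 := by
      intro u hu v hv
      have h1 := hti (u + v) (W.add_mem hu hv)
      have h3 := hti u hu
      have h4 := hti v hv
      have h5 : (2 : F) * β u v = 0 := by
        rw [hβ]
        have h6 : ∑ i, (u + v) i ^ 2
            = ∑ i, u i ^ 2 + 2 * ∑ i, u i * v i + ∑ i, v i ^ 2 := by
          rw [Finset.mul_sum, ← Finset.sum_add_distrib, ← Finset.sum_add_distrib]
          apply Finset.sum_congr rfl
          intro i _
          simp only [Pi.add_apply]
          ring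
        rw [h6, h3, h4] at h1
        simpa using h1
      exact (mul_eq_zero.mp h5).resolve_left h2
    obtain ⟨W', hWW'⟩ := Submodule.exists_isCompl W
    have hW' : finrank F W' = m := by
      have h1 := Submodule.finrank_add_eq_of_isCompl hWW'
      rw [Module.finrank_fintype_fun_eq_card, Fintype.card_fin] at h1
      omega
    obtain ⟨w, hw, hws⟩ := exists_family_of_finrank W hW
    obtain ⟨w', hw', hws'⟩ := exists_family_of_finrank W' hW'
    have hwW : ∀ i, w i ∈ W := fun i => hws ▸ Submodule.subset_span ⟨i, rfl⟩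
    have hli : LinearIndependent F (Sum.elim w w') := by
      apply LinearIndependent.sum_type hw hw'
      rw [hws, hws']
      exact hWW'.disjoint
    have hne : Nonempty (Fin m ⊕ Fin m) := ⟨Sum.inl ⟨0, hm⟩⟩
    let b : Basis (Fin m ⊕ Fin m) F (Fin (2 * m) → F) :=
      basisOfLinearIndependentOfCardEqFinrank hli (by
        rw [Module.finrank_fintype_fun_eq_card, Fintype.card_fin, Fintype.card_sum,
          Fintype.card_fin]
        ring)
    have hb : ∀ s, b s = Sum.elim w w' s := fun s => by
      simp [b]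
    obtain ⟨p, hp0, hp⟩ := gram_det_change' β b
    have hstd : (LinearMap.BilinForm.toMatrix' β).det = 1 := by
      simp [β, LinearMap.BilinForm.toMatrix'_toBilin']
    rw [hstd, mul_one] at hp
    set A : Matrix (Fin m) (Fin m) F := Matrix.of (fun i j => β (w i) (w' j)) with hA
    set C : Matrix (Fin m) (Fin m) F := Matrix.of (fun i j => β (w' i) (w' j)) with hC
    have hG : Matrix.of (fun i j : Fin m ⊕ Fin m => β (b i) (b j))
        = Matrix.fromBlocks 0 A A.transpose C := by
      ext i j
      rcases i with i | i <;> rcases j with j | j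
      · simp [hb, hW0 (w i) (hwW i) (w j) (hwW j)]
      · simp [hb, hA]
      · simp [hb, hA, hβsymm (w' i) (w j)]
      · simp [hb, hC]
    rw [hG, det_zero_block m h2, hm_odd.neg_one_pow] at hp
    have hA0 : A.det ≠ 0 := by
      intro h0
      rw [h0] at hp
      simp only [mul_zero] at hp
      exact hp0 (mul_self_eq_zero.mp hp.symm)
    refine ⟨p / A.det, ?_⟩
    field_simp
    linear_combination hp
  · intro hcond
    by_cases hsq : IsSquare (-1 : F)
    · obtain ⟨i, hi⟩ := hsq
      have hi2 : i ^ 2 = -1 := by rw [sq, ← hi]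
      refine graph_ti (ι := Fin m) (i • LinearMap.id) ?_ m (Fintype.card_fin m)
      intro a
      simp only [LinearMap.smul_apply, LinearMap.id_coe, id_eq, Pi.smul_apply, smul_eq_mul,
        mul_pow, hi2, ← Finset.mul_sum]
      ring
    · have hq : Fintype.card F % 4 = 3 := by
        by_contra hq
        exact hsq (FiniteField.isSquare_neg_one_iff.mpr hq)
      have hme : Even m := by
        rw [← Nat.not_odd_iff_even]
        exact fun ho => hcond ⟨hq, ho⟩
      obtain ⟨l, hl⟩ := hme
      obtain ⟨a, b, hab⟩ := exists_sq_add_sq hsq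
      let T : (Fin l ⊕ Fin l → F) →ₗ[F] (Fin l ⊕ Fin l → F) :=
        { toFun := fun v => Sum.elim (fun j => a * v (Sum.inl j) - b * v (Sum.inr j))
            (fun j => b * v (Sum.inl j) + a * v (Sum.inr j))
          map_add' := by
            intro u v
            funext s
            cases s <;> simp <;> ring
          map_smul' := by
            intro c v
            funext s
            cases s <;> simp <;> ring }
      refine graph_ti T ?_ m (by rw [Fintype.card_sum, Fintype.card_fin, hl])
      intro v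
      rw [Fintype.sum_sum_type, Fintype.sum_sum_type, ← Finset.sum_add_distrib,
        ← Finset.sum_add_distrib, ← Finset.sum_neg_distrib]
      apply Finset.sum_congr rfl
      intro j _
      simp only [T, LinearMap.coe_mk, AddHom.coe_mk, Sum.elim_inl, Sum.elim_inr]
      linear_combination (v (Sum.inl j) ^ 2 + v (Sum.inr j) ^ 2) * hab

end Cfsg.Agent.S0759
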