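-- Statement S0760: the Witt index of a quadratic form with non-degenerate polar form is well defined.
import Cfsg.Statements.S0760

set_option autoImplicit false
open Cfsg

namespace Cfsg.Agent.S0760

/-- Witt index is well defined: if Q is a quadratic form on a finite-dimensional space V over a finite field with non-degenerate polar form, and W₁, W₂ are subspaces on which Q vanishes that are maximal with this property, then W₁ and W₂ have the same dimension, and twice this dimension is at most dim V. -/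
theorem result {F V : Type*} [Field F] [Finite F] [AddCommGroup V] [Module F V] [FiniteDimensional F V] (Q : QuadraticForm F V) (hQ : (QuadraticMap.polarBilin Q).Nondegenerate) (W₁ W₂ : Submodule F V) (h₁ : ∀ w ∈ W₁, Q w = 0) (h₂ : ∀ w ∈ W₂, Q w = 0) (hmax₁ : ∀ W : Submodule F V, W₁ ≤ W → (∀ w ∈ W, Q w = 0) → W = W₁) (hmax₂ : ∀ W : Submodule F V, W₂ ≤ W → (∀ w ∈ W, Q w = 0) → W = W₂) : Module.finrank F W₁ = Module.finrank F W₂ ∧ 2 * Module.finrank F W₁ ≤ Module.finrank F V := by
  classical
  set B : LinearMap.BilinForm F V := QuadraticMap.polarBilin Q with hB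
  have hBnd : B.Nondegenerate := hQ
  have Bpolar : ∀ x y, B x y = Q (x + y) - Q x - Q y := fun x y => by
    simp [hB, QuadraticMap.polar]
  have main : ∀ W₁ W₂ : Submodule F V, (∀ w ∈ W₁, Q w = 0) → (∀ w ∈ W₂, Q w = 0) →
      (∀ W : Submodule F V, W₂ ≤ W → (∀ w ∈ W, Q w = 0) → W = W₂) →
      Module.finrank F W₁ ≤ Module.finrank F W₂ := by
    intro W₁ W₂ h₁ h₂ hmax₂
    have hsub : W₁ ⊓ B.orthogonal W₂ ≤ W₁ ⊓ W₂ := by
      intro x hx
      obtain ⟨hx1, hx2⟩ := hx
      refine ⟨hx1, ?_⟩
      rw [SetLike.mem_coe, LinearMap.BilinForm.mem_orthogonal_iff] at hx2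
      have hW : W₂ ⊔ Submodule.span F {x} = W₂ := by
        apply hmax₂ _ le_sup_left
        intro w hw
        obtain ⟨w2, hw2, y, hy, rfl⟩ := Submodule.mem_sup.mp hw
        obtain ⟨c, rfl⟩ := Submodule.mem_span_singleton.mp hy
        have : Q (w2 + c • x) = Q w2 + Q (c • x) + B w2 (c • x) := by rw [Bpolar]; ring
        rw [this, h₂ w2 hw2, QuadraticMap.map_smul, h₁ x hx1, map_smul, hx2 w2 hw2]
        simp
      have : x ∈ W₂ ⊔ Submodule.span F {x} :=
        Submodule.mem_sup_right (Submodule.mem_span_singleton_self x)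
      rw [hW] at this
      exact this
    have hsup : W₁ ⊔ B.orthogonal W₂ ≤ B.orthogonal (W₁ ⊓ W₂) := by
      apply sup_le
      · intro x hx
        rw [LinearMap.BilinForm.mem_orthogonal_iff]
        intro n hn
        rw [Bpolar, h₁ _ (W₁.add_mem hn.1 hx), h₁ n hn.1, h₁ x hx]; simp
      · exact LinearMap.BilinForm.orthogonal_le inf_le_right
    have e1 := Submodule.finrank_sup_add_finrank_inf_eq W₁ (B.orthogonal W₂)
    have e2 := LinearMap.BilinForm.finrank_orthogonal hBnd W₂
    have e3 := LinearMap.BilinForm.finrank_orthogonal hBnd (W₁ ⊓ W₂)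
    have l1 := Submodule.finrank_mono hsub
    have l2 := Submodule.finrank_mono hsup
    have l3 := Submodule.finrank_le W₂
    have l4 := Submodule.finrank_le (W₁ ⊓ W₂)
    omega
  refine ⟨le_antisymm (main W₁ W₂ h₁ h₂ hmax₂) (main W₂ W₁ h₂ h₁ hmax₁), ?_⟩
  have hle : W₁ ≤ B.orthogonal W₁ := by
    intro x hx
    rw [LinearMap.BilinForm.mem_orthogonal_iff]
    intro n hn
    rw [Bpolar, h₁ _ (W₁.add_mem hn hx), h₁ n hn, h₁ x hx]; simp
  have e := LinearMap.BilinForm.finrank_orthogonal hBnd W₁
  have l := Submodule.finrank_mono hle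
  have l3 := Submodule.finrank_le W₁
  omega

end Cfsg.Agent.S0760
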