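-- Statement S0761: proof by helper13.
import Cfsg.Statements.S0761
-- import your own Cfsg.Agent.* helpers here

set_option autoImplicit false
open Cfsg

namespace Cfsg.Agent.S0761

/-- Hyperbolic partners: let B be a non-degenerate bilinear form on a finite-dimensional space, either alternating, or symmetric with 2 ≠ 0. If Z is a subspace on which B vanishes, x ∉ Z is isotropic and orthogonal to Z, then there is an isotropic y with B x y = 1 which is orthogonal to Z. -/
theorem result {F V : Type*} [Field F] [AddCommGroup V] [Module F V] [FiniteDimensional F V] (B : LinearMap.BilinForm F V) (hB : B.Nondegenerate) (hform : B.IsAlt ∨ (B.IsSymm ∧ (2 : F) ≠ 0)) (x : V) (Z : Submodule F V) (hxZ : x ∉ Z) (hx : B x x = 0) (hxz : ∀ z ∈ Z, B x z = 0) (hZ : ∀ z ∈ Z, ∀ z' ∈ Z, B z z' = 0) : ∃ y : V, B y y = 0 ∧ B x y = 1 ∧ ∀ z ∈ Z, B z y = 0 := by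
  have hrefl : B.IsRefl := by
    rcases hform with h | ⟨h, _⟩
    · exact h.isRefl
    · exact h.isRefl
  -- find y0 in the orthogonal of Z with B y0 x ≠ 0
  have hex : ∃ y0 : V, (∀ z ∈ Z, B z y0 = 0) ∧ B y0 x ≠ 0 := by
    by_contra hcon
    push Not at hcon
    apply hxZ
    rw [← LinearMap.BilinForm.orthogonal_orthogonal hB hrefl Z]
    rw [LinearMap.BilinForm.mem_orthogonal_iff]
    intro y hy
    rw [LinearMap.BilinForm.mem_orthogonal_iff] at hy
    exact hcon y hy
  obtain ⟨y0, hy0Z, hy0x⟩ := hex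
  have hxy0 : B x y0 ≠ 0 := fun h => hy0x (hrefl _ _ h)
  -- normalise
  set y1 : V := (B x y0)⁻¹ • y0 with hy1
  have hxy1 : B x y1 = 1 := by
    simp [hy1, inv_mul_cancel₀ hxy0]
  have hy1Z : ∀ z ∈ Z, B z y1 = 0 := by
    intro z hz
    simp [hy1, hy0Z z hz]
  rcases hform with hA | ⟨hS, h2⟩
  · exact ⟨y1, hA.self_eq_zero y1, hxy1, hy1Z⟩
  · have hsymm : ∀ u v, B u v = B v u := fun u v => hS.eq u v
    refine ⟨y1 - (B y1 y1 / 2) • x, ?_, ?_, ?_⟩
    · have h1 : B y1 x = 1 := by rw [hsymm]; exact hxy1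
      simp only [map_sub, map_smul, LinearMap.sub_apply, LinearMap.smul_apply, smul_eq_mul, hx,
        hxy1, h1]
      field_simp
      ring
    · simp [hx, hxy1]
    · intro z hz
      have hzx : B z x = 0 := by rw [hsymm]; exact hxz z hz
      simp [hy1Z z hz, hzx]

end Cfsg.Agent.S0761
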