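-- Statement S0762: proof by helper13.
import Cfsg.Statements.S0762
-- import your own Cfsg.Agent.* helpers here

set_option autoImplicit false
open Cfsg

namespace Cfsg.Agent.S0762

/-- In characteristic two over a finite field, a quadratic form on a space of dimension at least 3 vanishes on some non-zero vector. -/
theorem result {F V : Type*} [Field F] [Finite F] [CharP F 2] [AddCommGroup V] [Module F V] [FiniteDimensional F V] (Q : QuadraticForm F V) (h3 : 3 ≤ Module.finrank F V) : ∃ v : V, v ≠ 0 ∧ Q v = 0 := by
  classical
  have hpos : 0 < Module.finrank F V := by omega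
  have : Nontrivial V := Module.nontrivial_of_finrank_pos (R := F) hpos
  obtain ⟨u, hu⟩ := exists_ne (0 : V)
  by_cases hQu : Q u = 0
  · exact ⟨u, hu, hQu⟩
  set φ : V →ₗ[F] F := QuadraticMap.polarBilin Q u with hφ
  have hker : 2 ≤ Module.finrank F (LinearMap.ker φ) := by
    have h1 := LinearMap.finrank_range_add_finrank_ker φ
    have h2 : Module.finrank F (LinearMap.range φ) ≤ 1 := by
      have := Submodule.finrank_le (LinearMap.range φ)
      simpa using this
    omega
  have hnle : ¬ LinearMap.ker φ ≤ Submodule.span F {u} := by
    intro hle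
    have h1 := Submodule.finrank_mono hle
    have h2 : Module.finrank F (Submodule.span F {u}) = 1 := finrank_span_singleton hu
    omega
  obtain ⟨v', hv'ker, hv'span⟩ := SetLike.not_le_iff_exists.mp hnle
  have hpol : QuadraticMap.polar Q u v' = 0 := by
    have := LinearMap.mem_ker.mp hv'ker
    simpa [hφ] using this
  have hchar : ringChar F = 2 := ringChar.eq F 2
  obtain ⟨a, ha⟩ := FiniteField.isSquare_of_char_two hchar (Q v' / Q u)
  refine ⟨a • u + v', ?_, ?_⟩
  · intro h0
    apply hv'span
    have : v' = (-a) • u := by
      rw [neg_smul]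
      exact eq_neg_of_add_eq_zero_right h0
    rw [this]
    exact Submodule.smul_mem _ _ (Submodule.mem_span_singleton_self u)
  · rw [QuadraticMap.map_add (⇑Q), QuadraticMap.map_smul, QuadraticMap.polar_smul_left, hpol]
    have h2 : a * a * Q u = Q v' := by
      rw [← ha]
      field_simp
    rw [smul_eq_mul, h2]
    simp [CharTwo.add_self_eq_zero]

end Cfsg.Agent.S0762
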