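-- Statement S0763: proof by helper13.
import Cfsg.Statements.S0763
-- import your own Cfsg.Agent.* helpers here

set_option autoImplicit false
open Cfsg

namespace Cfsg.Agent.S0763

/-- Binary quadratic forms in characteristic two over a finite field: if Q is a quadratic form on a 2-dimensional space whose polar form is non-degenerate, then either there are vectors v, w with Q v = Q w = 0 and polar value 1 (Q is xy in these coordinates), or there are v, w and μ with Q v = 1, Q w = μ, polar value 1 and x² + x + μ without roots in F (Q is x² + xy + μy²). -/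
theorem result {F V : Type*} [Field F] [Finite F] [CharP F 2] [AddCommGroup V] [Module F V] (Q : QuadraticForm F V) (h2 : Module.finrank F V = 2) (hQ : (QuadraticMap.polarBilin Q).Nondegenerate) : (∃ v w : V, LinearIndependent F ![v, w] ∧ Q v = 0 ∧ Q w = 0 ∧ QuadraticMap.polar Q v w = 1) ∨ (∃ (v w : V) (μ : F), LinearIndependent F ![v, w] ∧ (∀ x : F, x ^ 2 + x + μ ≠ 0) ∧ Q v = 1 ∧ Q w = μ ∧ QuadraticMap.polar Q v w = 1) := by
  classical
  have hchar : ringChar F = 2 := ringChar.eq F 2
  have h2Q : ∀ x : V, QuadraticMap.polar Q x x = 0 := by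
    intro x
    rw [QuadraticMap.polar_self]
    simp [two_smul, CharTwo.add_self_eq_zero]
  -- partner
  have hpartner : ∀ v : V, v ≠ 0 → ∃ w : V, QuadraticMap.polar Q v w = 1 := by
    intro v hv
    have : ∃ w : V, QuadraticMap.polarBilin Q v w ≠ 0 := by
      by_contra hcon
      push Not at hcon
      exact hv (hQ.1 v hcon)
    obtain ⟨w, hw⟩ := this
    refine ⟨(QuadraticMap.polarBilin Q v w)⁻¹ • w, ?_⟩
    rw [QuadraticMap.polar_smul_right]
    have : QuadraticMap.polar Q v w ≠ 0 := by simpa using hw
    simp [inv_mul_cancel₀ this]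
  -- independence
  have hindep : ∀ v w : V, QuadraticMap.polar Q v w = 1 → LinearIndependent F ![v, w] := by
    intro v w hvw
    rw [LinearIndependent.pair_iff]
    intro s t hst
    have h1 : QuadraticMap.polar Q (s • v + t • w) w = 0 := by
      rw [hst]; simp [QuadraticMap.polar]
    have h2' : QuadraticMap.polar Q v (s • v + t • w) = 0 := by
      rw [hst]; simp [QuadraticMap.polar]
    rw [QuadraticMap.polar_add_left, QuadraticMap.polar_smul_left, QuadraticMap.polar_smul_left,
      hvw, h2Q] at h1
    rw [QuadraticMap.polar_add_right, QuadraticMap.polar_smul_right, QuadraticMap.polar_smul_right,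
      hvw, h2Q] at h2'
    constructor
    · simpa using h1
    · simpa using h2'
  by_cases hsing : ∃ v : V, v ≠ 0 ∧ Q v = 0
  · left
    obtain ⟨v, hv, hQv⟩ := hsing
    obtain ⟨w', hw'⟩ := hpartner v hv
    have hw'v : QuadraticMap.polar Q w' v = 1 := by rw [QuadraticMap.polar_comm]; exact hw'
    have hpol : QuadraticMap.polar Q v (w' + Q w' • v) = 1 := by
      rw [QuadraticMap.polar_add_right, QuadraticMap.polar_smul_right, hw', h2Q]
      simp
    refine ⟨v, w' + Q w' • v, hindep _ _ hpol, hQv, ?_, hpol⟩
    rw [QuadraticMap.map_add (⇑Q), QuadraticMap.map_smul, QuadraticMap.polar_smul_right, hQv, hw'v]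
    simp [CharTwo.add_self_eq_zero]
  · right
    push Not at hsing
    have hpos : 0 < Module.finrank F V := by omega
    have : Nontrivial V := Module.nontrivial_of_finrank_pos (R := F) hpos
    obtain ⟨v0, hv0⟩ := exists_ne (0 : V)
    have hc : Q v0 ≠ 0 := hsing v0 hv0
    obtain ⟨e, he⟩ := FiniteField.isSquare_of_char_two hchar (Q v0)⁻¹
    have hQv : Q (e • v0) = 1 := by
      rw [QuadraticMap.map_smul, ← he, smul_eq_mul, inv_mul_cancel₀ hc]
    have hv : e • v0 ≠ 0 := by
      intro h
      rw [h] at hQv
      simp at hQv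
    obtain ⟨w, hw⟩ := hpartner (e • v0) hv
    have hli := hindep _ _ hw
    refine ⟨e • v0, w, Q w, hli, ?_, hQv, rfl, hw⟩
    intro x
    have hne : x • (e • v0) + w ≠ 0 := by
      intro h
      rw [LinearIndependent.pair_iff] at hli
      have := hli x 1 (by simpa using h)
      exact one_ne_zero this.2
    have hQ' := hsing _ hne
    rw [QuadraticMap.map_add (⇑Q), QuadraticMap.map_smul, QuadraticMap.polar_smul_left, hQv,
      hw] at hQ'
    intro h
    apply hQ'
    simp only [smul_eq_mul, mul_one]
    linear_combination h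

end Cfsg.Agent.S0763
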