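-- Statement S0767: proof by helper13.
import Cfsg.Statements.S0767
import Cfsg.Agent.Lib.Helper13.Symp

set_option autoImplicit false
open Cfsg

namespace Cfsg.Agent.S0767

/-- The root group of a point: T_v(c) T_v(d) = T_v(c + d), and for A in the symplectic group with A v = a v, the conjugate A T_v(c) A⁻¹ is again some T_v(d). -/
theorem result {F : Type*} [Field F] (m : ℕ) (v : Fin m ⊕ Fin m → F) : (∀ c d : F, Cfsg.sympTransvection m v c * Cfsg.sympTransvection m v d = Cfsg.sympTransvection m v (c + d)) ∧ ∀ (A : Matrix (Fin m ⊕ Fin m) (Fin m ⊕ Fin m) F) (a : F), A ∈ Matrix.symplecticGroup (Fin m) F → A.mulVec v = a • v → ∀ c : F, ∃ d : F, A * Cfsg.sympTransvection m v c * A⁻¹ = Cfsg.sympTransvection m v d := by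
  constructor
  · intro c d
    rw [Matrix.ext_iff_mulVec]
    intro x
    rw [← Matrix.mulVec_mulVec, Lib.Helper13.sympTransvection_mulVec,
      Lib.Helper13.sympTransvection_mulVec, Lib.Helper13.sympTransvection_mulVec,
      Lib.Helper13.sympForm_add_left, Lib.Helper13.sympForm_smul_left,
      Lib.Helper13.sympForm_self, add_assoc, ← add_smul]
    congr 2
    ring
  · intro A a hA hAv c
    refine ⟨c * a * a, ?_⟩
    have hdet : IsUnit A.det := SymplecticGroup.symplectic_det hA
    rw [Matrix.ext_iff_mulVec]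
    intro x
    have hx : A.mulVec (A⁻¹.mulVec x) = x := by
      rw [Matrix.mulVec_mulVec, Matrix.mul_nonsing_inv A hdet, Matrix.one_mulVec]
    have hf : Cfsg.sympForm m F (A⁻¹.mulVec x) v = a * Cfsg.sympForm m F x v := by
      have h1 := Lib.Helper13.sympForm_mulVec_of_mem m hA (A⁻¹.mulVec x) v
      rw [hx, hAv, Lib.Helper13.sympForm_smul_right] at h1
      exact h1.symm
    rw [← Matrix.mulVec_mulVec, ← Matrix.mulVec_mulVec, Lib.Helper13.sympTransvection_mulVec,
      Lib.Helper13.sympTransvection_mulVec, Matrix.mulVec_add, hx, Matrix.mulVec_smul, hAv, hf,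
      smul_smul]
    congr 2
    ring

end Cfsg.Agent.S0767
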