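-- Statement S0770: the normaliser of the diagonal subgroup of GL_n consists of the monomial matrices.
import Cfsg.Statements.S0770

set_option autoImplicit false
open Cfsg

namespace Cfsg.Agent.S0770

section helpers

variable {F : Type*} [Field F] {n : ℕ}

local notation "GLn" => Matrix.GeneralLinearGroup (Fin n) F
local notation "Mn" => Matrix (Fin n) (Fin n) F

theorem val_mul_inv (g : GLn) : (g : Mn) * ((g⁻¹ : GLn) : Mn) = 1 := by
  rw [← Units.val_mul, mul_inv_cancel]; rfl

theorem val_inv_mul (g : GLn) : ((g⁻¹ : GLn) : Mn) * (g : Mn) = 1 := by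
  rw [← Units.val_mul, inv_mul_cancel]; rfl

/-- membership in the diagonal subgroup -/
theorem memD (h : GLn) :
    h ∈ (Units.map (Matrix.diagonalRingHom (Fin n) F).toMonoidHom).range ↔
      ∀ i j, i ≠ j → (h : Mn) i j = 0 := by
  constructor
  · rintro ⟨u, rfl⟩ i j hij
    show Matrix.diagonal (u : Fin n → F) i j = 0
    exact Matrix.diagonal_apply_ne _ hij
  · intro hd
    have hii : ∀ i, (h : Mn) i i ≠ 0 := by
      intro i h0
      have h1 : ((h : Mn) * ((h⁻¹ : GLn) : Mn)) i i = 1 := by
        rw [val_mul_inv]; simp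
      rw [Matrix.mul_apply, Finset.sum_eq_single i] at h1
      · rw [h0, zero_mul] at h1; exact zero_ne_one h1
      · intro b _ hb; rw [hd i b (Ne.symm hb), zero_mul]
      · simp
    refine ⟨⟨fun i => (h : Mn) i i, fun i => ((h : Mn) i i)⁻¹, ?_, ?_⟩, ?_⟩
    · funext i; simp [hii i]
    · funext i; simp [hii i]
    · apply Units.ext
      ext i j
      show Matrix.diagonal (fun i => (h : Mn) i i) i j = (h : Mn) i j
      by_cases hij : i = j
      · subst hij; rw [Matrix.diagonal_apply_eq]
      · rw [Matrix.diagonal_apply_ne _ hij, hd i j hij]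

end helpers

/-- For a field with at least 3 elements, an invertible matrix normalises the subgroup of invertible diagonal matrices of GL_n if and only if it is monomial (exactly one non-zero entry in each row). -/
theorem result {F : Type*} [Field F] (hF : ∃ a : F, a ≠ 0 ∧ a ≠ 1) (n : ℕ) (g : Matrix.GeneralLinearGroup (Fin n) F) : g ∈ Subgroup.normalizer ((Units.map (Matrix.diagonalRingHom (Fin n) F).toMonoidHom).range : Subgroup (Matrix.GeneralLinearGroup (Fin n) F)) ↔ ∀ i : Fin n, ∃! j : Fin n, (g : Matrix (Fin n) (Fin n) F) i j ≠ 0 := by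
  classical
  rw [Subgroup.mem_normalizer_iff]
  -- the conjugate M = g h g⁻¹ satisfies M g = g h
  have hMg : ∀ h : Matrix.GeneralLinearGroup (Fin n) F, ((g * h * g⁻¹ : Matrix.GeneralLinearGroup (Fin n) F) : Matrix (Fin n) (Fin n) F) * (g : Matrix (Fin n) (Fin n) F) = (g : Matrix (Fin n) (Fin n) F) * (h : Matrix (Fin n) (Fin n) F) := by
    intro h
    rw [← Units.val_mul, ← Units.val_mul]
    congr 1
    group
  constructor
  · intro hnorm i
    -- existence of a non-zero entry in row i
    have hex : ∃ j, (g : Matrix (Fin n) (Fin n) F) i j ≠ 0 := by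
      by_contra hcon
      push Not at hcon
      have h1 : ((g : Matrix (Fin n) (Fin n) F) * ((g⁻¹ : Matrix.GeneralLinearGroup (Fin n) F) : Matrix (Fin n) (Fin n) F)) i i = 1 := by
        rw [val_mul_inv]; simp
      rw [Matrix.mul_apply] at h1
      simp [hcon] at h1
    obtain ⟨j, hj⟩ := hex
    refine ⟨j, hj, ?_⟩
    intro k hk
    by_contra hkj
    obtain ⟨a, ha0, ha1⟩ := hF
    -- the diagonal matrix with a at position j and 1 elsewhere
    let dv : Fin n → F := fun l => if l = j then a else 1
    have hdv : ∀ l, dv l ≠ 0 := by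
      intro l; simp only [dv]; split_ifs
      · exact ha0
      · exact one_ne_zero
    let u : (Fin n → F)ˣ := ⟨dv, fun l => (dv l)⁻¹, by funext l; simp [hdv l], by funext l; simp [hdv l]⟩
    let dg : Matrix.GeneralLinearGroup (Fin n) F := Units.map (Matrix.diagonalRingHom (Fin n) F).toMonoidHom u
    have hdgD : dg ∈ (Units.map (Matrix.diagonalRingHom (Fin n) F).toMonoidHom).range := ⟨u, rfl⟩
    have hdgval : (dg : Matrix (Fin n) (Fin n) F) = Matrix.diagonal dv := rfl
    have hM := (memD (g * dg * g⁻¹)).mp ((hnorm dg).mp hdgD)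
    have hE := hMg dg
    -- entries (i, j) and (i, k)
    have e1 : ∀ c, ((g * dg * g⁻¹ : Matrix.GeneralLinearGroup (Fin n) F) : Matrix (Fin n) (Fin n) F) i i * (g : Matrix (Fin n) (Fin n) F) i c = (g : Matrix (Fin n) (Fin n) F) i c * dv c := by
      intro c
      have := congrFun (congrFun hE i) c
      rw [hdgval, Matrix.mul_diagonal, Matrix.mul_apply, Finset.sum_eq_single i] at this
      · exact this
      · intro b _ hb; rw [hM i b (Ne.symm hb), zero_mul]
      · simp
    have ej := e1 j
    have ek := e1 k
    have dvj : dv j = a := by simp [dv]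
    have dvk : dv k = 1 := by simp [dv, hkj]
    rw [dvj, mul_comm] at ej
    rw [dvk, mul_one] at ek
    have hmi : ((g * dg * g⁻¹ : Matrix.GeneralLinearGroup (Fin n) F) : Matrix (Fin n) (Fin n) F) i i = a := mul_left_cancel₀ hj ej
    rw [hmi] at ek
    have : a = 1 := by
      have := mul_right_cancel₀ hk (ek.trans (one_mul _).symm)
      exact this
    exact ha1 this
  · intro hmono
    choose σ hσ1 hσ2 using hmono
    have hzero : ∀ i j, j ≠ σ i → (g : Matrix (Fin n) (Fin n) F) i j = 0 := by
      intro i j hj
      by_contra h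
      exact hj (hσ2 i j h)
    -- σ is injective
    have hinj : Function.Injective σ := by
      intro i i' hii
      by_contra hne
      have h1 : ((g : Matrix (Fin n) (Fin n) F) * ((g⁻¹ : Matrix.GeneralLinearGroup (Fin n) F) : Matrix (Fin n) (Fin n) F)) i i = 1 := by
        rw [val_mul_inv]; simp
      have h2 : ((g : Matrix (Fin n) (Fin n) F) * ((g⁻¹ : Matrix.GeneralLinearGroup (Fin n) F) : Matrix (Fin n) (Fin n) F)) i' i = 0 := by
        rw [val_mul_inv]; simp [Ne.symm hne]
      rw [Matrix.mul_apply, Finset.sum_eq_single (σ i)] at h1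
      · rw [Matrix.mul_apply, Finset.sum_eq_single (σ i')] at h2
        · rw [← hii] at h2
          have hne1 : ((g⁻¹ : Matrix.GeneralLinearGroup (Fin n) F) : Matrix (Fin n) (Fin n) F) (σ i) i ≠ 0 := by
            intro h0; rw [h0, mul_zero] at h1; exact zero_ne_one h1
          have hgi' : (g : Matrix (Fin n) (Fin n) F) i' (σ i) ≠ 0 := by rw [hii]; exact hσ1 i'
          exact (mul_ne_zero hgi' hne1) h2
        · intro b _ hb; rw [hzero i' b hb, zero_mul]
        · simp
      · intro b _ hb; rw [hzero i b hb, zero_mul]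
      · simp
    have hsurj : Function.Surjective σ := Finite.injective_iff_surjective.mp hinj
    intro h
    rw [memD, memD]
    have hE := hMg h
    constructor
    · intro hd i k hik
      -- (M g) i (σ k) = M i k * g k (σ k), (g h) i (σ k) = g i (σ k) * h (σ k) (σ k) = 0
      have := congrFun (congrFun hE i) (σ k)
      rw [Matrix.mul_apply, Finset.sum_eq_single k, Matrix.mul_apply, Finset.sum_eq_single (σ k)] at this
      · have hg0 : (g : Matrix (Fin n) (Fin n) F) i (σ k) = 0 := hzero i (σ k) (fun h' => hik (hinj h').symm)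
        rw [hg0, zero_mul] at this
        rcases mul_eq_zero.mp this with h0 | h0
        · exact h0
        · exact absurd h0 (hσ1 k)
      · intro b _ hb; rw [hd b (σ k) hb, mul_zero]
      · simp
      · intro b _ hb
        rw [hzero b (σ k) (fun h' => hb (hinj h').symm), mul_zero]
      · simp
    · intro hd j k hjk
      obtain ⟨i, rfl⟩ := hsurj j
      have := congrFun (congrFun hE i) k
      rw [Matrix.mul_apply, Finset.sum_eq_single i, Matrix.mul_apply, Finset.sum_eq_single (σ i)] at this
      · have hg0 : (g : Matrix (Fin n) (Fin n) F) i k = 0 := hzero i k (Ne.symm hjk)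
        rw [hg0, mul_zero] at this
        rcases mul_eq_zero.mp this.symm with h0 | h0
        · exact absurd h0 (hσ1 i)
        · exact h0
      · intro b _ hb; rw [hzero i b hb, zero_mul]
      · simp
      · intro b _ hb; rw [hd i b (Ne.symm hb), zero_mul]
      · simp

end Cfsg.Agent.S0770
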