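import Cfsg.Statements.S0776
import Cfsg.Agent.Lib.Helper99.SpStab

set_option autoImplicit false
open Cfsg

namespace Cfsg.Agent.S0776

open Module Matrix Cfsg.Agent.Lib.Helper13 Cfsg.Agent.Lib.Helper99

/-- If W ≤ F^(2m) is a 2k-dimensional subspace on which the symplectic form is non-degenerate, then the stabiliser of W in Sp_2m(F) is isomorphic to Sp_2k(F) × Sp_(2m−2k)(F). -/
theorem result {F : Type*} [Field F] (m k : ℕ) (hk : k ≤ m) (W : Submodule F (Fin m ⊕ Fin m → F)) (hWk : Module.finrank F W = 2 * k) (hW : ∀ u ∈ W, (∀ v ∈ W, Cfsg.sympForm m F u v = 0) → u = 0) : Nonempty (↥(Cfsg.stabilizing (Cfsg.spToMat m F) (W : Set (Fin m ⊕ Fin m → F))) ≃* Matrix.symplecticGroup (Fin k) F × Matrix.symplecticGroup (Fin (m - k)) F) := by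
  classical
  obtain ⟨c, hc1, hc2⟩ := exists_adapted_basis m k W hWk hW
  let E : Matrix (Fin m ⊕ Fin m) (Fin m ⊕ Fin m) F ≃ₐ[F]
      Matrix ((Fin k ⊕ Fin k) ⊕ (Fin (m - k) ⊕ Fin (m - k)))
        ((Fin k ⊕ Fin k) ⊕ (Fin (m - k) ⊕ Fin (m - k))) F :=
    Matrix.toLinAlgEquiv'.trans (LinearMap.toMatrixAlgEquiv c)
  have hE : ∀ (g : Matrix (Fin m ⊕ Fin m) (Fin m ⊕ Fin m) F) (v : Fin m ⊕ Fin m → F),
      E g *ᵥ (c.repr v) = c.repr (g *ᵥ v) := by
    intro g v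
    show LinearMap.toMatrix c c (Matrix.toLin' g) *ᵥ (c.repr v) = _
    rw [LinearMap.toMatrix_mulVec_repr]
    rfl
  have hsurj : ∀ x : (Fin k ⊕ Fin k) ⊕ (Fin (m - k) ⊕ Fin (m - k)) → F, ∃ v, x = c.repr v :=
    fun x => ⟨c.equivFun.symm x, by rw [← Basis.equivFun_apply, LinearEquiv.apply_symm_apply]⟩
  have hP1 : ∀ g ∈ Matrix.symplecticGroup (Fin m) F, ∀ x y,
      splitForm k (m - k) (E g *ᵥ x) (E g *ᵥ y) = splitForm k (m - k) x y := by
    intro g hg x y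
    obtain ⟨u, rfl⟩ := hsurj x
    obtain ⟨v, rfl⟩ := hsurj y
    rw [hE, hE]
    have h1 := sympForm_mulVec_of_mem m hg u v
    rw [hc1, hc1] at h1
    exact neg_injective h1
  have hP2 : ∀ g : ↥(Cfsg.stabilizing (Cfsg.spToMat m F) (W : Set (Fin m ⊕ Fin m → F))),
      ∀ x, x ∘ Sum.inr = 0 → (E ((g : Matrix.symplecticGroup (Fin m) F) :
        Matrix (Fin m ⊕ Fin m) (Fin m ⊕ Fin m) F) *ᵥ x) ∘ Sum.inr = 0 := by
    intro g x hx
    obtain ⟨v, rfl⟩ := hsurj x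
    rw [hE, ← hc2]
    exact (g.2 v).mp ((hc2 v).mpr hx)
  have hblk : ∀ g : ↥(Cfsg.stabilizing (Cfsg.spToMat m F) (W : Set (Fin m ⊕ Fin m → F))),
      (E ((g : Matrix.symplecticGroup (Fin m) F) :
        Matrix (Fin m ⊕ Fin m) (Fin m ⊕ Fin m) F)).toBlocks₁₁ ∈ Matrix.symplecticGroup (Fin k) F ∧
      (E ((g : Matrix.symplecticGroup (Fin m) F) :
        Matrix (Fin m ⊕ Fin m) (Fin m ⊕ Fin m) F)).toBlocks₂₂
          ∈ Matrix.symplecticGroup (Fin (m - k)) F ∧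
      (E ((g : Matrix.symplecticGroup (Fin m) F) :
        Matrix (Fin m ⊕ Fin m) (Fin m ⊕ Fin m) F)).toBlocks₁₂ = 0 ∧
      (E ((g : Matrix.symplecticGroup (Fin m) F) :
        Matrix (Fin m ⊕ Fin m) (Fin m ⊕ Fin m) F)).toBlocks₂₁ = 0 :=
    fun g => split_blocks k (m - k) _ (hP1 _ g.1.2) (hP2 g)
  have hform : ∀ g : ↥(Cfsg.stabilizing (Cfsg.spToMat m F) (W : Set (Fin m ⊕ Fin m → F))),
      E ((g : Matrix.symplecticGroup (Fin m) F) : Matrix (Fin m ⊕ Fin m) (Fin m ⊕ Fin m) F)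
        = Matrix.fromBlocks (E ((g : Matrix.symplecticGroup (Fin m) F) :
            Matrix (Fin m ⊕ Fin m) (Fin m ⊕ Fin m) F)).toBlocks₁₁ 0 0
          (E ((g : Matrix.symplecticGroup (Fin m) F) :
            Matrix (Fin m ⊕ Fin m) (Fin m ⊕ Fin m) F)).toBlocks₂₂ := by
    intro g
    conv_lhs => rw [← Matrix.fromBlocks_toBlocks (E ((g : Matrix.symplecticGroup (Fin m) F) :
      Matrix (Fin m ⊕ Fin m) (Fin m ⊕ Fin m) F))]
    rw [(hblk g).2.2.1, (hblk g).2.2.2]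
  have hmul : ∀ g g' : ↥(Cfsg.stabilizing (Cfsg.spToMat m F) (W : Set (Fin m ⊕ Fin m → F))),
      E (((g * g' : ↥(Cfsg.stabilizing (Cfsg.spToMat m F) (W : Set (Fin m ⊕ Fin m → F)))) :
        Matrix.symplecticGroup (Fin m) F) : Matrix (Fin m ⊕ Fin m) (Fin m ⊕ Fin m) F)
      = E ((g : Matrix.symplecticGroup (Fin m) F) : Matrix (Fin m ⊕ Fin m) (Fin m ⊕ Fin m) F)
        * E ((g' : Matrix.symplecticGroup (Fin m) F) :
          Matrix (Fin m ⊕ Fin m) (Fin m ⊕ Fin m) F) := by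
    intro g g'
    rw [← map_mul]
    rfl
  let Φ : ↥(Cfsg.stabilizing (Cfsg.spToMat m F) (W : Set (Fin m ⊕ Fin m → F))) →*
      Matrix.symplecticGroup (Fin k) F × Matrix.symplecticGroup (Fin (m - k)) F :=
    MonoidHom.mk' (fun g => (⟨_, (hblk g).1⟩, ⟨_, (hblk g).2.1⟩)) (by
      intro g g'
      apply Prod.ext
      · apply Subtype.ext
        show (E (((g * g' : ↥(Cfsg.stabilizing (Cfsg.spToMat m F)
            (W : Set (Fin m ⊕ Fin m → F)))) : Matrix.symplecticGroup (Fin m) F) :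
            Matrix (Fin m ⊕ Fin m) (Fin m ⊕ Fin m) F)).toBlocks₁₁
          = (E ((g : Matrix.symplecticGroup (Fin m) F) :
              Matrix (Fin m ⊕ Fin m) (Fin m ⊕ Fin m) F)).toBlocks₁₁
            * (E ((g' : Matrix.symplecticGroup (Fin m) F) :
              Matrix (Fin m ⊕ Fin m) (Fin m ⊕ Fin m) F)).toBlocks₁₁
        rw [hmul]
        conv_lhs => rw [hform g, hform g', Matrix.fromBlocks_multiply]
        simp
      · apply Subtype.ext
        show (E (((g * g' : ↥(Cfsg.stabilizing (Cfsg.spToMat m F)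
            (W : Set (Fin m ⊕ Fin m → F)))) : Matrix.symplecticGroup (Fin m) F) :
            Matrix (Fin m ⊕ Fin m) (Fin m ⊕ Fin m) F)).toBlocks₂₂
          = (E ((g : Matrix.symplecticGroup (Fin m) F) :
              Matrix (Fin m ⊕ Fin m) (Fin m ⊕ Fin m) F)).toBlocks₂₂
            * (E ((g' : Matrix.symplecticGroup (Fin m) F) :
              Matrix (Fin m ⊕ Fin m) (Fin m ⊕ Fin m) F)).toBlocks₂₂
        rw [hmul]
        conv_lhs => rw [hform g, hform g', Matrix.fromBlocks_multiply]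
        simp)
  have hΦ1 : ∀ g, ((Φ g).1 : Matrix (Fin k ⊕ Fin k) (Fin k ⊕ Fin k) F)
      = (E ((g : Matrix.symplecticGroup (Fin m) F) :
        Matrix (Fin m ⊕ Fin m) (Fin m ⊕ Fin m) F)).toBlocks₁₁ := fun _ => rfl
  have hΦ2 : ∀ g, ((Φ g).2 : Matrix (Fin (m - k) ⊕ Fin (m - k)) (Fin (m - k) ⊕ Fin (m - k)) F)
      = (E ((g : Matrix.symplecticGroup (Fin m) F) :
        Matrix (Fin m ⊕ Fin m) (Fin m ⊕ Fin m) F)).toBlocks₂₂ := fun _ => rfl
  refine ⟨MulEquiv.ofBijective Φ ⟨?_, ?_⟩⟩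
  · intro g g' h
    have h1 := hΦ1 g
    have h2 := hΦ2 g
    rw [h] at h1 h2
    rw [hΦ1] at h1
    rw [hΦ2] at h2
    have h3 : E ((g : Matrix.symplecticGroup (Fin m) F) :
        Matrix (Fin m ⊕ Fin m) (Fin m ⊕ Fin m) F)
        = E ((g' : Matrix.symplecticGroup (Fin m) F) :
          Matrix (Fin m ⊕ Fin m) (Fin m ⊕ Fin m) F) := by
      rw [hform g, hform g', h1, h2]
    apply Subtype.ext
    apply Subtype.ext
    exact E.injective h3
  · rintro ⟨⟨A, hA⟩, ⟨D, hD⟩⟩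
    obtain ⟨hQ1, hQ2⟩ := split_of_blocks k (m - k) hA hD
    obtain ⟨g, hEg⟩ : ∃ g : Matrix (Fin m ⊕ Fin m) (Fin m ⊕ Fin m) F,
        E g = Matrix.fromBlocks A 0 0 D := ⟨E.symm _, E.apply_symm_apply _⟩
    have hgsp : g ∈ Matrix.symplecticGroup (Fin m) F := by
      apply mem_symplecticGroup_of_sympForm
      intro u v
      rw [hc1, hc1, ← hE, ← hE, hEg, hQ1]
    have hgst : (⟨g, hgsp⟩ : Matrix.symplecticGroup (Fin m) F)
        ∈ Cfsg.stabilizing (Cfsg.spToMat m F) (W : Set (Fin m ⊕ Fin m → F)) := by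
      intro v
      show v ∈ W ↔ g *ᵥ v ∈ W
      rw [hc2, hc2, ← hE, hEg]
      exact hQ2 _
    refine ⟨⟨⟨g, hgsp⟩, hgst⟩, ?_⟩
    apply Prod.ext
    · apply Subtype.ext
      show (E g).toBlocks₁₁ = A
      rw [hEg, Matrix.toBlocks_fromBlocks₁₁]
    · apply Subtype.ext
      show (E g).toBlocks₂₂ = D
      rw [hEg, Matrix.toBlocks_fromBlocks₂₂]

end Cfsg.Agent.S0776
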