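-- Statement S0777: proof by helper13.
import Mathlib
import Cfsg.Statements.S0777
import Cfsg.Agent.Lib.Helper13.SpTorus

set_option autoImplicit false
open Cfsg

namespace Cfsg.Agent.S0777

/-- Weyl group of type C_m: for q ≥ 4 the diagonal matrices of Sp_2m(q) form a torus T ≅ (C_(q−1))^m (the elements stabilising every coordinate axis), and the normaliser of T in Sp_2m(q) has order 2^m · m! · (q − 1)^m. -/
theorem result {F : Type*} [Field F] [Fintype F] {q : ℕ} (hF : Fintype.card F = q) (hq : 4 ≤ q) (m : ℕ) : Nat.card ↥(Subgroup.normalizer (⨅ i : Fin m ⊕ Fin m, Cfsg.stabilizing (Cfsg.spToMat m F) ((Submodule.span F {(Pi.single i (1 : F) : Fin m ⊕ Fin m → F)} : Submodule F (Fin m ⊕ Fin m → F)) : Set (Fin m ⊕ Fin m → F)) : Set (Matrix.symplecticGroup (Fin m) F))) = 2 ^ m * Nat.factorial m * (q - 1) ^ m := by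
  subst hF
  have h := Cfsg.Agent.Lib.Helper13.card_normalizer_spTorus hq m
  have e : ((Cfsg.Agent.Lib.Helper13.spTorus m F : Subgroup (Matrix.symplecticGroup (Fin m) F)) :
      Set (Matrix.symplecticGroup (Fin m) F)) =
      ⨅ i : Fin m ⊕ Fin m, (Cfsg.stabilizing (Cfsg.spToMat m F)
        ((Submodule.span F {(Pi.single i (1 : F) : Fin m ⊕ Fin m → F)} :
          Submodule F (Fin m ⊕ Fin m → F)) : Set (Fin m ⊕ Fin m → F)) :
        Set (Matrix.symplecticGroup (Fin m) F)) := by
    rw [Subgroup.coe_iInf]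
    rfl
  rw [e] at h
  exact h

end Cfsg.Agent.S0777
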