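-- Statement S0778: proof by helper13.
import Mathlib
import Cfsg.Statements.S0778
import Cfsg.Agent.Lib.Helper13.Blocks

set_option autoImplicit false
open Cfsg

namespace Cfsg.Agent.S0778

open Matrix Cfsg.Agent.Lib.Helper13

/-- symplectic condition for a block diagonal matrix. -/
theorem blockDiag_symp {F : Type*} [Field F] {m : ℕ} (X Y : Matrix (Fin m) (Fin m) F) :
    fromBlocks X 0 0 Y ∈ Matrix.symplecticGroup (Fin m) F ↔ X * Yᵀ = 1 := by
  rw [SymplecticGroup.mem_iff, Matrix.J, fromBlocks_multiply, fromBlocks_transpose,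
    fromBlocks_multiply]
  simp only [mul_zero, zero_mul, add_zero, zero_add, mul_one, mul_neg, neg_mul,
    Matrix.transpose_zero, neg_zero]
  rw [Matrix.fromBlocks_inj]
  constructor
  · rintro ⟨-, h, -, -⟩
    exact neg_injective h
  · intro h
    refine ⟨rfl, by rw [h], ?_, rfl⟩
    have := congrArg Matrix.transpose h
    rw [Matrix.transpose_mul, Matrix.transpose_transpose, Matrix.transpose_one] at this
    exact this

theorem joint_facts {F : Type*} [Field F] {m : ℕ}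
    (x : ↥(Cfsg.stabilizing (Cfsg.spToMat m F)
        {v : Fin m ⊕ Fin m → F | ∀ i : Fin m, v (Sum.inr i) = 0} ⊓
      Cfsg.stabilizing (Cfsg.spToMat m F)
        {v : Fin m ⊕ Fin m → F | ∀ i : Fin m, v (Sum.inl i) = 0})) :
    (x.1.1 : Matrix (Fin m ⊕ Fin m) (Fin m ⊕ Fin m) F).toBlocks₂₁ = 0 ∧
    (x.1.1 : Matrix (Fin m ⊕ Fin m) (Fin m ⊕ Fin m) F).toBlocks₁₂ = 0 ∧
    (x.1.1 : Matrix (Fin m ⊕ Fin m) (Fin m ⊕ Fin m) F).toBlocks₁₁ *
      ((x.1.1 : Matrix (Fin m ⊕ Fin m) (Fin m ⊕ Fin m) F).toBlocks₂₂)ᵀ = 1 := by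
  have hdet : (x.1.1 : Matrix (Fin m ⊕ Fin m) (Fin m ⊕ Fin m) F).det ≠ 0 :=
    (SymplecticGroup.symplectic_det x.1.2).ne_zero
  have h21 := (stab_inr_iff _ hdet).mp x.2.1
  have h12 := (stab_inl_iff _ hdet).mp x.2.2
  refine ⟨h21, h12, ?_⟩
  rw [← blockDiag_symp]
  have := fromBlocks_toBlocks (x.1.1 : Matrix (Fin m ⊕ Fin m) (Fin m ⊕ Fin m) F)
  rw [h21, h12] at this
  rw [this]
  exact x.1.2

/-- The elements of Sp_2m(F) stabilising both W = ⟨e_1..e_m⟩ and U = ⟨f_1..f_m⟩ form a subgroup isomorphic to GL_m(F) (block-diagonal matrices diag(X, X^(−ᵀ)) up to the sign convention of J), for m ≥ 1 or m = 0 alike. -/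
theorem result {F : Type*} [Field F] (m : ℕ) : Nonempty (↥(Cfsg.stabilizing (Cfsg.spToMat m F) {v : Fin m ⊕ Fin m → F | ∀ i : Fin m, v (Sum.inr i) = 0} ⊓ Cfsg.stabilizing (Cfsg.spToMat m F) {v : Fin m ⊕ Fin m → F | ∀ i : Fin m, v (Sum.inl i) = 0}) ≃* Matrix.GeneralLinearGroup (Fin m) F) := by
  let H := Cfsg.stabilizing (Cfsg.spToMat m F)
        {v : Fin m ⊕ Fin m → F | ∀ i : Fin m, v (Sum.inr i) = 0} ⊓
      Cfsg.stabilizing (Cfsg.spToMat m F)
        {v : Fin m ⊕ Fin m → F | ∀ i : Fin m, v (Sum.inl i) = 0}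
  let φ : ↥H →* Matrix.GeneralLinearGroup (Fin m) F :=
    { toFun := fun x =>
        ⟨(x.1.1 : Matrix (Fin m ⊕ Fin m) (Fin m ⊕ Fin m) F).toBlocks₁₁,
          ((x.1.1 : Matrix (Fin m ⊕ Fin m) (Fin m ⊕ Fin m) F).toBlocks₂₂)ᵀ,
          (joint_facts x).2.2, mul_eq_one_comm.mp (joint_facts x).2.2⟩
      map_one' := by
        apply Units.ext
        change (1 : Matrix (Fin m ⊕ Fin m) (Fin m ⊕ Fin m) F).toBlocks₁₁ = 1
        rw [← Matrix.fromBlocks_one]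
        rfl
      map_mul' := by
        intro x y
        apply Units.ext
        change ((x.1.1 : Matrix (Fin m ⊕ Fin m) (Fin m ⊕ Fin m) F) * y.1.1).toBlocks₁₁ =
          (x.1.1 : Matrix (Fin m ⊕ Fin m) (Fin m ⊕ Fin m) F).toBlocks₁₁ *
            (y.1.1 : Matrix (Fin m ⊕ Fin m) (Fin m ⊕ Fin m) F).toBlocks₁₁
        rw [toBlocks₁₁_mul, (joint_facts x).2.1, zero_mul, add_zero] }
  refine ⟨MulEquiv.ofBijective φ ⟨?_, ?_⟩⟩
  · intro x y hxy
    apply Subtype.ext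
    apply Subtype.ext
    have h1 : (x.1.1 : Matrix (Fin m ⊕ Fin m) (Fin m ⊕ Fin m) F).toBlocks₁₁ =
        (y.1.1 : Matrix (Fin m ⊕ Fin m) (Fin m ⊕ Fin m) F).toBlocks₁₁ :=
      congrArg (fun u : Matrix.GeneralLinearGroup (Fin m) F => (u : Matrix (Fin m) (Fin m) F)) hxy
    have h2 : ((x.1.1 : Matrix (Fin m ⊕ Fin m) (Fin m ⊕ Fin m) F).toBlocks₂₂)ᵀ =
        ((y.1.1 : Matrix (Fin m ⊕ Fin m) (Fin m ⊕ Fin m) F).toBlocks₂₂)ᵀ :=
      congrArg (fun u : Matrix.GeneralLinearGroup (Fin m) F =>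
        ((u⁻¹ : Matrix.GeneralLinearGroup (Fin m) F) : Matrix (Fin m) (Fin m) F)) hxy
    have h3 := Matrix.transpose_injective h2
    rw [← fromBlocks_toBlocks (x.1.1 : Matrix (Fin m ⊕ Fin m) (Fin m ⊕ Fin m) F),
      ← fromBlocks_toBlocks (y.1.1 : Matrix (Fin m ⊕ Fin m) (Fin m ⊕ Fin m) F),
      (joint_facts x).1, (joint_facts x).2.1, (joint_facts y).1, (joint_facts y).2.1, h1, h3]
  · intro U
    have hmem : fromBlocks (U : Matrix (Fin m) (Fin m) F) 0 0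
        ((U⁻¹ : Matrix.GeneralLinearGroup (Fin m) F) : Matrix (Fin m) (Fin m) F)ᵀ ∈
          Matrix.symplecticGroup (Fin m) F := by
      rw [blockDiag_symp, Matrix.transpose_transpose]
      exact U.mul_inv
    have hdet := (SymplecticGroup.symplectic_det hmem).ne_zero
    refine ⟨⟨⟨_, hmem⟩, ⟨?_, ?_⟩⟩, ?_⟩
    · exact (stab_inr_iff _ hdet).mpr rfl
    · exact (stab_inl_iff _ hdet).mpr rfl
    · apply Units.ext
      rfl

end Cfsg.Agent.S0778
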