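-- Statement S0779: proof by helper13.
import Cfsg.Statements.S0779
import Cfsg.Agent.Lib.Helper13.Herm

set_option autoImplicit false
open Cfsg

namespace Cfsg.Agent.S0779

/-- Unitary transvections: let |F| = q², h the standard Hermitian form Σ x_i y_i^q and v ≠ 0 with h(v, v) = 0. The linear map x ↦ x + c h(x, v) v is an isometry of h if and only if c = 0 or c^(q−1) = −1. -/
theorem result {F : Type*} [Field F] [Fintype F] {q : ℕ} (hF : Fintype.card F = q ^ 2) (n : ℕ) (v : Fin n → F) (hv : v ≠ 0) (hv0 : Cfsg.hermForm n F q v v = 0) (c : F) : (∀ x y : Fin n → F, Cfsg.hermForm n F q ((Cfsg.unitaryTransvection n q v c).mulVec x) ((Cfsg.unitaryTransvection n q v c).mulVec y) = Cfsg.hermForm n F q x y) ↔ (c = 0 ∨ c ^ (q - 1) = -1) := by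
  have hq := Lib.Helper13.q_pos_of_card hF
  have key : ∀ x y : Fin n → F,
      Cfsg.hermForm n F q ((Cfsg.unitaryTransvection n q v c).mulVec x)
          ((Cfsg.unitaryTransvection n q v c).mulVec y)
        = Cfsg.hermForm n F q x y
          + (c ^ q + c) * (Cfsg.hermForm n F q x v * Cfsg.hermForm n F q v y) := by
    intro x y
    rw [Lib.Helper13.unitaryTransvection_mulVec, Lib.Helper13.unitaryTransvection_mulVec,
      Lib.Helper13.hermForm_add_left, Lib.Helper13.hermForm_add_right hF,
      Lib.Helper13.hermForm_add_right hF, Lib.Helper13.hermForm_smul_left,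
      Lib.Helper13.hermForm_smul_left, Lib.Helper13.hermForm_smul_right,
      Lib.Helper13.hermForm_smul_right, hv0, mul_pow, Lib.Helper13.hermForm_conj hF]
    ring
  constructor
  · intro h
    have hex : ∃ i, v i ≠ 0 := by
      by_contra hcon
      push Not at hcon
      exact hv (funext hcon)
    obtain ⟨i, hi⟩ := hex
    have h1 := h (Pi.single i 1) (Pi.single i 1)
    rw [key] at h1
    have e1 : Cfsg.hermForm n F q (Pi.single i 1) v = v i ^ q := by
      unfold Cfsg.hermForm
      rw [Finset.sum_eq_single i]
      · simp
      · intro j _ hj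
        simp [Pi.single_apply, hj]
      · intro hi'
        exact absurd (Finset.mem_univ i) hi'
    have e2 : Cfsg.hermForm n F q v (Pi.single i 1) = v i := by
      unfold Cfsg.hermForm
      rw [Finset.sum_eq_single i]
      · simp
      · intro j _ hj
        simp [Pi.single_apply, hj, zero_pow (by omega : q ≠ 0)]
      · intro hi'
        exact absurd (Finset.mem_univ i) hi'
    rw [e1, e2] at h1
    have h2 : (c ^ q + c) * (v i ^ q * v i) = 0 := by linear_combination h1
    have h3 : c ^ q + c = 0 := by
      rcases mul_eq_zero.mp h2 with h | h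
      · exact h
      · exfalso
        rcases mul_eq_zero.mp h with h | h
        · exact hi (pow_eq_zero_iff (by omega : q ≠ 0) |>.mp h)
        · exact hi h
    by_cases hc : c = 0
    · left; exact hc
    · right
      have h4 : c ^ q = c ^ (q - 1) * c := by
        rw [← pow_succ]
        congr 1
        omega
      rw [h4] at h3
      have h5 : (c ^ (q - 1) + 1) * c = 0 := by linear_combination h3
      rcases mul_eq_zero.mp h5 with h | h
      · exact eq_neg_of_add_eq_zero_left h
      · exact absurd h hc
  · intro h x y
    rw [key]
    have h3 : c ^ q + c = 0 := by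
      rcases h with h | h
      · rw [h, zero_pow (by omega : q ≠ 0), add_zero]
      · have h4 : c ^ q = c ^ (q - 1) * c := by
          rw [← pow_succ]
          congr 1
          omega
        rw [h4, h]
        ring
    rw [h3]
    ring

end Cfsg.Agent.S0779
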