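-- Statement S0785: proof by helper13.
import Cfsg.Statements.S0785
import Cfsg.Agent.Lib.Helper13.Refl

set_option autoImplicit false
open Cfsg

namespace Cfsg.Agent.S0785

/-- det(I) = {±1}: for a quadratic form on F^n whose polar form is non-degenerate, every element of the isometry group has determinant 1 or −1, and as soon as Q takes a non-zero value some isometry has determinant −1. -/
theorem result {F : Type*} [Field F] {n : ℕ} (Q : QuadraticForm F (Fin n → F)) (hQ : (QuadraticMap.polarBilin Q).Nondegenerate) : (∀ g : ↥(Cfsg.isometryGroup F ⇑Q), ((g : Matrix.GeneralLinearGroup (Fin n) F) : Matrix (Fin n) (Fin n) F).det = 1 ∨ ((g : Matrix.GeneralLinearGroup (Fin n) F) : Matrix (Fin n) (Fin n) F).det = -1) ∧ ((∃ v, Q v ≠ 0) → ∃ g : ↥(Cfsg.isometryGroup F ⇑Q), ((g : Matrix.GeneralLinearGroup (Fin n) F) : Matrix (Fin n) (Fin n) F).det = -1) := by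
  constructor
  · intro g
    set P : Matrix (Fin n) (Fin n) F := ((g : Matrix.GeneralLinearGroup (Fin n) F) : Matrix (Fin n) (Fin n) F) with hP
    have hg : ∀ u : Fin n → F, Q (P.mulVec u) = Q u := fun u => g.2 u u
    set B : LinearMap.BilinForm F (Fin n → F) := QuadraticMap.polarBilin Q with hB
    have hdetM : (LinearMap.BilinForm.toMatrix' B).det ≠ 0 :=
      Matrix.nondegenerate_iff_det_ne_zero.mp (LinearMap.BilinForm.nondegenerate_toMatrix'_iff.mpr hQ)
    have hcomp : B.comp (Matrix.toLin' P) (Matrix.toLin' P) = B := by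
      refine LinearMap.ext fun u => LinearMap.ext fun v => ?_
      simp only [LinearMap.BilinForm.comp_apply, Matrix.toLin'_apply, hB,
        QuadraticMap.polarBilin_apply_apply, QuadraticMap.polar]
      rw [← Matrix.mulVec_add, hg, hg, hg]
    have hmat := congrArg LinearMap.BilinForm.toMatrix' hcomp
    rw [LinearMap.BilinForm.toMatrix'_comp, LinearMap.toMatrix'_toLin'] at hmat
    have hdet := congrArg Matrix.det hmat
    rw [Matrix.det_mul, Matrix.det_mul, Matrix.det_transpose] at hdet
    have h1 : (P.det * P.det - 1) * (LinearMap.BilinForm.toMatrix' B).det = 0 := by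
      linear_combination hdet
    have h2 : P.det * P.det - 1 = 0 := by
      rcases mul_eq_zero.mp h1 with h | h
      · exact h
      · exact absurd h hdetM
    have h3 : (P.det - 1) * (P.det + 1) = 0 := by linear_combination h2
    rcases mul_eq_zero.mp h3 with h | h
    · left; exact sub_eq_zero.mp h
    · right; exact eq_neg_of_add_eq_zero_left h
  · rintro ⟨v, hv⟩
    have hdet : (Cfsg.reflectionMatrix (⇑Q) v).det = -1 := Lib.Helper13.reflectionMatrix_det Q v hv
    have hne : (Cfsg.reflectionMatrix (⇑Q) v).det ≠ 0 := by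
      rw [hdet]; simp
    refine ⟨⟨Matrix.GeneralLinearGroup.mkOfDetNeZero (Cfsg.reflectionMatrix (⇑Q) v) hne, ?_⟩, ?_⟩
    · intro u _
      exact Lib.Helper13.reflectionMatrix_preserves Q v hv u
    · exact hdet

end Cfsg.Agent.S0785
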