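import Mathlib
import Cfsg.Statements.S0789
import Cfsg.Agent.Lib.Helper44.Dickson
-- import your own Cfsg.Agent.* helpers here

set_option autoImplicit false
open Cfsg

namespace Cfsg.Agent.S0789

/-- Ω has index 2 in O for q even: if F is finite of characteristic two, n ≥ 2, Q is a quadratic form on F^n with non-degenerate polar form, and (|F|, n) ≠ (2, 4), then the commutator subgroup of the isometry group of Q has index 2 in it. -/
theorem result {F : Type*} [Field F] [Fintype F] [CharP F 2] {n : ℕ} (hn : 2 ≤ n) (Q : QuadraticForm F (Fin n → F)) (hQ : (QuadraticMap.polarBilin Q).Nondegenerate) (h : Fintype.card F ≠ 2 ∨ n ≠ 4) : (Cfsg.Omega F ⇑Q).index = 2 := by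
  have h2 : (2 : F) = 0 := CharTwo.two_eq_zero
  have hne : ∃ v, Q v ≠ 0 := by
    have hx : (fun _ : Fin n => (1 : F)) ≠ 0 := by
      intro h0
      have := congrFun h0 ⟨0, by omega⟩
      simp at this
    exact Cfsg.Agent.Lib.Helper44.exists_quad_ne_zero_of_ne_bot Q hQ hx
  exact Cfsg.Agent.Lib.Helper44.index_commutator_char2 h2 Q hQ
    (by rw [Fintype.card_fin]; exact h) hne

end Cfsg.Agent.S0789
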