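import Mathlib
import Cfsg.Statements.S0792
import Cfsg.Agent.Lib.Helper14.ReflGen

set_option autoImplicit false
open Cfsg

namespace Cfsg.Agent.S0792

open Matrix Cfsg.Agent.Lib.Helper14

theorem mem_special_iff {F : Type*} [Field F] {n : ℕ} (Q : (Fin n → F) → F)
    (g : ↥(Cfsg.isometryGroup F Q)) :
    g ∈ Cfsg.specialIsometryGroup F Q ↔
      ((g : Matrix.GeneralLinearGroup (Fin n) F) : Matrix (Fin n) (Fin n) F).det = 1 := by
  unfold Cfsg.specialIsometryGroup
  rw [MonoidHom.mem_ker, MonoidHom.comp_apply, Units.ext_iff]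
  rfl

/-- For q odd and Q with non-degenerate polar form on F^n, the determinant-one isometries form the subgroup generated by all products r_u r_v of two reflections (Q(u), Q(v) ≠ 0). -/
theorem result {F : Type*} [Field F] [Fintype F] (h2 : (2 : F) ≠ 0) {n : ℕ} (Q : QuadraticForm F (Fin n → F)) (hQ : (QuadraticMap.polarBilin Q).Nondegenerate) : Cfsg.specialIsometryGroup F ⇑Q = Subgroup.closure {g : ↥(Cfsg.isometryGroup F ⇑Q) | ∃ u v : Fin n → F, Q u ≠ 0 ∧ Q v ≠ 0 ∧ ((g : Matrix.GeneralLinearGroup (Fin n) F) : Matrix (Fin n) (Fin n) F) = Cfsg.reflectionMatrix ⇑Q u * Cfsg.reflectionMatrix ⇑Q v} := by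
  set S : Set ↥(Cfsg.isometryGroup F ⇑Q) := {g : ↥(Cfsg.isometryGroup F ⇑Q) | ∃ u v : Fin n → F, Q u ≠ 0 ∧ Q v ≠ 0 ∧ ((g : Matrix.GeneralLinearGroup (Fin n) F) : Matrix (Fin n) (Fin n) F) = Cfsg.reflectionMatrix ⇑Q u * Cfsg.reflectionMatrix ⇑Q v} with hS
  have hne : (-1 : F) ≠ 1 := by
    intro h
    apply h2
    have : (2 : F) = 1 - (-1) := by ring
    rw [this, h, sub_self]
  have main : ∀ (k : ℕ) (l : List (Fin n → F)), l.length = k + k → (∀ u ∈ l, Q u ≠ 0) →
      ∀ g : ↥(Cfsg.isometryGroup F ⇑Q),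
        ((g : Matrix.GeneralLinearGroup (Fin n) F) : Matrix (Fin n) (Fin n) F) =
          (l.map (Cfsg.reflectionMatrix ⇑Q)).prod → g ∈ Subgroup.closure S := by
    intro k
    induction k with
    | zero =>
      intro l hk hl g hgl
      have hnil : l = [] := List.length_eq_zero_iff.mp (by omega)
      subst hnil
      have : g = 1 := isom_ext (by rw [hgl]; rfl)
      rw [this]; exact Subgroup.one_mem _
    | succ k ih =>
      intro l hk hl g hgl
      match l, hl, hgl, hk with
      | [], _, _, hk => simp at hk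
      | [a], _, _, hk => simp at hk; omega
      | a :: b :: l', hl, hgl, hk =>
        have ha : Q a ≠ 0 := hl a (by simp)
        have hb : Q b ≠ 0 := hl b (by simp)
        have hl' : ∀ u ∈ l', Q u ≠ 0 := fun u hu => hl u (by simp [hu])
        set p : ↥(Cfsg.isometryGroup F ⇑Q) := mkIsom Q hQ
          (Cfsg.reflectionMatrix ⇑Q a * Cfsg.reflectionMatrix ⇑Q b) (fun x => by
            rw [← mulVec_mulVec, reflectionMatrix_isometry Q ha, reflectionMatrix_isometry Q hb])
          with hp
        set g' : ↥(Cfsg.isometryGroup F ⇑Q) := mkIsom Q hQ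
          ((l'.map (Cfsg.reflectionMatrix ⇑Q)).prod) (prod_reflectionMatrix_isometry Q l' hl')
          with hg'
        have hpS : p ∈ S := ⟨a, b, ha, hb, rfl⟩
        have hgg : g = p * g' := by
          apply isom_ext
          rw [hgl]
          simp only [Subgroup.coe_mul, Units.val_mul, hp, hg', mkIsom_coe, List.map_cons,
            List.prod_cons, mul_assoc]
        rw [hgg]
        refine Subgroup.mul_mem _ (Subgroup.subset_closure hpS) (ih l' ?_ hl' g' rfl)
        simp only [List.length_cons] at hk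
        omega
  apply le_antisymm
  · -- SO ≤ closure
    intro g hg
    rw [mem_special_iff] at hg
    obtain ⟨l, hl, hgl⟩ := matrix_eq_prod_refl h2 Q hQ _ (isom_preserves g)
    have hlen : Even l.length := by
      rw [hgl, det_prod_reflectionMatrix Q l hl] at hg
      exact (neg_one_pow_eq_one_iff_even hne).mp hg
    obtain ⟨k, hk⟩ := hlen
    exact main k l hk hl g hgl
  · -- closure ≤ SO
    rw [Subgroup.closure_le]
    rintro g ⟨u, v, hu, hv, hguv⟩
    change g ∈ Cfsg.specialIsometryGroup F ⇑Q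
    rw [mem_special_iff, hguv, det_mul, det_reflectionMatrix Q hu, det_reflectionMatrix Q hv]
    ring

end Cfsg.Agent.S0792
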