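import Mathlib
import Cfsg.Statements.S0796

set_option autoImplicit false
open Cfsg

namespace Cfsg.Agent.S0796

/-- If G is finite and acts faithfully and primitively on X, H is the stabiliser of a point, A is a normal subgroup of H whose normal closure in G is G, then for every non-trivial normal subgroup K of G the quotient G ⧸ K is isomorphic to A ⧸ B for some normal subgroup B of A. -/
theorem result {G X : Type*} [Group G] [Finite G] [MulAction G X] [FaithfulSMul G X] (hprim : MulAction.IsPreprimitive G X) (x : X) (A : Subgroup G) (hA : A ≤ MulAction.stabilizer G x) (hAn : (A.subgroupOf (MulAction.stabilizer G x)).Normal) (hgen : Subgroup.normalClosure (A : Set G) = ⊤) (K : Subgroup G) [K.Normal] (hK : K ≠ ⊥) : ∃ (B : Subgroup A) (_ : B.Normal), Nonempty (G ⧸ K ≃* A ⧸ B) := by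
  classical
  -- K acts nontrivially
  have hfix : MulAction.fixedPoints K X ≠ Set.univ := by
    intro h
    apply hK
    refine (Subgroup.eq_bot_iff_forall K).mpr fun k hk => ?_
    apply FaithfulSMul.eq_of_smul_eq_smul (α := X)
    intro y
    rw [one_smul]
    have hy : y ∈ MulAction.fixedPoints K X := by rw [h]; exact Set.mem_univ y
    exact hy ⟨k, hk⟩
  have htrans : MulAction.IsPretransitive K X :=
    MulAction.IsQuasiPreprimitive.isPretransitive_of_normal hfix
  -- every g is k * h with k in K, h in the stabilizer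
  have hdecomp : ∀ g : G, ∃ k ∈ K, ∃ h ∈ MulAction.stabilizer G x, g = k * h := by
    intro g
    obtain ⟨k, hk⟩ := MulAction.exists_smul_eq K x (g • x)
    refine ⟨k, k.2, (k : G)⁻¹ * g, ?_, by simp⟩
    rw [MulAction.mem_stabilizer_iff, mul_smul]
    have hk' : (k : G) • x = g • x := hk
    rw [← hk', inv_smul_smul]
  -- K ⊔ A = ⊤
  have hsup : K ⊔ A = ⊤ := by
    rw [eq_top_iff, ← hgen]
    unfold Subgroup.normalClosure
    rw [Subgroup.closure_le]
    intro c hc
    rw [Group.mem_conjugatesOfSet_iff] at hc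
    obtain ⟨a, ha, hac⟩ := hc
    rw [isConj_iff] at hac
    obtain ⟨g, rfl⟩ := hac
    obtain ⟨k, hk, h, hh, rfl⟩ := hdecomp g
    have hconj : h * a * h⁻¹ ∈ A := by
      have := hAn.conj_mem ⟨a, hA ha⟩ (by simpa [Subgroup.mem_subgroupOf] using ha) ⟨h, hh⟩
      simpa [Subgroup.mem_subgroupOf] using this
    have e : k * h * a * (k * h)⁻¹ = k * (h * a * h⁻¹) * k⁻¹ := by group
    rw [e]
    exact (K ⊔ A).mul_mem ((K ⊔ A).mul_mem (Subgroup.mem_sup_left hk) (Subgroup.mem_sup_right hconj))
      ((K ⊔ A).inv_mem (Subgroup.mem_sup_left hk))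
  -- the restriction of the quotient map to A is surjective
  let φ : A →* G ⧸ K := (QuotientGroup.mk' K).comp A.subtype
  have hφ : Function.Surjective φ := by
    intro y
    obtain ⟨g, rfl⟩ := QuotientGroup.mk_surjective y
    have hg : g ∈ ((K ⊔ A : Subgroup G) : Set G) := by rw [hsup]; exact Set.mem_univ g
    rw [Subgroup.normal_mul] at hg
    obtain ⟨k, hk, a, ha, rfl⟩ := hg
    refine ⟨⟨a, ha⟩, ?_⟩
    change ((a : G) : G ⧸ K) = ((k * a : G) : G ⧸ K)
    rw [QuotientGroup.mk_mul, (QuotientGroup.eq_one_iff k).mpr hk, one_mul]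
  exact ⟨φ.ker, inferInstance, ⟨(QuotientGroup.quotientKerEquivOfSurjective φ hφ).symm⟩⟩

end Cfsg.Agent.S0796
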