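import Mathlib
import Cfsg.Statements.S0797
import Cfsg.Agent.Lib.Helper14.Spinor2

set_option autoImplicit false
open Cfsg

namespace Cfsg.Agent.S0797

open Cfsg.Agent.Lib.Helper14

/-- O^ε_2m(q) ≅ Ω.2² for q odd: if F is finite of odd characteristic, n ≥ 2 is even and Q has non-degenerate polar form on F^n, the isometry group of Q has exactly three subgroups of index 2. -/
theorem result {F : Type*} [Field F] [Fintype F] (h2 : (2 : F) ≠ 0) {n : ℕ} (hn : 2 ≤ n) (heven : Even n) (Q : QuadraticForm F (Fin n → F)) (hQ : (QuadraticMap.polarBilin Q).Nondegenerate) : Nat.card {H : Subgroup ↥(Cfsg.isometryGroup F ⇑Q) // H.index = 2} = 3 := by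
  obtain ⟨b, hb⟩ := exists_not_isSquare h2
  have hb0 : b ≠ 0 := fun h => hb ⟨0, by simp [h]⟩
  have hcard : 2 ≤ Fintype.card (Fin n) := by rw [Fintype.card_fin]; exact hn
  obtain ⟨v₁, hv1⟩ := exists_vec_quad_eq h2 Q hQ hcard 1
  obtain ⟨w₁, hwb⟩ := exists_vec_quad_eq h2 Q hQ hcard b
  have hv : Q v₁ ≠ 0 := by rw [hv1]; exact one_ne_zero
  have hw : Q w₁ ≠ 0 := by rw [hwb]; exact hb0
  have hvsq : IsSquare (Q v₁) := by rw [hv1]; exact ⟨1, by simp⟩
  have hwsq : ¬ IsSquare (Q w₁) := by rw [hwb]; exact hb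
  set s1 := signChar (⇑Q) 1 with hs1
  set sb := signChar (⇑Q) b with hsb
  have hne : (-1 : ℤˣ) ≠ 1 := by decide
  have hvals := fun v hv => signChar_reflElt_values h2 Q hQ hb v hv
  -- membership of reflections in the three kernels
  have hK1 : ∀ v (hv : Q v ≠ 0), reflElt Q hQ v hv ∈ s1.ker ↔ ¬ IsSquare (Q v) := by
    intro v hv
    rw [MonoidHom.mem_ker]
    by_cases hsq : IsSquare (Q v)
    · rw [((hvals v hv).1 hsq).1]; simp [hsq]
    · rw [((hvals v hv).2 hsq).1]; simp [hsq]
  have hK2 : ∀ v (hv : Q v ≠ 0), reflElt Q hQ v hv ∈ sb.ker ↔ IsSquare (Q v) := by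
    intro v hv
    rw [MonoidHom.mem_ker]
    by_cases hsq : IsSquare (Q v)
    · rw [((hvals v hv).1 hsq).2]; simp [hsq]
    · rw [((hvals v hv).2 hsq).2]; simp [hsq]
  have hK3 : ∀ v (hv : Q v ≠ 0), reflElt Q hQ v hv ∉ (s1 * sb).ker := by
    intro v hv
    rw [MonoidHom.mem_ker, MonoidHom.mul_apply]
    by_cases hsq : IsSquare (Q v)
    · rw [((hvals v hv).1 hsq).1, ((hvals v hv).1 hsq).2]; decide
    · rw [((hvals v hv).2 hsq).1, ((hvals v hv).2 hsq).2]; decide
  -- kernels of surjective characters have index 2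
  have hidx : ∀ φ : ↥(Cfsg.isometryGroup F ⇑Q) →* ℤˣ, (∃ g, φ g = -1) → φ.ker.index = 2 := by
    intro φ ⟨g, hg⟩
    have hsurj : Function.Surjective φ := by
      intro e
      rcases Int.units_eq_one_or e with rfl | rfl
      · exact ⟨1, map_one φ⟩
      · exact ⟨g, hg⟩
    rw [Subgroup.index_ker, MonoidHom.range_eq_top.mpr hsurj, Subgroup.card_top,
      Nat.card_eq_fintype_card, Fintype.card_units_int]
  have hi1 : s1.ker.index = 2 := hidx s1 ⟨_, ((hvals v₁ hv).1 hvsq).1⟩
  have hi2 : sb.ker.index = 2 := hidx sb ⟨_, ((hvals w₁ hw).2 hwsq).2⟩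
  have hi3 : (s1 * sb).ker.index = 2 := hidx (s1 * sb) ⟨reflElt Q hQ v₁ hv, by
    rw [MonoidHom.mul_apply, ((hvals v₁ hv).1 hvsq).1, ((hvals v₁ hv).1 hvsq).2]; decide⟩
  -- an index two subgroup is determined by the reflections it contains
  have hdet : ∀ H K : Subgroup ↥(Cfsg.isometryGroup F ⇑Q), H.index = 2 → K.index = 2 →
      (∀ v (hv : Q v ≠ 0), reflElt Q hQ v hv ∈ H ↔ reflElt Q hQ v hv ∈ K) → H = K := by
    intro H K hH hK h
    ext g
    obtain ⟨l, hl, rfl⟩ := exists_eq_prodElt h2 Q hQ g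
    induction l with
    | nil => rw [prodElt_nil]; simp [one_mem]
    | cons a l ih =>
      rw [prodElt_cons, Subgroup.mul_mem_iff_of_index_two hH, Subgroup.mul_mem_iff_of_index_two hK,
        h a _, ih]
  -- classification
  have hclass : ∀ H : Subgroup ↥(Cfsg.isometryGroup F ⇑Q), H.index = 2 →
      H = s1.ker ∨ H = sb.ker ∨ H = (s1 * sb).ker := by
    intro H hH
    have hnorm : H.Normal := Subgroup.normal_of_index_eq_two hH
    have hconj : ∀ v w (hv : Q v ≠ 0) (hw : Q w ≠ 0) (s : F), Q w = s * s * Q v →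
        (reflElt Q hQ w hw ∈ H ↔ reflElt Q hQ v hv ∈ H) := by
      intro v w hv hw s hs
      obtain ⟨g, hg⟩ := reflElt_conj h2 Q hQ hv hw hs
      constructor
      · intro h
        rw [← hg]
        exact hnorm.conj_mem _ h g
      · intro h
        have : reflElt Q hQ w hw = g⁻¹ * reflElt Q hQ v hv * g⁻¹⁻¹ := by
          rw [← hg]; group
        rw [this]
        exact hnorm.conj_mem _ h g⁻¹
    have hsqc : ∀ v (hv' : Q v ≠ 0), IsSquare (Q v) →
        (reflElt Q hQ v hv' ∈ H ↔ reflElt Q hQ v₁ hv ∈ H) := by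
      intro v hv' ⟨s, hs⟩
      exact hconj v₁ v hv hv' s (by rw [hv1, mul_one]; exact hs)
    have hnsqc : ∀ v (hv' : Q v ≠ 0), ¬ IsSquare (Q v) →
        (reflElt Q hQ v hv' ∈ H ↔ reflElt Q hQ w₁ hw ∈ H) := by
      intro v hv' hns
      obtain ⟨t, ht⟩ := isSquare_mul_of_not_isSquare hb hns
      apply hconj w₁ v hw hv' (t / b)
      rw [hwb]
      field_simp
      linear_combination ht
    by_cases e1 : reflElt Q hQ v₁ hv ∈ H <;> by_cases e2 : reflElt Q hQ w₁ hw ∈ H
    · exfalso
      have htop : H = ⊤ := by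
        rw [eq_top_iff]
        intro g hgtop
        clear hgtop
        obtain ⟨l, hl, rfl⟩ := exists_eq_prodElt h2 Q hQ g
        induction l with
        | nil => rw [prodElt_nil]; exact one_mem _
        | cons a l ih =>
          rw [prodElt_cons]
          refine H.mul_mem ?_ (ih _)
          by_cases hsq : IsSquare (Q a)
          · exact (hsqc a _ hsq).mpr e1
          · exact (hnsqc a _ hsq).mpr e2
      rw [htop, Subgroup.index_top] at hH
      omega
    · right; left
      apply hdet H sb.ker hH hi2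
      intro v hv'
      rw [hK2]
      by_cases hsq : IsSquare (Q v)
      · simp [hsq, (hsqc v hv' hsq), e1]
      · simp [hsq, (hnsqc v hv' hsq), e2]
    · left
      apply hdet H s1.ker hH hi1
      intro v hv'
      rw [hK1]
      by_cases hsq : IsSquare (Q v)
      · simp [hsq, (hsqc v hv' hsq), e1]
      · simp [hsq, (hnsqc v hv' hsq), e2]
    · right; right
      apply hdet H (s1 * sb).ker hH hi3
      intro v hv'
      have := hK3 v hv'
      by_cases hsq : IsSquare (Q v)
      · simp [this, (hsqc v hv' hsq), e1]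
      · simp [this, (hnsqc v hv' hsq), e2]
  -- distinctness
  have h12 : s1.ker ≠ sb.ker := by
    intro h
    have := (hK2 v₁ hv).mpr hvsq
    rw [← h, hK1] at this
    exact this hvsq
  have h13 : s1.ker ≠ (s1 * sb).ker := by
    intro h
    have := (hK1 w₁ hw).mpr hwsq
    rw [h] at this
    exact hK3 w₁ hw this
  have h23 : sb.ker ≠ (s1 * sb).ker := by
    intro h
    have := (hK2 v₁ hv).mpr hvsq
    rw [h] at this
    exact hK3 v₁ hv this
  have hset : {H : Subgroup ↥(Cfsg.isometryGroup F ⇑Q) | H.index = 2} =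
      {s1.ker, sb.ker, (s1 * sb).ker} := by
    ext H
    simp only [Set.mem_ofPred_eq, Set.mem_insert_iff, Set.mem_singleton_iff]
    constructor
    · exact hclass H
    · rintro (rfl | rfl | rfl)
      · exact hi1
      · exact hi2
      · exact hi3
  change Nat.card ↥({H : Subgroup ↥(Cfsg.isometryGroup F ⇑Q) | H.index = 2}) = 3
  rw [Nat.card_coe_set_eq, hset]
  exact Set.ncard_eq_three.mpr ⟨_, _, _, h12, h13, h23, rfl⟩

end Cfsg.Agent.S0797
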