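import Cfsg.Statements.S0806
import Cfsg.Agent.S0799
import Cfsg.Agent.Lib.Helper41.PSL2Order
import Cfsg.Agent.Lib.Helper59.SubfieldPSL

set_option autoImplicit false
open Cfsg

namespace Cfsg.Agent.S0806

open Cfsg.Agent.Lib.Helper41 in
/-- Minimal index (Galois): if q ∉ {2, 3, 5, 7, 9, 11} then every proper subgroup of PSL_2(q) has index ≥ q + 1, and some subgroup has index exactly q + 1. -/
theorem result {F : Type*} [Field F] [Fintype F] {q : ℕ} (hF : Fintype.card F = q) (hq : q ∉ ({2, 3, 5, 7, 9, 11} : Finset ℕ)) : (∀ H : Subgroup (Matrix.ProjectiveSpecialLinearGroup (Fin 2) F), H ≠ ⊤ → q + 1 ≤ H.index) ∧ ∃ H : Subgroup (Matrix.ProjectiveSpecialLinearGroup (Fin 2) F), H.index = q + 1 := by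
  classical
  subst hF
  obtain ⟨p, hp⟩ := CharP.exists F
  haveI := hp
  obtain ⟨n, hpp, hn⟩ := FiniteField.card F p
  haveI : Fact p.Prime := ⟨hpp⟩
  have hG := card_psl2_mul_gcd (F := F)
  have hpow : IsPrimePow (Fintype.card F) := Fintype.isPrimePow_card_of_field
  have hq1 : 1 < Fintype.card F := Fintype.one_lt_card
  obtain ⟨q, hq_def⟩ : ∃ q, q = Fintype.card F := ⟨_, rfl⟩
  rw [← hq_def] at hG hq hpow hq1 ⊢
  obtain ⟨d, hd_def⟩ : ∃ d, d = Nat.gcd 2 (q - 1) := ⟨_, rfl⟩
  rw [← hd_def] at hG
  have hd12 : d = 1 ∨ d = 2 := by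
    have h1 : d ∣ 2 := by
      rw [hd_def]
      exact Nat.gcd_dvd_left 2 _
    have h2 := Nat.le_of_dvd (by norm_num) h1
    have h3 : d ≠ 0 := by
      rintro rfl
      simp at h1
    omega
  have hq13 : q = 4 ∨ q = 8 ∨ 13 ≤ q := by
    simp only [Finset.mem_insert, Finset.mem_singleton, not_or] at hq
    by_contra hcon
    push Not at hcon
    have h6 : ¬ IsPrimePow 6 := by decide
    have h10 : ¬ IsPrimePow 10 := by decide
    have h12 : ¬ IsPrimePow 12 := by decide
    have : q = 6 ∨ q = 10 ∨ q = 12 := by omega
    rcases this with rfl | rfl | rfl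
    · exact h6 hpow
    · exact h10 hpow
    · exact h12 hpow
  have hq4 : 4 ≤ q := by omega
  have hqq : q * (q ^ 2 - 1) = (q + 1) * (q * (q - 1)) := by
    obtain ⟨j, rfl⟩ : ∃ j, q = j + 1 := ⟨q - 1, by omega⟩
    have e1 : (j + 1) ^ 2 - 1 = j * (j + 2) := by
      have : (j + 1) ^ 2 = j * (j + 2) + 1 := by ring
      omega
    rw [e1, Nat.add_sub_cancel]
    ring
  have hq3 : q * 3 ≤ q * (q - 1) := Nat.mul_le_mul_left q (by omega)
  constructor
  · intro H hH
    have hlt : Nat.card H < Nat.card (Matrix.ProjectiveSpecialLinearGroup (Fin 2) F) := by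
      apply lt_of_le_of_ne (Subgroup.card_le_card_group H)
      intro h
      exact hH ((Subgroup.card_eq_iff_eq_top H).mp h)
    have hposH : 0 < Nat.card H := Nat.card_pos
    have key : Nat.card H * d ≤ q * (q - 1) → q + 1 ≤ H.index := by
      intro h
      have h1 := H.index_mul_card
      have h3 : (q + 1) * (Nat.card H * d) ≤ H.index * (Nat.card H * d) := by
        calc (q + 1) * (Nat.card H * d) ≤ (q + 1) * (q * (q - 1)) := Nat.mul_le_mul_left _ h
          _ = Nat.card (Matrix.ProjectiveSpecialLinearGroup (Fin 2) F) * d := by rw [hG, hqq]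
          _ = H.index * (Nat.card H * d) := by rw [← h1]; ring
      have hpos : 0 < Nat.card H * d := by
        rcases hd12 with h | h <;> rw [h] <;> omega
      exact Nat.le_of_mul_le_mul_right h3 hpos
    have hdvdG : Nat.card H ∣ Nat.card (Matrix.ProjectiveSpecialLinearGroup (Fin 2) F) :=
      Subgroup.card_subgroup_dvd_card H
    have hd2 : d ≤ 2 := by omega
    have hHd : ∀ c : ℕ, Nat.card H ≤ c → c * 2 ≤ q * (q - 1) → Nat.card H * d ≤ q * (q - 1) := by
      intro c h1 h2
      calc Nat.card H * d ≤ c * 2 := Nat.mul_le_mul h1 hd2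
        _ ≤ q * (q - 1) := h2
    have hbig : 13 ≤ q → 156 ≤ q * (q - 1) := by
      intro h
      calc 156 = 13 * 12 := by norm_num
        _ ≤ q * (q - 1) := Nat.mul_le_mul h (by omega)
    rcases Cfsg.Agent.S0799.result rfl p H with ⟨k, hk, hcyc | hdih⟩ | ⟨P, K, hK, hf⟩ | hf |
      hf | hf | ⟨K, iK, iK', m, hm, hiso⟩
    · -- cyclic
      apply key
      rw [← hq_def, ← hd_def] at hk
      have hk' : k ≤ (q + 1) / d := by
        rcases hk with h | h
        · exact Nat.le_of_dvd (Nat.div_pos (by omega) (by omega)) h
        · have h1 := Nat.le_of_dvd (Nat.div_pos (by omega) (by omega)) h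
          exact h1.trans (Nat.div_le_div_right (by omega))
      rw [hcyc.2]
      calc k * d ≤ (q + 1) / d * d := Nat.mul_le_mul_right d hk'
        _ ≤ q + 1 := Nat.div_mul_le_self _ _
        _ ≤ q * (q - 1) := by omega
    · -- dihedral
      apply key
      rw [← hq_def, ← hd_def] at hk
      have hk' : k ≤ (q + 1) / d := by
        rcases hk with h | h
        · exact Nat.le_of_dvd (Nat.div_pos (by omega) (by omega)) h
        · have h1 := Nat.le_of_dvd (Nat.div_pos (by omega) (by omega)) h
          exact h1.trans (Nat.div_le_div_right (by omega))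
      obtain ⟨f⟩ := hdih
      rw [Nat.card_congr f.toEquiv, DihedralGroup.nat_card]
      calc 2 * k * d = 2 * (k * d) := by ring
        _ ≤ 2 * ((q + 1) / d * d) := Nat.mul_le_mul_left 2 (Nat.mul_le_mul_right d hk')
        _ ≤ 2 * (q + 1) := Nat.mul_le_mul_left 2 (Nat.div_mul_le_self _ _)
        _ ≤ q * (q - 1) := by omega
    · -- Borel
      obtain ⟨f⟩ := hf
      apply key
      obtain ⟨Γ, hΓ⟩ := sylow_normalizer_eq_borelP p P
      rw [hΓ] at hK
      have h1 := Subgroup.card_le_of_le hK
      have h2 := card_borelP (F := F) Γ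
      rw [← hq_def, ← hd_def] at h2
      rw [Nat.card_congr f.toEquiv, ← h2]
      exact Nat.mul_le_mul_right d h1
    · -- A4
      obtain ⟨f⟩ := hf
      apply key
      have hc : Nat.card H = 12 := by
        rw [Nat.card_congr f.toEquiv, nat_card_alternatingGroup]
        simp [Nat.factorial]
      rcases hq13 with rfl | rfl | h13
      · have : d = 1 := by rw [hd_def]; decide
        rw [hc, this]
      · rw [hc]
        omega
      · exact hHd 12 (by omega) (by have := hbig h13; omega)
    · -- S4
      obtain ⟨f⟩ := hf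
      have hc : Nat.card H = 24 := by
        rw [Nat.card_congr f.toEquiv, Nat.card_eq_fintype_card, Fintype.card_perm]
        simp [Nat.factorial]
      rcases hq13 with rfl | rfl | h13
      · exfalso
        have hd1 : d = 1 := by rw [hd_def]; decide
        rw [hd1] at hG
        rw [hc] at hdvdG
        have hG' : Nat.card (Matrix.ProjectiveSpecialLinearGroup (Fin 2) F) = 60 := by
          simpa using hG
        rw [hG'] at hdvdG
        omega
      · apply key
        rw [hc]
        omega
      · apply key
        exact hHd 24 (by omega) (by have := hbig h13; omega)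
    · -- A5
      obtain ⟨f⟩ := hf
      have hc : Nat.card H = 60 := by
        rw [Nat.card_congr f.toEquiv, nat_card_alternatingGroup]
        simp [Nat.factorial]
      rcases hq13 with rfl | rfl | h13
      · exfalso
        have hd1 : d = 1 := by rw [hd_def]; decide
        rw [hd1] at hG
        have hG' : Nat.card (Matrix.ProjectiveSpecialLinearGroup (Fin 2) F) = 60 := by
          simpa using hG
        omega
      · exfalso
        have hd1 : d = 1 := by rw [hd_def]; decide
        rw [hd1] at hG
        have hG' : Nat.card (Matrix.ProjectiveSpecialLinearGroup (Fin 2) F) = 504 := by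
          simpa using hG
        rw [hG', hc] at hdvdG
        omega
      · apply key
        exact hHd 60 (by omega) (by have := hbig h13; omega)
    · -- Lie type
      obtain ⟨r, hr_def⟩ : ∃ r, r = Fintype.card K := ⟨_, rfl⟩
      have hr2 : 2 ≤ r := by
        rw [hr_def]
        exact Fintype.one_lt_card
      rw [← hr_def, ← hq_def] at hm
      have hcH : Nat.card H ≤ r * (r ^ 2 - 1) := by
        rcases hiso with hf | hf
        · obtain ⟨f⟩ := hf
          have h1 := card_psl2_mul_gcd (F := K)
          rw [← hr_def] at h1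
          rw [Nat.card_congr f.toEquiv, ← h1]
          exact Nat.le_mul_of_pos_right _ (Nat.gcd_pos_of_pos_left _ (by norm_num))
        · obtain ⟨f⟩ := hf
          rw [Nat.card_congr f.toEquiv, Cfsg.Agent.Lib.Helper59.card_pgl2, ← hr_def]
      have hcH' : r = q → False := by
        intro hrq
        rcases hiso with hf | hf
        · obtain ⟨f⟩ := hf
          have h1 := card_psl2_mul_gcd (F := K)
          rw [← hr_def, hrq, ← hd_def, ← hG, ← Nat.card_congr f.toEquiv] at h1
          have hd0 : 0 < d := by omega
          have := Nat.eq_of_mul_eq_mul_right hd0 h1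
          omega
        · obtain ⟨f⟩ := hf
          have h1 : Nat.card H = q * (q ^ 2 - 1) := by
            rw [Nat.card_congr f.toEquiv, Cfsg.Agent.Lib.Helper59.card_pgl2, ← hr_def, hrq]
          rw [← hG] at h1
          have : Nat.card (Matrix.ProjectiveSpecialLinearGroup (Fin 2) F) ≤
              Nat.card (Matrix.ProjectiveSpecialLinearGroup (Fin 2) F) * d :=
            Nat.le_mul_of_pos_right _ (by omega)
          omega
      rcases Nat.lt_or_ge m 2 with hm2 | hm2
      · exfalso
        have : m = 0 ∨ m = 1 := by omega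
        rcases this with rfl | rfl
        · rw [pow_zero] at hm
          omega
        · rw [pow_one] at hm
          exact hcH' hm
      · apply key
        have hr2q : r ^ 2 ≤ q := by
          rw [← hm]
          exact Nat.pow_le_pow_right (by omega) hm2
        have h2r : 2 * r ≤ r ^ 2 := by
          rw [pow_two]
          exact Nat.mul_le_mul_right r hr2
        calc Nat.card H * d ≤ r * (r ^ 2 - 1) * 2 := Nat.mul_le_mul hcH hd2
          _ = 2 * r * (r ^ 2 - 1) := by ring
          _ ≤ q * (q - 1) := Nat.mul_le_mul (h2r.trans hr2q) (by omega)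
  · refine ⟨borelP (1 : Matrix.SpecialLinearGroup (Fin 2) F), ?_⟩
    have h1 := (borelP (1 : Matrix.SpecialLinearGroup (Fin 2) F)).index_mul_card
    have h2 := card_borelP (F := F) 1
    rw [← hq_def, ← hd_def] at h2
    have h3 : (borelP (1 : Matrix.SpecialLinearGroup (Fin 2) F)).index * (q * (q - 1)) =
        (q + 1) * (q * (q - 1)) := by
      rw [← hqq, ← hG, ← h1, ← h2]
      ring
    exact Nat.eq_of_mul_eq_mul_right (by
      have : 0 < q * 3 := by omega
      omega) h3

end Cfsg.Agent.S0806
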