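import Cfsg.Statements.S0808
import Cfsg.Agent.Lib.Helper41.PSL2KleinNorm
import Cfsg.Agent.Lib.Helper41.TwoClasses

set_option autoImplicit false
open Cfsg

namespace Cfsg.Agent.S0808

open Cfsg.Agent.Lib.Helper41 in
/-- Conjugacy classes of four-groups in PSL_2(q), q odd: if q ≡ 3 or 5 (mod 8) all Klein four-subgroups are conjugate; if q ≡ 1 or 7 (mod 8) there are two Klein four-subgroups which are not conjugate, and every Klein four-subgroup is conjugate to one of them. -/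
theorem result {F : Type*} [Field F] [Fintype F] {q : ℕ} (hF : Fintype.card F = q) (hodd : Odd q) : ((q % 8 = 3 ∨ q % 8 = 5) → ∀ V W : Subgroup (Matrix.ProjectiveSpecialLinearGroup (Fin 2) F), IsKleinFour V → IsKleinFour W → ∃ g : Matrix.ProjectiveSpecialLinearGroup (Fin 2) F, W = V.map (MulAut.conj g).toMonoidHom) ∧ ((q % 8 = 1 ∨ q % 8 = 7) → ∃ V₁ V₂ : Subgroup (Matrix.ProjectiveSpecialLinearGroup (Fin 2) F), IsKleinFour V₁ ∧ IsKleinFour V₂ ∧ (¬ ∃ g : Matrix.ProjectiveSpecialLinearGroup (Fin 2) F, V₂ = V₁.map (MulAut.conj g).toMonoidHom) ∧ ∀ W : Subgroup (Matrix.ProjectiveSpecialLinearGroup (Fin 2) F), IsKleinFour W → (∃ g : Matrix.ProjectiveSpecialLinearGroup (Fin 2) F, W = V₁.map (MulAut.conj g).toMonoidHom) ∨ (∃ g : Matrix.ProjectiveSpecialLinearGroup (Fin 2) F, W = V₂.map (MulAut.conj g).toMonoidHom)) := by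
  have h2 : (2 : F) ≠ 0 := Cfsg.Agent.Lib.Helper5.two_ne_zero_of_odd_card (hF ▸ hodd)
  constructor
  · intro hq V W hV hW
    have h2p : Fact (Nat.Prime 2) := ⟨Nat.prime_two⟩
    have hS := Cfsg.Agent.Lib.Helper5.card_SL2 (F := F)
    have hPS := Cfsg.Agent.Lib.Helper5.card_PSL_mul_card_center (Fin 2) F
    rw [Cfsg.Agent.Lib.Helper5.card_center_SL2_of_two_ne_zero h2, hS, hF] at hPS
    obtain ⟨m, hm, hcard⟩ : ∃ m, Odd m ∧
        Nat.card (Matrix.ProjectiveSpecialLinearGroup (Fin 2) F) = 4 * m := by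
      rcases hq with hq | hq
      · obtain ⟨k, rfl⟩ : ∃ k, q = 8 * k + 3 := ⟨q / 8, by omega⟩
        refine ⟨(8 * k + 3) * (8 * k ^ 2 + 6 * k + 1), ?_, ?_⟩
        · exact Odd.mul ⟨4 * k + 1, by ring⟩ ⟨4 * k ^ 2 + 3 * k, by ring⟩
        · have e : (8 * k + 3) ^ 2 = 8 * (8 * k ^ 2 + 6 * k + 1) + 1 := by ring
          rw [e, Nat.add_sub_cancel] at hPS
          have e2 : (8 * k + 3) * (8 * (8 * k ^ 2 + 6 * k + 1)) =
              8 * ((8 * k + 3) * (8 * k ^ 2 + 6 * k + 1)) := by ring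
          rw [e2] at hPS
          omega
      · obtain ⟨k, rfl⟩ : ∃ k, q = 8 * k + 5 := ⟨q / 8, by omega⟩
        refine ⟨(8 * k + 5) * (8 * k ^ 2 + 10 * k + 3), ?_, ?_⟩
        · exact Odd.mul ⟨4 * k + 2, by ring⟩ ⟨4 * k ^ 2 + 5 * k + 1, by ring⟩
        · have e : (8 * k + 5) ^ 2 = 8 * (8 * k ^ 2 + 10 * k + 3) + 1 := by ring
          rw [e, Nat.add_sub_cancel] at hPS
          have e2 : (8 * k + 5) * (8 * (8 * k ^ 2 + 10 * k + 3)) =
              8 * ((8 * k + 5) * (8 * k ^ 2 + 10 * k + 3)) := by ring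
          rw [e2] at hPS
          omega
    have h8 : ¬ 8 ∣ Nat.card (Matrix.ProjectiveSpecialLinearGroup (Fin 2) F) := by
      rw [hcard]
      obtain ⟨j, rfl⟩ := hm
      omega
    have key : ∀ V : Subgroup (Matrix.ProjectiveSpecialLinearGroup (Fin 2) F), IsKleinFour V →
        ∃ Q : Sylow 2 (Matrix.ProjectiveSpecialLinearGroup (Fin 2) F),
          (Q : Subgroup (Matrix.ProjectiveSpecialLinearGroup (Fin 2) F)) = V := by
      intro V hV
      have hp : IsPGroup 2 V := IsPGroup.of_card (n := 2) (by rw [hV.card_four]; norm_num)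
      obtain ⟨Q, hQ⟩ := hp.exists_le_sylow
      refine ⟨Q, ?_⟩
      symm
      apply Subgroup.eq_of_le_of_card_ge hQ
      obtain ⟨n, hn⟩ := IsPGroup.iff_card.mp Q.isPGroup'
      have hdvd : Nat.card Q ∣ Nat.card (Matrix.ProjectiveSpecialLinearGroup (Fin 2) F) :=
        Subgroup.card_subgroup_dvd_card _
      rw [hn] at hdvd ⊢
      rw [hV.card_four]
      have hn2 : n ≤ 2 := by
        by_contra hcon
        push Not at hcon
        apply h8
        have h83 : (2 : ℕ) ^ 3 ∣ 2 ^ n := pow_dvd_pow 2 (by omega : 3 ≤ n)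
        exact dvd_trans h83 hdvd
      interval_cases n <;> norm_num
    obtain ⟨QV, hQV⟩ := key V hV
    obtain ⟨QW, hQW⟩ := key W hW
    obtain ⟨g, hg⟩ := MulAction.exists_smul_eq (Matrix.ProjectiveSpecialLinearGroup (Fin 2) F) QV QW
    refine ⟨g, ?_⟩
    have e : ((g • QV : Sylow 2 (Matrix.ProjectiveSpecialLinearGroup (Fin 2) F)) :
        Subgroup (Matrix.ProjectiveSpecialLinearGroup (Fin 2) F)) =
        (QV : Subgroup (Matrix.ProjectiveSpecialLinearGroup (Fin 2) F)).map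
          (MulAut.conj g).toMonoidHom := rfl
    rw [hg, hQV, hQW] at e
    exact e
  · intro hq
    have hsq : IsSquare (2 : F) := by
      rw [FiniteField.isSquare_two_iff, hF]
      omega
    exact two_classes (fun V => IsKleinFour V) (fun V g hV => isKleinFour_map_conj V hV g)
      (psl2_card_klein h2) (fun V hV => psl2_card_conj_class_klein h2 hsq V hV)

end Cfsg.Agent.S0808
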