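import Cfsg.Statements.S0810
import Cfsg.Agent.S0799
import Cfsg.Agent.S0804
import Cfsg.Agent.S0144
import Cfsg.Agent.Lib.Helper41.PSL2Solv
import Cfsg.Agent.Lib.Helper59.SubfieldPSL

set_option autoImplicit false
open Cfsg

namespace Cfsg.Agent.S0810

open Cfsg.Agent.Lib.Helper41

theorem four_pow_mod (r : ℕ) (hr : Odd r) : 4 ^ r % 5 = 4 := by
  obtain ⟨k, rfl⟩ := hr
  rw [pow_succ, pow_mul, Nat.mul_mod, Nat.pow_mod]
  norm_num

theorem nine_pow_mod (r : ℕ) (hr : Odd r) : 9 ^ r % 5 = 4 := by
  rw [Nat.pow_mod]
  exact four_pow_mod r hr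

/-- for `q` in the list, `5 ∣ q (q² - 1)` only for `q = 4, 5` -/
theorem list_five {q : ℕ}
    (hlist : (∃ r : ℕ, r.Prime ∧ q = 2 ^ r) ∨ (∃ r : ℕ, r.Prime ∧ r ≠ 2 ∧ q = 3 ^ r) ∨
      (q.Prime ∧ 5 < q ∧ (q % 5 = 2 ∨ q % 5 = 3)) ∨ q = 5)
    (h5 : 5 ∣ q * (q ^ 2 - 1)) : q = 4 ∨ q = 5 := by
  have hp5 : Nat.Prime 5 := by norm_num
  rcases hlist with ⟨r, hr, rfl⟩ | ⟨r, hr, hr2, rfl⟩ | ⟨hq, h5q, hmod⟩ | rfl
  · rcases hr.eq_two_or_odd' with rfl | hodd
    · left; norm_num
    · exfalso
      rcases (Nat.Prime.dvd_mul hp5).mp h5 with h | h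
      · have := (Nat.prime_dvd_prime_iff_eq hp5 Nat.prime_two).mp (hp5.dvd_of_dvd_pow h)
        omega
      · have e : (2 ^ r) ^ 2 = 4 ^ r := by
          rw [← pow_mul, mul_comm, pow_mul]
          norm_num
        rw [e] at h
        have := four_pow_mod r hodd
        omega
  · exfalso
    have hodd : Odd r := hr.eq_two_or_odd'.resolve_left hr2
    rcases (Nat.Prime.dvd_mul hp5).mp h5 with h | h
    · have := (Nat.prime_dvd_prime_iff_eq hp5 Nat.prime_three).mp (hp5.dvd_of_dvd_pow h)
      omega
    · have e : (3 ^ r) ^ 2 = 9 ^ r := by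
        rw [← pow_mul, mul_comm, pow_mul]
        norm_num
      rw [e] at h
      have := nine_pow_mod r hodd
      omega
  · exfalso
    rcases (Nat.Prime.dvd_mul hp5).mp h5 with h | h
    · omega
    · have e : q ^ 2 % 5 = 4 := by
        rw [Nat.pow_mod]
        rcases hmod with h' | h' <;> rw [h']
      have hq2 : 1 ≤ q ^ 2 := Nat.one_le_pow _ _ (by omega)
      omega
  · right; rfl

/-- the Lie-type subgroups for `q` in the list -/
theorem list_subfield {q : ℕ}
    (hlist : (∃ r : ℕ, r.Prime ∧ q = 2 ^ r) ∨ (∃ r : ℕ, r.Prime ∧ r ≠ 2 ∧ q = 3 ^ r) ∨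
      (q.Prime ∧ 5 < q ∧ (q % 5 = 2 ∨ q % 5 = 3)) ∨ q = 5)
    (r j m : ℕ) (hr : r.Prime) (hj : 1 ≤ j) (hrm : (r ^ j) ^ m = q) :
    m = 0 ∨ m = 1 ∨ (j = 1 ∧ (r = 2 ∨ r = 3)) := by
  obtain ⟨p₀, s, hp₀, hs, hq, hsmall⟩ : ∃ p₀ s : ℕ, p₀.Prime ∧ (s = 1 ∨ s.Prime) ∧ q = p₀ ^ s ∧
      (s ≠ 1 → p₀ = 2 ∨ p₀ = 3) := by
    rcases hlist with ⟨r, hr, rfl⟩ | ⟨r, hr, hr2, rfl⟩ | ⟨hq, h5q, hmod⟩ | rfl
    · exact ⟨2, r, Nat.prime_two, Or.inr hr, rfl, fun _ => Or.inl rfl⟩
    · exact ⟨3, r, Nat.prime_three, Or.inr hr, rfl, fun _ => Or.inr rfl⟩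
    · exact ⟨q, 1, hq, Or.inl rfl, (pow_one q).symm, fun h => absurd rfl h⟩
    · exact ⟨5, 1, by norm_num, Or.inl rfl, by norm_num, fun h => absurd rfl h⟩
  by_cases hm0 : m = 0
  · left; exact hm0
  right
  rw [← pow_mul, hq] at hrm
  have hjm : j * m ≠ 0 := Nat.mul_ne_zero (by omega) hm0
  have hrp : r = p₀ := by
    have h1 : r ∣ p₀ ^ s := by
      rw [← hrm]
      exact dvd_pow_self r hjm
    exact (Nat.prime_dvd_prime_iff_eq hr hp₀).mp (hr.dvd_of_dvd_pow h1)
  rw [hrp] at hrm ⊢
  have hjms : j * m = s := Nat.pow_right_injective hp₀.two_le hrm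
  rcases hs with rfl | hs
  · left
    exact Nat.eq_one_of_mul_eq_one_left hjms
  · have hmd : m ∣ s := ⟨j, by rw [← hjms, mul_comm]⟩
    rcases (Nat.dvd_prime hs).mp hmd with h | h
    · left; exact h
    · right
      have hj1 : j = 1 := by
        rw [h] at hjms
        have hs0 : 0 < s := hs.pos
        exact Nat.eq_of_mul_eq_mul_right hs0 (by rw [hjms, one_mul])
      exact ⟨hj1, hsmall hs.one_lt.ne'⟩

/-- PSL_2(q) is minimal simple iff q is 2^r (r prime), 3^r (r an odd prime), a prime greater than 5 congruent to 2 or 3 mod 5, or 5. -/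
theorem result {F : Type*} [Field F] [Fintype F] {q : ℕ} (hF : Fintype.card F = q) : Cfsg.IsMinimalSimple (Matrix.ProjectiveSpecialLinearGroup (Fin 2) F) ↔ ((∃ r : ℕ, r.Prime ∧ q = 2 ^ r) ∨ (∃ r : ℕ, r.Prime ∧ r ≠ 2 ∧ q = 3 ^ r) ∨ (q.Prime ∧ 5 < q ∧ (q % 5 = 2 ∨ q % 5 = 3)) ∨ q = 5) := by
  classical
  obtain ⟨p, hp⟩ := CharP.exists F
  haveI := hp
  obtain ⟨n, hpp, hn⟩ := FiniteField.card F p
  haveI : Fact p.Prime := ⟨hpp⟩
  have hG := card_psl2_mul_gcd (F := F)
  have hq1 : 1 < Fintype.card F := Fintype.one_lt_card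
  rw [hF] at hn hG hq1
  obtain ⟨d, hd_def⟩ : ∃ d, d = Nat.gcd 2 (q - 1) := ⟨_, rfl⟩
  rw [← hd_def] at hG
  have hd12 : d = 1 ∨ d = 2 := by
    have h1 : d ∣ 2 := by
      rw [hd_def]
      exact Nat.gcd_dvd_left 2 _
    have h2 := Nat.le_of_dvd (by norm_num) h1
    have h3 : d ≠ 0 := by
      rintro rfl
      simp at h1
    omega
  constructor
  · -- minimal simple implies the list
    rintro ⟨hsimp, hnc, hsub⟩
    haveI := hsimp
    have hnsolv : ¬ Group.IsSolvable (Matrix.ProjectiveSpecialLinearGroup (Fin 2) F) := by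
      intro h
      exact hnc ⟨⟨fun a b => IsSimpleGroup.comm_iff_isSolvable.mpr h a b⟩⟩
    have h4 : 4 ≤ q := by
      by_contra hcon
      have h23 : q = 2 ∨ q = 3 := by omega
      apply hnsolv
      rcases h23 with rfl | rfl
      · have hd1 : d = 1 := by rw [hd_def]; decide
        rw [hd1] at hG
        exact Cfsg.Agent.S0144.result 2 3 1 1 Nat.prime_two Nat.prime_three (by
          have : Nat.card (Matrix.ProjectiveSpecialLinearGroup (Fin 2) F) = 6 := by simpa using hG
          rw [this]
          norm_num)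
      · have hd2 : d = 2 := by rw [hd_def]; decide
        rw [hd2] at hG
        exact Cfsg.Agent.S0144.result 2 3 2 1 Nat.prime_two Nat.prime_three (by
          have h24 : Nat.card (Matrix.ProjectiveSpecialLinearGroup (Fin 2) F) * 2 = 24 := by
            simpa using hG
          have : Nat.card (Matrix.ProjectiveSpecialLinearGroup (Fin 2) F) = 12 := by omega
          rw [this]
          norm_num)
    -- no proper A5
    have hA5 : 5 ∣ q * (q ^ 2 - 1) → 7 ≤ q → False := by
      intro h5 h7
      obtain ⟨H, ⟨f⟩⟩ := (Cfsg.Agent.S0804.result hF).mpr h5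
      have hc : Nat.card H = 60 := by
        rw [Nat.card_congr f.toEquiv, nat_card_alternatingGroup]
        simp [Nat.factorial]
      have hne : H ≠ ⊤ := by
        intro htop
        have h1 := (Subgroup.card_eq_iff_eq_top H).mpr htop
        rw [hc] at h1
        rw [← h1] at hG
        have h49 : 7 ^ 2 ≤ q ^ 2 := Nat.pow_le_pow_left h7 2
        have h336 : 7 * 48 ≤ q * (q ^ 2 - 1) := Nat.mul_le_mul h7 (by omega)
        rcases hd12 with h | h <;> rw [h] at hG <;> omega
      haveI := hsub H hne
      exact not_isSolvable_alternatingGroup_five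
        (Group.isSolvable_of_isSolvable_injective (f := f.symm.toMonoidHom) f.symm.injective)
    -- no proper subfield subgroup
    have hsubf : ∀ j m : ℕ, 1 ≤ j → 2 ≤ m → j * m = (n : ℕ) → 4 ≤ p ^ j → False := by
      intro j m hj hm hjm h4j
      haveI : Fintype (GaloisField p j) := Fintype.ofFinite _
      have hcK : Fintype.card (GaloisField p j) = p ^ j := by
        rw [← Nat.card_eq_fintype_card]
        exact GaloisField.card p j (by omega)
      have hKm : Fintype.card (GaloisField p j) ^ m = Fintype.card F := by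
        rw [hcK, ← pow_mul, hjm, hF, hn]
      obtain ⟨ι⟩ := Cfsg.Agent.Lib.Helper59.exists_ringHom_of_card_pow m hKm
      obtain ⟨H, ⟨f⟩⟩ := Cfsg.Agent.Lib.Helper59.psl2_subfield_embedding ι
      obtain ⟨r, hr_def⟩ : ∃ r, r = p ^ j := ⟨_, rfl⟩
      rw [← hr_def] at hcK h4j
      have hcH : Nat.card H ≤ r * (r ^ 2 - 1) := by
        have h1 := card_psl2_mul_gcd (F := GaloisField p j)
        rw [hcK] at h1
        rw [Nat.card_congr f.toEquiv, ← h1]
        exact Nat.le_mul_of_pos_right _ (Nat.gcd_pos_of_pos_left _ (by norm_num))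
      have hqr : r ^ 2 ≤ q := by
        rw [hn, ← hjm, pow_mul, ← hr_def]
        exact Nat.pow_le_pow_right (by omega) hm
      have hne : H ≠ ⊤ := by
        intro htop
        have h1 := (Subgroup.card_eq_iff_eq_top H).mpr htop
        rw [h1] at hcH
        have h2 : q * (q ^ 2 - 1) ≤ r * (r ^ 2 - 1) * 2 := by
          rw [← hG]
          exact Nat.mul_le_mul hcH (by omega)
        have h2r : 2 * r ≤ r ^ 2 := by
          rw [pow_two]
          exact Nat.mul_le_mul_right r (by omega)
        have hrq : r < q := by nlinarith [hqr, h4j]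
        have hr2q2 : r ^ 2 < q ^ 2 := Nat.pow_lt_pow_left hrq (by norm_num)
        have h16 : 4 ^ 2 ≤ r ^ 2 := Nat.pow_le_pow_left h4j 2
        have h3 : r * (r ^ 2 - 1) * 2 < q * (q ^ 2 - 1) := by
          calc r * (r ^ 2 - 1) * 2 = 2 * r * (r ^ 2 - 1) := by ring
            _ < 2 * r * (q ^ 2 - 1) := Nat.mul_lt_mul_of_pos_left (by omega) (by omega)
            _ ≤ q * (q ^ 2 - 1) := Nat.mul_le_mul_right _ (h2r.trans hqr)
        omega
      haveI := hsub H hne
      exact not_isSolvable_psl2 (F := GaloisField p j) (by rw [hcK]; exact h4j)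
        (Group.isSolvable_of_isSolvable_injective (f := f.symm.toMonoidHom) f.symm.injective)
    -- case analysis
    have hn1 : 1 ≤ (n : ℕ) := n.pos
    rcases Nat.lt_or_ge (n : ℕ) 2 with hn2 | hn2
    · -- q = p
      have hn' : (n : ℕ) = 1 := by omega
      rw [hn', pow_one] at hn
      rw [hn] at h4 hA5 ⊢
      have hp5 : 5 ≤ p := by
        rcases Nat.lt_or_ge p 5 with h | h
        · exfalso
          have : p = 4 := by omega
          rw [this] at hpp
          exact absurd hpp (by decide)
        · exact h
      rcases Nat.lt_or_ge 5 p with h5 | h5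
      · right; right; left
        have hp7 : 7 ≤ p := by
          rcases Nat.lt_or_ge p 7 with h | h
          · exfalso
            have : p = 6 := by omega
            rw [this] at hpp
            exact absurd hpp (by decide)
          · exact h
        refine ⟨hpp, h5, ?_⟩
        by_contra hmod
        have hmod0 : p % 5 ≠ 0 := by
          intro h0
          have := (Nat.prime_dvd_prime_iff_eq (by norm_num : Nat.Prime 5) hpp).mp
            (Nat.dvd_of_mod_eq_zero h0)
          omega
        have hmod14 : p % 5 = 1 ∨ p % 5 = 4 := by omega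
        apply hA5 _ hp7
        apply Dvd.dvd.mul_left
        have e : p ^ 2 % 5 = 1 := by
          rw [Nat.pow_mod]
          rcases hmod14 with h' | h' <;> rw [h']
        have hp2 : 1 ≤ p ^ 2 := Nat.one_le_pow _ _ (by omega)
        omega
      · right; right; right
        omega
    · -- q = p ^ n with n ≥ 2
      rcases Nat.lt_or_ge p 5 with hp5 | hp5
      · have hp23 : p = 2 ∨ p = 3 := by
          have : p ≠ 4 := by
            rintro rfl
            exact absurd hpp (by decide)
          have := hpp.two_le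
          omega
        by_cases hnp : (n : ℕ).Prime
        · rcases hp23 with rfl | rfl
          · left
            exact ⟨n, hnp, hn⟩
          · by_cases hn2' : (n : ℕ) = 2
            · exfalso
              rw [hn2'] at hn
              have hq9 : q = 9 := by rw [hn]; norm_num
              rw [hq9] at hA5
              exact hA5 (by norm_num) (by norm_num)
            · right; left
              exact ⟨n, hnp, hn2', hn⟩
        · exfalso
          obtain ⟨m, hmn, hm2, hmlt⟩ := Nat.exists_dvd_of_not_prime2 hn2 hnp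
          obtain ⟨j, hj⟩ := hmn
          have hj2 : 2 ≤ j := by
            rcases Nat.lt_or_ge j 2 with h | h
            · exfalso
              have : j = 0 ∨ j = 1 := by omega
              rcases this with rfl | rfl <;> omega
            · exact h
          apply hsubf j m (by omega) hm2 (by rw [hj, mul_comm])
          calc 4 = 2 ^ 2 := by norm_num
            _ ≤ p ^ 2 := Nat.pow_le_pow_left hpp.two_le 2
            _ ≤ p ^ j := Nat.pow_le_pow_right hpp.pos hj2
      · exfalso
        apply hsubf 1 n (le_refl 1) hn2 (one_mul _)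
        rw [pow_one]
        omega
  · -- the list implies minimal simple
    intro hlist
    have h4 : 4 ≤ q := by
      rcases hlist with ⟨r, hr, rfl⟩ | ⟨r, hr, hr2, rfl⟩ | ⟨hq, h5q, hmod⟩ | rfl
      · calc 4 = 2 ^ 2 := by norm_num
          _ ≤ 2 ^ r := Nat.pow_le_pow_right (by norm_num) hr.two_le
      · calc 4 ≤ 3 ^ 2 := by norm_num
          _ ≤ 3 ^ r := Nat.pow_le_pow_right (by norm_num) hr.two_le
      · omega
      · norm_num
    have hsimp : IsSimpleGroup (Matrix.ProjectiveSpecialLinearGroup (Fin 2) F) :=
      Matrix.ProjectiveSpecialLinearGroup.rank_two_simple (by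
        rw [Nat.card_eq_fintype_card, hF]
        exact h4)
    refine ⟨hsimp, ?_, ?_⟩
    · intro h
      obtain ⟨x, y, hxy⟩ := psl2_exists_not_comm (F := F)
      exact hxy (h.is_comm.comm x y)
    · intro H hH
      have hlt : Nat.card H < Nat.card (Matrix.ProjectiveSpecialLinearGroup (Fin 2) F) := by
        apply lt_of_le_of_ne (Subgroup.card_le_card_group H)
        intro h
        exact hH ((Subgroup.card_eq_iff_eq_top H).mp h)
      rcases Cfsg.Agent.S0799.result hF p H with ⟨k, hk, hcyc | hdih⟩ | ⟨P, K, hK, hf⟩ | hf |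
        hf | hf | ⟨K, iK, iK', m, hm, hiso⟩
      · -- cyclic
        haveI := hcyc.1
        apply Group.isSolvable_of_comm
        intro a b
        obtain ⟨g, hg⟩ := IsCyclic.exists_generator (α := H)
        obtain ⟨i, rfl⟩ := Subgroup.mem_zpowers_iff.mp (hg a)
        obtain ⟨j, rfl⟩ := Subgroup.mem_zpowers_iff.mp (hg b)
        exact zpow_mul_comm g i j
      · -- dihedral
        obtain ⟨f⟩ := hdih
        haveI := isSolvable_dihedralGroup k
        exact Group.isSolvable_of_isSolvable_injective (f := f.toMonoidHom) f.injective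
      · -- Borel
        obtain ⟨f⟩ := hf
        haveI := isSolvable_normalizer_sylow p P
        haveI : Group.IsSolvable K :=
          Group.isSolvable_of_isSolvable_injective (f := Subgroup.inclusion hK)
            (Subgroup.inclusion_injective hK)
        exact Group.isSolvable_of_isSolvable_injective (f := f.toMonoidHom) f.injective
      · -- A4
        obtain ⟨f⟩ := hf
        exact Cfsg.Agent.S0144.result 2 3 2 1 Nat.prime_two Nat.prime_three (by
          rw [Nat.card_congr f.toEquiv, nat_card_alternatingGroup]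
          simp [Nat.factorial])
      · -- S4
        obtain ⟨f⟩ := hf
        exact Cfsg.Agent.S0144.result 2 3 3 1 Nat.prime_two Nat.prime_three (by
          rw [Nat.card_congr f.toEquiv, Nat.card_eq_fintype_card, Fintype.card_perm]
          simp [Nat.factorial])
      · -- A5
        exfalso
        have h5 := (Cfsg.Agent.S0804.result hF).mp ⟨H, hf⟩
        obtain ⟨f⟩ := hf
        have hc : Nat.card H = 60 := by
          rw [Nat.card_congr f.toEquiv, nat_card_alternatingGroup]
          simp [Nat.factorial]
        rcases list_five hlist h5 with rfl | rfl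
        · have hd1 : d = 1 := by rw [hd_def]; decide
          rw [hd1] at hG
          have : Nat.card (Matrix.ProjectiveSpecialLinearGroup (Fin 2) F) = 60 := by simpa using hG
          omega
        · have hd2 : d = 2 := by rw [hd_def]; decide
          rw [hd2] at hG
          have : Nat.card (Matrix.ProjectiveSpecialLinearGroup (Fin 2) F) * 2 = 120 := by
            simpa using hG
          omega
      · -- Lie type
        obtain ⟨r, hr⟩ := CharP.exists K
        haveI := hr
        obtain ⟨j, hrp, hj⟩ := FiniteField.card K r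
        rw [hj] at hm
        rcases list_subfield hlist r j m hrp j.pos hm with rfl | rfl | ⟨hj1, hr23⟩
        · exfalso
          rw [pow_zero] at hm
          omega
        · exfalso
          rw [pow_one] at hm
          rw [hm] at hj
          rcases hiso with hf | hf
          · obtain ⟨f⟩ := hf
            have h1 := card_psl2_mul_gcd (F := K)
            rw [hj, ← hd_def, ← hG, ← Nat.card_congr f.toEquiv] at h1
            have hd0 : 0 < d := by omega
            have := Nat.eq_of_mul_eq_mul_right hd0 h1
            omega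
          · obtain ⟨f⟩ := hf
            have h1 : Nat.card H = q * (q ^ 2 - 1) := by
              rw [Nat.card_congr f.toEquiv, Cfsg.Agent.Lib.Helper59.card_pgl2, hj]
            rw [← hG] at h1
            have : Nat.card (Matrix.ProjectiveSpecialLinearGroup (Fin 2) F) ≤
                Nat.card (Matrix.ProjectiveSpecialLinearGroup (Fin 2) F) * d :=
              Nat.le_mul_of_pos_right _ (by omega)
            omega
        · rw [hj1, pow_one] at hj
          rcases hr23 with rfl | rfl
          · have hcH : Nat.card H = 6 := by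
              rcases hiso with hf | hf
              · obtain ⟨f⟩ := hf
                have h1 := card_psl2_mul_gcd (F := K)
                rw [hj, ← Nat.card_congr f.toEquiv] at h1
                have h2 : Nat.card H * 1 = 6 := by simpa using h1
                omega
              · obtain ⟨f⟩ := hf
                rw [Nat.card_congr f.toEquiv, Cfsg.Agent.Lib.Helper59.card_pgl2, hj]
                norm_num
            exact Cfsg.Agent.S0144.result 2 3 1 1 Nat.prime_two Nat.prime_three (by rw [hcH]; norm_num)
          · rcases hiso with hf | hf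
            · obtain ⟨f⟩ := hf
              have h1 := card_psl2_mul_gcd (F := K)
              rw [hj, ← Nat.card_congr f.toEquiv] at h1
              have h2 : Nat.card H * 2 = 24 := by simpa using h1
              exact Cfsg.Agent.S0144.result 2 3 2 1 Nat.prime_two Nat.prime_three (by
                have : Nat.card H = 12 := by omega
                rw [this]
                norm_num)
            · obtain ⟨f⟩ := hf
              exact Cfsg.Agent.S0144.result 2 3 3 1 Nat.prime_two Nat.prime_three (by
                rw [Nat.card_congr f.toEquiv, Cfsg.Agent.Lib.Helper59.card_pgl2, hj]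
                norm_num)

end Cfsg.Agent.S0810
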