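import Cfsg.Statements.S0814
import Cfsg.Agent.Lib.Helper43.AutSp4.Count
-- import your own Cfsg.Agent.* helpers here

set_option autoImplicit false
open Cfsg

namespace Cfsg.Agent.S0814

/-- |Aut(PSp_2m(q))| = gcd(2, q−1) · f · |PSp_2m(q)| for q = p^f, m ≥ 2, (m, q) ≠ (2, 2), with an extra factor 2 exactly when m = 2 and p = 2. -/
theorem result {F : Type*} [Field F] [Fintype F] (p f : ℕ) [Fact p.Prime] (hf : 1 ≤ f) (hF : Fintype.card F = p ^ f) (m : ℕ) (hm : 2 ≤ m) (h22 : m = 2 → 3 ≤ p ^ f) : Nat.card (MulAut (Cfsg.PSp m F)) = (if m = 2 ∧ p = 2 then 2 else 1) * Nat.gcd 2 (p ^ f - 1) * f * Nat.card (Cfsg.PSp m F) := by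
  classical
  haveI : NeZero m := ⟨by omega⟩
  haveI : CharP F p := charP_of_card_eq_prime_pow hF
  have hp : p.Prime := Fact.out
  have hcs := Cfsg.Agent.Lib.Helper43.AutSp4.card_sp_eq (F := F) (m := m) (by omega)
  rw [hF] at hcs
  by_cases hc : m = 2 ∧ p = 2
  · obtain ⟨rfl, rfl⟩ := hc
    rw [if_pos ⟨rfl, rfl⟩]
    have h2 : (2 : F) = 0 := by
      have := CharP.cast_eq_zero F 2
      exact_mod_cast this
    rw [Cfsg.Agent.Lib.Helper43.AutSp4.card_aut_sp4_two h2 hF, hcs]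
    ring
  · rw [if_neg hc, one_mul]
    have H : Cfsg.Agent.Lib.Helper43.AutPSp.RootPerm m F := by
      apply Cfsg.Agent.Lib.Helper43.AutPSp.root_perm hm
      intro h2
      have hp2 : p = 2 := by
        have h3 : ((2 : ℕ) : F) = 0 := by exact_mod_cast h2
        have h4 := (CharP.cast_eq_zero_iff F p 2).mp h3
        exact (Nat.prime_dvd_prime_iff_eq hp Nat.prime_two).mp h4
      by_contra hlt
      exact hc ⟨by omega, hp2⟩
    rw [Cfsg.Agent.Lib.Helper43.AutSp4.card_aut_of_rootPerm hF hm H, hcs]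
    ring

end Cfsg.Agent.S0814
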