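import Cfsg.Statements.S0818
import Mathlib
import Cfsg.Agent.Lib.Helper14.AutOQ

set_option autoImplicit false
open Cfsg

namespace Cfsg.Agent.S0818

open Cfsg.Agent.Lib.Helper14 Module

/-- |Aut(PΩ⁻_2m(q))| for q = p^f, m ≥ 4 (form quadFormMinus (m−1) with anisotropic binary part): |PΩ⁻_2m(q)| times f, times 2 if p = 2, and times 4 or 8 if p is odd according as m(q−1)/2 is even or odd. -/
theorem result {F : Type*} [Field F] [Fintype F] (p f : ℕ) [Fact p.Prime] (hf : 1 ≤ f) (hF : Fintype.card F = p ^ f) (m : ℕ) (hm : 4 ≤ m) (a b : F) (hab : ∀ z₁ z₂ : F, z₁ ^ 2 + a * z₁ * z₂ + b * z₂ ^ 2 = 0 → z₁ = 0 ∧ z₂ = 0) : Nat.card (MulAut (Cfsg.POmega F (Cfsg.quadFormMinus (m - 1) F a b))) = (if p = 2 then 2 else (if Even (m * (p ^ f - 1) / 2) then 4 else 8)) * f * Nat.card (Cfsg.POmega F (Cfsg.quadFormMinus (m - 1) F a b)) := by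
  have h := card_aut_minus p f hF (m - 1) (by omega) a b hab
  rw [h]
  by_cases hp : p = 2
  · rw [if_pos hp, if_pos hp]
  · rw [if_neg hp, if_neg hp]
    have hodd : p ^ f % 2 = 1 :=
      Nat.odd_iff.mp (Odd.pow ((Fact.out : p.Prime).odd_of_ne_two hp))
    have hiff : (Even (m - 1) ∧ p ^ f % 4 = 3) ↔ ¬ Even (m * (p ^ f - 1) / 2) := by
      obtain ⟨q, hq⟩ : ∃ q, q = p ^ f := ⟨_, rfl⟩
      rw [← hq] at hodd ⊢
      have hd : 2 ∣ q - 1 := by omega
      rw [Nat.mul_div_assoc m hd, Nat.even_mul, Nat.even_iff, Nat.even_iff, Nat.even_iff]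
      constructor
      · rintro ⟨h1, h2⟩ h3
        omega
      · intro h3
        constructor <;> omega
    by_cases hc : Even (m - 1) ∧ p ^ f % 4 = 3
    · rw [if_pos hc, if_neg (hiff.mp hc)]
    · rw [if_neg hc, if_pos (by by_contra h; exact hc (hiff.mpr h))]

end Cfsg.Agent.S0818
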