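import Cfsg.Statements.S2579
import Cfsg.Agent.Lib.Helper43.Transvec
-- import your own Cfsg.Agent.* helpers here

set_option autoImplicit false
open Cfsg

namespace Cfsg.Agent.S2579

/-- In SL_n(F) with n ≥ 3, over a finite field F, any two transvections (matrices t with t − 1 of rank one and square zero) are conjugate by an element of SL_n(F). -/
theorem result {F : Type*} [Field F] [Finite F] {n : ℕ} (hn : 3 ≤ n) (s t : Matrix.SpecialLinearGroup (Fin n) F) (hs : Cfsg.IsTransvection (s : Matrix (Fin n) (Fin n) F)) (ht : Cfsg.IsTransvection (t : Matrix (Fin n) (Fin n) F)) : IsConj s t := by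
  classical
  obtain ⟨a, φ, hsM, ha, hφ, hφa⟩ :=
    Cfsg.Agent.Lib.Helper43.exists_vecMulVec_of_rank_one _ hs.1 hs.2
  obtain ⟨b, ψ, htM, hb, hψ, hψb⟩ :=
    Cfsg.Agent.Lib.Helper43.exists_vecMulVec_of_rank_one _ ht.1 ht.2
  obtain ⟨g, hga, hgψ⟩ := Cfsg.Agent.Lib.Helper43.exists_sl_map hn a b φ ψ ha hb hφ hψ hφa hψb
  rw [isConj_iff]
  refine ⟨g, ?_⟩
  rw [mul_inv_eq_iff_eq_mul]
  apply Subtype.ext
  show (g : Matrix (Fin n) (Fin n) F) * (s : Matrix (Fin n) (Fin n) F)
    = (t : Matrix (Fin n) (Fin n) F) * (g : Matrix (Fin n) (Fin n) F)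
  have hs' : (s : Matrix (Fin n) (Fin n) F) = 1 + Matrix.vecMulVec a φ := by
    rw [← hsM]; abel
  have ht' : (t : Matrix (Fin n) (Fin n) F) = 1 + Matrix.vecMulVec b ψ := by
    rw [← htM]; abel
  rw [hs', ht', mul_add, add_mul, mul_one, one_mul, Matrix.mul_vecMulVec, Matrix.vecMulVec_mul,
    hga, hgψ]

end Cfsg.Agent.S2579
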