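import Cfsg.Statements.S0820
import Cfsg.Agent.S2579
import Cfsg.Agent.Lib.Helper43.Transvec2
-- import your own Cfsg.Agent.* helpers here

set_option autoImplicit false
open Cfsg

namespace Cfsg.Agent.S0820

/-- An element of order two of `PSL_3(4)` lifts to a transvection. -/
theorem lift_transvection {F : Type*} [Field F] [Fintype F] (hF : Fintype.card F = 4)
    (x : Matrix.ProjectiveSpecialLinearGroup (Fin 3) F) (hx : orderOf x = 2) :
    ∃ g : Matrix.SpecialLinearGroup (Fin 3) F,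
      (QuotientGroup.mk g : Matrix.ProjectiveSpecialLinearGroup (Fin 3) F) = x ∧
      Cfsg.IsTransvection (g : Matrix (Fin 3) (Fin 3) F) := by
  classical
  have h2 : (2 : F) = 0 := by
    have h4 : ((4 : ℕ) : F) = 0 := by rw [← hF]; exact Nat.cast_card_eq_zero F
    have h22 : (2 : F) * 2 = 0 := by
      rw [← h4]; norm_num
    exact mul_self_eq_zero.mp h22
  obtain ⟨g₀, rfl⟩ := QuotientGroup.mk_surjective x
  have hx2 : (QuotientGroup.mk g₀ : Matrix.ProjectiveSpecialLinearGroup (Fin 3) F) ^ 2 = 1 := by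
    rw [← hx]; exact pow_orderOf_eq_one _
  have hx1 : (QuotientGroup.mk g₀ : Matrix.ProjectiveSpecialLinearGroup (Fin 3) F) ≠ 1 := by
    intro h
    rw [h, orderOf_one] at hx
    norm_num at hx
  have hmem : g₀ ^ 2 ∈ Subgroup.center (Matrix.SpecialLinearGroup (Fin 3) F) := by
    rw [← QuotientGroup.eq_one_iff]
    exact hx2
  obtain ⟨r, hr, hrs⟩ := Matrix.SpecialLinearGroup.mem_center_iff.mp hmem
  have hr3 : r ^ 3 = 1 := by simpa using hr
  let z : Matrix.SpecialLinearGroup (Fin 3) F :=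
    ⟨Matrix.scalar (Fin 3) r, by simpa using hr3⟩
  have hzc : (z : Matrix (Fin 3) (Fin 3) F) = Matrix.scalar (Fin 3) r := rfl
  have hz : z ∈ Subgroup.center (Matrix.SpecialLinearGroup (Fin 3) F) :=
    Matrix.SpecialLinearGroup.mem_center_iff.mpr ⟨r, hr, rfl⟩
  have hmk : (QuotientGroup.mk (z * g₀) : Matrix.ProjectiveSpecialLinearGroup (Fin 3) F)
      = QuotientGroup.mk g₀ := by
    rw [QuotientGroup.mk_mul, (QuotientGroup.eq_one_iff z).mpr hz, one_mul]
  refine ⟨z * g₀, hmk, ?_⟩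
  have hg₀sq : (g₀ : Matrix (Fin 3) (Fin 3) F) * (g₀ : Matrix (Fin 3) (Fin 3) F)
      = Matrix.scalar (Fin 3) r := by
    rw [hrs, pow_two, Matrix.SpecialLinearGroup.coe_mul]
  have hcomm : (g₀ : Matrix (Fin 3) (Fin 3) F) * Matrix.scalar (Fin 3) r
      = Matrix.scalar (Fin 3) r * (g₀ : Matrix (Fin 3) (Fin 3) F) :=
    ((Matrix.scalar_commute (n := Fin 3) r (Commute.all r) _).eq).symm
  have hsq : ((z * g₀ : Matrix.SpecialLinearGroup (Fin 3) F) : Matrix (Fin 3) (Fin 3) F)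
      * ((z * g₀ : Matrix.SpecialLinearGroup (Fin 3) F) : Matrix (Fin 3) (Fin 3) F) = 1 := by
    rw [Matrix.SpecialLinearGroup.coe_mul, hzc]
    have h1 : Matrix.scalar (Fin 3) r * (g₀ : Matrix (Fin 3) (Fin 3) F)
        * (Matrix.scalar (Fin 3) r * (g₀ : Matrix (Fin 3) (Fin 3) F))
        = Matrix.scalar (Fin 3) r * (Matrix.scalar (Fin 3) r
          * ((g₀ : Matrix (Fin 3) (Fin 3) F) * (g₀ : Matrix (Fin 3) (Fin 3) F))) := by
      rw [mul_assoc, ← mul_assoc (g₀ : Matrix (Fin 3) (Fin 3) F), hcomm, mul_assoc]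
    rw [h1, hg₀sq, ← map_mul, ← map_mul, ← pow_two, ← pow_succ', hr3, map_one]
  have hne : ((z * g₀ : Matrix.SpecialLinearGroup (Fin 3) F) : Matrix (Fin 3) (Fin 3) F) ≠ 1 := by
    intro h
    apply hx1
    have h1 : z * g₀ = 1 := Subtype.ext h
    rw [← hmk, h1]
    rfl
  generalize ((z * g₀ : Matrix.SpecialLinearGroup (Fin 3) F) : Matrix (Fin 3) (Fin 3) F) = G
    at hsq hne ⊢
  have hchar : ∀ M : Matrix (Fin 3) (Fin 3) F, M + M = 0 := fun M => by
    rw [← two_smul F M, h2, zero_smul]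
  have hM2 : (G - 1) * (G - 1) = 0 := by
    have h1 : (G - 1) * (G - 1) = G * G + 1 - (G + G) := by
      rw [sub_mul, mul_sub, mul_one, one_mul]
      abel
    rw [h1, hsq, hchar, hchar, sub_zero]
  have hM0 : G - 1 ≠ 0 := sub_ne_zero.mpr hne
  refine ⟨?_, hM2⟩
  have hle := Matrix.rank_add_rank_le_card_of_mul_eq_zero hM2
  have hpos : (G - 1).rank ≠ 0 :=
    fun h => hM0 (Cfsg.Agent.Lib.Helper43.eq_zero_of_rank_eq_zero _ h)
  rw [Fintype.card_fin] at hle
  omega

/-- Any two elements of order 2 of PSL_3(4) are conjugate. -/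
theorem result {F : Type*} [Field F] [Fintype F] (hF : Fintype.card F = 4) (x y : Matrix.ProjectiveSpecialLinearGroup (Fin 3) F) (hx : orderOf x = 2) (hy : orderOf y = 2) : IsConj x y := by
  classical
  obtain ⟨g, hgx, hg⟩ := lift_transvection hF x hx
  obtain ⟨h, hhy, hh⟩ := lift_transvection hF y hy
  have hc := Cfsg.Agent.S2579.result (le_refl 3) g h hg hh
  rw [← hgx, ← hhy]
  exact (QuotientGroup.mk' (Subgroup.center (Matrix.SpecialLinearGroup (Fin 3) F))).map_isConj hc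

end Cfsg.Agent.S0820
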