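import Mathlib
import Cfsg.Statements.S0826
import Cfsg.Agent.S0752

set_option autoImplicit false
open Cfsg

namespace Cfsg.Agent.S0826

open Matrix

variable (m : ℕ)

/-- the point set: `2m` points of `K` and two more -/
abbrev Om := (Fin m ⊕ Fin m) ⊕ Fin 2

def ones : Om m → ZMod 2 := fun _ => 1

/-- coordinates of the heart of the permutation module -/
def Em : Matrix (Fin m ⊕ Fin m) (Om m) (ZMod 2) :=
  Matrix.of fun k => Sum.elim (fun k' => if k = k' then (1 : ZMod 2) else 0) ![0, 1]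

/-- a basis of the heart -/
def Fm : Matrix (Om m) (Fin m ⊕ Fin m) (ZMod 2) :=
  Matrix.of fun ω k => Sum.elim (fun k' => if k' = k then (1 : ZMod 2) else 0) ![1, 0] ω

def cv : Om m → ZMod 2 := Sum.elim 0 ![0, 1]
def dv : Om m → ZMod 2 := Sum.elim 0 ![1, 0]

theorem two_eq : (1 : ZMod 2) + 1 = 0 := by decide

theorem card_eq : ((m : ZMod 2) + m) = 0 := by
  have h : (2 : ZMod 2) = 0 := by decide
  linear_combination (m : ZMod 2) * h

theorem Em_ones : Em m *ᵥ ones m = 0 := by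
  ext k
  simp [Em, ones, Matrix.mulVec, dotProduct, two_eq]

theorem ones_Fm : ones m ᵥ* Fm m = 0 := by
  ext k
  simp [Fm, ones, Matrix.vecMul, dotProduct, two_eq]

theorem Fm_Em : Fm m * Em m = 1 + vecMulVec (ones m) (cv m) + vecMulVec (dv m) (ones m) := by
  ext ω ω'
  rcases ω with k | i <;> rcases ω' with k' | j
  · simp [Fm, Em, Matrix.mul_apply, vecMulVec_apply, ones, cv, dv, Matrix.one_apply]
  · fin_cases j <;> simp [Fm, Em, Matrix.mul_apply, vecMulVec_apply, ones, cv, dv]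
  · fin_cases i <;> simp [Fm, Em, Matrix.mul_apply, vecMulVec_apply, ones, cv, dv]
  · fin_cases i <;> fin_cases j <;>
      simp [Fm, Em, Matrix.mul_apply, vecMulVec_apply, ones, cv, dv, two_eq, card_eq]

theorem Em_Fm : Em m * Fm m = 1 := by
  ext k k'
  simp [Fm, Em, Matrix.mul_apply, Matrix.one_apply]

/-- the permutation matrix of σ -/
def Pm (σ : Equiv.Perm (Om m)) : Matrix (Om m) (Om m) (ZMod 2) := Matrix.permMatrixHom σ

theorem Pm_mul (σ τ : Equiv.Perm (Om m)) : Pm m (σ * τ) = Pm m σ * Pm m τ := map_mul _ _ _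

theorem Pm_one : Pm m 1 = 1 := map_one _

theorem Pm_ones (σ : Equiv.Perm (Om m)) : Pm m σ *ᵥ ones m = ones m := by
  unfold Pm; rw [Matrix.permMatrixHom_apply, permMatrix_mulVec]; rfl

theorem ones_Pm (σ : Equiv.Perm (Om m)) : ones m ᵥ* Pm m σ = ones m := by
  unfold Pm; rw [Matrix.permMatrixHom_apply, vecMul_permMatrix]; rfl

theorem Pm_tr_mul (σ : Equiv.Perm (Om m)) : (Pm m σ)ᵀ * Pm m σ = 1 := by
  unfold Pm
  rw [Matrix.permMatrixHom_apply, transpose_permMatrix, ← permMatrix_mul, inv_inv,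
    inv_mul_cancel, permMatrix_one]

theorem sandwich {α β : Type*} (X : Matrix α (Om m) (ZMod 2)) (Y : Matrix (Om m) β (ZMod 2))
    (hX : X *ᵥ ones m = 0) (hY : ones m ᵥ* Y = 0) (c d : Om m → ZMod 2) :
    X * (1 + vecMulVec (ones m) c + vecMulVec d (ones m)) * Y = X * Y := by
  rw [Matrix.mul_add, Matrix.mul_add, Matrix.add_mul, Matrix.add_mul, Matrix.mul_one,
    Matrix.mul_vecMulVec, hX, zero_vecMulVec, Matrix.zero_mul, add_zero,
    Matrix.mul_assoc, Matrix.vecMulVec_mul, hY]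
  have h0 : vecMulVec d (0 : β → ZMod 2) = 0 := by
    ext i j; simp [vecMulVec_apply]
  rw [h0, Matrix.mul_zero, add_zero]

/-- the matrix of σ on the heart -/
def Mm (σ : Equiv.Perm (Om m)) : Matrix (Fin m ⊕ Fin m) (Fin m ⊕ Fin m) (ZMod 2) :=
  Em m * Pm m σ * Fm m

theorem Mm_mul (σ τ : Equiv.Perm (Om m)) : Mm m (σ * τ) = Mm m σ * Mm m τ := by
  unfold Mm
  have h := sandwich m (Em m * Pm m σ) (Pm m τ * Fm m)
    (by rw [← mulVec_mulVec, Pm_ones, Em_ones])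
    (by rw [← vecMul_vecMul, ones_Pm, ones_Fm]) (cv m) (dv m)
  rw [← Fm_Em] at h
  rw [Pm_mul]
  simp only [Matrix.mul_assoc] at h ⊢
  exact h.symm

theorem Mm_one : Mm m 1 = 1 := by
  unfold Mm
  rw [Pm_one, Matrix.mul_one, Em_Fm]

/-- the Gram matrix of the invariant form -/
def Gm : Matrix (Fin m ⊕ Fin m) (Fin m ⊕ Fin m) (ZMod 2) := (Fm m)ᵀ * Fm m

theorem two_zero : (2 : ZMod 2) = 0 := by decide

theorem ones_dot_ones : ones m ⬝ᵥ ones m = 0 := by
  simp [ones, dotProduct, card_eq, two_zero]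

theorem dv_dot_ones : dv m ⬝ᵥ ones m = 1 := by
  simp [ones, dv, dotProduct]

theorem ones_dot_dv : ones m ⬝ᵥ dv m = 1 := by
  simp [ones, dv, dotProduct]

theorem cv_dot_ones : cv m ⬝ᵥ ones m = 1 := by
  simp [ones, cv, dotProduct]

theorem ones_dot_cv : ones m ⬝ᵥ cv m = 1 := by
  simp [ones, cv, dotProduct]

theorem dv_dot_dv : dv m ⬝ᵥ dv m = 1 := by
  simp [dv, dotProduct]

theorem Em_G_Em : (Em m)ᵀ * Gm m * Em m
    = 1 + vecMulVec (ones m) (dv m + ones m) + vecMulVec (dv m) (ones m) := by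
  have h : (Em m)ᵀ * Gm m * Em m = (Fm m * Em m)ᵀ * (Fm m * Em m) := by
    unfold Gm
    rw [Matrix.transpose_mul]
    simp only [Matrix.mul_assoc]
  rw [h, Fm_Em]
  simp only [Matrix.transpose_add, Matrix.transpose_one, transpose_vecMulVec, Matrix.mul_add,
    Matrix.add_mul, Matrix.mul_one, Matrix.one_mul, vecMulVec_mul_vecMulVec, ones_dot_ones,
    dv_dot_ones, ones_dot_dv, dv_dot_dv, one_smul, zero_smul]
  ext i j
  simp only [Matrix.add_apply, vecMulVec_apply, Pi.add_apply, Pi.zero_apply]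
  have h2 := two_eq
  linear_combination (ones m i * cv m j + cv m i * ones m j) * h2

theorem Mm_Gm (σ : Equiv.Perm (Om m)) : (Mm m σ)ᵀ * Gm m * Mm m σ = Gm m := by
  unfold Mm
  have h := sandwich m ((Fm m)ᵀ * (Pm m σ)ᵀ) (Pm m σ * Fm m)
    (by rw [← mulVec_mulVec, mulVec_transpose (Pm m σ), ones_Pm, mulVec_transpose, ones_Fm])
    (by rw [← vecMul_vecMul, ones_Pm, ones_Fm]) (dv m + ones m) (dv m)
  rw [← Em_G_Em] at h
  rw [Matrix.transpose_mul, Matrix.transpose_mul]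
  have h2 : (Fm m)ᵀ * (Pm m σ)ᵀ * (Pm m σ * Fm m) = Gm m := by
    rw [Matrix.mul_assoc, ← Matrix.mul_assoc (Pm m σ)ᵀ, Pm_tr_mul, Matrix.one_mul]
    rfl
  rw [h2] at h
  simp only [Matrix.mul_assoc] at h ⊢
  exact h

theorem sq_eq : ∀ a : ZMod 2, a * a = 1 * a := by decide

theorem Gm_isAlt : (Matrix.toBilin' (Gm m)).IsAlt := by
  intro v
  rw [Matrix.toBilin'_apply']
  unfold Gm
  rw [← mulVec_mulVec, Matrix.dotProduct_mulVec, Matrix.vecMul_transpose]
  have h1 : Fm m *ᵥ v ⬝ᵥ Fm m *ᵥ v = ones m ⬝ᵥ Fm m *ᵥ v := by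
    unfold dotProduct
    apply Finset.sum_congr rfl
    intro i _
    rw [sq_eq]
    rfl
  rw [h1, Matrix.dotProduct_mulVec, ones_Fm, zero_dotProduct]

theorem Gm_eq : Gm m = 1 + vecMulVec (fun _ => 1) (fun _ => 1) := by
  ext k k'
  simp [Gm, Fm, Matrix.mul_apply, vecMulVec_apply, Matrix.one_apply]
  exact if_congr eq_comm rfl rfl

theorem Gm_mul_Gm : Gm m * Gm m = 1 := by
  rw [Gm_eq]
  simp only [Matrix.mul_add, Matrix.add_mul, Matrix.mul_one, Matrix.one_mul,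
    vecMulVec_mul_vecMulVec]
  have h : ((fun _ => 1 : Fin m ⊕ Fin m → ZMod 2) ⬝ᵥ fun _ => 1) = 0 := by
    simp [dotProduct, card_eq]
  rw [h, zero_smul]
  ext i j
  simp only [Matrix.add_apply, vecMulVec_apply, Pi.zero_apply, mul_zero, add_zero, mul_one]
  have h2 := two_eq
  linear_combination h2

theorem Gm_nondeg (u : Fin m ⊕ Fin m → ZMod 2)
    (h : ∀ v, Matrix.toBilin' (Gm m) u v = 0) : u = 0 := by
  have h1 : u ᵥ* Gm m = 0 := by
    ext j
    have := h (Pi.single j 1)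
    rw [Matrix.toBilin'_apply', Matrix.dotProduct_mulVec, dotProduct_single_one] at this
    exact this
  have h2 : u ᵥ* (Gm m * Gm m) = 0 := by
    rw [← vecMul_vecMul, h1, zero_vecMul]
  rwa [Gm_mul_Gm, vecMul_one] at h2

theorem exists_P : ∃ P : Matrix (Fin m ⊕ Fin m) (Fin m ⊕ Fin m) (ZMod 2),
    IsUnit P.det ∧ Pᵀ * Gm m * P = J (Fin m) (ZMod 2) := by
  obtain ⟨m', k, b, h1, h2, h3, h4⟩ :=
    Cfsg.Agent.S0752.result (Matrix.toBilin' (Gm m)) (Gm_isAlt m)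
  have hk : k = 0 := by
    by_contra hk
    have hj : 0 < k := Nat.pos_of_ne_zero hk
    exact b.ne_zero (Sum.inr ⟨0, hj⟩) (Gm_nondeg m _ (h4 ⟨0, hj⟩))
  subst hk
  have hm : m' = m := by
    have h5 := Module.finrank_eq_card_basis b
    rw [Module.finrank_fintype_fun_eq_card] at h5
    simp at h5
    omega
  subst hm
  have key : ∀ j j', ((Matrix.of fun i j => b (Sum.inl j) i)ᵀ * Gm m' *
      (Matrix.of fun i j => b (Sum.inl j) i)) j j'
      = Matrix.toBilin' (Gm m') (b (Sum.inl j)) (b (Sum.inl j')) := by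
    intro j j'
    rw [Matrix.toBilin'_apply']
    simp only [Matrix.mul_apply, dotProduct, Matrix.mulVec, Finset.sum_mul, Finset.mul_sum,
      mul_assoc, Matrix.transpose_apply, Matrix.of_apply]
    exact Finset.sum_comm
  have hJ : (Matrix.of fun i j => b (Sum.inl j) i)ᵀ * Gm m' *
      (Matrix.of fun i j => b (Sum.inl j) i) = J (Fin m') (ZMod 2) := by
    ext j j'
    rw [key]
    have hneg : ∀ a : ZMod 2, -a = a := by decide
    rcases j with a | a <;> rcases j' with a' | a'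
    · rw [h2]; simp [J]
    · rw [h1]; simp [J, Matrix.one_apply, hneg]
    · rw [← LinearMap.BilinForm.IsAlt.neg_eq (Gm_isAlt m'), h1, hneg]; simp [J, Matrix.one_apply, eq_comm]
    · rw [h3]; simp [J]
  refine ⟨_, ?_, hJ⟩
  have hdet : IsUnit ((Matrix.of fun i j => b (Sum.inl j) i)ᵀ * Gm m' *
      (Matrix.of fun i j => b (Sum.inl j) i)).det := by
    rw [hJ]; exact isUnit_det_J _ _
  rw [Matrix.det_mul] at hdet
  exact isUnit_of_mul_isUnit_right hdet

theorem Mm_apply (σ : Equiv.Perm (Om m)) (k k' : Fin m ⊕ Fin m) :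
    Mm m σ k k' = Fm m (σ⁻¹ (Sum.inl k)) k' + Fm m (σ⁻¹ (Sum.inr 1)) k' := by
  unfold Mm Pm
  rw [Matrix.mul_assoc, Matrix.permMatrixHom_apply, PEquiv.toMatrix_toPEquiv_mul]
  simp [Matrix.mul_apply, Em]

theorem exists_hom (hm : 2 ≤ m) :
    ∃ f : Equiv.Perm (Om m) →* Matrix.symplecticGroup (Fin m) (ZMod 2),
      Function.Injective f := by
  obtain ⟨P, hP, hJ⟩ := exists_P m
  have hPi : P⁻¹ * P = 1 := Matrix.nonsing_inv_mul P hP
  have hPi' : P * P⁻¹ = 1 := Matrix.mul_nonsing_inv P hP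
  have hG : Gm m = (P⁻¹)ᵀ * J (Fin m) (ZMod 2) * P⁻¹ := by
    rw [← hJ]
    have h1 : (P⁻¹)ᵀ * Pᵀ = 1 := by rw [← Matrix.transpose_mul, hPi', Matrix.transpose_one]
    calc Gm m = 1 * Gm m * 1 := by rw [Matrix.one_mul, Matrix.mul_one]
      _ = ((P⁻¹)ᵀ * Pᵀ) * Gm m * (P * P⁻¹) := by rw [h1, hPi']
      _ = (P⁻¹)ᵀ * (Pᵀ * Gm m * P) * P⁻¹ := by simp only [Matrix.mul_assoc]
  have hmem : ∀ σ, P⁻¹ * Mm m σ * P ∈ Matrix.symplecticGroup (Fin m) (ZMod 2) := by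
    intro σ
    rw [SymplecticGroup.mem_iff']
    calc (P⁻¹ * Mm m σ * P)ᵀ * J (Fin m) (ZMod 2) * (P⁻¹ * Mm m σ * P)
        = Pᵀ * ((Mm m σ)ᵀ * ((P⁻¹)ᵀ * J (Fin m) (ZMod 2) * P⁻¹) * Mm m σ) * P := by
          simp only [Matrix.transpose_mul, Matrix.mul_assoc]
      _ = Pᵀ * Gm m * P := by rw [← hG, Mm_Gm]
      _ = J (Fin m) (ZMod 2) := hJ
  have hmul : ∀ σ τ, P⁻¹ * Mm m (σ * τ) * P = (P⁻¹ * Mm m σ * P) * (P⁻¹ * Mm m τ * P) := by
    intro σ τ
    calc P⁻¹ * Mm m (σ * τ) * P = P⁻¹ * (Mm m σ * 1 * Mm m τ) * P := by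
          rw [Mm_mul, Matrix.mul_one]
      _ = (P⁻¹ * Mm m σ * P) * (P⁻¹ * Mm m τ * P) := by
          rw [← hPi']; simp only [Matrix.mul_assoc]
  let f : Equiv.Perm (Om m) →* Matrix.symplecticGroup (Fin m) (ZMod 2) :=
    MonoidHom.mk' (fun σ => ⟨P⁻¹ * Mm m σ * P, hmem σ⟩) (fun σ τ => Subtype.ext (hmul σ τ))
  refine ⟨f, ?_⟩
  rw [← MonoidHom.ker_eq_bot_iff]
  by_contra h
  have hnt : Nontrivial f.ker := (Subgroup.nontrivial_iff_ne_bot _).2 h
  have hle := Equiv.Perm.alternatingGroup_le_of_normal (α := Om m)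
    (by rw [Nat.card_eq_fintype_card]; simp; omega) hnt
  have h0 : 0 < m := by omega
  have h1' : 1 < m := by omega
  have h1 : (Equiv.swap (Sum.inl (Sum.inl ⟨0, h0⟩) : Om m) (Sum.inl (Sum.inl ⟨1, h1'⟩)) *
      Equiv.swap (Sum.inl (Sum.inr ⟨0, h0⟩) : Om m) (Sum.inl (Sum.inr ⟨1, h1'⟩)))
      ∈ alternatingGroup (Om m) := by
    rw [Equiv.Perm.mem_alternatingGroup, map_mul, Equiv.Perm.sign_swap (by simp),
      Equiv.Perm.sign_swap (by simp)]
    rfl
  have h2 := hle h1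
  rw [MonoidHom.mem_ker] at h2
  have h3 : P⁻¹ * Mm m (Equiv.swap (Sum.inl (Sum.inl ⟨0, h0⟩) : Om m) (Sum.inl (Sum.inl ⟨1, h1'⟩)) *
      Equiv.swap (Sum.inl (Sum.inr ⟨0, h0⟩) : Om m) (Sum.inl (Sum.inr ⟨1, h1'⟩))) * P = 1 :=
    congrArg Subtype.val h2
  have h4 : Mm m (Equiv.swap (Sum.inl (Sum.inl ⟨0, h0⟩) : Om m) (Sum.inl (Sum.inl ⟨1, h1'⟩)) *
      Equiv.swap (Sum.inl (Sum.inr ⟨0, h0⟩) : Om m) (Sum.inl (Sum.inr ⟨1, h1'⟩))) = 1 := by
    have := congrArg (fun X => P * X * P⁻¹) h3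
    simp only [Matrix.mul_one] at this
    rw [hPi'] at this
    rw [← this]
    calc _ = (P * P⁻¹) * Mm m _ * (P * P⁻¹) := by rw [hPi', Matrix.one_mul, Matrix.mul_one]
      _ = _ := by simp only [Matrix.mul_assoc]
  have h5 := congrFun (congrFun h4 (Sum.inl ⟨0, h0⟩)) (Sum.inl ⟨0, h0⟩)
  rw [Mm_apply] at h5
  simp [Fm, Equiv.swap_apply_def] at h5

/-- S_2n ≤ Sp_(2n−2)(2) for n ≥ 3: there is an injective homomorphism from the symmetric group on 2n letters into the symplectic group of degree 2n − 2 over the field with two elements. -/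
theorem result (n : ℕ) (hn : 3 ≤ n) : ∃ f : Equiv.Perm (Fin (2 * n)) →* Matrix.symplecticGroup (Fin (n - 1)) (ZMod 2), Function.Injective f := by
  obtain ⟨f, hf⟩ := exists_hom (n - 1) (by omega)
  have e : Fin (2 * n) ≃ Om (n - 1) := Fintype.equivOfCardEq (by simp; omega)
  exact ⟨f.comp e.permCongrHom.toMonoidHom, hf.comp e.permCongrHom.injective⟩

end Cfsg.Agent.S0826
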