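import Mathlib
import Cfsg.Statements.S2563
import Cfsg.Agent.S0826

set_option autoImplicit false
open Cfsg

namespace Cfsg.Agent.S2563

open Matrix

section qq

variable {Ω : Type} [Fintype Ω]

/-- weight of a vector over `ZMod 2` -/
def wt (v : Ω → ZMod 2) : ℕ := ∑ ω, (v ω).val

/-- the form "half the weight, modulo 2" -/
def qq (v : Ω → ZMod 2) : ZMod 2 := ((wt v / 2 : ℕ) : ZMod 2)

theorem val_add : ∀ a b : ZMod 2, (a + b).val + 2 * (a.val * b.val) = a.val + b.val := by decide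

theorem cast_val : ∀ a : ZMod 2, ((a.val : ℕ) : ZMod 2) = a := by decide

theorem two_zero : (2 : ZMod 2) = 0 := by decide

theorem wt_add (u v : Ω → ZMod 2) :
    wt (u + v) + 2 * ∑ ω, (u ω).val * (v ω).val = wt u + wt v := by
  unfold wt
  rw [Finset.mul_sum, ← Finset.sum_add_distrib, ← Finset.sum_add_distrib]
  exact Finset.sum_congr rfl (fun ω _ => val_add _ _)

theorem wt_cast (v : Ω → ZMod 2) : ((wt v : ℕ) : ZMod 2) = ∑ ω, v ω := by
  unfold wt
  push_cast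
  exact Finset.sum_congr rfl (fun ω _ => cast_val _)

theorem wt_even (v : Ω → ZMod 2) (hv : ∑ ω, v ω = 0) : wt v % 2 = 0 := by
  have h := wt_cast v
  rw [hv, ZMod.natCast_eq_zero_iff] at h
  omega

theorem dot_cast (u v : Ω → ZMod 2) :
    ((∑ ω, (u ω).val * (v ω).val : ℕ) : ZMod 2) = u ⬝ᵥ v := by
  unfold dotProduct
  push_cast
  apply Finset.sum_congr rfl
  intro ω _
  rw [cast_val, cast_val]

theorem qq_add (u v : Ω → ZMod 2) (hu : ∑ ω, u ω = 0) (hv : ∑ ω, v ω = 0) :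
    qq (u + v) = qq u + qq v + u ⬝ᵥ v := by
  have h1 := wt_add u v
  have hu' := wt_even u hu
  have hv' := wt_even v hv
  have h2 : wt (u + v) / 2 + ∑ ω, (u ω).val * (v ω).val = wt u / 2 + wt v / 2 := by omega
  unfold qq
  rw [← dot_cast]
  have h3 := congrArg (Nat.cast : ℕ → ZMod 2) h2
  push_cast at h3 ⊢
  linear_combination h3 - (∑ ω, ((u ω).val : ZMod 2) * ((v ω).val : ZMod 2)) * two_zero

theorem wt_comp {Ω' : Type} [Fintype Ω'] (e : Ω' ≃ Ω) (v : Ω → ZMod 2) : wt (v ∘ e) = wt v := by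
  unfold wt
  exact Equiv.sum_comp e (fun ω => (v ω).val)

theorem qq_comp {Ω' : Type} [Fintype Ω'] (e : Ω' ≃ Ω) (v : Ω → ZMod 2) : qq (v ∘ e) = qq v := by
  unfold qq
  rw [wt_comp]

theorem qq_add_smul_ones (h4 : 4 ∣ Fintype.card Ω) (u : Ω → ZMod 2) (hu : ∑ ω, u ω = 0)
    (c : ZMod 2) : qq (u + c • (fun _ => (1 : ZMod 2))) = qq u := by
  have hc : c = 0 ∨ c = 1 := by revert c; decide
  rcases hc with rfl | rfl
  · simp
  · rw [one_smul, qq_add u _ hu]
    · have h1 : qq (fun _ : Ω => (1 : ZMod 2)) = 0 := by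
        unfold qq wt
        simp only [ZMod.val_one, Finset.sum_const, Finset.card_univ, smul_eq_mul, mul_one]
        obtain ⟨d, hd⟩ := h4
        rw [hd, show 4 * d / 2 = 2 * d by omega]
        push_cast
        rw [two_zero, zero_mul]
      have h2 : u ⬝ᵥ (fun _ : Ω => (1 : ZMod 2)) = 0 := by
        simp [dotProduct, hu]
      rw [h1, h2, add_zero, add_zero]
    · simp only [Finset.sum_const, Finset.card_univ, nsmul_eq_mul, mul_one]
      obtain ⟨d, hd⟩ := h4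
      rw [hd]
      push_cast
      have : (4 : ZMod 2) = 0 := by decide
      rw [this, zero_mul]

end qq

/-- `X` is a family of even vectors with Gram matrix `Γ` and `qq`-values `qv`. -/
def IsFrame {Ω I : Type} [Fintype Ω] [Fintype I] [DecidableEq I] (X : Matrix Ω I (ZMod 2))
    (Γ : Matrix I I (ZMod 2)) (qv : I → ZMod 2) : Prop :=
  (∀ a, ∑ ω, X ω a = 0) ∧ Xᵀ * X = Γ ∧ ∀ a, qq (fun ω => X ω a) = qv a

theorem IsFrame.reindex_cols {Ω I I' : Type} [Fintype Ω] [Fintype I] [DecidableEq I]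
    [Fintype I'] [DecidableEq I'] {X : Matrix Ω I (ZMod 2)} {Γ : Matrix I I (ZMod 2)}
    {qv : I → ZMod 2} (h : IsFrame X Γ qv) (e : I' → I) :
    IsFrame (X.submatrix id e) (Γ.submatrix e e) (qv ∘ e) := by
  obtain ⟨h1, h2, h3⟩ := h
  refine ⟨fun a => h1 (e a), ?_, fun a => h3 (e a)⟩
  rw [← h2]
  ext a b
  simp [Matrix.mul_apply]

theorem IsFrame.reindex_rows {Ω Ω' I : Type} [Fintype Ω] [Fintype Ω'] [Fintype I] [DecidableEq I]
    {X : Matrix Ω I (ZMod 2)} {Γ : Matrix I I (ZMod 2)}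
    {qv : I → ZMod 2} (h : IsFrame X Γ qv) (e : Ω' ≃ Ω) :
    IsFrame (X.submatrix e id) Γ qv := by
  obtain ⟨h1, h2, h3⟩ := h
  refine ⟨fun a => ?_, ?_, fun a => ?_⟩
  · rw [← h1 a]
    exact Equiv.sum_comp e (fun ω => X ω a)
  · rw [← h2]
    ext a b
    simp only [Matrix.mul_apply, Matrix.transpose_apply, Matrix.submatrix_apply, id]
    exact Equiv.sum_comp e (fun ω => X ω a * X ω b)
  · rw [← h3 a]
    exact qq_comp e (fun ω => X ω a)

/-- a hyperbolic basis of the form `[wt ≡ 1, 2 mod 4]` on `F_2^8` -/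
def Y8 : Matrix (Fin 8) (Fin 4 ⊕ Fin 4) (ZMod 2) :=
  Matrix.of fun p => Sum.elim
    (![![1,1,0,0], ![1,0,1,1], ![1,0,0,1], ![0,0,0,1], ![0,1,1,0], ![0,1,0,0], ![0,0,0,0],
      ![0,0,1,1]] p)
    (![![1,1,1,0], ![1,0,1,0], ![0,0,0,0], ![1,0,0,0], ![0,1,1,1], ![0,0,0,1], ![0,1,0,1],
      ![0,0,1,1]] p)

def sig8 : Fin 4 ⊕ Fin 4 → ZMod 2 := fun b => ∑ p, Y8 p b

theorem Y8_gram : Y8ᵀ * Y8 + vecMulVec sig8 sig8 = J (Fin 4) (ZMod 2) := by decide

theorem Y8_wt : ∀ b, ((sig8 b).val + wt (fun p => Y8 p b)) % 4 = 0 := by decide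

theorem eight_zero : (8 : ZMod 2) = 0 := by decide

/-- the all-ones vector on a block of 8 points -/
def ones8 : Fin 8 → ZMod 2 := fun _ => 1

theorem add_self_mat {A B : Type} (M : Matrix A B (ZMod 2)) : M + M = 0 := by
  ext i j
  exact CharTwo.add_self_eq_zero _

theorem frame_step {Ω I : Type} [Fintype Ω] [DecidableEq Ω] [Fintype I] [DecidableEq I]
    {X : Matrix Ω I (ZMod 2)} {Γ : Matrix I I (ZMod 2)} {qv : I → ZMod 2}
    (h : IsFrame X Γ qv) (s : Ω) :
    IsFrame (fromBlocks X (vecMulVec (Pi.single s 1) sig8) (vecMulVec ones8 (X s)) Y8)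
      (fromBlocks Γ 0 0 (J (Fin 4) (ZMod 2))) (Sum.elim qv 0) := by
  obtain ⟨h1, h2, h3⟩ := h
  refine ⟨?_, ?_, ?_⟩
  · rintro (a | b)
    · simp only [Fintype.sum_sum_type, fromBlocks_apply₁₁, fromBlocks_apply₂₁, vecMulVec_apply,
        ones8, one_mul, Finset.sum_const, Finset.card_univ, Fintype.card_fin, h1 a, zero_add]
      rw [nsmul_eq_mul]
      push_cast
      rw [eight_zero, zero_mul]
    · simp only [Fintype.sum_sum_type, fromBlocks_apply₁₂, fromBlocks_apply₂₂, vecMulVec_apply]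
      rw [← Finset.sum_mul]
      simp only [Finset.sum_pi_single', Finset.mem_univ, if_true, one_mul]
      unfold sig8
      exact CharTwo.add_self_eq_zero _
  · rw [fromBlocks_transpose, fromBlocks_multiply]
    have e1 : (vecMulVec ones8 (X s))ᵀ * vecMulVec ones8 (X s) = 0 := by
      rw [transpose_vecMulVec, vecMulVec_mul_vecMulVec]
      have : (ones8 ⬝ᵥ ones8) = 0 := by decide
      rw [this, zero_smul]
      ext i j; simp [vecMulVec_apply]
    have e2 : Xᵀ * vecMulVec (Pi.single s 1) sig8 = vecMulVec (X s) sig8 := by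
      rw [mul_vecMulVec]
      congr 1
      ext a
      simp [Matrix.mulVec, dotProduct, Pi.single_apply]
    have e3 : (vecMulVec ones8 (X s))ᵀ * Y8 = vecMulVec (X s) sig8 := by
      rw [transpose_vecMulVec, vecMulVec_mul]
      congr 1
      ext b
      simp [Matrix.vecMul, dotProduct, sig8, ones8]
    have e4 : (vecMulVec (Pi.single s (1 : ZMod 2)) sig8)ᵀ * vecMulVec (Pi.single s 1) sig8
        = vecMulVec sig8 sig8 := by
      rw [transpose_vecMulVec, vecMulVec_mul_vecMulVec]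
      have : (Pi.single s (1 : ZMod 2) ⬝ᵥ Pi.single s 1) = 1 := by simp
      rw [this, one_smul]
    have e5 : (vecMulVec (Pi.single s (1 : ZMod 2)) sig8)ᵀ * X = vecMulVec sig8 (X s) := by
      rw [transpose_vecMulVec, vecMulVec_mul]
      congr 1
      ext a
      simp [Matrix.vecMul, dotProduct, Pi.single_apply]
    have e6 : Y8ᵀ * vecMulVec ones8 (X s) = vecMulVec sig8 (X s) := by
      rw [mul_vecMulVec]
      congr 1
      ext b
      simp [Matrix.mulVec, dotProduct, sig8, ones8]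
    rw [h2, e1, e2, e3, e4, e5, e6, add_zero, add_self_mat, add_self_mat,
      add_comm (vecMulVec sig8 sig8), Y8_gram]
  · rintro (a | b)
    · rw [Sum.elim_inl, ← h3 a]
      unfold qq wt
      simp only [Fintype.sum_sum_type, fromBlocks_apply₁₁, fromBlocks_apply₂₁, vecMulVec_apply,
        ones8, one_mul, Finset.sum_const, Finset.card_univ, Fintype.card_fin, smul_eq_mul]
      rw [show (∑ ω, (X ω a).val + 8 * (X s a).val) / 2 = (∑ ω, (X ω a).val) / 2 + 4 * (X s a).val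
        by omega]
      push_cast
      have : (4 : ZMod 2) = 0 := by decide
      rw [this, zero_mul, add_zero]
    · rw [Sum.elim_inr]
      have hw := Y8_wt b
      unfold qq
      have h5 : wt (fun ω => fromBlocks X (vecMulVec (Pi.single s 1) sig8)
          (vecMulVec ones8 (X s)) Y8 ω (Sum.inr b)) = (sig8 b).val + wt (fun p => Y8 p b) := by
        unfold wt
        simp only [Fintype.sum_sum_type, fromBlocks_apply₁₂, fromBlocks_apply₂₂, vecMulVec_apply]
        congr 1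
        rw [Finset.sum_eq_single s]
        · simp
        · intro ω _ hω
          simp [Pi.single_eq_of_ne hω]
        · intro hs
          exact absurd (Finset.mem_univ s) hs
      rw [h5]
      obtain ⟨d, hd⟩ := Nat.dvd_of_mod_eq_zero hw
      rw [hd, show 4 * d / 2 = 2 * d by omega]
      push_cast
      rw [two_zero, zero_mul]
      rfl

/-- base frame for the plus type: three hyperbolic pairs of 4-subsets of 8 points -/
def X0p : Matrix (Fin 8) (Fin 3 ⊕ Fin 3) (ZMod 2) :=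
  Matrix.of fun p => Sum.elim
    (![![1,1,1], ![1,1,0], ![1,0,1], ![1,0,0], ![0,0,0], ![0,1,0], ![0,1,1], ![0,0,1]] p)
    (![![1,1,1], ![1,1,0], ![1,0,0], ![0,0,1], ![1,0,1], ![0,1,1], ![0,0,0], ![0,1,0]] p)

theorem X0p_frame : IsFrame X0p (J (Fin 3) (ZMod 2)) 0 := by
  refine ⟨?_, ?_, ?_⟩
  · decide
  · decide
  · decide

/-- the Gram matrix of the anisotropic plane -/
def G2 : Matrix (Fin 2) (Fin 2) (ZMod 2) := !![0, 1; 1, 0]

/-- base frame for the minus type: two 2-subsets of 4 points meeting in a point -/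
def X0m : Matrix (Fin 4) ((Fin 0 ⊕ Fin 0) ⊕ Fin 2) (ZMod 2) :=
  Matrix.of fun p => Sum.elim (fun _ => 0) (![![1,1], ![1,0], ![0,1], ![0,0]] p)

theorem X0m_frame : IsFrame X0m (fromBlocks (J (Fin 0) (ZMod 2)) 0 0 G2) (Sum.elim 0 1) := by
  refine ⟨?_, ?_, ?_⟩
  · decide
  · decide
  · decide

/-- existence of hyperbolic frames -/
def FramePlus (N c : ℕ) : Prop :=
  ∃ (Ω : Type) (_ : Fintype Ω) (_ : DecidableEq Ω) (ι : Type) (_ : Fintype ι) (_ : DecidableEq ι)
    (X : Matrix Ω (ι ⊕ ι) (ZMod 2)),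
    Fintype.card Ω = N ∧ Fintype.card ι = c ∧ IsFrame X (J ι (ZMod 2)) 0

def FrameMinus (N c : ℕ) : Prop :=
  ∃ (Ω : Type) (_ : Fintype Ω) (_ : DecidableEq Ω) (ι : Type) (_ : Fintype ι) (_ : DecidableEq ι)
    (X : Matrix Ω ((ι ⊕ ι) ⊕ Fin 2) (ZMod 2)),
    Fintype.card Ω = N ∧ Fintype.card ι = c ∧
      IsFrame X (fromBlocks (J ι (ZMod 2)) 0 0 G2) (Sum.elim 0 1)

theorem J_reindex (ι : Type) [Fintype ι] [DecidableEq ι] :
    (fromBlocks (J ι (ZMod 2)) 0 0 (J (Fin 4) (ZMod 2))).submatrix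
      (Equiv.sumSumSumComm ι (Fin 4) ι (Fin 4)) (Equiv.sumSumSumComm ι (Fin 4) ι (Fin 4))
      = J (ι ⊕ Fin 4) (ZMod 2) := by
  ext a b
  rcases a with (a | a) | (a | a) <;> rcases b with (b | b) | (b | b) <;>
    simp [J, Matrix.one_apply]

theorem framePlus_step {N c : ℕ} (h : FramePlus N c) (hN : 0 < N) : FramePlus (N + 8) (c + 4) := by
  obtain ⟨Ω, _, _, ι, _, _, X, hΩ, hι, hX⟩ := h
  have hne : Nonempty Ω := by
    rw [← Fintype.card_pos_iff, hΩ]; exact hN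
  obtain ⟨s⟩ := hne
  refine ⟨Ω ⊕ Fin 8, inferInstance, inferInstance, ι ⊕ Fin 4, inferInstance, inferInstance,
    (fromBlocks X (vecMulVec (Pi.single s 1) sig8) (vecMulVec ones8 (X s)) Y8).submatrix id
      (Equiv.sumSumSumComm ι (Fin 4) ι (Fin 4)), ?_, ?_, ?_⟩
  · simp [hΩ]
  · simp [hι]
  · have h1 := (frame_step hX s).reindex_cols (Equiv.sumSumSumComm ι (Fin 4) ι (Fin 4))
    rw [J_reindex] at h1
    convert h1 using 1
    ext a
    rcases a with (a | a) | (a | a) <;> rfl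

theorem framePlus (j : ℕ) : FramePlus (8 * j + 8) (4 * j + 3) := by
  induction j with
  | zero => exact ⟨Fin 8, inferInstance, inferInstance, Fin 3, inferInstance, inferInstance, X0p,
      by simp, by simp, X0p_frame⟩
  | succ j ih =>
    have := framePlus_step ih (by omega)
    convert this using 1 <;> ring

/-- reindexing used in the minus-type step -/
def eM (ι : Type) : ((ι ⊕ Fin 4) ⊕ (ι ⊕ Fin 4)) ⊕ Fin 2 → ((ι ⊕ ι) ⊕ Fin 2) ⊕ (Fin 4 ⊕ Fin 4) :=
  Sum.elim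
    (Sum.elim (Sum.elim (fun a => Sum.inl (Sum.inl (Sum.inl a))) (fun b => Sum.inr (Sum.inl b)))
      (Sum.elim (fun a => Sum.inl (Sum.inl (Sum.inr a))) (fun b => Sum.inr (Sum.inr b))))
    (fun z => Sum.inl (Sum.inr z))

theorem JM_reindex (ι : Type) [Fintype ι] [DecidableEq ι] :
    (fromBlocks (fromBlocks (J ι (ZMod 2)) 0 0 G2) 0 0 (J (Fin 4) (ZMod 2))).submatrix
      (eM ι) (eM ι) = fromBlocks (J (ι ⊕ Fin 4) (ZMod 2)) 0 0 G2 := by
  ext a b
  rcases a with ((a | a) | (a | a)) | a <;> rcases b with ((b | b) | (b | b)) | b <;>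
    simp [J, eM, Matrix.one_apply]

theorem frameMinus_step {N c : ℕ} (h : FrameMinus N c) (hN : 0 < N) :
    FrameMinus (N + 8) (c + 4) := by
  obtain ⟨Ω, _, _, ι, _, _, X, hΩ, hι, hX⟩ := h
  have hne : Nonempty Ω := by
    rw [← Fintype.card_pos_iff, hΩ]; exact hN
  obtain ⟨s⟩ := hne
  refine ⟨Ω ⊕ Fin 8, inferInstance, inferInstance, ι ⊕ Fin 4, inferInstance, inferInstance,
    (fromBlocks X (vecMulVec (Pi.single s 1) sig8) (vecMulVec ones8 (X s)) Y8).submatrix id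
      (eM ι), ?_, ?_, ?_⟩
  · simp [hΩ]
  · simp [hι]
  · have h1 := (frame_step hX s).reindex_cols (eM ι)
    rw [JM_reindex] at h1
    convert h1 using 1
    ext a
    rcases a with ((a | a) | (a | a)) | a <;> rfl

theorem frameMinus (j : ℕ) : FrameMinus (8 * j + 4) (4 * j) := by
  induction j with
  | zero => exact ⟨Fin 4, inferInstance, inferInstance, Fin 0, inferInstance, inferInstance, X0m,
      by simp, by simp, X0m_frame⟩
  | succ j ih =>
    have := frameMinus_step ih (by omega)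
    convert this using 1 <;> ring

/-- the value of `qq` on linear combinations of a frame -/
theorem frame_form {Ω I : Type} [Fintype Ω] [Fintype I] [DecidableEq I]
    {X : Matrix Ω I (ZMod 2)} {Γ : Matrix I I (ZMod 2)} {qv : I → ZMod 2}
    (h : IsFrame X Γ qv) (form : (I → ZMod 2) → ZMod 2)
    (hadd : ∀ y y', form (y + y') = form y + form y' + y ⬝ᵥ Γ *ᵥ y')
    (hsingle : ∀ a, form (Pi.single a 1) = qv a) (y : I → ZMod 2) :
    qq (X *ᵥ y) = form y := by
  obtain ⟨h1, h2, h3⟩ := h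
  have heven : ∀ y : I → ZMod 2, ∑ ω, (X *ᵥ y) ω = 0 := by
    intro y
    simp only [Matrix.mulVec, dotProduct]
    rw [Finset.sum_comm]
    apply Finset.sum_eq_zero
    intro a _
    rw [← Finset.sum_mul, h1 a, zero_mul]
  have hdot : ∀ y y' : I → ZMod 2, (X *ᵥ y) ⬝ᵥ (X *ᵥ y') = y ⬝ᵥ Γ *ᵥ y' := by
    intro y y'
    rw [Matrix.dotProduct_mulVec, ← Matrix.vecMul_transpose, Matrix.vecMul_vecMul, h2,
      ← Matrix.dotProduct_mulVec]
  -- the difference is additive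
  have hΦ : ∀ y y' : I → ZMod 2, qq (X *ᵥ (y + y')) + form (y + y')
      = (qq (X *ᵥ y) + form y) + (qq (X *ᵥ y') + form y') := by
    intro y y'
    rw [Matrix.mulVec_add, qq_add _ _ (heven y) (heven y'), hdot, hadd]
    linear_combination (y ⬝ᵥ Γ *ᵥ y') * two_zero
  let Φ : (I → ZMod 2) →+ ZMod 2 := AddMonoidHom.mk' (fun y => qq (X *ᵥ y) + form y) hΦ
  have hΦ1 : ∀ a (c : ZMod 2), Φ (Pi.single a c) = 0 := by
    intro a c
    have hc : c = 0 ∨ c = 1 := by revert c; decide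
    rcases hc with rfl | rfl
    · rw [Pi.single_zero, map_zero]
    · change qq (X *ᵥ Pi.single a 1) + form (Pi.single a 1) = 0
      rw [hsingle, ← h3 a]
      have : X *ᵥ Pi.single a 1 = fun ω => X ω a := by
        ext ω; simp [Matrix.mulVec, dotProduct, Pi.single_apply]
      rw [this]
      exact CharTwo.add_self_eq_zero _
  have hΦ0 : Φ y = 0 := by
    rw [← Finset.univ_sum_single y, map_sum]
    exact Finset.sum_eq_zero (fun a _ => hΦ1 a (y a))
  have : qq (X *ᵥ y) + form y = 0 := hΦ0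
  linear_combination this - form y * two_zero

theorem plus_add (m : ℕ) (y y' : Fin m ⊕ Fin m → ZMod 2) :
    Cfsg.quadFormPlus m (ZMod 2) (y + y') = Cfsg.quadFormPlus m (ZMod 2) y
      + Cfsg.quadFormPlus m (ZMod 2) y' + y ⬝ᵥ J (Fin m) (ZMod 2) *ᵥ y' := by
  have hneg : ∀ a : ZMod 2, -a = a := by decide
  simp only [Cfsg.quadFormPlus, dotProduct, Matrix.mulVec, J, Fintype.sum_sum_type,
    fromBlocks_apply₁₁, fromBlocks_apply₁₂, fromBlocks_apply₂₁, fromBlocks_apply₂₂,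
    Matrix.zero_apply, Matrix.neg_apply, Matrix.one_apply, zero_mul, Finset.sum_const_zero,
    zero_add, add_zero, ite_mul, one_mul, Finset.sum_ite_eq,
    Finset.mem_univ, if_true, Pi.add_apply, hneg]
  rw [← Finset.sum_add_distrib, ← Finset.sum_add_distrib, ← Finset.sum_add_distrib]
  apply Finset.sum_congr rfl
  intro i _
  ring

theorem plus_single (m : ℕ) (a : Fin m ⊕ Fin m) :
    Cfsg.quadFormPlus m (ZMod 2) (Pi.single a 1) = 0 := by
  unfold Cfsg.quadFormPlus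
  apply Finset.sum_eq_zero
  intro i _
  rcases a with a | a <;> simp

theorem minus_add (m : ℕ) (y y' : (Fin m ⊕ Fin m) ⊕ Fin 2 → ZMod 2) :
    Cfsg.quadFormMinus m (ZMod 2) 1 1 (y + y') = Cfsg.quadFormMinus m (ZMod 2) 1 1 y
      + Cfsg.quadFormMinus m (ZMod 2) 1 1 y'
      + y ⬝ᵥ (fromBlocks (J (Fin m) (ZMod 2)) 0 0 G2) *ᵥ y' := by
  have hneg : ∀ a : ZMod 2, -a = a := by decide
  simp only [Cfsg.quadFormMinus, dotProduct, Matrix.mulVec, J, G2, Fintype.sum_sum_type,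
    fromBlocks_apply₁₁, fromBlocks_apply₁₂, fromBlocks_apply₂₁, fromBlocks_apply₂₂,
    Matrix.zero_apply, Matrix.neg_apply, Matrix.one_apply, zero_mul, Finset.sum_const_zero,
    zero_add, add_zero, ite_mul, one_mul, Finset.sum_ite_eq,
    Finset.mem_univ, if_true, Pi.add_apply, hneg, Fin.sum_univ_two, Matrix.of_apply,
    Matrix.cons_val', Matrix.cons_val_zero, Matrix.cons_val_one, Matrix.cons_val_fin_one]
  have hs : ∑ x, (y (Sum.inl (Sum.inl x)) + y' (Sum.inl (Sum.inl x))) *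
      (y (Sum.inl (Sum.inr x)) + y' (Sum.inl (Sum.inr x)))
      = ∑ i, y (Sum.inl (Sum.inl i)) * y (Sum.inl (Sum.inr i))
        + ∑ i, y' (Sum.inl (Sum.inl i)) * y' (Sum.inl (Sum.inr i))
        + ∑ x, y (Sum.inl (Sum.inl x)) * y' (Sum.inl (Sum.inr x))
        + ∑ x, y (Sum.inl (Sum.inr x)) * y' (Sum.inl (Sum.inl x)) := by
    rw [← Finset.sum_add_distrib, ← Finset.sum_add_distrib, ← Finset.sum_add_distrib]
    apply Finset.sum_congr rfl
    intro i _
    ring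
  rw [hs]
  linear_combination (y (Sum.inr 0) * y' (Sum.inr 0) + y (Sum.inr 1) * y' (Sum.inr 1)) * two_zero

theorem minus_single (m : ℕ) (a : (Fin m ⊕ Fin m) ⊕ Fin 2) :
    Cfsg.quadFormMinus m (ZMod 2) 1 1 (Pi.single a 1)
      = Sum.elim (0 : Fin m ⊕ Fin m → ZMod 2) (1 : Fin 2 → ZMod 2) a := by
  unfold Cfsg.quadFormMinus
  rcases a with (a | a) | a
  · simp
  · simp
  · have h0 : ∀ i : Fin m, (Pi.single (Sum.inr a) (1 : ZMod 2) :
        (Fin m ⊕ Fin m) ⊕ Fin 2 → ZMod 2) (Sum.inl (Sum.inl i)) = 0 := fun i => by simp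
    simp only [h0, zero_mul, Finset.sum_const_zero, zero_add]
    fin_cases a <;> simp

open Cfsg.Agent.S0826 in
theorem Mm_eq_one {m : ℕ} (hm : 2 ≤ m) (σ : Equiv.Perm (Om m)) (h : Mm m σ = 1) : σ = 1 := by
  let g0 : Equiv.Perm (Om m) →* Matrix (Fin m ⊕ Fin m) (Fin m ⊕ Fin m) (ZMod 2) :=
    { toFun := Mm m, map_one' := Mm_one m, map_mul' := Mm_mul m }
  by_contra hσ
  have hker : σ ∈ g0.toHomUnits.ker := by
    rw [MonoidHom.mem_ker]
    apply Units.ext
    exact h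
  have hnt : Nontrivial g0.toHomUnits.ker :=
    ⟨⟨⟨σ, hker⟩, 1, fun h' => hσ (congrArg Subtype.val h')⟩⟩
  have hle := Equiv.Perm.alternatingGroup_le_of_normal (α := Om m)
    (by rw [Nat.card_eq_fintype_card]; simp; omega) hnt
  have h0 : 0 < m := by omega
  have h1' : 1 < m := by omega
  have h1 : (Equiv.swap (Sum.inl (Sum.inl ⟨0, h0⟩) : Om m) (Sum.inl (Sum.inl ⟨1, h1'⟩)) *
      Equiv.swap (Sum.inl (Sum.inr ⟨0, h0⟩) : Om m) (Sum.inl (Sum.inr ⟨1, h1'⟩)))
      ∈ alternatingGroup (Om m) := by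
    rw [Equiv.Perm.mem_alternatingGroup, map_mul, Equiv.Perm.sign_swap (by simp),
      Equiv.Perm.sign_swap (by simp)]
    rfl
  have h2 := hle h1
  rw [MonoidHom.mem_ker] at h2
  have h4 : Mm m (Equiv.swap (Sum.inl (Sum.inl ⟨0, h0⟩) : Om m) (Sum.inl (Sum.inl ⟨1, h1'⟩)) *
      Equiv.swap (Sum.inl (Sum.inr ⟨0, h0⟩) : Om m) (Sum.inl (Sum.inr ⟨1, h1'⟩))) = 1 :=
    congrArg Units.val h2
  have h5 := congrFun (congrFun h4 (Sum.inl ⟨0, h0⟩)) (Sum.inl ⟨0, h0⟩)
  rw [Mm_apply] at h5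
  simp [Fm, Equiv.swap_apply_def] at h5

open Cfsg.Agent.S0826 in
theorem hom_of_frame (m : ℕ) (hm : 2 ≤ m) (hodd : Odd m) {I : Type} [Fintype I] [DecidableEq I]
    (X : Matrix (Om m) I (ZMod 2)) (Γ : Matrix I I (ZMod 2)) (qv : I → ZMod 2)
    (hX : IsFrame X Γ qv) (hΓ : Γ * Γ = 1) (hcard : Fintype.card I = 2 * m)
    (form : (I → ZMod 2) → ZMod 2) (hform : ∀ y, qq (X *ᵥ y) = form y) :
    ∃ φ : Equiv.Perm (Om m) →* Cfsg.isometryGroup (ZMod 2) form, Function.Injective φ := by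
  obtain ⟨h1, h2, h3⟩ := hX
  have hX1 : ones m ᵥ* X = 0 := by
    ext a
    simp [Matrix.vecMul, dotProduct, ones, h1 a]
  have hX2 : Xᵀ *ᵥ ones m = 0 := by rw [Matrix.mulVec_transpose]; exact hX1
  have h4 : 4 ∣ Fintype.card (Om m) := by
    obtain ⟨r, hr⟩ := hodd
    refine ⟨r + 1, ?_⟩
    simp
    omega
  have hLT : (Γ * (Em m * X)ᵀ * Gm m) * (Em m * X) = 1 := by
    have hs := sandwich m Xᵀ X hX2 hX1 (dv m + ones m) (dv m)
    rw [← Em_G_Em] at hs
    calc (Γ * (Em m * X)ᵀ * Gm m) * (Em m * X)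
        = Γ * (Xᵀ * ((Em m)ᵀ * Gm m * Em m) * X) := by
          rw [Matrix.transpose_mul]; simp only [Matrix.mul_assoc]
      _ = Γ * Γ := by rw [hs, h2]
      _ = 1 := hΓ
  have hTL : (Em m * X) * (Γ * (Em m * X)ᵀ * Gm m) = 1 :=
    (Matrix.mul_eq_one_comm_of_equiv (Fintype.equivOfCardEq (by simp [hcard]; omega))).1 hLT
  -- the form in `K`-coordinates
  have hFT : ∀ y, qq (Fm m *ᵥ ((Em m * X) *ᵥ y)) = form y := by
    intro y
    rw [← hform y, Matrix.mulVec_mulVec, ← Matrix.mul_assoc, Fm_Em, Matrix.add_mul,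
      Matrix.add_mul, Matrix.one_mul, vecMulVec_mul, vecMulVec_mul, hX1, Matrix.add_mulVec,
      Matrix.add_mulVec, vecMulVec_mulVec, vecMulVec_mulVec, zero_dotProduct, op_smul_eq_smul,
      op_smul_eq_smul, zero_smul, add_zero]
    refine qq_add_smul_ones h4 _ ?_ _
    have : ∑ ω, (X *ᵥ y) ω = ones m ⬝ᵥ (X *ᵥ y) := by simp [dotProduct, ones]
    rw [this, Matrix.dotProduct_mulVec, hX1, zero_dotProduct]
  have hQK : ∀ (σ : Equiv.Perm (Om m)) (c : Fin m ⊕ Fin m → ZMod 2),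
      qq (Fm m *ᵥ (Mm m σ *ᵥ c)) = qq (Fm m *ᵥ c) := by
    intro σ c
    have e1 : Fm m * Mm m σ = Pm m σ * Fm m
        + vecMulVec (ones m) (cv m ᵥ* (Pm m σ * Fm m)) := by
      unfold Mm
      rw [Matrix.mul_assoc (Em m), ← Matrix.mul_assoc (Fm m), Fm_Em, Matrix.add_mul,
        Matrix.add_mul, Matrix.one_mul, vecMulVec_mul, vecMulVec_mul, ← vecMul_vecMul (ones m),
        ones_Pm, ones_Fm]
      have : vecMulVec (dv m) (0 : Fin m ⊕ Fin m → ZMod 2) = 0 := by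
        ext i j; simp [vecMulVec_apply]
      rw [this, add_zero]
    rw [Matrix.mulVec_mulVec, e1, Matrix.add_mulVec, vecMulVec_mulVec, op_smul_eq_smul,
      ← Matrix.mulVec_mulVec]
    have e2 : ∑ ω, (Pm m σ *ᵥ (Fm m *ᵥ c)) ω = 0 := by
      have : ∑ ω, (Pm m σ *ᵥ (Fm m *ᵥ c)) ω = ones m ⬝ᵥ (Pm m σ *ᵥ (Fm m *ᵥ c)) := by
        simp [dotProduct, ones]
      rw [this, Matrix.dotProduct_mulVec, ones_Pm, Matrix.dotProduct_mulVec, ones_Fm,
        zero_dotProduct]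
    have e3 : qq (Pm m σ *ᵥ (Fm m *ᵥ c) + (cv m ᵥ* (Pm m σ * Fm m) ⬝ᵥ c) • ones m)
        = qq (Pm m σ *ᵥ (Fm m *ᵥ c)) := qq_add_smul_ones h4 _ e2 _
    rw [e3]
    unfold Pm
    rw [Matrix.permMatrixHom_apply, permMatrix_mulVec]
    exact qq_comp σ⁻¹ (Fm m *ᵥ c)
  let f0 : Equiv.Perm (Om m) →* Matrix I I (ZMod 2) :=
    { toFun := fun σ => (Γ * (Em m * X)ᵀ * Gm m) * Mm m σ * (Em m * X)
      map_one' := by rw [Mm_one, Matrix.mul_one, hLT]
      map_mul' := by
        intro σ τ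
        calc (Γ * (Em m * X)ᵀ * Gm m) * Mm m (σ * τ) * (Em m * X)
            = (Γ * (Em m * X)ᵀ * Gm m) * (Mm m σ * 1 * Mm m τ) * (Em m * X) := by
              rw [Mm_mul, Matrix.mul_one]
          _ = _ := by rw [← hTL]; simp only [Matrix.mul_assoc] }
  have hmem : ∀ σ, f0.toHomUnits σ ∈ Cfsg.isometryGroup (ZMod 2) form := by
    intro σ u v
    change form (((Γ * (Em m * X)ᵀ * Gm m) * Mm m σ * (Em m * X)) *ᵥ u) = form u
    rw [← hFT, ← hFT u, Matrix.mulVec_mulVec u (Em m * X)]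
    have : (Em m * X) * ((Γ * (Em m * X)ᵀ * Gm m) * Mm m σ * (Em m * X))
        = Mm m σ * (Em m * X) := by
      calc (Em m * X) * ((Γ * (Em m * X)ᵀ * Gm m) * Mm m σ * (Em m * X))
          = ((Em m * X) * (Γ * (Em m * X)ᵀ * Gm m)) * Mm m σ * (Em m * X) := by
            simp only [Matrix.mul_assoc]
        _ = Mm m σ * (Em m * X) := by rw [hTL, Matrix.one_mul]
    rw [this, ← Matrix.mulVec_mulVec, hQK]
  refine ⟨f0.toHomUnits.codRestrict _ hmem, ?_⟩
  rw [injective_iff_map_eq_one]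
  intro σ hσ
  have h5 : f0 σ = 1 := by
    have := congrArg (fun x : Cfsg.isometryGroup (ZMod 2) form => ((x : (Matrix I I (ZMod 2))ˣ) :
      Matrix I I (ZMod 2))) hσ
    exact this
  apply Mm_eq_one hm
  have h6 : (Γ * (Em m * X)ᵀ * Gm m) * Mm m σ * (Em m * X) = 1 := h5
  calc Mm m σ = ((Em m * X) * (Γ * (Em m * X)ᵀ * Gm m)) * Mm m σ *
        ((Em m * X) * (Γ * (Em m * X)ᵀ * Gm m)) := by
        rw [hTL, Matrix.one_mul, Matrix.mul_one]
    _ = (Em m * X) * ((Γ * (Em m * X)ᵀ * Gm m) * Mm m σ * (Em m * X)) *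
        (Γ * (Em m * X)ᵀ * Gm m) := by simp only [Matrix.mul_assoc]
    _ = 1 := by rw [h6, Matrix.mul_one, hTL]

theorem neg_eq_self : ∀ a : ZMod 2, -a = a := by decide

theorem J_mul_J (ι : Type) [Fintype ι] [DecidableEq ι] :
    J ι (ZMod 2) * J ι (ZMod 2) = 1 := by
  rw [J_squared]
  ext a b
  simp

theorem G2_mul_G2 : G2 * G2 = 1 := by decide

theorem J_map {ι ι' : Type} [Fintype ι] [DecidableEq ι] [Fintype ι'] [DecidableEq ι']
    (ε : ι' ≃ ι) :
    (J ι (ZMod 2)).submatrix (Sum.map ε ε) (Sum.map ε ε) = J ι' (ZMod 2) := by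
  ext a b
  rcases a with a | a <;> rcases b with b | b <;> simp [J, Matrix.one_apply]

theorem JM_map {ι ι' : Type} [Fintype ι] [DecidableEq ι] [Fintype ι'] [DecidableEq ι']
    (ε : ι' ≃ ι) :
    (fromBlocks (J ι (ZMod 2)) 0 0 G2).submatrix (Sum.map (Sum.map ε ε) id)
      (Sum.map (Sum.map ε ε) id) = fromBlocks (J ι' (ZMod 2)) 0 0 G2 := by
  ext a b
  rcases a with (a | a) | a <;> rcases b with (b | b) | b <;> simp [J, Matrix.one_apply]

/-- For k ≥ 1 the symmetric group of degree 4k + 4 embeds in a full orthogonal group in dimension 4k + 2 over the field of two elements: in the isometry group of the plus-type form Σ xᵢyᵢ when k is odd, and in that of the minus-type form Σ xᵢyᵢ + (z₁² + z₁z₂ + z₂²) when k is even (through its action on even partitions of a (4k+4)-set, with the form 'half the size of a part, modulo 2'). -/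
theorem result (k : ℕ) (hk : 1 ≤ k) :
    (Odd k → ∃ φ : Equiv.Perm (Fin (4 * k + 4)) →* ↥(Cfsg.isometryGroup (ZMod 2) (Cfsg.quadFormPlus (2 * k + 1) (ZMod 2))), Function.Injective φ) ∧
    (Even k → ∃ φ : Equiv.Perm (Fin (4 * k + 4)) →* ↥(Cfsg.isometryGroup (ZMod 2) (Cfsg.quadFormMinus (2 * k) (ZMod 2) 1 1)), Function.Injective φ) := by
  have e0 : Fin (4 * k + 4) ≃ S0826.Om (2 * k + 1) := Fintype.equivOfCardEq (by simp; omega)
  constructor
  · rintro ⟨j, hj⟩
    obtain ⟨Ω, _, _, ι, _, _, X, hΩ, hι, hX⟩ := framePlus j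
    have e1 : S0826.Om (2 * k + 1) ≃ Ω := Fintype.equivOfCardEq (by simp [hΩ]; omega)
    have ε : Fin (2 * k + 1) ≃ ι := Fintype.equivOfCardEq (by simp [hι]; omega)
    have hX' := (hX.reindex_rows e1).reindex_cols (Sum.map ε ε)
    rw [J_map] at hX'
    have hform := frame_form hX' (Cfsg.quadFormPlus (2 * k + 1) (ZMod 2))
      (plus_add (2 * k + 1)) (plus_single (2 * k + 1))
    obtain ⟨φ, hφ⟩ := hom_of_frame (2 * k + 1) (by omega) ⟨k, rfl⟩ _ _ _ hX' (J_mul_J _)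
      (by simp; omega) _ hform
    exact ⟨φ.comp e0.permCongrHom.toMonoidHom, hφ.comp e0.permCongrHom.injective⟩
  · rintro ⟨j, hj⟩
    obtain ⟨Ω, _, _, ι, _, _, X, hΩ, hι, hX⟩ := frameMinus j
    have e1 : S0826.Om (2 * k + 1) ≃ Ω := Fintype.equivOfCardEq (by simp [hΩ]; omega)
    have ε : Fin (2 * k) ≃ ι := Fintype.equivOfCardEq (by simp [hι]; omega)
    have hX' := (hX.reindex_rows e1).reindex_cols (Sum.map (Sum.map ε ε) id)
    rw [JM_map] at hX'
    have hqv : (Sum.elim (0 : ι ⊕ ι → ZMod 2) (1 : Fin 2 → ZMod 2)) ∘ (Sum.map (Sum.map ε ε) id)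
        = Sum.elim (0 : Fin (2 * k) ⊕ Fin (2 * k) → ZMod 2) (1 : Fin 2 → ZMod 2) := by
      funext a
      rcases a with (a | a) | a <;> rfl
    rw [hqv] at hX'
    have hform := frame_form hX' (Cfsg.quadFormMinus (2 * k) (ZMod 2) 1 1)
      (minus_add (2 * k)) (minus_single (2 * k))
    have hΓ : (fromBlocks (J (Fin (2 * k)) (ZMod 2)) 0 0 G2) *
        (fromBlocks (J (Fin (2 * k)) (ZMod 2)) 0 0 G2) = 1 := by
      rw [fromBlocks_multiply, J_mul_J, G2_mul_G2]
      simp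
    obtain ⟨φ, hφ⟩ := hom_of_frame (2 * k + 1) (by omega) ⟨k, rfl⟩ _ _ _ hX' hΓ
      (by simp; omega) _ hform
    exact ⟨φ.comp e0.permCongrHom.toMonoidHom, hφ.comp e0.permCongrHom.injective⟩

end Cfsg.Agent.S2563
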