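import Cfsg.Statements.S0828
import Cfsg.Agent.Lib.Helper45.SympPlanes
-- import your own Cfsg.Agent.* helpers here

set_option autoImplicit false
open Cfsg

namespace Cfsg.Agent.S0828

/-- The symplectic generalised quadrangle over a field with q elements: the number of 2-dimensional subspaces of F^4 on which the symplectic form vanishes is (q + 1)(q² + 1), and every non-zero vector lies in exactly q + 1 of them. -/
theorem result {F : Type*} [Field F] [Fintype F] {q : ℕ} (hF : Fintype.card F = q) : Nat.card {W : Submodule F (Fin 2 ⊕ Fin 2 → F) // Module.finrank F W = 2 ∧ ∀ u ∈ W, ∀ v ∈ W, Cfsg.sympForm 2 F u v = 0} = (q + 1) * (q ^ 2 + 1) ∧ ∀ v : Fin 2 ⊕ Fin 2 → F, v ≠ 0 → Nat.card {W : Submodule F (Fin 2 ⊕ Fin 2 → F) // Module.finrank F W = 2 ∧ v ∈ W ∧ ∀ u ∈ W, ∀ w ∈ W, Cfsg.sympForm 2 F u w = 0} = q + 1 := by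
  classical
  have hq2 : 2 ≤ q := by
    rw [← hF]; exact Fintype.one_lt_card
  have hN : ∀ u : Fin 2 ⊕ Fin 2 → F, u ≠ 0 →
      Nat.card {v : Fin 2 ⊕ Fin 2 → F // v ∉ Submodule.span F {u} ∧
        ∀ x ∈ Submodule.span F {u, v}, ∀ y ∈ Submodule.span F {u, v},
          Cfsg.sympForm 2 F x y = 0} = q ^ 3 - q := by
    intro u hu
    have h := Cfsg.Agent.Lib.Helper45.symp_card_perp_sdiff 2 hu
    rw [hF] at h
    have e : Nat.card {v : Fin 2 ⊕ Fin 2 → F // v ∉ Submodule.span F {u} ∧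
        ∀ x ∈ Submodule.span F {u, v}, ∀ y ∈ Submodule.span F {u, v},
          Cfsg.sympForm 2 F x y = 0} =
        Nat.card {v : Fin 2 ⊕ Fin 2 → F // v ∉ Submodule.span F {u} ∧
          Cfsg.sympForm 2 F v u = 0} :=
      Nat.card_congr (Equiv.subtypeEquivRight
        (fun v => and_congr Iff.rfl (Cfsg.Agent.Lib.Helper45.symp_good_iff 2 u v)))
    rw [e]
    have h' : Nat.card {v : Fin 2 ⊕ Fin 2 → F // v ∉ Submodule.span F {u} ∧
          Cfsg.sympForm 2 F v u = 0} * q = (q ^ 3 - q) * q := by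
      rw [Nat.sub_mul]
      have e1 : q ^ 3 * q = q ^ (2 * 2) := by ring
      have e2 : q * q = q ^ 2 := by ring
      omega
    exact Nat.eq_of_mul_eq_mul_right (by omega) h'
  obtain ⟨r, rfl⟩ : ∃ r, q = r + 2 := ⟨q - 2, by omega⟩
  have e1 : (r + 2) ^ 2 - 1 = r ^ 2 + 4 * r + 3 := by
    apply Nat.sub_eq_of_eq_add; ring
  have e2 : (r + 2) ^ 2 - (r + 2) = r ^ 2 + 3 * r + 2 := by
    apply Nat.sub_eq_of_eq_add; ring
  have e3 : (r + 2) ^ 4 - 1 = (r ^ 2 + 4 * r + 3) * ((r + 2) ^ 2 + 1) := by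
    apply Nat.sub_eq_of_eq_add; ring
  have e4 : (r + 2) ^ 3 - (r + 2) = (r + 2 + 1) * (r ^ 2 + 3 * r + 2) := by
    apply Nat.sub_eq_of_eq_add; ring
  constructor
  · have h := Cfsg.Agent.Lib.Helper45.card_planes_mul (F := F) (V := Fin 2 ⊕ Fin 2 → F)
      (fun W => ∀ u ∈ W, ∀ v ∈ W, Cfsg.sympForm 2 F u v = 0)
    have h2 := Cfsg.Agent.Lib.Helper45.card_pairs_of_const (V := Fin 2 ⊕ Fin 2 → F)
      (fun u => u ≠ 0)
      (fun u v => v ∉ Submodule.span F {u} ∧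
        ∀ x ∈ Submodule.span F {u, v}, ∀ y ∈ Submodule.span F {u, v},
          Cfsg.sympForm 2 F x y = 0) ((r + 2) ^ 3 - (r + 2)) hN
    have h3 : Nat.card {u : Fin 2 ⊕ Fin 2 → F // u ≠ 0} = (r + 2) ^ 4 - 1 := by
      rw [Nat.card_eq_fintype_card, Fintype.card_subtype_compl, Fintype.card_subtype_eq,
        Fintype.card_fun, Fintype.card_sum, Fintype.card_fin, hF]
    rw [h3] at h2
    have h4 := h.trans h2
    rw [hF, e1, e2, e3, e4] at h4
    have h5 : Nat.card {W : Submodule F (Fin 2 ⊕ Fin 2 → F) // Module.finrank F W = 2 ∧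
        ∀ u ∈ W, ∀ v ∈ W, Cfsg.sympForm 2 F u v = 0} *
        ((r ^ 2 + 4 * r + 3) * (r ^ 2 + 3 * r + 2)) =
        ((r + 2 + 1) * ((r + 2) ^ 2 + 1)) * ((r ^ 2 + 4 * r + 3) * (r ^ 2 + 3 * r + 2)) := by
      rw [h4]; ring
    exact Nat.eq_of_mul_eq_mul_right (by positivity) h5
  · intro v hv
    have h := Cfsg.Agent.Lib.Helper45.card_planes_through (F := F) (V := Fin 2 ⊕ Fin 2 → F)
      (fun W => ∀ u ∈ W, ∀ w ∈ W, Cfsg.sympForm 2 F u w = 0) hv
    rw [hN v hv, hF, e2, e4] at h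
    exact Nat.eq_of_mul_eq_mul_right (by positivity) h

end Cfsg.Agent.S0828
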