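import Cfsg.Statements.S0829
import Cfsg.Agent.Lib.Helper45.HermPlanes
-- import your own Cfsg.Agent.* helpers here

set_option autoImplicit false
open Cfsg

namespace Cfsg.Agent.S0829

/-- The unitary quadrangle of PSU_4(q): with |F| = q², the number of 2-dimensional subspaces of F^4 on which the Hermitian form Σ x_i y_i^q vanishes is (q + 1)(q³ + 1). -/
theorem result {F : Type*} [Field F] [Fintype F] {q : ℕ} (hF : Fintype.card F = q ^ 2) : Nat.card {W : Submodule F (Fin 4 → F) // Module.finrank F W = 2 ∧ ∀ u ∈ W, ∀ v ∈ W, Cfsg.hermForm 4 F q u v = 0} = (q + 1) * (q ^ 3 + 1) := by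
  classical
  have hq2 := Cfsg.Agent.Lib.Helper45.two_le_q hF
  have h := Cfsg.Agent.Lib.Helper45.herm_planes_count hF 2
  have hI : (Cfsg.Agent.Lib.Helper45.hermCnt (2 + 2) F q 0 : ℤ) =
      (q : ℤ) ^ 7 + (q : ℤ) ^ 4 - (q : ℤ) ^ 3 := by
    rw [Cfsg.Agent.Lib.Helper45.hermCnt_eq hF, if_pos rfl]
    have := (Cfsg.Agent.Lib.Helper45.hermAZ_closed q 3).2
    rw [this]; ring
  rw [hI] at h
  have hq : (2 : ℤ) ≤ (q : ℤ) := by exact_mod_cast hq2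
  have hq4 : (0 : ℤ) < (q : ℤ) ^ 2 - 1 := by nlinarith
  have hpos : (((q : ℤ) ^ 4 - 1) * ((q : ℤ) ^ 4 - (q : ℤ) ^ 2)) ≠ 0 := by
    have e : (((q : ℤ) ^ 4 - 1) * ((q : ℤ) ^ 4 - (q : ℤ) ^ 2)) =
        ((q : ℤ) ^ 2 - 1) * ((q : ℤ) ^ 2 + 1) * ((q : ℤ) ^ 2 * ((q : ℤ) ^ 2 - 1)) := by ring
    rw [e]
    positivity
  have h2 : (Nat.card {W : Submodule F (Fin 4 → F) // Module.finrank F W = 2 ∧ ∀ u ∈ W, ∀ v ∈ W, Cfsg.hermForm 4 F q u v = 0} : ℤ) * (((q : ℤ) ^ 4 - 1) * ((q : ℤ) ^ 4 - (q : ℤ) ^ 2)) =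
      (((q : ℤ) + 1) * ((q : ℤ) ^ 3 + 1)) * (((q : ℤ) ^ 4 - 1) * ((q : ℤ) ^ 4 - (q : ℤ) ^ 2)) := by
    refine Eq.trans h ?_
    ring
  have h3 := mul_right_cancel₀ hpos h2
  exact_mod_cast h3

end Cfsg.Agent.S0829
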