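import Mathlib
import Cfsg.Statements.S0832
import Cfsg.Agent.S0750
import Cfsg.Agent.Lib.Helper14.Forms

set_option autoImplicit false
open Cfsg

namespace Cfsg.Agent.S0832

open Cfsg.Agent.Lib.Helper14

variable {F : Type*} [Field F] {m : ℕ} (k : Fin m)

/-- the totally singular subspace `y = 0` -/
def W1 (F : Type*) [Field F] (m : ℕ) : Submodule F (Fin m ⊕ Fin m → F) where
  carrier := {v | ∀ i, v (Sum.inr i) = 0}
  add_mem' := by
    intro a b ha hb i
    simp [ha i, hb i]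
  zero_mem' := fun i => rfl
  smul_mem' := by
    intro c a ha i
    simp [ha i]

/-- the other maximal totally singular subspace through `U0` -/
def W2 : Submodule F (Fin m ⊕ Fin m → F) where
  carrier := {v | (∀ i, i ≠ k → v (Sum.inr i) = 0) ∧ v (Sum.inl k) = 0}
  add_mem' := by
    intro a b ha hb
    refine ⟨fun i hi => ?_, ?_⟩
    · simp [ha.1 i hi, hb.1 i hi]
    · simp [ha.2, hb.2]
  zero_mem' := ⟨fun i _ => rfl, rfl⟩
  smul_mem' := by
    intro c a ha
    refine ⟨fun i hi => ?_, ?_⟩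
    · simp [ha.1 i hi]
    · simp [ha.2]

/-- the standard totally singular `(m-1)`-space -/
def U0 : Submodule F (Fin m ⊕ Fin m → F) :=
  Submodule.span F (Set.range (fun i : {i : Fin m // i ≠ k} =>
    (Pi.single (Sum.inl i.1) 1 : Fin m ⊕ Fin m → F)))

theorem mem_W1 (v : Fin m ⊕ Fin m → F) : v ∈ W1 F m ↔ ∀ i, v (Sum.inr i) = 0 := Iff.rfl

theorem mem_W2 (v : Fin m ⊕ Fin m → F) :
    v ∈ W2 (F := F) k ↔ (∀ i, i ≠ k → v (Sum.inr i) = 0) ∧ v (Sum.inl k) = 0 := Iff.rfl

/-- coordinates on `W1` -/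
def e1 : W1 F m ≃ₗ[F] (Fin m → F) where
  toFun v := fun i => v.1 (Sum.inl i)
  map_add' _ _ := rfl
  map_smul' _ _ := rfl
  invFun u := ⟨Sum.elim u 0, fun _ => rfl⟩
  left_inv v := by
    apply Subtype.ext
    funext j
    rcases j with j | j
    · rfl
    · exact (v.2 j).symm
  right_inv _ := rfl

theorem finrank_W1 : Module.finrank F (W1 F m) = m := by
  rw [LinearEquiv.finrank_eq e1, Module.finrank_fin_fun]

/-- coordinates on `W2` -/
def e2 : W2 (F := F) k ≃ₗ[F] (Fin m → F) where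
  toFun v := fun i => if i = k then v.1 (Sum.inr k) else v.1 (Sum.inl i)
  map_add' a b := by
    funext i
    by_cases h : i = k <;> simp [h]
  map_smul' c a := by
    funext i
    by_cases h : i = k <;> simp [h]
  invFun u := ⟨Sum.elim (Function.update u k 0) (Pi.single k (u k)),
    ⟨fun i hi => by simp [hi], by simp⟩⟩
  left_inv v := by
    apply Subtype.ext
    funext j
    rcases j with j | j
    · by_cases h : j = k
      · subst h
        simp [v.2.2]
      · simp [h]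
    · by_cases h : j = k
      · subst h
        simp
      · simp [h, v.2.1 j h]
  right_inv u := by
    funext i
    by_cases h : i = k
    · subst h; simp
    · simp [h]

theorem finrank_W2 : Module.finrank F (W2 (F := F) k) = m := by
  rw [LinearEquiv.finrank_eq (e2 k), Module.finrank_fin_fun]

theorem finrank_U0 : Module.finrank F (U0 (F := F) k) + 1 = m := by
  have hli : LinearIndependent F (fun i : {i : Fin m // i ≠ k} =>
      (Pi.single (Sum.inl i.1) 1 : Fin m ⊕ Fin m → F)) := by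
    have h := (Pi.basisFun F (Fin m ⊕ Fin m)).linearIndependent
    have h2 := h.comp (fun i : {i : Fin m // i ≠ k} => (Sum.inl i.1 : Fin m ⊕ Fin m))
      (fun a b hab => Subtype.ext (Sum.inl_injective hab))
    convert h2 using 1
    funext i
    simp [Pi.basisFun_apply]
  unfold U0
  rw [finrank_span_eq_card hli]
  have : Fintype.card {i : Fin m // i ≠ k} = m - 1 := by
    rw [Fintype.card_subtype_compl, Fintype.card_fin]
    simp
  rw [this]
  have := k.pos
  omega

theorem U0_le_W1 : U0 (F := F) k ≤ W1 F m := by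
  unfold U0
  rw [Submodule.span_le]
  rintro _ ⟨i, rfl⟩ j
  simp

theorem U0_le_W2 : U0 (F := F) k ≤ W2 k := by
  unfold U0
  rw [Submodule.span_le]
  rintro _ ⟨i, rfl⟩
  refine ⟨fun j _ => by simp, ?_⟩
  simp [i.2.symm]

theorem W1_sing (v : Fin m ⊕ Fin m → F) (hv : v ∈ W1 F m) : Cfsg.quadFormPlus m F v = 0 := by
  unfold Cfsg.quadFormPlus
  apply Finset.sum_eq_zero
  intro i _
  rw [hv i, mul_zero]

theorem W2_sing (v : Fin m ⊕ Fin m → F) (hv : v ∈ W2 k) : Cfsg.quadFormPlus m F v = 0 := by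
  unfold Cfsg.quadFormPlus
  apply Finset.sum_eq_zero
  intro i _
  by_cases h : i = k
  · subst h; rw [hv.2, zero_mul]
  · rw [hv.1 i h, mul_zero]

theorem W1_ne_W2 (hF : Nontrivial F) : W1 F m ≠ W2 k := by
  intro h
  have h1 : (Pi.single (Sum.inl k) 1 : Fin m ⊕ Fin m → F) ∈ W1 F m := fun i => by simp
  rw [h] at h1
  have := h1.2
  simp at this

/-- a totally singular `m`-space through `U0` is `W1` or `W2` -/
theorem eq_W1_or_W2 [FiniteDimensional F (Fin m ⊕ Fin m → F)]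
    (W : Submodule F (Fin m ⊕ Fin m → F)) (hW : Module.finrank F W = m)
    (hs : ∀ w ∈ W, Cfsg.quadFormPlus m F w = 0) (hU : U0 k ≤ W) : W = W1 F m ∨ W = W2 k := by
  -- polar form vanishes on `W`
  have hpol : ∀ w ∈ W, ∀ w' ∈ W, QuadraticMap.polar (Cfsg.quadFormPlus m F) w w' = 0 := by
    intro w hw w' hw'
    unfold QuadraticMap.polar
    rw [hs _ (W.add_mem hw hw'), hs w hw, hs w' hw']
    simp
  have hcoord : ∀ w ∈ W, ∀ i, i ≠ k → w (Sum.inr i) = 0 := by
    intro w hw i hi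
    have he : (Pi.single (Sum.inl i) 1 : Fin m ⊕ Fin m → F) ∈ W :=
      hU (Submodule.subset_span ⟨⟨i, hi⟩, rfl⟩)
    have := hpol _ he w hw
    rwa [plus_polar_inl] at this
  have hQ : ∀ w ∈ W, Cfsg.quadFormPlus m F w = w (Sum.inl k) * w (Sum.inr k) := by
    intro w hw
    unfold Cfsg.quadFormPlus
    apply Finset.sum_eq_single k
    · intro i _ hi
      rw [hcoord w hw i hi, mul_zero]
    · intro h; exact absurd (Finset.mem_univ k) h
  have hprod : ∀ w ∈ W, w (Sum.inl k) * w (Sum.inr k) = 0 := fun w hw => by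
    rw [← hQ w hw, hs w hw]
  have hcross : ∀ w ∈ W, ∀ w' ∈ W,
      w (Sum.inl k) * w' (Sum.inr k) + w' (Sum.inl k) * w (Sum.inr k) = 0 := by
    intro w hw w' hw'
    have h1 := hprod _ (W.add_mem hw hw')
    have h2 := hprod w hw
    have h3 := hprod w' hw'
    simp only [Pi.add_apply] at h1
    linear_combination h1 - h2 - h3
  by_cases hb : ∀ w ∈ W, w (Sum.inr k) = 0
  · left
    apply Submodule.eq_of_le_of_finrank_eq
    · intro w hw i
      by_cases hi : i = k
      · subst hi; exact hb w hw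
      · exact hcoord w hw i hi
    · rw [hW, finrank_W1]
  · right
    push Not at hb
    obtain ⟨w2, hw2, hw2k⟩ := hb
    have hw2l : w2 (Sum.inl k) = 0 := by
      rcases mul_eq_zero.1 (hprod w2 hw2) with h | h
      · exact h
      · exact absurd h hw2k
    apply Submodule.eq_of_le_of_finrank_eq
    · intro w hw
      refine ⟨hcoord w hw, ?_⟩
      have h := hcross w hw w2 hw2
      rw [hw2l, zero_mul, add_zero] at h
      rcases mul_eq_zero.1 h with h | h
      · exact h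
      · exact absurd h hw2k
    · rw [hW, finrank_W2]

theorem card_std [Finite F] (hm : 1 ≤ m) :
    Nat.card {W : Submodule F (Fin m ⊕ Fin m → F) // Module.finrank F W = m ∧
      (∀ w ∈ W, Cfsg.quadFormPlus m F w = 0) ∧ U0 ⟨0, hm⟩ ≤ W} = 2 := by
  rw [Nat.card_eq_two_iff]
  refine ⟨⟨W1 F m, finrank_W1, W1_sing, U0_le_W1 _⟩,
    ⟨W2 ⟨0, hm⟩, finrank_W2 _, W2_sing _, U0_le_W2 _⟩, ?_, ?_⟩
  · intro h
    exact W1_ne_W2 ⟨0, hm⟩ inferInstance (congrArg Subtype.val h)
  · rw [Set.eq_univ_iff_forall]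
    rintro ⟨W, hW, hs, hU⟩
    rcases eq_W1_or_W2 ⟨0, hm⟩ W hW hs hU with h | h
    · left; exact Subtype.ext h
    · right; exact Subtype.ext h

/-- For the form Σ x_i y_i on F^(2m) over a finite field, m ≥ 1: an (m−1)-dimensional subspace on which the form vanishes is contained in exactly two m-dimensional subspaces on which it vanishes. -/
theorem result {F : Type*} [Field F] [Finite F] (m : ℕ) (hm : 1 ≤ m) (U : Submodule F (Fin m ⊕ Fin m → F)) (hU : Module.finrank F U + 1 = m ∧ ∀ u ∈ U, Cfsg.quadFormPlus m F u = 0) : Nat.card {W : Submodule F (Fin m ⊕ Fin m → F) // Module.finrank F W = m ∧ (∀ w ∈ W, Cfsg.quadFormPlus m F w = 0) ∧ U ≤ W} = 2 := by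
  obtain ⟨hU1, hU2⟩ := hU
  have hfr : Module.finrank F U = Module.finrank F (U0 (F := F) ⟨0, hm⟩) := by
    have := finrank_U0 (F := F) ⟨0, hm⟩
    omega
  let φ : U ≃ₗ[F] U0 (F := F) ⟨0, hm⟩ := LinearEquiv.ofFinrankEq _ _ hfr
  have hφ : ∀ x : U, plusQF m F (φ x : Fin m ⊕ Fin m → F) = plusQF m F (x : Fin m ⊕ Fin m → F) := by
    intro x
    rw [plusQF_coe, hU2 _ x.2, W1_sing _ (U0_le_W1 _ (φ x).2)]
  obtain ⟨g, hg, hgφ⟩ := Cfsg.Agent.S0750.result (plusQF m F) (plusQF_nondegenerate m F) U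
    (U0 ⟨0, hm⟩) φ hφ
  have hg' : ∀ v, Cfsg.quadFormPlus m F (g v) = Cfsg.quadFormPlus m F v := by
    intro v
    have := hg v
    rwa [plusQF_coe] at this
  have hmap : U.map (g : (Fin m ⊕ Fin m → F) →ₗ[F] (Fin m ⊕ Fin m → F)) = U0 ⟨0, hm⟩ := by
    ext y
    constructor
    · rintro ⟨x, hx, rfl⟩
      have := hgφ ⟨x, hx⟩
      simp only [LinearEquiv.coe_coe] at this ⊢
      rw [this]
      exact (φ ⟨x, hx⟩).2
    · intro hy
      refine ⟨(φ.symm ⟨y, hy⟩ : Fin m ⊕ Fin m → F), (φ.symm ⟨y, hy⟩).2, ?_⟩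
      have := hgφ (φ.symm ⟨y, hy⟩)
      simp only [LinearEquiv.coe_coe]
      rw [this, LinearEquiv.apply_symm_apply]
  rw [← card_std (F := F) hm]
  apply Nat.card_congr
  refine Equiv.subtypeEquiv (Submodule.orderIsoMapComap g).toEquiv ?_
  intro W
  have e1 : Module.finrank F (W.map (g : (Fin m ⊕ Fin m → F) →ₗ[F] (Fin m ⊕ Fin m → F)))
      = Module.finrank F W := LinearEquiv.finrank_map_eq g W
  have e2 : (∀ w ∈ W.map (g : (Fin m ⊕ Fin m → F) →ₗ[F] (Fin m ⊕ Fin m → F)),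
      Cfsg.quadFormPlus m F w = 0) ↔ ∀ w ∈ W, Cfsg.quadFormPlus m F w = 0 := by
    constructor
    · intro h w hw
      rw [← hg' w]
      exact h _ ⟨w, hw, rfl⟩
    · rintro h _ ⟨w, hw, rfl⟩
      simp only [LinearEquiv.coe_coe]
      rw [hg' w]
      exact h w hw
  have e3 : U0 ⟨0, hm⟩ ≤ W.map (g : (Fin m ⊕ Fin m → F) →ₗ[F] (Fin m ⊕ Fin m → F)) ↔ U ≤ W := by
    rw [← hmap]
    exact Submodule.map_le_map_iff_of_injective g.injective U W
  change _ ↔ Module.finrank F (W.map (g : (Fin m ⊕ Fin m → F) →ₗ[F] (Fin m ⊕ Fin m → F))) = m ∧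
    (∀ w ∈ W.map (g : (Fin m ⊕ Fin m → F) →ₗ[F] (Fin m ⊕ Fin m → F)),
      Cfsg.quadFormPlus m F w = 0) ∧
    U0 ⟨0, hm⟩ ≤ W.map (g : (Fin m ⊕ Fin m → F) →ₗ[F] (Fin m ⊕ Fin m → F))
  rw [e1, e2, e3]

end Cfsg.Agent.S0832
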