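import Cfsg.Statements.S0833
import Cfsg.Agent.Lib.Helper99.AltBasis

set_option autoImplicit false
open Cfsg

namespace Cfsg.Agent.S0833

open Module TensorProduct Cfsg.Agent.Lib.Helper99

/-- If B₁, B₂ are non-degenerate alternating forms on U (dim 2k) and W (dim 2l), then B₁ ⊗ B₂ on U ⊗ W is symmetric, non-degenerate, and vanishes identically on some subspace of dimension 2kl (half of dim U ⊗ W). -/
theorem result {F U W : Type*} [Field F] [Fintype F] [AddCommGroup U] [Module F U] [FiniteDimensional F U] [AddCommGroup W] [Module F W] [FiniteDimensional F W] (B₁ : LinearMap.BilinForm F U) (B₂ : LinearMap.BilinForm F W) (h₁ : B₁.Nondegenerate) (h₂ : B₂.Nondegenerate) (hA₁ : B₁.IsAlt) (hA₂ : B₂.IsAlt) (k l : ℕ) (hU : Module.finrank F U = 2 * k) (hW : Module.finrank F W = 2 * l) : (B₁.tmul B₂).IsSymm ∧ (B₁.tmul B₂).Nondegenerate ∧ (∃ X : Submodule F (TensorProduct F U W), Module.finrank F X = 2 * k * l ∧ ∀ x ∈ X, ∀ y ∈ X, (B₁.tmul B₂) x y = 0) := by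
  classical
  set T := B₁.tmul B₂ with hTdef
  have hT : ∀ (u : U) (w : W) (u' : U) (w' : W),
      T (u ⊗ₜ[F] w) (u' ⊗ₜ[F] w') = B₂ w w' * B₁ u u' := by
    intro u w u' w'
    rfl
  have hflip : T = T.flip := by
    apply TensorProduct.ext'
    intro u w
    apply TensorProduct.ext'
    intro u' w'
    rw [LinearMap.flip_apply, hT, hT, ← hA₁.neg_eq u u', ← hA₂.neg_eq w w']
    ring
  have hsymm : ∀ x y, T x y = T y x := by
    intro x y
    have h := congrArg (fun S => S x y) hflip
    simpa using h
  have hsepL : ∀ x, (∀ y, T x y = 0) → x = 0 := by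
    intro x hx
    let b₁ := Module.finBasis F U
    let b₂ := Module.finBasis F W
    let d₁ := B₁.dualBasis h₁ b₁
    let d₂ := B₂.dualBasis h₂ b₂
    let bt := d₁.tensorProduct d₂
    have hrepr : ∀ p, bt.repr x p = 0 := by
      rintro ⟨i, j⟩
      have h := hx (b₁ i ⊗ₜ[F] b₂ j)
      rw [← bt.sum_repr x] at h
      simp only [map_sum, map_smul, LinearMap.sum_apply, LinearMap.smul_apply, smul_eq_mul] at h
      have h3 : ∀ p : Fin (finrank F U) × Fin (finrank F W),
          T (bt p) (b₁ i ⊗ₜ[F] b₂ j) = if p = (i, j) then 1 else 0 := by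
        rintro ⟨i', j'⟩
        have h4 : bt (i', j') = d₁ i' ⊗ₜ[F] d₂ j' := Basis.tensorProduct_apply d₁ d₂ i' j'
        rw [h4, hT, LinearMap.BilinForm.apply_dualBasis_left,
          LinearMap.BilinForm.apply_dualBasis_left]
        by_cases hi : i = i' <;> by_cases hj : j = j' <;> simp [hi, hj, Prod.ext_iff, eq_comm]
      simp only [h3, mul_ite, mul_one, mul_zero, Finset.sum_ite_eq', Finset.mem_univ,
        if_true] at h
      exact h
    have h5 : bt.repr x = 0 := by
      ext p
      simp [hrepr p]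
    exact (LinearEquiv.map_eq_zero_iff _).mp h5
  refine ⟨?_, ⟨hsepL, fun y hy => hsepL y (fun x => by rw [hsymm]; exact hy x)⟩, ?_⟩
  · exact ⟨fun x y => hsymm x y⟩
  · obtain ⟨m, k', b, -, hee, -, hrad⟩ := alt_basis B₁ hA₁
    have hk0 : k' = 0 := by
      by_contra hk
      have hj : 0 < k' := Nat.pos_of_ne_zero hk
      exact b.ne_zero (Sum.inr ⟨0, hj⟩) (h₁.1 _ (hrad ⟨0, hj⟩))
    have hm : m = k := by
      have h3 := Module.finrank_eq_card_basis b
      simp only [Fintype.card_sum, Fintype.card_fin] at h3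
      omega
    let b₂ := Module.finBasis F W
    let g : Fin m × Fin (finrank F W) → TensorProduct F U W :=
      fun p => b (Sum.inl (Sum.inl p.1)) ⊗ₜ[F] b₂ p.2
    have hg : LinearIndependent F g := by
      have h3 := (b.tensorProduct b₂).linearIndependent.comp
        (fun p : Fin m × Fin (finrank F W) =>
          ((Sum.inl (Sum.inl p.1) : (Fin m ⊕ Fin m) ⊕ Fin k'), p.2))
        (by
          rintro ⟨i, j⟩ ⟨i', j'⟩ h
          simp only [Prod.mk.injEq, Sum.inl.injEq] at h
          exact Prod.ext h.1 h.2)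
      have h4 : g = (b.tensorProduct b₂) ∘ (fun p : Fin m × Fin (finrank F W) =>
          ((Sum.inl (Sum.inl p.1) : (Fin m ⊕ Fin m) ⊕ Fin k'), p.2)) := by
        funext p
        simp only [g, Function.comp_apply]
        rw [Basis.tensorProduct_apply]
      rw [h4]
      exact h3
    refine ⟨Submodule.span F (Set.range g), ?_, ?_⟩
    · rw [finrank_span_eq_card hg, Fintype.card_prod, Fintype.card_fin, Fintype.card_fin, hW, hm]
      ring
    · have h1 : ∀ p q, T (g p) (g q) = 0 := by
        intro p q
        simp only [g]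
        rw [hT, hee]
        simp
      have h2 : ∀ p, ∀ y ∈ Submodule.span F (Set.range g), T (g p) y = 0 := by
        intro p y hy
        have h3 : Submodule.span F (Set.range g) ≤ LinearMap.ker (T (g p)) := by
          rw [Submodule.span_le]
          rintro _ ⟨q, rfl⟩
          exact h1 p q
        exact h3 hy
      intro x hx y hy
      have h3 : Submodule.span F (Set.range g) ≤ LinearMap.ker (T.flip y) := by
        rw [Submodule.span_le]
        rintro _ ⟨p, rfl⟩
        exact h2 p y hy
      exact h3 hx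

end Cfsg.Agent.S0833
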