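import Cfsg.Statements.S2624
import Cfsg.Agent.Lib.Helper99.Quad2

set_option autoImplicit false
open Cfsg

namespace Cfsg.Agent.S2624

open Module QuadraticMap Cfsg.Agent.Lib.Helper99

/-- For a quadratic form Q on F^n with non-degenerate polar form, F finite and n ≥ 2 even, every non-zero scalar c is the multiplier of some similarity: there is an invertible linear map g with Q(g v) = c·Q(v) for all v. -/
theorem result {F : Type*} [Field F] [Fintype F] {n : ℕ} (hn : 2 ≤ n) (he : Even n) (Q : QuadraticForm F (Fin n → F)) (hQ : (QuadraticMap.polarBilin Q).Nondegenerate) (c : F) (hc : c ≠ 0) : ∃ g : (Fin n → F) ≃ₗ[F] (Fin n → F), ∀ v, Q (g v) = c * Q v := by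
  classical
  have hfin : finrank F (Fin n → F) = n := by simp
  have hpolcomp : ∀ (g0 : (Fin n → F) →ₗ[F] (Fin n → F)) (u v : Fin n → F),
      polar (Q.comp g0) u v = polar Q (g0 u) (g0 v) := by
    intro g0 u v
    simp only [polar, QuadraticMap.comp_apply, map_add]
  have hpolsmul : ∀ u v : Fin n → F, polar (c • Q) u v = c * polar Q u v := by
    intro u v
    show c • Q (u + v) - c • Q u - c • Q v = c * (Q (u + v) - Q u - Q v)
    simp only [smul_eq_mul]
    ring
  have key : ∀ g0 : (Fin n → F) →ₗ[F] (Fin n → F), Q.comp g0 = c • Q →
      ∃ g : (Fin n → F) ≃ₗ[F] (Fin n → F), ∀ v, Q (g v) = c * Q v := by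
    intro g0 h
    exact equiv_of_similar Q Q hQ c hc g0 (fun v => by
      rw [← QuadraticMap.comp_apply, h]; rfl)
  obtain ⟨k, e, f, hH, h | h | h⟩ := witt Q hQ
  · obtain ⟨b, hb1, hb2⟩ := h
    let w : Fin k ⊕ Fin k → (Fin n → F) := Sum.elim (fun i => c • e i) f
    apply key (b.constr F w)
    have hg0 : ∀ i, b.constr F w (b i) = w i := fun i => Basis.constr_basis b F w i
    apply quad_ext_basis b
    · intro i
      rw [QuadraticMap.comp_apply, hg0]
      show Q (w i) = c • Q (b i)
      rcases i with i | i
      · simp only [w, Sum.elim_inl]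
        rw [QuadraticMap.map_smul, hb1, (hH.1 i).1]
        simp
      · simp only [w, Sum.elim_inr]
        rw [hb2, (hH.1 i).2]
        simp
    · intro i j _
      rw [hpolcomp, hg0, hg0, hpolsmul]
      rcases i with i | i <;> rcases j with j | j
      · simp only [w, Sum.elim_inl]
        rw [polar_smul_left, polar_smul_right, hb1, hb1, (hH.2.2 i j).1]
        simp
      · simp only [w, Sum.elim_inl, Sum.elim_inr]
        rw [polar_smul_left, hb1, hb2]
        rfl
      · simp only [w, Sum.elim_inl, Sum.elim_inr]
        rw [polar_smul_right, hb1, hb2]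
        rfl
      · simp only [w, Sum.elim_inr]
        rw [hb2, hb2, (hH.2.2 i j).2]
        simp
  · obtain ⟨x, b, -⟩ := h
    have h1 := Module.finrank_eq_card_basis b
    simp only [Fintype.card_sum, Fintype.card_fin, Fintype.card_unit, hfin] at h1
    obtain ⟨m, hm⟩ := he
    omega
  · obtain ⟨x, y, b, hQx, hxy, ht, hx, hy, hb1, hb2, hb3, hb4⟩ := h
    obtain ⟨α, β, hαβ⟩ := exists_norm_eq (Q y) c ht
    have hyx : polar Q y x = 1 := by rw [polar_comm, hxy]
    have hxx : polar Q x x = 2 := by rw [polar_self, hQx]; simp
    have hyy : polar Q y y = 2 * Q y := by rw [polar_self]; simp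
    have hex : ∀ i, polar Q (e i) x = 0 := fun i => by rw [polar_comm, (hx i).1]
    have hfx : ∀ i, polar Q (f i) x = 0 := fun i => by rw [polar_comm, (hx i).2]
    have hey : ∀ i, polar Q (e i) y = 0 := fun i => by rw [polar_comm, (hy i).1]
    have hfy : ∀ i, polar Q (f i) y = 0 := fun i => by rw [polar_comm, (hy i).2]
    have hfe : ∀ i j, polar Q (f i) (e j) = if j = i then 1 else 0 := fun i j => by
      rw [polar_comm, hH.2.1]
    let w : (Fin k ⊕ Fin k) ⊕ Fin 2 → (Fin n → F) :=
      Sum.elim (Sum.elim (fun i => c • e i) f) ![α • x + β • y, (-(Q y * β)) • x + (α + β) • y]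
    apply key (b.constr F w)
    have hg0 : ∀ i, b.constr F w (b i) = w i := fun i => Basis.constr_basis b F w i
    have hw0 : w (Sum.inr 0) = α • x + β • y := rfl
    have hw1 : w (Sum.inr 1) = (-(Q y * β)) • x + (α + β) • y := rfl
    have hwe : ∀ i, w (Sum.inl (Sum.inl i)) = c • e i := fun i => rfl
    have hwf : ∀ i, w (Sum.inl (Sum.inr i)) = f i := fun i => rfl
    have hfin2 : ∀ a : Fin 2, a = 0 ∨ a = 1 := by
      intro a
      fin_cases a
      · exact Or.inl rfl
      · exact Or.inr rfl
    apply quad_ext_basis b
    · intro i
      rw [QuadraticMap.comp_apply, hg0]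
      show Q (w i) = c • Q (b i)
      rcases i with (i | i) | a
      · rw [hwe, QuadraticMap.map_smul, hb1, (hH.1 i).1]
        simp
      · rw [hwf, hb2, (hH.1 i).2]
        simp
      · rcases hfin2 a with rfl | rfl
        · have h3 : Q (α • x + β • y) = Q (α • x) + Q (β • y) + polar Q (α • x) (β • y) :=
            QuadraticMap.map_add Q _ _
          rw [hw0, hb3, h3, QuadraticMap.map_smul, QuadraticMap.map_smul, polar_smul_left,
            polar_smul_right, hQx, hxy]
          simp only [smul_eq_mul]
          linear_combination hαβ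
        · have h3 : Q ((-(Q y * β)) • x + (α + β) • y) = Q ((-(Q y * β)) • x)
              + Q ((α + β) • y) + polar Q ((-(Q y * β)) • x) ((α + β) • y) :=
            QuadraticMap.map_add Q _ _
          rw [hw1, hb4, h3, QuadraticMap.map_smul, QuadraticMap.map_smul, polar_smul_left,
            polar_smul_right, hQx, hxy]
          simp only [smul_eq_mul]
          linear_combination (Q y) * hαβ
    · intro i j _
      rw [hpolcomp, hg0, hg0, hpolsmul]
      rcases i with (i | i) | a <;> rcases j with (j | j) | a'
      · rw [hwe, hwe, polar_smul_left, polar_smul_right, hb1, hb1, (hH.2.2 i j).1]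
        simp
      · rw [hwe, hwf, polar_smul_left, hb1, hb2]
        rfl
      · rw [hb1]
        rcases hfin2 a' with rfl | rfl
        · rw [hwe, hw0, hb3, hex]
          simp only [polar_add_right, polar_smul_left, polar_smul_right, hex, hey, smul_eq_mul]
          ring
        · rw [hwe, hw1, hb4, hey]
          simp only [polar_add_right, polar_smul_left, polar_smul_right, hex, hey, smul_eq_mul]
          ring
      · rw [hwf, hwe, polar_smul_right, hb1, hb2]
        rfl
      · rw [hwf, hwf, hb2, hb2, (hH.2.2 i j).2]
        simp
      · rw [hb2]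
        rcases hfin2 a' with rfl | rfl
        · rw [hwf, hw0, hb3, hfx]
          simp only [polar_add_right, polar_smul_right, hfx, hfy, smul_eq_mul]
          ring
        · rw [hwf, hw1, hb4, hfy]
          simp only [polar_add_right, polar_smul_right, hfx, hfy, smul_eq_mul]
          ring
      · rw [hb1]
        rcases hfin2 a with rfl | rfl
        · rw [hwe, hw0, hb3, (hx j).1]
          simp only [polar_add_left, polar_smul_left, polar_smul_right, (hx _).1, (hy _).1,
            smul_eq_mul]
          ring
        · rw [hwe, hw1, hb4, (hy j).1]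
          simp only [polar_add_left, polar_smul_left, polar_smul_right, (hx _).1, (hy _).1,
            smul_eq_mul]
          ring
      · rw [hb2]
        rcases hfin2 a with rfl | rfl
        · rw [hwf, hw0, hb3, (hx j).2]
          simp only [polar_add_left, polar_smul_left, (hx _).2, (hy _).2, smul_eq_mul]
          ring
        · rw [hwf, hw1, hb4, (hy j).2]
          simp only [polar_add_left, polar_smul_left, (hx _).2, (hy _).2, smul_eq_mul]
          ring
      · rcases hfin2 a with rfl | rfl <;> rcases hfin2 a' with rfl | rfl
        · rw [hw0, hb3, hxx]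
          simp only [polar_add_left, polar_add_right, polar_smul_left, polar_smul_right, hxx,
            hyy, hxy, hyx, smul_eq_mul]
          linear_combination 2 * hαβ
        · rw [hw0, hw1, hb3, hb4, hxy]
          simp only [polar_add_left, polar_add_right, polar_smul_left, polar_smul_right, hxx,
            hyy, hxy, hyx, smul_eq_mul]
          linear_combination hαβ
        · rw [hw0, hw1, hb3, hb4, hyx]
          simp only [polar_add_left, polar_add_right, polar_smul_left, polar_smul_right, hxx,
            hyy, hxy, hyx, smul_eq_mul]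
          linear_combination hαβ
        · rw [hw1, hb4, hyy]
          simp only [polar_add_left, polar_add_right, polar_smul_left, polar_smul_right, hxx,
            hyy, hxy, hyx, smul_eq_mul]
          linear_combination (2 * Q y) * hαβ

end Cfsg.Agent.S2624
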