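import Cfsg.Statements.S0834
import Cfsg.Agent.S2624

set_option autoImplicit false
open Cfsg

namespace Cfsg.Agent.S0834

open Module TensorProduct QuadraticMap

section aux
variable {F U : Type*} [Field F] [Fintype F] [AddCommGroup U] [Module F U]
  [FiniteDimensional F U]

/-- Similitudes with arbitrary nonzero multiplier for a nondegenerate symmetric form in even
dimension. -/
theorem simil (h2 : (2 : F) ≠ 0) (B : LinearMap.BilinForm F U) (hB : B.Nondegenerate)
    (hS : B.IsSymm) (k : ℕ) (hk : 1 ≤ k) (hU : finrank F U = 2 * k) (c : F) (hc : c ≠ 0) :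
    ∃ g : U →ₗ[F] U, ∀ u u', B (g u) (g u') = c * B u u' := by
  classical
  have hsymm : ∀ x y, B x y = B y x := fun x y => hS.eq x y
  let e : U ≃ₗ[F] (Fin (finrank F U) → F) := (Module.finBasis F U).equivFun
  let Q : QuadraticForm F (Fin (finrank F U) → F) :=
    (LinearMap.BilinMap.toQuadraticMap B).comp (e.symm : (Fin (finrank F U) → F) →ₗ[F] U)
  have hQ : ∀ x, Q x = B (e.symm x) (e.symm x) := fun _ => rfl
  have hpol : ∀ x y, polar Q x y = 2 * B (e.symm x) (e.symm y) := by
    intro x y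
    simp only [polar, hQ, map_add, LinearMap.add_apply]
    rw [hsymm (e.symm y) (e.symm x)]
    ring
  have hQnd : (QuadraticMap.polarBilin Q).Nondegenerate := by
    have hL : ∀ x, (∀ y, polar Q x y = 0) → x = 0 := by
      intro x hx
      have h1 : e.symm x = 0 := by
        apply hB.1
        intro u
        have h3 := hx (e u)
        rw [hpol, LinearEquiv.symm_apply_apply] at h3
        exact (mul_eq_zero.mp h3).resolve_left h2
      exact (LinearEquiv.map_eq_zero_iff _).mp h1
    exact ⟨fun x hx => hL x hx, fun y hy => hL y (fun x => by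
      have h := hy x
      rw [polarBilin_apply_apply] at h
      rw [polar_comm]; exact h)⟩
  obtain ⟨g', hg'⟩ := Cfsg.Agent.S2624.result (by rw [hU]; omega) (by rw [hU]; exact even_two_mul k)
    Q hQnd c hc
  let g : U →ₗ[F] U := (e.symm : (Fin (finrank F U) → F) →ₗ[F] U) ∘ₗ
    (g' : (Fin (finrank F U) → F) →ₗ[F] (Fin (finrank F U) → F)) ∘ₗ (e : U →ₗ[F] _)
  have hg : ∀ u, g u = e.symm (g' (e u)) := fun _ => rfl
  have hgQ : ∀ u, B (g u) (g u) = c * B u u := by
    intro u
    have h1 := hg' (e u)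
    rw [hQ, hQ, LinearEquiv.symm_apply_apply] at h1
    rw [hg]
    exact h1
  refine ⟨g, fun u u' => ?_⟩
  have h1 := hgQ (u + u')
  rw [map_add] at h1
  simp only [map_add, LinearMap.add_apply, hgQ] at h1
  rw [hsymm (g u') (g u), hsymm u' u] at h1
  have h3 : 2 * (B (g u) (g u') - c * B u u') = 0 := by linear_combination h1
  exact sub_eq_zero.mp ((mul_eq_zero.mp h3).resolve_left h2)

end aux

/-- Over a finite field of odd order, the tensor product of two even-dimensional non-degenerate symmetric forms of minus type (Witt index one less than half the dimension) is of plus type. -/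
theorem result {F U W : Type*} [Field F] [Fintype F] [AddCommGroup U] [Module F U] [FiniteDimensional F U] [AddCommGroup W] [Module F W] [FiniteDimensional F W] (h2 : (2 : F) ≠ 0) (B₁ : LinearMap.BilinForm F U) (B₂ : LinearMap.BilinForm F W) (h₁ : B₁.Nondegenerate) (h₂ : B₂.Nondegenerate) (hS₁ : B₁.IsSymm) (hS₂ : B₂.IsSymm) (k l : ℕ) (hk : 1 ≤ k) (hl : 1 ≤ l) (hU : Module.finrank F U = 2 * k) (hW : Module.finrank F W = 2 * l) (hm₁ : ¬ (∃ X : Submodule F (U), Module.finrank F X = k ∧ ∀ x ∈ X, ∀ y ∈ X, (B₁) x y = 0)) (hm₂ : ¬ (∃ X : Submodule F (W), Module.finrank F X = l ∧ ∀ x ∈ X, ∀ y ∈ X, (B₂) x y = 0)) : (∃ X : Submodule F (TensorProduct F U W), Module.finrank F X = 2 * k * l ∧ ∀ x ∈ X, ∀ y ∈ X, (B₁.tmul B₂) x y = 0) := by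
  classical
  have : Invertible (2 : F) := invertibleOfNonzero h2
  obtain ⟨w0, hw0⟩ := LinearMap.BilinForm.exists_orthogonal_basis
    (LinearMap.BilinForm.isSymm_iff.mp hS₂)
  have hcard : Fintype.card (Fin (finrank F W)) = Fintype.card (Fin l ⊕ Fin l) := by
    simp [hW]; omega
  let w : Basis (Fin l ⊕ Fin l) F W := w0.reindex (Fintype.equivOfCardEq hcard)
  have hwo : ∀ s t, s ≠ t → B₂ (w s) (w t) = 0 := by
    intro s t hst
    simp only [w, Basis.reindex_apply]
    exact LinearMap.BilinForm.iIsOrtho_def.1 hw0 _ _ (fun h => hst ((Equiv.injective _) h))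
  have hwd : ∀ s, B₂ (w s) (w s) ≠ 0 := by
    intro s h0
    apply w.ne_zero s
    apply h₂.1
    intro y
    rw [← w.sum_repr y, map_sum]
    apply Finset.sum_eq_zero
    intro t _
    rw [map_smul]
    by_cases hst : s = t
    · subst hst; rw [h0, smul_zero]
    · rw [hwo s t hst, smul_zero]
  have hex : ∀ i : Fin l, ∃ g : U →ₗ[F] U, ∀ u u', B₁ (g u) (g u')
      = (-(B₂ (w (Sum.inl i)) (w (Sum.inl i))) / B₂ (w (Sum.inr i)) (w (Sum.inr i))) * B₁ u u' :=
    fun i => simil h2 B₁ h₁ hS₁ k hk hU _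
      (div_ne_zero (neg_ne_zero.mpr (hwd _)) (hwd _))
  choose g hg using hex
  set T := B₁.tmul B₂ with hTdef
  have hT : ∀ (u : U) (x : W) (u' : U) (x' : W),
      T (u ⊗ₜ[F] x) (u' ⊗ₜ[F] x') = B₂ x x' * B₁ u u' := by
    intro u x u' x'
    rfl
  let Θ : (Fin l → U) →ₗ[F] TensorProduct F U W :=
    ∑ i : Fin l, ((TensorProduct.mk F U W).flip (w (Sum.inl i)) ∘ₗ LinearMap.proj i
      + (TensorProduct.mk F U W).flip (w (Sum.inr i)) ∘ₗ g i ∘ₗ LinearMap.proj i)
  have hΘ : ∀ u : Fin l → U, Θ u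
      = ∑ i : Fin l, (u i ⊗ₜ[F] w (Sum.inl i) + g i (u i) ⊗ₜ[F] w (Sum.inr i)) := by
    intro u
    simp [Θ, LinearMap.sum_apply]
  have hinj : Function.Injective Θ := by
    rw [← LinearMap.ker_eq_bot, LinearMap.ker_eq_bot']
    intro u hu
    funext i
    let π : TensorProduct F U W →ₗ[F] U :=
      (TensorProduct.rid F U).toLinearMap ∘ₗ LinearMap.lTensor U (w.coord (Sum.inl i))
    have hπ : ∀ (u : U) (x : W), π (u ⊗ₜ[F] x) = w.coord (Sum.inl i) x • u := by
      intro u x
      simp [π]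
    have h1 := congrArg π hu
    rw [hΘ, map_sum, map_zero] at h1
    simp only [map_add, hπ, Basis.coord_apply, Basis.repr_self] at h1
    simpa [Finsupp.single_apply] using h1
  refine ⟨LinearMap.range Θ, ?_, ?_⟩
  · rw [LinearMap.finrank_range_of_inj hinj, Module.finrank_pi_fintype]
    simp [hU]
    ring
  · rintro _ ⟨u, rfl⟩ _ ⟨u', rfl⟩
    rw [hΘ, hΘ]
    simp only [map_sum, map_add, LinearMap.sum_apply, LinearMap.add_apply, hT]
    have hsum : ∀ (f : Fin l → F) (i : Fin l), (∀ j, j ≠ i → f j = 0) → ∑ x, f x = f i :=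
      fun f i h => Finset.sum_eq_single i (fun j _ hj => h j hj)
        (fun h => absurd (Finset.mem_univ i) h)
    apply Finset.sum_eq_zero
    intro i _
    rw [hsum _ i (fun j hj => by
        rw [hwo (Sum.inl j) (Sum.inl i) (by simpa using hj),
          hwo (Sum.inr j) (Sum.inl i) (by simp)]
        ring),
      hsum _ i (fun j hj => by
        rw [hwo (Sum.inl j) (Sum.inr i) (by simp),
          hwo (Sum.inr j) (Sum.inr i) (by simpa using hj)]
        ring),
      hwo (Sum.inl i) (Sum.inr i) (by simp), hwo (Sum.inr i) (Sum.inl i) (by simp), hg]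
    have := hwd (Sum.inr i)
    field_simp
    ring

end Cfsg.Agent.S0834
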