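import Cfsg.Statements.S0835
import Cfsg.Agent.Lib.Helper99.Disc

set_option autoImplicit false
open Cfsg

namespace Cfsg.Agent.S0835

open Module TensorProduct Cfsg.Agent.Lib.Helper99

/-- Over a finite field with 2 ≠ 0: if B₁ on U (dim 2k, k ≥ 1) is non-degenerate symmetric of minus type (no totally isotropic k-subspace) and B₂ on W (dim 2l + 1) is non-degenerate symmetric, then B₁ ⊗ B₂ (dimension 2k(2l+1)) admits no totally isotropic subspace of dimension k(2l+1) (minus type). -/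
theorem result {F U W : Type*} [Field F] [Fintype F] [AddCommGroup U] [Module F U] [FiniteDimensional F U] [AddCommGroup W] [Module F W] [FiniteDimensional F W] (h2 : (2 : F) ≠ 0) (B₁ : LinearMap.BilinForm F U) (B₂ : LinearMap.BilinForm F W) (h₁ : B₁.Nondegenerate) (h₂ : B₂.Nondegenerate) (hS₁ : B₁.IsSymm) (hS₂ : B₂.IsSymm) (k l : ℕ) (hk : 1 ≤ k) (hU : Module.finrank F U = 2 * k) (hW : Module.finrank F W = 2 * l + 1) (hm₁ : ¬ (∃ X : Submodule F (U), Module.finrank F X = k ∧ ∀ x ∈ X, ∀ y ∈ X, (B₁) x y = 0)) : ¬ (∃ X : Submodule F (TensorProduct F U W), Module.finrank F X = k * (2 * l + 1) ∧ ∀ x ∈ X, ∀ y ∈ X, (B₁.tmul B₂) x y = 0) := by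
  classical
  rintro ⟨X, hX, hti⟩
  apply hm₁
  obtain ⟨b₁, -⟩ : ∃ b : Basis (Fin (finrank F U)) F U, b = Module.finBasis F U := ⟨_, rfl⟩
  obtain ⟨b₂, -⟩ : ∃ b : Basis (Fin (finrank F W)) F W, b = Module.finBasis F W := ⟨_, rfl⟩
  have hsymm₁ : ∀ x y, B₁ x y = B₁ y x := fun x y => hS₁.eq x y
  have hsymm₂ : ∀ x y, B₂ x y = B₂ y x := fun x y => hS₂.eq x y
  obtain ⟨T, hTdef⟩ : ∃ T : LinearMap.BilinForm F (TensorProduct F U W), T = B₁.tmul B₂ :=
    ⟨_, rfl⟩
  have hT : ∀ (u : U) (w : W) (u' : U) (w' : W),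
      T (u ⊗ₜ[F] w) (u' ⊗ₜ[F] w') = B₂ w w' * B₁ u u' := by
    intro u w u' w'
    rw [hTdef]
    rfl
  have hflip : T = LinearMap.flip T := by
    apply TensorProduct.ext'
    intro u w
    apply TensorProduct.ext'
    intro u' w'
    rw [LinearMap.flip_apply, hT, hT, hsymm₁ u u', hsymm₂ w w']
  have hTsymm : ∀ x y, T x y = T y x := by
    intro x y
    have h := congrArg (fun S => S x y) hflip
    simpa using h
  have hfr : finrank F (TensorProduct F U W) = 2 * (k * (2 * l + 1)) := by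
    rw [Module.finrank_tensorProduct, hU, hW]
    ring
  obtain ⟨s, hs⟩ := ti_half_disc h2 T hTsymm (k * (2 * l + 1)) hfr X hX
    (fun x hx y hy => by rw [hTdef]; exact hti x hx y hy) (b₁.tensorProduct b₂)
  have hc1 : Fintype.card (Fin (finrank F W)) = 2 * l + 1 := by rw [Fintype.card_fin, hW]
  have hc2 : Fintype.card (Fin (finrank F U)) = 2 * k := by rw [Fintype.card_fin, hU]
  rw [hTdef, gram_tmul_det, hc1, hc2] at hs
  obtain ⟨d₁, hd₁⟩ : ∃ d : F, d = (Matrix.of fun i j => B₁ (b₁ i) (b₁ j)).det := ⟨_, rfl⟩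
  obtain ⟨d₂, hd₂⟩ : ∃ d : F, d = (Matrix.of fun i j => B₂ (b₂ i) (b₂ j)).det := ⟨_, rfl⟩
  rw [← hd₁, ← hd₂] at hs
  have hd₁0 : d₁ ≠ 0 := by
    have h3 := (LinearMap.BilinForm.nondegenerate_iff_det_ne_zero b₁).mp h₁
    have h4 : LinearMap.BilinForm.toMatrix b₁ B₁ = Matrix.of fun i j => B₁ (b₁ i) (b₁ j) := by
      ext i j
      simp [LinearMap.BilinForm.toMatrix_apply]
    rw [h4, ← hd₁] at h3
    exact h3
  have hd₂0 : d₂ ≠ 0 := by
    have h3 := (LinearMap.BilinForm.nondegenerate_iff_det_ne_zero b₂).mp h₂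
    have h4 : LinearMap.BilinForm.toMatrix b₂ B₂ = Matrix.of fun i j => B₂ (b₂ i) (b₂ j) := by
      ext i j
      simp [LinearMap.BilinForm.toMatrix_apply]
    rw [h4, ← hd₂] at h3
    exact h3
  apply exists_ti_of_disc h2 B₁ h₁ hsymm₁ k hU b₁
  rw [← hd₁]
  refine ⟨s / (d₁ ^ l * d₂ ^ k), ?_⟩
  have hE : ((-1 : F) ^ k) * (-1) ^ (k * (2 * l + 1)) = 1 := by
    rw [← pow_add]
    have h5 : k + k * (2 * l + 1) = 2 * (k * (l + 1)) := by ring
    rw [h5, pow_mul]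
    simp
  field_simp
  linear_combination ((-1 : F) ^ k) * hs + (s * s) * hE

end Cfsg.Agent.S0835
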