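import Mathlib
import Cfsg.Statements.S0836

set_option autoImplicit false
open Cfsg
open scoped commutatorElement

namespace Cfsg.Agent.S0836

open Matrix in
lemma comm_three_mat {F : Type*} [Field F] {ι : Type*} [Fintype ι] [DecidableEq ι]
    {i j k : ι} (hij : i ≠ j) (hik : i ≠ k) (hkj : k ≠ j) (c : F) :
    ((1 : Matrix ι ι F) + single i k c) * (1 + single k j 1) * (1 + single i k (-c)) *
      (1 + single k j (-1)) = 1 + single i j c := by
  simp only [mul_add, add_mul, mul_one, one_mul, single_mul_single_same,
    single_mul_single_of_ne _ _ _ _ hij.symm, single_mul_single_of_ne _ _ _ _ hik.symm,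
    single_mul_single_of_ne _ _ _ _ hkj.symm, add_zero]
  ext a b
  simp only [Matrix.add_apply, single_apply, one_apply]
  split_ifs <;> simp_all

open Matrix in
lemma comm_three {F : Type*} [Field F] {ι : Type*} [Fintype ι] [DecidableEq ι]
    {i j k : ι} (hij : i ≠ j) (hik : i ≠ k) (hkj : k ≠ j) (c : F) :
    ⁅SpecialLinearGroup.transvection hik c, SpecialLinearGroup.transvection hkj (1 : F)⁆ =
      SpecialLinearGroup.transvection hij c := by
  rw [commutatorElement_def, SpecialLinearGroup.transvection_inv, SpecialLinearGroup.transvection_inv]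
  exact Subtype.ext (by
    simpa [SpecialLinearGroup.coe_mul, SpecialLinearGroup.transvection_coe] using
      comm_three_mat hij hik hkj c)

open Matrix in
lemma comm_two_mat {F : Type*} [Field F] {ι : Type*} [Fintype ι] [DecidableEq ι]
    {i j : ι} (hij : i ≠ j) (a : F) (ha : a ≠ 0) (b : F) :
    diagonal (fun k ↦ if k = i then a else if k = j then a⁻¹ else 1) * ((1 : Matrix ι ι F) + single i j b) *
      diagonal (fun k ↦ if k = i then a⁻¹ else if k = j then a⁻¹⁻¹ else 1) * (1 + single i j (-b)) =
      1 + single i j (b * (a ^ 2 - 1)) := by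
  set D : Matrix ι ι F := diagonal (fun k ↦ if k = i then a else if k = j then a⁻¹ else 1) with hD
  set D' : Matrix ι ι F :=
    diagonal (fun k ↦ if k = i then a⁻¹ else if k = j then a⁻¹⁻¹ else 1) with hD'
  have h1 : D * D' = 1 := by
    rw [hD, hD', diagonal_mul_diagonal, ← diagonal_one]
    congr 1
    ext k
    by_cases h1 : k = i
    · simp [h1, ha]
    · by_cases h2 : k = j
      · simp [h2, hij.symm, ha]
      · simp [h1, h2]
  have h2 : D * single i j b * D' = single i j (b * a ^ 2) := by
    ext x y
    rw [hD, hD', mul_diagonal, diagonal_mul]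
    simp only [single_apply]
    by_cases hx : x = i
    · by_cases hy : y = j
      · subst hx; subst hy
        simp [hij.symm]
        ring
      · simp [hx, hy, Ne.symm hy]
    · simp [hx, Ne.symm hx]
  calc D * (1 + single i j b) * D' * (1 + single i j (-b))
      = (D * D' + D * single i j b * D') * (1 + single i j (-b)) := by
        simp only [mul_add, add_mul, mul_one]
    _ = (1 + single i j (b * a ^ 2)) * (1 + single i j (-b)) := by rw [h1, h2]
    _ = 1 + single i j (b * (a ^ 2 - 1)) := by
        simp only [mul_add, add_mul, mul_one, one_mul,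
          single_mul_single_of_ne _ _ _ _ hij.symm, add_zero]
        rw [add_assoc, ← single_add]
        congr 2
        ring

open Matrix in
lemma comm_two {F : Type*} [Field F] {ι : Type*} [Fintype ι] [DecidableEq ι]
    {i j : ι} (hij : i ≠ j) (a : F) (ha : a ≠ 0) (b : F) :
    ⁅SpecialLinearGroup.diag2n hij a ha, SpecialLinearGroup.transvection hij b⁆ =
      SpecialLinearGroup.transvection hij (b * (a ^ 2 - 1)) := by
  have hinv : (SpecialLinearGroup.diag2n hij a ha)⁻¹ =
      SpecialLinearGroup.diag2n hij a⁻¹ (inv_ne_zero ha) := by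
    apply inv_eq_of_mul_eq_one_right
    refine Subtype.ext ?_
    have : diagonal (fun k ↦ if k = i then a else if k = j then a⁻¹ else 1) *
        diagonal (fun k ↦ if k = i then a⁻¹ else if k = j then a⁻¹⁻¹ else 1) = (1 : Matrix ι ι F) := by
      rw [diagonal_mul_diagonal, ← diagonal_one]
      congr 1
      ext k
      by_cases h1 : k = i
      · simp [h1, ha]
      · by_cases h2 : k = j
        · simp [h2, hij.symm, ha]
        · simp [h1, h2]
    simpa [SpecialLinearGroup.coe_mul, SpecialLinearGroup.diag2n_coe] using this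
  rw [commutatorElement_def, SpecialLinearGroup.transvection_inv, hinv]
  exact Subtype.ext (by
    simpa [SpecialLinearGroup.coe_mul, SpecialLinearGroup.transvection_coe,
      SpecialLinearGroup.diag2n_coe] using comm_two_mat hij a ha b)

/-- For i ≠ j and any scalar c, the elementary transvection 1 + c E_ij is a commutator ⁅g, h⁆ of two elements of SL_n(F) provided n ≥ 3, or n = 2 and F contains x ≠ 0 with x² ≠ 1. -/
theorem result {F : Type*} [Field F] (n : ℕ) (hn : 3 ≤ n ∨ (n = 2 ∧ ∃ x : F, x ≠ 0 ∧ x ^ 2 ≠ 1)) (i j : Fin n) (hij : i ≠ j) (c : F) (t : Matrix.SpecialLinearGroup (Fin n) F) (ht : (t : Matrix (Fin n) (Fin n) F) = Matrix.transvection i j c) : t ∈ commutatorSet (Matrix.SpecialLinearGroup (Fin n) F) := by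
  have ht' : t = Matrix.SpecialLinearGroup.transvection hij c := by
    apply Subtype.ext
    rw [ht]; rfl
  rcases hn with hn | ⟨-, x, hx0, hx1⟩
  · -- find k different from i and j
    have : ∃ k : Fin n, k ≠ i ∧ k ≠ j := by
      by_contra hcon
      push Not at hcon
      have hsub : (Finset.univ : Finset (Fin n)) ⊆ {i, j} := by
        intro k _
        by_cases hk : k = i
        · simp [hk]
        · simp [hcon k hk]
      have := Finset.card_le_card hsub
      have h2 : ({i, j} : Finset (Fin n)).card ≤ 2 := Finset.card_le_two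
      simp at this
      omega
    obtain ⟨k, hki, hkj⟩ := this
    exact ⟨_, _, (comm_three hij hki.symm hkj c).trans ht'.symm⟩
  · have hne : x ^ 2 - 1 ≠ 0 := sub_ne_zero_of_ne hx1
    refine ⟨_, _, (comm_two hij x hx0 (c / (x ^ 2 - 1))).trans ?_⟩
    rw [ht', div_mul_cancel₀ c hne]

end Cfsg.Agent.S0836
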