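import Cfsg.Statements.S0838
import Cfsg.Agent.S2623

set_option autoImplicit false
open Cfsg

namespace Cfsg.Agent.S0838

open Module QuadraticMap

/-- Over a finite field with 2 ≠ 0 and n odd: two quadratic forms Q₁, Q₂ on F^n with non-degenerate polar forms are similar — there are an invertible linear map g and a scalar c ≠ 0 with Q₂ (g v) = c · Q₁ v for all v. -/
theorem result {F : Type*} [Field F] [Fintype F] (h2 : (2 : F) ≠ 0) {n : ℕ} (hn : Odd n) (Q₁ Q₂ : QuadraticForm F (Fin n → F)) (h₁ : (QuadraticMap.polarBilin Q₁).Nondegenerate) (h₂ : (QuadraticMap.polarBilin Q₂).Nondegenerate) : ∃ (g : (Fin n → F) ≃ₗ[F] (Fin n → F)) (c : F), c ≠ 0 ∧ ∀ v, Q₂ (g v) = c * Q₁ v := by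
  classical
  set D₁ := (Matrix.of fun i j : Fin n => polar Q₁ (Pi.single i 1) (Pi.single j 1)).det with hD₁
  set D₂ := (Matrix.of fun i j : Fin n => polar Q₂ (Pi.single i 1) (Pi.single j 1)).det with hD₂
  by_cases hsq : IsSquare (D₁ * D₂)
  · obtain ⟨g, hg⟩ := (Cfsg.Agent.S2623.result h2 Q₁ Q₂ h₁ h₂).mpr hsq
    exact ⟨g, 1, one_ne_zero, fun v => by rw [hg, one_mul]⟩
  · set c := D₁ * D₂ with hc
    have hc0 : c ≠ 0 := by
      intro h0
      apply hsq
      rw [h0]
      exact ⟨0, by simp⟩
    have hpol : ∀ x y, polar (c • Q₁) x y = c * polar Q₁ x y := by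
      intro x y
      show c • Q₁ (x + y) - c • Q₁ x - c • Q₁ y = c * (Q₁ (x + y) - Q₁ x - Q₁ y)
      simp only [smul_eq_mul]
      ring
    have h₁' : (QuadraticMap.polarBilin (c • Q₁)).Nondegenerate := by
      constructor
      · intro x hx
        apply h₁.1 x
        intro y
        have h3 := hx y
        rw [polarBilin_apply_apply, hpol] at h3
        exact (mul_eq_zero.mp h3).resolve_left hc0
      · intro y hy
        apply h₁.2 y
        intro x
        have h3 := hy x
        rw [polarBilin_apply_apply, hpol] at h3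
        exact (mul_eq_zero.mp h3).resolve_left hc0
    have hdet : (Matrix.of fun i j : Fin n =>
        polar (c • Q₁) (Pi.single i 1) (Pi.single j 1)).det = c ^ n * D₁ := by
      have h3 : (Matrix.of fun i j : Fin n => polar (c • Q₁) (Pi.single i 1) (Pi.single j 1))
          = c • (Matrix.of fun i j : Fin n => polar Q₁ (Pi.single i 1) (Pi.single j 1)) := by
        ext i j
        exact hpol _ _
      rw [h3, Matrix.det_smul, Fintype.card_fin]
    obtain ⟨m, hm⟩ := hn
    have hsq' : IsSquare ((Matrix.of fun i j : Fin n =>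
        polar (c • Q₁) (Pi.single i 1) (Pi.single j 1)).det * D₂) := by
      rw [hdet]
      refine ⟨c ^ (m + 1), ?_⟩
      rw [hm, mul_assoc, ← hc]
      ring
    obtain ⟨g, hg⟩ := (Cfsg.Agent.S2623.result h2 (c • Q₁) Q₂ h₁' h₂).mpr hsq'
    exact ⟨g, c, hc0, fun v => by rw [hg]; rfl⟩

end Cfsg.Agent.S0838
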