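import Cfsg.Statements.S0839
import Cfsg.Agent.Lib.Helper43.Transvec2
-- import your own Cfsg.Agent.* helpers here

set_option autoImplicit false
open Cfsg

namespace Cfsg.Agent.S0839

/-- Every transvection t ∈ SL_(n+2)(F) (rank(t − 1) = 1, (t − 1)² = 0) is conjugate in SL_(n+2)(F) to 1 + v·e_0ᵀ for some column vector v with v_0 = 0 (the group A of matrices that are the identity except in the first column below the diagonal); the dimension is written n + 2 ≥ 2. -/
theorem result {F : Type*} [Field F] (n : ℕ) (t : Matrix.SpecialLinearGroup (Fin (n + 2)) F) (ht : Cfsg.IsTransvection (t : Matrix (Fin (n + 2)) (Fin (n + 2)) F)) : ∃ (g : Matrix.SpecialLinearGroup (Fin (n + 2)) F) (v : Fin (n + 2) → F), v 0 = 0 ∧ ((g⁻¹ * t * g : Matrix.SpecialLinearGroup (Fin (n + 2)) F) : Matrix (Fin (n + 2)) (Fin (n + 2)) F) = 1 + Matrix.vecMulVec v (Pi.single 0 1) := by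
  classical
  obtain ⟨a, φ, htM, ha, hφ, hφa⟩ :=
    Cfsg.Agent.Lib.Helper43.exists_vecMulVec_of_rank_one _ ht.1 ht.2
  have he : (Pi.single 0 1 : Fin (n + 2) → F) ≠ 0 := by
    intro h
    have := congrFun h 0
    rw [Pi.single_eq_same] at this
    exact one_ne_zero this
  obtain ⟨g, hg⟩ := Cfsg.Agent.Lib.Helper43.exists_sl_vecMul (F := F) (n := n + 2) (by omega)
    (Pi.single 0 1) φ he hφ
  have hgg : ((g⁻¹ : Matrix.SpecialLinearGroup (Fin (n + 2)) F) : Matrix (Fin (n + 2)) (Fin (n + 2)) F)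
      * (g : Matrix (Fin (n + 2)) (Fin (n + 2)) F) = 1 := by
    rw [← Matrix.SpecialLinearGroup.coe_mul, inv_mul_cancel, Matrix.SpecialLinearGroup.coe_one]
  have hgg' : (g : Matrix (Fin (n + 2)) (Fin (n + 2)) F)
      * ((g⁻¹ : Matrix.SpecialLinearGroup (Fin (n + 2)) F) : Matrix (Fin (n + 2)) (Fin (n + 2)) F) = 1 := by
    rw [← Matrix.SpecialLinearGroup.coe_mul, mul_inv_cancel, Matrix.SpecialLinearGroup.coe_one]
  have ht' : (t : Matrix (Fin (n + 2)) (Fin (n + 2)) F) = 1 + Matrix.vecMulVec a φ := by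
    rw [← htM]; abel
  refine ⟨g, ((g⁻¹ : Matrix.SpecialLinearGroup (Fin (n + 2)) F) : Matrix (Fin (n + 2)) (Fin (n + 2)) F).mulVec a,
    ?_, ?_⟩
  · have h1 : (Pi.single 0 1 : Fin (n + 2) → F) ⬝ᵥ
        (((g⁻¹ : Matrix.SpecialLinearGroup (Fin (n + 2)) F) : Matrix (Fin (n + 2)) (Fin (n + 2)) F).mulVec a)
        = 0 := by
      rw [← hg, ← Matrix.dotProduct_mulVec, Matrix.mulVec_mulVec, hgg', Matrix.one_mulVec, hφa]
    rw [single_one_dotProduct] at h1
    exact h1
  · rw [Matrix.SpecialLinearGroup.coe_mul, Matrix.SpecialLinearGroup.coe_mul, ht', mul_add, add_mul,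
      mul_one, hgg, Matrix.mul_vecMulVec, Matrix.vecMulVec_mul, hg]

end Cfsg.Agent.S0839
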