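import Cfsg.Statements.S0840
import Cfsg.Agent.Lib.Helper81.Schur
import Cfsg.Agent.Lib.Helper3.CharOrtho
import Cfsg.Agent.Lib.Helper16.ClassSum
import Cfsg.Agent.Lib.Helper80.CharKer

set_option autoImplicit false
open Cfsg
open scoped ComplexConjugate

namespace Cfsg.Agent.S0840

open Cfsg.Agent.Lib

/-- generalized orthogonality for irreducible characters -/
theorem irr_sum_conj {G : Type*} [Group G] [Fintype G] {χ : G → ℂ}
    (hχ : Cfsg.IsIrrCharacter G χ) (a b : G) :
    ∑ y : G, χ (a * (y * b * y⁻¹)) = (Nat.card G : ℂ) * χ a * χ b / χ 1 := by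
  obtain ⟨n, ρ, hirr, rfl⟩ := hχ
  have := hirr
  rw [Helper81.sum_char_mul_conj ρ a b, Representation.char_one]

/-- the number of pairs `(z, w)` with `z a z⁻¹ * (w b w⁻¹) = c` -/
theorem card_pairs {G : Type*} [Group G] [Fintype G] [DecidableEq G] (a b c : G) :
    (Finset.univ.filter (fun q : G × G => q.1 * a * q.1⁻¹ * (q.2 * b * q.2⁻¹) = c)).card =
      Nat.card (Subgroup.centralizer ({a} : Set G)) * Nat.card (Subgroup.centralizer ({b} : Set G))
        * Nat.card {p : G × G // IsConj a p.1 ∧ IsConj b p.2 ∧ p.1 * p.2 = c} := by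
  classical
  set A := Finset.univ.filter (fun q : G × G => q.1 * a * q.1⁻¹ * (q.2 * b * q.2⁻¹) = c)
  set B := Finset.univ.filter (fun p : G × G => IsConj a p.1 ∧ IsConj b p.2 ∧ p.1 * p.2 = c)
  have hmaps : ∀ q ∈ A, (fun q : G × G => (q.1 * a * q.1⁻¹, q.2 * b * q.2⁻¹)) q ∈ B := by
    intro q hq
    simp only [A, Finset.mem_filter, Finset.mem_univ, true_and] at hq
    simp only [B, Finset.mem_filter, Finset.mem_univ, true_and]
    exact ⟨isConj_iff.mpr ⟨q.1, rfl⟩, isConj_iff.mpr ⟨q.2, rfl⟩, hq⟩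
  rw [Finset.card_eq_sum_card_fiberwise hmaps]
  have hfib : ∀ p ∈ B, (A.filter (fun q : G × G => (q.1 * a * q.1⁻¹, q.2 * b * q.2⁻¹) = p)).card
      = Nat.card (Subgroup.centralizer ({a} : Set G)) *
        Nat.card (Subgroup.centralizer ({b} : Set G)) := by
    intro p hp
    simp only [B, Finset.mem_filter, Finset.mem_univ, true_and] at hp
    have hset : A.filter (fun q : G × G => (q.1 * a * q.1⁻¹, q.2 * b * q.2⁻¹) = p) =
        (Finset.univ.filter (fun x : G => x * a * x⁻¹ = p.1)) ×ˢ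
          (Finset.univ.filter (fun x : G => x * b * x⁻¹ = p.2)) := by
      ext q
      simp only [A, Finset.mem_filter, Finset.mem_univ, true_and, Finset.mem_product]
      constructor
      · rintro ⟨-, h⟩
        rw [← h]; exact ⟨rfl, rfl⟩
      · rintro ⟨h1, h2⟩
        refine ⟨?_, ?_⟩
        · rw [h1, h2]; exact hp.2.2
        · rw [h1, h2]
    rw [hset, Finset.card_product, Helper3.card_filter_conj_of_isConj hp.1,
      Helper3.card_filter_conj_of_isConj hp.2.1]
  rw [Finset.sum_congr rfl hfib, Finset.sum_const, smul_eq_mul, mul_comm]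
  congr 1
  rw [Nat.card_eq_fintype_card, Fintype.card_subtype]

/-- class size times centralizer order -/
theorem card_class_mul {G : Type*} [Group G] [Finite G] (a : G) :
    Nat.card {x : G // IsConj a x} * Nat.card (Subgroup.centralizer ({a} : Set G)) =
      Nat.card G := by
  classical
  have := Fintype.ofFinite G
  rw [Nat.card_eq_fintype_card, Fintype.card_subtype, Helper16.card_isConj, mul_comm,
    Subgroup.card_mul_index]

/-- For a, b, c in a finite group, the number of ordered pairs (x, y) with x conjugate to a, y conjugate to b and xy = c equals (class size of a)(class size of b)/(order of G) times the sum over irreducible characters χ of χ(a)χ(b)·conj χ(c)/χ(1). -/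
theorem result {G : Type*} [Group G] [Finite G] (a b c : G) : (Nat.card {p : G × G // IsConj a p.1 ∧ IsConj b p.2 ∧ p.1 * p.2 = c} : ℂ) = (Nat.card {x : G // IsConj a x} : ℂ) * (Nat.card {x : G // IsConj b x} : ℂ) / (Nat.card G : ℂ) * ∑ᶠ χ : Cfsg.IrrCharacter G, (χ : G → ℂ) a * (χ : G → ℂ) b * conj ((χ : G → ℂ) c) / (χ : G → ℂ) 1 := by
  classical
  have := Fintype.ofFinite G
  have := Fintype.ofFinite (Cfsg.IrrCharacter G)
  rw [finsum_eq_sum_of_fintype]
  have hG0 : (Nat.card G : ℂ) ≠ 0 := Nat.cast_ne_zero.mpr Nat.card_pos.ne'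
  -- step 1
  have hS : ∑ χ : Cfsg.IrrCharacter G,
      (χ : G → ℂ) a * (χ : G → ℂ) b * conj ((χ : G → ℂ) c) / (χ : G → ℂ) 1 =
      (Nat.card G : ℂ)⁻¹ * ∑ y : G,
        ((Finset.univ.filter (fun x : G => x * (a * (y * b * y⁻¹)) * x⁻¹ = c)).card : ℂ) := by
    have h1 : ∀ χ : Cfsg.IrrCharacter G,
        (χ : G → ℂ) a * (χ : G → ℂ) b * conj ((χ : G → ℂ) c) / (χ : G → ℂ) 1 =
        (Nat.card G : ℂ)⁻¹ * ∑ y : G, (χ : G → ℂ) (a * (y * b * y⁻¹)) * conj ((χ : G → ℂ) c) := by
      intro χ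
      have h10 : (χ : G → ℂ) 1 ≠ 0 := Helper80.char_one_ne_zero χ.2
      rw [← Finset.sum_mul, irr_sum_conj χ.2]
      field_simp
    rw [Finset.sum_congr rfl (fun χ _ => h1 χ), ← Finset.mul_sum, Finset.sum_comm]
    congr 1
    refine Finset.sum_congr rfl fun y _ => ?_
    exact Helper3.second_orthogonality_count (a * (y * b * y⁻¹)) c
  -- step 2
  have hcount : ∑ y : G, (Finset.univ.filter (fun x : G => x * (a * (y * b * y⁻¹)) * x⁻¹ = c)).card
      = (Finset.univ.filter (fun q : G × G => q.1 * a * q.1⁻¹ * (q.2 * b * q.2⁻¹) = c)).card := by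
    simp only [Finset.card_filter]
    rw [← Fintype.sum_prod_type (f := fun q : G × G =>
      if q.2 * (a * (q.1 * b * q.1⁻¹)) * q.2⁻¹ = c then 1 else 0)]
    refine Fintype.sum_equiv ((Equiv.prodComm G G).trans
      (Equiv.prodShear (Equiv.refl G) (fun x => Equiv.mulLeft x))) _ _ ?_
    rintro ⟨y, x⟩
    have : x * (a * (y * b * y⁻¹)) * x⁻¹ = x * a * x⁻¹ * (x * y * b * (x * y)⁻¹) := by group
    simp [this]
  rw [hS]
  have hcount' : (∑ y : G,
      ((Finset.univ.filter (fun x : G => x * (a * (y * b * y⁻¹)) * x⁻¹ = c)).card : ℂ)) =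
      ((Nat.card (Subgroup.centralizer ({a} : Set G)) *
        Nat.card (Subgroup.centralizer ({b} : Set G)) *
        Nat.card {p : G × G // IsConj a p.1 ∧ IsConj b p.2 ∧ p.1 * p.2 = c} : ℕ) : ℂ) := by
    rw [← card_pairs a b c, ← hcount]; push_cast; rfl
  rw [hcount']
  have ha := card_class_mul a
  have hb := card_class_mul b
  have ha' : (Nat.card {x : G // IsConj a x} : ℂ) *
      (Nat.card (Subgroup.centralizer ({a} : Set G)) : ℂ) = (Nat.card G : ℂ) := by
    exact_mod_cast ha
  have hb' : (Nat.card {x : G // IsConj b x} : ℂ) *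
      (Nat.card (Subgroup.centralizer ({b} : Set G)) : ℂ) = (Nat.card G : ℂ) := by
    exact_mod_cast hb
  push_cast
  have key : ∀ (n x y ca cb g : ℂ), g ≠ 0 → x * ca = g → y * cb = g →
      n = x * y / g * (g⁻¹ * (ca * cb * n)) := by
    intro n x y ca cb g hg h1 h2
    have : x * y / g * (g⁻¹ * (ca * cb * n)) = (x * ca) * (y * cb) / (g * g) * n := by
      field_simp
    rw [this, h1, h2, div_self (mul_ne_zero hg hg), one_mul]
  exact key _ _ _ _ _ _ hG0 ha' hb'

end Cfsg.Agent.S0840
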