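import Cfsg.Statements.S0846
import Cfsg.Agent.Lib.Helper3.QuatInv

set_option autoImplicit false
open Cfsg

namespace Cfsg.Agent.S0846

/-- Suppose a Sylow 2-subgroup S of the finite group G is generalized quaternion of order at least 16. Then every Sylow 2-subgroup of the subgroup generated by the involutions of G is cyclic. -/
theorem result {G : Type*} [Group G] [Finite G] (S : Sylow 2 G) (n : ℕ) (e : (S : Subgroup G) ≃* QuaternionGroup (2 ^ (n + 2))) (Q : Sylow 2 ↥(Subgroup.closure {g : G | orderOf g = 2})) : IsCyclic Q := by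
  classical
  have : Fact (Nat.Prime 2) := ⟨Nat.prime_two⟩
  obtain ⟨M, α, hM, hinv, -, -, hSM⟩ := Cfsg.Agent.Lib.Helper3.quat_ker S n e
  have hIM : Subgroup.closure {g : G | orderOf g = 2} ≤ M := by
    rw [Subgroup.closure_le]
    intro g hg
    exact hinv g hg
  have hP : IsPGroup 2 ((Q : Subgroup (Subgroup.closure {g : G | orderOf g = 2})).map
      (Subgroup.subtype _)) := Q.isPGroup'.map _
  obtain ⟨g, hg⟩ := Cfsg.Agent.Lib.Helper3.exists_conj_le_sylow S _ hP
  have hmem : ∀ x : (Q : Subgroup (Subgroup.closure {g : G | orderOf g = 2})),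
      g * ((x : Subgroup.closure {g : G | orderOf g = 2}) : G) * g⁻¹ ∈ Subgroup.zpowers α := by
    intro x
    apply hSM
    · exact hg _ (Subgroup.mem_map_of_mem _ x.2)
    · exact hM.conj_mem _ (hIM x.1.2) g
  let f : (Q : Subgroup (Subgroup.closure {g : G | orderOf g = 2})) →* Subgroup.zpowers α :=
    { toFun := fun x => ⟨g * ((x : Subgroup.closure {g : G | orderOf g = 2}) : G) * g⁻¹, hmem x⟩
      map_one' := by
        apply Subtype.ext
        simp
      map_mul' := fun x y => by
        apply Subtype.ext
        simp }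
  have hf : Function.Injective f := by
    intro x y hxy
    have h1 : g * ((x : Subgroup.closure {g : G | orderOf g = 2}) : G) * g⁻¹ =
        g * ((y : Subgroup.closure {g : G | orderOf g = 2}) : G) * g⁻¹ :=
      congrArg Subtype.val hxy
    have h2 : ((x : Subgroup.closure {g : G | orderOf g = 2}) : G) =
        ((y : Subgroup.closure {g : G | orderOf g = 2}) : G) := by
      simpa using h1
    exact Subtype.ext (Subtype.ext h2)
  exact isCyclic_of_injective f hf

end Cfsg.Agent.S0846
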