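import Cfsg.Statements.S0848
import Mathlib
import Cfsg.Agent.Lib.Helper73.D8Cent
import Cfsg.Agent.Lib.Helper73.D8Arith
import Cfsg.Agent.Lib.Helper73.TwistSum
import Cfsg.Agent.Lib.Helper79.ClassMult
import Cfsg.Agent.Lib.Helper81.CharCore
import Cfsg.Agent.Lib.Helper77.Defect

set_option autoImplicit false
open Cfsg

namespace Cfsg.Agent.S0848

open Cfsg.Agent.Lib.Helper73

/-- If a finite group equals its own commutator subgroup and contains an involution whose centralizer is isomorphic to the dihedral group of order 8, then the group has order 168 or 360. -/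
theorem result {G : Type*} [Group G] [Finite G] (hperf : commutator G = ⊤) (t : G) (ht : orderOf t = 2) (e : Subgroup.centralizer ({t} : Set G) ≃* DihedralGroup 4) : Nat.card G = 168 ∨ Nat.card G = 360 := by
  classical
  obtain ⟨σ, hσσ, ⟨s, hs⟩, hcardt, hcardσ, hfus, ⟨m, hm, hG⟩, hN1, hN2⟩ :=
    d8c_structure hperf t ht e
  letI : Fintype G := Fintype.ofFinite G
  haveI : Finite (Cfsg.IrrCharacter G) := Cfsg.Agent.Lib.Helper81.irr_finite G
  letI : Fintype (Cfsg.IrrCharacter G) := Fintype.ofFinite _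
  have ht2 : t * t = 1 := by rw [← pow_two, ← ht, pow_orderOf_eq_one]
  have ht1 : t ≠ 1 := by intro h; rw [h, orderOf_one] at ht; omega
  have htinv : t⁻¹ = t := inv_eq_of_mul_eq_one_left ht2
  have hσ4 : σ ^ 4 = 1 := by
    have : σ ^ 4 = (σ * σ) * (σ * σ) := by simp only [pow_succ, pow_zero, one_mul, mul_assoc]
    rw [this, hσσ, ht2]
  have hσ2 : σ ^ 2 = t := by rw [pow_two, hσσ]
  have hσ3 : σ ^ 3 = σ⁻¹ := by rw [eq_inv_iff_mul_eq_one, ← pow_succ, hσ4]
  have hσ1 : σ ≠ 1 := by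
    intro h; rw [h, one_mul] at hσσ; exact ht1 hσσ.symm
  have hσo : orderOf σ = 4 := by
    have h1 : ¬ σ ^ 2 ^ 1 = 1 := by rw [pow_one, hσ2]; exact ht1
    have h2 : σ ^ 2 ^ (1 + 1) = 1 := hσ4
    simpa using orderOf_eq_prime_pow h1 h2
  -- integrality data
  have hdata : ∀ χ : Cfsg.IrrCharacter G, ∃ (f : ℕ) (a b d : ℤ), 0 < f ∧
      (χ : G → ℂ) 1 = (f : ℂ) ∧ (χ : G → ℂ) t = (a : ℂ) ∧ (χ : G → ℂ) σ = (b : ℂ) ∧
      a + b = 2 * d := by
    intro χ
    obtain ⟨x, hx0, hx⟩ := Cfsg.Agent.Lib.Helper81.irr_one_eq χ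
    have hconj : (χ : G → ℂ) (σ ^ 3) = (χ : G → ℂ) σ := by
      rw [hσ3, ← hs]
      exact Cfsg.Agent.Lib.Helper81.irr_conj_class χ σ s
    have hchar := Cfsg.Agent.Lib.Helper3.isCharacter_of_irr χ.2
    obtain ⟨c, g, hc, hg⟩ := char_data_of_pow_four hchar σ hσ4 hconj
    obtain ⟨m₁, hm₁⟩ := twist_char hchar σ hσ4 1 (by norm_num)
    rw [hconj, hσ2] at hm₁
    rw [hσ2] at hg
    have hta : (χ : G → ℂ) t = (((x : ℤ) - 4 * (g : ℤ) : ℤ) : ℂ) := by
      push_cast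
      have hx' : (χ : G → ℂ) 1 = (x : ℂ) := hx
      rw [← hx']
      linear_combination -hg
    refine ⟨x, (x : ℤ) - 4 * g, c, (m₁ : ℤ) - g, hx0, hx, hta, hc, ?_⟩
    have hx' : (χ : G → ℂ) 1 = (x : ℂ) := hx
    rw [hta, hx', hc] at hm₁
    have h : (((x : ℤ) + c + ((x : ℤ) - 4 * g) + c : ℤ) : ℂ) = ((4 * (m₁ : ℤ) : ℤ) : ℂ) := by
      push_cast
      push_cast at hm₁
      linear_combination hm₁
    have h' : (x : ℤ) + c + ((x : ℤ) - 4 * g) + c = 4 * (m₁ : ℤ) := by exact_mod_cast h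
    linarith
  choose f a b d hf0 hf1 ha hb hd using hdata
  -- orthogonality relations
  have haa : ∑ χ : Cfsg.IrrCharacter G, a χ ^ 2 = 8 := by
    have h := Cfsg.Agent.Lib.Helper81.irr_col_orth (G := G) t t
    simp only [ha, map_intCast, hcardt] at h
    have h' : ((∑ χ : Cfsg.IrrCharacter G, a χ ^ 2 : ℤ) : ℂ) = ((8 : ℤ) : ℂ) := by
      push_cast
      rw [← Nat.cast_ofNat (n := 8), ← h]
      exact Finset.sum_congr rfl (fun χ _ => by ring)
    exact_mod_cast h'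
  have hbb : ∑ χ : Cfsg.IrrCharacter G, b χ ^ 2 = 4 := by
    have h := Cfsg.Agent.Lib.Helper81.irr_col_orth (G := G) σ σ
    simp only [hb, map_intCast, hcardσ] at h
    have h' : ((∑ χ : Cfsg.IrrCharacter G, b χ ^ 2 : ℤ) : ℂ) = ((4 : ℤ) : ℂ) := by
      push_cast
      rw [← Nat.cast_ofNat (n := 4), ← h]
      exact Finset.sum_congr rfl (fun χ _ => by ring)
    exact_mod_cast h'
  have hE1 : Nat.card {y : G // y * σ * y⁻¹ = t} = 0 := by
    rw [Nat.card_eq_zero]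
    left
    constructor
    rintro ⟨y, hy⟩
    have := Cfsg.Agent.Lib.Helper53.orderOf_conj_eq y σ
    rw [hy, ht, hσo] at this
    omega
  have hE2 : Nat.card {y : G // y * 1 * y⁻¹ = t} = 0 := by
    rw [Nat.card_eq_zero]
    left
    constructor
    rintro ⟨y, hy⟩
    apply ht1
    rw [← hy]; group
  have hE3 : Nat.card {y : G // y * 1 * y⁻¹ = σ} = 0 := by
    rw [Nat.card_eq_zero]
    left
    constructor
    rintro ⟨y, hy⟩
    apply hσ1
    rw [← hy]; group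
  have hab : ∑ χ : Cfsg.IrrCharacter G, a χ * b χ = 0 := by
    have h := Cfsg.Agent.Lib.Helper81.irr_col_orth (G := G) t σ
    simp only [ha, hb, map_intCast, hE1] at h
    have h' : ((∑ χ : Cfsg.IrrCharacter G, a χ * b χ : ℤ) : ℂ) = ((0 : ℤ) : ℂ) := by
      push_cast
      rw [h]; simp
    exact_mod_cast h'
  have hfa : ∑ χ : Cfsg.IrrCharacter G, (f χ : ℤ) * a χ = 0 := by
    have h := Cfsg.Agent.Lib.Helper81.irr_col_orth (G := G) t 1
    simp only [ha, hf1, map_natCast, hE2] at h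
    have h' : ((∑ χ : Cfsg.IrrCharacter G, (f χ : ℤ) * a χ : ℤ) : ℂ) = ((0 : ℤ) : ℂ) := by
      push_cast
      rw [← Nat.cast_zero, ← h]
      exact Finset.sum_congr rfl (fun χ _ => by ring)
    exact_mod_cast h'
  have hfb : ∑ χ : Cfsg.IrrCharacter G, (f χ : ℤ) * b χ = 0 := by
    have h := Cfsg.Agent.Lib.Helper81.irr_col_orth (G := G) σ 1
    simp only [hb, hf1, map_natCast, hE3] at h
    have h' : ((∑ χ : Cfsg.IrrCharacter G, (f χ : ℤ) * b χ : ℤ) : ℂ) = ((0 : ℤ) : ℂ) := by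
      push_cast
      rw [← Nat.cast_zero, ← h]
      exact Finset.sum_congr rfl (fun χ _ => by ring)
    exact_mod_cast h'
  -- class multiplication
  have hiff : ∀ x : G, IsConj x t ↔ orderOf x = 2 := by
    intro x
    constructor
    · intro h
      obtain ⟨c, hc⟩ := isConj_iff.mp h
      rw [← ht, ← hc, Cfsg.Agent.Lib.Helper53.orderOf_conj_eq]
    · exact hfus x
  have hCt : Nat.card (Subgroup.centralizer ({t} : Set G)) = 8 := by
    rw [Nat.card_congr e.toEquiv, DihedralGroup.nat_card]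
  have hG0 : (Nat.card G : ℂ) ≠ 0 := by exact_mod_cast Nat.card_pos.ne'
  have hfilt1 : ((Finset.univ.filter (fun g : G => IsConj (g * t * g⁻¹ * t) t)).card : ℂ) = 32 := by
    have h1 : (Finset.univ.filter (fun g : G => IsConj (g * t * g⁻¹ * t) t)) =
        Finset.univ.filter (fun g : G => orderOf (g * t * g⁻¹ * t) = 2) :=
      Finset.filter_congr (fun g _ => hiff _)
    rw [h1, ← Fintype.card_subtype, ← Nat.card_eq_fintype_card, hN1]
    norm_num
  have hfilt2 : ((Finset.univ.filter (fun g : G => IsConj (g * t * g⁻¹ * σ) t)).card : ℂ) = 32 := by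
    have h1 : (Finset.univ.filter (fun g : G => IsConj (g * t * g⁻¹ * σ) t)) =
        Finset.univ.filter (fun g : G => orderOf (g * t * g⁻¹ * σ) = 2) :=
      Finset.filter_congr (fun g _ => hiff _)
    rw [h1, ← Fintype.card_subtype, ← Nat.card_eq_fintype_card, hN2]
    norm_num
  have h3 : (Nat.card G : ℚ) * ∑ χ : Cfsg.IrrCharacter G,
      (((a χ : ℤ) : ℚ)) ^ 3 / (((f χ : ℕ) : ℤ) : ℚ) = 256 := by
    have hcm := Cfsg.Agent.Lib.Helper79.irr_class_mult (G := G) t t t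
    rw [htinv, hCt] at hcm
    simp only [ha, hf1] at hcm
    have hC : (Nat.card G : ℂ) * ∑ χ : Cfsg.IrrCharacter G, ((a χ : ℂ)) ^ 3 / ((f χ : ℂ)) =
        256 := by
      have h1 : ∑ χ : Cfsg.IrrCharacter G, ((a χ : ℂ)) ^ 3 / ((f χ : ℂ)) =
          ∑ χ : Cfsg.IrrCharacter G, (a χ : ℂ) * (a χ : ℂ) / (f χ : ℂ) * (a χ : ℂ) :=
        Finset.sum_congr rfl (fun χ _ => by ring)
      rw [h1, hcm, hfilt1]
      field_simp
      norm_num
    exact_mod_cast hC
  have h4 : (Nat.card G : ℚ) * ∑ χ : Cfsg.IrrCharacter G,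
      (((a χ : ℤ) : ℚ)) ^ 2 * ((b χ : ℤ) : ℚ) / (((f χ : ℕ) : ℤ) : ℚ) = 256 := by
    have hcm := Cfsg.Agent.Lib.Helper79.irr_class_mult (G := G) t σ t
    rw [htinv, hCt] at hcm
    simp only [ha, hb, hf1] at hcm
    have hC : (Nat.card G : ℂ) * ∑ χ : Cfsg.IrrCharacter G,
        ((a χ : ℂ)) ^ 2 * (b χ : ℂ) / ((f χ : ℂ)) = 256 := by
      have h1 : ∑ χ : Cfsg.IrrCharacter G, ((a χ : ℂ)) ^ 2 * (b χ : ℂ) / ((f χ : ℂ)) =
          ∑ χ : Cfsg.IrrCharacter G, (a χ : ℂ) * (b χ : ℂ) / (f χ : ℂ) * (a χ : ℂ) :=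
        Finset.sum_congr rfl (fun χ _ => by ring)
      rw [h1, hcm, hfilt2]
      field_simp
      norm_num
    exact_mod_cast hC
  -- the trivial character
  have h0f : ((f (Cfsg.Agent.Lib.Helper77.trivIrr G) : ℕ) : ℤ) = 1 := by
    have h := hf1 (Cfsg.Agent.Lib.Helper77.trivIrr G)
    rw [Cfsg.Agent.Lib.Helper77.trivIrr_apply] at h
    exact_mod_cast h.symm
  have h0a : a (Cfsg.Agent.Lib.Helper77.trivIrr G) = 1 := by
    have h := ha (Cfsg.Agent.Lib.Helper77.trivIrr G)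
    rw [Cfsg.Agent.Lib.Helper77.trivIrr_apply] at h
    exact_mod_cast h.symm
  have h0b : b (Cfsg.Agent.Lib.Helper77.trivIrr G) = 1 := by
    have h := hb (Cfsg.Agent.Lib.Helper77.trivIrr G)
    rw [Cfsg.Agent.Lib.Helper77.trivIrr_apply] at h
    exact_mod_cast h.symm
  obtain ⟨x, hx0, hx⟩ := d8a_core (fun χ : Cfsg.IrrCharacter G => ((f χ : ℕ) : ℤ)) a b
    (Cfsg.Agent.Lib.Helper77.trivIrr G) (Nat.card G : ℚ) (fun χ => by exact_mod_cast hf0 χ)
    h0f h0a h0b (fun χ => ⟨d χ, hd χ⟩) haa hbb hab hfa hfb h3 h4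
  rw [hG] at hx ⊢
  exact d8a_final m hm x hx0 hx

end Cfsg.Agent.S0848
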