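import Mathlib
import Cfsg.Statements.S0849

set_option autoImplicit false
open Cfsg

namespace Cfsg.Agent.S0849

/-- Let H be a subgroup of a finite group G and S a subset of H that is mapped to itself under conjugation by H, is disjoint from its conjugate by any element outside H, and is closed under inverses. Let φ be a class function of H vanishing on H away from S, and let u, v be involutions of G. Then the sum of the induced function of φ over all products a * b with a conjugate to u and b conjugate to v equals the index of H times the sum of φ (a * b) over such pairs with a and b in H. -/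
theorem result {G : Type*} [Group G] [Fintype G] (H : Subgroup G) (S : Set G) (hSH : S ⊆ H) (hHS : ∀ h ∈ H, ∀ s ∈ S, h * s * h⁻¹ ∈ S) (hTI : ∀ g : G, g ∉ H → ∀ s ∈ S, g * s * g⁻¹ ∉ S) (hinv : ∀ s ∈ S, s⁻¹ ∈ S) (φ : H → ℂ) (hφ : Cfsg.IsClassFunction H φ) (hφS : ∀ x : H, (x : G) ∉ S → φ x = 0) (u v : G) (hu : orderOf u = 2) (hv : orderOf v = 2) : ∑ᶠ p ∈ {p : G × G | IsConj u p.1 ∧ IsConj v p.2}, Cfsg.indFun H φ (p.1 * p.2) = (H.index : ℂ) * ∑ᶠ p ∈ {p : H × H | IsConj u (p.1 : G) ∧ IsConj v (p.2 : G)}, φ (p.1 * p.2) := by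
  classical
  set E : G → ℂ := Cfsg.extendByZero H φ with hE
  have hE_in : ∀ h : H, E (h : G) = φ h := fun h =>
    Subtype.val_injective.extend_apply φ 0 h
  have hE_out : ∀ g : G, g ∉ H → E g = 0 := by
    intro g hg
    apply Function.extend_apply'
    rintro ⟨h, rfl⟩
    exact hg h.2
  -- conjugates of an involution are involutions
  have hsq : ∀ w : G, orderOf w = 2 → ∀ a : G, IsConj w a → a * a = 1 := by
    intro w hw a ha
    obtain ⟨c, rfl⟩ := isConj_iff.mp ha
    have hw2 : w * w = 1 := by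
      have := pow_orderOf_eq_one w
      rw [hw, pow_two] at this
      exact this
    calc c * w * c⁻¹ * (c * w * c⁻¹) = c * (w * w) * c⁻¹ := by group
      _ = 1 := by rw [hw2]; group
  -- the TI argument
  have key : ∀ a b : G, IsConj u a → IsConj v b → E (a * b) ≠ 0 → a ∈ H ∧ b ∈ H := by
    intro a b ha hb hne
    have haa := hsq u hu a ha
    have hbb := hsq v hv b hb
    have habH : a * b ∈ H := by
      by_contra h
      exact hne (hE_out _ h)
    have habS : a * b ∈ S := by
      by_contra h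
      apply hne
      have := hE_in ⟨a * b, habH⟩
      rw [this]
      exact hφS ⟨a * b, habH⟩ h
    have hinvS : (a * b)⁻¹ ∈ S := hinv _ habS
    have ha_inv : a⁻¹ = a := inv_eq_of_mul_eq_one_left haa
    have hb_inv : b⁻¹ = b := inv_eq_of_mul_eq_one_left hbb
    have e1 : a * (a * b) * a⁻¹ = (a * b)⁻¹ := by
      rw [mul_inv_rev, ha_inv, hb_inv, ← mul_assoc a a b, haa, one_mul]
    have e2 : b * (a * b) * b⁻¹ = (a * b)⁻¹ := by
      rw [mul_inv_rev, ha_inv, hb_inv, mul_assoc, mul_assoc, hbb, mul_one]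
    constructor
    · by_contra h
      exact hTI a h _ habS (e1 ▸ hinvS)
    · by_contra h
      exact hTI b h _ habS (e2 ▸ hinvS)
  -- rewrite the finsums as finite sums
  rw [finsum_mem_def, finsum_eq_sum_of_fintype, finsum_mem_def, finsum_eq_sum_of_fintype]
  simp only [Set.indicator_apply, Set.mem_ofPred_eq]
  set T : ℂ := ∑ p : G × G, if IsConj u p.1 ∧ IsConj v p.2 then E (p.1 * p.2) else 0 with hT
  -- Claim B
  have hB : (∑ p : H × H, if IsConj u (p.1 : G) ∧ IsConj v (p.2 : G) then φ (p.1 * p.2) else 0)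
      = T := by
    rw [hT]
    refine Fintype.sum_of_injective (fun p : H × H => ((p.1 : G), (p.2 : G))) ?_ _ _ ?_ ?_
    · intro p q hpq
      simp only [Prod.mk.injEq] at hpq
      exact Prod.ext (Subtype.ext hpq.1) (Subtype.ext hpq.2)
    · intro p hp
      by_cases hP : IsConj u p.1 ∧ IsConj v p.2
      · rw [if_pos hP]
        by_contra hne
        obtain ⟨h1, h2⟩ := key p.1 p.2 hP.1 hP.2 hne
        exact hp ⟨(⟨p.1, h1⟩, ⟨p.2, h2⟩), rfl⟩
      · rw [if_neg hP]
    · intro p
      have : E ((p.1 : G) * (p.2 : G)) = φ (p.1 * p.2) := hE_in (p.1 * p.2)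
      simp only [this]
  rw [hB]
  -- Claim A
  have hx : ∀ x : G, (∑ p : G × G, if IsConj u p.1 ∧ IsConj v p.2 then
      E (x⁻¹ * (p.1 * p.2) * x) else 0) = T := by
    intro x
    rw [hT]
    refine Fintype.sum_equiv (((MulAut.conj x⁻¹).toEquiv).prodCongr ((MulAut.conj x⁻¹).toEquiv))
      _ _ ?_
    intro p
    have c1 : IsConj u (x⁻¹ * p.1 * x) ↔ IsConj u p.1 := by
      constructor
      · intro h
        refine h.trans (isConj_iff.mpr ⟨x, by group⟩)
      · intro h
        refine h.trans (isConj_iff.mpr ⟨x⁻¹, by group⟩)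
    have c2 : IsConj v (x⁻¹ * p.2 * x) ↔ IsConj v p.2 := by
      constructor
      · intro h
        refine h.trans (isConj_iff.mpr ⟨x, by group⟩)
      · intro h
        refine h.trans (isConj_iff.mpr ⟨x⁻¹, by group⟩)
    have e : x⁻¹ * p.1 * x * (x⁻¹ * p.2 * x) = x⁻¹ * (p.1 * p.2) * x := by group
    simp only [Equiv.prodCongr_apply, MulEquiv.toEquiv_eq_coe, EquivLike.coe_coe, Prod.map_fst,
      Prod.map_snd, MulAut.conj_apply, inv_inv, c1, c2, e]
  have hcard : (Nat.card G : ℂ) = (Nat.card H : ℂ) * (H.index : ℂ) := by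
    rw [← Nat.cast_mul, Subgroup.card_mul_index]
  have hH0 : (Nat.card H : ℂ) ≠ 0 := by
    exact_mod_cast Nat.card_pos.ne'
  calc (∑ p : G × G, if IsConj u p.1 ∧ IsConj v p.2 then Cfsg.indFun H φ (p.1 * p.2) else 0)
      = ∑ p : G × G, (Nat.card H : ℂ)⁻¹ * ∑ x : G,
          if IsConj u p.1 ∧ IsConj v p.2 then E (x⁻¹ * (p.1 * p.2) * x) else 0 := by
        refine Finset.sum_congr rfl fun p _ => ?_
        by_cases hP : IsConj u p.1 ∧ IsConj v p.2
        · simp only [if_pos hP]
          rfl
        · simp only [if_neg hP, Finset.sum_const_zero, mul_zero]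
    _ = (Nat.card H : ℂ)⁻¹ * ∑ x : G, ∑ p : G × G,
          if IsConj u p.1 ∧ IsConj v p.2 then E (x⁻¹ * (p.1 * p.2) * x) else 0 := by
        rw [← Finset.mul_sum, Finset.sum_comm]
    _ = (Nat.card H : ℂ)⁻¹ * ∑ x : G, T := by
        congr 1
        exact Finset.sum_congr rfl fun x _ => hx x
    _ = (H.index : ℂ) * T := by
        rw [Finset.sum_const, Finset.card_univ, nsmul_eq_mul, ← Nat.card_eq_fintype_card, hcard]
        field_simp

end Cfsg.Agent.S0849
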