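import Cfsg.Statements.S0850
import Mathlib

set_option autoImplicit false
open Cfsg

namespace Cfsg.Agent.S0850

/-- no element of the normalizer outside `K` is conjugate into `K`. -/
theorem part1 {G : Type*} [Group G] [Fintype G] (K : Subgroup G) (hTI : ∀ g : G, g ∉ Subgroup.normalizer (K : Set G) → ∀ k ∈ K, g * k * g⁻¹ ∈ K → k = 1) (hC : ∀ k ∈ K, k ≠ 1 → Subgroup.centralizer ({k} : Set G) ≤ K) : (∀ x ∈ Subgroup.normalizer (K : Set G), x ∉ K → ∀ g : G, g * x * g⁻¹ ∉ K) := by
  classical
  intro x hxN hxK g hy
  by_cases hg : g ∈ Subgroup.normalizer (K : Set G)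
  · rw [Subgroup.mem_normalizer_iff] at hg
    exact hxK ((hg x).mpr hy)
  · have hx1 : x ≠ 1 := fun h => hxK (h ▸ K.one_mem)
    have hn1 : orderOf x ≠ 1 := fun h => hx1 (orderOf_eq_one_iff.mp h)
    obtain ⟨p, hp, hpd⟩ := Nat.exists_prime_and_dvd hn1
    have : Fact p.Prime := ⟨hp⟩
    obtain ⟨m, hm⟩ := hpd
    have hn0 : 0 < orderOf x := orderOf_pos x
    have hm0 : 0 < m := by
      rcases Nat.eq_zero_or_pos m with h | h
      · rw [h, mul_zero] at hm; omega
      · exact h
    set x' : G := x ^ m with hx'
    have hord : orderOf x' = p := by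
      rw [hx', orderOf_pow' x hm0.ne', hm, Nat.gcd_eq_right (Dvd.intro_left p rfl),
        Nat.mul_div_cancel _ hm0]
    have hx'N : x' ∈ Subgroup.normalizer (K : Set G) := Subgroup.pow_mem _ hxN m
    have hy' : g * x' * g⁻¹ ∈ K := by
      have : g * x' * g⁻¹ = (g * x * g⁻¹) ^ m := by
        rw [hx', conj_pow]
      rw [this]
      exact K.pow_mem hy m
    have hx'1 : x' ≠ 1 := by
      intro h
      rw [h, orderOf_one] at hord
      exact hp.one_lt.ne hord
    have hx'K : x' ∉ K := fun h => hx'1 (hTI g hg x' h hy')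
    have hQN : Subgroup.zpowers x' ≤ Subgroup.normalizer (K : Set G) :=
      (Subgroup.zpowers_le).mpr hx'N
    have hQ : IsPGroup p (Subgroup.zpowers x') := by
      apply IsPGroup.of_card (n := 1)
      rw [Nat.card_zpowers, hord, pow_one]
    let act : MulAction (Subgroup.zpowers x') K :=
      { smul := fun u k => ⟨(u : G) * k * (u : G)⁻¹,
          ((Subgroup.mem_normalizer_iff.mp (hQN u.2)) k).mp k.2⟩
        one_smul := by
          rintro ⟨k, hk⟩
          apply Subtype.ext
          show ((1 : Subgroup.zpowers x') : G) * k * ((1 : Subgroup.zpowers x') : G)⁻¹ = k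
          simp
        mul_smul := by
          rintro u v ⟨k, hk⟩
          apply Subtype.ext
          show ((u * v : Subgroup.zpowers x') : G) * k * ((u * v : Subgroup.zpowers x') : G)⁻¹ = (u : G) * ((v : G) * k * (v : G)⁻¹) * (u : G)⁻¹
          simp [mul_assoc] }
    have key := hQ.card_modEq_card_fixedPoints K
    have hfix : ∀ k : K, k ∈ MulAction.fixedPoints (Subgroup.zpowers x') K → k = 1 := by
      intro k hk
      by_contra hk1
      have hk1' : (k : G) ≠ 1 := fun h => hk1 (Subtype.ext h)
      have := hk ⟨x', Subgroup.mem_zpowers x'⟩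
      have h4 : x' * (k : G) * x'⁻¹ = k := congrArg Subtype.val this
      apply hx'K
      apply hC k k.2 hk1'
      rw [Subgroup.mem_centralizer_iff]
      intro z hz
      rw [Set.mem_singleton_iff] at hz
      rw [hz]
      exact (mul_inv_eq_iff_eq_mul.mp h4).symm
    have hcard : Nat.card (MulAction.fixedPoints (Subgroup.zpowers x') K) = 1 := by
      rw [Nat.card_eq_one_iff_unique]
      constructor
      · constructor
        rintro ⟨k, hk⟩ ⟨k', hk'⟩
        apply Subtype.ext
        exact (hfix k hk).trans (hfix k' hk').symm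
      · refine ⟨⟨1, ?_⟩⟩
        intro u
        apply Subtype.ext
        show (u : G) * ((1 : K) : G) * (u : G)⁻¹ = ((1 : K) : G)
        simp
    rw [hcard] at key
    have hdvd : p ∣ Nat.card K := by
      have h1 : orderOf (⟨g * x' * g⁻¹, hy'⟩ : K) = p := by
        rw [← hord, Subgroup.orderOf_mk]
        exact (MulAut.conj g).orderOf_eq x'
      rw [← h1]
      exact orderOf_dvd_natCard _
    have : Nat.card K % p = 1 % p := key
    rw [Nat.mod_eq_zero_of_dvd hdvd, Nat.mod_eq_of_lt hp.one_lt] at this
    omega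

/-- Let K be a subgroup of the finite group G that meets each conjugate by an element outside its normalizer N trivially, is properly contained in N, and contains the centralizer of each of its non-identity elements (a T.I. subgroup with Frobenius normalizer). Then no element of N outside K is conjugate in G to an element of K, and for every class function ϑ of N that vanishes on N away from K and at the identity, the function induced from ϑ to G agrees with ϑ on all of N. -/
theorem result {G : Type*} [Group G] [Fintype G] (K : Subgroup G) (hTI : ∀ g : G, g ∉ Subgroup.normalizer (K : Set G) → ∀ k ∈ K, g * k * g⁻¹ ∈ K → k = 1) (hlt : K < Subgroup.normalizer (K : Set G)) (hC : ∀ k ∈ K, k ≠ 1 → Subgroup.centralizer ({k} : Set G) ≤ K) : (∀ x ∈ Subgroup.normalizer (K : Set G), x ∉ K → ∀ g : G, g * x * g⁻¹ ∉ K) ∧ ∀ (ϑ : Subgroup.normalizer (K : Set G) → ℂ), Cfsg.IsClassFunction (Subgroup.normalizer (K : Set G)) ϑ → (∀ x : Subgroup.normalizer (K : Set G), (x : G) ∉ K → ϑ x = 0) → ϑ 1 = 0 → ∀ x : Subgroup.normalizer (K : Set G), Cfsg.indFun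 (Subgroup.normalizer (K : Set G)) ϑ x = ϑ x := by
  classical
  have p1 := part1 K hTI hC
  refine ⟨p1, ?_⟩
  intro ϑ hcf hoff h1 x
  have hterm : ∀ g : G, Cfsg.extendByZero (Subgroup.normalizer (K : Set G)) ϑ (g⁻¹ * (x : G) * g) =
      if g ∈ Subgroup.normalizer (K : Set G) then ϑ x else 0 := by
    intro g
    by_cases hg : g ∈ Subgroup.normalizer (K : Set G)
    · rw [if_pos hg]
      have e : g⁻¹ * (x : G) * g = ((⟨g, hg⟩ : Subgroup.normalizer (K : Set G))⁻¹ * x * (⟨g, hg⟩ : Subgroup.normalizer (K : Set G))⁻¹⁻¹ : Subgroup.normalizer (K : Set G)) := by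
        simp
      rw [e]
      unfold Cfsg.extendByZero
      rw [Subtype.val_injective.extend_apply]
      exact hcf x _
    · rw [if_neg hg]
      unfold Cfsg.extendByZero
      by_cases hy : g⁻¹ * (x : G) * g ∈ Subgroup.normalizer (K : Set G)
      · have e : g⁻¹ * (x : G) * g = ((⟨g⁻¹ * (x : G) * g, hy⟩ : Subgroup.normalizer (K : Set G)) : G) := rfl
        rw [e, Subtype.val_injective.extend_apply]
        by_cases hyK : g⁻¹ * (x : G) * g ∈ K
        · by_cases hy1 : g⁻¹ * (x : G) * g = 1
          · have : (⟨g⁻¹ * (x : G) * g, hy⟩ : Subgroup.normalizer (K : Set G)) = 1 :=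
              Subtype.ext hy1
            rw [this, h1]
          · exfalso
            have hx' : g * (g⁻¹ * (x : G) * g) * g⁻¹ = x := by group
            by_cases hxK : (x : G) ∈ K
            · exact hy1 (hTI g hg _ hyK (by rw [hx']; exact hxK))
            · have := p1 x x.2 hxK g⁻¹
              rw [inv_inv] at this
              exact this hyK
        · exact hoff _ hyK
      · rw [Function.extend_apply' _ _ _ (by rintro ⟨z, hz⟩; exact hy (hz ▸ z.2))]
        rfl
  unfold Cfsg.indFun
  simp only [hterm]
  rw [Finset.sum_ite, Finset.sum_const_zero, add_zero, Finset.sum_const, nsmul_eq_mul]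
  have hcardN : (Finset.univ.filter (fun g : G => g ∈ Subgroup.normalizer (K : Set G))).card =
      Nat.card (Subgroup.normalizer (K : Set G)) := by
    rw [Nat.card_eq_fintype_card, Fintype.card_subtype]
  rw [hcardN, ← mul_assoc, inv_mul_cancel₀, one_mul]
  have : 0 < Nat.card (Subgroup.normalizer (K : Set G)) := Nat.card_pos
  exact_mod_cast this.ne'

end Cfsg.Agent.S0850
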