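import Mathlib
import Cfsg.Statements.S0851
import Cfsg.Agent.S0170
import Cfsg.Agent.Lib.Helper3.FrobInd
import Cfsg.Agent.Lib.Helper15.LinChar

set_option autoImplicit false
open Cfsg

namespace Cfsg.Agent.S0851

open Cfsg.Agent.Lib.Helper80
open scoped ComplexConjugate

lemma irr_linear_of_comm' {C : Type*} [Group C] [IsMulCommutative C] {χ : C → ℂ}
    (h : Cfsg.IsIrrCharacter C χ) : χ 1 = 1 := by
  obtain ⟨n, ρ, hirr, rfl⟩ := h
  have h1 : Module.finrank ℂ (Fin n → ℂ) = 1 :=
    Representation.IsIrreducible.finrank_eq_one_of_isMulCommutative ρ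
  rw [Representation.char_one, h1]
  simp

/-- An irreducible character of a Frobenius-type group nontrivial on the abelian kernel
vanishes off the kernel and has degree the index of the kernel. -/
theorem frob_relevant {N : Type*} [Group N] [Fintype N] (A : Subgroup N) [hAn : A.Normal]
    (hab : ∀ a ∈ A, ∀ b ∈ A, a * b = b * a)
    (hfpf : ∀ x : N, x ∉ A → ∀ a ∈ A, x * a = a * x → a = 1)
    (χ : N → ℂ) (hχ : Cfsg.IsIrrCharacter N χ) (hrel : ∃ a ∈ A, χ a ≠ χ 1) :
    (∀ x : N, x ∉ A → χ x = 0) ∧ χ 1 = (A.index : ℂ) := by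
  classical
  have hFA : Fintype A := Fintype.ofFinite A
  have hIrrA : Fintype (Cfsg.IrrCharacter A) := Fintype.ofFinite _
  have hcomm : IsMulCommutative A :=
    ⟨⟨fun a b => Subtype.ext (hab a a.2 b b.2)⟩⟩
  have hres : Cfsg.IsCharacter A (fun a : A => χ a) :=
    isCharacter_restrict A (isCharacter_of_isIrrCharacter hχ)
  obtain ⟨m, hm, hexp⟩ := character_expansion hres
  -- a nonprincipal constituent
  have hex : ∃ lam : Cfsg.IrrCharacter A, m lam ≠ 0 ∧ (lam : A → ℂ) ≠ fun _ => 1 := by
    by_contra hcon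
    push Not at hcon
    obtain ⟨a, ha, hne⟩ := hrel
    apply hne
    have h1 := congrFun hexp ⟨a, ha⟩
    have h2 := congrFun hexp 1
    simp only [Finset.sum_apply, Pi.smul_apply, smul_eq_mul] at h1 h2
    have h3 : ∀ lam : Cfsg.IrrCharacter A, (m lam : ℂ) * (lam : A → ℂ) ⟨a, ha⟩ =
        (m lam : ℂ) * (lam : A → ℂ) 1 := by
      intro lam
      by_cases h0 : m lam = 0
      · simp [h0]
      · rw [hcon lam h0]
    simp_rw [h3] at h1
    change χ a = χ ((1 : A) : N) 
    rw [h1, ← h2]
  obtain ⟨lam, hlam0, hlam1⟩ := hex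
  have hlch := isCharacter_of_isIrrCharacter lam.2
  have hlin : (lam : A → ℂ) 1 = 1 := irr_linear_of_comm' lam.2
  have hmul := Cfsg.Agent.Lib.Helper15.linChar_mul hlch hlin
  have hinv := Cfsg.Agent.Lib.Helper15.linChar_inv hlch hlin
  have hne0 := Cfsg.Agent.Lib.Helper15.linChar_ne_zero hlch hlin
  -- the inertia group is A
  have hI : ∀ x : N, Cfsg.Agent.Lib.Helper75.conjChar A (lam : A → ℂ) x = (lam : A → ℂ) →
      x ∈ A := by
    intro x hx
    by_contra hxA
    apply hlam1
    have hxinv : x⁻¹ ∉ A := fun h => hxA (by simpa using A.inv_mem h)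
    -- the commutator map is injective
    let φ : A → A := fun a => ⟨x⁻¹ * a * x * (a : N)⁻¹,
      A.mul_mem (by simpa using hAn.conj_mem a a.2 x⁻¹) (A.inv_mem a.2)⟩
    have hφinj : Function.Injective φ := by
      intro a b hab'
      have h1 : x⁻¹ * (a : N) * x * (a : N)⁻¹ = x⁻¹ * (b : N) * x * (b : N)⁻¹ :=
        congrArg Subtype.val hab'
      have hc : x⁻¹ * ((b : N)⁻¹ * a) * x = (b : N)⁻¹ * a := by
        have e1 : x⁻¹ * ((b : N)⁻¹ * a) * x = (x⁻¹ * b * x)⁻¹ * (x⁻¹ * a * x) := by group
        have e2 : x⁻¹ * (a : N) * x = x⁻¹ * (b : N) * x * (b : N)⁻¹ * a := by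
          rw [← h1]; group
        rw [e1, e2]
        group
      have hc' : x⁻¹ * ((b : N)⁻¹ * a) = ((b : N)⁻¹ * a) * x⁻¹ := by
        have := congrArg (fun y => y * x⁻¹) hc
        simpa [mul_assoc] using this
      have := hfpf x⁻¹ hxinv ((b : N)⁻¹ * a) (A.mul_mem (A.inv_mem b.2) a.2) hc'
      apply Subtype.ext
      exact (inv_mul_eq_one.1 this).symm
    have hφsurj : Function.Surjective φ := Finite.surjective_of_injective hφinj
    funext c
    obtain ⟨a, rfl⟩ := hφsurj c
    have h1 := congrFun hx a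
    have hmem : x⁻¹ * (a : N) * x ∈ A := by simpa using hAn.conj_mem a a.2 x⁻¹
    rw [Cfsg.Agent.Lib.Helper75.conjChar_val A _ x a hmem] at h1
    have h2 : φ a = (⟨x⁻¹ * a * x, hmem⟩ : A) * a⁻¹ := Subtype.ext rfl
    rw [h2, hmul, h1, hinv]
    exact mul_inv_cancel₀ (hne0 a)
  have hind : Cfsg.IsIrrCharacter N (Cfsg.indFun A (lam : A → ℂ)) :=
    Cfsg.Agent.Lib.Helper3.isIrrCharacter_indFun_of_inertia A lam.2 hI
  have hrec := frobenius_reciprocity A (lam : A → ℂ) χ
    (isClassFunction_of_isCharacter (isCharacter_of_isIrrCharacter hχ))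
  have hne : Cfsg.classInner (Cfsg.indFun A (lam : A → ℂ)) χ ≠ 0 := by
    rw [hrec, ← classInner_conj_symm, hm lam]
    simpa using hlam0
  have heq : Cfsg.indFun A (lam : A → ℂ) = χ := by
    by_contra h
    rw [classInner_irr_fun hind hχ, if_neg h] at hne
    exact hne rfl
  constructor
  · intro x hx
    rw [← heq]
    unfold Cfsg.indFun
    have : ∀ y : N, Cfsg.extendByZero A (lam : A → ℂ) (y⁻¹ * x * y) = 0 := by
      intro y
      apply extendByZero_apply_not_mem
      intro hmem
      apply hx
      have := hAn.conj_mem _ hmem y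
      simpa [mul_assoc] using this
    simp [this]
  · rw [← heq, indFun_one, hlin, mul_one]

/-- Let K be a subgroup of the finite group G that meets each conjugate by an element outside its normalizer N trivially, is properly contained in N, and contains the centralizer of each of its non-identity elements (a T.I. subgroup with Frobenius normalizer). Suppose K is abelian, let e be the index of K in N, and call an irreducible character of N relevant when it takes at some element of K a value different from its degree. Then either there is exactly one relevant character and K is an elementary abelian p-group of order e + 1 for some prime p, or there are a sign ε and an injective map f from the relevant characters to the irreducible characters of G such that inducing χ - ξ to G gives ε (f χ - f ξ) for all relevant χ and ξ. -/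
theorem result {G : Type*} [Group G] [Fintype G] (K : Subgroup G) (hTI : ∀ g : G, g ∉ Subgroup.normalizer (K : Set G) → ∀ k ∈ K, g * k * g⁻¹ ∈ K → k = 1) (hlt : K < Subgroup.normalizer (K : Set G)) (hC : ∀ k ∈ K, k ≠ 1 → Subgroup.centralizer ({k} : Set G) ≤ K) (hab : ∀ a ∈ K, ∀ b ∈ K, a * b = b * a) : (Nat.card {χ : Cfsg.IrrCharacter (Subgroup.normalizer (K : Set G)) // ∃ k : Subgroup.normalizer (K : Set G), (k : G) ∈ K ∧ (χ : ↥(Subgroup.normalizer (K : Set G)) → ℂ) k ≠ (χ : ↥(Subgroup.normalizer (K : Set G)) → ℂ) 1} = 1 ∧ ∃ p : ℕ, p.Prime ∧ Cfsg.IsElementaryAbelian p K ∧ Nat.card K = (K.subgroupOf (Subgroup.normalizer (K : Set G))).index + 1) ∨ ∃ (ε : ℂ) (f : {χ : Cfsg.IrrCharacter (Subgroup.normalizer (K : Set G)) // ∃ k : Subgroup.normalizer (K : Set G), (k : G) ∈ K ∧ (χ : ↥(Subgroup.normalizer (K : Set G)) → ℂ) k ≠ (χ : ↥(Subgroup.normalizer (K : Set G)) → ℂ) 1} → Cfsg.IrrCharacter G), (ε = 1 ∨ ε = -1) ∧ Function.Injective f ∧ ∀ χ ξ, Cfsg.indFun (Subgroup.normalizer (K : Set G)) ((χ.1 : ↥(Subgroup.normalizer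 (K : Set G)) → ℂ) - (ξ.1 : ↥(Subgroup.normalizer (K : Set G)) → ℂ)) = ε • ((f χ : G → ℂ) - (f ξ : G → ℂ)) := by
  classical
  right
  have hFN : Fintype (Subgroup.normalizer (K : Set G)) := Fintype.ofFinite _
  have hFR : Fintype {χ : Cfsg.IrrCharacter (Subgroup.normalizer (K : Set G)) //
      ∃ k : Subgroup.normalizer (K : Set G), (k : G) ∈ K ∧
        (χ : ↥(Subgroup.normalizer (K : Set G)) → ℂ) k ≠
        (χ : ↥(Subgroup.normalizer (K : Set G)) → ℂ) 1} := Fintype.ofFinite _
  by_cases hcard : Fintype.card {χ : Cfsg.IrrCharacter (Subgroup.normalizer (K : Set G)) //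
      ∃ k : Subgroup.normalizer (K : Set G), (k : G) ∈ K ∧
        (χ : ↥(Subgroup.normalizer (K : Set G)) → ℂ) k ≠
        (χ : ↥(Subgroup.normalizer (K : Set G)) → ℂ) 1} ≤ 1
  · refine ⟨1, fun _ => ⟨fun _ => 1, isIrrCharacter_one⟩, Or.inl rfl, ?_, ?_⟩
    · intro a b _
      exact Fintype.card_le_one_iff.1 hcard a b
    · intro χ ξ
      have : χ = ξ := Fintype.card_le_one_iff.1 hcard χ ξ
      subst this
      rw [sub_self, sub_self, smul_zero]
      have := indFun_smul (Subgroup.normalizer (K : Set G)) (0 : ℂ)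
        (0 : ↥(Subgroup.normalizer (K : Set G)) → ℂ)
      simpa using this
  · push Not at hcard
    have hkey : ∀ χ : ↥(Subgroup.normalizer (K : Set G)) → ℂ,
        Cfsg.IsIrrCharacter (Subgroup.normalizer (K : Set G)) χ →
        (∃ k : Subgroup.normalizer (K : Set G), (k : G) ∈ K ∧ χ k ≠ χ 1) →
        (∀ x : Subgroup.normalizer (K : Set G), (x : G) ∉ K → χ x = 0) ∧
          χ 1 = (((K.subgroupOf (Subgroup.normalizer (K : Set G))).index : ℕ) : ℂ) := by
      intro χ hχ hrel
      have h := frob_relevant (K.subgroupOf (Subgroup.normalizer (K : Set G)))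
        (fun a ha b hb => Subtype.ext (hab a ha b hb))
        (fun x hx a ha hxa => by
          by_contra ha1
          apply hx
          have ha1' : (a : G) ≠ 1 := fun h => ha1 (Subtype.ext h)
          have hmem : (x : G) ∈ Subgroup.centralizer ({(a : G)} : Set G) := by
            rw [Subgroup.mem_centralizer_iff]
            intro y hy
            rw [Set.mem_singleton_iff] at hy
            subst hy
            exact (congrArg Subtype.val hxa).symm
          exact hC a ha ha1' hmem)
        χ hχ (by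
          obtain ⟨k, hk, hne⟩ := hrel
          exact ⟨k, hk, hne⟩)
      exact ⟨fun x hx => h.1 x hx, h.2⟩
    obtain ⟨ε, hε, θ, hθirr, hθinj, hθ⟩ := Cfsg.Agent.S0170.result (K : Set G)
      (Subgroup.le_normalizer) hTI _ hcard
      (fun i => (((Fintype.equivFin _).symm i).1 : ↥(Subgroup.normalizer (K : Set G)) → ℂ))
      (fun i => ((Fintype.equivFin _).symm i).1.2)
      (fun i j hij => (Fintype.equivFin _).symm.injective (Subtype.ext (Subtype.ext hij)))
      (fun i x hx => (hkey _ ((Fintype.equivFin _).symm i).1.2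
        ((Fintype.equivFin _).symm i).2).1 x hx)
      (fun i j => by
        rw [(hkey _ ((Fintype.equivFin _).symm i).1.2 ((Fintype.equivFin _).symm i).2).2,
          (hkey _ ((Fintype.equivFin _).symm j).1.2 ((Fintype.equivFin _).symm j).2).2])
    refine ⟨ε, fun r => ⟨θ (Fintype.equivFin _ r), hθirr _⟩, hε, ?_, ?_⟩
    · intro a b hab'
      have := hθinj (congrArg Subtype.val hab')
      exact (Fintype.equivFin _).injective this
    · intro χ ξ
      rw [Cfsg.Agent.S0170.indFun_sub']
      have := hθ (Fintype.equivFin _ χ) (Fintype.equivFin _ ξ)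
      simpa using this

end Cfsg.Agent.S0851
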