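import Cfsg.Statements.S0855
import Cfsg.Agent.Lib.Helper82.PPowerDegrees

set_option autoImplicit false
open Cfsg

namespace Cfsg.Agent.S0855

open Cfsg.Agent.Lib.Helper82

/-- For a finite group G and a prime p: every irreducible character of G has degree a power of p if and only if G has an abelian normal subgroup whose order is prime to p and whose index is a power of p. -/
theorem result {G : Type*} [Group G] [Finite G] (p : ℕ) (hp : p.Prime) : (∀ χ : Cfsg.IrrCharacter G, ∃ k : ℕ, (χ : G → ℂ) 1 = (p : ℂ) ^ k) ↔ ∃ A : Subgroup G, A.Normal ∧ (∀ a ∈ A, ∀ b ∈ A, a * b = b * a) ∧ Nat.Coprime (Nat.card A) p ∧ ∃ k : ℕ, A.index = p ^ k := by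
  have : Fact p.Prime := ⟨hp⟩
  constructor
  · intro hdeg
    exact exists_abelian_normal_of_ppow p (Nat.card G) G rfl hdeg
  · rintro ⟨A, hAn, hAab, -, k, hk⟩ χ
    have := hAn
    have h := ito_charDegree_dvd χ.2 A hAab
    rw [hk] at h
    obtain ⟨j, _, hj⟩ := (Nat.dvd_prime_pow hp).1 h
    refine ⟨j, ?_⟩
    rw [Cfsg.Agent.Lib.Helper80.char_one_eq_charDegree
      (Cfsg.Agent.Lib.Helper80.isCharacter_of_isIrrCharacter χ.2), hj]
    push_cast
    rfl

end Cfsg.Agent.S0855
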