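-- Statement S0860: Brauer's permutation lemma for compatible actions.
import Mathlib
import Cfsg.Statements.S0860
import Cfsg.Agent.Lib.Helper74.BrauerPerm

set_option autoImplicit false
open Cfsg

namespace Cfsg.Agent.S0860

open Cfsg.Agent.Lib.Helper74

/-- Let a group A act on the set of irreducible characters and on the set of conjugacy classes of a finite group G in such a way that (a • χ) evaluated on the class a • C equals χ evaluated on C, for all a, χ and C. Then every element of A fixes exactly as many irreducible characters as it fixes conjugacy classes. -/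
theorem result {G : Type*} [Group G] [Finite G] {A : Type*} [Group A] [MulAction A (Cfsg.IrrCharacter G)] [MulAction A (ConjClasses G)] (hcompat : ∀ (a : A) (χ : Cfsg.IrrCharacter G) (g g' : G), ConjClasses.mk g' = a • ConjClasses.mk g → ((a • χ : Cfsg.IrrCharacter G) : G → ℂ) g' = (χ : G → ℂ) g) (a : A) : Nat.card {χ : Cfsg.IrrCharacter G // a • χ = χ} = Nat.card {C : ConjClasses G // a • C = C} := by
  classical
  have : Fintype G := Fintype.ofFinite G
  -- a representative of the class `a⁻¹ • mk g`
  have hex : ∀ g : G, ∃ g₀ : G, ConjClasses.mk g₀ = a⁻¹ • ConjClasses.mk g :=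
    fun g => ConjClasses.mk_surjective _
  choose φ hφ using hex
  refine brauer_perm_count (fun χ => a • χ) φ ?_ (fun C => a • C = C) ?_
  · intro χ g
    apply hcompat a χ (φ g) g
    rw [hφ, smul_inv_smul]
  · intro g
    change a • ConjClasses.mk g = ConjClasses.mk g ↔ IsConj (φ g) g
    rw [← ConjClasses.mk_eq_mk_iff_isConj, hφ]
    constructor
    · intro h
      rw [← h, inv_smul_smul, h]
    · intro h
      rw [← h, smul_inv_smul, h]

end Cfsg.Agent.S0860
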