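import Cfsg.Statements.S0861
import Cfsg.Agent.Lib.Helper82.AbelianSylow

set_option autoImplicit false
open Cfsg

namespace Cfsg.Agent.S0861

/-- A finite group with as many conjugacy classes as elements is commutative. -/
theorem comm_of_card_conjClasses {Q : Type*} [Group Q] [Finite Q]
    (h : Nat.card Q ≤ Nat.card (ConjClasses Q)) (a b : Q) : a * b = b * a := by
  have hbij := Function.Surjective.bijective_of_nat_card_le
    (ConjClasses.mk_surjective (α := Q)) h
  have h1 : ConjClasses.mk (a * b * a⁻¹) = ConjClasses.mk b := by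
    rw [ConjClasses.mk_eq_mk_iff_isConj, isConj_comm, isConj_iff]
    exact ⟨a, rfl⟩
  have h2 := hbij.1 h1
  rw [mul_inv_eq_iff_eq_mul] at h2
  exact h2

/-- Let P be a normal abelian Sylow p-subgroup of the finite group G and suppose some element g of P has centralizer exactly P. Then the number of irreducible characters of G is at most the order of P, and if equality holds then G / P is abelian (the commutator subgroup lies in P). -/
theorem result {G : Type*} [Group G] [Finite G] (p : ℕ) [Fact p.Prime] (P : Sylow p G) [(P : Subgroup G).Normal] (hab : ∀ a ∈ P, ∀ b ∈ P, a * b = b * a) (g : G) (hg : g ∈ P) (hC : Subgroup.centralizer ({g} : Set G) = P) : Nat.card (Cfsg.IrrCharacter G) ≤ Nat.card P ∧ (Nat.card (Cfsg.IrrCharacter G) = Nat.card P → commutator G ≤ P) := by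
  have hidx : ¬ p ∣ (P : Subgroup G).index := P.not_dvd_index
  obtain ⟨a, ha⟩ : ∃ a, orderOf g = p ^ a := by
    obtain ⟨k, hk⟩ := P.isPGroup' ⟨g, hg⟩
    have h1 : g ^ p ^ k = 1 := by
      have := congrArg Subtype.val hk
      simpa using this
    have h2 := orderOf_dvd_of_pow_eq_one h1
    obtain ⟨a, _, ha⟩ := (Nat.dvd_prime_pow (Fact.out : p.Prime)).1 h2
    exact ⟨a, ha⟩
  have hmain := Cfsg.Agent.Lib.Helper82.card_conjClasses_add_index_le p (P : Subgroup G) hidx
    hab g hg a ha
  rw [hC, ← Cfsg.Agent.Lib.Helper82.card_irr_eq_card_conjClasses] at hmain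
  have hle : Nat.card (ConjClasses (G ⧸ (P : Subgroup G))) ≤ (P : Subgroup G).index :=
    Nat.card_le_card_of_surjective ConjClasses.mk ConjClasses.mk_surjective
  refine ⟨by omega, fun heq => ?_⟩
  have hge : Nat.card (G ⧸ (P : Subgroup G)) ≤ Nat.card (ConjClasses (G ⧸ (P : Subgroup G))) := by
    have : (P : Subgroup G).index = Nat.card (G ⧸ (P : Subgroup G)) := rfl
    omega
  have hcomm := comm_of_card_conjClasses hge
  rw [commutator_def, Subgroup.commutator_le]
  intro x _ y _
  rw [← QuotientGroup.eq_one_iff, commutatorElement_def]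
  simp only [QuotientGroup.mk_mul, QuotientGroup.mk_inv]
  rw [hcomm (x : G ⧸ (P : Subgroup G)) (y : G ⧸ (P : Subgroup G))]
  group

end Cfsg.Agent.S0861
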