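import Cfsg.Statements.S0863
import Cfsg.Agent.Lib.Helper75.CentExt6

set_option autoImplicit false
open Cfsg

namespace Cfsg.Agent.S0863

/-- Let N be a normal subgroup of the finite group G with G / N solvable, and ϑ an irreducible character of N, invariant under conjugation by G, of degree d coprime to the index of N. Then ϑ is the restriction of an irreducible character of G if and only if the determinantal character of ϑ is the restriction of a character of G of degree 1. -/
theorem result {G : Type*} [Group G] [Finite G] (N : Subgroup G) [hN : N.Normal] (hsolv : Group.IsSolvable (G ⧸ N)) (ϑ : N → ℂ) (hϑ : Cfsg.IsIrrCharacter N ϑ) (hinv : ∀ (g : G) (n : N), ϑ ⟨g * n * g⁻¹, hN.conj_mem (n : G) n.2 g⟩ = ϑ n) (d : ℕ) (hd : ϑ 1 = d) (hcop : Nat.Coprime N.index d) : (∃ χ : G → ℂ, Cfsg.IsIrrCharacter G χ ∧ (∀ n : N, χ n = ϑ n)) ↔ ∃ μ : G → ℂ, Cfsg.IsCharacter G μ ∧ μ 1 = 1 ∧ ∀ n : N, μ n = Cfsg.detChar ϑ n := by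
  constructor
  · rintro ⟨χ, hχ, hχN⟩
    have hχc : Cfsg.IsCharacter G χ := Cfsg.Agent.Lib.Helper3.isCharacter_of_irr hχ
    refine ⟨Cfsg.detChar χ, Cfsg.Agent.Lib.Helper15.isCharacter_detChar χ,
      Cfsg.Agent.Lib.Helper15.detChar_one χ, fun n => ?_⟩
    have h1 := Cfsg.Agent.Lib.Helper15.detChar_res N hχc
    have h2 : (fun h : N => χ h) = ϑ := funext hχN
    rw [h2] at h1
    rw [h1]
  · rintro ⟨μ, hμ, hμ1, hμN⟩
    obtain ⟨d', Y, hY, rfl⟩ := hϑ
    have hY' : Y.IsIrreducible := hY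
    have hdd : d' = d := by
      rw [Cfsg.Agent.Lib.Helper80.char_one_fin] at hd
      exact_mod_cast hd
    subst hdd
    have hinv' : ∀ (g : G) (n : N), Y.character (MulAut.conjNormal g n) = Y.character n := by
      intro g n
      rw [← hinv g n]
      congr 1
    obtain ⟨X, hXirr, hX⟩ := Cfsg.Agent.Lib.Helper75.exists_extension_of_det N Y hinv'
      (Cfsg.Agent.Lib.Helper15.linCharHom hμ hμ1)
      (fun n => by
        rw [Cfsg.Agent.Lib.Helper15.linCharHom_apply, hμN,
          Cfsg.Agent.Lib.Helper15.detChar_character]) hcop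
    refine ⟨X.character, ⟨d', X, hXirr, rfl⟩, fun n => ?_⟩
    show LinearMap.trace ℂ _ (X n) = LinearMap.trace ℂ _ (Y n)
    rw [hX]

end Cfsg.Agent.S0863
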