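import Cfsg.Statements.S0864
import Cfsg.Agent.Lib.Helper15.LinChar
import Cfsg.Agent.Lib.Helper15.TransferInv

set_option autoImplicit false
open Cfsg

namespace Cfsg.Agent.S0864

open Cfsg.Agent.Lib.Helper15

/-- Let N be a normal subgroup of the finite group G and λ a character of N of degree 1 invariant under conjugation by G. Suppose that for every prime p dividing the order of λ (in the group of functions under pointwise multiplication) there is a subgroup H containing N, of index prime to p and with the index of N in H a power of p, together with a character of H of degree 1 restricting to λ. Then λ is the restriction of a character of G of degree 1. -/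
theorem result {G : Type*} [Group G] [Finite G] (N : Subgroup G) [hN : N.Normal] (lam : N → ℂ) (hlam : Cfsg.IsCharacter N lam ∧ lam 1 = 1) (hinv : ∀ (g : G) (n : N), lam ⟨g * n * g⁻¹, hN.conj_mem (n : G) n.2 g⟩ = lam n) (hsyl : ∀ p : ℕ, p.Prime → p ∣ orderOf lam → ∃ (H : Subgroup G) (hNH : N ≤ H) (ν : H → ℂ), Nat.Coprime H.index p ∧ (∃ k : ℕ, N.relIndex H = p ^ k) ∧ Cfsg.IsCharacter H ν ∧ ν 1 = 1 ∧ ∀ n : N, ν ⟨(n : G), hNH n.2⟩ = lam n) : ∃ μ : G → ℂ, Cfsg.IsCharacter G μ ∧ μ 1 = 1 ∧ ∀ n : N, μ n = lam n := by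
  classical
  set f : N →* ℂˣ := linCharHom hlam.1 hlam.2 with hf
  have hfv : ∀ n, ((f n : ℂˣ) : ℂ) = lam n := fun n => rfl
  set r := orderOf lam with hr
  have hlr : ∀ n, lam n ^ r = 1 := by
    intro n
    have := congrFun (pow_orderOf_eq_one lam) n
    simpa using this
  have hfr : ∀ n, f n ^ r = 1 := by
    intro n
    apply Units.ext
    rw [Units.val_pow_eq_pow_val, hfv, hlr]
    rfl
  -- the subgroup of exponents k such that f^k extends
  let S : AddSubgroup ℤ :=
    { carrier := {k : ℤ | ∃ μ : G →* ℂˣ, ∀ n : N, μ (n : G) = f n ^ k}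
      zero_mem' := ⟨1, fun n => by simp⟩
      add_mem' := by
        rintro k l ⟨μ₁, h₁⟩ ⟨μ₂, h₂⟩
        exact ⟨μ₁ * μ₂, fun n => by rw [MonoidHom.mul_apply, h₁, h₂, zpow_add]⟩
      neg_mem' := by
        rintro k ⟨μ₁, h₁⟩
        exact ⟨μ₁⁻¹, fun n => by rw [MonoidHom.inv_apply, h₁, zpow_neg]⟩ }
  have hrS : (r : ℤ) ∈ S := ⟨1, fun n => by rw [zpow_natCast, hfr]; simp⟩
  have hpS : ∀ p : ℕ, p.Prime → p ∣ r → ∃ m : ℕ, Nat.Coprime m p ∧ (m : ℤ) ∈ S := by
    intro p hp hpr
    obtain ⟨H, hNH, ν, hcop, -, hν, hν1, hres⟩ := hsyl p hp hpr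
    set νh : H →* ℂˣ := linCharHom hν hν1 with hνh
    have hνv : ∀ h, ((νh h : ℂˣ) : ℂ) = ν h := fun h => rfl
    have hinv' : ∀ (g : G) (n : G) (hn : n ∈ N),
        νh ⟨g * n * g⁻¹, hNH (hN.conj_mem n hn g)⟩ = νh ⟨n, hNH hn⟩ := by
      intro g n hn
      apply Units.ext
      rw [hνv, hνv]
      have h1 := hres ⟨g * n * g⁻¹, hN.conj_mem n hn g⟩
      have h2 := hres ⟨n, hn⟩
      rw [h1, h2]
      exact hinv g ⟨n, hn⟩
    refine ⟨H.index, hcop, MonoidHom.transfer νh, fun n => ?_⟩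
    rw [transfer_of_invariant hNH νh hinv' n.1 n.2, zpow_natCast]
    congr 1
    apply Units.ext
    rw [hνv, hfv]
    exact hres n
  obtain ⟨d, hd⟩ := Int.subgroup_cyclic S
  have hdvd : ∀ k ∈ S, d ∣ k := by
    intro k hk
    rw [hd] at hk
    obtain ⟨j, hj⟩ := AddSubgroup.mem_closure_singleton.mp hk
    exact ⟨j, by rw [← hj]; simp [mul_comm]⟩
  have hd1 : d.natAbs = 1 := by
    by_contra hne
    obtain ⟨q, hq, hqd⟩ := Nat.exists_prime_and_dvd hne
    have hqd' : (q : ℤ) ∣ d := by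
      rw [← Int.natAbs_dvd_natAbs]; simpa using hqd
    have hqr : q ∣ r := by
      have := hqd'.trans (hdvd _ hrS)
      exact_mod_cast this
    obtain ⟨m, hcop, hmS⟩ := hpS q hq hqr
    have hqm : q ∣ m := by
      have := hqd'.trans (hdvd _ hmS)
      exact_mod_cast this
    have := Nat.eq_one_of_dvd_coprimes hcop hqm (dvd_refl q)
    exact hq.one_lt.ne' this
  have h1S : (1 : ℤ) ∈ S := by
    have hdS : d ∈ S := by rw [hd]; exact AddSubgroup.subset_closure rfl
    rcases Int.natAbs_eq d with h | h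
    · rw [h, hd1] at hdS
      simpa using hdS
    · have := S.neg_mem hdS
      rw [h, hd1] at this
      simpa using this
  obtain ⟨μ, hμ⟩ := h1S
  refine ⟨fun g => ((μ g : ℂˣ) : ℂ), isCharacter_of_hom μ, by simp, fun n => ?_⟩
  show ((μ (n : G) : ℂˣ) : ℂ) = lam n
  rw [hμ n, zpow_one, hfv]

end Cfsg.Agent.S0864
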