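import Cfsg.Statements.S0869
import Mathlib

set_option autoImplicit false
open Cfsg

namespace Cfsg.Agent.S0869

/-- Let S be a nonempty finite type and R an additive subgroup of the integer-valued functions on S that is closed under pointwise multiplication. If the constant function 1 is not in R, then there exist a point x of S and a prime p such that p divides f x for every f in R. -/
theorem result {S : Type*} [Finite S] [Nonempty S] (R : AddSubgroup (S → ℤ)) (hmul : ∀ f ∈ R, ∀ g ∈ R, f * g ∈ R) (h1 : (1 : S → ℤ) ∉ R) : ∃ (x : S) (p : ℕ), p.Prime ∧ ∀ f ∈ R, (p : ℤ) ∣ f x := by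
  classical
  by_contra hcon
  push Not at hcon
  -- for every x there is f ∈ R with f x = 1
  have hx : ∀ x : S, ∃ f ∈ R, f x = 1 := by
    intro x
    -- the subgroup of values at x
    obtain ⟨d, hd⟩ := Int.subgroup_cyclic (R.map (Pi.evalAddMonoidHom (fun _ : S => ℤ) x))
    have hval : ∀ f ∈ R, d ∣ f x := by
      intro f hf
      have : f x ∈ R.map (Pi.evalAddMonoidHom (fun _ : S => ℤ) x) := ⟨f, hf, rfl⟩
      rw [hd] at this
      obtain ⟨k, hk⟩ := AddSubgroup.mem_closure_singleton.mp this
      exact ⟨k, by rw [← hk]; simp [mul_comm]⟩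
    have hdmem : d ∈ R.map (Pi.evalAddMonoidHom (fun _ : S => ℤ) x) := by
      rw [hd]; exact AddSubgroup.subset_closure rfl
    obtain ⟨f, hf, hfd⟩ := hdmem
    have hfd' : f x = d := hfd
    by_cases hd1 : d.natAbs = 1
    · refine ⟨f * f, hmul f hf f hf, ?_⟩
      show f x * f x = 1
      rw [hfd']
      rcases Int.natAbs_eq d with h | h <;> rw [h, hd1] <;> simp
    · exfalso
      obtain ⟨p, hp, hpd⟩ := Nat.exists_prime_and_dvd hd1
      obtain ⟨g, hg, hgp⟩ := hcon x p hp
      apply hgp
      have : (p : ℤ) ∣ d := by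
        rw [← Int.natAbs_dvd_natAbs]; simpa using hpd
      exact this.trans (hval g hg)
  choose f hfR hf1 using hx
  have key : ∀ T : Finset S, (1 - ∏ x ∈ T, (1 - f x)) ∈ R := by
    intro T
    induction T using Finset.induction_on with
    | empty => simp
    | insert a T ha ih =>
      rw [Finset.prod_insert ha]
      have e : (1 - (1 - f a) * ∏ x ∈ T, (1 - f x)) =
          (1 - ∏ x ∈ T, (1 - f x)) + f a - f a * (1 - ∏ x ∈ T, (1 - f x)) := by ring
      rw [e]
      exact R.sub_mem (R.add_mem ih (hfR a)) (hmul _ (hfR a) _ ih)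
  haveI := Fintype.ofFinite S
  have h0 : ∏ x ∈ (Finset.univ : Finset S), (1 - f x) = 0 := by
    funext y
    rw [Finset.prod_apply]
    apply Finset.prod_eq_zero (Finset.mem_univ y)
    simp [hf1 y]
  have := key Finset.univ
  rw [h0, sub_zero] at this
  exact h1 this

end Cfsg.Agent.S0869
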