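import Cfsg.Statements.S0870
import Cfsg.Agent.Lib.Helper15.PermChar

set_option autoImplicit false
open Cfsg

namespace Cfsg.Agent.S0870

open Cfsg.Agent.Lib.Helper15

/-- For subgroups H and K of a finite group G, the pointwise product of the functions induced from the constant function 1 on H and on K is a sum, over subgroups U of H with natural-number coefficients, of the functions induced from the constant function 1 on U. -/
theorem result {G : Type*} [Group G] [Fintype G] (H K : Subgroup G) : ∃ a : Subgroup G → ℕ, (∀ U, a U ≠ 0 → U ≤ H) ∧ Cfsg.indFun H (fun _ => 1) * Cfsg.indFun K (fun _ => 1) = ∑ U : Subgroup G, (a U : ℂ) • Cfsg.indFun U (fun _ => 1) := by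
  classical
  haveI : Fintype (G ⧸ H) := Fintype.ofFinite _
  haveI : Fintype (G ⧸ K) := Fintype.ofFinite _
  haveI : Fintype (MulAction.orbitRel.Quotient G ((G ⧸ H) × (G ⧸ K))) := Fintype.ofFinite _
  have hex : ∀ q : MulAction.orbitRel.Quotient G ((G ⧸ H) × (G ⧸ K)),
      ∃ ω : (G ⧸ H) × (G ⧸ K), ω.1 = ((1 : G) : G ⧸ H) ∧ Quotient.mk'' ω = q := by
    intro q
    induction q using Quotient.inductionOn' with
    | h ω =>
      obtain ⟨a, b⟩ := ω
      induction a using QuotientGroup.induction_on with
      | H x =>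
        refine ⟨x⁻¹ • ((x : G ⧸ H), b), ?_, ?_⟩
        · show x⁻¹ • (x : G ⧸ H) = ((1 : G) : G ⧸ H)
          rw [MulAction.Quotient.smul_mk]; simp
        · apply Quotient.sound'
          exact MulAction.mem_orbit _ x⁻¹
  choose rep hrep1 hrep using hex
  let U : MulAction.orbitRel.Quotient G ((G ⧸ H) × (G ⧸ K)) → Subgroup G :=
    fun q => MulAction.stabilizer G (rep q)
  refine ⟨fun V => (Finset.univ.filter (fun q => U q = V)).card, ?_, ?_⟩
  · intro V hV x hx
    obtain ⟨q, hq⟩ := Finset.card_pos.mp (Nat.pos_of_ne_zero hV)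
    simp only [Finset.mem_filter, Finset.mem_univ, true_and] at hq
    rw [← hq] at hx
    have h1 : x • rep q = rep q := hx
    have h2 : x • (rep q).1 = (rep q).1 := congrArg Prod.fst h1
    rw [hrep1, MulAction.Quotient.smul_mk, QuotientGroup.eq] at h2
    simpa using h2
  · funext g
    rw [Pi.mul_apply, Finset.sum_apply]
    simp only [Pi.smul_apply]
    have key : ∑ V : Subgroup G, ((Finset.univ.filter (fun q => U q = V)).card : ℂ) •
        Cfsg.indFun V (fun _ => (1 : ℂ)) g =
        ∑ q, Cfsg.indFun (U q) (fun _ => (1 : ℂ)) g := by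
      rw [← Finset.sum_fiberwise Finset.univ U (fun q => Cfsg.indFun (U q) (fun _ => (1 : ℂ)) g)]
      apply Finset.sum_congr rfl
      intro V _
      have : ∀ q ∈ Finset.univ.filter (fun q => U q = V),
          Cfsg.indFun (U q) (fun _ => (1 : ℂ)) g = Cfsg.indFun V (fun _ => (1 : ℂ)) g := by
        intro q hq
        rw [(Finset.mem_filter.mp hq).2]
      rw [Finset.sum_congr rfl this, Finset.sum_const, nsmul_eq_mul, smul_eq_mul]
    rw [key, ← card_fixed_eq_sum_indFun rep hrep g, indFun_one_eq_card_fixed_quotient H g,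
      indFun_one_eq_card_fixed_quotient K g, ← Nat.cast_mul, ← Finset.card_product]
    congr 2
    ext ⟨a, b⟩
    simp [Prod.ext_iff]

end Cfsg.Agent.S0870
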