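import Cfsg.Statements.S0871
import Cfsg.Agent.Lib.Helper15.PermChar

set_option autoImplicit false
open Cfsg

namespace Cfsg.Agent.S0871

open Cfsg.Agent.Lib.Helper15

/-- Let x be an element of the finite group G and p a prime. Then there is a subgroup H having a cyclic normal subgroup C of order prime to p and p-power index in H, such that the value at x of the function induced from the constant function 1 on H is a natural number not divisible by p. -/
theorem result {G : Type*} [Group G] [Fintype G] (x : G) (p : ℕ) (hp : p.Prime) : ∃ H : Subgroup G, (∃ C : Subgroup G, C ≤ H ∧ H ≤ Subgroup.normalizer (C : Set G) ∧ IsCyclic C ∧ Nat.Coprime (Nat.card C) p ∧ ∃ k : ℕ, C.relIndex H = p ^ k) ∧ ∃ n : ℕ, Cfsg.indFun H (fun _ => 1) x = (n : ℂ) ∧ ¬ p ∣ n := by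
  classical
  have : Fact p.Prime := ⟨hp⟩
  obtain ⟨e, m, hpm, hom⟩ := Nat.exists_eq_pow_mul_and_not_dvd (orderOf_pos x).ne' p hp.ne_one
  set y := x ^ (p ^ e) with hy
  set C : Subgroup G := Subgroup.zpowers y with hC
  set N : Subgroup G := Subgroup.normalizer (C : Set G) with hN
  have hCN : C ≤ N := Subgroup.le_normalizer
  have hxN : x ∈ N := by
    apply Subgroup.mem_normalizer_fintype
    intro c hc
    obtain ⟨j, rfl⟩ := Subgroup.mem_zpowers_iff.mp hc
    have hcomm : Commute x (y ^ j) := ((Commute.refl x).pow_right _).zpow_right j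
    rw [hcomm.eq, mul_inv_cancel_right]
    exact hc
  have hcardC : Nat.card C = m := by
    rw [hC, Nat.card_zpowers, hy, orderOf_pow, hom, Nat.gcd_eq_right (Dvd.intro _ rfl),
      Nat.mul_div_cancel_left _ (pow_pos hp.pos e)]
  have hcopC : Nat.Coprime (Nat.card C) p := by
    rw [hcardC]
    exact ((Nat.Prime.coprime_iff_not_dvd hp).mpr hpm).symm
  have hC'n : (C.subgroupOf N).Normal := Subgroup.normal_subgroupOf_of_le_normalizer (le_refl _)
  set π : N →* N ⧸ C.subgroupOf N := QuotientGroup.mk' (C.subgroupOf N) with hπ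
  have hπy : π ⟨x, hxN⟩ ^ (p ^ e) = 1 := by
    rw [← map_pow, hπ, QuotientGroup.mk'_apply, QuotientGroup.eq_one_iff, Subgroup.mem_subgroupOf]
    show x ^ (p ^ e) ∈ C
    exact Subgroup.mem_zpowers y
  have hQ0 : IsPGroup p (Subgroup.zpowers (π ⟨x, hxN⟩)) := by
    rintro ⟨τ, hτ⟩
    obtain ⟨j, rfl⟩ := Subgroup.mem_zpowers_iff.mp hτ
    refine ⟨e, Subtype.ext ?_⟩
    show (π ⟨x, hxN⟩ ^ j) ^ (p ^ e) = 1
    rw [← zpow_natCast, ← zpow_mul, mul_comm, zpow_mul, zpow_natCast, hπy, one_zpow]
  obtain ⟨P, hP⟩ := hQ0.exists_le_sylow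
  set H' : Subgroup N := (P : Subgroup (N ⧸ C.subgroupOf N)).comap π with hH'
  set H : Subgroup G := H'.map N.subtype with hH
  have hHN : H ≤ N := Subgroup.map_subtype_le H'
  have hC'H' : C.subgroupOf N ≤ H' := by
    intro c hc
    rw [hH', Subgroup.mem_comap]
    have : π c = 1 := by
      rw [hπ, QuotientGroup.mk'_apply, QuotientGroup.eq_one_iff]; exact hc
    rw [this]; exact Subgroup.one_mem _
  have hCmap : (C.subgroupOf N).map N.subtype = C := Subgroup.map_subgroupOf_eq_of_le hCN
  have hCH : C ≤ H := by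
    rw [← hCmap]; exact Subgroup.map_mono hC'H'
  have hxH : x ∈ H := by
    refine ⟨⟨x, hxN⟩, ?_, rfl⟩
    show π ⟨x, hxN⟩ ∈ (P : Subgroup (N ⧸ C.subgroupOf N))
    exact hP (Subgroup.mem_zpowers _)
  have hπsurj : Function.Surjective π := QuotientGroup.mk'_surjective _
  have hrel : C.relIndex H = Nat.card P := by
    have h1 : C.relIndex H = (C.subgroupOf N).relIndex H' := by
      conv_lhs => rw [← hCmap, hH]
      exact Subgroup.relIndex_map_map_of_injective _ _ (Subgroup.subtype_injective N)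
    have h2 : (⊥ : Subgroup (N ⧸ C.subgroupOf N)).comap π = C.subgroupOf N := by
      rw [MonoidHom.comap_bot, hπ, QuotientGroup.ker_mk']
    have h3 : ((⊥ : Subgroup (N ⧸ C.subgroupOf N)).comap π).relIndex H' = Nat.card P := by
      rw [Subgroup.relIndex_comap, hH', Subgroup.map_comap_eq_self_of_surjective hπsurj,
        Subgroup.relIndex_bot_left]
    rw [h1]
    exact (congrArg (fun S => S.relIndex H') h2).symm.trans h3
  obtain ⟨k, hk⟩ := P.2.exists_card_eq
  have hrelk : C.relIndex H = p ^ k := by rw [hrel]; exact hk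
  have hidx : ¬ p ∣ (H.subgroupOf N).index := by
    have h1 : H.subgroupOf N = H' := by
      rw [hH]
      exact Subgroup.comap_map_eq_self_of_injective (Subgroup.subtype_injective N) H'
    rw [h1, hH', Subgroup.index_comap_of_surjective _ hπsurj]
    exact P.not_dvd_index
  -- elements of H of order prime to p lie in C
  have hpreg : ∀ d ∈ H, Nat.Coprime (orderOf d) p → d ∈ C := by
    intro d hd hcop
    have hnorm : (C.subgroupOf H).Normal := Subgroup.normal_subgroupOf_of_le_normalizer hHN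
    have h1 := Subgroup.pow_index_mem (C.subgroupOf H) (⟨d, hd⟩ : H)
    have h2 : d ^ (p ^ k) ∈ C := by
      rw [← hrelk]
      exact h1
    obtain ⟨j, hj⟩ := exists_pow_eq_self_of_coprime (Nat.Coprime.pow_left k hcop.symm)
    rw [← hj]
    exact C.pow_mem h2 j
  -- fixed points lie over N
  have hfixN : ∀ g : G, x • (g : G ⧸ H) = (g : G ⧸ H) → g ∈ N := by
    intro g hg
    rw [MulAction.Quotient.smul_mk, QuotientGroup.eq] at hg
    have h1 : g⁻¹ * x * g ∈ H := by
      have := H.inv_mem hg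
      have e1 : ((x • g)⁻¹ * g)⁻¹ = g⁻¹ * x * g := by
        simp [smul_eq_mul, mul_assoc]
      rwa [e1] at this
    have h2 : g⁻¹ ∈ N := by
      apply Subgroup.mem_normalizer_fintype
      intro c hc
      apply hpreg
      · obtain ⟨j, rfl⟩ := Subgroup.mem_zpowers_iff.mp hc
        have e2 : g⁻¹ * y ^ j * g⁻¹⁻¹ = ((g⁻¹ * x * g) ^ (p ^ e)) ^ j := by
          rw [hy]
          have : g⁻¹ * x * g = (MulAut.conj g⁻¹) x := by simp
          rw [this, ← map_pow, ← map_zpow]
          simp
        rw [e2]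
        exact H.zpow_mem (H.pow_mem h1 _) j
      · have e3 : orderOf (g⁻¹ * c * g⁻¹⁻¹) = orderOf c := (MulAut.conj g⁻¹).orderOf_eq c
        rw [e3]
        have h3 : orderOf c ∣ Nat.card C := by
          have := orderOf_dvd_natCard (⟨c, hc⟩ : C)
          rwa [Subgroup.orderOf_mk] at this
        exact Nat.Coprime.coprime_dvd_left h3 hcopC
    have := N.inv_mem h2
    rwa [inv_inv] at this
  let _ : Fintype (G ⧸ H) := Fintype.ofFinite _
  refine ⟨H, ⟨C, hCH, hHN, Subgroup.isCyclic_zpowers y, hcopC, k, hrelk⟩,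
    (Finset.univ.filter (fun q : G ⧸ H => x • q = q)).card,
    indFun_one_eq_card_fixed_quotient H x, ?_⟩
  -- the counting argument
  set b : G ⧸ H := ((1 : G) : G ⧸ H) with hb
  -- C acts trivially on the orbit
  have htriv : ∀ (c : G), c ∈ C → ∀ t : MulAction.orbit N b, c • (t : G ⧸ H) = t := by
    rintro c hc ⟨t, n, rfl⟩
    have hn : (n : G)⁻¹ * c * (n : G) ∈ C := by
      have h1 := (Subgroup.mem_normalizer_iff.mp (N.inv_mem n.2)) c
      have h2 := h1.mp hc
      simpa using h2
    show c • ((n : G) • b) = (n : G) • b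
    rw [hb, MulAction.Quotient.smul_mk, MulAction.Quotient.smul_mk, QuotientGroup.eq]
    have : (c • ((n : G) • (1 : G)))⁻¹ * ((n : G) • (1 : G)) = ((n : G)⁻¹ * c * (n : G))⁻¹ := by
      simp [smul_eq_mul, mul_assoc]
    rw [this]
    exact H.inv_mem (hCH hn)
  set σ : Equiv.Perm (MulAction.orbit N b) := MulAction.toPerm (⟨x, hxN⟩ : N) with hσ
  have hσapp : ∀ t : MulAction.orbit N b, ((σ t : MulAction.orbit N b) : G ⧸ H) = x • (t : G ⧸ H) :=
    fun t => rfl
  have hσpow : σ ^ (p ^ e) = 1 := by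
    have h1 : σ ^ (p ^ e) = MulAction.toPerm ((⟨x, hxN⟩ : N) ^ (p ^ e)) := by
      rw [hσ, ← MulAction.toPermHom_apply, ← MulAction.toPermHom_apply, map_pow]
    rw [h1]
    ext t
    show ((⟨x, hxN⟩ : N) ^ (p ^ e) : N) • (t : G ⧸ H) = t
    exact htriv y (Subgroup.mem_zpowers y) t
  have hQ : IsPGroup p (Subgroup.zpowers σ) := by
    rintro ⟨τ, hτ⟩
    obtain ⟨j, rfl⟩ := Subgroup.mem_zpowers_iff.mp hτ
    refine ⟨e, Subtype.ext ?_⟩
    show (σ ^ j) ^ (p ^ e) = 1
    rw [← zpow_natCast, ← zpow_mul, mul_comm, zpow_mul, zpow_natCast, hσpow, one_zpow]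
  have key := hQ.card_modEq_card_fixedPoints (MulAction.orbit N b)
  have hcardT : Nat.card (MulAction.orbit N b) = (H.subgroupOf N).index := by
    rw [Nat.card_coe_set_eq, ← MulAction.index_stabilizer]
    congr 1
    ext n
    rw [MulAction.mem_stabilizer_iff, Subgroup.mem_subgroupOf]
    show (n : G) • b = b ↔ (n : G) ∈ H
    rw [hb, MulAction.Quotient.smul_mk, QuotientGroup.eq]
    simp
  have hcardF : Nat.card (MulAction.fixedPoints (Subgroup.zpowers σ) (MulAction.orbit N b)) =
      (Finset.univ.filter (fun q : G ⧸ H => x • q = q)).card := by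
    rw [← Fintype.card_subtype, ← Nat.card_eq_fintype_card]
    refine Nat.card_congr ?_
    refine
      { toFun := fun t => ⟨(t.1 : G ⧸ H), ?_⟩
        invFun := fun q => ⟨⟨q.1, ?_⟩, ?_⟩
        left_inv := fun t => rfl
        right_inv := fun q => rfl }
    · have := t.2 ⟨σ, Subgroup.mem_zpowers σ⟩
      have h2 : σ t.1 = t.1 := this
      rw [← hσapp, h2]
    · obtain ⟨q, hq⟩ := q
      induction q using QuotientGroup.induction_on with
      | H g =>
        refine ⟨⟨g, hfixN g hq⟩, ?_⟩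
        show g • b = (g : G ⧸ H)
        rw [hb, MulAction.Quotient.smul_mk]; simp
    · rintro ⟨τ, hτ⟩
      obtain ⟨j, rfl⟩ := Subgroup.mem_zpowers_iff.mp hτ
      show (σ ^ j) _ = _
      apply Equiv.Perm.zpow_apply_eq_self_of_apply_eq_self
      apply Subtype.ext
      rw [hσapp]
      exact q.2
  rw [hcardT, hcardF] at key
  intro hdvd
  exact hidx ((key.dvd_iff (dvd_refl p)).mpr hdvd)

end Cfsg.Agent.S0871
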