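import Cfsg.Statements.S0872
import Cfsg.Agent.S0870
import Cfsg.Agent.S0871

set_option autoImplicit false
open Cfsg

namespace Cfsg.Agent.S0872

/-- `H` has a cyclic normal subgroup of order prime to `p` and `p`-power index. -/
def QE {G : Type*} [Group G] (p : ℕ) (H : Subgroup G) : Prop :=
  ∃ C : Subgroup G, C ≤ H ∧ H ≤ Subgroup.normalizer (C : Set G) ∧ IsCyclic C ∧
    Nat.Coprime (Nat.card C) p ∧ ∃ k : ℕ, C.relIndex H = p ^ k

theorem QE_of_le {G : Type*} [Group G] [Finite G] {p : ℕ} (hp : p.Prime) {H U : Subgroup G}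
    (hH : QE p H) (hUH : U ≤ H) : QE p U := by
  obtain ⟨C, hCH, hHN, hcyc, hcop, k, hk⟩ := hH
  refine ⟨C ⊓ U, inf_le_right, ?_, ?_, ?_, ?_⟩
  · intro u hu
    apply Subgroup.mem_normalizer_fintype
    intro c hc
    have hc' : c ∈ C ⊓ U := hc
    have hu' := (Subgroup.mem_normalizer_iff.mp (hHN (hUH hu))) c
    exact ⟨hu'.mp hc'.1, U.mul_mem (U.mul_mem hu hc'.2) (U.inv_mem hu)⟩
  · exact Subgroup.isCyclic_of_le (inf_le_left : C ⊓ U ≤ C)
  · exact Nat.Coprime.coprime_dvd_left (Subgroup.card_dvd_of_le inf_le_left) hcop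
  · rw [Subgroup.inf_relIndex_right]
    have hnorm : (C.subgroupOf H).Normal := Subgroup.normal_subgroupOf_of_le_normalizer hHN
    have h1 : (C.subgroupOf H).relIndex (U.subgroupOf H) ∣ (C.subgroupOf H).index :=
      Subgroup.relIndex_dvd_index_of_normal _ _
    rw [Subgroup.relIndex_subgroupOf hUH] at h1
    have h2 : C.relIndex U ∣ p ^ k := by rw [← hk]; exact h1
    obtain ⟨j, -, hj⟩ := (Nat.dvd_prime_pow hp).mp h2
    exact ⟨j, hj⟩

/-- the additive group generated by permutation characters of `QE` subgroups. -/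
noncomputable def R {G : Type*} [Group G] [Fintype G] (p : ℕ) : AddSubgroup (G → ℂ) :=
  AddSubgroup.closure {f | ∃ H : Subgroup G, QE p H ∧ f = Cfsg.indFun H (fun _ => (1 : ℂ))}

theorem R_mul {G : Type*} [Group G] [Fintype G] {p : ℕ} (hp : p.Prime) (f g : G → ℂ)
    (hf : f ∈ R (G := G) p) (hg : g ∈ R (G := G) p) : f * g ∈ R (G := G) p := by
  classical
  unfold R at hf hg ⊢
  induction hf, hg using AddSubgroup.closure_induction₂ with
  | mem x y hx hy =>
    obtain ⟨H, hH, rfl⟩ := hx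
    obtain ⟨K, hK, rfl⟩ := hy
    obtain ⟨a, ha, hprod⟩ := Cfsg.Agent.S0870.result H K
    rw [hprod]
    apply AddSubgroup.sum_mem
    intro U _
    by_cases hU : a U = 0
    · rw [hU]; simp
    · rw [Nat.cast_smul_eq_nsmul]
      apply AddSubgroup.nsmul_mem
      exact AddSubgroup.subset_closure ⟨U, QE_of_le hp hH (ha U hU), rfl⟩
  | zero_left x hx => rw [zero_mul]; exact AddSubgroup.zero_mem _
  | zero_right x hx => rw [mul_zero]; exact AddSubgroup.zero_mem _
  | add_left x y z hx hy hz h1 h2 => rw [add_mul]; exact AddSubgroup.add_mem _ h1 h2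
  | add_right y z x hy hz hx h1 h2 => rw [mul_add]; exact AddSubgroup.add_mem _ h1 h2
  | neg_left x y hx hy h => rw [neg_mul]; exact AddSubgroup.neg_mem _ h
  | neg_right x y hx hy h => rw [mul_neg]; exact AddSubgroup.neg_mem _ h

theorem R_explicit {G : Type*} [Group G] [Fintype G] {p : ℕ} (f : G → ℂ)
    (hf : f ∈ R (G := G) p) :
    ∃ a : Subgroup G → ℤ, (∀ H, a H ≠ 0 → QE p H) ∧
      f = ∑ H : Subgroup G, (a H : ℂ) • Cfsg.indFun H (fun _ => (1 : ℂ)) := by
  classical
  unfold R at hf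
  induction hf using AddSubgroup.closure_induction with
  | mem x hx =>
    obtain ⟨H, hH, rfl⟩ := hx
    refine ⟨fun K => if K = H then 1 else 0, ?_, ?_⟩
    · intro K hK
      by_cases h : K = H
      · rw [h]; exact hH
      · simp [h] at hK
    · rw [Finset.sum_eq_single H]
      · simp
      · intro K _ hK
        simp [hK]
      · intro h; exact absurd (Finset.mem_univ H) h
  | zero => exact ⟨fun _ => 0, fun H h => absurd rfl h, by simp⟩
  | add x y hx hy h1 h2 =>
    obtain ⟨a, ha, rfl⟩ := h1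
    obtain ⟨b, hb, rfl⟩ := h2
    refine ⟨fun H => a H + b H, ?_, ?_⟩
    · intro H hH
      by_cases h : a H = 0
      · apply hb
        intro h'
        apply hH
        simp [h, h']
      · exact ha H h
    · rw [← Finset.sum_add_distrib]
      apply Finset.sum_congr rfl
      intro H _
      push_cast
      rw [add_smul]
  | neg x hx h =>
    obtain ⟨a, ha, rfl⟩ := h
    refine ⟨fun H => - a H, ?_, ?_⟩
    · intro H hH
      apply ha
      intro h'
      apply hH
      simp [h']
    · rw [← Finset.sum_neg_distrib]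
      apply Finset.sum_congr rfl
      intro H _
      push_cast
      rw [neg_smul]

/-- For a finite group G and a prime p there are an integer m not divisible by p and a ℤ-linear combination of functions induced from the constant function 1 on subgroups H, each having a cyclic normal subgroup of order prime to p and p-power index in H, that equals the constant function m. -/
theorem result {G : Type*} [Group G] [Fintype G] (p : ℕ) (hp : p.Prime) : ∃ (m : ℤ) (a : Subgroup G → ℤ), ¬ (p : ℤ) ∣ m ∧ (∀ H, a H ≠ 0 → (∃ C : Subgroup G, C ≤ H ∧ H ≤ Subgroup.normalizer (C : Set G) ∧ IsCyclic C ∧ Nat.Coprime (Nat.card C) p ∧ ∃ k : ℕ, C.relIndex H = p ^ k)) ∧ (fun _ : G => (m : ℂ)) = ∑ H : Subgroup G, (a H : ℂ) • Cfsg.indFun H (fun _ => 1) := by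
  classical
  have hex : ∀ x : G, ∃ H : Subgroup G, QE p H ∧ ∃ n : ℕ,
      Cfsg.indFun H (fun _ => (1 : ℂ)) x = (n : ℂ) ∧ ¬ p ∣ n := fun x =>
    Cfsg.Agent.S0871.result x p hp
  choose Hx hQE n hval hnd using hex
  -- expansion
  have key : ∀ T : Finset G,
      (((∏ g ∈ T, (n g : ℤ) : ℤ) : G → ℂ) -
        ∏ g ∈ T, (((n g : ℤ) : G → ℂ) - Cfsg.indFun (Hx g) (fun _ => (1 : ℂ)))) ∈ R (G := G) p := by
    intro T
    induction T using Finset.induction_on with
    | empty => simp
    | insert a T ha ih =>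
      rw [Finset.prod_insert ha, Finset.prod_insert ha]
      set Nn : ℤ := ∏ g ∈ T, (n g : ℤ) with hNn
      set P : G → ℂ := ∏ g ∈ T, (((n g : ℤ) : G → ℂ) - Cfsg.indFun (Hx g) (fun _ => (1 : ℂ)))
        with hP
      set fa : G → ℂ := Cfsg.indFun (Hx a) (fun _ => (1 : ℂ)) with hfa
      have hfaR : fa ∈ R (G := G) p := AddSubgroup.subset_closure ⟨Hx a, hQE a, rfl⟩
      have e : ((((n a : ℤ) * Nn : ℤ) : G → ℂ) - (((n a : ℤ) : G → ℂ) - fa) * P) =
          (n a : ℤ) • ((Nn : G → ℂ) - P) + Nn • fa - fa * ((Nn : G → ℂ) - P) := by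
        rw [zsmul_eq_mul, zsmul_eq_mul]
        push_cast
        ring
      rw [e]
      exact AddSubgroup.sub_mem _ (AddSubgroup.add_mem _ (AddSubgroup.zsmul_mem _ ih _)
        (AddSubgroup.zsmul_mem _ hfaR _)) (R_mul hp _ _ hfaR ih)
  have h0 : ∏ g ∈ (Finset.univ : Finset G),
      (((n g : ℤ) : G → ℂ) - Cfsg.indFun (Hx g) (fun _ => (1 : ℂ))) = 0 := by
    funext y
    rw [Finset.prod_apply]
    apply Finset.prod_eq_zero (Finset.mem_univ y)
    simp [hval y]
  have hm := key Finset.univ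
  rw [h0, sub_zero] at hm
  obtain ⟨a, ha, hsum⟩ := R_explicit _ hm
  refine ⟨∏ g ∈ (Finset.univ : Finset G), (n g : ℤ), a, ?_, ha, ?_⟩
  · intro hdvd
    have hpi : Prime (p : ℤ) := Nat.prime_iff_prime_int.mp hp
    obtain ⟨g, -, hg⟩ := (Prime.dvd_finsetProd_iff hpi _).mp hdvd
    exact hnd g (Int.natCast_dvd_natCast.mp hg)
  · rw [← hsum]
    rfl

end Cfsg.Agent.S0872
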