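import Cfsg.Statements.S0873
import Cfsg.Agent.Lib.Helper15.LinChar

set_option autoImplicit false
open Cfsg

namespace Cfsg.Agent.S0873

open Cfsg.Agent.Lib.Helper15

/-- Let C be a normal subgroup of the finite group G of order prime to p and P a p-subgroup with C ⊔ P = G. Let λ be a character of C of degree 1 invariant under conjugation by G and equal to 1 at every element of C centralized by P. Then λ is identically 1. -/
theorem result {G : Type*} [Group G] [Finite G] (p : ℕ) [Fact p.Prime] (C P : Subgroup G) [hC : C.Normal] (hP : IsPGroup p P) (hcop : Nat.Coprime (Nat.card C) p) (hCP : C ⊔ P = ⊤) (lam : C → ℂ) (hlam : Cfsg.IsCharacter C lam ∧ lam 1 = 1) (hinv : ∀ (g : G) (c : C), lam ⟨g * c * g⁻¹, hC.conj_mem (c : G) c.2 g⟩ = lam c) (hker : ∀ c : C, (c : G) ∈ Subgroup.centralizer (P : Set G) → lam c = 1) : lam = fun _ => 1 := by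
  classical
  funext c₀
  let f : C →* ℂˣ := linCharHom hlam.1 hlam.2
  have hf : ∀ c, ((f c : ℂˣ) : ℂ) = lam c := fun c => rfl
  let act : MulAction P {c : C // lam c = lam c₀} :=
    { smul := fun u c => ⟨⟨(u : G) * c.1 * (u : G)⁻¹, hC.conj_mem (c.1 : G) c.1.2 u⟩,
        (hinv (u : G) c.1).trans c.2⟩
      one_smul := by
        rintro ⟨c, hc⟩
        apply Subtype.ext
        apply Subtype.ext
        show ((1 : P) : G) * c * ((1 : P) : G)⁻¹ = c
        simp
      mul_smul := by
        rintro u v ⟨c, hc⟩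
        apply Subtype.ext
        apply Subtype.ext
        show ((u * v : P) : G) * c * ((u * v : P) : G)⁻¹ = (u : G) * ((v : G) * c * (v : G)⁻¹) * (u : G)⁻¹
        simp [mul_assoc] }
  -- the fibre is in bijection with the kernel
  have hcard : Nat.card {c : C // lam c = lam c₀} = Nat.card f.ker := by
    refine Nat.card_congr ?_
    refine
      { toFun := fun c => ⟨c₀⁻¹ * c.1, ?_⟩
        invFun := fun k => ⟨c₀ * k.1, ?_⟩
        left_inv := fun c => by simp
        right_inv := fun k => by simp }
    · rw [MonoidHom.mem_ker, map_mul, map_inv]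
      apply Units.ext
      rw [Units.val_mul, Units.val_inv_eq_inv_val, hf, hf, c.2]
      exact inv_mul_cancel₀ (linChar_ne_zero hlam.1 hlam.2 c₀)
    · have hk : f k.1 = 1 := k.2
      rw [← hf, ← hf, map_mul, hk, mul_one]
  have hnd : ¬ p ∣ Nat.card {c : C // lam c = lam c₀} := by
    rw [hcard]
    intro hdvd
    have h2 : p ∣ Nat.card C := hdvd.trans (Subgroup.card_subgroup_dvd_card f.ker)
    have := Nat.eq_one_of_dvd_coprimes hcop h2 (dvd_refl p)
    exact (Fact.out : p.Prime).one_lt.ne' this
  obtain ⟨⟨c, hc⟩, hfix⟩ := hP.nonempty_fixed_point_of_prime_not_dvd_card {c : C // lam c = lam c₀} hnd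
  rw [← hc]
  apply hker
  intro u hu
  have := hfix ⟨u, hu⟩
  have h4 : u * (c : G) * u⁻¹ = c := congrArg (fun t => ((t.1 : C) : G)) this
  exact mul_inv_eq_iff_eq_mul.mp h4

end Cfsg.Agent.S0873
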