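import Cfsg.Statements.S0875
import Cfsg.Agent.Lib.Helper15.RBrauer
import Cfsg.Agent.Lib.Helper15.PiParts
import Cfsg.Agent.S0868

set_option autoImplicit false
open Cfsg

namespace Cfsg.Agent.S0875

open Cfsg.Agent.Lib.Helper15
open scoped ComplexConjugate

universe u

/-- Local computation: on an elementary group `E` of order dividing `m * n`, a class function of
the form `x ↦ n * D (x ^ k')`, with `D` algebraic-integer valued and `x ↦ x ^ k'` the projection
onto the part of order dividing `n`, is an algebraic-integer combination of irreducible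
characters. -/
theorem local_isRComb {E : Type u} [Group E] [Fintype E] {p : ℕ} (hp : p.Prime)
    (hE : Cfsg.IsElementary p E) {m n k' : ℕ} (hmn : m.Coprime n) (hc : Nat.card E ∣ m * n)
    (hk0' : k' ≡ 0 [MOD m]) (hk1' : k' ≡ 1 [MOD n]) (D : E → ℂ) (hD : ∀ x, D x ∈ Cfsg.AlgInt)
    (hcl : Cfsg.IsClassFunction E (fun x => (n : ℂ) * D (x ^ k'))) :
    IsRComb E (fun x => (n : ℂ) * D (x ^ k')) := by
  classical
  have hc' : Nat.card E ∣ n * m := by rwa [mul_comm]
  let f' : E →* E :=
    { toFun := fun x => x ^ k'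
      map_one' := one_pow k'
      map_mul' := elementary_pow_mul hp hE hmn.symm hc' hk1' hk0' }
  have hf' : ∀ x, f' x = x ^ k' := fun x => rfl
  have hpown : ∀ x : E, (f' x) ^ n = 1 := fun x => pow_pow_eq_one hc' hk0' x
  have hidem : ∀ x : E, f' (f' x) = f' x := fun x =>
    pow_eq_self_of_modEq_one hk1' (hpown x)
  -- the decomposition E = ker × range
  let e : f'.ker × f'.range → E := fun ab => (ab.1 : E) * (ab.2 : E)
  have hrange : ∀ b : f'.range, f' (b : E) = b := by
    rintro ⟨b, y, rfl⟩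
    exact hidem y
  have hinj : Function.Injective e := by
    rintro ⟨a, b⟩ ⟨a', b'⟩ h
    have h' : (a : E) * (b : E) = (a' : E) * (b' : E) := h
    have h1 := congrArg f' h'
    rw [map_mul, map_mul, MonoidHom.mem_ker.mp a.2, MonoidHom.mem_ker.mp a'.2, one_mul, one_mul,
      hrange, hrange] at h1
    have hb : b = b' := Subtype.ext h1
    subst hb
    have ha : a = a' := Subtype.ext (mul_right_cancel h')
    rw [ha]
  have hsurj : Function.Surjective e := by
    intro x
    refine ⟨(⟨x * (f' x)⁻¹, ?_⟩, ⟨f' x, x, rfl⟩), ?_⟩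
    · rw [MonoidHom.mem_ker, map_mul, map_inv, hidem, mul_inv_cancel]
    · show x * (f' x)⁻¹ * f' x = x
      rw [inv_mul_cancel_right]
  let eq : f'.ker × f'.range ≃ E := Equiv.ofBijective e ⟨hinj, hsurj⟩
  have hcardE : Nat.card E = Nat.card f'.ker * Nat.card f'.range := by
    rw [← Nat.card_prod]
    exact (Nat.card_congr eq).symm
  -- the range has order dividing n
  have hBn : Nat.card f'.range ∣ n := by
    have hdvd : Nat.card f'.range ∣ m * n := (Subgroup.card_subgroup_dvd_card _).trans hc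
    have hcop : (Nat.card f'.range).Coprime m := by
      by_contra hnc
      obtain ⟨q, hq, hq1, hq2⟩ := Nat.Prime.not_coprime_iff_dvd.mp hnc
      have := Fact.mk hq
      obtain ⟨y, hy⟩ := exists_prime_orderOf_dvd_card' q hq1
      have hyn : y ^ n = 1 := by
        apply Subtype.ext
        obtain ⟨y0, x, rfl⟩ := y
        exact hpown x
      have hqn : q ∣ n := by
        rw [← hy]
        exact orderOf_dvd_of_pow_eq_one hyn
      have := Nat.eq_one_of_dvd_coprimes hmn hq2 hqn
      exact hq.one_lt.ne' this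
    exact Nat.Coprime.dvd_of_dvd_mul_left hcop hdvd
  obtain ⟨q, hq⟩ := hBn
  apply isRComb_of_classInner hcl
  intro ψ
  have hψ : Cfsg.IsCharacter E (ψ : E → ℂ) := Cfsg.Agent.Lib.Helper3.isCharacter_of_irr ψ.2
  have havg := Cfsg.Agent.S0868.isCharacter_cosetAvg f'.ker hψ
  set avg : E → ℂ := fun g => (Nat.card f'.ker : ℂ)⁻¹ * ∑ a : f'.ker, (ψ : E → ℂ) ((a : E) * g)
    with havg_def
  have hsum : ∑ x : E, (n : ℂ) * D (x ^ k') * conj ((ψ : E → ℂ) x) =
      (n : ℂ) * (Nat.card f'.ker : ℂ) * ∑ b : f'.range, D (b : E) * conj (avg (b : E)) := by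
    rw [← Equiv.sum_comp eq, Fintype.sum_prod_type, Finset.sum_comm, Finset.mul_sum]
    refine Finset.sum_congr rfl fun b _ => ?_
    have h1 : ∀ a : f'.ker, (eq (a, b)) ^ k' = (b : E) := by
      intro a
      show f' ((a : E) * (b : E)) = b
      rw [map_mul, MonoidHom.mem_ker.mp a.2, one_mul, hrange]
    simp_rw [h1]
    rw [← Finset.mul_sum, ← map_sum]
    have h2 : ∑ a : f'.ker, (ψ : E → ℂ) (eq (a, b)) = (Nat.card f'.ker : ℂ) * avg (b : E) := by
      rw [havg_def]
      have hne : (Nat.card f'.ker : ℂ) ≠ 0 := by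
        exact_mod_cast (Nat.card_pos (α := f'.ker)).ne'
      show ∑ a : f'.ker, (ψ : E → ℂ) ((a : E) * (b : E)) = _
      field_simp
    rw [h2, map_mul, Complex.conj_natCast]
    ring
  unfold Cfsg.classInner
  rw [hsum, hcardE, hq]
  have hk0 : (Nat.card f'.ker : ℂ) ≠ 0 := by
    exact_mod_cast (Nat.card_pos (α := f'.ker)).ne'
  have hr0 : (Nat.card f'.range : ℂ) ≠ 0 := by
    exact_mod_cast (Nat.card_pos (α := f'.range)).ne'
  have hfinal : ((Nat.card f'.ker * Nat.card f'.range : ℕ) : ℂ)⁻¹ *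
      (((Nat.card f'.range * q : ℕ) : ℂ) * (Nat.card f'.ker : ℂ) *
        ∑ b : f'.range, D (b : E) * conj (avg (b : E))) =
      (q : ℂ) * ∑ b : f'.range, D (b : E) * conj (avg (b : E)) := by
    push_cast
    field_simp
  rw [hfinal]
  apply Subalgebra.mul_mem _ (Subalgebra.natCast_mem _ q)
  apply Subalgebra.sum_mem
  intro b _
  apply Subalgebra.mul_mem _ (hD b)
  exact map_isIntegral_int (starRingEnd ℂ)
    (Cfsg.Agent.Lib.Helper80.isIntegral_char_val havg (b : E))

/-- Let G be a finite group of order m * n with m and n coprime, and g an element whose order is coprime to m. Every x in G factors uniquely as x = u * v with u, v commuting, the order of u coprime to n and the order of v coprime to m; let ϑ be the function on G equal to n at those x whose factor v is conjugate to g and equal to 0 elsewhere. Then ϑ is a linear combination of the irreducible characters of G with algebraic-integer coefficients. -/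
theorem result {G : Type*} [Group G] [Fintype G] (m n : ℕ) (hmn : Nat.card G = m * n) (hcop : Nat.Coprime m n) (g : G) (hg : Nat.Coprime (orderOf g) m) (ϑ : G → ℂ) (hϑ1 : ∀ x : G, (∃ v : G, IsConj v g ∧ (∃ u : G, x = u * v ∧ Commute u v ∧ Nat.Coprime (orderOf u) n ∧ Nat.Coprime (orderOf v) m)) → ϑ x = n) (hϑ0 : ∀ x : G, (¬ ∃ v : G, IsConj v g ∧ (∃ u : G, x = u * v ∧ Commute u v ∧ Nat.Coprime (orderOf u) n ∧ Nat.Coprime (orderOf v) m)) → ϑ x = 0) : ∃ c : Cfsg.IrrCharacter G → ℂ, (∀ χ, c χ ∈ Cfsg.AlgInt) ∧ ϑ = ∑ᶠ χ : Cfsg.IrrCharacter G, c χ • (χ : G → ℂ) := by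
  classical
  obtain ⟨k, k', hk1, hk0, hk0', hk1'⟩ := exists_piExp hcop
  have hc : Nat.card G ∣ m * n := by rw [hmn]
  -- characterisation of the condition
  have hgood : ∀ x : G, (∃ v : G, IsConj v g ∧ (∃ u : G, x = u * v ∧ Commute u v ∧
      Nat.Coprime (orderOf u) n ∧ Nat.Coprime (orderOf v) m)) ↔ IsConj (x ^ k') g := by
    intro x
    constructor
    · rintro ⟨v, hv, u, hx, huv, hu, hvm⟩
      obtain ⟨-, h2⟩ := pow_eq_of_decomp hc hk1 hk0 hk0' hk1' hx huv hu hvm
      rwa [h2]
    · intro h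
      refine ⟨x ^ k', h, x ^ k, (pow_mul_pow_eq_self hcop hc hk1 hk0 hk0' hk1' x).symm,
        (Commute.refl x).pow_pow k k', ?_, ?_⟩
      · have h1 : (x ^ k) ^ m = 1 := pow_pow_eq_one hc hk0 x
        exact Nat.Coprime.coprime_dvd_left (orderOf_dvd_of_pow_eq_one h1) hcop
      · have h1 : (x ^ k') ^ n = 1 := pow_pow_eq_one (by rwa [mul_comm]) hk0' x
        exact Nat.Coprime.coprime_dvd_left (orderOf_dvd_of_pow_eq_one h1) hcop.symm
  let DG : G → ℂ := fun y => if IsConj y g then 1 else 0
  have hϑ : ∀ x : G, ϑ x = (n : ℂ) * DG (x ^ k') := by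
    intro x
    by_cases h : IsConj (x ^ k') g
    · rw [hϑ1 x ((hgood x).mpr h)]
      simp only [DG, if_pos h, mul_one]
    · rw [hϑ0 x (fun h' => h ((hgood x).mp h'))]
      simp only [DG, if_neg h, mul_zero]
  have hDG : ∀ y, DG y ∈ Cfsg.AlgInt := by
    intro y
    by_cases h : IsConj y g
    · simp only [DG, h, if_true]; exact Subalgebra.one_mem _
    · simp only [DG, h, if_false]; exact Subalgebra.zero_mem _
  have hcl : Cfsg.IsClassFunction G ϑ := by
    intro x h
    rw [hϑ, hϑ]
    congr 1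
    have h1 : (h * x * h⁻¹) ^ k' = h * x ^ k' * h⁻¹ := conj_pow
    rw [h1]
    have h2 : IsConj (h * x ^ k' * h⁻¹) g ↔ IsConj (x ^ k') g := by
      constructor
      · intro hh
        exact (isConj_iff.mpr ⟨h, rfl⟩ : IsConj (x ^ k') (h * x ^ k' * h⁻¹)).trans hh
      · intro hh
        exact (isConj_iff.mpr ⟨h, rfl⟩ : IsConj (x ^ k') (h * x ^ k' * h⁻¹)).symm.trans hh
    simp only [DG, h2]
  have hfun : ϑ = fun x => (n : ℂ) * DG (x ^ k') := funext hϑ
  have hmain : IsRComb G ϑ := by
    apply isRComb_of_elementary hcl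
    intro E p hp hE
    have := Fintype.ofFinite E
    have hcE : Nat.card E ∣ m * n := (Subgroup.card_subgroup_dvd_card E).trans hc
    have hclE : Cfsg.IsClassFunction E (fun e : E => ϑ e) := by
      intro a b
      exact hcl (a : G) (b : G)
    have hfunE : (fun e : E => ϑ e) = fun e : E => (n : ℂ) * (fun y : E => DG (y : G)) (e ^ k') := by
      funext e
      rw [hϑ]
      simp
    rw [hfunE] at hclE ⊢
    exact local_isRComb hp hE hcop hcE hk0' hk1' (fun y : E => DG (y : G)) (fun y => hDG _) hclE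
  exact hmain

end Cfsg.Agent.S0875
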