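import Cfsg.Statements.S0877
import Cfsg.Agent.Lib.Helper15.PiParts
import Cfsg.Agent.Lib.Helper3.BrauerMain
import Cfsg.Agent.Lib.Helper82.Elementary
import Cfsg.Agent.Lib.Helper80.Gagola
import Cfsg.Agent.Lib.Lead.Frobenius

set_option autoImplicit false
open Cfsg

namespace Cfsg.Agent.S0877

open Cfsg.Agent.Lib.Helper15
open scoped ComplexConjugate

universe u

section Setup

variable {G : Type u} [Group G] [Fintype G] (H : Subgroup G) {m n k : ℕ}

omit [Fintype G] in
/-- A class function of `H` takes equal values at elements of `H` conjugate in `G`, under the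
fusion hypothesis. -/
theorem eq_of_isConj
    (hfus : ∀ x ∈ H, ∀ y ∈ H, IsConj x y → ∃ h ∈ H, h * x * h⁻¹ = y)
    {ψ : H → ℂ} (hψ : Cfsg.IsClassFunction H ψ) {a b : H} (hab : IsConj (a : G) (b : G)) :
    ψ a = ψ b := by
  obtain ⟨h, hh, hc⟩ := hfus a a.2 b b.2 hab
  have : b = (⟨h, hh⟩ : H) * a * (⟨h, hh⟩ : H)⁻¹ := Subtype.ext hc.symm
  rw [this, hψ]

/-- Every `k`-th power is conjugate into `H`. -/
theorem exists_conj_mem (hm : Nat.card H = m) (hc : Nat.card G ∣ m * n) (hk0 : k ≡ 0 [MOD n])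
    (helem : ∀ (E : Subgroup G) (p : ℕ), p.Prime → Cfsg.IsElementary p E →
      Nat.card E ∣ Nat.card H → ∃ g : G, E.map (MulAut.conj g).toMonoidHom ≤ H) (x : G) :
    ∃ t : G, t * x ^ k * t⁻¹ ∈ H := by
  have h1 : Cfsg.IsElementary 2 (Subgroup.zpowers (x ^ k)) :=
    Cfsg.Agent.Lib.Helper82.isElementary_of_isCyclic 2 Nat.prime_two
  have h2 : Nat.card (Subgroup.zpowers (x ^ k)) ∣ Nat.card H := by
    rw [Nat.card_zpowers, hm]
    exact orderOf_dvd_of_pow_eq_one (pow_pow_eq_one hc hk0 x)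
  obtain ⟨g, hg⟩ := helem _ 2 Nat.prime_two h1 h2
  refine ⟨g, hg ?_⟩
  have := Subgroup.mem_map_of_mem (MulAut.conj g).toMonoidHom
    (Subgroup.mem_zpowers (x ^ k))
  exact this

end Setup

section Main

variable {G : Type u} [Group G] [Fintype G] (H : Subgroup G) {m n k : ℕ}
  (hm : Nat.card H = m) (hcard : Nat.card G = m * n) (hmn : m.Coprime n)
  (hk1 : k ≡ 1 [MOD m]) (hk0 : k ≡ 0 [MOD n])
  (hfus : ∀ x ∈ H, ∀ y ∈ H, IsConj x y → ∃ h ∈ H, h * x * h⁻¹ = y)
  (helem : ∀ (E : Subgroup G) (p : ℕ), p.Prime → Cfsg.IsElementary p E →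
      Nat.card E ∣ Nat.card H → ∃ g : G, E.map (MulAut.conj g).toMonoidHom ≤ H)
  (hx : G → H) (hhx : ∀ x : G, IsConj (x ^ k) (hx x : G))

omit [Fintype G] in
include hfus hhx in
theorem tilde_classFunction {ψ : H → ℂ} (hψ : Cfsg.IsClassFunction H ψ) :
    Cfsg.IsClassFunction G (fun x => ψ (hx x)) := by
  intro x y
  apply eq_of_isConj H hfus hψ
  have h1 : (y * x * y⁻¹) ^ k = y * x ^ k * y⁻¹ := conj_pow
  have h2 : IsConj (x ^ k) ((y * x * y⁻¹) ^ k) := by
    rw [h1]; exact isConj_iff.mpr ⟨y, rfl⟩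
  exact ((hhx (y * x * y⁻¹)).symm.trans h2.symm).trans (hhx x)

omit [Fintype G] in
include hm hk1 hfus hhx in
theorem tilde_restrict {ψ : H → ℂ} (hψ : Cfsg.IsClassFunction H ψ) (h : H) :
    ψ (hx (h : G)) = ψ h := by
  apply eq_of_isConj H hfus hψ
  have h1 : (h : G) ^ m = 1 := by
    have : h ^ Nat.card H = 1 := pow_card_eq_one'
    rw [hm] at this
    exact_mod_cast congrArg Subtype.val this
  have h2 : (h : G) ^ k = h := pow_eq_self_of_modEq_one hk1 h1
  have := hhx (h : G)
  rw [h2] at this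
  exact this.symm

include hm hcard hmn hk1 hk0 hfus helem hhx in
theorem tilde_elementary {ψ : H → ℂ} (hψ : Cfsg.IsCharacter H ψ) (E : Subgroup G) (p : ℕ)
    (hp : p.Prime) (hE : Cfsg.IsElementary p E) :
    Cfsg.IsCharacter E (fun e : E => ψ (hx (e : G))) := by
  classical
  have hcE : Nat.card E ∣ m * n := by
    rw [← hcard]; exact Subgroup.card_subgroup_dvd_card E
  let f : E →* E :=
    { toFun := fun x => x ^ k
      map_one' := one_pow k
      map_mul' := elementary_pow_mul hp hE hmn hcE hk1 hk0 }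
  -- the range, as a subgroup of G
  let A : Subgroup G := f.range.map E.subtype
  have hAel : Cfsg.IsElementary p A :=
    Cfsg.Agent.Lib.Helper3.isElementary_of_mulEquiv
      (Subgroup.equivMapOfInjective f.range E.subtype E.subtype_injective)
      (Cfsg.Agent.Lib.Helper82.isElementary_subgroup hp hE f.range)
  have hApow : ∀ a : A, a ^ m = 1 := by
    rintro ⟨a, b, ⟨y, rfl⟩, rfl⟩
    apply Subtype.ext
    show ((f y : E) : G) ^ m = 1
    have : (f y) ^ m = 1 := pow_pow_eq_one hcE hk0 y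
    exact_mod_cast congrArg Subtype.val this
  have hAm : Nat.card A ∣ Nat.card H := by
    rw [hm]
    have hdvd : Nat.card A ∣ m * n := by
      rw [← hcard]; exact Subgroup.card_subgroup_dvd_card A
    have hcop : (Nat.card A).Coprime n := by
      by_contra hnc
      obtain ⟨q, hq, hq1, hq2⟩ := Nat.Prime.not_coprime_iff_dvd.mp hnc
      have := Fact.mk hq
      obtain ⟨y, hy⟩ := exists_prime_orderOf_dvd_card' q hq1
      have hqm : q ∣ m := by
        rw [← hy]
        exact orderOf_dvd_of_pow_eq_one (hApow y)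
      have := Nat.eq_one_of_dvd_coprimes hmn hqm hq2
      exact hq.one_lt.ne' this
    exact Nat.Coprime.dvd_of_dvd_mul_right hcop hdvd
  obtain ⟨s, hs⟩ := helem A p hp hAel hAm
  have hmem : ∀ x : E, s * ((x : G) ^ k) * s⁻¹ ∈ H := by
    intro x
    apply hs
    have h1 : ((x : G) ^ k) ∈ A := ⟨f x, ⟨x, rfl⟩, rfl⟩
    have := Subgroup.mem_map_of_mem (MulAut.conj s).toMonoidHom h1
    simpa using this
  let F : E →* H :=
    { toFun := fun x => ⟨s * ((x : G) ^ k) * s⁻¹, hmem x⟩
      map_one' := by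
        apply Subtype.ext
        simp
      map_mul' := by
        intro x y
        apply Subtype.ext
        have h1 : ((x * y : E) : G) ^ k = (x : G) ^ k * (y : G) ^ k := by
          have := congrArg Subtype.val (f.map_mul x y)
          exact_mod_cast this
        show s * (((x * y : E) : G) ^ k) * s⁻¹ = (s * ((x : G) ^ k) * s⁻¹) * (s * ((y : G) ^ k) * s⁻¹)
        rw [h1]
        group }
  have hcomp := Cfsg.Agent.Lib.Helper80.isCharacter_comp F hψ
  have heq : (fun e : E => ψ (hx (e : G))) = fun e : E => ψ (F e) := by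
    funext e
    apply eq_of_isConj H hfus (Cfsg.Agent.Lib.Helper3.isClassFunction_of_isCharacter hψ)
    have h2 : IsConj ((e : G) ^ k) ((F e : H) : G) := isConj_iff.mpr ⟨s, rfl⟩
    exact (hhx (e : G)).symm.trans h2
  rw [heq]
  exact hcomp

include hm hcard hmn hk1 hk0 hfus helem hhx in
theorem tilde_generalized {ψ : H → ℂ} (hψ : Cfsg.IsCharacter H ψ) :
    Cfsg.IsGeneralizedCharacter G (fun x => ψ (hx x)) := by
  apply Cfsg.Agent.Lib.Helper3.brauer_characterization
  · exact tilde_classFunction H hfus hx hhx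
      (Cfsg.Agent.Lib.Helper3.isClassFunction_of_isCharacter hψ)
  · intro E p hp hE
    exact ⟨_, 0, tilde_elementary H hm hcard hmn hk1 hk0 hfus helem hx hhx hψ E p hp hE,
      Cfsg.Agent.Lib.Helper80.isCharacter_zero, (sub_zero _).symm⟩

end Main

section Count

variable {G : Type u} [Group G] [Fintype G] (H : Subgroup G) [Fintype H] (k : ℕ)

open Classical in
/-- The number of `x` whose `k`-th power is conjugate to `h`. -/
noncomputable def NN (h : H) : ℕ :=
  (Finset.univ.filter (fun x : G => IsConj (x ^ k) (h : G))).card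

open Classical in
/-- The number of elements of `H` conjugate in `G` to `h`. -/
noncomputable def cc (h : H) : ℕ :=
  (Finset.univ.filter (fun h' : H => IsConj (h' : G) (h : G))).card

theorem cc_pos (h : H) : 0 < cc H h := by
  classical
  unfold cc
  apply Finset.card_pos.mpr
  exact ⟨h, Finset.mem_filter.mpr ⟨Finset.mem_univ _, IsConj.refl _⟩⟩

theorem cc_eq_of_isConj {a b : H} (hab : IsConj (a : G) (b : G)) : cc H a = cc H b := by
  classical
  unfold cc
  congr 1
  ext h'
  simp only [Finset.mem_filter, Finset.mem_univ, true_and]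
  exact ⟨fun h => h.trans hab, fun h => h.trans hab.symm⟩

omit [Fintype H] in
theorem NN_eq_of_isConj {a b : H} (hab : IsConj (a : G) (b : G)) : NN H k a = NN H k b := by
  classical
  unfold NN
  congr 1
  ext x
  simp only [Finset.mem_filter, Finset.mem_univ, true_and]
  exact ⟨fun h => h.trans hab, fun h => h.trans hab.symm⟩

variable (hfus : ∀ x ∈ H, ∀ y ∈ H, IsConj x y → ∃ h ∈ H, h * x * h⁻¹ = y)
  (hx : G → H) (hhx : ∀ x : G, IsConj (x ^ k) (hx x : G))

include hfus hhx in
theorem sum_tilde {F : H → ℂ} (hF : Cfsg.IsClassFunction H F) :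
    ∑ x : G, F (hx x) = ∑ h : H, F h * ((NN H k h : ℂ) / (cc H h : ℂ)) := by
  classical
  have hc0 : ∀ h : H, (cc H h : ℂ) ≠ 0 := fun h => by
    exact_mod_cast (cc_pos H h).ne'
  have step : ∀ x : G, F (hx x) =
      ∑ h : H, if IsConj (x ^ k) (h : G) then F h / (cc H h : ℂ) else 0 := by
    intro x
    rw [← Finset.sum_filter]
    have h1 : ∀ h ∈ Finset.univ.filter (fun h : H => IsConj (x ^ k) (h : G)),
        F h / (cc H h : ℂ) = F (hx x) / (cc H (hx x) : ℂ) := by
      intro h hh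
      have hh' : IsConj ((hx x : H) : G) (h : G) :=
        (hhx x).symm.trans (Finset.mem_filter.mp hh).2
      rw [eq_of_isConj H hfus hF hh', cc_eq_of_isConj H hh']
    rw [Finset.sum_congr rfl h1, Finset.sum_const, nsmul_eq_mul]
    have h2 : (Finset.univ.filter (fun h : H => IsConj (x ^ k) (h : G))).card = cc H (hx x) := by
      unfold cc
      congr 1
      ext h
      simp only [Finset.mem_filter, Finset.mem_univ, true_and]
      exact ⟨fun hh => hh.symm.trans (hhx x), fun hh => (hhx x).trans hh.symm⟩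
    rw [h2]
    field_simp [hc0 (hx x)]
  simp_rw [step]
  rw [Finset.sum_comm]
  refine Finset.sum_congr rfl fun h _ => ?_
  rw [← Finset.sum_filter, Finset.sum_const, nsmul_eq_mul]
  unfold NN
  ring

end Count

open Cfsg.Agent.Lib.Helper3 in
/-- Let H be a subgroup of the finite group G whose order is coprime to its index. Suppose that elements of H conjugate in G are conjugate in H, and that every subgroup E of G that is elementary for some prime (in the sense used for Brauer's characterisation of characters) and whose order divides the order of H is conjugate to a subgroup of H. Then there is a normal subgroup K with K ⊔ H = ⊤ and K ⊓ H trivial. -/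
theorem result {G : Type*} [Group G] [Finite G] (H : Subgroup G) (hHall : Nat.Coprime (Nat.card H) H.index) (hfus : ∀ x ∈ H, ∀ y ∈ H, IsConj x y → ∃ h ∈ H, h * x * h⁻¹ = y) (helem : ∀ (E : Subgroup G) (p : ℕ), p.Prime → Cfsg.IsElementary p E → Nat.card E ∣ Nat.card H → ∃ g : G, E.map (MulAut.conj g).toMonoidHom ≤ H) : ∃ K : Subgroup G, K.Normal ∧ K ⊔ H = ⊤ ∧ K ⊓ H = ⊥ := by
  classical
  have := Fintype.ofFinite G
  have := Fintype.ofFinite H
  have := Fintype.ofFinite (Cfsg.IrrCharacter H)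
  have := Fintype.ofFinite (Cfsg.IrrCharacter G)
  obtain ⟨m, hm⟩ : ∃ m, Nat.card H = m := ⟨_, rfl⟩
  obtain ⟨n, hn⟩ : ∃ n, H.index = n := ⟨_, rfl⟩
  have hcard : Nat.card G = m * n := by rw [← hm, ← hn]; exact (Subgroup.card_mul_index H).symm
  have hmn : m.Coprime n := by rw [← hm, ← hn]; exact hHall
  obtain ⟨k, k', hk1, hk0, -, -⟩ := exists_piExp hmn
  have hc : Nat.card G ∣ m * n := by rw [hcard]
  choose t ht using exists_conj_mem H hm hc hk0 helem
  let hx : G → H := fun x => ⟨t x * x ^ k * (t x)⁻¹, ht x⟩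
  have hhx : ∀ x : G, IsConj (x ^ k) (hx x : G) := fun x => isConj_iff.mpr ⟨t x, rfl⟩
  have hx1 : hx 1 = 1 := Subtype.ext (by simp [hx])
  have hn0 : (n : ℂ) ≠ 0 := by
    have : n ≠ 0 := by rw [← hn]; exact Subgroup.index_ne_zero_of_finite
    exact_mod_cast this
  have hm0 : (m : ℂ) ≠ 0 := by
    have : m ≠ 0 := by rw [← hm]; exact (Nat.card_pos).ne'
    exact_mod_cast this
  have hc0 : ∀ h : H, (cc H h : ℂ) ≠ 0 := fun h => by
    exact_mod_cast (cc_pos H h).ne'
  let κ : H → ℂ := fun h => (NN H k h : ℂ) / ((n : ℂ) * (cc H h : ℂ))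
  have havg : ∀ F : H → ℂ, Cfsg.IsClassFunction H F →
      (Nat.card G : ℂ)⁻¹ * ∑ x : G, F (hx x) = (Nat.card H : ℂ)⁻¹ * ∑ h : H, κ h * F h := by
    intro F hF
    rw [sum_tilde H k hfus hx hhx hF, hcard, hm, Finset.mul_sum, Finset.mul_sum]
    refine Finset.sum_congr rfl fun h _ => ?_
    show ((m * n : ℕ) : ℂ)⁻¹ * (F h * ((NN H k h : ℂ) / (cc H h : ℂ))) =
      (m : ℂ)⁻¹ * ((NN H k h : ℂ) / ((n : ℂ) * (cc H h : ℂ)) * F h)
    have := hc0 h
    push_cast
    field_simp
  have hκcl : Cfsg.IsClassFunction H κ := by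
    intro a b
    have hab : IsConj ((b * a * b⁻¹ : H) : G) (a : G) := by
      refine (isConj_iff.mpr ⟨(b : G), ?_⟩ : IsConj (a : G) ((b * a * b⁻¹ : H) : G)).symm
      simp
    show (NN H k (b * a * b⁻¹) : ℂ) / ((n : ℂ) * (cc H (b * a * b⁻¹) : ℂ)) = _
    rw [NN_eq_of_isConj H k hab, cc_eq_of_isConj H hab]
  have hgen : ∀ ψ : Cfsg.IrrCharacter H,
      Cfsg.IsGeneralizedCharacter G (fun x => (ψ : H → ℂ) (hx x)) := fun ψ =>
    tilde_generalized H hm hcard hmn hk1 hk0 hfus helem hx hhx (isCharacter_of_irr ψ.2)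
  have hκint : ∀ ψ : Cfsg.IrrCharacter H, ∃ z : ℤ, Cfsg.classInner κ (ψ : H → ℂ) = z := by
    intro ψ
    have hψcl := isClassFunction_of_isCharacter (isCharacter_of_irr ψ.2)
    obtain ⟨χ1, χ2, h1, h2, heq⟩ := hgen ψ
    obtain ⟨a1, ha1⟩ := Cfsg.Agent.Lib.Helper80.classInner_nat h1
      (Cfsg.Agent.Lib.Helper80.isCharacter_one (G := G))
    obtain ⟨a2, ha2⟩ := Cfsg.Agent.Lib.Helper80.classInner_nat h2
      (Cfsg.Agent.Lib.Helper80.isCharacter_one (G := G))
    refine ⟨(a1 : ℤ) - a2, ?_⟩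
    have e1 : Cfsg.classInner (fun x => (ψ : H → ℂ) (hx x)) (fun _ : G => (1 : ℂ)) =
        (a1 : ℂ) - a2 := by
      rw [heq, Cfsg.Agent.Lib.Helper80.classInner_sub_left, ha1, ha2]
    have hFcl : Cfsg.IsClassFunction H (fun h => conj ((ψ : H → ℂ) h)) := by
      intro a b
      show conj ((ψ : H → ℂ) (b * a * b⁻¹)) = conj ((ψ : H → ℂ) a)
      rw [hψcl a b]
    have e2 : Cfsg.classInner κ (ψ : H → ℂ) =
        conj (Cfsg.classInner (fun x => (ψ : H → ℂ) (hx x)) (fun _ : G => (1 : ℂ))) := by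
      have h3 := havg _ hFcl
      show (Nat.card H : ℂ)⁻¹ * ∑ h : H, κ h * conj ((ψ : H → ℂ) h) = _
      rw [← h3]
      unfold Cfsg.classInner
      simp only [map_mul, map_inv₀, Complex.conj_natCast, map_sum, map_one, mul_one]
    rw [e2, e1]
    simp
  have hκpos : ∀ h : H, ∃ z : ℤ, 1 ≤ z ∧ κ h = z := by
    intro h
    choose z hz using hκint
    have hexp := classFunction_expansion' hκcl
    have hint : IsIntegral ℤ (κ h) := by
      have h1 : κ h = ∑ ψ : Cfsg.IrrCharacter H, (z ψ : ℂ) * (ψ : H → ℂ) h := by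
        conv_lhs => rw [hexp]
        simp only [Finset.sum_apply, Pi.smul_apply, smul_eq_mul, hz]
      rw [h1]
      apply IsIntegral.sum
      intro ψ _
      apply IsIntegral.mul
      · have := isIntegral_algebraMap (R := ℤ) (A := ℂ) (x := z ψ)
        simpa using this
      · exact Cfsg.Agent.Lib.Helper80.isIntegral_char_val (isCharacter_of_irr ψ.2) h
    let q : ℚ := (NN H k h : ℚ) / ((n : ℚ) * (cc H h : ℚ))
    have hq : κ h = (q : ℂ) := by
      show (NN H k h : ℂ) / ((n : ℂ) * (cc H h : ℂ)) = ((((NN H k h : ℚ) / ((n : ℚ) * (cc H h : ℚ))) : ℚ) : ℂ)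
      push_cast
      rfl
    have hNpos : 0 < NN H k h := by
      unfold NN
      apply Finset.card_pos.mpr
      refine ⟨(h : G), Finset.mem_filter.mpr ⟨Finset.mem_univ _, ?_⟩⟩
      have h1 : (h : G) ^ m = 1 := by
        have : h ^ Nat.card H = 1 := pow_card_eq_one'
        rw [hm] at this
        exact_mod_cast congrArg Subtype.val this
      rw [pow_eq_self_of_modEq_one hk1 h1]
    have hqpos : 0 < q := by
      have hn' : 0 < n := Nat.pos_of_ne_zero (by rw [← hn]; exact Subgroup.index_ne_zero_of_finite)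
      have := cc_pos H h
      positivity
    have hqint : IsIntegral ℤ q := by
      rw [hq] at hint
      have h2 : (algebraMap ℚ ℂ) q = (q : ℂ) := eq_ratCast (algebraMap ℚ ℂ) q
      rw [← h2] at hint
      exact (isIntegral_algebraMap_iff (algebraMap ℚ ℂ).injective).mp hint
    obtain ⟨y, hy⟩ := IsIntegrallyClosed.isIntegral_iff.mp hqint
    have hy' : (y : ℚ) = q := by rw [← hy]; simp
    refine ⟨y, ?_, ?_⟩
    · have : (0 : ℚ) < (y : ℚ) := by rw [hy']; exact hqpos
      have : 0 < y := by exact_mod_cast this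
      omega
    · rw [hq, ← hy']
      simp
  choose z hz1 hz using hκpos
  have hG0 : (Nat.card G : ℂ) ≠ 0 := by
    exact_mod_cast (Nat.card_pos (α := G)).ne'
  have hsum : ∑ h : H, κ h = (Nat.card H : ℂ) := by
    have h1 := havg (fun _ => 1) (fun _ _ => rfl)
    simp only [Finset.sum_const, Finset.card_univ, nsmul_eq_mul, mul_one] at h1
    rw [← Nat.card_eq_fintype_card, inv_mul_cancel₀ hG0, hm] at h1
    rw [hm]
    field_simp at h1
    exact h1.symm
  have hz_one : ∀ h : H, z h = 1 := by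
    have hs : ∑ h : H, (z h - 1) = 0 := by
      have h1 : ((∑ h : H, z h : ℤ) : ℂ) = (Nat.card H : ℂ) := by
        push_cast
        rw [← hsum]
        exact Finset.sum_congr rfl fun h _ => (hz h).symm
      have h2 : ∑ h : H, z h = (Nat.card H : ℤ) := by exact_mod_cast h1
      rw [Finset.sum_sub_distrib, h2]
      simp [Nat.card_eq_fintype_card]
    intro h
    have := (Finset.sum_eq_zero_iff_of_nonneg (fun i _ => sub_nonneg.mpr (hz1 i))).mp hs h
      (Finset.mem_univ h)
    omega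
  have hκ1 : ∀ h : H, κ h = 1 := fun h => by rw [hz h, hz_one h]; simp
  have hirr : ∀ ψ : Cfsg.IrrCharacter H, Cfsg.IsIrrCharacter G (fun x => (ψ : H → ℂ) (hx x)) := by
    intro ψ
    have hψc := isCharacter_of_irr ψ.2
    have hψcl := isClassFunction_of_isCharacter hψc
    apply Cfsg.Agent.Lib.Lead.isIrrCharacter_of_int (tilde_classFunction H hfus hx hhx hψcl)
    · intro ψ'
      obtain ⟨χ1, χ2, h1, h2, heq⟩ := hgen ψ
      obtain ⟨a1, ha1⟩ := Cfsg.Agent.Lib.Helper80.classInner_nat h1 (isCharacter_of_irr ψ'.2)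
      obtain ⟨a2, ha2⟩ := Cfsg.Agent.Lib.Helper80.classInner_nat h2 (isCharacter_of_irr ψ'.2)
      refine ⟨(a1 : ℤ) - a2, ?_⟩
      rw [heq, Cfsg.Agent.Lib.Helper80.classInner_sub_left, ha1, ha2]
      push_cast
      rfl
    · have hFcl : Cfsg.IsClassFunction H (fun h => (ψ : H → ℂ) h * conj ((ψ : H → ℂ) h)) := by
        intro a b
        show (ψ : H → ℂ) (b * a * b⁻¹) * conj ((ψ : H → ℂ) (b * a * b⁻¹)) = _
        rw [hψcl a b]
      have h3 := havg _ hFcl
      show (Nat.card G : ℂ)⁻¹ * ∑ x : G, (ψ : H → ℂ) (hx x) * conj ((ψ : H → ℂ) (hx x)) = 1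
      rw [h3]
      simp_rw [hκ1, one_mul]
      exact classInner_irr_self ψ.2
    · show 0 < ((ψ : H → ℂ) (hx 1)).re
      rw [hx1, Cfsg.Agent.Lib.Helper80.char_one_eq_charDegree hψc]
      have := Cfsg.Agent.Lib.Helper80.charDegree_pos ψ.2
      simpa using this
  let χt : Cfsg.IrrCharacter H → Cfsg.IrrCharacter G :=
    fun ψ => ⟨fun x => (ψ : H → ℂ) (hx x), hirr ψ⟩
  let K : Subgroup G := ⨅ ψ : Cfsg.IrrCharacter H, Cfsg.Agent.Lib.Helper80.irrKer (χt ψ)
  have hKmem : ∀ x : G, x ∈ K ↔ x ^ k = 1 := by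
    intro x
    rw [Subgroup.mem_iInf]
    simp only [Cfsg.Agent.Lib.Helper80.mem_irrKer]
    constructor
    · intro h
      have h1 : hx x = 1 := Cfsg.Agent.Lib.Helper80.eq_one_of_forall_irr_eq (fun ψ => by
        have := h ψ
        show (ψ : H → ℂ) (hx x) = (ψ : H → ℂ) 1
        rw [← hx1]
        exact this)
      have h2 : t x * x ^ k * (t x)⁻¹ = 1 := congrArg Subtype.val h1
      have h3 : x ^ k = (t x)⁻¹ * (t x * x ^ k * (t x)⁻¹) * t x := by group
      rw [h3, h2]
      simp
    · intro h ψ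
      show (ψ : H → ℂ) (hx x) = (ψ : H → ℂ) (hx 1)
      have h1 : hx x = 1 := Subtype.ext (by
        show t x * x ^ k * (t x)⁻¹ = 1
        rw [h]; simp)
      rw [h1, hx1]
  have hKH : K ⊓ H = ⊥ := by
    rw [Subgroup.eq_bot_iff_forall]
    intro x hxm
    obtain ⟨hxK, hxH⟩ := Subgroup.mem_inf.mp hxm
    have h1 : x ^ m = 1 := by
      have : (⟨x, hxH⟩ : H) ^ Nat.card H = 1 := pow_card_eq_one'
      rw [hm] at this
      exact congrArg Subtype.val this
    rw [← pow_eq_self_of_modEq_one hk1 h1]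
    exact (hKmem x).mp hxK
  have hcc1 : cc H (1 : H) = 1 := by
    unfold cc
    rw [Finset.card_eq_one]
    refine ⟨1, ?_⟩
    ext h'
    simp only [Finset.mem_filter, Finset.mem_univ, true_and, Finset.mem_singleton]
    constructor
    · intro h
      have : (h' : G) = 1 := isConj_one_left.mp h
      exact Subtype.ext this
    · rintro rfl
      exact IsConj.refl _
  have hNN1 : NN H k (1 : H) = n := by
    have h1 := hκ1 1
    have h2 : (NN H k (1 : H) : ℂ) / ((n : ℂ) * (cc H (1 : H) : ℂ)) = 1 := h1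
    rw [hcc1] at h2
    field_simp at h2
    have h3 : (NN H k (1 : H) : ℂ) = (n : ℂ) := by simpa using h2
    exact_mod_cast h3
  have hKcard : Nat.card K = n := by
    rw [← hNN1]
    unfold NN
    rw [Nat.card_eq_fintype_card, Fintype.card_subtype]
    congr 1
    ext x
    simp only [Finset.mem_filter, Finset.mem_univ, true_and]
    rw [hKmem]
    exact isConj_one_left.symm
  refine ⟨K, Subgroup.normal_iInf_normal (fun ψ => inferInstance), ?_, hKH⟩
  apply Subgroup.IsComplement'.sup_eq_top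
  apply Subgroup.isComplement'_of_card_mul_and_disjoint
  · rw [hKcard, hm, hcard, mul_comm]
  · exact disjoint_iff.mpr hKH

end Cfsg.Agent.S0877
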