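import Cfsg.Statements.S0879

set_option autoImplicit false
open Cfsg

namespace Cfsg.Agent.S0879

/-- an element preserving the pair `{a, b}` normalizes the two-point stabilizer. -/
theorem conj_mem_of_preserve {G Ω : Type*} [Group G] [MulAction G Ω] {a b : Ω}
    (g : G) (hg : (g • a = a ∧ g • b = b) ∨ (g • a = b ∧ g • b = a)) (h : G)
    (hh : h ∈ (MulAction.stabilizer G a ⊓ MulAction.stabilizer G b : Subgroup G)) :
    g * h * g⁻¹ ∈ (MulAction.stabilizer G a ⊓ MulAction.stabilizer G b : Subgroup G) := by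
  rw [Subgroup.mem_inf, MulAction.mem_stabilizer_iff, MulAction.mem_stabilizer_iff] at hh ⊢
  obtain ⟨ha, hb⟩ := hh
  rcases hg with ⟨h1, h2⟩ | ⟨h1, h2⟩
  · have e1 : g⁻¹ • a = a := inv_smul_eq_iff.mpr h1.symm
    have e2 : g⁻¹ • b = b := inv_smul_eq_iff.mpr h2.symm
    constructor
    · rw [mul_smul, mul_smul, e1, ha, h1]
    · rw [mul_smul, mul_smul, e2, hb, h2]
  · have e1 : g⁻¹ • a = b := inv_smul_eq_iff.mpr h2.symm
    have e2 : g⁻¹ • b = a := inv_smul_eq_iff.mpr h1.symm
    constructor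
    · rw [mul_smul, mul_smul, e1, hb, h2]
    · rw [mul_smul, mul_smul, e2, ha, h1]

/-- Let G be a Zassenhaus group on the finite set Ω and E the stabilizer of two distinct points a, b. Then an element outside the normalizer of E conjugates no non-identity element of E into E, and E has index 2 in its normalizer. -/
theorem result {G Ω : Type*} [Group G] [Finite G] [MulAction G Ω] [Fintype Ω] (hZ : Cfsg.IsZassenhausGroup G Ω) {a b : Ω} (hab : a ≠ b) : (∀ g : G, g ∉ Subgroup.normalizer ((MulAction.stabilizer G a ⊓ MulAction.stabilizer G b : Subgroup G) : Set G) → ∀ x ∈ (MulAction.stabilizer G a ⊓ MulAction.stabilizer G b : Subgroup G), g * x * g⁻¹ ∈ (MulAction.stabilizer G a ⊓ MulAction.stabilizer G b : Subgroup G) → x = 1) ∧ ((MulAction.stabilizer G a ⊓ MulAction.stabilizer G b : Subgroup G).subgroupOf (Subgroup.normalizer ((MulAction.stabilizer G a ⊓ MulAction.stabilizer G b : Subgroup G) : Set G))).index = 2 := by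
  classical
  obtain ⟨hfaith, h2t, h3, ⟨g₀, hg₀, a', b', hab', hga', hgb'⟩, -⟩ := hZ
  rw [MulAction.is_two_pretransitive_iff] at h2t
  set E : Subgroup G := MulAction.stabilizer G a ⊓ MulAction.stabilizer G b with hE
  have memE : ∀ x : G, x ∈ E ↔ x • a = a ∧ x • b = b := by
    intro x
    rw [hE, Subgroup.mem_inf, MulAction.mem_stabilizer_iff, MulAction.mem_stabilizer_iff]
  -- preserving elements normalize
  have hA : ∀ g : G, ((g • a = a ∧ g • b = b) ∨ (g • a = b ∧ g • b = a)) →
      g ∈ Subgroup.normalizer (E : Set G) := by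
    intro g hg
    rw [Subgroup.mem_normalizer_iff]
    intro h
    constructor
    · exact conj_mem_of_preserve g hg h
    · intro hh
      have hg' : (g⁻¹ • a = a ∧ g⁻¹ • b = b) ∨ (g⁻¹ • a = b ∧ g⁻¹ • b = a) := by
        rcases hg with ⟨h1, h2⟩ | ⟨h1, h2⟩
        · exact Or.inl ⟨inv_smul_eq_iff.mpr h1.symm, inv_smul_eq_iff.mpr h2.symm⟩
        · exact Or.inr ⟨inv_smul_eq_iff.mpr h2.symm, inv_smul_eq_iff.mpr h1.symm⟩
      have := conj_mem_of_preserve g⁻¹ hg' _ hh
      have e : g⁻¹ * (g * h * g⁻¹) * g⁻¹⁻¹ = h := by group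
      rwa [e] at this
  -- conjugating a nonidentity element of E into E forces preserving the pair
  have hB : ∀ g x : G, x ∈ E → x ≠ 1 → g * x * g⁻¹ ∈ E →
      ((g • a = a ∧ g • b = b) ∨ (g • a = b ∧ g • b = a)) := by
    intro g x hx hx1 hgx
    rw [memE] at hx hgx
    have hne : g * x * g⁻¹ ≠ 1 := by
      intro h
      apply hx1
      have : x = g⁻¹ * (g * x * g⁻¹) * g := by group
      rw [this, h]; group
    have f1 : (g * x * g⁻¹) • (g • a) = g • a := by
      rw [mul_smul, inv_smul_smul, mul_smul, hx.1]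
    have f2 : (g * x * g⁻¹) • (g • b) = g • b := by
      rw [mul_smul, inv_smul_smul, mul_smul, hx.2]
    have k1 : g • a = a ∨ g • a = b := by
      by_contra hcon
      push Not at hcon
      exact hne (h3 _ a b (g • a) hab (Ne.symm hcon.2) (Ne.symm hcon.1) hgx.1 hgx.2 f1)
    have k2 : g • b = a ∨ g • b = b := by
      by_contra hcon
      push Not at hcon
      exact hne (h3 _ a b (g • b) hab (Ne.symm hcon.2) (Ne.symm hcon.1) hgx.1 hgx.2 f2)
    have hinj : g • a ≠ g • b := fun h => hab (MulAction.injective g h)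
    rcases k1 with k1 | k1 <;> rcases k2 with k2 | k2
    · exact absurd (k1.trans k2.symm) hinj
    · exact Or.inl ⟨k1, k2⟩
    · exact Or.inr ⟨k1, k2⟩
    · exact absurd (k1.trans k2.symm) hinj
  constructor
  · intro g hg x hx hgx
    by_contra hx1
    exact hg (hA g (hB g x hx hx1 hgx))
  · -- E is nontrivial
    obtain ⟨t, hta, htb⟩ := h2t hab' hab
    have hx₀ : t * g₀ * t⁻¹ ∈ E := by
      rw [memE]
      constructor
      · rw [mul_smul, mul_smul, inv_smul_eq_iff.mpr hta.symm, hga', hta]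
      · rw [mul_smul, mul_smul, inv_smul_eq_iff.mpr htb.symm, hgb', htb]
    have hx₀1 : t * g₀ * t⁻¹ ≠ 1 := by
      intro h
      apply hg₀
      have : g₀ = t⁻¹ * (t * g₀ * t⁻¹) * t := by group
      rw [this, h]; group
    have hN : ∀ g : G, g ∈ Subgroup.normalizer (E : Set G) →
        ((g • a = a ∧ g • b = b) ∨ (g • a = b ∧ g • b = a)) := by
      intro g hg
      rw [Subgroup.mem_normalizer_iff] at hg
      exact hB g _ hx₀ hx₀1 ((hg _).mp hx₀)
    obtain ⟨s, hsa, hsb⟩ := h2t hab hab.symm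
    rw [Subgroup.index_eq_two_iff]
    refine ⟨⟨s, hA s (Or.inr ⟨hsa, hsb⟩)⟩, ?_⟩
    rintro ⟨g, hg⟩
    rw [Subgroup.mem_subgroupOf, Subgroup.mem_subgroupOf]
    show Xor (g * s ∈ E) (g ∈ E)
    rw [memE, memE]
    rcases hN g hg with ⟨h1, h2⟩ | ⟨h1, h2⟩
    · right
      refine ⟨⟨h1, h2⟩, ?_⟩
      rintro ⟨k1, -⟩
      rw [mul_smul, hsa, h2] at k1
      exact hab k1.symm
    · left
      refine ⟨⟨?_, ?_⟩, ?_⟩
      · rw [mul_smul, hsa, h2]
      · rw [mul_smul, hsb, h1]
      · rintro ⟨k1, -⟩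
        rw [h1] at k1
        exact hab k1.symm

end Cfsg.Agent.S0879
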