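import Cfsg.Statements.S0880

set_option autoImplicit false
open Cfsg

namespace Cfsg.Agent.S0880

open MulAction

/-- Let G be a finite simple Zassenhaus group on Ω with n points whose two-point stabilizer E has odd order less than n - 2. Then there are two elements of G, each fixing no point of Ω, that are not conjugate. -/
theorem result {G Ω : Type*} [Group G] [Finite G] [MulAction G Ω] [Fintype Ω] (hZ : Cfsg.IsZassenhausGroup G Ω) {a b : Ω} (hab : a ≠ b) [IsSimpleGroup G] (hodd : Odd (Nat.card ↥(MulAction.stabilizer G a ⊓ MulAction.stabilizer G b : Subgroup G))) (hlt : Nat.card ↥(MulAction.stabilizer G a ⊓ MulAction.stabilizer G b : Subgroup G) < Fintype.card Ω - 2) : ∃ x y : G, (∀ c : Ω, x • c ≠ c) ∧ (∀ c : Ω, y • c ≠ c) ∧ ¬ IsConj x y := by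
  classical
  have : Fintype G := Fintype.ofFinite G
  obtain ⟨hfaith, h2t, h3, ⟨g₀, hg₀1, a₀, b₀, hab₀, hg₀a, hg₀b⟩, -⟩ := hZ
  have h2 : ∀ {c d c' d' : Ω}, c ≠ d → c' ≠ d' → ∃ g : G, g • c = c' ∧ g • d = d' :=
    fun hcd hcd' => (MulAction.is_two_pretransitive_iff.mp h2t) hcd hcd'
  -- counting functions
  set T : Ω → Ω → ℕ := fun c d => (Finset.univ.filter (fun g : G => g • c = c ∧ g • d = d)).card with hTdef
  set A : Ω → ℕ := fun c => (Finset.univ.filter (fun g : G => g • c = c)).card with hAdef
  set fix : G → ℕ := fun g => (Finset.univ.filter (fun c : Ω => g • c = c)).card with hfixdef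
  set n : ℕ := Fintype.card Ω with hn
  set e : ℕ := T a b with he
  -- e is the order of the two point stabilizer
  have hecard : Nat.card ↥(MulAction.stabilizer G a ⊓ MulAction.stabilizer G b : Subgroup G) = e := by
    have h1 : Nat.card ↥(MulAction.stabilizer G a ⊓ MulAction.stabilizer G b : Subgroup G)
        = Nat.card {g : G // g • a = a ∧ g • b = b} := by
      apply Nat.card_congr
      exact Equiv.subtypeEquivRight (by
        intro g
        simp [Subgroup.mem_inf, MulAction.mem_stabilizer_iff])
    rw [h1, Nat.card_eq_fintype_card, Fintype.card_subtype]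
  rw [hecard] at hodd hlt
  -- conjugation invariance of T
  have hT : ∀ c d : Ω, c ≠ d → T c d = e := by
    intro c d hcd
    obtain ⟨h, hc, hd⟩ := h2 hcd hab
    have hc' : h⁻¹ • a = c := inv_smul_eq_iff.mpr hc.symm
    have hd' : h⁻¹ • b = d := inv_smul_eq_iff.mpr hd.symm
    refine Finset.card_bij' (fun g _ => h * g * h⁻¹) (fun g _ => h⁻¹ * g * h) ?_ ?_ ?_ ?_
    · intro g hg
      simp only [Finset.mem_filter, Finset.mem_univ, true_and] at hg ⊢
      constructor
      · rw [mul_smul, mul_smul, hc', hg.1, hc]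
      · rw [mul_smul, mul_smul, hd', hg.2, hd]
    · intro g hg
      simp only [Finset.mem_filter, Finset.mem_univ, true_and] at hg ⊢
      constructor
      · rw [mul_smul, mul_smul, hc, hg.1, hc']
      · rw [mul_smul, mul_smul, hd, hg.2, hd']
    · intro g _
      group
    · intro g _
      group
  have htrans : ∀ c : Ω, ∃ h : G, h • a = c := by
    intro c
    by_cases hca : c = a
    · exact ⟨1, by rw [one_smul, hca]⟩
    · obtain ⟨h, h1, _⟩ := h2 (Ne.symm hca) hca
      exact ⟨h, h1⟩
  have hA : ∀ c : Ω, A c = A a := by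
    intro c
    obtain ⟨h, hc⟩ := htrans c
    have hc' : h⁻¹ • c = a := inv_smul_eq_iff.mpr hc.symm
    refine Finset.card_bij' (fun g _ => h⁻¹ * g * h) (fun g _ => h * g * h⁻¹) ?_ ?_ ?_ ?_
    · intro g hg
      simp only [Finset.mem_filter, Finset.mem_univ, true_and] at hg ⊢
      rw [mul_smul, mul_smul, hc, hg, hc']
    · intro g hg
      simp only [Finset.mem_filter, Finset.mem_univ, true_and] at hg ⊢
      rw [mul_smul, mul_smul, hc', hg, hc]
    · intro g _
      group
    · intro g _
      group
  set k : ℕ := A a with hk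
  -- |G| = n * k
  have hG : Fintype.card G = n * k := by
    have h1 : (Finset.univ : Finset G).card
        = ∑ c ∈ (Finset.univ : Finset Ω), ((Finset.univ : Finset G).filter (fun g => g • a = c)).card :=
      Finset.card_eq_sum_card_fiberwise (fun g _ => Finset.mem_univ _)
    have h2' : ∀ c ∈ (Finset.univ : Finset Ω),
        ((Finset.univ : Finset G).filter (fun g => g • a = c)).card = k := by
      intro c _
      obtain ⟨h, hc⟩ := htrans c
      have hc' : h⁻¹ • c = a := inv_smul_eq_iff.mpr hc.symm
      refine Finset.card_bij' (fun g _ => h⁻¹ * g) (fun g _ => h * g) ?_ ?_ ?_ ?_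
      · intro g hg
        simp only [Finset.mem_filter, Finset.mem_univ, true_and] at hg ⊢
        rw [mul_smul, hg, hc']
      · intro g hg
        simp only [Finset.mem_filter, Finset.mem_univ, true_and] at hg ⊢
        rw [mul_smul, hg, hc]
      · intro g _
        group
      · intro g _
        group
    rw [Finset.sum_congr rfl h2', Finset.sum_const, Finset.card_univ, Finset.card_univ, smul_eq_mul] at h1
    exact h1
  -- k = (n - 1) * e
  have hkE : k = (n - 1) * e := by
    have h1 : ((Finset.univ : Finset G).filter (fun g => g • a = a)).card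
        = ∑ d ∈ (Finset.univ : Finset Ω).erase a,
            (((Finset.univ : Finset G).filter (fun g => g • a = a)).filter (fun g => g • b = d)).card := by
      apply Finset.card_eq_sum_card_fiberwise
      intro g hg
      simp only [Finset.mem_univ, true_and, Finset.coe_filter, Set.mem_ofPred_eq] at hg
      simp only [Finset.coe_erase, Finset.coe_univ, Set.mem_sdiff, Set.mem_univ, Set.mem_singleton_iff, true_and]
      intro hgb
      apply hab
      have : g • b = g • a := by rw [hgb, hg]
      exact (MulAction.injective g this).symm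
    have h2' : ∀ d ∈ (Finset.univ : Finset Ω).erase a,
        (((Finset.univ : Finset G).filter (fun g => g • a = a)).filter (fun g => g • b = d)).card = e := by
      intro d hd
      have hda : d ≠ a := Finset.ne_of_mem_erase hd
      obtain ⟨h, h1a, h1b⟩ := h2 hab (Ne.symm hda)
      have h1a' : h⁻¹ • a = a := inv_smul_eq_iff.mpr h1a.symm
      have h1b' : h⁻¹ • d = b := inv_smul_eq_iff.mpr h1b.symm
      refine Finset.card_bij' (fun g _ => h⁻¹ * g) (fun g _ => h * g) ?_ ?_ ?_ ?_
      · intro g hg
        simp only [Finset.mem_filter, Finset.mem_univ, true_and] at hg ⊢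
        constructor
        · rw [mul_smul, hg.1, h1a']
        · rw [mul_smul, hg.2, h1b']
      · intro g hg
        simp only [Finset.mem_filter, Finset.mem_univ, true_and] at hg ⊢
        constructor
        · rw [mul_smul, hg.1, h1a]
        · rw [mul_smul, hg.2, h1b]
      · intro g _
        group
      · intro g _
        group
    rw [Finset.sum_congr rfl h2', Finset.sum_const, Finset.card_erase_of_mem (Finset.mem_univ a),
      Finset.card_univ, smul_eq_mul] at h1
    exact h1
  have hkE' : (n - 1) * e = k := hkE.symm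
  -- fixed point numbers
  have hfix1 : fix 1 = n := by
    show (Finset.univ.filter (fun c : Ω => (1:G) • c = c)).card = Fintype.card Ω
    rw [Finset.filter_true_of_mem (fun c _ => one_smul G c), Finset.card_univ]
  have hfix2 : ∀ g : G, g ≠ 1 → fix g ≤ 2 := by
    intro g hg
    by_contra hlt2
    push Not at hlt2
    obtain ⟨x, y, z, hx, hy, hz, hxy, hxz, hyz⟩ := Finset.two_lt_card_iff.mp hlt2
    simp only [Finset.mem_filter, Finset.mem_univ, true_and] at hx hy hz
    exact hg (h3 g x y z hxy hyz hxz hx hy hz)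
  have hS1 : ∑ g : G, fix g = n * k := by
    have h1 : ∑ g : G, fix g = ∑ c : Ω, A c := by
      show ∑ g : G, (Finset.univ.filter (fun c : Ω => g • c = c)).card
        = ∑ c : Ω, (Finset.univ.filter (fun g : G => g • c = c)).card
      simp only [Finset.card_filter]
      exact Finset.sum_comm
    rw [h1, Finset.sum_congr rfl (fun c _ => hA c), Finset.sum_const, Finset.card_univ, smul_eq_mul]
  have hS2 : ∑ g : G, fix g ^ 2 = n * k + n * k := by
    have h1 : ∀ g : G, fix g ^ 2
        = ∑ c : Ω, ∑ d : Ω, if (g • c = c ∧ g • d = d) then 1 else 0 := by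
      intro g
      show (Finset.univ.filter (fun c : Ω => g • c = c)).card ^ 2 = _
      rw [Finset.card_filter, sq, Finset.sum_mul_sum]
      refine Finset.sum_congr rfl (fun c _ => Finset.sum_congr rfl (fun d _ => ?_))
      by_cases h1 : g • c = c <;> by_cases h2 : g • d = d <;> simp [h1, h2]
    have h2' : ∑ g : G, fix g ^ 2 = ∑ c : Ω, ∑ d : Ω, T c d := by
      rw [Finset.sum_congr rfl (fun g _ => h1 g), Finset.sum_comm]
      refine Finset.sum_congr rfl (fun c _ => ?_)
      rw [Finset.sum_comm]
      refine Finset.sum_congr rfl (fun d _ => ?_)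
      show _ = (Finset.univ.filter (fun g : G => g • c = c ∧ g • d = d)).card
      rw [Finset.card_filter]
    have h3' : ∀ c : Ω, ∑ d : Ω, T c d = k + k := by
      intro c
      rw [← Finset.add_sum_erase Finset.univ (fun d => T c d) (Finset.mem_univ c)]
      have hcc : T c c = k := by
        rw [← hA c]
        show (Finset.univ.filter (fun g : G => g • c = c ∧ g • c = c)).card
          = (Finset.univ.filter (fun g : G => g • c = c)).card
        congr 1
        ext g
        simp
      rw [hcc, Finset.sum_congr rfl (fun d hd => hT c d (Ne.symm (Finset.ne_of_mem_erase hd))),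
        Finset.sum_const, Finset.card_erase_of_mem (Finset.mem_univ c), Finset.card_univ,
        smul_eq_mul, hkE']
    rw [h2', Finset.sum_congr rfl (fun c _ => h3' c), Finset.sum_const, Finset.card_univ,
      smul_eq_mul, mul_add]
  have hkey : ∑ g : G, (((fix g : ℤ) - 1) * ((fix g : ℤ) - 2)) = (n:ℤ) * k := by
    have e1 : ∀ g : G, (((fix g : ℤ) - 1) * ((fix g : ℤ) - 2))
        = ((fix g ^ 2 : ℕ) : ℤ) - 3 * ((fix g : ℕ) : ℤ) + 2 := by
      intro g; push_cast; ring
    rw [Finset.sum_congr rfl (fun g _ => e1 g), Finset.sum_add_distrib, Finset.sum_sub_distrib,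
      ← Nat.cast_sum, hS2, ← Finset.mul_sum, ← Nat.cast_sum, hS1, Finset.sum_const,
      Finset.card_univ, hG]
    push_cast
    ring
  set F : Finset G := Finset.univ.filter (fun g : G => fix g = 0) with hF
  have hepos : 0 < e := hodd.pos
  have hn3 : 3 ≤ n := by omega
  have hterm : ∀ g : G, (((fix g : ℤ) - 1) * ((fix g : ℤ) - 2))
      = (if g = 1 then ((n:ℤ) - 1) * ((n:ℤ) - 2) else 0) + (if fix g = 0 then 2 else 0) := by
    intro g
    by_cases hg : g = 1
    · have hn0 : fix g ≠ 0 := by rw [hg, hfix1]; omega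
      rw [if_pos hg, if_neg hn0, hg, hfix1, add_zero]
    · have h2g := hfix2 g hg
      rw [if_neg hg, zero_add]
      obtain h | h | h : fix g = 0 ∨ fix g = 1 ∨ fix g = 2 := by omega
      · rw [h]; simp
      · rw [h]; simp
      · rw [h]; simp
  have hsum : ∑ g : G, (((fix g : ℤ) - 1) * ((fix g : ℤ) - 2))
      = ((n:ℤ) - 1) * ((n:ℤ) - 2) + 2 * (F.card : ℤ) := by
    rw [Finset.sum_congr rfl (fun g _ => hterm g), Finset.sum_add_distrib,
      Finset.sum_ite_eq' Finset.univ (1:G), if_pos (Finset.mem_univ _)]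
    congr 1
    rw [← Finset.sum_filter, Finset.sum_const, nsmul_eq_mul, mul_comm]
  have hFmem : ∀ g : G, g ∈ F ↔ ∀ c : Ω, g • c ≠ c := by
    intro g
    simp only [hF, Finset.mem_filter, Finset.mem_univ, true_and]
    show (Finset.univ.filter (fun c : Ω => g • c = c)).card = 0 ↔ _
    rw [Finset.card_eq_zero, Finset.filter_eq_empty_iff]
    simp
  -- e ≥ 3
  have he2 : 2 ≤ e := by
    obtain ⟨h, h1, h2'⟩ := h2 hab₀ hab
    have h1' : h⁻¹ • a = a₀ := inv_smul_eq_iff.mpr h1.symm
    have h2'' : h⁻¹ • b = b₀ := inv_smul_eq_iff.mpr h2'.symm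
    have hmem1 : (1:G) ∈ Finset.univ.filter (fun g : G => g • a = a ∧ g • b = b) := by
      simp
    have hmem2 : h * g₀ * h⁻¹ ∈ Finset.univ.filter (fun g : G => g • a = a ∧ g • b = b) := by
      simp only [Finset.mem_filter, Finset.mem_univ, true_and]
      constructor
      · rw [mul_smul, mul_smul, h1', hg₀a, h1]
      · rw [mul_smul, mul_smul, h2'', hg₀b, h2']
    have hne : h * g₀ * h⁻¹ ≠ 1 := by
      intro h0
      apply hg₀1
      have : g₀ = h⁻¹ * (h * g₀ * h⁻¹) * h := by group
      rw [this, h0]; group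
    exact Finset.one_lt_card.mpr ⟨_, hmem2, _, hmem1, hne⟩
  obtain ⟨m, hm⟩ := hodd
  have hm1 : 1 ≤ m := by omega
  obtain ⟨N, hN⟩ : ∃ N, n = N + 3 := ⟨n - 3, by omega⟩
  have hnat : 2 * F.card + (N + 2) * (N + 1) = (N + 3) * ((N + 2) * (2 * m + 1)) := by
    have h1 := hkey
    rw [hsum, hkE, hm, hN] at h1
    have h2' : N + 3 - 1 = N + 2 := rfl
    rw [h2'] at h1
    push_cast at h1
    have h3' : ((2 * F.card + (N + 2) * (N + 1) : ℕ) : ℤ)
        = (((N + 3) * ((N + 2) * (2 * m + 1)) : ℕ) : ℤ) := by
      push_cast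
      linarith
    exact_mod_cast h3'
  have hFcard : F.card = (N + 2) * ((N + 3) * m + 1) := by
    have h1 : 2 * ((N + 2) * ((N + 3) * m + 1)) + (N + 2) * (N + 1)
        = (N + 3) * ((N + 2) * (2 * m + 1)) := by ring
    linarith
  by_contra hcon
  push Not at hcon
  have hFpos : 0 < F.card := by rw [hFcard]; positivity
  obtain ⟨x₀, hx₀⟩ := Finset.card_pos.mp hFpos
  have hx₀' := (hFmem x₀).mp hx₀
  have hdvd : F.card ∣ Fintype.card G := by
    have h1 : (Finset.univ : Finset G).card
        = ∑ y ∈ F, ((Finset.univ : Finset G).filter (fun h => h * x₀ * h⁻¹ = y)).card := by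
      apply Finset.card_eq_sum_card_fiberwise
      intro h _
      simp only [Finset.mem_coe]
      rw [hFmem]
      intro c hc
      apply hx₀' (h⁻¹ • c)
      rw [mul_smul, mul_smul] at hc
      exact smul_left_cancel h (by rw [hc, smul_inv_smul])
    have h2' : ∀ y ∈ F, ((Finset.univ : Finset G).filter (fun h => h * x₀ * h⁻¹ = y)).card
        = ((Finset.univ : Finset G).filter (fun h => h * x₀ * h⁻¹ = x₀)).card := by
      intro y hy
      obtain ⟨u, hu⟩ := isConj_iff.mp (hcon x₀ y hx₀' ((hFmem y).mp hy))
      refine Finset.card_bij' (fun g _ => u⁻¹ * g) (fun g _ => u * g) ?_ ?_ ?_ ?_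
      · intro g hg
        simp only [Finset.mem_filter, Finset.mem_univ, true_and] at hg ⊢
        have e1 : u⁻¹ * g * x₀ * (u⁻¹ * g)⁻¹ = u⁻¹ * (g * x₀ * g⁻¹) * u := by group
        rw [e1, hg, ← hu]; group
      · intro g hg
        simp only [Finset.mem_filter, Finset.mem_univ, true_and] at hg ⊢
        have e1 : u * g * x₀ * (u * g)⁻¹ = u * (g * x₀ * g⁻¹) * u⁻¹ := by group
        rw [e1, hg, hu]
      · intro g _
        group
      · intro g _
        group
    rw [Finset.sum_congr rfl h2', Finset.sum_const, Finset.card_univ, smul_eq_mul] at h1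
    exact Dvd.intro _ h1.symm
  rw [hG, hkE, hm, hN, hFcard] at hdvd
  have h2' : N + 3 - 1 = N + 2 := rfl
  rw [h2'] at hdvd
  have hdvd2 : (N + 3) * m + 1 ∣ (N + 3) * (2 * m + 1) := by
    have e1 : (N + 3) * ((N + 2) * (2 * m + 1)) = (N + 2) * ((N + 3) * (2 * m + 1)) := by ring
    rw [e1] at hdvd
    exact Nat.dvd_of_mul_dvd_mul_left (by omega) hdvd
  have hcop : Nat.Coprime ((N + 3) * m + 1) (N + 3) := by
    rw [add_comm, Nat.coprime_add_mul_left_left]
    exact Nat.coprime_one_left _
  have hdvd3 : (N + 3) * m + 1 ∣ 2 * m + 1 := hcop.dvd_of_dvd_mul_left hdvd2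
  have hle := Nat.le_of_dvd (by omega) hdvd3
  nlinarith

end Cfsg.Agent.S0880
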