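import Cfsg.Statements.S0881
import Cfsg.Agent.Lib.Helper80.CharOps
import Cfsg.Agent.Lib.Helper15.LinChar

set_option autoImplicit false
open Cfsg

namespace Cfsg.Agent.S0881

open MulAction
open scoped ComplexConjugate
open scoped commutatorElement

section fusion

variable {G Ω : Type*} [Group G] [MulAction G Ω]

/-- powers of a function multiplicative on a point stabilizer -/
theorem nu_pow {a : Ω} (ν : G → ℂ) (hν1 : ν 1 = 1)
    (hνmul : ∀ s g : G, s • a = a → g • a = a → ν (s * g) = ν s * ν g) (t : G) (ht : t • a = a)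
    (j : ℕ) : ν (t ^ j) = ν t ^ j := by
  induction j with
  | zero => simp [hν1]
  | succ j ih =>
    have hm : t ∈ stabilizer G a := ht
    have h1 : (t ^ j) • a = a := (pow_mem hm j : t ^ j ∈ stabilizer G a)
    rw [pow_succ, hνmul _ _ h1 ht, ih, pow_succ]

theorem nu_inv {a : Ω} (ν : G → ℂ) (hν1 : ν 1 = 1)
    (hνmul : ∀ s g : G, s • a = a → g • a = a → ν (s * g) = ν s * ν g) (t : G) (ht : t • a = a) :
    ν t * ν t⁻¹ = 1 := by
  rw [← hνmul _ _ ht (inv_smul_eq_iff.mpr ht.symm), mul_inv_cancel, hν1]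

/-- conjugation invariance of a function multiplicative on a point stabilizer -/
theorem nu_conj {a : Ω} (ν : G → ℂ) (hν1 : ν 1 = 1)
    (hνmul : ∀ s g : G, s • a = a → g • a = a → ν (s * g) = ν s * ν g) (n s : G)
    (hn : n • a = a) (hs : s • a = a) : ν (n * s * n⁻¹) = ν s := by
  have hns : (n * s) • a = a := by rw [mul_smul, hs, hn]
  rw [hνmul _ _ hns (inv_smul_eq_iff.mpr hn.symm), hνmul _ _ hn hs, mul_comm (ν n), mul_assoc,
    nu_inv ν hν1 hνmul n hn, mul_one]

/-- an element of odd order commuting with a nonidentity element fixing `a`, `c` fixes both -/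
theorem fix_of_commute
    (h3 : ∀ g : G, ∀ a b c : Ω, a ≠ b → b ≠ c → a ≠ c → g • a = a → g • b = b → g • c = c → g = 1)
    {a c : Ω} (hac : a ≠ c) {z p : G} (hza : z • a = a) (hzc : z • c = c) (hz1 : z ≠ 1)
    (hcomm : p * z = z * p) {i : ℕ} (hp : p ^ (2 * i + 1) = 1) : p • a = a ∧ p • c = c := by
  have key : ∀ d : Ω, z • d = d → d = a ∨ d = c := by
    intro d hd
    by_contra hne
    push Not at hne
    exact hz1 (h3 z a c d hac (Ne.symm hne.2) (Ne.symm hne.1) hza hzc hd)
  have h1 : z • (p • a) = p • a := by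
    rw [← mul_smul, ← hcomm, mul_smul, hza]
  have h2 : z • (p • c) = p • c := by
    rw [← mul_smul, ← hcomm, mul_smul, hzc]
  rcases key _ h1 with h1a | h1c
  · refine ⟨h1a, ?_⟩
    rcases key _ h2 with h2a | h2c
    · exact absurd (MulAction.injective p (h2a.trans h1a.symm)) (Ne.symm hac)
    · exact h2c
  · exfalso
    rcases key _ h2 with h2a | h2c
    · have hsq : (p ^ 2) • a = a := by
        rw [pow_two, mul_smul, h1c, h2a]
      have hmem : p ^ 2 ∈ stabilizer G a := hsq
      have hp' : p = (p ^ 2) ^ (i + 1) := by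
        rw [← pow_mul, show 2 * (i + 1) = (2 * i + 1) + 1 by ring, pow_succ, hp, one_mul]
      have hpm : p ∈ stabilizer G a := by
        rw [hp']
        exact pow_mem hmem _
      have hpa : p • a = a := hpm
      exact hac (hpa.symm.trans h1c)
    · exact hac (MulAction.injective p (h1c.trans h2c.symm))

/-- the fusion argument: a swapping element cannot fix the linear character on the two point
stabilizer -/
theorem fusion_false [Finite G] [IsSimpleGroup G]
    (h3 : ∀ g : G, ∀ a b c : Ω, a ≠ b → b ≠ c → a ≠ c → g • a = a → g • b = b → g • c = c → g = 1)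
    {a c : Ω} (hac : a ≠ c)
    {e : ℕ} (he : Odd e) (hpow : ∀ t : G, t • a = a → t • c = c → t ^ e = 1)
    (ν : G → ℂ) (hν1 : ν 1 = 1)
    (hνmul : ∀ s g : G, s • a = a → g • a = a → ν (s * g) = ν s * ν g)
    (g : G) (hga : g • a = c) (hgc : g • c = a)
    (hstar : ∀ t : G, t • a = a → t • c = c → ν (g⁻¹ * t * g) = ν t)
    (t₀ : G) (ht₀a : t₀ • a = a) (ht₀c : t₀ • c = c) (ht₀ : ν t₀ ≠ 1) : False := by
  classical
  have hinv_smul : ∀ (t : G) (d : Ω), t • d = d → t⁻¹ • d = d := by
    intro t d h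
    exact inv_smul_eq_iff.mpr h.symm
  -- the r-element t₁
  have hwpow : ν t₀ ^ orderOf t₀ = 1 := by
    rw [← nu_pow ν hν1 hνmul t₀ ht₀a, pow_orderOf_eq_one, hν1]
  have hwdvd : orderOf (ν t₀) ∣ orderOf t₀ := orderOf_dvd_of_pow_eq_one hwpow
  have hw1 : orderOf (ν t₀) ≠ 1 := by
    rw [Ne, orderOf_eq_one_iff]
    exact ht₀
  have hr : (orderOf (ν t₀)).minFac.Prime := Nat.minFac_prime hw1
  have hrw : (orderOf (ν t₀)).minFac ∣ orderOf (ν t₀) := Nat.minFac_dvd _
  generalize (orderOf (ν t₀)).minFac = r at hr hrw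
  have hte : orderOf t₀ ∣ e := orderOf_dvd_of_pow_eq_one (hpow t₀ ht₀a ht₀c)
  have hre : r ∣ e := hrw.trans (hwdvd.trans hte)
  have hrodd : Odd r := by
    obtain ⟨q, hq⟩ := hre
    rw [hq] at he
    exact (Nat.odd_mul.mp he).1
  obtain ⟨k, m', hrm', hm⟩ :=
    Nat.exists_eq_pow_mul_and_not_dvd (orderOf_pos t₀).ne' r hr.ne_one
  have ht₁a : (t₀ ^ m') • a = a :=
    (pow_mem (show t₀ ∈ stabilizer G a from ht₀a) m' : _ ∈ stabilizer G a)
  have ht₁c : (t₀ ^ m') • c = c :=
    (pow_mem (show t₀ ∈ stabilizer G c from ht₀c) m' : _ ∈ stabilizer G c)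
  have hνt₁ : ν (t₀ ^ m') ≠ 1 := by
    rw [nu_pow ν hν1 hνmul t₀ ht₀a]
    intro h
    exact hrm' (hrw.trans (orderOf_dvd_of_pow_eq_one h))
  have ht₁pow : (t₀ ^ m') ^ (r ^ k) = 1 := by
    rw [← pow_mul, mul_comm, ← hm, pow_orderOf_eq_one]
  generalize t₀ ^ m' = t₁ at ht₁a ht₁c hνt₁ ht₁pow
  have ht₁ne : t₁ ≠ 1 := by
    intro h
    rw [h] at hνt₁
    exact hνt₁ hν1
  have : Fact r.Prime := ⟨hr⟩
  have hpg : IsPGroup r (Subgroup.zpowers t₁) := by
    intro x
    refine ⟨k, ?_⟩
    obtain ⟨x, hx⟩ := x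
    obtain ⟨j, rfl⟩ := Subgroup.mem_zpowers_iff.mp hx
    apply Subtype.ext
    simp only [Subgroup.coe_pow, Subgroup.coe_one]
    rw [← zpow_natCast, ← zpow_mul, mul_comm, zpow_mul, zpow_natCast, ht₁pow, one_zpow]
  obtain ⟨P, hP⟩ := hpg.exists_le_sylow
  have ht₁P : t₁ ∈ P := hP (Subgroup.mem_zpowers t₁)
  -- odd powers
  have hoddpow : ∀ p ∈ P, ∃ i : ℕ, p ^ (2 * i + 1) = 1 := by
    intro p hp
    obtain ⟨j, hj⟩ := P.2 ⟨p, hp⟩
    have hj' : p ^ (r ^ j) = 1 := by
      have := congrArg Subtype.val hj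
      simpa using this
    obtain ⟨i, hi⟩ := (Odd.pow hrodd : Odd (r ^ j))
    exact ⟨i, by rw [← hi]; exact hj'⟩
  -- the center of P
  have : Nontrivial P := ⟨⟨⟨t₁, ht₁P⟩, 1, fun h => ht₁ne (congrArg Subtype.val h)⟩⟩
  have hcen : Nontrivial (Subgroup.center P) := IsPGroup.center_nontrivial P.2
  obtain ⟨z, hz⟩ := exists_ne (1 : Subgroup.center P)
  have hzG : ((z : P) : G) ≠ 1 := by
    intro h
    apply hz
    apply Subtype.ext
    apply Subtype.ext
    simpa using h
  have hzcomm : ∀ q ∈ P, q * ((z : P) : G) = ((z : P) : G) * q := by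
    intro q hq
    have := Subgroup.mem_center_iff.mp z.2 ⟨q, hq⟩
    exact congrArg Subtype.val this
  have hzfix : ((z : P) : G) • a = a ∧ ((z : P) : G) • c = c := by
    obtain ⟨i, hi⟩ := hoddpow _ (z : P).2
    exact fix_of_commute h3 hac ht₁a ht₁c ht₁ne (hzcomm t₁ ht₁P).symm hi
  have hPfix : ∀ p ∈ P, p • a = a ∧ p • c = c := by
    intro p hp
    obtain ⟨i, hi⟩ := hoddpow p hp
    exact fix_of_commute h3 hac hzfix.1 hzfix.2 hzG (hzcomm p hp) hi
  -- fusion claim
  have hF : ∀ y ∈ P, ∀ u : G, u * y * u⁻¹ ∈ P → ν (u * y * u⁻¹) = ν y := by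
    intro y hy u huy
    by_cases hy1 : y = 1
    · subst hy1
      simp
    obtain ⟨hya, hyc⟩ := hPfix y hy
    obtain ⟨hza, hzc⟩ := hPfix _ huy
    have key : ∀ d : Ω, y • d = d → d = a ∨ d = c := by
      intro d hd
      by_contra hne
      push Not at hne
      exact hy1 (h3 y a c d hac (Ne.symm hne.2) (Ne.symm hne.1) hya hyc hd)
    have h1 : y • (u⁻¹ • a) = u⁻¹ • a := by
      rw [eq_inv_smul_iff, ← mul_smul, ← mul_smul]
      exact hza
    have h2 : y • (u⁻¹ • c) = u⁻¹ • c := by
      rw [eq_inv_smul_iff, ← mul_smul, ← mul_smul]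
      exact hzc
    rcases key _ h1 with h1a | h1c
    · have hua : u • a = a := by
        have := hinv_smul u⁻¹ a h1a
        rwa [inv_inv] at this
      exact nu_conj ν hν1 hνmul u y hua hya
    · have h2a : u⁻¹ • c = a := by
        rcases key _ h2 with h | h
        · exact h
        · exact absurd (MulAction.injective u⁻¹ (h1c.trans h.symm)) hac
      have huc : u • c = a := by rw [← h1c, smul_inv_smul]
      have hua : u • a = c := by rw [← h2a, smul_inv_smul]
      have hg'a : g⁻¹ • a = c := by rw [← hgc, inv_smul_smul]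
      have hg'c : g⁻¹ • c = a := by rw [← hga, inv_smul_smul]
      have he₁a : (u * g⁻¹) • a = a := by rw [mul_smul, hg'a, huc]
      have he₁c : (u * g⁻¹) • c = c := by rw [mul_smul, hg'c, hua]
      have hta : ((u * g⁻¹)⁻¹ * (u * y * u⁻¹) * (u * g⁻¹)) • a = a := by
        rw [mul_smul, mul_smul, he₁a, hza, hinv_smul _ a he₁a]
      have htc : ((u * g⁻¹)⁻¹ * (u * y * u⁻¹) * (u * g⁻¹)) • c = c := by
        rw [mul_smul, mul_smul, he₁c, hzc, hinv_smul _ c he₁c]
      have hs := hstar _ hta htc
      have e1 : g⁻¹ * ((u * g⁻¹)⁻¹ * (u * y * u⁻¹) * (u * g⁻¹)) * g = y := by group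
      rw [e1] at hs
      have e2 : ν ((u * g⁻¹)⁻¹ * (u * y * u⁻¹) * (u * g⁻¹)) = ν (u * y * u⁻¹) := by
        have := nu_conj ν hν1 hνmul (u * g⁻¹)⁻¹ (u * y * u⁻¹) (hinv_smul _ a he₁a) hza
        rwa [inv_inv] at this
      rw [← e2, ← hs]
  -- the kernel
  let K : Subgroup G :=
    { carrier := {t | t • a = a ∧ ν t = 1}
      mul_mem' := by
        rintro s t ⟨hs, hs1⟩ ⟨ht, ht1⟩
        exact ⟨by rw [mul_smul, ht, hs], by rw [hνmul _ _ hs ht, hs1, ht1, mul_one]⟩
      one_mem' := ⟨one_smul _ _, hν1⟩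
      inv_mem' := by
        rintro t ⟨ht, ht1⟩
        refine ⟨hinv_smul t a ht, ?_⟩
        have := nu_inv ν hν1 hνmul t ht
        rwa [ht1, one_mul] at this }
  have hfocK : (P : Subgroup G).focalSubgroup ≤ K := by
    rw [Subgroup.focalSubgroup_def, Subgroup.closure_le]
    rintro x ⟨hxP, y, hyP, u, rfl⟩
    refine ⟨(hPfix _ hxP).1, ?_⟩
    have h1 : u * y⁻¹ * u⁻¹ ∈ P := by
      have : u * y⁻¹ * u⁻¹ = y⁻¹ * ⁅y, u⁆ := by
        rw [commutatorElement_def]
        group
      rw [this]
      exact mul_mem (inv_mem hyP) hxP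
    have h2 : ⁅y, u⁆ = y * (u * y⁻¹ * u⁻¹) := by
      rw [commutatorElement_def]
      group
    rw [h2, hνmul _ _ (hPfix y hyP).1 (hPfix _ h1).1, hF y⁻¹ (inv_mem hyP) u h1,
      nu_inv ν hν1 hνmul y (hPfix y hyP).1]
  have hfoc := Subgroup.commutator_inf_eq_focalSubgroup P
  rcases IsSimpleGroup.eq_bot_or_eq_top_of_normal (commutator G) inferInstance with hbot | htop
  · -- abelian case
    have hcomm : ∀ x y : G, x * y = y * x := by
      intro x y
      have hmem : ⁅x, y⁆ ∈ commutator G :=
        Subgroup.commutator_mem_commutator (Subgroup.mem_top x) (Subgroup.mem_top y)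
      rw [hbot, Subgroup.mem_bot, commutatorElement_def] at hmem
      calc x * y = (x * y * x⁻¹ * y⁻¹) * (y * x) := by group
        _ = y * x := by rw [hmem, one_mul]
    have hnorm : (stabilizer G a).Normal := by
      refine ⟨fun n hn x => ?_⟩
      rw [hcomm x n, mul_inv_cancel_right]
      exact hn
    rcases IsSimpleGroup.eq_bot_or_eq_top_of_normal (stabilizer G a) hnorm with hb | ht
    · have hmem : t₁ ∈ stabilizer G a := ht₁a
      rw [hb, Subgroup.mem_bot] at hmem
      exact ht₁ne hmem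
    · have hmem : g ∈ stabilizer G a := by
        rw [ht]
        exact Subgroup.mem_top g
      have hga' : g • a = a := hmem
      exact hac (hga'.symm.trans hga)
  · rw [htop, top_inf_eq] at hfoc
    have hmem : t₁ ∈ (P : Subgroup G).focalSubgroup := by
      rw [← hfoc]
      exact ht₁P
    exact hνt₁ (hfocK hmem).2

end fusion

/-- a sum that is multiplied by a constant different from one under a translation vanishes -/
theorem sum_eq_zero_of_twist {G : Type*} [Group G] [Fintype G] (F : G → ℂ) (t : G) (c : ℂ)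
    (hc : c ≠ 1) (h : ∀ g, F (t * g) = c * F g) : ∑ g, F g = 0 := by
  have h1 : ∑ g, F g = c * ∑ g, F g := by
    calc ∑ g, F g = ∑ g, F (t * g) := (Equiv.sum_comp (Equiv.mulLeft t) F).symm
      _ = ∑ g, c * F g := Finset.sum_congr rfl (fun g _ => h g)
      _ = c * ∑ g, F g := by rw [Finset.mul_sum]
  have h2 : (1 - c) * ∑ g, F g = 0 := by
    rw [sub_mul, one_mul, ← h1, sub_self]
  rcases mul_eq_zero.mp h2 with h3 | h3
  · exact absurd (sub_eq_zero.mp h3).symm hc
  · exact h3

/-- Let G be a finite simple Zassenhaus group on Ω with n points, a ≠ b points with two-point stabilizer E of odd order less than n - 2, and let H be the subgroup of the stabilizer of a consisting of the identity and the elements fixing no point other than a (given here as a subgroup of the stabilizer of order one less than the number of points whose non-identity elements fix only a; it is the Frobenius kernel of the stabilizer). Let μ be a character of degree 1 of the stabilizer of a that is identically 1 on H but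 not identically 1. Then the function induced from μ to G is an irreducible character of G, and it takes the value 1 at every non-identity element of H. -/
theorem result {G Ω : Type*} [Group G] [Fintype G] [MulAction G Ω] [Fintype Ω] (hZ : Cfsg.IsZassenhausGroup G Ω) {a b : Ω} (hab : a ≠ b) [IsSimpleGroup G] (hodd : Odd (Nat.card ↥(MulAction.stabilizer G a ⊓ MulAction.stabilizer G b : Subgroup G))) (hlt : Nat.card ↥(MulAction.stabilizer G a ⊓ MulAction.stabilizer G b : Subgroup G) < Fintype.card Ω - 2) (H : Subgroup G) (hHa : H ≤ MulAction.stabilizer G a) (hHcard : Nat.card H + 1 = Fintype.card Ω) (hHfix : ∀ u ∈ H, u ≠ 1 → ∀ c : Ω, u • c = c → c = a) (μ : MulAction.stabilizer G a → ℂ) (hμ : Cfsg.IsCharacter (MulAction.stabilizer G a) μ ∧ μ 1 = 1) (hμH : ∀ u : MulAction.stabilizer G a, (u : G) ∈ H → μ u = 1) (hμne : μ ≠ fun _ => 1) : Cfsg.IsIrrCharacter G (Cfsg.indFun (MulAction.stabilizer G a) μ) ∧ ∀ u ∈ H, u ≠ 1 → Cfsg.indFun (MulAction.stabilizer G a) μ u = 1 := by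
  classical
  obtain ⟨-, h2t, h3, -, -⟩ := hZ
  have h2 : ∀ {c d c' d' : Ω}, c ≠ d → c' ≠ d' → ∃ g : G, g • c = c' ∧ g • d = d' :=
    fun hcd hcd' => (MulAction.is_two_pretransitive_iff.mp h2t) hcd hcd'
  obtain ⟨hμchar, hμ1⟩ := hμ
  have hνmem : ∀ (x : G) (hx : x ∈ stabilizer G a),
      Cfsg.extendByZero (stabilizer G a) μ x = μ ⟨x, hx⟩ := fun x hx =>
    Cfsg.Agent.Lib.Helper80.extendByZero_apply_mem (stabilizer G a) μ ⟨x, hx⟩
  have hνnot : ∀ x : G, x ∉ stabilizer G a → Cfsg.extendByZero (stabilizer G a) μ x = 0 :=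
    fun x hx => Cfsg.Agent.Lib.Helper80.extendByZero_apply_not_mem (stabilizer G a) μ hx
  generalize hνdef : Cfsg.extendByZero (stabilizer G a) μ = ν at hνmem hνnot
  have hν1 : ν 1 = 1 := by
    rw [hνmem 1 (one_mem _)]
    exact hμ1
  have hνmul : ∀ s g : G, s • a = a → g • a = a → ν (s * g) = ν s * ν g := by
    intro s g hs hg
    have hs' : s ∈ stabilizer G a := hs
    have hg' : g ∈ stabilizer G a := hg
    rw [hνmem _ (mul_mem hs' hg'), hνmem _ hs', hνmem _ hg']
    exact Cfsg.Agent.Lib.Helper15.linChar_mul hμchar hμ1 ⟨s, hs'⟩ ⟨g, hg'⟩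
  have hνmul' : ∀ s g : G, s • a = a → ν (s * g) = ν s * ν g := by
    intro s g hs
    by_cases hg : g • a = a
    · exact hνmul s g hs hg
    · have h1 : g ∉ stabilizer G a := hg
      have h2' : s * g ∉ stabilizer G a := by
        intro h
        apply hg
        have h' : (s * g) • a = a := h
        rw [mul_smul] at h'
        exact MulAction.injective s (h'.trans hs.symm)
      rw [hνnot _ h1, hνnot _ h2', mul_zero]
  have hνnorm : ∀ s : G, s • a = a → ν s * conj (ν s) = 1 := by
    intro s hs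
    have hpow : ν s ^ orderOf s = 1 := by
      rw [← nu_pow ν hν1 hνmul s hs, pow_orderOf_eq_one, hν1]
    have hn : ‖ν s‖ = 1 := Complex.norm_eq_one_of_pow_eq_one hpow (orderOf_pos s).ne'
    rw [Complex.mul_conj, Complex.normSq_eq_norm_sq, hn]
    simp
  -- H is regular on the points other than a
  have hHreg : ∀ c : Ω, c ≠ a → ∀ d : Ω, d ≠ a → ∃ u ∈ H, u • c = d := by
    intro c hca d hda
    have hinj : Function.Injective (fun u : H => (u : G) • c) := by
      intro u v huv
      simp only at huv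
      have h1 : ((v : G)⁻¹ * (u : G)) • c = c := by
        rw [mul_smul, huv, inv_smul_smul]
      by_contra hne
      have h2' : (v : G)⁻¹ * (u : G) ≠ 1 := by
        intro h
        apply hne
        apply Subtype.ext
        exact (inv_mul_eq_one.mp h).symm
      exact hca (hHfix _ (mul_mem (inv_mem v.2) u.2) h2' c h1)
    have : Fintype H := Fintype.ofFinite H
    have himg : (Finset.univ : Finset H).image (fun u : H => (u : G) • c) = Finset.univ.erase a := by
      apply Finset.eq_of_subset_of_card_le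
      · intro x hx
        obtain ⟨u, -, rfl⟩ := Finset.mem_image.mp hx
        rw [Finset.mem_erase]
        refine ⟨?_, Finset.mem_univ _⟩
        intro h
        have hua : (u : G) • a = a := hHa u.2
        exact hca (MulAction.injective (u : G) (h.trans hua.symm))
      · rw [Finset.card_image_of_injective _ hinj, Finset.card_erase_of_mem (Finset.mem_univ a),
          Finset.card_univ, Finset.card_univ]
        have := hHcard
        rw [Nat.card_eq_fintype_card] at this
        omega
    have hd : d ∈ (Finset.univ : Finset H).image (fun u : H => (u : G) • c) := by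
      rw [himg]
      exact Finset.mem_erase.mpr ⟨hda, Finset.mem_univ _⟩
    obtain ⟨u, -, hu⟩ := Finset.mem_image.mp hd
    exact ⟨u, u.2, hu⟩
  -- the character is nontrivial on every two point stabilizer
  have hexists : ∀ c : Ω, c ≠ a → ∃ t : G, t • a = a ∧ t • c = c ∧ ν t ≠ 1 := by
    intro c hca
    by_contra hcon
    push Not at hcon
    apply hμne
    funext n
    have hna : (n : G) • a = a := n.2
    have hnc : (n : G) • c ≠ a := by
      intro h
      exact hca (MulAction.injective (n : G) (h.trans hna.symm))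
    obtain ⟨u, huH, hu⟩ := hHreg c hca _ hnc
    have hua : u • a = a := hHa huH
    have h1 : (u⁻¹ * (n : G)) • a = a := by
      rw [mul_smul, hna, inv_smul_eq_iff, hua]
    have h2' : (u⁻¹ * (n : G)) • c = c := by
      rw [mul_smul, ← hu, inv_smul_smul]
    have h3' := hcon _ h1 h2'
    have h4 : ν (n : G) = ν u * ν (u⁻¹ * (n : G)) := by
      rw [← hνmul u _ hua h1, mul_inv_cancel_left]
    rw [h3', mul_one, hνmem u (hHa huH), hμH ⟨u, hHa huH⟩ huH] at h4
    exact (hνmem (n : G) n.2).symm.trans h4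
  -- elements of two point stabilizers have odd order
  have hpowe : ∀ c : Ω, c ≠ a → ∀ t : G, t • a = a → t • c = c →
      t ^ Nat.card ↥(MulAction.stabilizer G a ⊓ MulAction.stabilizer G b : Subgroup G) = 1 := by
    intro c hca t hta htc
    obtain ⟨h, hha, hhc⟩ := h2 (Ne.symm hca) hab
    have h1 : (h * t * h⁻¹) ∈ (MulAction.stabilizer G a ⊓ MulAction.stabilizer G b : Subgroup G) := by
      rw [Subgroup.mem_inf]
      constructor
      · show (h * t * h⁻¹) • a = a
        rw [mul_smul, mul_smul, inv_smul_eq_iff.mpr hha.symm, hta, hha]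
      · show (h * t * h⁻¹) • b = b
        rw [mul_smul, mul_smul, inv_smul_eq_iff.mpr hhc.symm, htc, hhc]
    have h2' : (⟨h * t * h⁻¹, h1⟩ :
        ↥(MulAction.stabilizer G a ⊓ MulAction.stabilizer G b : Subgroup G)) ^
          Nat.card ↥(MulAction.stabilizer G a ⊓ MulAction.stabilizer G b : Subgroup G) = 1 :=
      pow_card_eq_one'
    have h3' : (h * t * h⁻¹) ^
        Nat.card ↥(MulAction.stabilizer G a ⊓ MulAction.stabilizer G b : Subgroup G) = 1 := by
      have := congrArg Subtype.val h2'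
      simpa using this
    rw [conj_pow] at h3'
    have h4 : ∀ s : G, h * s * h⁻¹ = 1 → s = 1 := by
      intro s hs
      have : s = h⁻¹ * (h * s * h⁻¹) * h := by group
      rw [this, hs]
      group
    exact h4 _ h3'
  -- the key claim
  have hkey : ∀ x : G, x • a ≠ a →
      ∃ t : G, t • a = a ∧ t • (x • a) = x • a ∧ ν t ≠ ν (x⁻¹ * t * x) := by
    intro x hxa
    by_contra hcon
    push Not at hcon
    have hda : x⁻¹ • a ≠ a := by
      intro h
      apply hxa
      rw [inv_smul_eq_iff] at h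
      exact h.symm
    obtain ⟨n, hna, hnd⟩ := h2 (Ne.symm hda) (Ne.symm hxa)
    have hn'a : n⁻¹ • a = a := inv_smul_eq_iff.mpr hna.symm
    have hn'c : n⁻¹ • (x • a) = x⁻¹ • a := inv_smul_eq_iff.mpr hnd.symm
    have hga : (x * n⁻¹) • a = x • a := by rw [mul_smul, hn'a]
    have hgc : (x * n⁻¹) • (x • a) = a := by rw [mul_smul, hn'c, smul_inv_smul]
    obtain ⟨t₀, ht₀a, ht₀c, ht₀⟩ := hexists (x • a) hxa
    refine fusion_false h3 (Ne.symm hxa) hodd (hpowe (x • a) hxa) ν hν1 hνmul (x * n⁻¹) hga hgc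
      ?_ t₀ ht₀a ht₀c ht₀
    intro t hta htc
    have h1 := hcon t hta htc
    have h2' : (x⁻¹ * t * x) • a = a := by
      rw [mul_smul, mul_smul, htc, inv_smul_smul]
    have e1 : (x * n⁻¹)⁻¹ * t * (x * n⁻¹) = n * (x⁻¹ * t * x) * n⁻¹ := by group
    rw [e1, h1]
    exact nu_conj ν hν1 hνmul n _ hna h2'
  have hNcard : (Nat.card (stabilizer G a) : ℂ) ≠ 0 := by
    exact_mod_cast (Nat.card_pos (α := stabilizer G a)).ne'
  have hsumN : ∀ cst : ℂ, ∑ x : G, (if x ∈ stabilizer G a then cst else 0)
      = (Nat.card (stabilizer G a) : ℂ) * cst := by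
    intro cst
    rw [← Finset.sum_filter, Finset.sum_const, nsmul_eq_mul]
    congr 2
    rw [Nat.card_eq_fintype_card, Fintype.card_subtype]
  constructor
  swap
  · intro u huH hu1
    have hua : u • a = a := hHa huH
    unfold Cfsg.indFun
    rw [hνdef]
    have h1 : ∀ x : G, ν (x⁻¹ * u * x) = if x ∈ stabilizer G a then 1 else 0 := by
      intro x
      by_cases hx : x ∈ stabilizer G a
      · rw [if_pos hx]
        have hxa : x • a = a := hx
        have hx'a : x⁻¹ • a = a := inv_smul_eq_iff.mpr hxa.symm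
        have := nu_conj ν hν1 hνmul x⁻¹ u hx'a hua
        rw [inv_inv] at this
        rw [this, hνmem u (hHa huH)]
        exact hμH ⟨u, hHa huH⟩ huH
      · rw [if_neg hx]
        apply hνnot
        intro hmem
        have h2' : (x⁻¹ * u * x) • a = a := hmem
        rw [mul_smul, mul_smul, inv_smul_eq_iff] at h2'
        exact hx (hHfix u huH hu1 _ h2')
    simp_rw [h1]
    rw [hsumN, mul_one, inv_mul_cancel₀ hNcard]
  · have hchar : Cfsg.IsCharacter G (Cfsg.indFun (stabilizer G a) μ) :=
      Cfsg.Agent.Lib.Helper80.isCharacter_indFun (stabilizer G a) hμchar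
    have : Fintype (Cfsg.IrrCharacter G) := Fintype.ofFinite _
    apply Cfsg.Agent.Lib.Helper80.isIrrCharacter_of_classInner_eq_one hchar
    have : Fintype (stabilizer G a) := Fintype.ofFinite _
    rw [Cfsg.Agent.Lib.Helper80.frobenius_reciprocity (stabilizer G a) μ _
      (Cfsg.Agent.Lib.Helper80.isClassFunction_indFun (stabilizer G a) μ)]
    have step1 : Cfsg.classInner μ (fun h : stabilizer G a => Cfsg.indFun (stabilizer G a) μ h)
        = (Nat.card (stabilizer G a) : ℂ)⁻¹ *
          ∑ g : G, ν g * conj (Cfsg.indFun (stabilizer G a) μ g) := by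
      unfold Cfsg.classInner
      congr 1
      rw [← hνdef]
      exact (Cfsg.Agent.Lib.Helper80.sum_extendByZero_mul (stabilizer G a) μ
        (fun g => conj (Cfsg.indFun (stabilizer G a) μ g))).symm
    have step2 : ∀ g : G, conj (Cfsg.indFun (stabilizer G a) μ g)
        = (Nat.card (stabilizer G a) : ℂ)⁻¹ * ∑ x : G, conj (ν (x⁻¹ * g * x)) := by
      intro g
      unfold Cfsg.indFun
      rw [hνdef, map_mul, map_sum, map_inv₀, Complex.conj_natCast]
    have hS : ∀ x : G, ∑ g : G, ν g * conj (ν (x⁻¹ * g * x))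
        = if x ∈ stabilizer G a then (Nat.card (stabilizer G a) : ℂ) else 0 := by
      intro x
      by_cases hx : x ∈ stabilizer G a
      · rw [if_pos hx]
        have hxa : x • a = a := hx
        have hx'a : x⁻¹ • a = a := inv_smul_eq_iff.mpr hxa.symm
        have h1 : ∀ g : G, ν g * conj (ν (x⁻¹ * g * x))
            = if g ∈ stabilizer G a then 1 else 0 := by
          intro g
          by_cases hg : g ∈ stabilizer G a
          · rw [if_pos hg]
            have := nu_conj ν hν1 hνmul x⁻¹ g hx'a hg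
            rw [inv_inv] at this
            rw [this]
            exact hνnorm g hg
          · rw [if_neg hg, hνnot g hg, zero_mul]
        simp_rw [h1]
        rw [hsumN, mul_one]
      · rw [if_neg hx]
        have hxa : x • a ≠ a := hx
        obtain ⟨t, hta, htc, hne⟩ := hkey x hxa
        have hxt : (x⁻¹ * t * x) • a = a := by
          rw [mul_smul, mul_smul, htc, inv_smul_smul]
        apply sum_eq_zero_of_twist (fun g => ν g * conj (ν (x⁻¹ * g * x))) t
          (ν t * conj (ν (x⁻¹ * t * x)))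
        · intro h
          apply hne
          have h3' := hνnorm _ hxt
          have hcw : conj (ν (x⁻¹ * t * x)) ≠ 0 := by
            intro h0
            rw [h0, mul_zero] at h
            exact zero_ne_one h
          exact mul_right_cancel₀ hcw (h.trans h3'.symm)
        · intro g
          have e1 : x⁻¹ * (t * g) * x = (x⁻¹ * t * x) * (x⁻¹ * g * x) := by group
          show ν (t * g) * conj (ν (x⁻¹ * (t * g) * x))
            = ν t * conj (ν (x⁻¹ * t * x)) * (ν g * conj (ν (x⁻¹ * g * x)))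
          rw [e1, hνmul' t g hta, hνmul' _ _ hxt, map_mul]
          ring
    have step3 : ∑ g : G, ν g * conj (Cfsg.indFun (stabilizer G a) μ g)
        = (Nat.card (stabilizer G a) : ℂ)⁻¹ *
          ∑ x : G, ∑ g : G, ν g * conj (ν (x⁻¹ * g * x)) := by
      simp_rw [step2]
      rw [Finset.sum_comm, Finset.mul_sum]
      refine Finset.sum_congr rfl (fun g _ => ?_)
      rw [mul_left_comm, Finset.mul_sum]
    rw [step1, step3]
    simp_rw [hS]
    rw [hsumN]
    field_simp

end Cfsg.Agent.S0881
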