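import Cfsg.Statements.S0889
import Cfsg.Agent.Lib.Helper15.BergerCent
import Cfsg.Agent.Lib.Helper15.ChiefFactor
import Cfsg.Agent.Lib.Helper3.IndTrans

set_option autoImplicit false
open Cfsg

namespace Cfsg.Agent.S0889

open Cfsg.Agent.Lib.Helper15 in
/-- Induction in stages: a character induced from `K ≤ H` is induced from `H`. -/
theorem stage {G : Type*} [Group G] [Fintype G] (K H : Subgroup G) (hKH : K ≤ H) (ψ : K → ℂ)
    (hψ : Cfsg.IsCharacter K ψ) :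
    ∃ ϑ : H → ℂ, Cfsg.IsCharacter H ϑ ∧ Cfsg.indFun H ϑ = Cfsg.indFun K ψ := by
  classical
  have : Fintype H := Fintype.ofFinite H
  refine ⟨Cfsg.indFun (K.subgroupOf H) (fun x => ψ ⟨(x : H), Subgroup.mem_subgroupOf.mp x.2⟩),
    ?_, Cfsg.Agent.Lib.Helper3.indFun_trans K H hKH ψ⟩
  apply Cfsg.Agent.Lib.Helper80.isCharacter_indFun
  exact Cfsg.Agent.Lib.Helper80.isCharacter_comp (Subgroup.subgroupOfEquivOfLe hKH).toMonoidHom hψ

open Cfsg.Agent.Lib.Helper15 in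
/-- The inductive step: a quasi-primitive character induced from a maximal subgroup `H` is induced
from a proper subgroup whose core is strictly larger than that of `H`. -/
theorem core_step {G : Type*} [Group G] [Fintype G] [Group.IsSolvable G] (χ : G → ℂ)
    (hχ : Cfsg.IsIrrCharacter G χ)
    (hqp : ∀ (N : Subgroup G), N.Normal → ∃ (ϑ : N → ℂ) (e : ℕ), Cfsg.IsIrrCharacter N ϑ ∧
      (fun n : N => χ n) = (e : ℂ) • ϑ)
    (H : Subgroup G) (hmax : IsCoatom H) (ϑ : H → ℂ) (hϑc : Cfsg.IsCharacter H ϑ)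
    (hind : Cfsg.indFun H ϑ = χ) :
    ∃ (T : Subgroup G) (ω : T → ℂ), T ≠ ⊤ ∧ Cfsg.IsCharacter T ω ∧ Cfsg.indFun T ω = χ ∧
      H.normalCore < T.normalCore := by
  classical
  have hϑ : Cfsg.IsIrrCharacter H ϑ := isIrr_of_indFun_isIrr H hϑc (hind ▸ hχ)
  have hCn : H.normalCore.Normal := H.normalCore_normal
  have hCH : H.normalCore ≤ H := H.normalCore_le
  have hCtop : H.normalCore ≠ ⊤ := by
    intro h
    apply hmax.1
    rw [eq_top_iff, ← h]
    exact hCH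
  obtain ⟨K, hKn, hCK, hKC, hab, -, -⟩ := exists_chief_over H.normalCore hCtop inferInstance
  have hKH : ¬ K ≤ H := by
    intro h
    exact hKC (le_antisymm (Subgroup.normal_le_normalCore.mpr h) hCK)
  have htop : K ⊔ H = ⊤ := by
    apply hmax.2
    refine lt_of_le_of_ne le_sup_right ?_
    intro h
    apply hKH
    rw [h]
    exact le_sup_left
  have hsurj : ∀ g : G, ∃ k ∈ K, ∃ h ∈ H, g = k * h := by
    intro g
    have hg : g ∈ ((K ⊔ H : Subgroup G) : Set G) := by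
      rw [htop]
      exact Set.mem_univ g
    rw [Subgroup.normal_mul] at hg
    obtain ⟨k, hk, h, hh, rfl⟩ := Set.mem_mul.mp hg
    exact ⟨k, hk, h, hh, rfl⟩
  have hinf : K ⊓ H = H.normalCore := by
    apply le_antisymm _ (le_inf hCK hCH)
    have hn : (K ⊓ H).Normal := by
      refine ⟨fun x hx g => ?_⟩
      obtain ⟨k, hk, h, hh, rfl⟩ := hsurj g
      have hy : h * x * h⁻¹ ∈ K ⊓ H :=
        ⟨hKn.conj_mem x hx.1 h, H.mul_mem (H.mul_mem hh hx.2) (H.inv_mem hh)⟩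
      have e : k * h * x * (k * h)⁻¹ =
          (k * (h * x * h⁻¹) * k⁻¹ * (h * x * h⁻¹)⁻¹) * (h * x * h⁻¹) := by group
      rw [e]
      have hc : k * (h * x * h⁻¹) * k⁻¹ * (h * x * h⁻¹)⁻¹ ∈ H.normalCore := hab k hk _ hy.1
      exact ⟨K.mul_mem (hCK hc) hy.1, H.mul_mem (hCH hc) hy.2⟩
    exact Subgroup.normal_le_normalCore.mpr inf_le_right
  obtain ⟨φ, e, hφ, hχL⟩ := hqp H.normalCore hCn
  obtain ⟨T, ω, hT, hω, hωind, M, hMn, hLM, hMT, hML⟩ :=
    berger_step_centExt χ hχ H hmax ϑ hϑ hind H.normalCore K hCK hsurj hinf φ e hφ hχL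
  refine ⟨T, ω, hT, hω, hωind, lt_of_le_of_ne ?_ ?_⟩
  · exact le_trans hLM (Subgroup.normal_le_normalCore.mpr hMT)
  · intro h
    apply hML
    rw [h]
    exact Subgroup.normal_le_normalCore.mpr hMT

/-- Let G be a finite solvable group and χ an irreducible character of G such that for every normal subgroup N the restriction of χ to N is a natural-number multiple of one irreducible character of N. Then χ is not induced from a character of any proper subgroup. -/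
theorem result {G : Type*} [Group G] [Fintype G] [Group.IsSolvable G] (χ : G → ℂ) (hχ : Cfsg.IsIrrCharacter G χ) (hqp : ∀ (N : Subgroup G), N.Normal → ∃ (ϑ : N → ℂ) (e : ℕ), Cfsg.IsIrrCharacter N ϑ ∧ (fun n : N => χ n) = (e : ℂ) • ϑ) (K : Subgroup G) (hK : K ≠ ⊤) (ψ : K → ℂ) (hψ : Cfsg.IsCharacter K ψ) : Cfsg.indFun K ψ ≠ χ := by
  classical
  intro hKψ
  have hS : {H : Subgroup G | IsCoatom H ∧ ∃ ϑ : H → ℂ, Cfsg.IsCharacter H ϑ ∧
      Cfsg.indFun H ϑ = χ}.Nonempty := by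
    rcases eq_top_or_exists_le_coatom K with h | ⟨H, hH, hKH⟩
    · exact absurd h hK
    · obtain ⟨ϑ, hϑ, hϑind⟩ := stage K H hKH ψ hψ
      exact ⟨H, hH, ϑ, hϑ, hϑind.trans hKψ⟩
  obtain ⟨H, ⟨hHmax, ϑ, hϑ, hind⟩, hHcard⟩ := Set.exists_max_image
    {H : Subgroup G | IsCoatom H ∧ ∃ ϑ : H → ℂ, Cfsg.IsCharacter H ϑ ∧ Cfsg.indFun H ϑ = χ}
    (fun H => Nat.card H.normalCore) (Set.toFinite _) hS
  obtain ⟨T, ω, hT, hω, hωind, hlt⟩ := core_step χ hχ hqp H hHmax ϑ hϑ hind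
  rcases eq_top_or_exists_le_coatom T with h | ⟨H₂, hH₂, hTH₂⟩
  · exact hT h
  · obtain ⟨ϑ₂, hϑ₂, hϑ₂ind⟩ := stage T H₂ hTH₂ ω hω
    have h1 := hHcard H₂ ⟨hH₂, ϑ₂, hϑ₂, hϑ₂ind.trans hωind⟩
    have hlt2 : H.normalCore < H₂.normalCore :=
      lt_of_lt_of_le hlt (Subgroup.normalCore_mono hTH₂)
    exact hlt2.ne (Subgroup.eq_of_le_of_card_ge hlt2.le h1)

end Cfsg.Agent.S0889
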