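import Cfsg.Statements.S0893
import Cfsg.Agent.Lib.Helper15.LinChar
import Cfsg.Agent.Lib.Helper75.CharInd
import Cfsg.Agent.Lib.Helper75.CharDecomp

set_option autoImplicit false
open Cfsg
open scoped ComplexConjugate commutatorElement

namespace Cfsg.Agent.S0893

open Cfsg.Agent.Lib.Helper15

/-- extension by zero is multiplicative against elements of the subgroup, for a multiplicative function -/
theorem ext_mul {P : Type*} [Group P] (A : Subgroup P) (lam : A → ℂ)
    (hmul : ∀ a b : A, lam (a * b) = lam a * lam b) (w z : P) (hz : z ∈ A) :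
    Cfsg.extendByZero A lam (w * z) = Cfsg.extendByZero A lam w * lam ⟨z, hz⟩ := by
  by_cases hw : w ∈ A
  · rw [Cfsg.Agent.Lib.Helper75.extendByZero_mem A lam (A.mul_mem hw hz),
      Cfsg.Agent.Lib.Helper75.extendByZero_mem A lam hw, ← hmul]
    rfl
  · have hwz : w * z ∉ A := fun h => hw ((Subgroup.mul_mem_cancel_right A hz).mp h)
    rw [Cfsg.Agent.Lib.Helper75.extendByZero_not_mem A lam hwz,
      Cfsg.Agent.Lib.Helper75.extendByZero_not_mem A lam hw, zero_mul]

/-- Let P be an extraspecial p-group of order p ^ (2 * n + 1), A an abelian subgroup of order p ^ (n + 1), and λ a character of A of degree 1 that is not identically 1 on the elements of A lying in the centre of P. Then the function induced from λ to P is an irreducible character of P and vanishes at every element outside the centre. -/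
theorem result {P : Type*} [Group P] [Fintype P] (p n : ℕ) [Fact p.Prime] (hP : Cfsg.IsExtraspecial p P) (hcard : Nat.card P = p ^ (2 * n + 1)) (A : Subgroup P) (hab : ∀ a ∈ A, ∀ b ∈ A, a * b = b * a) (hA : Nat.card A = p ^ (n + 1)) (lam : A → ℂ) (hlam : Cfsg.IsCharacter A lam ∧ lam 1 = 1) (hZ : ∃ a : A, (a : P) ∈ Subgroup.center P ∧ lam a ≠ 1) : Cfsg.IsIrrCharacter P (Cfsg.indFun A lam) ∧ ∀ x : P, x ∉ Subgroup.center P → Cfsg.indFun A lam x = 0 := by
  classical
  have hp : p.Prime := Fact.out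
  obtain ⟨⟨hpg, hfr, hcomm⟩, hZp⟩ := hP
  obtain ⟨hch, h1⟩ := hlam
  have hmul : ∀ a b : A, lam (a * b) = lam a * lam b := linChar_mul hch h1
  obtain ⟨a₀, ha₀Z, ha₀⟩ := hZ
  have ha₀1 : a₀ ≠ 1 := fun h => ha₀ (h ▸ h1)
  -- every nontrivial central element generates the centre
  have hgen : ∀ z : P, z ∈ Subgroup.center P → z ≠ 1 → ∀ w ∈ Subgroup.center P,
      w ∈ Subgroup.zpowers z := by
    intro z hz hz1 w hw
    have hz1' : (⟨z, hz⟩ : Subgroup.center P) ≠ 1 := fun h => hz1 (congrArg Subtype.val h)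
    have htop := zpowers_eq_top_of_prime_card hZp hz1'
    have hmem : (⟨w, hw⟩ : Subgroup.center P) ∈ Subgroup.zpowers (⟨z, hz⟩ : Subgroup.center P) := by
      rw [htop]; trivial
    obtain ⟨k, hk⟩ := Subgroup.mem_zpowers_iff.mp hmem
    refine Subgroup.mem_zpowers_iff.mpr ⟨k, ?_⟩
    have := congrArg Subtype.val hk
    simpa using this
  have ha₀1' : (a₀ : P) ≠ 1 := fun h => ha₀1 (Subtype.ext h)
  have hZA : ∀ z ∈ Subgroup.center P, z ∈ A := by
    intro z hz
    have := hgen (a₀ : P) ha₀Z ha₀1' z hz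
    exact (Subgroup.zpowers_le.mpr a₀.2) this
  -- lam is nontrivial at every nontrivial central element
  have hlamZ : ∀ z : P, ∀ hz : z ∈ Subgroup.center P, z ≠ 1 → lam ⟨z, hZA z hz⟩ ≠ 1 := by
    intro z hz hz1 hl
    have := hgen z hz hz1 (a₀ : P) ha₀Z
    obtain ⟨k, hk⟩ := Subgroup.mem_zpowers_iff.mp this
    have hk' : (⟨z, hZA z hz⟩ : A) ^ k = a₀ := Subtype.ext (by simpa using hk)
    have hf : linCharHom hch h1 ⟨z, hZA z hz⟩ = 1 := by
      apply Units.ext
      rw [linCharHom_apply]
      simpa using hl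
    have : linCharHom hch h1 a₀ = 1 := by
      rw [← hk', map_zpow, hf, one_zpow]
    apply ha₀
    have h2 := congrArg (fun u : ℂˣ => (u : ℂ)) this
    simpa [linCharHom_apply] using h2
  have hcf := Cfsg.Agent.Lib.Helper75.indFun_isClassFunction A lam
  -- translation by central elements
  have htrans : ∀ (x z : P) (hz : z ∈ Subgroup.center P),
      Cfsg.indFun A lam (x * z) = Cfsg.indFun A lam x * lam ⟨z, hZA z hz⟩ := by
    intro x z hz
    unfold Cfsg.indFun
    rw [mul_assoc, Finset.sum_mul]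
    congr 1
    refine Finset.sum_congr rfl fun t _ => ?_
    rw [← ext_mul A lam hmul _ z (hZA z hz)]
    congr 1
    have hzc : z * t = t * z := (Subgroup.mem_center_iff.mp hz t).symm
    simp only [mul_assoc]
    rw [hzc]
  have hvanish : ∀ x : P, x ∉ Subgroup.center P → Cfsg.indFun A lam x = 0 := by
    intro x hx
    have : ∃ y : P, y * x ≠ x * y := by
      by_contra hcon
      exact hx (Subgroup.mem_center_iff.mpr fun g => not_not.mp fun h => hcon ⟨g, h⟩)
    obtain ⟨y, hy⟩ := this
    set z : P := ⁅x⁻¹, y⁻¹⁆ with hzdef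
    have hzZ : z ∈ Subgroup.center P := by
      rw [← hcomm, commutator_def]
      exact Subgroup.commutator_mem_commutator (Subgroup.mem_top _) (Subgroup.mem_top _)
    have hz1 : z ≠ 1 := by
      intro h
      rw [hzdef, commutatorElement_eq_one_iff_mul_comm] at h
      apply hy
      have h2 : (x⁻¹ * y⁻¹)⁻¹ = (y⁻¹ * x⁻¹)⁻¹ := by rw [h]
      simpa [mul_inv_rev] using h2
    have hconj : y⁻¹ * x * y⁻¹⁻¹ = x * z := by
      rw [hzdef, commutatorElement_def]; group
    have e1 : Cfsg.indFun A lam (x * z) = Cfsg.indFun A lam x := by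
      rw [← hconj]; exact hcf x y⁻¹
    rw [htrans x z hzZ] at e1
    have hne := hlamZ z hzZ hz1
    have : Cfsg.indFun A lam x * (lam ⟨z, hZA z hzZ⟩ - 1) = 0 := by
      rw [mul_sub, e1, mul_one, sub_self]
    rcases mul_eq_zero.mp this with h | h
    · exact h
    · exact absurd (sub_eq_zero.mp h) hne
  refine ⟨?_, hvanish⟩
  -- values on the centre
  have hcardA : (Nat.card A : ℂ) = (p : ℂ) ^ (n + 1) := by rw [hA]; push_cast; rfl
  have hcardP : (Nat.card P : ℂ) = (p : ℂ) ^ (2 * n + 1) := by rw [hcard]; push_cast; rfl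
  have hp0 : (p : ℂ) ≠ 0 := Nat.cast_ne_zero.mpr hp.ne_zero
  have hcentre : ∀ (z : P) (hz : z ∈ Subgroup.center P),
      Cfsg.indFun A lam z = (p : ℂ) ^ n * lam ⟨z, hZA z hz⟩ := by
    intro z hz
    unfold Cfsg.indFun
    have : ∀ t : P, Cfsg.extendByZero A lam (t⁻¹ * z * t) = lam ⟨z, hZA z hz⟩ := by
      intro t
      have hzc : z * t = t * z := (Subgroup.mem_center_iff.mp hz t).symm
      have : t⁻¹ * z * t = z := by rw [mul_assoc, hzc, inv_mul_cancel_left]
      rw [this, Cfsg.Agent.Lib.Helper75.extendByZero_mem A lam (hZA z hz)]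
    rw [Finset.sum_congr rfl (fun t _ => this t), Finset.sum_const, Finset.card_univ,
      ← Nat.card_eq_fintype_card, nsmul_eq_mul, hcardP, hcardA]
    rw [← mul_assoc]
    congr 1
    have hpn : (p : ℂ) ^ (n + 1) ≠ 0 := pow_ne_zero _ hp0
    have h2n : (p : ℂ) ^ (2 * n + 1) = (p : ℂ) ^ (n + 1) * (p : ℂ) ^ n := by ring
    rw [h2n, ← mul_assoc, inv_mul_cancel₀ hpn, one_mul]
  -- norm of lam on A
  have hnorm : ∀ a : A, lam a * conj (lam a) = 1 := by
    intro a
    have hfin : (linCharHom hch h1 a) ^ (orderOf a) = 1 := by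
      rw [← map_pow, pow_orderOf_eq_one, map_one]
    have h2 : (lam a) ^ (orderOf a) = 1 := by
      have h3 := congrArg (fun u : ℂˣ => (u : ℂ)) hfin
      simpa [linCharHom_apply] using h3
    have hpos : orderOf a ≠ 0 := (orderOf_pos a).ne'
    have hn1 : ‖lam a‖ = 1 := Complex.norm_eq_one_of_pow_eq_one h2 hpos
    rw [Complex.mul_conj, Complex.normSq_eq_norm_sq, hn1]
    norm_num
  have hchar : Cfsg.IsCharacter P (Cfsg.indFun A lam) :=
    Cfsg.Agent.Lib.Helper75.isCharacter_indFun A hch
  have : Fintype (Cfsg.IrrCharacter P) := Fintype.ofFinite _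
  apply Cfsg.Agent.Lib.Helper75.isIrrCharacter_of_classInner_self hchar
  unfold Cfsg.classInner
  have hterm : ∀ g : P, Cfsg.indFun A lam g * conj (Cfsg.indFun A lam g) =
      if g ∈ Subgroup.center P then ((p : ℂ) ^ n) ^ 2 else 0 := by
    intro g
    by_cases hg : g ∈ Subgroup.center P
    · rw [if_pos hg, hcentre g hg, map_mul, map_pow, Complex.conj_natCast]
      have := hnorm ⟨g, hZA g hg⟩
      linear_combination ((p : ℂ) ^ n) ^ 2 * this
    · rw [if_neg hg, hvanish g hg, zero_mul]
  rw [Finset.sum_congr rfl (fun g _ => hterm g), Finset.sum_ite, Finset.sum_const_zero, add_zero,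
    Finset.sum_const, nsmul_eq_mul, hcardP]
  have hcardZ : (Finset.univ.filter (fun g : P => g ∈ Subgroup.center P)).card = p := by
    rw [← hZp, Nat.card_eq_fintype_card, Fintype.card_subtype]
  rw [hcardZ, show 2 * n + 1 = n + n + 1 by ring, pow_succ, pow_add]
  field_simp

end Cfsg.Agent.S0893
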