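-- Statement S0895: a real irreducible character of odd degree has Frobenius-Schur indicator one.
import Mathlib
import Cfsg.Statements.S0895
import Cfsg.Agent.Lib.Helper74.FrobSchur

set_option autoImplicit false
open scoped Matrix
open Cfsg

namespace Cfsg.Agent.S0895

open Cfsg.Agent.Lib.Helper74

/-- Let χ be a real-valued irreducible character of a finite group G whose degree is an odd natural number. Then the average over s in G of χ (s * s) equals 1. -/
theorem result {G : Type*} [Group G] [Fintype G] (χ : G → ℂ) (hχ : Cfsg.IsIrrCharacter G χ) (hreal : ∀ g : G, (χ g).im = 0) (d : ℕ) (hd : χ 1 = d) (hodd : Odd d) : (Nat.card G : ℂ)⁻¹ * ∑ s : G, χ (s * s) = 1 := by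
  classical
  obtain ⟨n, ρ, hirr, rfl⟩ := hχ
  have := hirr
  have hnd : n = d := by
    rw [Representation.char_one, Module.finrank_fin_fun] at hd
    exact_mod_cast hd
  obtain ⟨hfr, htr, hν⟩ := fs_real ρ (Pi.basisFun ℂ (Fin n)) hreal
  rcases hν with h | h
  · exact h
  · exfalso
    obtain ⟨M₀, hM₀ne, -⟩ := finrank_eq_one_iff'.1 hfr
    have hM0 : (M₀ : Matrix (Fin n) (Fin n) ℂ) ≠ 0 := fun h0 => hM₀ne (Subtype.ext h0)
    have hu := isUnit_of_mem_invForms ρ (Pi.basisFun ℂ (Fin n)) _ M₀.2 hM0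
    have hdet : IsUnit (M₀ : Matrix (Fin n) (Fin n) ℂ).det :=
      (Matrix.isUnit_iff_isUnit_det _).1 hu
    have h1 := htr _ M₀.2
    rw [h, neg_one_smul] at h1
    have h2 := congrArg Matrix.det h1
    rw [Matrix.det_transpose, Matrix.det_neg, Fintype.card_fin] at h2
    have h3 : ((-1 : ℂ)) ^ n = 1 := by
      have hne : (M₀ : Matrix (Fin n) (Fin n) ℂ).det ≠ 0 := hdet.ne_zero
      have h4 : ((-1 : ℂ) ^ n - 1) * (M₀ : Matrix (Fin n) (Fin n) ℂ).det = 0 := by
        rw [sub_mul, one_mul, ← h2, sub_self]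
      rcases mul_eq_zero.1 h4 with h5 | h5
      · exact sub_eq_zero.1 h5
      · exact absurd h5 hne
    rw [hnd, Odd.neg_one_pow hodd] at h3
    norm_num at h3

end Cfsg.Agent.S0895
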