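import Cfsg.Statements.S0896
import Cfsg.Agent.Lib.Helper15.BrauerLocal
import Cfsg.Agent.Lib.Helper15.OrbitSum
import Cfsg.Agent.Lib.Helper3.IndFun
import Cfsg.Agent.Lib.Helper3.CharValues
import Cfsg.Agent.Lib.Helper80.CharOps

set_option autoImplicit false
open scoped ComplexConjugate
open Cfsg

namespace Cfsg.Agent.S0896

open Cfsg.Agent.Lib.Helper15 Cfsg.Agent.Lib.Helper3

universe u

section Aux

variable {G : Type u} [Group G] [Fintype G] (N : Subgroup G) [hN : N.Normal]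

/-- Mackey-type formula: the weighted sum over `N` of an induced function. -/
theorem mackey_sum (ϑ : N → ℂ)
    (hinv : ∀ (g : G) (n : N), ϑ ⟨g * n * g⁻¹, hN.conj_mem (n : G) n.2 g⟩ = ϑ n)
    (E : Subgroup G) (φ : E → ℂ) [Fintype N] [Fintype ↥(E ⊓ N)] :
    ∑ n : N, ϑ n * conj (ϑ n) * Cfsg.indFun E φ (n : G) =
      (Nat.card G : ℂ) * (Nat.card E : ℂ)⁻¹ *
        ∑ y : ↥(E ⊓ N), ϑ ⟨y, y.2.2⟩ * conj (ϑ ⟨y, y.2.2⟩) * φ ⟨y, y.2.1⟩ := by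
  classical
  unfold Cfsg.indFun
  have h1 : ∀ n : N, ϑ n * conj (ϑ n) *
      ((Nat.card E : ℂ)⁻¹ * ∑ x : G, Cfsg.extendByZero E φ (x⁻¹ * (n : G) * x)) =
      (Nat.card E : ℂ)⁻¹ * ∑ x : G, ϑ n * conj (ϑ n) * Cfsg.extendByZero E φ (x⁻¹ * (n : G) * x) := by
    intro n
    rw [← Finset.mul_sum]
    ring
  rw [Finset.sum_congr rfl (fun n _ => h1 n), ← Finset.mul_sum, Finset.sum_comm]
  have h2 : ∀ x : G, ∑ n : N, ϑ n * conj (ϑ n) * Cfsg.extendByZero E φ (x⁻¹ * (n : G) * x) =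
      ∑ n : N, ϑ n * conj (ϑ n) * Cfsg.extendByZero E φ (n : G) := by
    intro x
    let σ : N ≃ N := (MulAut.conjNormal (x⁻¹) : MulAut N).toEquiv
    have hσ : ∀ n : N, ((σ n : N) : G) = x⁻¹ * n * x := by
      intro n
      simp [σ]
    rw [← Equiv.sum_comp σ (fun n => ϑ n * conj (ϑ n) * Cfsg.extendByZero E φ (n : G))]
    refine Finset.sum_congr rfl fun n _ => ?_
    have hϑ : ϑ (σ n) = ϑ n := by
      have h3 := hinv x⁻¹ n
      have h4 : σ n = ⟨x⁻¹ * n * x⁻¹⁻¹, hN.conj_mem (n : G) n.2 x⁻¹⟩ := by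
        apply Subtype.ext
        rw [hσ]
        simp
      rw [h4, h3]
    rw [hϑ, hσ]
  rw [Finset.sum_congr rfl (fun x _ => h2 x), Finset.sum_const, Finset.card_univ, nsmul_eq_mul]
  have h3 : ∑ y : ↥(E ⊓ N), ϑ ⟨y, y.2.2⟩ * conj (ϑ ⟨y, y.2.2⟩) * φ ⟨y, y.2.1⟩ =
      ∑ n : N, ϑ n * conj (ϑ n) * Cfsg.extendByZero E φ (n : G) := by
    apply Fintype.sum_of_injective (fun y : ↥(E ⊓ N) => (⟨y, y.2.2⟩ : N))
    · intro a b hab
      apply Subtype.ext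
      exact congrArg (fun z : N => (z : G)) hab
    · intro n hn
      have hnE : (n : G) ∉ E := by
        intro h
        exact hn ⟨⟨n, ⟨h, n.2⟩⟩, rfl⟩
      rw [extendByZero_of_not_mem E φ hnE, mul_zero]
    · intro y
      rw [extendByZero_of_mem E φ y.2.1]
  rw [h3, Nat.card_eq_fintype_card (α := G)]
  ring

omit [Fintype G] in
/-- The index identity `|G| * |E ⊓ N| = |G : E ⊔ N| * |E| * |N|`. -/
theorem card_mul_card_inf [Finite G] (E : Subgroup G) :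
    Nat.card G * Nat.card ↥(E ⊓ N) = (E ⊔ N).index * Nat.card E * Nat.card N := by
  have h1 : N.relIndex (E ⊔ N) * (E ⊔ N).index = N.index :=
    Subgroup.relIndex_mul_index le_sup_right
  have h2 : N.relIndex (E ⊔ N) = N.relIndex E := Subgroup.relIndex_sup_right E N
  have h3 : (⊥ : Subgroup G).relIndex (E ⊓ N) * (E ⊓ N).relIndex E = (⊥ : Subgroup G).relIndex E :=
    Subgroup.relIndex_mul_relIndex _ _ _ bot_le inf_le_left
  rw [Subgroup.relIndex_bot_left, Subgroup.relIndex_bot_left] at h3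
  have h4 : (E ⊓ N).relIndex E = N.relIndex E := by
    rw [inf_comm]; exact Subgroup.inf_relIndex_right N E
  have h5 : Nat.card N * N.index = Nat.card G := Subgroup.card_mul_index N
  rw [← h5, ← h1, h2, ← h3, h4]
  ring

end Aux

section Good

variable {G : Type u} [Group G] [Fintype G] (N : Subgroup G) [hN : N.Normal]

/-- From an elementary subgroup whose associated inner product is prime to `p`, extract an
invariant irreducible constituent of multiplicity prime to `p`. -/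
theorem of_good {p : ℕ} (hp : p.Prime) (hind : ∃ k : ℕ, N.index = p ^ k) (ϑ : N → ℂ)
    (hϑ : Cfsg.IsIrrCharacter N ϑ)
    (hinv : ∀ (g : G) (n : N), ϑ ⟨g * n * g⁻¹, hN.conj_mem (n : G) n.2 g⟩ = ϑ n)
    (E : Subgroup G) (φ : E → ℂ) (hφ : Cfsg.IsCharacter E φ) [Fintype ↥(E ⊓ N)]
    (a : ℕ)
    (ha : Cfsg.classInner ((fun y : ↥(E ⊓ N) => ϑ ⟨y, y.2.2⟩) * (fun y : ↥(E ⊓ N) => φ ⟨y, y.2.1⟩))
      (fun y : ↥(E ⊓ N) => ϑ ⟨y, y.2.2⟩) = a) (hpa : ¬ p ∣ a) :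
    ∃ ξ : Cfsg.IrrCharacter ↥(E ⊓ N),
      (∀ (g : G) (hg : g ∈ E) (x : ↥(E ⊓ N)),
        (ξ : ↥(E ⊓ N) → ℂ) ⟨g * x * g⁻¹, ⟨(E.mul_mem (E.mul_mem hg x.2.1) (E.inv_mem hg)),
          hN.conj_mem (x : G) x.2.2 g⟩⟩ = (ξ : ↥(E ⊓ N) → ℂ) x) ∧
      ∃ m : ℕ, ¬ p ∣ m ∧
        Cfsg.classInner (fun y : ↥(E ⊓ N) => ϑ ⟨y, y.2.2⟩) (ξ : ↥(E ⊓ N) → ℂ) = m := by
  classical
  have := Fintype.ofFinite (Cfsg.IrrCharacter ↥(E ⊓ N))
  let ϑD : ↥(E ⊓ N) → ℂ := fun y => ϑ ⟨y, y.2.2⟩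
  let φD : ↥(E ⊓ N) → ℂ := fun y => φ ⟨y, y.2.1⟩
  have hϑD : Cfsg.IsCharacter ↥(E ⊓ N) ϑD :=
    Cfsg.Agent.Lib.Helper80.isCharacter_comp (Subgroup.inclusion (inf_le_right : E ⊓ N ≤ N))
      (isCharacter_of_irr hϑ)
  have hφD : Cfsg.IsCharacter ↥(E ⊓ N) φD :=
    Cfsg.Agent.Lib.Helper80.isCharacter_comp (Subgroup.inclusion (inf_le_left : E ⊓ N ≤ E)) hφ
  have hprod : Cfsg.IsCharacter ↥(E ⊓ N) (ϑD * φD) :=
    Cfsg.Agent.Lib.Helper80.isCharacter_mul hϑD hφD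
  obtain ⟨b, hb, hexp⟩ := Cfsg.Agent.Lib.Helper80.character_expansion hϑD
  choose d hd using fun ξ : Cfsg.IrrCharacter ↥(E ⊓ N) =>
    Cfsg.Agent.Lib.Helper80.classInner_nat hprod (isCharacter_of_irr ξ.2)
  have hsum : (a : ℤ) = ∑ ξ : Cfsg.IrrCharacter ↥(E ⊓ N), (b ξ : ℤ) * (d ξ : ℤ) := by
    have h1 : Cfsg.classInner (ϑD * φD) ϑD =
        ∑ ξ : Cfsg.IrrCharacter ↥(E ⊓ N), (b ξ : ℂ) * (d ξ : ℂ) := by
      have h0 : Cfsg.classInner (ϑD * φD) ϑD = Cfsg.classInner (ϑD * φD)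
          (∑ ξ : Cfsg.IrrCharacter ↥(E ⊓ N), (b ξ : ℂ) • (ξ : ↥(E ⊓ N) → ℂ)) :=
        congrArg _ hexp
      rw [h0, Cfsg.Agent.Lib.Helper80.classInner_sum_right]
      refine Finset.sum_congr rfl fun ξ _ => ?_
      rw [Cfsg.Agent.Lib.Helper80.classInner_smul_right, Complex.conj_natCast, hd]
    have h2 : ((a : ℤ) : ℂ) =
        ((∑ ξ : Cfsg.IrrCharacter ↥(E ⊓ N), (b ξ : ℤ) * (d ξ : ℤ) : ℤ) : ℂ) := by
      push_cast
      rw [← h1]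
      exact ha.symm
    exact_mod_cast h2
  have hn : ∀ g ∈ E, ∀ x ∈ E ⊓ N, g * x * g⁻¹ ∈ E ⊓ N := fun g hg x hx =>
    ⟨E.mul_mem (E.mul_mem hg hx.1) (E.inv_mem hg), hN.conj_mem x hx.2 g⟩
  let _ : MulAction E (Cfsg.IrrCharacter ↥(E ⊓ N)) := irrConjAction (E ⊓ N) E hn
  have hcoe : ∀ (g : E) (x : ↥(E ⊓ N)),
      (((conjAut (E ⊓ N) E hn g)⁻¹ x : ↥(E ⊓ N)) : G) = (g : G)⁻¹ * x * g := by
    intro g x
    have h0 : (conjAut (E ⊓ N) E hn g)⁻¹ = conjAut (E ⊓ N) E hn g⁻¹ := (map_inv _ g).symm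
    rw [h0, conjAut_apply]
    simp
  have hϑinv : ∀ (g : E) (x : ↥(E ⊓ N)), ϑD ((conjAut (E ⊓ N) E hn g)⁻¹ x) = ϑD x := by
    intro g x
    have h1 := hinv ((g : G)⁻¹) ⟨x, x.2.2⟩
    have h2 : (⟨(((conjAut (E ⊓ N) E hn g)⁻¹ x : ↥(E ⊓ N)) : G),
        ((conjAut (E ⊓ N) E hn g)⁻¹ x).2.2⟩ : N) =
        ⟨(g : G)⁻¹ * x * (g : G)⁻¹⁻¹, hN.conj_mem (x : G) x.2.2 (g : G)⁻¹⟩ := by
      apply Subtype.ext
      rw [hcoe]
      simp
    show ϑ ⟨(((conjAut (E ⊓ N) E hn g)⁻¹ x : ↥(E ⊓ N)) : G), _⟩ = ϑ ⟨x, x.2.2⟩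
    rw [h2, h1]
  have hφinv : ∀ (g : E) (x : ↥(E ⊓ N)), φD ((conjAut (E ⊓ N) E hn g)⁻¹ x) = φD x := by
    intro g x
    have h1 := isClassFunction_of_isCharacter hφ ⟨x, x.2.1⟩ g⁻¹
    have h2 : (⟨(((conjAut (E ⊓ N) E hn g)⁻¹ x : ↥(E ⊓ N)) : G),
        ((conjAut (E ⊓ N) E hn g)⁻¹ x).2.1⟩ : E) = g⁻¹ * ⟨x, x.2.1⟩ * g⁻¹⁻¹ := by
      apply Subtype.ext
      rw [hcoe]
      simp
    show φ ⟨(((conjAut (E ⊓ N) E hn g)⁻¹ x : ↥(E ⊓ N)) : G), _⟩ = φ ⟨x, x.2.1⟩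
    rw [h2, h1]
  have hbinv : ∀ (g : E) (ξ : Cfsg.IrrCharacter ↥(E ⊓ N)), b (g • ξ) = b ξ := by
    intro g ξ
    have h1 : Cfsg.classInner ϑD ((g • ξ : Cfsg.IrrCharacter ↥(E ⊓ N)) : ↥(E ⊓ N) → ℂ) =
        Cfsg.classInner ϑD (ξ : ↥(E ⊓ N) → ℂ) := by
      have h2 := classInner_comp_equiv ((conjAut (E ⊓ N) E hn g)⁻¹ : ↥(E ⊓ N) ≃* ↥(E ⊓ N)).toEquiv
        ϑD (ξ : ↥(E ⊓ N) → ℂ)
      rw [← h2]
      congr 1
      funext x
      exact (hϑinv g x).symm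
    rw [hb, hb] at h1
    exact_mod_cast h1
  have hdinv : ∀ (g : E) (ξ : Cfsg.IrrCharacter ↥(E ⊓ N)), d (g • ξ) = d ξ := by
    intro g ξ
    have h1 : Cfsg.classInner (ϑD * φD) ((g • ξ : Cfsg.IrrCharacter ↥(E ⊓ N)) : ↥(E ⊓ N) → ℂ) =
        Cfsg.classInner (ϑD * φD) (ξ : ↥(E ⊓ N) → ℂ) := by
      have h2 := classInner_comp_equiv ((conjAut (E ⊓ N) E hn g)⁻¹ : ↥(E ⊓ N) ≃* ↥(E ⊓ N)).toEquiv
        (ϑD * φD) (ξ : ↥(E ⊓ N) → ℂ)
      rw [← h2]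
      congr 1
      funext x
      show ϑD x * φD x = ϑD ((conjAut (E ⊓ N) E hn g)⁻¹ x) * φD ((conjAut (E ⊓ N) E hn g)⁻¹ x)
      rw [hϑinv, hφinv]
    rw [hd, hd] at h1
    exact_mod_cast h1
  have hstab : ∀ ξ : Cfsg.IrrCharacter ↥(E ⊓ N),
      ∃ j : ℕ, (MulAction.stabilizer E ξ).index = p ^ j := by
    intro ξ
    obtain ⟨k, hk⟩ := hind
    have hle : N.subgroupOf E ≤ MulAction.stabilizer E ξ := by
      intro g hg
      rw [MulAction.mem_stabilizer_iff]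
      apply Subtype.ext
      funext x
      show (ξ : ↥(E ⊓ N) → ℂ) ((conjAut (E ⊓ N) E hn g)⁻¹ x) = (ξ : ↥(E ⊓ N) → ℂ) x
      have hgD : (g : G) ∈ E ⊓ N := ⟨g.2, Subgroup.mem_subgroupOf.mp hg⟩
      have h1 : (conjAut (E ⊓ N) E hn g)⁻¹ x =
          (⟨g, hgD⟩ : ↥(E ⊓ N))⁻¹ * x * (⟨g, hgD⟩ : ↥(E ⊓ N))⁻¹⁻¹ := by
        apply Subtype.ext
        rw [hcoe]
        simp
      rw [h1]
      exact isClassFunction_of_isCharacter (isCharacter_of_irr ξ.2) x _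
    have h1 : (MulAction.stabilizer E ξ).index ∣ (N.subgroupOf E).index :=
      Subgroup.index_dvd_of_le hle
    have h2 : (N.subgroupOf E).index ∣ N.index := Subgroup.relIndex_dvd_index_of_normal N E
    rw [hk] at h2
    obtain ⟨j, -, hj⟩ := (Nat.dvd_prime_pow hp).mp (h1.trans h2)
    exact ⟨j, hj⟩
  by_contra hcon
  push Not at hcon
  apply hpa
  have hdvd : (p : ℤ) ∣ ∑ ξ : Cfsg.IrrCharacter ↥(E ⊓ N), (b ξ : ℤ) * (d ξ : ℤ) := by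
    apply dvd_sum_of_fixed hstab (fun ξ => (b ξ : ℤ) * (d ξ : ℤ))
    · intro g ξ
      show (b (g • ξ) : ℤ) * (d (g • ξ) : ℤ) = (b ξ : ℤ) * (d ξ : ℤ)
      rw [hbinv, hdinv]
    · intro ξ hfix
      by_contra hnd
      have hpb : ¬ p ∣ b ξ := fun h => hnd (Dvd.dvd.mul_right (by exact_mod_cast h) _)
      refine hcon ξ ?_ (b ξ) hpb (hb ξ)
      intro g hg x
      have h1 := hfix ((⟨g, hg⟩ : E)⁻¹)
      have h2 := congrArg (fun η : Cfsg.IrrCharacter ↥(E ⊓ N) => (η : ↥(E ⊓ N) → ℂ) x) h1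
      have h3 : (conjAut (E ⊓ N) E hn ((⟨g, hg⟩ : E)⁻¹))⁻¹ x =
          ⟨g * x * g⁻¹, ⟨(E.mul_mem (E.mul_mem hg x.2.1) (E.inv_mem hg)),
            hN.conj_mem (x : G) x.2.2 g⟩⟩ := by
        apply Subtype.ext
        rw [hcoe]
        simp
      rw [← h3]
      exact h2
  rw [← hsum] at hdvd
  exact_mod_cast hdvd

end Good

/-- Let N be a normal subgroup of the finite group G with the index of N a power of the prime p, and ϑ an irreducible character of N invariant under conjugation by G. Then there are a p-elementary subgroup E of G with E ⊔ N = ⊤ and an irreducible character φ of the subgroup E ⊓ N, invariant under conjugation by E, such that the inner product of the restriction of ϑ to E ⊓ N with φ is an integer not divisible by p. -/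
theorem result {G : Type*} [Group G] [Fintype G] (p : ℕ) (hp : p.Prime) (N : Subgroup G) [hN : N.Normal] (hind : ∃ k : ℕ, N.index = p ^ k) (ϑ : N → ℂ) (hϑ : Cfsg.IsIrrCharacter N ϑ) (hinv : ∀ (g : G) (n : N), ϑ ⟨g * n * g⁻¹, hN.conj_mem (n : G) n.2 g⟩ = ϑ n) : ∃ (E : Subgroup G) (φ : ↥(E ⊓ N) → ℂ), Cfsg.IsElementary p E ∧ E ⊔ N = ⊤ ∧ Cfsg.IsIrrCharacter ↥(E ⊓ N) φ ∧ (∀ (g : G) (hg : g ∈ E) (x : ↥(E ⊓ N)), φ ⟨g * x * g⁻¹, ⟨(E.mul_mem (E.mul_mem hg x.2.1) (E.inv_mem hg)), hN.conj_mem (x : G) x.2.2 g⟩⟩ = φ x) ∧ ∃ m : ℕ, ¬ p ∣ m ∧ (Nat.card ↥(E ⊓ N) : ℂ)⁻¹ * ∑ᶠ x : ↥(E ⊓ N), ϑ ⟨(x : G), x.2.2⟩ * conj (φ x) = (m : ℂ) := by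
  classical
  have := Fintype.ofFinite N
  obtain ⟨m₀, hm₀, hmem⟩ := exists_const_mem_indSpan_elementary (G := G) hp
  obtain ⟨l, hl, hsum⟩ := exists_list_of_mem_indSpan hmem
  let Λ : (G → ℂ) →ₗ[ℂ] ℂ :=
    { toFun := fun f => ∑ n : N, ϑ n * conj (ϑ n) * f (n : G)
      map_add' := fun f g => by
        simp only [Pi.add_apply, mul_add, Finset.sum_add_distrib]
      map_smul' := fun c f => by
        simp only [Pi.smul_apply, smul_eq_mul, RingHom.id_apply, Finset.mul_sum]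
        refine Finset.sum_congr rfl fun n _ => by ring }
  have hΛ : ∀ f : G → ℂ, Λ f = ∑ n : N, ϑ n * conj (ϑ n) * f (n : G) := fun f => rfl
  have hN0 : (Nat.card N : ℂ) ≠ 0 := by
    exact_mod_cast (Nat.card_pos (α := N)).ne'
  have hΛconst : Λ (fun _ => (m₀ : ℂ)) = (Nat.card N : ℂ) * m₀ := by
    rw [hΛ, ← Finset.sum_mul]
    have h1 := classInner_irr_self hϑ
    unfold Cfsg.classInner at h1
    have h2 : ∑ n : N, ϑ n * conj (ϑ n) = (Nat.card N : ℂ) := by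
      field_simp at h1
      exact h1
    rw [h2]
  let Good : ((E : Subgroup G) × ((E → ℂ) × ℤ)) → Prop := fun t =>
    t.1 ⊔ N = ⊤ ∧ ∃ a : ℕ,
      Cfsg.classInner ((fun y : ↥(t.1 ⊓ N) => ϑ ⟨y, y.2.2⟩) *
        (fun y : ↥(t.1 ⊓ N) => t.2.1 ⟨y, y.2.1⟩)) (fun y : ↥(t.1 ⊓ N) => ϑ ⟨y, y.2.2⟩) = a ∧
      ¬ p ∣ a
  have hterm : ∀ t ∈ l, ∃ z : ℤ, Λ ((t.2.2 : ℂ) • Cfsg.indFun t.1 t.2.1) = (Nat.card N : ℂ) * z ∧
      (¬ Good t → (p : ℤ) ∣ z) := by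
    intro t ht
    obtain ⟨hel, hch⟩ := hl t ht
    have hϑD : Cfsg.IsCharacter ↥(t.1 ⊓ N) (fun y : ↥(t.1 ⊓ N) => ϑ ⟨y, y.2.2⟩) :=
      Cfsg.Agent.Lib.Helper80.isCharacter_comp
        (Subgroup.inclusion (inf_le_right : t.1 ⊓ N ≤ N)) (isCharacter_of_irr hϑ)
    have hφD : Cfsg.IsCharacter ↥(t.1 ⊓ N) (fun y : ↥(t.1 ⊓ N) => t.2.1 ⟨y, y.2.1⟩) :=
      Cfsg.Agent.Lib.Helper80.isCharacter_comp
        (Subgroup.inclusion (inf_le_left : t.1 ⊓ N ≤ t.1)) hch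
    have hprod := Cfsg.Agent.Lib.Helper80.isCharacter_mul hϑD hφD
    obtain ⟨a, ha⟩ := Cfsg.Agent.Lib.Helper80.classInner_nat hprod hϑD
    refine ⟨t.2.2 * ((t.1 ⊔ N).index : ℤ) * a, ?_, ?_⟩
    · rw [map_smul, smul_eq_mul, hΛ, mackey_sum N ϑ hinv t.1 t.2.1]
      have hD0 : (Nat.card ↥(t.1 ⊓ N) : ℂ) ≠ 0 := by
        exact_mod_cast (Nat.card_pos (α := ↥(t.1 ⊓ N))).ne'
      have hE0 : (Nat.card t.1 : ℂ) ≠ 0 := by
        exact_mod_cast (Nat.card_pos (α := t.1)).ne'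
      have h1 : ∑ y : ↥(t.1 ⊓ N), ϑ ⟨y, y.2.2⟩ * conj (ϑ ⟨y, y.2.2⟩) * t.2.1 ⟨y, y.2.1⟩ =
          (Nat.card ↥(t.1 ⊓ N) : ℂ) * a := by
        rw [← ha]
        unfold Cfsg.classInner
        rw [← mul_assoc, mul_inv_cancel₀ hD0, one_mul]
        refine Finset.sum_congr rfl fun y _ => ?_
        simp only [Pi.mul_apply]
        ring
      rw [h1]
      have h2 := card_mul_card_inf N t.1
      have h2' : (Nat.card G : ℂ) * (Nat.card ↥(t.1 ⊓ N) : ℂ) =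
          ((t.1 ⊔ N).index : ℂ) * (Nat.card t.1 : ℂ) * (Nat.card N : ℂ) := by
        exact_mod_cast h2
      push_cast
      field_simp
      linear_combination (t.2.2 : ℂ) * (a : ℂ) * h2'
    · intro hng
      by_cases htop : t.1 ⊔ N = ⊤
      · have hpa : p ∣ a := by
          by_contra h
          exact hng ⟨htop, a, ha, h⟩
        exact Dvd.dvd.mul_left (by exact_mod_cast hpa) _
      · have hidx : p ∣ (t.1 ⊔ N).index := by
          obtain ⟨k, hk⟩ := hind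
          have h1 : (t.1 ⊔ N).index ∣ p ^ k := by
            rw [← hk]
            exact Subgroup.index_dvd_of_le le_sup_right
          obtain ⟨j, -, hj⟩ := (Nat.dvd_prime_pow hp).mp h1
          rcases Nat.eq_zero_or_pos j with rfl | hjpos
          · exact absurd (Subgroup.index_eq_one.mp (by rw [hj, pow_zero])) htop
          · rw [hj]
            exact dvd_pow_self p hjpos.ne'
        exact Dvd.dvd.mul_right (Dvd.dvd.mul_left (by exact_mod_cast hidx) _) _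
  have hlist : ∀ l' : List ((E : Subgroup G) × ((E → ℂ) × ℤ)),
      (∀ t ∈ l', ∃ z : ℤ, Λ ((t.2.2 : ℂ) • Cfsg.indFun t.1 t.2.1) = (Nat.card N : ℂ) * z ∧
        (¬ Good t → (p : ℤ) ∣ z)) →
      ∃ Z : ℤ, Λ ((l'.map fun t => (t.2.2 : ℂ) • Cfsg.indFun t.1 t.2.1).sum) =
        (Nat.card N : ℂ) * Z ∧ ((∀ t ∈ l', ¬ Good t) → (p : ℤ) ∣ Z) := by
    intro l'
    induction l' with
    | nil =>
      intro _
      exact ⟨0, by simp, fun _ => dvd_zero _⟩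
    | cons t l' ih =>
      intro h
      obtain ⟨z, hz, hzp⟩ := h t List.mem_cons_self
      obtain ⟨Z, hZ, hZp⟩ := ih (fun t' ht' => h t' (List.mem_cons_of_mem _ ht'))
      refine ⟨z + Z, ?_, ?_⟩
      · rw [List.map_cons, List.sum_cons, map_add, hz, hZ]
        push_cast
        ring
      · intro hall
        exact dvd_add (hzp (hall t List.mem_cons_self))
          (hZp fun t' ht' => hall t' (List.mem_cons_of_mem _ ht'))
  obtain ⟨Z, hZ, hZp⟩ := hlist l hterm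
  have hex : ∃ t ∈ l, Good t := by
    by_contra hcon
    push Not at hcon
    have hdvd := hZp hcon
    apply hm₀
    have h1 : Λ (fun _ => (m₀ : ℂ)) =
        Λ ((l.map fun t => (t.2.2 : ℂ) • Cfsg.indFun t.1 t.2.1).sum) := by rw [hsum]
    rw [hΛconst, hZ] at h1
    have h2 : (m₀ : ℂ) = (Z : ℂ) := mul_left_cancel₀ hN0 h1
    have h3 : m₀ = Z := by exact_mod_cast h2
    rw [h3]
    exact hdvd
  obtain ⟨t, ht, htop, a, ha, hpa⟩ := hex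
  obtain ⟨hel, hch⟩ := hl t ht
  obtain ⟨ξ, hξinv, m, hpm, hm⟩ := of_good N hp hind ϑ hϑ hinv t.1 t.2.1 hch a ha hpa
  refine ⟨t.1, ξ, hel, htop, ξ.2, hξinv, m, hpm, ?_⟩
  rw [finsum_eq_sum_of_fintype]
  exact hm

end Cfsg.Agent.S0896
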