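import Cfsg.Statements.S0897
import Cfsg.Agent.S0896
import Cfsg.Agent.S0887
import Cfsg.Agent.S0174
import Cfsg.Agent.Lib.Helper15.PiParts
import Cfsg.Agent.Lib.Helper15.LinChar
import Cfsg.Agent.Lib.Helper82.AbelianSylow

set_option autoImplicit false
open Cfsg

namespace Cfsg.Agent.S0897

open Cfsg.Agent.Lib.Helper15 Cfsg.Agent.Lib.Helper3
open scoped ComplexConjugate

universe u

section Aux

variable {G : Type u} [Group G] [Fintype G] (N : Subgroup G) [hN : N.Normal]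

/-- Mackey-type formula with an arbitrary invariant weight. -/
theorem mackey_sum_w (w : N → ℂ)
    (hw : ∀ (g : G) (n : N), w ⟨g * n * g⁻¹, hN.conj_mem (n : G) n.2 g⟩ = w n)
    (E : Subgroup G) (φ : E → ℂ) [Fintype N] [Fintype ↥(E ⊓ N)] :
    ∑ n : N, w n * Cfsg.indFun E φ (n : G) =
      (Nat.card G : ℂ) * (Nat.card E : ℂ)⁻¹ * ∑ y : ↥(E ⊓ N), w ⟨y, y.2.2⟩ * φ ⟨y, y.2.1⟩ := by
  classical
  unfold Cfsg.indFun
  have h1 : ∀ n : N, w n *
      ((Nat.card E : ℂ)⁻¹ * ∑ x : G, Cfsg.extendByZero E φ (x⁻¹ * (n : G) * x)) =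
      (Nat.card E : ℂ)⁻¹ * ∑ x : G, w n * Cfsg.extendByZero E φ (x⁻¹ * (n : G) * x) := by
    intro n
    rw [← Finset.mul_sum]
    ring
  rw [Finset.sum_congr rfl (fun n _ => h1 n), ← Finset.mul_sum, Finset.sum_comm]
  have h2 : ∀ x : G, ∑ n : N, w n * Cfsg.extendByZero E φ (x⁻¹ * (n : G) * x) =
      ∑ n : N, w n * Cfsg.extendByZero E φ (n : G) := by
    intro x
    let σ : N ≃ N := (MulAut.conjNormal (x⁻¹) : MulAut N).toEquiv
    have hσ : ∀ n : N, ((σ n : N) : G) = x⁻¹ * n * x := by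
      intro n
      simp [σ]
    rw [← Equiv.sum_comp σ (fun n => w n * Cfsg.extendByZero E φ (n : G))]
    refine Finset.sum_congr rfl fun n _ => ?_
    have hϑ : w (σ n) = w n := by
      have h3 := hw x⁻¹ n
      have h4 : σ n = ⟨x⁻¹ * n * x⁻¹⁻¹, hN.conj_mem (n : G) n.2 x⁻¹⟩ := by
        apply Subtype.ext
        rw [hσ]
        simp
      rw [h4, h3]
    rw [hϑ, hσ]
  rw [Finset.sum_congr rfl (fun x _ => h2 x), Finset.sum_const, Finset.card_univ, nsmul_eq_mul]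
  have h3 : ∑ y : ↥(E ⊓ N), w ⟨y, y.2.2⟩ * φ ⟨y, y.2.1⟩ =
      ∑ n : N, w n * Cfsg.extendByZero E φ (n : G) := by
    apply Fintype.sum_of_injective (fun y : ↥(E ⊓ N) => (⟨y, y.2.2⟩ : N))
    · intro a b hab
      apply Subtype.ext
      exact congrArg (fun z : N => (z : G)) hab
    · intro n hn
      have hnE : (n : G) ∉ E := by
        intro h
        exact hn ⟨⟨n, ⟨h, n.2⟩⟩, rfl⟩
      rw [extendByZero_of_not_mem E φ hnE, mul_zero]
    · intro y
      rw [extendByZero_of_mem E φ y.2.1]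
  rw [h3, Nat.card_eq_fintype_card (α := G)]
  ring

/-- Extension from a local extension: if `E ⊔ N = ⊤`, `ψ` is a character of `E`, the invariant
irreducible character `ϑ` of `N` has inner product prime to `p` with `ψ` on `E ⊓ N`, and the
index of `N` is a power of `p`, then `ϑ` extends to `G`. -/
theorem ext_of_local {p : ℕ} (hp : p.Prime) (hind : ∃ k : ℕ, N.index = p ^ k) (ϑ : N → ℂ)
    (hϑ : Cfsg.IsIrrCharacter N ϑ)
    (hinv : ∀ (g : G) (n : N), ϑ ⟨g * n * g⁻¹, hN.conj_mem (n : G) n.2 g⟩ = ϑ n)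
    (E : Subgroup G) (htop : E ⊔ N = ⊤) (ψ : E → ℂ) (hψ : Cfsg.IsCharacter E ψ)
    [Fintype ↥(E ⊓ N)] (m : ℕ) (hpm : ¬ p ∣ m)
    (hm : Cfsg.classInner (fun y : ↥(E ⊓ N) => ϑ ⟨y, y.2.2⟩)
      (fun y : ↥(E ⊓ N) => ψ ⟨y, y.2.1⟩) = m) :
    ∃ χ : G → ℂ, Cfsg.IsIrrCharacter G χ ∧ ∀ n : N, χ n = ϑ n := by
  classical
  have := Fintype.ofFinite N
  have := Fintype.ofFinite (Cfsg.IrrCharacter G)
  have hN0 : (Nat.card N : ℂ) ≠ 0 := by
    exact_mod_cast (Nat.card_pos (α := N)).ne'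
  have hE0 : (Nat.card E : ℂ) ≠ 0 := by
    exact_mod_cast (Nat.card_pos (α := E)).ne'
  have hD0 : (Nat.card ↥(E ⊓ N) : ℂ) ≠ 0 := by
    exact_mod_cast (Nat.card_pos (α := ↥(E ⊓ N))).ne'
  -- the inner product of the induced character with ϑ on N
  have hwinv : ∀ (g : G) (n : N), conj (ϑ ⟨g * n * g⁻¹, hN.conj_mem (n : G) n.2 g⟩) = conj (ϑ n) := by
    intro g n
    rw [hinv]
  have hkey : Cfsg.classInner (fun n : N => Cfsg.indFun E ψ (n : G)) ϑ = m := by
    unfold Cfsg.classInner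
    have h1 : ∑ n : N, Cfsg.indFun E ψ (n : G) * conj (ϑ n) =
        ∑ n : N, conj (ϑ n) * Cfsg.indFun E ψ (n : G) :=
      Finset.sum_congr rfl fun n _ => mul_comm _ _
    rw [h1, mackey_sum_w N (fun n => conj (ϑ n)) hwinv E ψ]
    have h2 : ∑ y : ↥(E ⊓ N), conj (ϑ ⟨y, y.2.2⟩) * ψ ⟨y, y.2.1⟩ =
        (Nat.card ↥(E ⊓ N) : ℂ) * m := by
      have h3 : (m : ℂ) = conj (m : ℂ) := (Complex.conj_natCast m).symm
      rw [h3, ← hm]
      unfold Cfsg.classInner
      rw [map_mul, map_inv₀, Complex.conj_natCast, ← mul_assoc, mul_inv_cancel₀ hD0, one_mul,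
        map_sum]
      refine Finset.sum_congr rfl fun y _ => ?_
      rw [map_mul, Complex.conj_conj, mul_comm]
    rw [h2]
    have h4 := Cfsg.Agent.S0896.card_mul_card_inf N E
    rw [htop, Subgroup.index_top, one_mul] at h4
    have h4' : (Nat.card G : ℂ) * (Nat.card ↥(E ⊓ N) : ℂ) = (Nat.card E : ℂ) * (Nat.card N : ℂ) := by
      exact_mod_cast h4
    field_simp
    linear_combination (m : ℂ) * h4'
  -- expansion of the induced character
  have hind' := Cfsg.Agent.Lib.Helper75.isCharacter_indFun E hψ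
  obtain ⟨c, -, hexp⟩ := Cfsg.Agent.Lib.Helper80.character_expansion hind'
  choose f hf using fun χ : Cfsg.IrrCharacter G =>
    Cfsg.Agent.Lib.Helper80.classInner_nat
      (Cfsg.Agent.Lib.Helper80.isCharacter_restrict (H := N) (isCharacter_of_irr χ.2))
      (isCharacter_of_irr hϑ)
  have hsum : (m : ℕ) = ∑ χ : Cfsg.IrrCharacter G, c χ * f χ := by
    have h1 : (fun n : N => Cfsg.indFun E ψ (n : G)) =
        ∑ χ : Cfsg.IrrCharacter G, (c χ : ℂ) • (fun n : N => (χ : G → ℂ) n) := by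
      funext n
      rw [hexp]
      simp only [Finset.sum_apply, Pi.smul_apply]
    rw [h1, Cfsg.Agent.Lib.Helper80.classInner_sum_left] at hkey
    have h2 : ((∑ χ : Cfsg.IrrCharacter G, c χ * f χ : ℕ) : ℂ) = (m : ℂ) := by
      rw [← hkey]
      push_cast
      refine Finset.sum_congr rfl fun χ _ => ?_
      rw [Cfsg.Agent.Lib.Helper80.classInner_smul_left, hf]
    exact_mod_cast h2.symm
  have hex : ∃ χ : Cfsg.IrrCharacter G, ¬ p ∣ f χ := by
    by_contra hcon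
    push Not at hcon
    apply hpm
    rw [hsum]
    exact Finset.dvd_sum fun χ _ => Dvd.dvd.mul_left (hcon χ) _
  obtain ⟨χ, hχ⟩ := hex
  have hf0 : f χ ≠ 0 := fun h => hχ (by rw [h]; exact dvd_zero p)
  have hcon : Cfsg.classInner (fun n : N => (χ : G → ℂ) n) ϑ ≠ 0 := by
    rw [hf]
    exact_mod_cast hf0
  -- Clifford: the restriction is a multiple of ϑ
  have hcliff := Cfsg.Agent.S0174.result N hN (χ : G → ℂ) χ.2 ϑ hϑ hcon
  have hset : {ψ' : N → ℂ | ∃ g : G, ψ' = fun n : N => ϑ ⟨g * n * g⁻¹, hN.conj_mem n n.2 g⟩} =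
      {ϑ} := by
    ext ψ'
    simp only [Set.mem_ofPred_eq, Set.mem_singleton_iff]
    constructor
    · rintro ⟨g, rfl⟩
      funext n
      exact hinv g n
    · rintro rfl
      exact ⟨1, by funext n; simp⟩
  rw [hset, finsum_mem_singleton, hf] at hcliff
  -- degrees
  have hϑ1 := Cfsg.Agent.Lib.Helper80.char_one_eq_charDegree (isCharacter_of_irr hϑ)
  have hdpos := Cfsg.Agent.Lib.Helper80.charDegree_pos hϑ
  have hχ1 : (χ : G → ℂ) 1 = ((f χ * Cfsg.charDegree ϑ : ℕ) : ℂ) := by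
    have := congrFun hcliff 1
    simp only [Pi.smul_apply, smul_eq_mul] at this
    have h1 : (χ : G → ℂ) ((1 : N) : G) = (χ : G → ℂ) 1 := rfl
    rw [h1, hϑ1] at this
    rw [this]
    push_cast
    ring
  obtain ⟨-, hdvd⟩ := Cfsg.Agent.S0887.result N (χ : G → ℂ) χ.2 ϑ hϑ hcon _ _ hχ1 hϑ1
  rw [Nat.mul_div_cancel _ hdpos] at hdvd
  obtain ⟨k, hk⟩ := hind
  rw [hk] at hdvd
  obtain ⟨j, -, hj⟩ := (Nat.dvd_prime_pow hp).mp hdvd
  have hf1 : f χ = 1 := by
    rcases Nat.eq_zero_or_pos j with rfl | hjpos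
    · rw [hj, pow_zero]
    · exact absurd (by rw [hj]; exact dvd_pow_self p hjpos.ne') hχ
  refine ⟨(χ : G → ℂ), χ.2, fun n => ?_⟩
  have := congrFun hcliff n
  rw [this, hf1]
  simp

/-- The data of a `p`-elementary group: the projections onto the `p'`-part and the `p`-part are
power maps. -/
theorem elem_data {E : Type*} [Group E] [Finite E] {p : ℕ} (hp : p.Prime)
    (hE : Cfsg.IsElementary p E) :
    ∃ k k' m j : ℕ, m.Coprime p ∧ (∀ x y : E, (x * y) ^ k = x ^ k * y ^ k) ∧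
      (∀ x y : E, (x * y) ^ k' = x ^ k' * y ^ k') ∧ (∀ x : E, x ^ k * x ^ k' = x) ∧
      (∀ x : E, x ^ k ∈ Subgroup.center E) ∧ (∀ x : E, (x ^ k) ^ m = 1) ∧
      (∀ x : E, (x ^ k') ^ (p ^ j) = 1) := by
  have hE' := hE
  obtain ⟨z, hz, hzp, j, hj⟩ := hE
  have hcardZ : Nat.card (Subgroup.zpowers z) = orderOf z := Nat.card_zpowers z
  have hcardE : Nat.card E = orderOf z * p ^ j := by
    rw [← Subgroup.card_mul_index (Subgroup.zpowers z), hcardZ, hj]
  have hmn : (orderOf z).Coprime (p ^ j) := Nat.Coprime.pow_right j hzp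
  obtain ⟨k, k', hk1, hk0, hk0', hk1'⟩ := exists_piExp hmn
  have hc : Nat.card E ∣ orderOf z * p ^ j := by rw [hcardE]
  have hc' : Nat.card E ∣ p ^ j * orderOf z := by rw [hcardE, mul_comm]
  refine ⟨k, k', orderOf z, j, hzp, ?_, ?_, ?_, ?_, ?_, ?_⟩
  · exact elementary_pow_mul hp hE' hmn hc hk1 hk0
  · exact elementary_pow_mul hp hE' hmn.symm hc' hk1' hk0'
  · exact pow_mul_pow_eq_self hmn hc hk1 hk0 hk0' hk1'
  · intro x
    have hzc : Subgroup.zpowers z ≤ Subgroup.center E := Subgroup.zpowers_le.mpr hz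
    have hnorm : (Subgroup.zpowers z).Normal := by
      refine ⟨fun a ha g => ?_⟩
      have h1 := Subgroup.mem_center_iff.mp (hzc ha) g
      rw [h1, mul_inv_cancel_right]
      exact ha
    have h1 : x ^ (p ^ j) ∈ Subgroup.zpowers z := by
      rw [← hj]
      exact Subgroup.pow_index_mem _ x
    obtain ⟨t, ht⟩ := (Nat.modEq_zero_iff_dvd.mp hk0)
    rw [ht, pow_mul]
    exact hzc (Subgroup.pow_mem _ h1 t)
  · exact pow_pow_eq_one hc hk0
  · exact pow_pow_eq_one hc' hk0'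

/-- Homomorphisms from a subgroup of a finite abelian group into `ℂˣ` extend. -/
theorem exists_hom_ext {A : Type*} [Group A] [Finite A] (hcomm : ∀ a b : A, a * b = b * a)
    (B : Subgroup A) (f : B →* ℂˣ) : ∃ F : A →* ℂˣ, ∀ b : B, F b = f b := by
  let _ : CommGroup A := { ‹Group A› with mul_comm := hcomm }
  obtain ⟨F, hF⟩ := MonoidHom.domRestrict_surjective (M := ℂ) B f
  refine ⟨F, fun b => ?_⟩
  rw [← hF]
  rfl

end Aux

/-- Let N be a normal subgroup of the finite group G with the index of N a power of the prime p, and P a Sylow p-subgroup of G such that P ⊓ N lies in the centre of P and every character of degree 1 of P ⊓ N is the restriction of a character of degree 1 of P. Then every irreducible character of N invariant under conjugation by G is the restriction of an irreducible character of G. -/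
theorem result {G : Type*} [Group G] [Fintype G] (p : ℕ) [Fact p.Prime] (N : Subgroup G) [hN : N.Normal] (hind : ∃ k : ℕ, N.index = p ^ k) (P : Sylow p G) (hcent : ∀ x ∈ (P : Subgroup G) ⊓ N, ∀ y ∈ (P : Subgroup G), x * y = y * x) (hlin : ∀ lam : ↥((P : Subgroup G) ⊓ N) → ℂ, Cfsg.IsCharacter ↥((P : Subgroup G) ⊓ N) lam → lam 1 = 1 → ∃ μ : ↥(P : Subgroup G) → ℂ, Cfsg.IsCharacter ↥(P : Subgroup G) μ ∧ μ 1 = 1 ∧ ∀ x : ↥((P : Subgroup G) ⊓ N), μ ⟨(x : G), x.2.1⟩ = lam x) (ϑ : N → ℂ) (hϑ : Cfsg.IsIrrCharacter N ϑ) (hinv : ∀ (g : G) (n : N), ϑ ⟨g * n * g⁻¹, hN.conj_mem (n : G) n.2 g⟩ = ϑ n) : ∃ χ : G → ℂ, Cfsg.IsIrrCharacter G χ ∧ ∀ n : N, χ n = ϑ n := by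
  classical
  have hp : p.Prime := Fact.out
  obtain ⟨E, φ, hel, htop, hφirr, hφinv, m, hpm, hm⟩ :=
    Cfsg.Agent.S0896.result p hp N hind ϑ hϑ hinv
  have := Fintype.ofFinite ↥(E ⊓ N)
  obtain ⟨k, k', m₁, j, hm₁, hmulk, hmulk', hdec, hcen, hpk, hpk'⟩ := elem_data hp hel
  -- `p'`-elements lie in `N`
  have hN' : ∀ y : G, y ^ m₁ = 1 → y ∈ N := by
    intro y hy
    obtain ⟨a, ha⟩ := hind
    have h1 : y ^ (p ^ a) ∈ N := by
      rw [← ha]
      exact Subgroup.pow_index_mem N y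
    have hcop : (p ^ a).Coprime (orderOf y) :=
      Nat.Coprime.coprime_dvd_right (orderOf_dvd_of_pow_eq_one hy)
        (Nat.Coprime.pow_left a hm₁.symm)
    obtain ⟨t, ht⟩ := exists_pow_eq_self_of_coprime hcop
    rw [← ht]
    exact Subgroup.pow_mem N h1 t
  -- the `p`-part subgroup lies in a conjugate of `P`
  let powK' : E →* E :=
    { toFun := fun x => x ^ k'
      map_one' := one_pow k'
      map_mul' := hmulk' }
  let Q : Subgroup G := (E.subtype.comp powK').range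
  have hQ : IsPGroup p Q := by
    rintro ⟨y, x, rfl⟩
    refine ⟨j, ?_⟩
    apply Subtype.ext
    have h1 := congrArg Subtype.val (hpk' x)
    simpa [powK'] using h1
  obtain ⟨R, hR⟩ := hQ.exists_le_sylow
  obtain ⟨g, hg⟩ := MulAction.exists_smul_eq G P R
  have hconj : ∀ x : E, g⁻¹ * ((x ^ k' : E) : G) * g ∈ (P : Subgroup G) := by
    intro x
    have hx : ((x ^ k' : E) : G) ∈ (R : Subgroup G) := hR ⟨x, rfl⟩
    rw [← hg, Sylow.coe_subgroup_smul, Subgroup.mem_pointwise_smul_iff_inv_smul_mem,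
      MulAut.smul_def, MulAut.conj_inv_apply] at hx
    exact hx
  have hkN : ∀ x : E, ((x ^ k : E) : G) ∈ N := fun x => hN' _ (by
    have h1 := congrArg Subtype.val (hpk x)
    simpa using h1)
  have hk'N : ∀ x : E, (x : G) ∈ N → ((x ^ k' : E) : G) ∈ N := fun x hx => by
    simpa using N.pow_mem hx k'
  have hconjN : ∀ x : E, (x : G) ∈ N → g⁻¹ * ((x ^ k' : E) : G) * g ∈ N := fun x hx => by
    have h1 := hN.conj_mem _ (hk'N x hx) g⁻¹
    simpa using h1
  have hcomm' : ∀ x y : E, (x : G) ∈ N → x ^ k' * y ^ k' = y ^ k' * x ^ k' := by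
    intro x y hx
    apply Subtype.ext
    have h1 := hcent (g⁻¹ * ((x ^ k' : E) : G) * g) ⟨hconj x, hconjN x hx⟩
      (g⁻¹ * ((y ^ k' : E) : G) * g) (hconj y)
    rw [Subgroup.coe_mul, Subgroup.coe_mul]
    generalize ((x ^ k' : E) : G) = a at h1 ⊢
    generalize ((y ^ k' : E) : G) = b at h1 ⊢
    have h3 : g⁻¹ * (a * b) * g = g⁻¹ * (b * a) * g := by
      simpa [mul_assoc] using h1
    exact mul_left_cancel (mul_right_cancel h3)
  -- `E ⊓ N` is abelian
  have hDcomm : ∀ a b : ↥(E ⊓ N), a * b = b * a := by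
    intro a b
    apply Subtype.ext
    have hxy : (⟨a, a.2.1⟩ : E) * ⟨b, b.2.1⟩ = ⟨b, b.2.1⟩ * ⟨a, a.2.1⟩ := by
      generalize hx : (⟨a, a.2.1⟩ : E) = x
      generalize hy : (⟨b, b.2.1⟩ : E) = y
      have hxN : (x : G) ∈ N := by rw [← hx]; exact a.2.2
      have c1 : Commute (x ^ k) (y ^ k) := (Subgroup.mem_center_iff.mp (hcen x) (y ^ k)).symm
      have c2 : Commute (x ^ k) (y ^ k') := (Subgroup.mem_center_iff.mp (hcen x) (y ^ k')).symm
      have c3 : Commute (x ^ k') (y ^ k) := Subgroup.mem_center_iff.mp (hcen y) (x ^ k')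
      have c4 : Commute (x ^ k') (y ^ k') := hcomm' x y hxN
      have hc : Commute (x ^ k * x ^ k') (y ^ k * y ^ k') :=
        Commute.mul_left (Commute.mul_right c1 c2) (Commute.mul_right c3 c4)
      rw [hdec x, hdec y] at hc
      exact hc.eq
    have h := congrArg (fun e : E => (e : G)) hxy
    exact h
  have hφchar : Cfsg.IsCharacter ↥(E ⊓ N) φ :=
    Cfsg.Agent.Lib.Helper80.isCharacter_of_isIrrCharacter hφirr
  have hφ1 : φ 1 = 1 := Cfsg.Agent.Lib.Helper82.irr_one_eq_one_of_comm hDcomm hφirr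
  have hφmul : ∀ a b, φ (a * b) = φ a * φ b := linChar_mul hφchar hφ1
  -- the linear character of `P ⊓ N`
  let cg : ↥((P : Subgroup G) ⊓ N) →* G :=
    (MulAut.conj g).toMonoidHom.comp (Subgroup.subtype _)
  have hcg : ∀ u : ↥((P : Subgroup G) ⊓ N), cg u = g * (u : G) * g⁻¹ := fun u => by
    simp [cg]
  let B : Subgroup ↥((P : Subgroup G) ⊓ N) := E.comap cg
  have hcgN : ∀ u : ↥((P : Subgroup G) ⊓ N), cg u ∈ N := fun u => by
    rw [hcg]
    exact hN.conj_mem _ u.2.2 g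
  let β : B →* ↥(E ⊓ N) :=
    (cg.comp B.subtype).codRestrict (E ⊓ N) (fun u => ⟨u.2, hcgN u⟩)
  let f₀ : B →* ℂˣ := (linCharHom hφchar hφ1).comp β
  have hPNcomm : ∀ a b : ↥((P : Subgroup G) ⊓ N), a * b = b * a := fun a b =>
    Subtype.ext (hcent a a.2 b b.2.1)
  obtain ⟨F, hF⟩ := exists_hom_ext hPNcomm B f₀
  obtain ⟨μ, hμ, hμ1, hμF⟩ := hlin (fun u => ((F u : ℂˣ) : ℂ)) (isCharacter_of_hom F)
    (by simp)
  -- the character of `E`
  let h₁ : E →* ↥(E ⊓ N) :=
    { toFun := fun x => ⟨((x ^ k : E) : G), ⟨(x ^ k).2, hkN x⟩⟩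
      map_one' := by
        apply Subtype.ext
        simp
      map_mul' := fun x y => by
        apply Subtype.ext
        have h1 := congrArg Subtype.val (hmulk x y)
        simpa using h1 }
  let h₂ : E →* ↥(P : Subgroup G) :=
    { toFun := fun x => ⟨g⁻¹ * ((x ^ k' : E) : G) * g, hconj x⟩
      map_one' := by
        apply Subtype.ext
        simp
      map_mul' := fun x y => by
        apply Subtype.ext
        have h1 := congrArg Subtype.val (hmulk' x y)
        simp only [Subgroup.coe_mul] at h1 ⊢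
        rw [h1]
        group }
  have hψ : Cfsg.IsCharacter E ((fun x => φ (h₁ x)) * (fun x => μ (h₂ x))) :=
    Cfsg.Agent.Lib.Helper80.isCharacter_mul
      (Cfsg.Agent.Lib.Helper80.isCharacter_comp h₁ hφchar)
      (Cfsg.Agent.Lib.Helper80.isCharacter_comp h₂ hμ)
  have hres : (fun y : ↥(E ⊓ N) => ((fun x => φ (h₁ x)) * (fun x => μ (h₂ x))) ⟨y, y.2.1⟩) = φ := by
    funext y
    simp only [Pi.mul_apply]
    generalize hx : (⟨y, y.2.1⟩ : E) = x
    have hxN : (x : G) ∈ N := by rw [← hx]; exact y.2.2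
    -- the `p`-part
    let w : ↥((P : Subgroup G) ⊓ N) := ⟨g⁻¹ * ((x ^ k' : E) : G) * g, ⟨hconj x, hconjN x hxN⟩⟩
    have hcw : cg w = ((x ^ k' : E) : G) := by
      rw [hcg]
      simp only [w]
      group
    have hwB : w ∈ B := by
      change cg w ∈ E
      rw [hcw]
      exact (x ^ k').2
    have h2 : μ (h₂ x) = φ ⟨((x ^ k' : E) : G), ⟨(x ^ k').2, hk'N x hxN⟩⟩ := by
      have e1 : h₂ x = ⟨(w : G), w.2.1⟩ := rfl
      rw [e1, hμF w]
      have e2 := hF ⟨w, hwB⟩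
      have e3 : F w = f₀ ⟨w, hwB⟩ := e2
      rw [e3]
      simp only [f₀, MonoidHom.comp_apply, linCharHom_apply]
      congr 1
      apply Subtype.ext
      exact hcw
    rw [h2]
    have h1 : h₁ x = ⟨((x ^ k : E) : G), ⟨(x ^ k).2, hkN x⟩⟩ := rfl
    rw [h1, ← hφmul]
    congr 1
    apply Subtype.ext
    have h3 := congrArg Subtype.val (hdec x)
    have hxy : (x : G) = (y : G) := by rw [← hx]
    rw [← hxy]
    simpa using h3
  have hm' : Cfsg.classInner (fun y : ↥(E ⊓ N) => ϑ ⟨y, y.2.2⟩)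
      (fun y : ↥(E ⊓ N) => ((fun x => φ (h₁ x)) * (fun x => μ (h₂ x))) ⟨y, y.2.1⟩) = m := by
    rw [hres]
    unfold Cfsg.classInner
    rw [← hm, finsum_eq_sum_of_fintype]
  exact ext_of_local N hp hind ϑ hϑ hinv E htop _ hψ m hpm hm'

end Cfsg.Agent.S0897
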