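import Cfsg.Statements.S0899
import Cfsg.Agent.Lib.Helper82.FTNormal
import Cfsg.Agent.Lib.Helper3.CharKernel

set_option autoImplicit false
open Cfsg

namespace Cfsg.Agent.S0899

/-- Let G be a finite group with a faithful complex representation of degree n (on Fin n → ℂ) and p a prime. Suppose either that (n + 1) ^ 2 ≤ p, or that n + 1 < p and every subgroup of G whose order is not divisible by p ^ 2 has a normal Sylow p-subgroup. Then every Sylow p-subgroup of G is normal. -/
theorem result {G : Type*} [Group G] [Finite G] (n : ℕ) (ρ : Representation ℂ G (Fin n → ℂ)) (hρ : Function.Injective ρ) (p : ℕ) [Fact p.Prime] (h : (n + 1) ^ 2 ≤ p ∨ (n + 1 < p ∧ ∀ K : Subgroup G, ¬ p ^ 2 ∣ Nat.card K → ∀ Q : Sylow p K, (Q : Subgroup K).Normal)) (P : Sylow p G) : (P : Subgroup G).Normal := by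
  classical
  have hp : p.Prime := Fact.out
  have hχ : Cfsg.IsCharacter G ρ.character := ⟨n, ρ, rfl⟩
  have hdegχ : Cfsg.charDegree ρ.character = n := Cfsg.Agent.Lib.Helper80.charDegree_char ρ
  have hfaith : ∀ g : G, ρ.character g = ρ.character 1 → g = 1 := by
    intro g hg
    apply hρ
    rw [map_one]
    have h1 : ρ.character g = (Module.finrank ℂ (Fin n → ℂ) : ℂ) := by
      rw [hg, Representation.char_one]
    exact (Cfsg.Agent.Lib.Helper3.character_eq_finrank_iff ρ g).1 h1
  have key : n + 1 < p ∧ ∀ K : Subgroup G, ¬ p ^ 2 ∣ Nat.card K →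
      ∀ Q : Sylow p K, (Q : Subgroup K).Normal := by
    rcases h with h | h
    · have hn1 : n + 1 < p := by
        rcases Nat.eq_zero_or_pos n with h0 | hpos
        · have := hp.two_le
          omega
        · nlinarith
      refine ⟨hn1, ?_⟩
      intro K hK Q
      have hcardQ : Nat.card ↥(Q : Subgroup ↥K) = p ^ (Nat.card ↥K).factorization p :=
        Q.card_eq_multiplicity
      by_cases hpK : p ∣ Nat.card ↥K
      · have hfac : (Nat.card ↥K).factorization p = 1 := by
          have h1 : 1 ≤ (Nat.card ↥K).factorization p := by
            have := (hp.pow_dvd_iff_le_factorization (Nat.card_pos (α := ↥K)).ne').1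
              (by rw [pow_one]; exact hpK)
            exact this
          have h2 : ¬ 2 ≤ (Nat.card ↥K).factorization p := fun h2 =>
            hK ((hp.pow_dvd_iff_le_factorization (Nat.card_pos (α := ↥K)).ne').2 h2)
          omega
        rw [hfac] at hcardQ
        have hstar : ∀ x ∈ (Q : Subgroup ↥K), x ≠ 1 → Subgroup.centralizer ({x} : Set ↥K)
            = Subgroup.centralizer ((Q : Subgroup ↥K) : Set ↥K) := by
          intro x hx hx1
          have hgen : Subgroup.zpowers (⟨x, hx⟩ : ↥(Q : Subgroup ↥K)) = ⊤ :=
            zpowers_eq_top_of_prime_card (p := p) (by rw [hcardQ, pow_one])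
              (fun h => hx1 (congrArg Subtype.val h))
          ext c
          rw [Subgroup.mem_centralizer_iff, Subgroup.mem_centralizer_iff]
          constructor
          · intro hc y hy
            have hy' : (⟨y, hy⟩ : ↥(Q : Subgroup ↥K)) ∈ Subgroup.zpowers (⟨x, hx⟩ : ↥(Q : Subgroup ↥K)) := by
              rw [hgen]; trivial
            obtain ⟨j, hj⟩ := Subgroup.mem_zpowers_iff.1 hy'
            have hj' : x ^ j = y := by
              have := congrArg Subtype.val hj
              simpa using this
            rw [← hj']
            have hcx : Commute c x := (hc x rfl).symm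
            exact (hcx.zpow_right j).symm
          · intro hc y hy
            rw [Set.mem_singleton_iff] at hy
            rw [hy]
            exact hc x hx
        refine Cfsg.Agent.Lib.Helper82.BL.normal_of_faithful_small p hp (Nat.card ↥K) ↥K rfl Q hstar 1
          hcardQ (fun c : ↥K => ρ.character c)
          (Cfsg.Agent.Lib.Helper80.isCharacter_restrict K hχ)
          (fun c hc => Subtype.ext (hfaith c hc)) ?_
        have hd : Cfsg.charDegree (fun c : ↥K => ρ.character c) = n := hdegχ
        rw [hd, pow_one]
        rcases Nat.eq_zero_or_pos n with h0 | hpos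
        · have := hp.two_le
          rw [h0]
          omega
        · nlinarith
      · have hfac : (Nat.card ↥K).factorization p = 0 :=
          Nat.factorization_eq_zero_of_not_dvd hpK
        rw [hfac, pow_zero] at hcardQ
        have hbot : (Q : Subgroup ↥K) = ⊥ := Subgroup.eq_bot_of_card_eq _ hcardQ
        rw [hbot]
        exact Subgroup.normal_bot
    · exact h
  exact Cfsg.Agent.Lib.Helper82.FTN.normal_of_small_degree p (Nat.card G) G rfl ρ.character hχ hfaith
    (by rw [hdegχ]; exact key.1) key.2 P

end Cfsg.Agent.S0899
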