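import Cfsg.Statements.S0900
import Cfsg.Agent.Lib.Helper75.FullyRam

set_option autoImplicit false
open Cfsg

namespace Cfsg.Agent.S0900

/-- Let N be a normal subgroup of the finite group G, χ an irreducible character of G and ϑ an irreducible character of N having nonzero inner product with the restriction of χ. Consider: (a) the restriction of χ to N is e • ϑ for a natural number e with e ^ 2 equal to the index of N; (b) χ vanishes outside N and ϑ is invariant under conjugation by G; (c) ϑ is invariant and every irreducible character of G having nonzero inner product with the function induced from ϑ equals χ. Then (a) ↔ (b) and (a) ↔ (c). -/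
theorem result {G : Type*} [Group G] [Fintype G] (N : Subgroup G) [hN : N.Normal] [Fintype N] (χ : G → ℂ) (hχ : Cfsg.IsIrrCharacter G χ) (ϑ : N → ℂ) (hϑ : Cfsg.IsIrrCharacter N ϑ) (hcon : Cfsg.classInner (fun n : N => χ n) ϑ ≠ 0) : ((∃ e : ℕ, (fun n : N => χ n) = (e : ℂ) • ϑ ∧ e ^ 2 = N.index) ↔ ((∀ g : G, g ∉ N → χ g = 0) ∧ ∀ (g : G) (n : N), ϑ ⟨g * n * g⁻¹, hN.conj_mem (n : G) n.2 g⟩ = ϑ n)) ∧ ((∃ e : ℕ, (fun n : N => χ n) = (e : ℂ) • ϑ ∧ e ^ 2 = N.index) ↔ (∀ (g : G) (n : N), ϑ ⟨g * n * g⁻¹, hN.conj_mem (n : G) n.2 g⟩ = ϑ n ∧ ∀ ψ : G → ℂ, Cfsg.IsIrrCharacter G ψ → Cfsg.classInner (Cfsg.indFun N ϑ) ψ ≠ 0 → ψ = χ)) := by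
  have hχc := Cfsg.Agent.Lib.Helper3.isCharacter_of_irr hχ
  have hχcf := Cfsg.Agent.Lib.Helper3.isClassFunction_of_isCharacter hχc
  have hA_inv : (∃ e : ℕ, (fun n : N => χ n) = (e : ℂ) • ϑ ∧ e ^ 2 = N.index) →
      ∀ (g : G) (n : N), ϑ ⟨g * n * g⁻¹, hN.conj_mem (n : G) n.2 g⟩ = ϑ n := by
    rintro ⟨e, hres, he⟩
    have he0 : (e : ℂ) ≠ 0 := by
      have : e ≠ 0 := by
        rintro rfl
        have := Subgroup.index_ne_zero_of_finite (H := N)
        simp at he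
        exact this he.symm
      exact_mod_cast this
    exact (Cfsg.Agent.Lib.Helper75.forall_conjChar_eq_iff N ϑ).1
      (Cfsg.Agent.Lib.Helper75.invariant_of_res_eq_smul N hχcf (e : ℂ) he0 hres)
  have hres_of_inv : (∀ (g : G) (n : N), ϑ ⟨g * n * g⁻¹, hN.conj_mem (n : G) n.2 g⟩ = ϑ n) →
      ∃ e : ℕ, (fun n : N => χ n) = (e : ℂ) • ϑ := by
    intro hinv
    obtain ⟨e, he⟩ := Cfsg.Agent.Lib.Helper75.classInner_char_nat
      (Cfsg.Agent.Lib.Helper75.isCharacter_res N hχc) (Cfsg.Agent.Lib.Helper3.isCharacter_of_irr hϑ)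
    refine ⟨e, ?_⟩
    rw [← he]
    exact Cfsg.Agent.Lib.Helper75.res_eq_smul_of_invariant N hχ hϑ hcon
      ((Cfsg.Agent.Lib.Helper75.forall_conjChar_eq_iff N ϑ).2 hinv)
  refine ⟨⟨?_, ?_⟩, ⟨?_, ?_⟩⟩
  · intro hA
    obtain ⟨e, hres, he⟩ := hA
    exact ⟨Cfsg.Agent.Lib.Helper75.vanish_off_of_sq_eq N hχ hϑ e hres he, hA_inv ⟨e, hres, he⟩⟩
  · rintro ⟨hv, hinv⟩
    obtain ⟨e, hres⟩ := hres_of_inv hinv
    exact ⟨e, hres, Cfsg.Agent.Lib.Helper75.sq_eq_index_of_vanish N hχ hϑ e hres hv⟩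
  · intro hA g n
    obtain ⟨e, hres, he⟩ := hA
    exact ⟨hA_inv ⟨e, hres, he⟩ g n, fun ψ hψ h0 =>
      Cfsg.Agent.Lib.Helper75.eq_of_constituent_ind N hχ hϑ e hres he hψ h0⟩
  · intro h
    have hinv : ∀ (g : G) (n : N), ϑ ⟨g * n * g⁻¹, hN.conj_mem (n : G) n.2 g⟩ = ϑ n :=
      fun g n => (h g n).1
    have huniq := (h 1 1).2
    obtain ⟨e, hres⟩ := hres_of_inv hinv
    exact ⟨e, hres, Cfsg.Agent.Lib.Helper75.sq_eq_index_of_unique N hχ hϑ e hres huniq⟩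

end Cfsg.Agent.S0900
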