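import Cfsg.Statements.S0901
import Mathlib

set_option autoImplicit false
open Cfsg

namespace Cfsg.Agent.S0901

/-- a power of an element is congruent to one modulo a maximal ideal over `p`, with exponent
prime to `p`. -/
theorem exists_pow_sub_one_mem (p : ℕ) [hpf : Fact p.Prime] (M : Ideal Cfsg.AlgInt)
    (hmax : M.IsMaximal) (hpM : (p : Cfsg.AlgInt) ∈ M) (a : Cfsg.AlgInt) (ha : a ∉ M) :
    ∃ N : ℕ, 0 < N ∧ ¬ p ∣ N ∧ a ^ N - 1 ∈ M := by
  classical
  have := hmax
  let _ : Field (Cfsg.AlgInt ⧸ M) := Ideal.Quotient.field M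
  have hp : p.Prime := hpf.out
  have hchar : CharP (Cfsg.AlgInt ⧸ M) p := by
    rw [CharP.charP_iff_prime_eq_zero hp]
    have : ((p : Cfsg.AlgInt) : Cfsg.AlgInt ⧸ M) = 0 := Ideal.Quotient.eq_zero_iff_mem.mpr hpM
    simpa using this
  let _ : Algebra (ZMod p) (Cfsg.AlgInt ⧸ M) := ZMod.algebra _ p
  set abar : Cfsg.AlgInt ⧸ M := Ideal.Quotient.mk M a with habar
  have habar0 : abar ≠ 0 := fun h => ha (Ideal.Quotient.eq_zero_iff_mem.mp h)
  -- abar is integral over ZMod p
  have hint : IsIntegral (ZMod p) abar := by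
    obtain ⟨f, hfm, hf0⟩ : IsIntegral ℤ a := by
      have h1 : IsIntegral ℤ (a : ℂ) := a.2
      exact (isIntegral_algebraMap_iff (A := Cfsg.AlgInt) (B := ℂ) Subtype.val_injective).mp h1
    refine ⟨f.map (Int.castRingHom (ZMod p)), hfm.map _, ?_⟩
    rw [Polynomial.eval₂_map]
    have hcomp : (algebraMap (ZMod p) (Cfsg.AlgInt ⧸ M)).comp (Int.castRingHom (ZMod p)) =
        (Ideal.Quotient.mk M).comp (algebraMap ℤ Cfsg.AlgInt) := RingHom.ext_int _ _
    rw [hcomp, habar, ← Polynomial.hom_eval₂, hf0, map_zero]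
  have hfd : FiniteDimensional (ZMod p) (IntermediateField.adjoin (ZMod p) ({abar} : Set (Cfsg.AlgInt ⧸ M))) :=
    IntermediateField.adjoin.finiteDimensional hint
  have hfin : Finite (IntermediateField.adjoin (ZMod p) ({abar} : Set (Cfsg.AlgInt ⧸ M))) :=
    Module.finite_of_finite (ZMod p)
  let _ := Fintype.ofFinite (IntermediateField.adjoin (ZMod p) ({abar} : Set (Cfsg.AlgInt ⧸ M)))
  set K := IntermediateField.adjoin (ZMod p) ({abar} : Set (Cfsg.AlgInt ⧸ M)) with hK
  set x : K := ⟨abar, IntermediateField.mem_adjoin_simple_self (ZMod p) abar⟩ with hx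
  have hx0 : x ≠ 0 := by
    intro h
    apply habar0
    have h' : abar = ((0 : K) : Cfsg.AlgInt ⧸ M) := congrArg (Subtype.val) h
    rw [h']
    rfl
  have hpow := FiniteField.pow_card_sub_one_eq_one x hx0
  have hcard : Fintype.card K = p ^ Module.finrank (ZMod p) K := by
    rw [Module.card_eq_pow_finrank (K := ZMod p) (V := K), ZMod.card]
  have hn0 : Module.finrank (ZMod p) K ≠ 0 := by
    intro h
    rw [h, pow_zero] at hcard
    have := Fintype.one_lt_card (α := K)
    omega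
  refine ⟨Fintype.card K - 1, ?_, ?_, ?_⟩
  · have := Fintype.one_lt_card (α := K)
    omega
  · intro hdvd
    have h1 : p ∣ Fintype.card K := by
      rw [hcard]; exact dvd_pow_self p hn0
    have h2 : 1 ≤ Fintype.card K := Fintype.card_pos
    have h3 : p ∣ 1 := by
      have := Nat.dvd_sub h1 hdvd
      rwa [Nat.sub_sub_self h2] at this
    exact hp.one_lt.ne' (Nat.dvd_one.mp h3)
  · rw [← Ideal.Quotient.eq_zero_iff_mem, map_sub, map_pow, map_one, sub_eq_zero]
    have := congrArg (Subtype.val) hpow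
    simpa using this

/-- Let M be a maximal ideal of the ring of algebraic integers containing the prime p, and let U be the set of complex roots of unity of order prime to p. Then reduction modulo M is injective on U, and every algebraic integer not in M is congruent modulo M to an element of U (so U maps bijectively onto the nonzero residues). -/
theorem result (p : ℕ) [Fact p.Prime] (M : Ideal Cfsg.AlgInt) (hM : Cfsg.IsPModular p M) : (∀ ε₁ ε₂ : Cfsg.AlgInt, (∃ m : ℕ, ¬ p ∣ m ∧ (ε₁ : ℂ) ^ m = 1) → (∃ m : ℕ, ¬ p ∣ m ∧ (ε₂ : ℂ) ^ m = 1) → ε₁ - ε₂ ∈ M → ε₁ = ε₂) ∧ (∀ a : Cfsg.AlgInt, a ∉ M → ∃ ε : Cfsg.AlgInt, (∃ m : ℕ, ¬ p ∣ m ∧ (ε : ℂ) ^ m = 1) ∧ a - ε ∈ M) := by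
  classical
  obtain ⟨hp, hmax, hpM⟩ := hM
  constructor
  · rintro ε₁ ε₂ ⟨m₁, hm₁, h₁⟩ ⟨m₂, hm₂, h₂⟩ hmem
    by_contra hne
    have hm : ¬ p ∣ m₁ * m₂ := fun h => (hp.dvd_mul.mp h).elim hm₁ hm₂
    have hmpos : 0 < m₁ * m₂ := by
      rcases Nat.eq_zero_or_pos (m₁ * m₂) with h | h
      · rw [h] at hm; exact absurd (dvd_zero p) hm
      · exact h
    set m := m₁ * m₂ with hmdef
    have e₁ : ε₁ ^ m = 1 := by
      apply Subtype.ext
      show (ε₁ : ℂ) ^ m = 1
      rw [hmdef, pow_mul, h₁, one_pow]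
    have e₂ : ε₂ ^ m = 1 := by
      apply Subtype.ext
      show (ε₂ : ℂ) ^ m = 1
      rw [hmdef, mul_comm, pow_mul, h₂, one_pow]
    set ζ : Cfsg.AlgInt := ε₁ * ε₂ ^ (m - 1) with hζ
    have hζm : ζ ^ m = 1 := by
      rw [hζ, mul_pow, e₁, one_mul, ← pow_mul, Nat.mul_comm, pow_mul, e₂, one_pow]
    have hε₂ : ε₂ ^ (m - 1) * ε₂ = 1 := by
      rw [← pow_succ, Nat.sub_add_cancel hmpos, e₂]
    have hζ1 : ζ - 1 = ε₂ ^ (m - 1) * (ε₁ - ε₂) := by
      rw [mul_sub, hε₂, hζ, mul_comm]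
    have hζM : 1 - ζ ∈ M := by
      have : 1 - ζ = -(ζ - 1) := by ring
      rw [this, hζ1]
      exact M.neg_mem (M.mul_mem_left _ hmem)
    have hζne : (1 : Cfsg.AlgInt) - ζ ≠ 0 := by
      intro h
      have h1 : ζ - 1 = 0 := by
        have : ζ - 1 = -(1 - ζ) := by ring
        rw [this, h, neg_zero]
      rw [hζ1] at h1
      have h2 : ε₂ * (ε₂ ^ (m - 1) * (ε₁ - ε₂)) = 0 := by rw [h1, mul_zero]
      rw [← mul_assoc, mul_comm ε₂, hε₂, one_mul] at h2
      exact hne (sub_eq_zero.mp h2)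
    have hS : ∑ k ∈ Finset.range m, ζ ^ k = 0 := by
      have h1 : (1 - ζ) * ∑ k ∈ Finset.range m, ζ ^ k = 0 := by
        rw [mul_neg_geom_sum, hζm, sub_self]
      rcases mul_eq_zero.mp h1 with h | h
      · exact absurd h hζne
      · exact h
    have hmM : (m : Cfsg.AlgInt) ∈ M := by
      have h1 : (m : Cfsg.AlgInt) = ∑ k ∈ Finset.range m, (1 - ζ ^ k) := by
        rw [Finset.sum_sub_distrib, hS, sub_zero]
        simp
      rw [h1]
      apply M.sum_mem
      intro k _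
      rw [← mul_neg_geom_sum]
      exact M.mul_mem_right _ hζM
    have hcop : IsCoprime (m : ℤ) (p : ℤ) :=
      Nat.isCoprime_iff_coprime.mpr ((Nat.Prime.coprime_iff_not_dvd hp).mpr hm).symm
    obtain ⟨u, v, huv⟩ := hcop
    have h1 : (1 : Cfsg.AlgInt) ∈ M := by
      have : (1 : Cfsg.AlgInt) = (u : Cfsg.AlgInt) * (m : Cfsg.AlgInt) + (v : Cfsg.AlgInt) * (p : Cfsg.AlgInt) := by
        have := congrArg (fun z : ℤ => (z : Cfsg.AlgInt)) huv
        simp only [Int.cast_add, Int.cast_mul, Int.cast_natCast, Int.cast_one] at this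
        exact this.symm
      rw [this]
      exact M.add_mem (M.mul_mem_left _ hmM) (M.mul_mem_left _ hpM)
    exact hmax.ne_top ((Ideal.eq_top_iff_one M).mpr h1)
  · intro a ha
    obtain ⟨N, hNpos, hNp, hN⟩ := exists_pow_sub_one_mem p M hmax hpM a ha
    -- a primitive N-th root of unity in AlgInt
    have hprimC : IsPrimitiveRoot (Complex.exp (2 * Real.pi * Complex.I / N)) N :=
      Complex.isPrimitiveRoot_exp N hNpos.ne'
    have hz_int : IsIntegral ℤ (Complex.exp (2 * Real.pi * Complex.I / N)) := by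
      refine ⟨Polynomial.X ^ N - 1, Polynomial.monic_X_pow_sub_C 1 hNpos.ne', ?_⟩
      simp [hprimC.pow_eq_one]
    set z : Cfsg.AlgInt := ⟨Complex.exp (2 * Real.pi * Complex.I / N), hz_int⟩ with hz
    have hprim : IsPrimitiveRoot z N :=
      IsPrimitiveRoot.of_map_of_injective (f := (Cfsg.AlgInt).val)
        (show IsPrimitiveRoot ((Cfsg.AlgInt).val z) N from hprimC) Subtype.val_injective
    have hfac := Polynomial.X_pow_sub_one_eq_prod hNpos hprim
    have heval : a ^ N - 1 = ∏ ζ ∈ Polynomial.nthRootsFinset N (1 : Cfsg.AlgInt), (a - ζ) := by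
      have := congrArg (Polynomial.eval a) hfac
      simpa [Polynomial.eval_prod] using this
    rw [heval] at hN
    have : M.IsPrime := hmax.isPrime
    obtain ⟨ε, hε, hεM⟩ := (Ideal.IsPrime.prod_mem_iff).mp hN
    refine ⟨ε, ⟨N, hNp, ?_⟩, hεM⟩
    have h1 : ε ^ N = 1 := (Polynomial.mem_nthRootsFinset hNpos 1).mp hε
    have := congrArg (Subtype.val) h1
    simpa using this

end Cfsg.Agent.S0901
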