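import Cfsg.Statements.S0902
import Cfsg.Agent.Lib.Helper79.LocalGlobal
import Cfsg.Agent.Lib.Helper79.ClassMult
import Cfsg.Agent.Lib.Helper16.Osima
import Cfsg.Agent.Lib.Helper3.CharCore

set_option autoImplicit false
open Cfsg

namespace Cfsg.Agent.S0902

/-- If two irreducible characters of a finite group lie in the same block relative to one maximal ideal M of the algebraic integers containing the prime p, then at every element the difference of their central characters is an algebraic integer lying in every maximal ideal containing p; in particular they lie in the same block relative to any such ideal. -/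
theorem result {G : Type*} [Group G] [Finite G] (p : ℕ) [Fact p.Prime] (M : Ideal Cfsg.AlgInt) (hM : Cfsg.IsPModular p M) (χ ψ : Cfsg.IrrCharacter G) (h : Cfsg.SameBlock M (χ : G → ℂ) (ψ : G → ℂ)) (M' : Ideal Cfsg.AlgInt) (hM' : Cfsg.IsPModular p M') (g : G) : ∃ r : Cfsg.AlgInt, r ∈ M' ∧ (r : ℂ) = Cfsg.centralChar (χ : G → ℂ) g - Cfsg.centralChar (ψ : G → ℂ) g := by
  classical
  let _ : Fintype G := Fintype.ofFinite G
  have hprime := Cfsg.Agent.Lib.Helper16.isPrime_of_isPModular hM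
  obtain ⟨hχ1, hχpos, -⟩ := Cfsg.Agent.Lib.Helper79.irr_charDegree χ.2
  obtain ⟨hψ1, hψpos, -⟩ := Cfsg.Agent.Lib.Helper79.irr_charDegree ψ.2
  obtain ⟨c, hc⟩ : ∃ c : ℕ, c = (Subgroup.centralizer ({g} : Set G)).index := ⟨_, rfl⟩
  obtain ⟨f, hf⟩ : ∃ f : ℕ → ℂ, f = fun j =>
      (((c : ℚ) / (Cfsg.charDegree (χ : G → ℂ) : ℚ) : ℚ) : ℂ) * (χ : G → ℂ) (g ^ j) -
      (((c : ℚ) / (Cfsg.charDegree (ψ : G → ℂ) : ℚ) : ℚ) : ℂ) * (ψ : G → ℂ) (g ^ j) := ⟨_, rfl⟩
  have hcyc : Cfsg.Agent.Lib.Helper79.IsCycRat (orderOf g) f := by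
    rw [hf]
    exact ((Cfsg.Agent.Lib.Helper79.isCycRat_character
        (Cfsg.Agent.Lib.Helper3.isCharacter_of_irr χ.2) g).smul _).sub
      ((Cfsg.Agent.Lib.Helper79.isCycRat_character
        (Cfsg.Agent.Lib.Helper3.isCharacter_of_irr ψ.2) g).smul _)
  have hfk : ∀ k : ℕ, k.Coprime (orderOf g) →
      f k = Cfsg.centralChar (χ : G → ℂ) (g ^ k) - Cfsg.centralChar (ψ : G → ℂ) (g ^ k) := by
    intro k hk
    rw [hf]
    unfold Cfsg.centralChar
    rw [Cfsg.Agent.Lib.Helper79.centralizer_pow_of_coprime g hk, ← hc, hχ1, hψ1]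
    push_cast
    ring
  have hf1 : f 1 = Cfsg.centralChar (χ : G → ℂ) g - Cfsg.centralChar (ψ : G → ℂ) g := by
    have h1 := hfk 1 (Nat.coprime_one_left _)
    rwa [pow_one] at h1
  have hint : ∀ x : G, IsIntegral ℤ
      (Cfsg.centralChar (χ : G → ℂ) x - Cfsg.centralChar (ψ : G → ℂ) x) := fun x =>
    (Cfsg.Agent.Lib.Helper16.isIntegral_centralChar_irr χ x).sub
      (Cfsg.Agent.Lib.Helper16.isIntegral_centralChar_irr ψ x)
  refine ⟨⟨_, hint g⟩, ?_, rfl⟩
  apply Cfsg.Agent.Lib.Helper79.mem_of_roots_mem hM hM'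
  intro w hw
  have hw' : Polynomial.aeval w (minpoly ℚ (f 1)) = 0 := by
    rw [hf1]
    exact hw
  obtain ⟨k, hk, rfl⟩ := hcyc.exists_coprime_of_root (orderOf_pos g) hw'
  rw [hfk k hk]
  refine ⟨⟨_, hint (g ^ k)⟩, ?_, rfl⟩
  exact (Cfsg.Agent.Lib.Helper16.memLocalIdeal_algInt_iff hprime _).mp (h (g ^ k))

end Cfsg.Agent.S0902
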