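import Cfsg.Statements.S0903
import Mathlib

set_option autoImplicit false
open Cfsg

namespace Cfsg.Agent.S0903

/-- Let P be a p-subgroup of the finite group G, let c centralize P and let g, h ∈ G. The number of pairs (x, y) with x conjugate to g, y conjugate to h and x * y = c is congruent modulo p to the number of such pairs in which x and y both centralize P. (This is why the Brauer map on class sums is multiplicative.) -/
theorem result {G : Type*} [Group G] [Finite G] (p : ℕ) [Fact p.Prime] (P : Subgroup G) (hP : IsPGroup p P) (c : G) (hc : c ∈ Subgroup.centralizer (P : Set G)) (g h : G) : Nat.card {xy : G × G // IsConj g xy.1 ∧ IsConj h xy.2 ∧ xy.1 * xy.2 = c} ≡ Nat.card {xy : G × G // IsConj g xy.1 ∧ IsConj h xy.2 ∧ xy.1 * xy.2 = c ∧ xy.1 ∈ Subgroup.centralizer (P : Set G) ∧ xy.2 ∈ Subgroup.centralizer (P : Set G)} [MOD p] := by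
  classical
  have hcu : ∀ u : P, (u : G) * c * (u : G)⁻¹ = c := by
    intro u
    have := hc (u : G) u.2
    rw [this, mul_inv_cancel_right]
  let act : MulAction P {xy : G × G // IsConj g xy.1 ∧ IsConj h xy.2 ∧ xy.1 * xy.2 = c} :=
    { smul := fun u xy => ⟨((u : G) * xy.1.1 * (u : G)⁻¹, (u : G) * xy.1.2 * (u : G)⁻¹),
        by
          obtain ⟨⟨x, y⟩, h1, h2, h3⟩ := xy
          refine ⟨?_, ?_, ?_⟩
          · exact h1.trans (isConj_iff.mpr ⟨(u : G), rfl⟩)
          · exact h2.trans (isConj_iff.mpr ⟨(u : G), rfl⟩)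
          · simp only at h3 ⊢
            rw [← hcu u, ← h3]; group⟩
      one_smul := by
        rintro ⟨⟨x, y⟩, h1, h2, h3⟩
        apply Subtype.ext
        show (((1 : P) : G) * x * ((1 : P) : G)⁻¹, ((1 : P) : G) * y * ((1 : P) : G)⁻¹) = (x, y)
        simp
      mul_smul := by
        rintro u v ⟨⟨x, y⟩, h1, h2, h3⟩
        apply Subtype.ext
        show (((u * v : P) : G) * x * ((u * v : P) : G)⁻¹, ((u * v : P) : G) * y * ((u * v : P) : G)⁻¹)
          = ((u : G) * ((v : G) * x * (v : G)⁻¹) * (u : G)⁻¹, (u : G) * ((v : G) * y * (v : G)⁻¹) * (u : G)⁻¹)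
        simp [mul_assoc] }
  have key := hP.card_modEq_card_fixedPoints {xy : G × G // IsConj g xy.1 ∧ IsConj h xy.2 ∧ xy.1 * xy.2 = c}
  refine key.trans (Nat.ModEq.of_dvd (dvd_refl p) ?_)
  refine congrArg (· % p) (Nat.card_congr ?_)
  refine
    { toFun := fun z => ⟨z.1.1, z.1.2.1, z.1.2.2.1, z.1.2.2.2, ?_, ?_⟩
      invFun := fun z => ⟨⟨z.1, z.2.1, z.2.2.1, z.2.2.2.1⟩, ?_⟩
      left_inv := fun z => rfl
      right_inv := fun z => rfl }
  · obtain ⟨⟨⟨x, y⟩, h1, h2, h3⟩, hz⟩ := z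
    intro u hu
    have := hz ⟨u, hu⟩
    have h4 : u * x * u⁻¹ = x := congrArg (fun t => t.1.1) this
    exact mul_inv_eq_iff_eq_mul.mp h4
  · obtain ⟨⟨⟨x, y⟩, h1, h2, h3⟩, hz⟩ := z
    intro u hu
    have := hz ⟨u, hu⟩
    have h4 : u * y * u⁻¹ = y := congrArg (fun t => t.1.2) this
    exact mul_inv_eq_iff_eq_mul.mp h4
  · obtain ⟨⟨x, y⟩, h1, h2, h3, h4, h5⟩ := z
    intro u
    apply Subtype.ext
    show ((u : G) * x * (u : G)⁻¹, (u : G) * y * (u : G)⁻¹) = (x, y)
    have e1 := h4 (u : G) u.2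
    have e2 := h5 (u : G) u.2
    rw [e1, e2, mul_inv_cancel_right, mul_inv_cancel_right]

end Cfsg.Agent.S0903
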