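import Cfsg.Statements.S0904
import Cfsg.Agent.S0907
import Cfsg.Agent.S0165
import Cfsg.Agent.Lib.Helper77.Degree
import Cfsg.Agent.Lib.Helper77.Defect
import Cfsg.Agent.Lib.Helper3.Burnside
import Cfsg.Agent.Lib.Helper16.LocalRing

set_option autoImplicit false
open Cfsg
open scoped ComplexConjugate

namespace Cfsg.Agent.S0904

open Cfsg.Agent.Lib.Helper77 Cfsg.Agent.Lib.Helper16

/-- In a non-abelian simple group of order divisible by `p`, the principal `p`-block contains no
non-principal character of `p`-power degree: at a non-identity element `g` of the centre of a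
Sylow `p`-subgroup the class size is prime to the degree, so by Burnside the character vanishes
at `g` or `g` acts as a scalar; the first contradicts the central character congruence with the
principal character, the second the simplicity. -/
theorem no_prime_power_degree {G : Type*} [Group G] [Finite G] [IsSimpleGroup G]
    (hnab : ¬ ∀ x y : G, x * y = y * x) (p : ℕ) [Fact p.Prime] (M : Ideal Cfsg.AlgInt)
    (hM : Cfsg.IsPModular p M) (hpG : p ∣ Nat.card G) (χ : Cfsg.IrrCharacter G)
    (hχB : χ ∈ Cfsg.principalBlock M G) (hχ1 : (χ : G → ℂ) ≠ fun _ => 1) (i : ℕ)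
    (hdeg : Cfsg.charDegree (χ : G → ℂ) = p ^ i) : False := by
  classical
  have hp : p.Prime := Fact.out
  obtain ⟨P⟩ : Nonempty (Sylow p G) := inferInstance
  have hPbot : (P : Subgroup G) ≠ ⊥ := P.ne_bot_of_dvd_card hpG
  have hPnt : Nontrivial (P : Subgroup G) := (Subgroup.nontrivial_iff_ne_bot _).mpr hPbot
  have hcnt : Nontrivial (Subgroup.center (P : Subgroup G)) := P.isPGroup'.center_nontrivial
  obtain ⟨z, hz⟩ := exists_ne (1 : Subgroup.center (P : Subgroup G))
  obtain ⟨g, hgdef⟩ : ∃ g : G, g = ((z : (P : Subgroup G)) : G) := ⟨_, rfl⟩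
  have hg1 : g ≠ 1 := by
    intro h
    apply hz
    apply Subtype.ext
    apply Subtype.ext
    rw [← hgdef, h]
    rfl
  have hPle : (P : Subgroup G) ≤ Subgroup.centralizer ({g} : Set G) := by
    intro x hx
    rw [Subgroup.mem_centralizer_iff]
    intro h hh
    rw [Set.mem_singleton_iff] at hh
    rw [hh]
    have hzc : (⟨x, hx⟩ : ↥(P : Subgroup G)) * (z : ↥(P : Subgroup G)) =
        (z : ↥(P : Subgroup G)) * ⟨x, hx⟩ := Subgroup.mem_center_iff.mp z.2 ⟨x, hx⟩
    have h3 := congrArg (fun w : ↥(P : Subgroup G) => (w : G)) hzc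
    simp only [Subgroup.coe_mul] at h3
    rw [hgdef]
    exact h3.symm
  have hidx : ¬ p ∣ (Subgroup.centralizer ({g} : Set G)).index := by
    intro h
    exact P.not_dvd_index (h.trans (Subgroup.index_dvd_of_le hPle))
  obtain ⟨hxd, -, -⟩ := Cfsg.Agent.Lib.Helper79.irr_charDegree χ.2
  obtain ⟨n, ρ, hρ, hχρ⟩ := χ.2
  have hn1 : (χ : G → ℂ) 1 = n := by
    rw [← hχρ, Representation.char_one]
    simp
  have hn : n = p ^ i := by
    rw [hxd, hdeg] at hn1
    exact_mod_cast hn1.symm
  have hcop : Nat.Coprime (Module.finrank ℂ (Fin n → ℂ))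
      (Subgroup.centralizer ({g} : Set G)).index := by
    rw [Module.finrank_fin_fun, hn]
    exact Nat.Coprime.pow_left i ((Nat.Prime.coprime_iff_not_dvd hp).mpr hidx)
  rcases Cfsg.Agent.S0142.result ρ g hcop with h0 | h1
  · have hsb : Cfsg.SameBlock M (fun _ : G => (1 : ℂ)) (χ : G → ℂ) := hχB
    have h := hsb g
    have hχg : (χ : G → ℂ) g = 0 := by rw [← hχρ]; exact h0
    have hval : Cfsg.centralChar (fun _ : G => (1 : ℂ)) g - Cfsg.centralChar (χ : G → ℂ) g =
        (((Subgroup.centralizer ({g} : Set G)).index : ℕ) : ℂ) := by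
      unfold Cfsg.centralChar
      rw [hχg]
      simp
    rw [hval] at h
    exact hidx ((memLocalIdeal_natCast_iff hM _).mp h)
  · obtain ⟨ω, hω⟩ := (Cfsg.Agent.Lib.Helper3.norm_character_eq_iff ρ g).mp h1
    exact Cfsg.Agent.Lib.Helper3.not_scalar_of_simple hnab ρ (hχρ ▸ hχ1) g hg1 ω hω

/-- The heart of the matter: a simple group of order `p ^ a * q ^ b * r` has no commuting
elements of orders `p` and `r`. -/
theorem no_commuting_pair {G : Type*} [Group G] [Finite G] [IsSimpleGroup G] (p q r a b : ℕ)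
    (hp : p.Prime) (hq : q.Prime) (hr : r.Prime) (hpr : p ≠ r) (hqr : q ≠ r)
    (hcard : Nat.card G = p ^ a * q ^ b * r) (c u : G) (hc : orderOf c = p)
    (hu : orderOf u = r) (hcomm : Commute c u) : False := by
  classical
  have hpG : p ∣ Nat.card G := hc ▸ orderOf_dvd_natCard c
  have hrG : r ∣ Nat.card G := hu ▸ orderOf_dvd_natCard u
  have hnab : ¬ ∀ x y : G, x * y = y * x := by
    intro hab
    let _ : CommGroup G := { ‹Group G› with mul_comm := hab }
    have hprime : (Nat.card G).Prime := IsSimpleGroup.prime_card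
    have h1 := (Nat.prime_dvd_prime_iff_eq hp hprime).mp hpG
    have h2 := (Nat.prime_dvd_prime_iff_eq hr hprime).mp hrG
    exact hpr (h1.trans h2.symm)
  have : Fact p.Prime := ⟨hp⟩
  have : Fact r.Prime := ⟨hr⟩
  have := Fintype.ofFinite G
  have : Finite (Cfsg.IrrCharacter G) := Cfsg.Agent.Lib.Helper81.irr_finite G
  have := Fintype.ofFinite (Cfsg.IrrCharacter G)
  obtain ⟨M, hMmax, hpM⟩ := Cfsg.Agent.S0165.exists_maximal_ideal_natCast_mem p hp.one_lt
  have hM : Cfsg.IsPModular p M := ⟨hp, hMmax, hpM⟩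
  have hMp : M.IsPrime := hMmax.isPrime
  have hB : Cfsg.IsPBlock M (Cfsg.principalBlock M G) := isPBlock_principalBlock M
  obtain ⟨y, hy⟩ : ∃ y, y = c * u := ⟨_, rfl⟩
  have hyo : orderOf y = p * r := by
    rw [hy, hcomm.orderOf_mul_eq_mul_orderOf_of_coprime
      (by rw [hc, hu]; exact (Nat.coprime_primes hp hr).mpr hpr), hc, hu]
  have hpy : p ∣ orderOf y := by rw [hyo]; exact dvd_mul_right p r
  have hry : r ∣ orderOf y := by rw [hyo]; exact dvd_mul_left r p
  have horth := Cfsg.Agent.S0907.result p M hM (Cfsg.principalBlock M G) hB 1 y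
    (by rw [orderOf_one]; exact hp.not_dvd_one) hpy
  rw [finsum_mem_def, finsum_eq_sum_of_fintype] at horth
  have hrn : ¬ r ∣ p ^ a * q ^ b := by
    intro h
    rcases (Nat.Prime.dvd_mul hr).mp h with h | h
    · exact hpr ((Nat.prime_dvd_prime_iff_eq hr hp).mp (hr.dvd_of_dvd_pow h)).symm
    · exact hqr ((Nat.prime_dvd_prime_iff_eq hr hq).mp (hr.dvd_of_dvd_pow h)).symm
  -- every non-principal term is divisible by `q`
  have hβ : ∀ χ : Cfsg.IrrCharacter G, χ ≠ trivIrr G → ∃ β : ℂ, IsIntegral ℤ β ∧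
      (Cfsg.principalBlock M G).indicator
        (fun χ : Cfsg.IrrCharacter G => (χ : G → ℂ) 1 * conj ((χ : G → ℂ) y)) χ = q * β := by
    intro χ hχne
    by_cases hχB : χ ∈ Cfsg.principalBlock M G
    · rw [Set.indicator_of_mem hχB]
      obtain ⟨hxd, hxpos, hxdvd⟩ := Cfsg.Agent.Lib.Helper79.irr_charDegree χ.2
      obtain ⟨f, hf⟩ : ∃ f, f = Cfsg.charDegree (χ : G → ℂ) := ⟨_, rfl⟩
      rw [← hf] at hxd hxpos hxdvd
      by_cases hrf : r ∣ f
      · -- defect zero for `r`
        have hdz : ¬ r ∣ Nat.card G / Cfsg.charDegree (χ : G → ℂ) := by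
          rw [← hf]
          intro h
          obtain ⟨k, hk⟩ := hxdvd
          rw [hk, Nat.mul_div_cancel_left k hxpos] at h
          obtain ⟨f', hf'⟩ := hrf
          obtain ⟨k', hk'⟩ := h
          have h1 : r * (f' * k' * r) = r * (p ^ a * q ^ b) := by
            have : Nat.card G = r * (f' * k' * r) := by rw [hk, hf', hk']; ring
            rw [← this, hcard]; ring
          have h2 : f' * k' * r = p ^ a * q ^ b := Nat.eq_of_mul_eq_mul_left hr.pos h1
          exact hrn ⟨f' * k', by rw [← h2]; ring⟩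
        obtain ⟨Mr, hMrmax, hrMr⟩ := Cfsg.Agent.S0165.exists_maximal_ideal_natCast_mem r hr.one_lt
        have hMr : Cfsg.IsPModular r Mr := ⟨hr, hMrmax, hrMr⟩
        have hb := blockOf_eq_singleton_of_defect_zero hMr χ hdz
        have h0 := irr_eq_zero_of_singular_of_blockOf_eq hMr χ hb hry
        refine ⟨0, isIntegral_zero, ?_⟩
        rw [h0]
        simp
      · by_cases hqf : q ∣ f
        · obtain ⟨f', hf'⟩ := hqf
          refine ⟨(f' : ℂ) * conj ((χ : G → ℂ) y), ?_, ?_⟩
          · apply IsIntegral.mul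
            · have h := isIntegral_algebraMap (R := ℤ) (A := ℂ) (x := (f' : ℤ))
              simpa using h
            · rw [← Cfsg.Agent.Lib.Helper81.irr_inv]
              exact isIntegral_irr_apply χ y⁻¹
          · rw [hxd, hf']
            push_cast
            ring
        · exfalso
          have h1 : f ∣ p ^ a * q ^ b * r := hcard ▸ hxdvd
          have h2 : f ∣ p ^ a * q ^ b :=
            (Nat.Coprime.dvd_mul_right
              ((Nat.Prime.coprime_iff_not_dvd hr).mpr hrf).symm).mp h1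
          have h3 : f ∣ p ^ a :=
            (Nat.Coprime.dvd_mul_right
              (Nat.Coprime.pow_right b ((Nat.Prime.coprime_iff_not_dvd hq).mpr hqf).symm)).mp h2
          obtain ⟨i, -, hi⟩ := (Nat.dvd_prime_pow hp).mp h3
          refine no_prime_power_degree hnab p M hM hpG χ hχB ?_ i (hf ▸ hi)
          intro h
          exact hχne (Subtype.ext h)
    · rw [Set.indicator_of_notMem hχB]
      exact ⟨0, isIntegral_zero, by simp⟩
  choose! β hβint hβeq using hβ
  have hsum : (0 : ℂ) = 1 + q * ∑ χ ∈ Finset.univ.erase (trivIrr G), β χ := by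
    rw [← horth, ← Finset.add_sum_erase _ _ (Finset.mem_univ (trivIrr G)), Finset.mul_sum]
    congr 1
    · rw [Set.indicator_of_mem (trivIrr_mem_principalBlock hMp)]
      simp [trivIrr_apply]
    · exact Finset.sum_congr rfl (fun χ hχ => hβeq χ (Finset.mem_erase.mp hχ).1)
  have hint : IsIntegral ℤ (∑ χ ∈ Finset.univ.erase (trivIrr G), β χ) :=
    IsIntegral.sum _ (fun χ hχ => hβint χ (Finset.mem_erase.mp hχ).1)
  have hdvd : (q : ℤ) ∣ (-1 : ℤ) := by
    apply Cfsg.Agent.Lib.Helper3.int_dvd_of_isIntegral (-1) q hq.ne_zero _ hint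
    push_cast
    linear_combination hsum
  have hdvd1 : (q : ℤ) ∣ 1 := (dvd_neg).mp hdvd
  have : q ∣ 1 := by exact_mod_cast hdvd1
  exact hq.one_lt.ne' (Nat.dvd_one.mp this)

/-- Let G be a finite simple group of order p ^ a * q ^ b * r with p, q, r distinct primes. Then every Sylow r-subgroup S of G satisfies C_G(S) = S. -/
theorem result {G : Type*} [Group G] [Finite G] [IsSimpleGroup G] (p q r a b : ℕ) (hp : p.Prime) (hq : q.Prime) [Fact r.Prime] (hpq : p ≠ q) (hpr : p ≠ r) (hqr : q ≠ r) (hcard : Nat.card G = p ^ a * q ^ b * r) (S : Sylow r G) : Subgroup.centralizer (S : Set G) = (S : Subgroup G) := by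
  classical
  have hr : r.Prime := Fact.out
  have hrn : ¬ r ∣ p ^ a * q ^ b := by
    intro h
    rcases (Nat.Prime.dvd_mul hr).mp h with h | h
    · exact hpr ((Nat.prime_dvd_prime_iff_eq hr hp).mp (hr.dvd_of_dvd_pow h)).symm
    · exact hqr ((Nat.prime_dvd_prime_iff_eq hr hq).mp (hr.dvd_of_dvd_pow h)).symm
  have hS : Nat.card (S : Subgroup G) = r := by
    have h1 := Sylow.card_eq_multiplicity S
    have h2 : (p ^ a * q ^ b * r).factorization r = 1 := by
      rw [Nat.factorization_mul (mul_ne_zero (pow_ne_zero _ hp.ne_zero) (pow_ne_zero _ hq.ne_zero))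
        hr.ne_zero, Finsupp.add_apply, Nat.factorization_eq_zero_of_not_dvd hrn,
        hr.factorization_self]
    rw [hcard, h2, pow_one] at h1
    exact h1
  have hcyc : IsCyclic (S : Subgroup G) := isCyclic_of_prime_card hS
  have hle : (S : Subgroup G) ≤ Subgroup.centralizer (S : Set G) := by
    intro x hx
    rw [Subgroup.mem_centralizer_iff]
    intro h hh
    have h3 : (⟨h, hh⟩ : ↥(S : Subgroup G)) * ⟨x, hx⟩ = ⟨x, hx⟩ * ⟨h, hh⟩ :=
      Std.Commutative.comm _ _
    exact congrArg (fun w : ↥(S : Subgroup G) => (w : G)) h3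
  by_contra hne
  have hlt : Nat.card (S : Subgroup G) < Nat.card (Subgroup.centralizer (S : Set G)) := by
    by_contra h
    exact hne (Subgroup.eq_of_le_of_card_ge hle (not_lt.mp h)).symm
  obtain ⟨m, hm⟩ : r ∣ Nat.card (Subgroup.centralizer (S : Set G)) := by
    have := Subgroup.card_dvd_of_le hle
    rwa [hS] at this
  have hm2 : m ≠ 1 := by
    rintro rfl
    rw [hS, hm, mul_one] at hlt
    exact lt_irrefl _ hlt
  have hmdvd : m ∣ p ^ a * q ^ b := by
    have h1 : r * m ∣ r * (p ^ a * q ^ b) := by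
      rw [← hm, mul_comm r, ← hcard]
      exact Subgroup.card_subgroup_dvd_card _
    exact (Nat.mul_dvd_mul_iff_left hr.pos).mp h1
  obtain ⟨ℓ, hℓ, hℓm⟩ := Nat.exists_prime_and_dvd hm2
  have hℓC : ℓ ∣ Nat.card (Subgroup.centralizer (S : Set G)) := by
    rw [hm]
    exact hℓm.mul_left r
  have hℓpq : ℓ = p ∨ ℓ = q := by
    rcases (Nat.Prime.dvd_mul hℓ).mp (hℓm.trans hmdvd) with h | h
    · exact Or.inl ((Nat.prime_dvd_prime_iff_eq hℓ hp).mp (hℓ.dvd_of_dvd_pow h))
    · exact Or.inr ((Nat.prime_dvd_prime_iff_eq hℓ hq).mp (hℓ.dvd_of_dvd_pow h))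
  have : Fact ℓ.Prime := ⟨hℓ⟩
  obtain ⟨c', hc'⟩ := exists_prime_orderOf_dvd_card'
    (G := Subgroup.centralizer (S : Set G)) ℓ hℓC
  obtain ⟨u', hu'⟩ := exists_prime_orderOf_dvd_card' (G := (S : Subgroup G)) r
    (by rw [hS])
  have hc : orderOf (c' : G) = ℓ := by rw [Subgroup.orderOf_coe]; exact hc'
  have hu : orderOf (u' : G) = r := by rw [Subgroup.orderOf_coe]; exact hu'
  have hcomm : Commute (c' : G) (u' : G) :=
    (Subgroup.mem_centralizer_iff.mp c'.2 (u' : G) u'.2).symm
  rcases hℓpq with h | h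
  · rw [h] at hc
    exact no_commuting_pair p q r a b hp hq hr hpr hqr hcard _ _ hc hu hcomm
  · rw [h] at hc
    exact no_commuting_pair q p r b a hq hp hr hqr hpr (by rw [hcard]; ring) _ _ hc hu hcomm

end Cfsg.Agent.S0904
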