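import Cfsg.Statements.S0905
import Mathlib

set_option autoImplicit false
open Cfsg

namespace Cfsg.Agent.S0905

open MonoidAlgebra

section

variable (F : Type*) [Field F] {G : Type*} [Group G]

/-- the left ideal generated by the elements `u - 1`, `u ∈ U`. -/
noncomputable def L (U : Subgroup G) : Ideal (MonoidAlgebra F G) :=
  Ideal.span {x | ∃ u ∈ U, x = single u (1 : F) - 1}

theorem sub_one_mem_L {U : Subgroup G} {u : G} (hu : u ∈ U) : single u (1 : F) - 1 ∈ L F U :=
  Ideal.subset_span ⟨u, hu, rfl⟩

theorem L_bot : L F (⊥ : Subgroup G) = ⊥ := by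
  unfold L
  rw [Ideal.span_eq_bot]
  rintro x ⟨u, hu, rfl⟩
  rw [Subgroup.mem_bot] at hu
  rw [hu, one_def, sub_self]

/-- the elements `w` with `w - 1` in a left ideal form a subgroup. -/
def T (I : Ideal (MonoidAlgebra F G)) : Subgroup G where
  carrier := {w | single w (1 : F) - 1 ∈ I}
  one_mem' := by
    show single (1 : G) (1 : F) - 1 ∈ I
    rw [one_def, sub_self]; exact I.zero_mem
  mul_mem' := by
    intro v w hv hw
    show single (v * w) (1 : F) - 1 ∈ I
    have : single (v * w) (1 : F) - 1 =
        single v (1 : F) * (single w (1 : F) - 1) + (single v (1 : F) - 1) := by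
      rw [mul_sub, single_mul_single, mul_one, mul_one]; abel
    rw [this]
    exact I.add_mem (I.mul_mem_left _ hw) hv
  inv_mem' := by
    intro v hv
    show single v⁻¹ (1 : F) - 1 ∈ I
    have : single v⁻¹ (1 : F) - 1 = -(single v⁻¹ (1 : F) * (single v (1 : F) - 1)) := by
      rw [mul_sub, single_mul_single, mul_one, mul_one, inv_mul_cancel, one_def]; abel
    rw [this]
    exact I.neg_mem (I.mul_mem_left _ hv)

theorem mem_T {I : Ideal (MonoidAlgebra F G)} {w : G} :
    w ∈ T F I ↔ single w (1 : F) - 1 ∈ I := Iff.rfl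

theorem L_mul_sub_one {U : Subgroup G} {z : G} (hz : ∀ u ∈ U, z⁻¹ * u * z ∈ U)
    {b : MonoidAlgebra F G} (hb : b ∈ L F U) : b * (single z (1 : F) - 1) ∈ L F U := by
  unfold L at hb
  induction hb using Submodule.span_induction with
  | mem x hx =>
    obtain ⟨u, hu, rfl⟩ := hx
    have : (single u (1 : F) - 1) * (single z (1 : F) - 1) =
        single z (1 : F) * (single (z⁻¹ * u * z) (1 : F) - 1) - (single u (1 : F) - 1) := by
      simp only [mul_sub, sub_mul, single_mul_single, mul_one, one_mul]
      have : z * (z⁻¹ * u * z) = u * z := by group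
      rw [this]
    rw [this]
    exact (L F U).sub_mem ((L F U).mul_mem_left _ (sub_one_mem_L F (hz u hu))) (sub_one_mem_L F hu)
  | zero => rw [zero_mul]; exact (L F U).zero_mem
  | add x y _ _ hx hy => rw [add_mul]; exact (L F U).add_mem hx hy
  | smul a x _ hx => rw [smul_eq_mul, mul_assoc]; exact (L F U).mul_mem_left _ hx

theorem L_mul_sub_one_pow {U : Subgroup G} {z : G} (hz : ∀ u ∈ U, z⁻¹ * u * z ∈ U)
    {b : MonoidAlgebra F G} (hb : b ∈ L F U) (j : ℕ) :
    b * (single z (1 : F) - 1) ^ j ∈ L F U := by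
  induction j with
  | zero => rw [pow_zero, mul_one]; exact hb
  | succ j ih => rw [pow_succ, ← mul_assoc]; exact L_mul_sub_one F hz ih

theorem step (p : ℕ) [Fact p.Prime] [CharP F p] {U' : Subgroup G} {z : G}
    (hzn : ∀ u ∈ U', z⁻¹ * u * z ∈ U') (hzp : z ^ p ∈ U') {c a b : MonoidAlgebra F G}
    (hcc : ∀ y, Commute c y) (hb : b ∈ L F U')
    (hc : c = a * (single z (1 : F) - 1) + b) : c ^ p ∈ L F U' := by
  set w : MonoidAlgebra F G := single z (1 : F) - 1 with hw
  have key : ∀ j : ℕ, c ^ j - a ^ j * w ^ j ∈ L F U' := by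
    intro j
    induction j with
    | zero => simp
    | succ j ih =>
      have h1 : c * (a ^ j * w ^ j) = a ^ j * (c * w ^ j) := by
        rw [← mul_assoc, (hcc (a ^ j)).eq, mul_assoc]
      have h2 : c * w ^ j = a * w ^ (j + 1) + b * w ^ j := by
        conv_lhs => rw [hc]
        rw [add_mul, mul_assoc, ← pow_succ']
      have e : c ^ (j + 1) - a ^ (j + 1) * w ^ (j + 1) =
          c * (c ^ j - a ^ j * w ^ j) + a ^ j * (b * w ^ j) := by
        rw [pow_succ' c, mul_sub, h1, h2, mul_add, ← mul_assoc (a ^ j) a, ← pow_succ a j]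
        abel
      rw [e]
      exact (L F U').add_mem ((L F U').mul_mem_left _ ih)
        ((L F U').mul_mem_left _ (L_mul_sub_one_pow F hzn hb j))
  have hwp : w ^ p = single (z ^ p) (1 : F) - 1 := by
    haveI : CharP (MonoidAlgebra F G) p :=
      charP_of_injective_algebraMap (algebraMap F (MonoidAlgebra F G)).injective p
    rw [hw, sub_pow_char_of_commute p (Commute.one_right _), single_pow, one_pow, one_pow]
  have h3 : c ^ p = (c ^ p - a ^ p * w ^ p) + a ^ p * w ^ p := by abel
  rw [h3]
  refine (L F U').add_mem (key p) ?_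
  rw [hwp]
  exact (L F U').mul_mem_left _ (sub_one_mem_L F hzp)

theorem nilp (p : ℕ) [Fact p.Prime] [CharP F p] [Finite G] :
    ∀ (k : ℕ) (U : Subgroup G), Nat.card U = p ^ k → ∀ c : MonoidAlgebra F G,
      (∀ y, Commute c y) → c ∈ L F U → IsNilpotent c := by
  intro k
  induction k with
  | zero =>
    intro U hU c _ hc
    rw [pow_zero, Subgroup.card_eq_one] at hU
    rw [hU, L_bot] at hc
    rw [(Submodule.mem_bot _).mp hc]
    exact IsNilpotent.zero
  | succ k ih =>
    intro U hU c hcc hc
    have hp := (Fact.out : p.Prime)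
    obtain ⟨V, hV⟩ := Sylow.exists_subgroup_card_pow_prime (G := U) p (n := k)
      (by rw [hU]; exact pow_dvd_pow p (Nat.le_succ k))
    have hidx : V.index = p := by
      have := V.index_mul_card
      rw [hV, hU, pow_succ] at this
      exact Nat.eq_of_mul_eq_mul_right (pow_pos hp.pos k) (by rw [this, mul_comm])
    haveI hVn : V.Normal := Subgroup.normal_of_index_eq_minFac_card
      (by rw [hidx, hU, Nat.Prime.pow_minFac hp (Nat.succ_ne_zero k)])
    obtain ⟨v, hv⟩ : ∃ v : U, v ∉ V := by
      by_contra hcon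
      push Not at hcon
      have : V = ⊤ := (Subgroup.eq_top_iff' V).mpr hcon
      rw [this, Subgroup.index_top] at hidx
      exact hp.one_lt.ne hidx
    set U' : Subgroup G := V.map U.subtype with hU'
    have hU'card : Nat.card U' = p ^ k := by
      rw [← hV]
      exact Nat.card_congr (Subgroup.equivMapOfInjective V U.subtype U.subtype_injective).toEquiv.symm
    have hzn : ∀ u ∈ U', (v : G)⁻¹ * u * (v : G) ∈ U' := by
      rintro u ⟨t, ht, rfl⟩
      refine ⟨v⁻¹ * t * v, ?_, by simp⟩
      have := hVn.conj_mem t ht v⁻¹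
      simpa using this
    have hzp : (v : G) ^ p ∈ U' := by
      refine ⟨v ^ p, ?_, by simp⟩
      have := Subgroup.pow_index_mem V v
      rwa [hidx] at this
    have hcardq : Nat.card (U ⧸ V) = p := hidx
    have hvbar : (v : U ⧸ V) ≠ 1 := by
      intro h
      exact hv ((QuotientGroup.eq_one_iff v).mp h)
    have hgen := zpowers_eq_top_of_prime_card hcardq hvbar
    set M : Ideal (MonoidAlgebra F G) :=
      Ideal.span {single (v : G) (1 : F) - 1} ⊔ L F U' with hM
    have hzT : (v : G) ∈ T F M :=
      Ideal.mem_sup_left (Ideal.subset_span rfl)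
    have hU'T : U' ≤ T F M := fun u hu => Ideal.mem_sup_right (sub_one_mem_L F hu)
    have hUT : U ≤ T F M := by
      intro w hw
      have hmem : ((⟨w, hw⟩ : U) : U ⧸ V) ∈ Subgroup.zpowers (v : U ⧸ V) := by
        rw [hgen]; trivial
      obtain ⟨i, hi⟩ := Subgroup.mem_zpowers_iff.mp hmem
      have h1 : (v ^ i)⁻¹ * ⟨w, hw⟩ ∈ V := by
        rw [← QuotientGroup.eq, QuotientGroup.mk_zpow]; exact hi
      have h2 : w = (v : G) ^ i * (((v ^ i)⁻¹ * ⟨w, hw⟩ : U) : G) := by simp
      rw [h2]
      exact (T F M).mul_mem ((T F M).zpow_mem hzT i) (hU'T ⟨_, h1, rfl⟩)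
    have hLM : L F U ≤ M := by
      unfold L
      rw [Ideal.span_le]
      rintro x ⟨u, hu, rfl⟩
      exact hUT hu
    obtain ⟨y, hy, b, hb, hyb⟩ := Submodule.mem_sup.mp (hLM hc)
    obtain ⟨a, ha⟩ := Ideal.mem_span_singleton'.mp hy
    have hc' : c = a * (single (v : G) (1 : F) - 1) + b := by rw [ha, hyb]
    have hcp := step F p hzn hzp hcc hb hc'
    have hcpc : ∀ y, Commute (c ^ p) y := fun y => (hcc y).pow_left p
    obtain ⟨n, hn⟩ := ih U' hU'card (c ^ p) hcpc hcp
    exact ⟨p * n, by rw [pow_mul]; exact hn⟩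

theorem classSum_central [Fintype G] [DecidableEq G] (g : G) [DecidablePred (fun x => IsConj g x)]
    (y : MonoidAlgebra F G) :
    Commute (∑ x ∈ Finset.univ.filter (fun x => IsConj g x), single x (1 : F)) y := by
  induction y using MonoidAlgebra.induction_linear with
  | zero => exact Commute.zero_right _
  | add x y hx hy => exact hx.add_right hy
  | single h a =>
    show (∑ x ∈ Finset.univ.filter (fun x => IsConj g x), single x (1 : F)) * single h a =
      single h a * ∑ x ∈ Finset.univ.filter (fun x => IsConj g x), single x (1 : F)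
    rw [Finset.sum_mul, Finset.mul_sum]
    simp only [single_mul_single, one_mul, mul_one]
    refine Finset.sum_nbij' (fun x => h⁻¹ * x * h) (fun x => h * x * h⁻¹) ?_ ?_ ?_ ?_ ?_
    · intro x hx
      rw [Finset.mem_filter] at hx ⊢
      refine ⟨Finset.mem_univ _, hx.2.trans (isConj_iff.mpr ⟨h⁻¹, by simp⟩)⟩
    · intro x hx
      rw [Finset.mem_filter] at hx ⊢
      exact ⟨Finset.mem_univ _, hx.2.trans (isConj_iff.mpr ⟨h, rfl⟩)⟩
    · intro x _; group
    · intro x _; group
    · intro x _
      congr 1
      group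

theorem classSum_mem (p : ℕ) [Fact p.Prime] [CharP F p] [Fintype G] (Q : Subgroup G)
    [hQn : Q.Normal] (hQ : IsPGroup p Q) (g : G) [DecidablePred (fun x => IsConj g x)]
    (hg : ∀ x : G, IsConj g x → x ∉ Subgroup.centralizer (Q : Set G)) :
    ∑ x ∈ Finset.univ.filter (fun x => IsConj g x), single x (1 : F) ∈ L F Q := by
  classical
  set Kf := Finset.univ.filter (fun x => IsConj g x) with hKf
  have h1 : ∑ x ∈ Kf, single x (1 : F) =
      ∑ x ∈ Kf, (single x (1 : F) - single ((x : G ⧸ Q).out) 1) +
        ∑ x ∈ Kf, single ((x : G ⧸ Q).out) (1 : F) := by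
    rw [← Finset.sum_add_distrib]
    simp
  rw [h1]
  apply Ideal.add_mem
  · apply Ideal.sum_mem
    intro x _
    obtain ⟨h, hh⟩ := QuotientGroup.mk_out_eq_mul Q x
    have : single x (1 : F) - single ((x : G ⧸ Q).out) 1 =
        -(single x (1 : F) * (single (h : G) 1 - 1)) := by
      rw [hh, mul_sub, single_mul_single, mul_one, mul_one]; abel
    rw [this]
    exact Submodule.neg_mem _ (Ideal.mul_mem_left _ _ (sub_one_mem_L F h.2))
  · have : ∑ x ∈ Kf, single ((x : G ⧸ Q).out) (1 : F) = 0 := by
      haveI : Fintype (G ⧸ Q) := Fintype.ofFinite _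
      rw [← Finset.sum_fiberwise Kf (fun x : G => (QuotientGroup.mk x : G ⧸ Q)) (fun x : G => single ((QuotientGroup.mk x : G ⧸ Q).out) (1 : F))]
      apply Finset.sum_eq_zero
      intro q _
      have e : ∀ x ∈ Kf.filter (fun x : G => (QuotientGroup.mk x : G ⧸ Q) = q),
          single ((x : G ⧸ Q).out) (1 : F) = single q.out 1 := by
        intro x hx
        rw [Finset.mem_filter] at hx
        rw [hx.2]
      rw [Finset.sum_congr rfl e, Finset.sum_const, ← Nat.cast_smul_eq_nsmul F, smul_single,
        smul_eq_mul, mul_one]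
      have hdvd : p ∣ (Kf.filter (fun x : G => (QuotientGroup.mk x : G ⧸ Q) = q)).card := by
        let act : MulAction Q {x : G // IsConj g x ∧ (x : G ⧸ Q) = q} :=
          { smul := fun u x => ⟨(u : G) * x.1 * (u : G)⁻¹,
              x.2.1.trans (isConj_iff.mpr ⟨(u : G), rfl⟩), by
                refine Eq.trans ?_ x.2.2
                rw [QuotientGroup.eq]
                have h2 : ((u : G) * x.1 * (u : G)⁻¹)⁻¹ * x.1 =
                    (u : G) * (x.1⁻¹ * (u : G)⁻¹ * x.1⁻¹⁻¹) := by group
                rw [h2]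
                exact Q.mul_mem u.2 (hQn.conj_mem _ (Q.inv_mem u.2) _)⟩
            one_smul := by
              rintro ⟨x, hx⟩
              apply Subtype.ext
              show ((1 : Q) : G) * x * ((1 : Q) : G)⁻¹ = x
              simp
            mul_smul := by
              rintro u v ⟨x, hx⟩
              apply Subtype.ext
              show ((u * v : Q) : G) * x * ((u * v : Q) : G)⁻¹ =
                (u : G) * ((v : G) * x * (v : G)⁻¹) * (u : G)⁻¹
              simp [mul_assoc] }
        have key := hQ.card_modEq_card_fixedPoints {x : G // IsConj g x ∧ (x : G ⧸ Q) = q}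
        have hempty : IsEmpty (MulAction.fixedPoints Q {x : G // IsConj g x ∧ (x : G ⧸ Q) = q}) := by
          constructor
          rintro ⟨⟨x, hx1, hx2⟩, hfix⟩
          apply hg x hx1
          rw [Subgroup.mem_centralizer_iff]
          intro u hu
          have := hfix ⟨u, hu⟩
          have h4 : u * x * u⁻¹ = x := congrArg Subtype.val this
          exact mul_inv_eq_iff_eq_mul.mp h4
        have h0 : Nat.card (MulAction.fixedPoints Q {x : G // IsConj g x ∧ (x : G ⧸ Q) = q}) = 0 :=
          Nat.card_of_isEmpty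
        rw [h0] at key
        have h5 : Nat.card {x : G // IsConj g x ∧ (x : G ⧸ Q) = q} =
            (Kf.filter (fun x : G => (QuotientGroup.mk x : G ⧸ Q) = q)).card := by
          rw [Nat.card_eq_fintype_card, Fintype.card_subtype, hKf, Finset.filter_filter]
        rw [← h5]
        exact (Nat.modEq_zero_iff_dvd).mp key
      rw [(CharP.cast_eq_zero_iff F p _).mpr hdvd, single_zero]
    rw [this]
    exact Ideal.zero_mem _

end

/-- Let F be a field of characteristic p and let g be an element of the finite group G no conjugate of which centralizes O_p(G). Then the class sum of g is a nilpotent element of the group algebra F[G]. -/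
theorem result {G : Type*} [Group G] [Finite G] (p : ℕ) [Fact p.Prime] (F : Type*) [Field F] [CharP F p] (g : G) (hg : ∀ x : G, IsConj g x → x ∉ Subgroup.centralizer (Cfsg.pCore p G : Set G)) : IsNilpotent (∑ᶠ x ∈ ConjClasses.carrier (ConjClasses.mk g), MonoidAlgebra.single x (1 : F) : MonoidAlgebra F G) := by
  classical
  haveI := Fintype.ofFinite G
  have hQn : (Cfsg.pCore p G).Normal := Subgroup.sSup_normal _ (fun H hH => hH.1)
  have hQp : IsPGroup p (Cfsg.pCore p G) :=
    Sylow.sSup_of_normal _ (fun H hH => hH.2) (fun H hH => hH.1)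
  obtain ⟨k, hk⟩ := hQp.exists_card_eq
  have e : (∑ᶠ x ∈ ConjClasses.carrier (ConjClasses.mk g), MonoidAlgebra.single x (1 : F) :
      MonoidAlgebra F G) =
      ∑ x ∈ Finset.univ.filter (fun x => IsConj g x), MonoidAlgebra.single x (1 : F) := by
    rw [finsum_mem_eq_finite_toFinset_sum _ (Set.toFinite _)]
    apply Finset.sum_congr _ (fun _ _ => rfl)
    ext x
    simp only [Set.Finite.mem_toFinset, ConjClasses.mem_carrier_iff_mk_eq,
      ConjClasses.mk_eq_mk_iff_isConj, Finset.mem_filter, Finset.mem_univ, true_and]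
    exact isConj_comm
  rw [e]
  exact nilp F p k (Cfsg.pCore p G) hk _ (classSum_central F g) (classSum_mem F p _ hQp g hg)

end Cfsg.Agent.S0905
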