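import Cfsg.Statements.S0910
import Cfsg.Agent.Lib.Helper3.Burnside
import Cfsg.Agent.Lib.Helper16.LocalRing

set_option autoImplicit false
open Cfsg

namespace Cfsg.Agent.S0910

/-- Let G be a non-abelian finite simple group and p a prime. If an irreducible character χ lies in the principal block (relative to a maximal ideal of the algebraic integers containing p) and χ 1 is a power of p, then χ is the principal character. -/
theorem result {G : Type*} [Group G] [Finite G] (p : ℕ) [Fact p.Prime] (M : Ideal Cfsg.AlgInt) (hM : Cfsg.IsPModular p M) [IsSimpleGroup G] (hna : ∃ a b : G, a * b ≠ b * a) (χ : Cfsg.IrrCharacter G) (hχ : χ ∈ Cfsg.principalBlock M G) (k : ℕ) (hdeg : (χ : G → ℂ) 1 = (p : ℂ) ^ k) : (χ : G → ℂ) = fun _ => 1 := by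
  classical
  have hp : p.Prime := Fact.out
  have hPr := Cfsg.Agent.Lib.Helper16.isPrime_of_isPModular hM
  -- a non-identity element whose class size is prime to `p`
  have hz : ∃ z : G, z ≠ 1 ∧ ¬ p ∣ (Subgroup.centralizer ({z} : Set G)).index := by
    obtain ⟨P⟩ := (inferInstance : Nonempty (Sylow p G))
    by_cases hP : (P : Subgroup G) = ⊥
    · obtain ⟨z, hz⟩ := exists_ne (1 : G)
      refine ⟨z, hz, fun hd => ?_⟩
      have h1 : p ∣ Nat.card G := hd.trans (Subgroup.index_dvd_card _)
      exact P.ne_bot_of_dvd_card h1 hP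
    · have hnt : Nontrivial (P : Subgroup G) := (Subgroup.nontrivial_iff_ne_bot _).mpr hP
      have hc := P.isPGroup'.center_nontrivial
      obtain ⟨z, hz⟩ := exists_ne (1 : Subgroup.center (P : Subgroup G))
      refine ⟨((z : (P : Subgroup G)) : G), ?_, fun hd => ?_⟩
      · intro h
        apply hz
        apply Subtype.ext
        apply Subtype.ext
        simpa using h
      · have hle : (P : Subgroup G) ≤ Subgroup.centralizer ({((z : (P : Subgroup G)) : G)} : Set G) := by
          intro y hy
          rw [Subgroup.mem_centralizer_iff]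
          intro w hw
          rw [Set.mem_singleton_iff] at hw
          subst hw
          have := (Subgroup.mem_center_iff.mp z.2) ⟨y, hy⟩
          exact (congrArg Subtype.val this).symm
        exact P.not_dvd_index (hd.trans (Subgroup.index_dvd_of_le hle))
  obtain ⟨z, hz1, hzp⟩ := hz
  by_contra hne
  obtain ⟨n, ρ, hρ, hχ'⟩ := χ.2
  have hdeg' : (χ : G → ℂ) 1 = n := by rw [← hχ', Representation.char_one]; simp
  have hn : n = p ^ k := by
    have : (n : ℂ) = ((p ^ k : ℕ) : ℂ) := by rw [← hdeg', hdeg]; push_cast; rfl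
    exact_mod_cast this
  have hcop : Nat.Coprime (Module.finrank ℂ (Fin n → ℂ))
      (Subgroup.centralizer ({z} : Set G)).index := by
    rw [Module.finrank_fin_fun, hn]
    exact Nat.Coprime.pow_left k ((Nat.Prime.coprime_iff_not_dvd hp).mpr hzp)
  have hsb : Cfsg.MemLocalIdeal M (Cfsg.centralChar (fun _ : G => (1 : ℂ)) z -
      Cfsg.centralChar (χ : G → ℂ) z) := hχ z
  rcases Cfsg.Agent.S0142.result ρ z hcop with h0 | h1
  · apply hzp
    rw [← Cfsg.Agent.Lib.Helper16.memLocalIdeal_natCast_iff hM]
    have e : Cfsg.centralChar (fun _ : G => (1 : ℂ)) z - Cfsg.centralChar (χ : G → ℂ) z =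
        ((Subgroup.centralizer ({z} : Set G)).index : ℂ) := by
      unfold Cfsg.centralChar
      rw [← hχ', h0]
      simp
    rw [e] at hsb
    exact hsb
  · obtain ⟨ω, hω⟩ := (Cfsg.Agent.Lib.Helper3.norm_character_eq_iff ρ z).mp h1
    have hnab : ¬ ∀ x y : G, x * y = y * x := by
      obtain ⟨a, b, hab⟩ := hna
      exact fun h => hab (h a b)
    exact Cfsg.Agent.Lib.Helper3.not_scalar_of_simple hnab ρ (by rw [hχ']; exact hne) z hz1 ω hω

end Cfsg.Agent.S0910
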