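import Cfsg.Statements.S0916
import Mathlib
-- import your own Cfsg.Agent.* helpers here

set_option autoImplicit false
open Cfsg

namespace Cfsg.Agent.S0916

open scoped Pointwise

/-- In a finite group, an element conjugating `H` into itself normalizes `H`. -/
theorem mem_normalizer_of_conj_le' {G : Type*} [Group G] [Finite G] (H : Subgroup G) (g : G)
    (h : ∀ x ∈ H, g * x * g⁻¹ ∈ H) : g ∈ Subgroup.normalizer (H : Set G) := by
  have hinj : Function.Injective (fun x : H => (⟨g * x * g⁻¹, h x x.2⟩ : H)) := by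
    intro x y hxy
    have h1 : g * (x : G) * g⁻¹ = g * (y : G) * g⁻¹ := congrArg Subtype.val hxy
    apply Subtype.ext
    have h2 := congrArg (fun t => g⁻¹ * t * g) h1
    simpa [mul_assoc] using h2
  have hsurj := Finite.surjective_of_injective hinj
  rw [Subgroup.mem_normalizer_iff]
  intro x
  refine ⟨fun hx => h x hx, fun hx => ?_⟩
  obtain ⟨y, hy⟩ := hsurj ⟨g * x * g⁻¹, hx⟩
  have h1 : g * (y : G) * g⁻¹ = g * x * g⁻¹ := congrArg Subtype.val hy
  have h2 := congrArg (fun t => g⁻¹ * t * g) h1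
  have h3 : (y : G) = x := by simpa [mul_assoc] using h2
  rw [← h3]
  exact y.2

theorem exists_mem_normalizer_not_mem' {G : Type*} [Group G] [Finite G] {p : ℕ} [Fact p.Prime]
    {S D : Subgroup G} (hS : IsPGroup p S) (hD : D < S) :
    ∃ y ∈ S, y ∈ Subgroup.normalizer (D : Set G) ∧ y ∉ D := by
  have : Group.IsNilpotent S := hS.isNilpotent
  have hnc : NormalizerCondition S := Group.normalizerCondition_of_isNilpotent
  have hlt : D.subgroupOf S < ⊤ := by
    rw [lt_top_iff_ne_top]
    intro h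
    rw [Subgroup.subgroupOf_eq_top] at h
    exact hD.ne (le_antisymm hD.le h)
  have h1 := hnc _ hlt
  obtain ⟨y, hy1, hy2⟩ := SetLike.exists_of_lt h1
  refine ⟨y, y.2, ?_, ?_⟩
  · rw [← Subgroup.subgroupOf_normalizer_eq hD.le] at hy1
    exact hy1
  · intro hy; exact hy2 (Subgroup.mem_subgroupOf.mpr hy)

theorem card_centralizer_conj {G : Type*} [Group G] (g x : G) :
    Nat.card (Subgroup.centralizer ({x * g * x⁻¹} : Set G)) =
      Nat.card (Subgroup.centralizer ({g} : Set G)) := by
  apply Nat.card_congr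
  refine
    { toFun := fun s => ⟨x⁻¹ * s.1 * x, ?_⟩
      invFun := fun t => ⟨x * t.1 * x⁻¹, ?_⟩
      left_inv := fun s => Subtype.ext (by group)
      right_inv := fun t => Subtype.ext (by group) }
  · rw [Subgroup.mem_centralizer_singleton_iff]
    have hs := Subgroup.mem_centralizer_singleton_iff.mp s.2
    calc x⁻¹ * s.1 * x * g = x⁻¹ * (s.1 * (x * g * x⁻¹)) * x := by group
      _ = x⁻¹ * ((x * g * x⁻¹) * s.1) * x := by rw [hs]
      _ = g * (x⁻¹ * s.1 * x) := by group
  · rw [Subgroup.mem_centralizer_singleton_iff]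
    have ht := Subgroup.mem_centralizer_singleton_iff.mp t.2
    calc x * t.1 * x⁻¹ * (x * g * x⁻¹) = x * (t.1 * g) * x⁻¹ := by group
      _ = x * (g * t.1) * x⁻¹ := by rw [ht]
      _ = x * g * x⁻¹ * (x * t.1 * x⁻¹) := by group

theorem exists_conj_of_card {G : Type*} [Group G] [Finite G] {p : ℕ} [Fact p.Prime]
    {K P Q : Subgroup G} (hP : P ≤ K) (hQ : Q ≤ K)
    (hPc : Nat.card P = p ^ (Nat.card K).factorization p)
    (hQc : Nat.card Q = p ^ (Nat.card K).factorization p) :
    ∃ z ∈ K, ∀ x ∈ Q, z * x * z⁻¹ ∈ P := by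
  have h1 : Nat.card (P.subgroupOf K) = p ^ (Nat.card K).factorization p := by
    rw [← hPc]; exact Nat.card_congr (Subgroup.subgroupOfEquivOfLe hP).toEquiv
  have h2 : Nat.card (Q.subgroupOf K) = p ^ (Nat.card K).factorization p := by
    rw [← hQc]; exact Nat.card_congr (Subgroup.subgroupOfEquivOfLe hQ).toEquiv
  let S₁ : Sylow p K := Sylow.ofCard (P.subgroupOf K) h1
  let S₂ : Sylow p K := Sylow.ofCard (Q.subgroupOf K) h2
  obtain ⟨z, hz⟩ := MulAction.exists_smul_eq K S₂ S₁
  refine ⟨z, z.2, fun x hx => ?_⟩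
  have hx2 : (⟨x, hQ hx⟩ : K) ∈ (S₂ : Subgroup K) := by
    show (⟨x, hQ hx⟩ : K) ∈ Q.subgroupOf K
    exact Subgroup.mem_subgroupOf.mpr hx
  have h3 : MulAut.conj z • (⟨x, hQ hx⟩ : K) ∈ MulAut.conj z • (S₂ : Subgroup K) :=
    Subgroup.smul_mem_pointwise_smul _ _ _ hx2
  have h4 : MulAut.conj z • (S₂ : Subgroup K) = ((z • S₂ : Sylow p K) : Subgroup K) := rfl
  rw [h4, hz] at h3
  have h5 : MulAut.conj z • (⟨x, hQ hx⟩ : K) ∈ P.subgroupOf K := h3
  exact Subgroup.mem_subgroupOf.mp h5

/-- Let P be a p-subgroup of the finite group G, C its centralizer and N its normalizer. Say that a conjugacy class (of G, or of N) has defect group P when P is a Sylow p-subgroup of the centralizer (in G, respectively in N) of some element of the class. Then: (i) if the class of g in G has defect group P, the elements of that class lying in C form a single N-class, again with defect group P; (ii) every N-class with defect group P arises this way from exactly one G-class with defect group P. -/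
theorem result {G : Type*} [Group G] [Finite G] (p : ℕ) [Fact p.Prime] (P : Subgroup G) (hP : IsPGroup p P) : (∀ g : G, (∃ S : Sylow p (Subgroup.centralizer ({g} : Set G)), (S : Subgroup (Subgroup.centralizer ({g} : Set G))).map (Subgroup.centralizer ({g} : Set G)).subtype = P) → (∃ c : G, IsConj g c ∧ c ∈ Subgroup.centralizer (P : Set G)) ∧ (∀ c₁ c₂ : G, IsConj g c₁ → IsConj g c₂ → c₁ ∈ Subgroup.centralizer (P : Set G) → c₂ ∈ Subgroup.centralizer (P : Set G) → ∃ n ∈ Subgroup.normalizer (P : Set G), n * c₁ * n⁻¹ = c₂)) ∧ (∀ c : G, c ∈ Subgroup.centralizer (P : Set G) → (∃ S : Sylow p (Subgroup.centralizer ({c} : Set G) ⊓ Subgroup.normalizer (P : Set G) : Subgroup G), (S : Subgroup ↥(Subgroup.centralizer ({c} : Set G) ⊓ Subgroup.normalizer (P : Set G))).map (Subgroup.centralizer ({c} : Set G) ⊓ Subgroup.normalizer (P : Set G)).subtype = P) → ∃ S : Sylow p (Subgroup.centralizer ({c} : Set G)), (S : Subgroup (Subgroup.centralizer ({c} : Set G))).map (Subgroup.centralizer ({c} : Set G)).subtype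 = P) := by
  refine ⟨?_, ?_⟩
  · rintro g ⟨S, hS⟩
    have hPle : P ≤ Subgroup.centralizer ({g} : Set G) := by
      rw [← hS]; exact Subgroup.map_subtype_le _
    have hPcard : Nat.card P =
        p ^ (Nat.card (Subgroup.centralizer ({g} : Set G))).factorization p := by
      rw [← S.card_eq_multiplicity, ← hS]
      exact (Nat.card_congr
        (Subgroup.equivMapOfInjective _ _ (Subgroup.subtype_injective _)).toEquiv).symm
    have hgP : g ∈ Subgroup.centralizer (P : Set G) := by
      rw [Subgroup.mem_centralizer_iff]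
      intro x hx
      exact Subgroup.mem_centralizer_singleton_iff.mp (hPle hx)
    refine ⟨⟨g, IsConj.refl g, hgP⟩, ?_⟩
    intro c₁ c₂ h1 h2 hc1 hc2
    obtain ⟨x₁, rfl⟩ := isConj_iff.mp h1
    obtain ⟨x₂, rfl⟩ := isConj_iff.mp h2
    have hyc : (x₂ * x₁⁻¹) * (x₁ * g * x₁⁻¹) * (x₂ * x₁⁻¹)⁻¹ = x₂ * g * x₂⁻¹ := by group
    generalize x₂ * x₁⁻¹ = y at hyc
    have hPK : P ≤ Subgroup.centralizer ({x₂ * g * x₂⁻¹} : Set G) := by
      intro x hx
      rw [Subgroup.mem_centralizer_singleton_iff]
      exact Subgroup.mem_centralizer_iff.mp hc2 x hx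
    have hQK : MulAut.conj y • P ≤ Subgroup.centralizer ({x₂ * g * x₂⁻¹} : Set G) := by
      rintro _ ⟨x, hx, rfl⟩
      rw [Subgroup.mem_centralizer_singleton_iff]
      have hxc : x * (x₁ * g * x₁⁻¹) = (x₁ * g * x₁⁻¹) * x :=
        Subgroup.mem_centralizer_iff.mp hc1 x hx
      show y * x * y⁻¹ * (x₂ * g * x₂⁻¹) = x₂ * g * x₂⁻¹ * (y * x * y⁻¹)
      rw [← hyc]
      calc y * x * y⁻¹ * (y * (x₁ * g * x₁⁻¹) * y⁻¹)
          = y * (x * (x₁ * g * x₁⁻¹)) * y⁻¹ := by group
        _ = y * ((x₁ * g * x₁⁻¹) * x) * y⁻¹ := by rw [hxc]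
        _ = y * (x₁ * g * x₁⁻¹) * y⁻¹ * (y * x * y⁻¹) := by group
    have hKcard : Nat.card (Subgroup.centralizer ({x₂ * g * x₂⁻¹} : Set G)) =
        Nat.card (Subgroup.centralizer ({g} : Set G)) := card_centralizer_conj g x₂
    have hPc : Nat.card P =
        p ^ (Nat.card (Subgroup.centralizer ({x₂ * g * x₂⁻¹} : Set G))).factorization p := by
      rw [hKcard]; exact hPcard
    have hQc : Nat.card (MulAut.conj y • P : Subgroup G) =
        p ^ (Nat.card (Subgroup.centralizer ({x₂ * g * x₂⁻¹} : Set G))).factorization p := by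
      rw [← hPc]
      exact (Nat.card_congr (Subgroup.equivSMul (MulAut.conj y) P).toEquiv).symm
    obtain ⟨z, hzK, hz⟩ := exists_conj_of_card hPK hQK hPc hQc
    refine ⟨z * y, ?_, ?_⟩
    · apply mem_normalizer_of_conj_le'
      intro x hx
      have h3 : y * x * y⁻¹ ∈ MulAut.conj y • P := ⟨x, hx, rfl⟩
      have h4 := hz _ h3
      have h5 : z * y * x * (z * y)⁻¹ = z * (y * x * y⁻¹) * z⁻¹ := by group
      rw [h5]; exact h4
    · have hzc : z * (x₂ * g * x₂⁻¹) = x₂ * g * x₂⁻¹ * z :=
        Subgroup.mem_centralizer_singleton_iff.mp hzK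
      calc z * y * (x₁ * g * x₁⁻¹) * (z * y)⁻¹
          = z * (y * (x₁ * g * x₁⁻¹) * y⁻¹) * z⁻¹ := by group
        _ = z * (x₂ * g * x₂⁻¹) * z⁻¹ := by rw [hyc]
        _ = x₂ * g * x₂⁻¹ * z * z⁻¹ := by rw [hzc]
        _ = x₂ * g * x₂⁻¹ := by group
  · rintro c hc ⟨S, hS⟩
    have hPL : P ≤ Subgroup.centralizer ({c} : Set G) ⊓ Subgroup.normalizer (P : Set G) := by
      intro x hx
      rw [← hS] at hx
      obtain ⟨s, -, rfl⟩ := hx
      exact s.2
    have hPC : P ≤ Subgroup.centralizer ({c} : Set G) := hPL.trans inf_le_left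
    obtain ⟨Q, hQ⟩ :=
      (hP.comap_subtype (K := Subgroup.centralizer ({c} : Set G))).exists_le_sylow
    refine ⟨Q, ?_⟩
    have hPQ : P ≤ (Q : Subgroup (Subgroup.centralizer ({c} : Set G))).map
        (Subgroup.centralizer ({c} : Set G)).subtype := by
      intro x hx
      exact ⟨⟨x, hPC hx⟩, hQ (Subgroup.mem_subgroupOf.mpr hx), rfl⟩
    by_contra hne
    have hlt : P < (Q : Subgroup (Subgroup.centralizer ({c} : Set G))).map
        (Subgroup.centralizer ({c} : Set G)).subtype :=
      lt_of_le_of_ne hPQ (fun h => hne h.symm)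
    have hQ₀p : IsPGroup p ((Q : Subgroup (Subgroup.centralizer ({c} : Set G))).map
        (Subgroup.centralizer ({c} : Set G)).subtype) := Q.isPGroup'.map _
    obtain ⟨y, hyQ, hyN, hyP⟩ := exists_mem_normalizer_not_mem' hQ₀p hlt
    have hRL : (Q : Subgroup (Subgroup.centralizer ({c} : Set G))).map
        (Subgroup.centralizer ({c} : Set G)).subtype ⊓ Subgroup.normalizer (P : Set G) ≤
        Subgroup.centralizer ({c} : Set G) ⊓ Subgroup.normalizer (P : Set G) := by
      intro x hx
      refine ⟨?_, hx.2⟩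
      obtain ⟨q, -, rfl⟩ := hx.1
      exact q.2
    have hRp : IsPGroup p ((Q : Subgroup (Subgroup.centralizer ({c} : Set G))).map
        (Subgroup.centralizer ({c} : Set G)).subtype ⊓ Subgroup.normalizer (P : Set G) :
        Subgroup G) := hQ₀p.to_le inf_le_left
    have hSR : (S : Subgroup (Subgroup.centralizer ({c} : Set G) ⊓
        Subgroup.normalizer (P : Set G) : Subgroup G)) ≤
        ((Q : Subgroup (Subgroup.centralizer ({c} : Set G))).map
        (Subgroup.centralizer ({c} : Set G)).subtype ⊓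
        Subgroup.normalizer (P : Set G)).subgroupOf
        (Subgroup.centralizer ({c} : Set G) ⊓ Subgroup.normalizer (P : Set G)) := by
      intro s hs
      rw [Subgroup.mem_subgroupOf]
      have h1 : (s : G) ∈ Subgroup.map (Subgroup.centralizer ({c} : Set G) ⊓
          Subgroup.normalizer (P : Set G)).subtype
          (S : Subgroup (Subgroup.centralizer ({c} : Set G) ⊓
          Subgroup.normalizer (P : Set G) : Subgroup G)) := ⟨s, hs, rfl⟩
      rw [hS] at h1
      exact ⟨hPQ h1, Subgroup.le_normalizer h1⟩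
    have hmax : ((Q : Subgroup (Subgroup.centralizer ({c} : Set G))).map
        (Subgroup.centralizer ({c} : Set G)).subtype ⊓
        Subgroup.normalizer (P : Set G)).subgroupOf
        (Subgroup.centralizer ({c} : Set G) ⊓ Subgroup.normalizer (P : Set G)) =
        (S : Subgroup (Subgroup.centralizer ({c} : Set G) ⊓
        Subgroup.normalizer (P : Set G) : Subgroup G)) :=
      S.is_maximal' (hRp.comap_subtype
        (K := Subgroup.centralizer ({c} : Set G) ⊓ Subgroup.normalizer (P : Set G))) hSR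
    have hyR : (⟨y, hRL ⟨hyQ, hyN⟩⟩ : (Subgroup.centralizer ({c} : Set G) ⊓
        Subgroup.normalizer (P : Set G) : Subgroup G)) ∈
        ((Q : Subgroup (Subgroup.centralizer ({c} : Set G))).map
        (Subgroup.centralizer ({c} : Set G)).subtype ⊓
        Subgroup.normalizer (P : Set G)).subgroupOf
        (Subgroup.centralizer ({c} : Set G) ⊓ Subgroup.normalizer (P : Set G)) :=
      Subgroup.mem_subgroupOf.mpr ⟨hyQ, hyN⟩
    rw [hmax] at hyR
    have h6 : y ∈ Subgroup.map (Subgroup.centralizer ({c} : Set G) ⊓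
        Subgroup.normalizer (P : Set G)).subtype
        (S : Subgroup (Subgroup.centralizer ({c} : Set G) ⊓
        Subgroup.normalizer (P : Set G) : Subgroup G)) := ⟨_, hyR, rfl⟩
    rw [hS] at h6
    exact hyP h6

end Cfsg.Agent.S0916
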