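import Cfsg.Statements.S0926
import Cfsg.Agent.Lib.Helper78.HeightZero
import Cfsg.Agent.S0924

set_option autoImplicit false
open Cfsg

namespace Cfsg.Agent.S0926

/-- Let B be a block of the finite group G with defect group D (relative to a maximal ideal M of the algebraic integers containing p), let χ ∈ B have height zero, and let x be a p-element. Then some conjugate of x lies in D if and only if χ does not vanish on the whole p-section of x (the elements whose p-part is conjugate to x). -/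
theorem result {G : Type*} [Group G] [Finite G] (p : ℕ) [Fact p.Prime] (M : Ideal Cfsg.AlgInt) (hM : Cfsg.IsPModular p M) (B : Set (Cfsg.IrrCharacter G)) (hB : Cfsg.IsPBlock M B) (D : Subgroup G) (hD : Cfsg.IsDefectGroup p M B D) (χ : Cfsg.IrrCharacter G) (hχ : χ ∈ B) (h0 : Cfsg.blockHeight p B (χ : G → ℂ) = 0) (x : G) (hx : ∃ k : ℕ, orderOf x = p ^ k) : (∃ g : G, g * x * g⁻¹ ∈ D) ↔ ∃ u : G, (∃ z : G, Cfsg.IsPPart p u z ∧ IsConj x z) ∧ (χ : G → ℂ) u ≠ 0 := by
  classical
  have := Fintype.ofFinite G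
  have hP := Cfsg.Agent.Lib.Helper16.isPrime_of_isPModular hM
  have hp : p.Prime := hM.1
  obtain ⟨k, hk⟩ := hx
  constructor
  · rintro ⟨g, hg⟩
    obtain ⟨y, hy, P, rfl⟩ := hD
    obtain ⟨w, hw, hwe⟩ := hg
    have hreg := Cfsg.Agent.Lib.Helper78.isDefectClass_regular hM B hB y hy
    have hxy : Commute (g * x * g⁻¹) y := by
      rw [← hwe]
      have h := w.2
      rw [Subgroup.mem_centralizer_iff] at h
      exact (h y (Set.mem_singleton y)).symm
    have hord : orderOf (g * x * g⁻¹) = p ^ k := by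
      rw [← hk]
      exact orderOf_injective (MulAut.conj g).toMonoidHom (MulAut.conj g).injective x
    refine ⟨g * x * g⁻¹ * y, ⟨g * x * g⁻¹, ⟨y, rfl, hxy, ⟨k, hord⟩, hreg⟩,
      isConj_iff.2 ⟨g, rfl⟩⟩, ?_⟩
    intro hv
    apply Cfsg.Agent.Lib.Helper78.not_memLocalIdeal_irr_mul_defect_class hM B hB y hy χ hχ h0
      (g * x * g⁻¹) hxy k hord
    rw [hv]
    exact Cfsg.Agent.Lib.Helper16.memLocalIdeal_zero hP
  · rintro ⟨u, ⟨z, hz, hxz⟩, hu⟩
    by_contra hcon
    apply hu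
    apply Cfsg.Agent.S0924.result p M hM χ u z hz
    intro D' hD' hzD'
    rw [← Cfsg.Agent.Lib.Helper16.IsPBlock.eq_blockOf hP hB hχ] at hD'
    obtain ⟨t, ht⟩ := Cfsg.Agent.Lib.Helper77.isDefectGroup_conj hM B hB hD hD'
    rw [ht] at hzD'
    obtain ⟨d, hd, hdz⟩ := hzD'
    obtain ⟨c, hc⟩ := isConj_iff.1 hxz
    apply hcon
    refine ⟨t⁻¹ * c, ?_⟩
    have hdz' : t * d * t⁻¹ = z := hdz
    have e : t⁻¹ * c * x * (t⁻¹ * c)⁻¹ = d := by
      rw [mul_inv_rev, inv_inv]
      calc t⁻¹ * c * x * (c⁻¹ * t) = t⁻¹ * (c * x * c⁻¹) * t := by group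
        _ = t⁻¹ * (t * d * t⁻¹) * t := by rw [hc, hdz']
        _ = d := by group
    rw [e]
    exact hd

end Cfsg.Agent.S0926
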