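import Mathlib
import Cfsg.Statements.S0929
import Cfsg.Agent.Lib.Helper16.Green
import Cfsg.Agent.S0924
import Cfsg.Agent.Lib.Helper78.SecondMainChar

set_option autoImplicit false
open Cfsg

namespace Cfsg.Agent.S0929

open Cfsg.Agent.Lib.Helper16

/-- Let B be a block of the finite group G with defect group P (relative to a maximal ideal M of the algebraic integers containing p), and let g be an element at which the central character of some member of B is not in the local ideal at M. Then some conjugate x of g centralizes P and has its p-part in the centre of P. -/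
theorem result {G : Type*} [Group G] [Finite G] (p : ℕ) [Fact p.Prime] (M : Ideal Cfsg.AlgInt) (hM : Cfsg.IsPModular p M) (B : Set (Cfsg.IrrCharacter G)) (hB : Cfsg.IsPBlock M B) (P : Subgroup G) (hP : Cfsg.IsDefectGroup p M B P) (g : G) (hg : ∃ χ ∈ B, ¬ Cfsg.MemLocalIdeal M (Cfsg.centralChar (χ : G → ℂ) g)) : ∃ x : G, IsConj g x ∧ x ∈ Subgroup.centralizer (P : Set G) ∧ ∀ z : G, Cfsg.IsPPart p x z → z ∈ P ∧ ∀ w ∈ P, z * w = w * z := by
  classical
  have : Fintype G := Fintype.ofFinite G
  have hMp := isPrime_of_isPModular hM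
  have hp : p.Prime := Fact.out
  have hPp : IsPGroup p P := isPGroup_of_isDefectGroup hP
  have hPN : P ≤ Subgroup.normalizer (P : Set G) := Subgroup.le_normalizer
  have : Fintype (Subgroup.normalizer (P : Set G)) := Fintype.ofFinite _
  obtain ⟨b, hb⟩ := exists_isInducedBlock_normalizer hM B hB P hP
  obtain ⟨hbD, -⟩ := isDefectGroup_of_isInducedBlock_normalizer hM B hB P hP b hb
  have hnorm : (P.subgroupOf (Subgroup.normalizer (P : Set G))).Normal :=
    (Subgroup.normal_subgroupOf_iff_le_normalizer hPN).mpr le_rfl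
  obtain ⟨χ, hχ, hχg⟩ := hg
  obtain ⟨ξ, hξ⟩ := IsPBlock.nonempty hMp hb.1
  have h1 : ¬ MemLocalIdeal M (Cfsg.brauerCentralChar P (Subgroup.normalizer (P : Set G))
      (ξ : Subgroup.normalizer (P : Set G) → ℂ) g) := by
    intro hcon
    apply hχg
    have e : Cfsg.centralChar (χ : G → ℂ) g =
        Cfsg.brauerCentralChar P (Subgroup.normalizer (P : Set G))
          (ξ : Subgroup.normalizer (P : Set G) → ℂ) g +
        (Cfsg.inducedCentralChar (Subgroup.normalizer (P : Set G))
          (ξ : Subgroup.normalizer (P : Set G) → ℂ) g -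
          Cfsg.brauerCentralChar P (Subgroup.normalizer (P : Set G))
            (ξ : Subgroup.normalizer (P : Set G) → ℂ) g) -
        (Cfsg.inducedCentralChar (Subgroup.normalizer (P : Set G))
          (ξ : Subgroup.normalizer (P : Set G) → ℂ) g -
          Cfsg.centralChar (χ : G → ℂ) g) := by ring
    rw [e]
    exact memLocalIdeal_sub hMp (memLocalIdeal_add hMp hcon
      (inducedCentralChar_sub_brauer hM P _ hPp hPN le_rfl ξ g)) (hb.2.2 ξ hξ χ hχ g)
  rw [brauerCentralChar_eq_omega] at h1
  obtain ⟨l, hl1, hl2⟩ := exists_not_memLocalIdeal_of_omega hMp ξ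
    (isRClass_brRes hMp (le_refl (Subgroup.normalizer (P : Set G))) (isRClass_classInd hMp g)) h1
  have hlc : (l : G) ∈ Subgroup.centralizer (P : Set G) := by
    by_contra hc
    apply hl1
    unfold brRes
    rw [if_neg hc]
    exact memLocalIdeal_zero hMp
  have hlconj : IsConj g (l : G) := by
    by_contra hc
    apply hl1
    unfold brRes classInd
    rw [if_pos hlc, if_neg hc]
    exact memLocalIdeal_zero hMp
  have hξl : (ξ : Subgroup.normalizer (P : Set G) → ℂ) l ≠ 0 := by
    intro h0
    apply hl2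
    unfold Cfsg.centralChar
    rw [h0, mul_zero, zero_div]
    exact memLocalIdeal_zero hMp
  obtain ⟨z', hz'⟩ := Cfsg.Agent.Lib.Helper78.exists_isPPart hp l
  have hz'P : z' ∈ P.subgroupOf (Subgroup.normalizer (P : Set G)) := by
    by_contra hc
    apply hξl
    apply Cfsg.Agent.S0924.result p M hM ξ l z' hz'
    intro D' hD'
    have hbeq : b = Cfsg.blockOf M (ξ : Subgroup.normalizer (P : Set G) → ℂ) :=
      IsPBlock.eq_blockOf hMp hb.1 hξ
    rw [← hbeq] at hD'
    obtain ⟨t, ht⟩ := Cfsg.Agent.Lib.Helper77.isDefectGroup_conj hM b hb.1 hbD hD'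
    have hD'eq : D' = P.subgroupOf (Subgroup.normalizer (P : Set G)) := by
      rw [ht]
      ext w
      rw [mem_map_conj_iff]
      constructor
      · intro h
        have := hnorm.conj_mem _ h t
        convert this using 1
        group
      · intro h
        have := hnorm.conj_mem _ h t⁻¹
        simpa using this
    rw [hD'eq]
    exact hc
  refine ⟨(l : G), hlconj, hlc, ?_⟩
  intro z hz
  have hz'G : Cfsg.IsPPart p (l : G) (z' : G) := by
    obtain ⟨y', h1, h2, ⟨k, hk⟩, h4⟩ := hz'
    refine ⟨(y' : G), ?_, ?_, ⟨k, ?_⟩, ?_⟩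
    · rw [← h1]; rfl
    · exact congrArg Subtype.val h2.eq
    · rw [Subgroup.orderOf_coe]; exact hk
    · rw [Subgroup.orderOf_coe]; exact h4
  have hzz : z = (z' : G) := Cfsg.Agent.Lib.Helper78.isPPart_unique hp hz hz'G
  rw [hzz]
  refine ⟨Subgroup.mem_subgroupOf.mp hz'P, ?_⟩
  obtain ⟨c, hc, -⟩ := Cfsg.Agent.Lib.Helper78.isPPart_zpow_eq hp hz'G hz'G 1
    (fun h => hp.one_lt.ne' (Nat.dvd_one.mp h))
  have hzc : (z' : G) ∈ Subgroup.centralizer (P : Set G) := by
    rw [← hc]
    exact Subgroup.zpow_mem _ (Subgroup.pow_mem _ hlc 1) c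
  intro w hw
  exact (Subgroup.mem_centralizer_iff.mp hzc w hw).symm

end Cfsg.Agent.S0929
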