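import Mathlib
import Cfsg.Statements.S0930
import Cfsg.Agent.Lib.Helper16.Green
import Cfsg.Agent.S0927
import Cfsg.Agent.S0929
import Cfsg.Agent.Lib.Helper78.SecondMainChar

set_option autoImplicit false
open Cfsg

namespace Cfsg.Agent.S0930

open Cfsg.Agent.Lib.Helper16

/-- Let H be a subgroup of the finite group G and fix a maximal ideal M of the algebraic integers containing the prime p. If the block b of H with defect group D induces the block B of G with defect group P, then every element of the centre of P is conjugate in G to an element of the centre of D. -/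
theorem result {G : Type*} [Group G] [Finite G] (p : ℕ) [Fact p.Prime] (M : Ideal Cfsg.AlgInt) (hM : Cfsg.IsPModular p M) (H : Subgroup G) (b : Set (Cfsg.IrrCharacter H)) (B : Set (Cfsg.IrrCharacter G)) (hind : Cfsg.IsInducedBlock M H b B) (D : Subgroup H) (hD : Cfsg.IsDefectGroup p M b D) (P : Subgroup G) (hP : Cfsg.IsDefectGroup p M B P) (x : G) (hx : x ∈ P) (hxc : ∀ w ∈ P, x * w = w * x) : ∃ g : G, g * x * g⁻¹ ∈ D.map H.subtype ∧ ∀ w ∈ D.map H.subtype, (g * x * g⁻¹) * w = w * (g * x * g⁻¹) := by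
  classical
  have : Fintype G := Fintype.ofFinite G
  have : Fintype H := Fintype.ofFinite H
  have hMp := isPrime_of_isPModular hM
  have hp : p.Prime := Fact.out
  have hb := hind.1
  have hB := hind.2.1
  obtain ⟨y, hy, S, hS⟩ := id hP
  obtain ⟨χ, hχ⟩ := IsPBlock.nonempty hMp hB
  obtain ⟨ξ, hξ⟩ := IsPBlock.nonempty hMp hb
  have hxS : x ∈ (S : Subgroup (Subgroup.centralizer ({y} : Set G))).map
      (Subgroup.centralizer ({y} : Set G)).subtype := hS ▸ hx
  obtain ⟨x0, hx0S, hx0⟩ := hxS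
  have hx0' : (x0 : G) = x := hx0
  have hcent : ∀ w ∈ (S : Subgroup (Subgroup.centralizer ({y} : Set G))), x0 * w = w * x0 := by
    intro w hw
    apply Subtype.ext
    have hwP : (w : G) ∈ P := by
      rw [hS]
      exact ⟨w, hw, rfl⟩
    have := hxc (w : G) hwP
    rw [← hx0'] at this
    exact this
  have h1 := (Cfsg.Agent.S0927.result p M hM B hB y hy S x0 hx0S).2 hcent χ hχ
  have h2 : ¬ MemLocalIdeal M (omega (ξ : H → ℂ) (resFun H (classInd ((x0 : G) * y)))) := by
    rw [omega_resFun_classInd]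
    intro hcon
    apply h1
    have e : Cfsg.centralChar (χ : G → ℂ) ((x0 : G) * y) =
        Cfsg.inducedCentralChar H (ξ : H → ℂ) ((x0 : G) * y) -
        (Cfsg.inducedCentralChar H (ξ : H → ℂ) ((x0 : G) * y) -
          Cfsg.centralChar (χ : G → ℂ) ((x0 : G) * y)) := by ring
    rw [e]
    exact memLocalIdeal_sub hMp hcon (hind.2.2 ξ hξ χ hχ _)
  obtain ⟨l, hl1, hl2⟩ := exists_not_memLocalIdeal_of_omega hMp ξ
    (isRClass_resFun H (isRClass_classInd hMp _)) h2
  have hlconj : IsConj ((x0 : G) * y) (l : G) := by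
    by_contra hc
    apply hl1
    unfold resFun classInd
    rw [if_neg hc]
    exact memLocalIdeal_zero hMp
  obtain ⟨x', hx'conj, hx'c, hx'z⟩ := Cfsg.Agent.S0929.result p M hM b hb D hD l ⟨ξ, hξ, hl2⟩
  obtain ⟨z, hz⟩ := Cfsg.Agent.Lib.Helper78.exists_isPPart hp x'
  obtain ⟨hzD, hzc⟩ := hx'z z hz
  have hypreg : ¬ p ∣ orderOf y := by
    intro hdiv
    apply hy.2.1
    rw [Cfsg.Agent.Lib.Helper77.blockCoeff_eq_zero_of_singular hM B hB hdiv]
    exact memLocalIdeal_zero hMp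
  have hx0p : ∃ k : ℕ, orderOf (x0 : G) = p ^ k := by
    obtain ⟨k, hk⟩ := S.isPGroup' ⟨x0, hx0S⟩
    have hk' : x0 ^ p ^ k = 1 := by
      have := congrArg Subtype.val hk
      exact this
    have h3 : orderOf x0 ∣ p ^ k := orderOf_dvd_of_pow_eq_one hk'
    rw [Subgroup.orderOf_coe]
    obtain ⟨m, -, hm⟩ := (Nat.dvd_prime_pow hp).mp h3
    exact ⟨m, hm⟩
  have hcomm : Commute (x0 : G) y := by
    have := Subgroup.mem_centralizer_iff.mp x0.2 y (Set.mem_singleton y)
    exact this.symm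
  have hpart : Cfsg.IsPPart p ((x0 : G) * y) (x0 : G) := ⟨y, rfl, hcomm, hx0p, hypreg⟩
  obtain ⟨c, hc⟩ := isConj_iff.mp hlconj
  obtain ⟨d, hd⟩ := isConj_iff.mp hx'conj
  have hzG : Cfsg.IsPPart p (x' : G) (z : G) := by
    obtain ⟨y', h1', h2', ⟨k, hk⟩, h4'⟩ := hz
    refine ⟨(y' : G), ?_, ?_, ⟨k, ?_⟩, ?_⟩
    · rw [← h1']; rfl
    · exact congrArg Subtype.val h2'.eq
    · rw [Subgroup.orderOf_coe]; exact hk
    · rw [Subgroup.orderOf_coe]; exact h4'
  have hconjeq : (d : G) * c * ((x0 : G) * y) * ((d : G) * c)⁻¹ = (x' : G) := by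
    rw [← hd]
    have : ((d * l * d⁻¹ : H) : G) = (d : G) * (l : G) * (d : G)⁻¹ := by simp
    rw [this, ← hc]
    group
  have hpart2 := Cfsg.Agent.Lib.Helper78.isPPart_conj hpart ((d : G) * c)
  rw [hconjeq] at hpart2
  have heq : (d : G) * c * (x0 : G) * ((d : G) * c)⁻¹ = (z : G) :=
    Cfsg.Agent.Lib.Helper78.isPPart_unique hp hpart2 hzG
  refine ⟨(d : G) * c, ?_, ?_⟩
  · rw [← hx0', heq]
    exact ⟨z, hzD, rfl⟩
  · rintro _ ⟨w0, hw0, rfl⟩
    rw [← hx0', heq]
    exact congrArg Subtype.val (hzc w0 hw0)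

end Cfsg.Agent.S0930
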