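import Mathlib
import Cfsg.Statements.S0931
import Cfsg.Agent.Lib.Helper16.Green
import Cfsg.Agent.S0930
import Cfsg.Agent.S0917
import Cfsg.Agent.Lib.Helper77.Degree

set_option autoImplicit false
open Cfsg

namespace Cfsg.Agent.S0931

open Cfsg.Agent.Lib.Helper16

/-- Let H be a subgroup of the finite group G and fix a maximal ideal M of the algebraic integers containing the prime p. If the block b of H induces the block B of G, then b has defect 0 if and only if B has defect 0. -/
theorem result {G : Type*} [Group G] [Finite G] (p : ℕ) [Fact p.Prime] (M : Ideal Cfsg.AlgInt) (hM : Cfsg.IsPModular p M) (H : Subgroup G) (b : Set (Cfsg.IrrCharacter H)) (B : Set (Cfsg.IrrCharacter G)) (hind : Cfsg.IsInducedBlock M H b B) : Cfsg.blockDefect p b = 0 ↔ Cfsg.blockDefect p B = 0 := by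
  classical
  have : Fintype G := Fintype.ofFinite G
  have : Fintype H := Fintype.ofFinite H
  have hMp := isPrime_of_isPModular hM
  have hp : p.Prime := Fact.out
  have hb := hind.1
  have hB := hind.2.1
  obtain ⟨D, hD⟩ := Cfsg.Agent.Lib.Helper77.exists_isDefectGroup p hMp b hb
  obtain ⟨P, hP⟩ := Cfsg.Agent.Lib.Helper77.exists_isDefectGroup p hMp B hB
  have hcD := Cfsg.Agent.Lib.Helper77.card_isDefectGroup hM b hb D hD
  have hcP := Cfsg.Agent.Lib.Helper77.card_isDefectGroup hM B hB P hP
  have key1 : Cfsg.blockDefect p b = 0 ↔ D = ⊥ := by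
    rw [← Subgroup.card_eq_one, hcD]
    constructor
    · intro h; rw [h, pow_zero]
    · intro h
      rcases (Nat.pow_eq_one).mp h with h' | h'
      · exact absurd h' hp.one_lt.ne'
      · exact h'
  have key2 : Cfsg.blockDefect p B = 0 ↔ P = ⊥ := by
    rw [← Subgroup.card_eq_one, hcP]
    constructor
    · intro h; rw [h, pow_zero]
    · intro h
      rcases (Nat.pow_eq_one).mp h with h' | h'
      · exact absurd h' hp.one_lt.ne'
      · exact h'
  rw [key1, key2]
  constructor
  · intro hD0
    by_contra hP0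
    have hPp : IsPGroup p P := isPGroup_of_isDefectGroup hP
    have hnt : Nontrivial P := (Subgroup.nontrivial_iff_ne_bot P).mpr hP0
    have hZ := hPp.center_nontrivial
    obtain ⟨⟨x, hx⟩, hxne⟩ := exists_ne (1 : Subgroup.center P)
    obtain ⟨g, hg, -⟩ := Cfsg.Agent.S0930.result p M hM H b B hind D hD P hP (x : G) x.2
      (fun w hw => (congrArg Subtype.val (Subgroup.mem_center_iff.mp hx ⟨w, hw⟩)).symm)
    rw [hD0, Subgroup.map_bot, Subgroup.mem_bot] at hg
    have hx1 : (x : G) = 1 := by
      have : (x : G) = g⁻¹ * (g * x * g⁻¹) * g := by group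
      rw [this, hg]; group
    apply hxne
    apply Subtype.ext
    apply Subtype.ext
    exact hx1
  · intro hP0
    obtain ⟨E, hE, hDE⟩ := Cfsg.Agent.S0917.result p M hM H b hb B hB hind D hD
    obtain ⟨t, ht⟩ := Cfsg.Agent.Lib.Helper77.isDefectGroup_conj hM B hB hP hE
    rw [hP0, Subgroup.map_bot] at ht
    rw [ht] at hDE
    rw [eq_bot_iff]
    intro d hd
    have h1 : (d : G) ∈ (⊥ : Subgroup G) := hDE ⟨d, hd, rfl⟩
    rw [Subgroup.mem_bot] at h1
    rw [Subgroup.mem_bot]
    exact Subtype.ext h1

end Cfsg.Agent.S0931
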