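import Mathlib
import Cfsg.Statements.S0932

set_option autoImplicit false
open Cfsg

namespace Cfsg.Agent.S0932

lemma extendByZero_eq_sum {G : Type*} [Group G] (H : Subgroup G) [Fintype H] [DecidableEq G]
    (ξ : H → ℂ) (y : G) :
    Cfsg.extendByZero H ξ y = ∑ h : H, if (h : G) = y then ξ h else 0 := by
  unfold Cfsg.extendByZero
  by_cases hy : y ∈ H
  · have : y = ((⟨y, hy⟩ : H) : G) := rfl
    rw [this, Subtype.val_injective.extend_apply]
    rw [Finset.sum_eq_single (⟨y, hy⟩ : H)]
    · simp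
    · intro b _ hb
      rw [if_neg]
      intro h
      exact hb (Subtype.ext h)
    · intro h; exact absurd (Finset.mem_univ _) h
  · rw [Function.extend_apply']
    · symm
      apply Finset.sum_eq_zero
      intro h _
      rw [if_neg]
      intro hh
      exact hy (hh ▸ h.2)
    · rintro ⟨a, ha⟩
      exact hy (ha ▸ a.2)

lemma card_fiber {G : Type*} [Group G] [Fintype G] [DecidableEq G] (g y : G) :
    ((Finset.univ.filter (fun x : G => x⁻¹ * g * x = y)).card : ℂ) =
      if IsConj g y then (Nat.card (Subgroup.centralizer ({g} : Set G)) : ℂ) else 0 := by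
  split_ifs with hc
  · obtain ⟨c, hc⟩ := isConj_iff.mp hc
    congr 1
    rw [← Nat.card_eq_finsetCard]
    apply Nat.card_congr
    refine ⟨fun x => ⟨x.1 * c, ?_⟩, fun z => ⟨z.1 * c⁻¹, ?_⟩, ?_, ?_⟩
    · have hx := (Finset.mem_filter.mp x.2).2
      rw [Subgroup.mem_centralizer_iff]
      intro t ht
      rw [Set.mem_singleton_iff] at ht
      subst ht
      have : x.1⁻¹ * t * x.1 = c * t * c⁻¹ := by rw [hx, hc]
      calc t * (x.1 * c) = x.1 * (x.1⁻¹ * t * x.1) * c := by group
        _ = x.1 * (c * t * c⁻¹) * c := by rw [this]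
        _ = x.1 * c * t := by group
    · have hz := z.2
      rw [Subgroup.mem_centralizer_iff] at hz
      have hz' := hz g (Set.mem_singleton g)
      rw [Finset.mem_filter]
      refine ⟨Finset.mem_univ _, ?_⟩
      calc (z.1 * c⁻¹)⁻¹ * g * (z.1 * c⁻¹) = c * z.1⁻¹ * (g * z.1) * c⁻¹ := by group
        _ = c * z.1⁻¹ * (z.1 * g) * c⁻¹ := by rw [hz']
        _ = c * g * c⁻¹ := by group
        _ = y := hc
    · intro x; ext; simp
    · intro z; ext; simp
  · rw [Finset.filter_eq_empty_iff.mpr]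
    · simp
    · intro x _ hx
      apply hc
      rw [isConj_iff]
      exact ⟨x⁻¹, by simpa using hx⟩

lemma finsum_mem_eq_sum_ite {α : Type*} [Fintype α] (s : Set α) [DecidablePred (· ∈ s)]
    (f : α → ℂ) : ∑ᶠ a ∈ s, f a = ∑ a, if a ∈ s then f a else 0 := by
  rw [finsum_mem_def, finsum_eq_sum_of_fintype]
  apply Finset.sum_congr rfl
  intro a _
  by_cases ha : a ∈ s <;> simp [ha]

lemma sum_ext_conj {G : Type*} [Group G] [Fintype G] [DecidableEq G] (H : Subgroup G) [Fintype H]
    (ξ : H → ℂ) (g : G) :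
    ∑ x : G, Cfsg.extendByZero H ξ (x⁻¹ * g * x) =
      (Nat.card (Subgroup.centralizer ({g} : Set G)) : ℂ) *
        ∑ h : H, if IsConj g (h : G) then ξ h else 0 := by
  simp_rw [extendByZero_eq_sum]
  rw [Finset.sum_comm, Finset.mul_sum]
  apply Finset.sum_congr rfl
  intro h _
  have := card_fiber g (h : G)
  rw [Finset.card_filter] at this
  push_cast at this
  have h2 : ∑ x : G, (if (h : G) = x⁻¹ * g * x then ξ h else 0) =
      (∑ x : G, if x⁻¹ * g * x = (h : G) then (1 : ℂ) else 0) * ξ h := by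
    rw [Finset.sum_mul]
    apply Finset.sum_congr rfl
    intro x _
    by_cases hx : x⁻¹ * g * x = (h : G)
    · simp [hx]
    · have hx' : ¬ (h : G) = x⁻¹ * g * x := fun e => hx e.symm
      simp [hx, hx']
  rw [h2, this]
  split_ifs <;> ring

theorem result {G : Type*} [Group G] [Fintype G] (H : Subgroup G) (ξ : H → ℂ) (hξ : Cfsg.IsCharacter H ξ) (g : G) : Cfsg.inducedCentralChar H ξ g = Cfsg.centralChar (Cfsg.indFun H ξ) g := by
  classical
  have : Fintype H := Fintype.ofFinite H
  unfold Cfsg.inducedCentralChar Cfsg.centralChar Cfsg.indFun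
  rw [finsum_mem_eq_sum_ite]
  have h1 : ∑ x : G, Cfsg.extendByZero H ξ (x⁻¹ * 1 * x) = (Nat.card G : ℂ) * ξ 1 := by
    have : ∀ x : G, Cfsg.extendByZero H ξ (x⁻¹ * 1 * x) = ξ 1 := by
      intro x
      have e : x⁻¹ * 1 * x = ((1 : H) : G) := by simp
      rw [e]
      unfold Cfsg.extendByZero
      rw [Subtype.val_injective.extend_apply]
    simp_rw [this]
    simp [Nat.card_eq_fintype_card]
  rw [sum_ext_conj, h1]
  have hidx : ((Subgroup.centralizer ({g} : Set G)).index : ℂ) *
      (Nat.card (Subgroup.centralizer ({g} : Set G)) : ℂ) = (Nat.card G : ℂ) := by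
    rw [← Nat.cast_mul, Subgroup.index_mul_card]
  have hG : (Nat.card G : ℂ) ≠ 0 := by
    exact_mod_cast Nat.card_pos.ne'
  have hH : (Nat.card H : ℂ) ≠ 0 := by
    exact_mod_cast Nat.card_pos.ne'
  set S := ∑ h : H, if IsConj g (h : G) then ξ h else 0 with hS
  have hL : (∑ a : H, if a ∈ {h : H | IsConj g (h : G)} then ξ a / ξ 1 else 0) = S / ξ 1 := by
    rw [hS, Finset.sum_div]
    apply Finset.sum_congr rfl
    intro a _
    show (if IsConj g (a : G) then ξ a / ξ 1 else 0) = (if IsConj g (a : G) then ξ a else 0) / ξ 1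
    split_ifs
    · rfl
    · rw [zero_div]
  rw [hL]
  by_cases hξ1 : ξ 1 = 0
  · simp [hξ1]
  · rw [← hidx]
    have hC : (Nat.card (Subgroup.centralizer ({g} : Set G)) : ℂ) ≠ 0 := by
      exact_mod_cast Nat.card_pos.ne'
    have hI : ((Subgroup.centralizer ({g} : Set G)).index : ℂ) ≠ 0 := by
      intro h0
      rw [h0, zero_mul] at hidx
      exact hG hidx.symm
    field_simp

end Cfsg.Agent.S0932
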