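import Mathlib
import Cfsg.Statements.S0933
import Cfsg.Agent.S0932
import Cfsg.Agent.Lib.Helper16.BlockBasic

set_option autoImplicit false
open Cfsg

namespace Cfsg.Agent.S0933

open Cfsg.Agent.Lib.Helper16

/-- Let H be a subgroup of the finite group G and ξ an irreducible character of H such that the induced function ξ^G is an irreducible character of G. Then, relative to any maximal ideal M of the algebraic integers containing the prime p, the block of ξ induces the block of ξ^G. -/
theorem result {G : Type*} [Group G] [Fintype G] (p : ℕ) [Fact p.Prime] (M : Ideal Cfsg.AlgInt) (hM : Cfsg.IsPModular p M) (H : Subgroup G) (ξ : Cfsg.IrrCharacter H) (hind : Cfsg.IsIrrCharacter G (Cfsg.indFun H (ξ : H → ℂ))) : Cfsg.IsInducedBlock M H (Cfsg.blockOf M (ξ : H → ℂ)) (Cfsg.blockOf M (Cfsg.indFun H (ξ : H → ℂ))) := by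
  have hprime := isPrime_of_isPModular hM
  refine ⟨⟨ξ, rfl⟩, ⟨⟨_, hind⟩, rfl⟩, ?_⟩
  intro ξ' hξ' χ hχ g
  have h1 : MemLocalIdeal M (inducedCentralChar H (ξ : H → ℂ) g -
      inducedCentralChar H (ξ' : H → ℂ) g) :=
    inducedCentralChar_sub_mem hprime H (irrCharacter_conj_eq ξ) (irrCharacter_conj_eq ξ') hξ' g
  have h2 := Cfsg.Agent.S0932.result H (ξ : H → ℂ) (isCharacter_of_isIrrCharacter ξ.2) g
  have h3 : MemLocalIdeal M (centralChar (indFun H (ξ : H → ℂ)) g - centralChar (χ : G → ℂ) g) :=
    hχ g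
  have e : inducedCentralChar H (ξ' : H → ℂ) g - centralChar (χ : G → ℂ) g =
      -(inducedCentralChar H (ξ : H → ℂ) g - inducedCentralChar H (ξ' : H → ℂ) g) +
        (centralChar (indFun H (ξ : H → ℂ)) g - centralChar (χ : G → ℂ) g) := by
    rw [← h2]; ring
  rw [e]
  exact memLocalIdeal_add hprime (memLocalIdeal_neg h1) h3

end Cfsg.Agent.S0933
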