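import Mathlib
import Cfsg.Statements.S0934
import Cfsg.Agent.S0932
import Cfsg.Agent.Lib.Helper16.Osima
import Cfsg.Agent.Lib.Helper3.IndFun

set_option autoImplicit false
open Cfsg

namespace Cfsg.Agent.S0934

open Cfsg.Agent.Lib.Helper16
open scoped ComplexConjugate

/-- Let H be a subgroup of the finite group G and fix a maximal ideal M of the algebraic integers containing the prime p. If the block b of H induces the block B of G and ξ ∈ b, then there is χ ∈ B whose restriction to H has nonzero inner product with ξ. -/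
theorem result {G : Type*} [Group G] [Fintype G] (p : ℕ) [Fact p.Prime] (M : Ideal Cfsg.AlgInt) (hM : Cfsg.IsPModular p M) (H : Subgroup G) [Fintype H] (b : Set (Cfsg.IrrCharacter H)) (B : Set (Cfsg.IrrCharacter G)) (hind : Cfsg.IsInducedBlock M H b B) (ξ : Cfsg.IrrCharacter H) (hξ : ξ ∈ b) : ∃ χ ∈ B, Cfsg.classInner (fun h : H => (χ : G → ℂ) h) (ξ : H → ℂ) ≠ 0 := by
  classical
  have hP := isPrime_of_isPModular hM
  have : Fintype (Cfsg.IrrCharacter G) := Fintype.ofFinite _
  obtain ⟨_, hB, hcong⟩ := hind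
  obtain ⟨χ₀, hχ₀⟩ := IsPBlock.nonempty hP hB
  have hf := isRClass_blockCoeff hP hB
  have hω := omega_blockCoeff hP hB
  set Ξ : G → ℂ := Cfsg.indFun H (ξ : H → ℂ) with hΞ
  have hΞcf : Cfsg.IsClassFunction G Ξ := Cfsg.Agent.Lib.Helper3.isClassFunction_indFun H _
  -- the induced character has the central character of the block `B`
  have hsame : Cfsg.SameBlock M Ξ (χ₀ : G → ℂ) := by
    intro g
    have h1 := hcong ξ hξ χ₀ hχ₀ g
    rwa [Cfsg.Agent.S0932.result H (ξ : H → ℂ) (isCharacter_of_isIrrCharacter ξ.2) g] at h1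
  have h1 : MemLocalIdeal M (omega Ξ (Cfsg.blockCoeff B) - omega (χ₀ : G → ℂ) (Cfsg.blockCoeff B)) :=
    memLocalIdeal_omega_sub_fun hP (fun x g => hΞcf g x) (irrCharacter_conj_eq χ₀) hsame hf
  rw [hω χ₀, if_pos hχ₀] at h1
  have h2 : omega Ξ (Cfsg.blockCoeff B) ≠ 0 := by
    intro h0
    rw [h0, zero_sub] at h1
    have := memLocalIdeal_neg h1
    rw [neg_neg] at this
    exact not_memLocalIdeal_one hP this
  -- expand the induced character
  have hexp := Cfsg.Agent.Lib.Helper3.classFunction_expansion' hΞcf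
  have h3 : ∑ g : G, Cfsg.blockCoeff B g * Ξ g =
      ∑ χ : Cfsg.IrrCharacter G, Cfsg.classInner Ξ (χ : G → ℂ) *
        ((χ : G → ℂ) 1 * omega (χ : G → ℂ) (Cfsg.blockCoeff B)) := by
    have h4 : ∀ g : G, Ξ g = ∑ χ : Cfsg.IrrCharacter G,
        Cfsg.classInner Ξ (χ : G → ℂ) * (χ : G → ℂ) g := by
      intro g
      have := congrFun hexp g
      simpa [Finset.sum_apply] using this
    have h5 : ∀ g : G, Cfsg.blockCoeff B g * Ξ g = ∑ χ : Cfsg.IrrCharacter G,
        Cfsg.classInner Ξ (χ : G → ℂ) * (Cfsg.blockCoeff B g * (χ : G → ℂ) g) := by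
      intro g
      rw [h4 g, Finset.mul_sum]
      apply Finset.sum_congr rfl
      intro χ _
      ring
    rw [Finset.sum_congr rfl (fun g _ => h5 g), Finset.sum_comm]
    apply Finset.sum_congr rfl
    intro χ _
    rw [← Finset.mul_sum]
    congr 1
    unfold omega
    rw [Finset.mul_sum]
    apply Finset.sum_congr rfl
    intro g _
    have := irr_one_ne_zero χ
    field_simp
  have h6 : ∑ g : G, Cfsg.blockCoeff B g * Ξ g ≠ 0 := by
    intro h0
    apply h2
    unfold omega
    rw [← Finset.sum_div, h0, zero_div]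
  rw [h3] at h6
  obtain ⟨χ, _, hχ⟩ := Finset.exists_ne_zero_of_sum_ne_zero h6
  have hχB : χ ∈ B := by
    by_contra hnot
    apply hχ
    rw [hω χ, if_neg hnot, mul_zero, mul_zero]
  refine ⟨χ, hχB, ?_⟩
  have h7 : Cfsg.classInner Ξ (χ : G → ℂ) ≠ 0 := by
    intro h0
    apply hχ
    rw [h0, zero_mul]
  rw [hΞ, Cfsg.Agent.Lib.Helper3.frobenius_reciprocity H _ _ (fun g x => irrCharacter_conj_eq χ x g)] at h7
  intro h0
  apply h7
  have h8 : Cfsg.classInner (ξ : H → ℂ) (fun h : H => (χ : G → ℂ) h) =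
      conj (Cfsg.classInner (fun h : H => (χ : G → ℂ) h) (ξ : H → ℂ)) := by
    unfold Cfsg.classInner
    rw [map_mul, map_sum, map_inv₀, Complex.conj_natCast]
    congr 1
    refine Finset.sum_congr rfl fun g _ => ?_
    rw [map_mul, Complex.conj_conj, mul_comm]
  rw [h8, h0, map_zero]

end Cfsg.Agent.S0934
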