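import Cfsg.Statements.S0935
import Cfsg.Agent.Lib.Helper78.ThirdMain

set_option autoImplicit false
open Cfsg

namespace Cfsg.Agent.S0935

/-- Let H be a subgroup of the finite group G and χ an irreducible character of G whose restriction to H is irreducible; fix a maximal ideal M of the algebraic integers containing the prime p and suppose χ and its restriction have height zero in their blocks B and b. If e is a block of H whose induced block is defined, then e induces B if and only if e = b. -/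
theorem result {G : Type*} [Group G] [Finite G] (p : ℕ) [Fact p.Prime] (M : Ideal Cfsg.AlgInt) (hM : Cfsg.IsPModular p M) (H : Subgroup G) (χ : Cfsg.IrrCharacter G) (hres : Cfsg.IsIrrCharacter H (fun h : H => (χ : G → ℂ) h)) (hχ0 : Cfsg.blockHeight p (Cfsg.blockOf M (χ : G → ℂ)) (χ : G → ℂ) = 0) (hψ0 : Cfsg.blockHeight p (Cfsg.blockOf M (fun h : H => (χ : G → ℂ) h)) (fun h : H => (χ : G → ℂ) h) = 0) (e : Set (Cfsg.IrrCharacter H)) (he : Cfsg.InducedBlockDefined M H e) : Cfsg.IsInducedBlock M H e (Cfsg.blockOf M (χ : G → ℂ)) ↔ e = Cfsg.blockOf M (fun h : H => (χ : G → ℂ) h) := by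
  classical
  have := Fintype.ofFinite G
  have : Fintype H := Fintype.ofFinite H
  have hP := Cfsg.Agent.Lib.Helper16.isPrime_of_isPModular hM
  obtain ⟨ψ, hψdef⟩ : ∃ ψ : Cfsg.IrrCharacter H, (ψ : H → ℂ) = fun h : H => (χ : G → ℂ) h :=
    ⟨⟨_, hres⟩, rfl⟩
  rw [← hψdef] at hψ0 ⊢
  constructor
  · intro hind
    have he_b := hind.1
    obtain ⟨ξ, hξ⟩ := Cfsg.Agent.Lib.Helper16.IsPBlock.nonempty hP he_b
    have h1 := Cfsg.Agent.Lib.Helper78.not_memLocalIdeal_omegaF_res_pRegConj hM H e _ hind χ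
      (Cfsg.Agent.Lib.Helper16.mem_blockOf_self hP χ) hχ0 ξ hξ
    rw [Cfsg.Agent.Lib.Helper78.pRegConj_res, ← hψdef] at h1
    have hψe : ψ ∈ e := by
      by_contra hne
      apply h1
      rw [Cfsg.Agent.Lib.Helper78.omegaF_pRegConj_eq_zero hM e he_b ξ hξ ψ hne]
      exact Cfsg.Agent.Lib.Helper16.memLocalIdeal_zero hP
    exact Cfsg.Agent.Lib.Helper16.IsPBlock.eq_blockOf hP he_b hψe
  · intro heq
    obtain ⟨B', hB'⟩ := he
    have hψe : ψ ∈ e := by rw [heq]; exact Cfsg.Agent.Lib.Helper16.mem_blockOf_self hP ψ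
    obtain ⟨χ', hχ'⟩ := Cfsg.Agent.Lib.Helper16.IsPBlock.nonempty hP hB'.2.1
    have hΓ := Cfsg.Agent.Lib.Helper76.not_memLocalIdeal_of_height_zero hM
      (Cfsg.blockOf M (ψ : H → ℂ)) (Cfsg.Agent.Lib.Helper16.isPBlock_blockOf ψ) ψ
      (Cfsg.Agent.Lib.Helper16.mem_blockOf_self hP ψ) hψ0
    have hcl := Cfsg.Agent.Lib.Helper76.isRClass_pRegConj hP p χ
    have hres2 := Cfsg.Agent.Lib.Helper78.memLocalIdeal_omegaF_restrict_sub hP H (ψ : H → ℂ)
      (χ' : G → ℂ) (fun g h => Cfsg.Agent.Lib.Helper16.irrCharacter_conj_eq χ' h g)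
      (fun g => hB'.2.2 ψ hψe χ' hχ' g) hcl.2 hcl.1
    rw [Cfsg.Agent.Lib.Helper78.pRegConj_res, ← hψdef] at hres2
    have hχB' : χ ∈ B' := by
      by_contra hne
      apply hΓ
      rw [← Cfsg.Agent.Lib.Helper16.omegaF_eq]
      rw [Cfsg.Agent.Lib.Helper78.omegaF_pRegConj_eq_zero hM B' hB'.2.1 χ' hχ' χ hne, sub_zero]
        at hres2
      exact hres2
    have hBeq : B' = Cfsg.blockOf M (χ : G → ℂ) :=
      Cfsg.Agent.Lib.Helper16.IsPBlock.eq_blockOf hP hB'.2.1 hχB'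
    rw [← hBeq]
    exact hB'

end Cfsg.Agent.S0935
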