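import Cfsg.Statements.S0937
import Cfsg.Agent.Lib.Helper78.ThirdMain

set_option autoImplicit false
open Cfsg

namespace Cfsg.Agent.S0937

/-- Let H be a subgroup of the finite group G and fix a maximal ideal M of the algebraic integers containing the prime p. If the block b of H induces the block B of G and χ ∈ B has height zero, then there is ξ ∈ b of height zero whose multiplicity in the restriction of χ to H is a natural number not divisible by p. -/
theorem result {G : Type*} [Group G] [Fintype G] (p : ℕ) [Fact p.Prime] (M : Ideal Cfsg.AlgInt) (hM : Cfsg.IsPModular p M) (H : Subgroup G) [Fintype H] (b : Set (Cfsg.IrrCharacter H)) (B : Set (Cfsg.IrrCharacter G)) (hind : Cfsg.IsInducedBlock M H b B) (χ : Cfsg.IrrCharacter G) (hχ : χ ∈ B) (h0 : Cfsg.blockHeight p B (χ : G → ℂ) = 0) : ∃ ξ ∈ b, Cfsg.blockHeight p b (ξ : H → ℂ) = 0 ∧ ∃ n : ℕ, Cfsg.classInner (fun h : H => (χ : G → ℂ) h) (ξ : H → ℂ) = (n : ℂ) ∧ ¬ p ∣ n := by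
  classical
  have hP := Cfsg.Agent.Lib.Helper16.isPrime_of_isPModular hM
  have hp : p.Prime := hM.1
  have hb := hind.1
  have := Cfsg.Agent.Lib.Helper81.irr_finite H
  have := Fintype.ofFinite (Cfsg.IrrCharacter H)
  obtain ⟨ξ', hξ', hξ'0⟩ := Cfsg.Agent.Lib.Helper78.exists_height_zero p b
    (Cfsg.Agent.Lib.Helper16.IsPBlock.nonempty hP hb)
  have h1 := Cfsg.Agent.Lib.Helper78.not_memLocalIdeal_omegaF_res_pRegConj hM H b B hind χ hχ h0
    ξ' hξ'
  obtain ⟨m, hm, hexp⟩ := Cfsg.Agent.Lib.Helper80.character_expansion (G := H)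
    (Cfsg.Agent.Lib.Helper80.isCharacter_restrict (H := H)
      (Cfsg.Agent.Lib.Helper16.isCharacter_of_isIrrCharacter χ.2))
  by_contra hcon
  apply h1
  have hsum : Cfsg.Agent.Lib.Helper77.omegaF (ξ' : H → ℂ)
      (fun k : H => Cfsg.Agent.Lib.Helper76.pRegConj p (χ : G → ℂ) (k : G)) =
      ∑ ξ : Cfsg.IrrCharacter H, (m ξ : ℂ) * Cfsg.Agent.Lib.Helper77.omegaF (ξ' : H → ℂ)
        (Cfsg.Agent.Lib.Helper76.pRegConj p (ξ : H → ℂ)) := by
    rw [Cfsg.Agent.Lib.Helper78.pRegConj_res]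
    have e : ∀ h : H, Cfsg.Agent.Lib.Helper76.pRegConj p (fun k : H => (χ : G → ℂ) (k : G)) h =
        ∑ ξ : Cfsg.IrrCharacter H, (m ξ : ℂ) * Cfsg.Agent.Lib.Helper76.pRegConj p (ξ : H → ℂ) h := by
      intro h
      unfold Cfsg.Agent.Lib.Helper76.pRegConj
      by_cases hh : p ∣ orderOf h
      · simp [hh]
      · simp only [hh, if_false]
        have e2 := congrFun hexp h
        rw [e2, Finset.sum_apply, map_sum]
        refine Finset.sum_congr rfl fun ξ _ => ?_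
        rw [Pi.smul_apply, smul_eq_mul, map_mul, Complex.conj_natCast]
    unfold Cfsg.Agent.Lib.Helper77.omegaF
    simp_rw [e, Finset.sum_mul]
    rw [Finset.sum_comm, Finset.sum_div]
    refine Finset.sum_congr rfl fun ξ _ => ?_
    simp_rw [mul_assoc]
    rw [← Finset.mul_sum, mul_div_assoc]
  rw [hsum]
  apply Cfsg.Agent.Lib.Helper16.memLocalIdeal_sum hP
  intro ξ _
  by_cases hξb : ξ ∈ b
  · by_cases hpm : p ∣ m ξ
    · apply Cfsg.Agent.Lib.Helper16.memLocalIdeal_mul_right hP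
        ((Cfsg.Agent.Lib.Helper16.memLocalIdeal_natCast_iff hM (m ξ)).mpr hpm)
      rw [Cfsg.Agent.Lib.Helper16.omegaF_eq]
      exact Cfsg.Agent.Lib.Helper16.memLocalRing_omega hP ξ'
        (Cfsg.Agent.Lib.Helper76.isRClass_pRegConj hP p ξ)
    · have hht : Cfsg.blockHeight p b (ξ : H → ℂ) ≠ 0 :=
        fun h => hcon ⟨ξ, hξb, h, m ξ, hm ξ, hpm⟩
      have h2 : Cfsg.MemLocalIdeal M (Cfsg.Agent.Lib.Helper16.omega (ξ : H → ℂ)
          (Cfsg.Agent.Lib.Helper76.pRegConj p (ξ : H → ℂ))) := by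
        by_contra h3
        exact hht ((Cfsg.Agent.Lib.Helper76.height_zero_iff hM b hb ξ hξb).2 h3)
      have h3 := (Cfsg.Agent.Lib.Helper76.memLocalIdeal_omega_iff hM b hb ξ ξ' ξ hξb hξ').2 h2
      rw [Cfsg.Agent.Lib.Helper16.omegaF_eq]
      exact Cfsg.Agent.Lib.Helper16.memLocalIdeal_mul_left hP
        (Cfsg.Agent.Lib.Helper16.memLocalRing_natCast hP (m ξ)) h3
  · rw [Cfsg.Agent.Lib.Helper78.omegaF_pRegConj_eq_zero hM b hb ξ' hξ' ξ hξb, mul_zero]
    exact Cfsg.Agent.Lib.Helper16.memLocalIdeal_zero hP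

end Cfsg.Agent.S0937
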