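import Mathlib
import Cfsg.Statements.S0941
import Cfsg.Agent.Lib.Helper16.NormalKer
import Cfsg.Agent.Lib.Helper77.NormalP
import Cfsg.Agent.Lib.Helper77.Kernel
import Cfsg.Agent.Lib.Helper80.CharKer

set_option autoImplicit false
open Cfsg

namespace Cfsg.Agent.S0941

open Cfsg.Agent.Lib.Helper16

/-- Let P be a normal p-subgroup of the finite group G such that the index of C_G(P) is a power of p, and fix a maximal ideal M of the algebraic integers containing p. Then (i) two irreducible characters of G ⧸ P lie in the same block if and only if their inflations to G do, and (ii) every block of G contains the inflation of some irreducible character of G ⧸ P; so inflation induces a bijection between the blocks of G ⧸ P and the blocks of G. -/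
theorem result {G : Type*} [Group G] [Finite G] (p : ℕ) [Fact p.Prime] (M : Ideal Cfsg.AlgInt) (hM : Cfsg.IsPModular p M) (P : Subgroup G) [P.Normal] (hP : IsPGroup p P) (hC : ∃ k : ℕ, (Subgroup.centralizer (P : Set G)).index = p ^ k) : (∀ χ ψ : Cfsg.IrrCharacter (G ⧸ P), Cfsg.SameBlock M (χ : G ⧸ P → ℂ) (ψ : G ⧸ P → ℂ) ↔ Cfsg.SameBlock M ((χ : G ⧸ P → ℂ) ∘ QuotientGroup.mk) ((ψ : G ⧸ P → ℂ) ∘ QuotientGroup.mk)) ∧ ∀ B : Set (Cfsg.IrrCharacter G), Cfsg.IsPBlock M B → ∃ χ : Cfsg.IrrCharacter (G ⧸ P), ∃ θ ∈ B, (θ : G → ℂ) = (χ : G ⧸ P → ℂ) ∘ QuotientGroup.mk := by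
  classical
  have : Fintype G := Fintype.ofFinite G
  have : Fintype (G ⧸ P) := Fintype.ofFinite _
  have : Fintype P := Fintype.ofFinite P
  have hMp := isPrime_of_isPModular hM
  have hp : p.Prime := Fact.out
  have hCn : (Subgroup.centralizer (P : Set G)).Normal := Subgroup.normal_centralizer
  obtain ⟨k, hk⟩ := hC
  constructor
  · intro χ ψ
    constructor
    · intro h g
      obtain ⟨m, hm⟩ := Cfsg.Agent.Lib.Helper77.index_centralizer_quot_dvd P g
      have e : Cfsg.centralChar ((χ : G ⧸ P → ℂ) ∘ QuotientGroup.mk) g -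
          Cfsg.centralChar ((ψ : G ⧸ P → ℂ) ∘ QuotientGroup.mk) g =
          (m : ℂ) * (Cfsg.centralChar (χ : G ⧸ P → ℂ) (g : G ⧸ P) -
            Cfsg.centralChar (ψ : G ⧸ P → ℂ) (g : G ⧸ P)) := by
        unfold Cfsg.centralChar
        simp only [Function.comp_apply, QuotientGroup.mk_one]
        rw [hm]
        push_cast
        ring
      rw [e]
      exact memLocalIdeal_mul_left hMp (memLocalRing_natCast hMp m) (h (g : G ⧸ P))
    · intro h
      apply sameBlock_of_pRegular hM
      intro q hq
      obtain ⟨g, rfl, hg⟩ := exists_pRegular_lift hp P q hq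
      have hgC : g ∈ Subgroup.centralizer (P : Set G) := mem_of_pRegular_of_index hp _ hk hg
      have hidx := index_centralizer_mk P hP hg hgC
      have h1 := h g
      unfold Cfsg.centralChar at h1 ⊢
      simp only [Function.comp_apply, QuotientGroup.mk_one] at h1
      rw [hidx]
      exact h1
  · intro B hB
    obtain ⟨g0, hg0⟩ := Cfsg.Agent.Lib.Helper77.exists_isDefectClass hMp B hB
    have hreg : ¬ p ∣ orderOf g0 := by
      intro hcon
      apply hg0.2.1
      rw [Cfsg.Agent.Lib.Helper77.blockCoeff_eq_zero_of_singular hM B hB hcon]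
      exact memLocalIdeal_zero hMp
    have hcent : g0 ∈ Subgroup.centralizer (P : Set G) := by
      by_contra hcon
      apply hg0.2.1
      rw [Cfsg.Agent.Lib.Helper77.blockCoeff_eq_zero_of_not_mem_centralizer hM P hP B hB g0 hcon]
      exact memLocalIdeal_zero hMp
    have hS : ∑ u : P, Cfsg.blockCoeff B (g0 * (u : G)) = Cfsg.blockCoeff B g0 := by
      rw [Finset.sum_eq_single (1 : P)]
      · simp
      · intro u _ hu
        apply Cfsg.Agent.Lib.Helper77.blockCoeff_eq_zero_of_singular hM B hB
        have hcomm : Commute g0 (u : G) :=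
          (Subgroup.mem_centralizer_iff.mp hcent (u : G) u.2).symm
        obtain ⟨j, hj⟩ := (IsPGroup.iff_orderOf.mp hP) u
        have hj' : orderOf (u : G) = p ^ j := by rw [Subgroup.orderOf_coe]; exact hj
        have hcop : (orderOf g0).Coprime (orderOf (u : G)) := by
          rw [hj']
          exact Nat.Coprime.pow_right j
            (Nat.Coprime.symm ((Nat.Prime.coprime_iff_not_dvd hp).mpr hreg))
        rw [hcomm.orderOf_mul_eq_mul_orderOf_of_coprime hcop]
        have hpu : p ∣ orderOf (u : G) := by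
          rw [Subgroup.orderOf_coe]
          exact IsPGroup.dvd_orderOf hP hu
        exact Dvd.dvd.mul_left hpu _
      · intro h
        exact absurd (Finset.mem_univ _) h
    have hne : ∑ u : P, Cfsg.blockCoeff B (g0 * (u : G)) ≠ 0 := by
      rw [hS]
      intro h0
      apply hg0.2.1
      rw [h0]
      exact memLocalIdeal_zero hMp
    have hex : ∃ θ ∈ B, ∑ u : P, (θ : G → ℂ) (g0 * (u : G)) ≠ 0 := by
      by_contra hcon
      push Not at hcon
      apply hne
      have : Fintype (Cfsg.IrrCharacter G) := Fintype.ofFinite _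
      unfold Cfsg.blockCoeff
      rw [← Finset.mul_sum]
      simp_rw [finsum_mem_eq_sum_ite]
      rw [Finset.sum_comm, Finset.sum_eq_zero, mul_zero]
      intro θ _
      by_cases hθ : θ ∈ B
      · simp only [if_pos hθ]
        rw [← Finset.mul_sum, ← map_sum, hcon θ hθ, map_zero, mul_zero]
      · simp only [if_neg hθ]
        exact Finset.sum_const_zero
    obtain ⟨θ, hθ, hθne⟩ := hex
    have hker := eq_one_of_sum_coset_ne_zero P θ.2 g0 hθne
    obtain ⟨ψ, hψ, hψθ⟩ := Cfsg.Agent.Lib.Helper80.exists_isIrrCharacter_deflate P θ.2 hker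
    exact ⟨⟨ψ, hψ⟩, θ, hθ, funext (fun g => (hψθ g).symm)⟩

end Cfsg.Agent.S0941
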