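import Mathlib
import Cfsg.Statements.S0945

set_option autoImplicit false
open Cfsg

namespace Cfsg.Agent.S0945

section Abstract

variable {Q : Type*} [Group Q]

theorem aut_pow_succ_apply (α : MulAut Q) (i : ℕ) (x : Q) : (α ^ (i + 1)) x = α ((α ^ i) x) := by
  rw [pow_succ', MulAut.mul_apply]

/-- An automorphism of odd order of an abelian 2-group which fixes all involutions is trivial. -/
theorem fix_of_fix_involutions (hc : ∀ x y : Q, x * y = y * x) (h2 : ∀ x : Q, ∃ j : ℕ, x ^ 2 ^ j = 1)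
    (α : MulAut Q) (k : ℕ) (hk : Odd k) (hαk : α ^ k = 1) (hfix : ∀ t : Q, t ^ 2 = 1 → α t = t) :
    ∀ x : Q, α x = x := by
  have key : ∀ j : ℕ, ∀ x : Q, x ^ 2 ^ j = 1 → α x = x := by
    intro j
    induction j with
    | zero =>
      intro x hx
      rw [pow_zero, pow_one] at hx
      rw [hx, map_one]
    | succ j ih =>
      intro x hx
      have hx2 : (x ^ 2) ^ 2 ^ j = 1 := by rw [← pow_mul, ← pow_succ']; exact hx
      have h1 : α x ^ 2 = x ^ 2 := by rw [← map_pow]; exact ih _ hx2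
      have ht2 : (x⁻¹ * α x) ^ 2 = 1 := by
        rw [pow_two, hc x⁻¹ (α x), mul_assoc, ← mul_assoc x⁻¹, hc x⁻¹ (α x), mul_assoc,
          ← mul_assoc, ← pow_two, h1, pow_two]
        group
      have hαt := hfix _ ht2
      have hαx : α x = x * (x⁻¹ * α x) := by group
      obtain ⟨t, ht⟩ : ∃ t, t = x⁻¹ * α x := ⟨_, rfl⟩
      rw [← ht] at ht2 hαt hαx
      have hi : ∀ i : ℕ, (α ^ i) x = x * t ^ i := by
        intro i
        induction i with
        | zero => simp
        | succ i ihi =>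
          rw [aut_pow_succ_apply, ihi, map_mul, map_pow, hαt, hαx, pow_succ', mul_assoc]
      have hk1 := hi k
      rw [hαk, MulAut.one_apply] at hk1
      obtain ⟨l, hl⟩ := hk
      have ht1 : t = 1 := by
        have h3 : t ^ k = 1 := by
          have := mul_left_cancel (a := x) (b := 1) (c := t ^ k) (by rw [mul_one]; exact hk1)
          exact this.symm
        rw [hl, pow_succ, pow_mul, ht2, one_pow, one_mul] at h3
        exact h3
      rw [hαx, ht1, mul_one]
  intro x
  obtain ⟨j, hj⟩ := h2 x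
  exact key j x hj

/-- If an automorphism of odd order fixes one of exactly three involutions, it fixes the others. -/
theorem fix_others (t u v : Q) (hall : ∀ s : Q, s ^ 2 = 1 → s = 1 ∨ s = t ∨ s = u ∨ s = v)
    (hu1 : u ≠ 1) (hv1 : v ≠ 1) (hu2 : u ^ 2 = 1) (hv2 : v ^ 2 = 1) (huv : u ≠ v) (hut : u ≠ t)
    (hvt : v ≠ t) (α : MulAut Q) (k : ℕ) (hk : Odd k) (hαk : α ^ k = 1) (hαt : α t = t) :
    α u = u ∧ α v = v := by
  have hαu2 : (α u) ^ 2 = 1 := by rw [← map_pow, hu2, map_one]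
  have hαv2 : (α v) ^ 2 = 1 := by rw [← map_pow, hv2, map_one]
  have hαu1 : α u ≠ 1 := fun h => hu1 (by simpa using h)
  have hαv1 : α v ≠ 1 := fun h => hv1 (by simpa using h)
  have hαut : α u ≠ t := fun h => hut (α.injective (h.trans hαt.symm))
  have hαvt : α v ≠ t := fun h => hvt (α.injective (h.trans hαt.symm))
  have hswap : α u = v → False := by
    intro huv'
    have hvu' : α v = u := by
      rcases hall _ hαv2 with h | h | h | h
      · exact absurd h hαv1
      · exact absurd h hαvt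
      · exact h
      · exact absurd (α.injective (h.trans huv'.symm)) huv.symm
    have hi : ∀ i : ℕ, (α ^ (2 * i + 1)) u = v := by
      intro i
      induction i with
      | zero => simpa using huv'
      | succ i ihi =>
        have : 2 * (i + 1) + 1 = (2 * i + 1) + 1 + 1 := by ring
        rw [this, aut_pow_succ_apply, aut_pow_succ_apply, ihi, hvu', huv']
    obtain ⟨l, hl⟩ := hk
    have := hi l
    rw [← hl, hαk, MulAut.one_apply] at this
    exact huv this
  have hu : α u = u := by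
    rcases hall _ hαu2 with h | h | h | h
    · exact absurd h hαu1
    · exact absurd h hαut
    · exact h
    · exact absurd h hswap
  refine ⟨hu, ?_⟩
  rcases hall _ hαv2 with h | h | h | h
  · exact absurd h hαv1
  · exact absurd h hαvt
  · exact absurd (α.injective (h.trans hu.symm)) huv.symm
  · exact h

/-- An automorphism of odd order fixing one of exactly three involutions is trivial. -/
theorem trivial_of_fix_one (hc : ∀ x y : Q, x * y = y * x) (h2 : ∀ x : Q, ∃ j : ℕ, x ^ 2 ^ j = 1)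
    (t1 t2 t3 : Q) (hall : ∀ s : Q, s ^ 2 = 1 → s = 1 ∨ s = t1 ∨ s = t2 ∨ s = t3)
    (h11 : t1 ≠ 1) (h21 : t2 ≠ 1) (h31 : t3 ≠ 1) (h12 : t1 ^ 2 = 1) (h22 : t2 ^ 2 = 1)
    (h32 : t3 ^ 2 = 1) (d12 : t1 ≠ t2) (d13 : t1 ≠ t3) (d23 : t2 ≠ t3)
    (α : MulAut Q) (k : ℕ) (hk : Odd k) (hαk : α ^ k = 1)
    (t : Q) (ht1 : t ≠ 1) (ht2 : t ^ 2 = 1) (hαt : α t = t) : ∀ x : Q, α x = x := by
  apply fix_of_fix_involutions hc h2 α k hk hαk
  have hfix3 : α t1 = t1 ∧ α t2 = t2 ∧ α t3 = t3 := by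
    rcases hall t ht2 with h | h | h | h
    · exact absurd h ht1
    · rw [h] at hαt
      obtain ⟨a, b⟩ := fix_others t1 t2 t3 hall h21 h31 h22 h32 d23 d12.symm d13.symm α k hk hαk hαt
      exact ⟨hαt, a, b⟩
    · rw [h] at hαt
      obtain ⟨a, b⟩ := fix_others t2 t1 t3 (fun s hs => by rcases hall s hs with h | h | h | h <;> tauto)
        h11 h31 h12 h32 d13 d12 d23.symm α k hk hαk hαt
      exact ⟨a, hαt, b⟩
    · rw [h] at hαt
      obtain ⟨a, b⟩ := fix_others t3 t1 t2 (fun s hs => by rcases hall s hs with h | h | h | h <;> tauto)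
        h11 h21 h12 h22 d12 d13 d23 α k hk hαk hαt
      exact ⟨a, b, hαt⟩
  intro s hs
  rcases hall s hs with h | h | h | h
  · rw [h, map_one]
  · rw [h]; exact hfix3.1
  · rw [h]; exact hfix3.2.1
  · rw [h]; exact hfix3.2.2

/-- A nontrivial element of a 2-group has a power which is an involution. -/
theorem exists_involution_pow (z : Q) (hz : z ≠ 1) (h2 : ∃ j : ℕ, z ^ 2 ^ j = 1) :
    ∃ i : ℕ, z ^ i ≠ 1 ∧ (z ^ i) ^ 2 = 1 := by
  classical
  have hfind := Nat.find_spec h2
  have hpos : Nat.find h2 ≠ 0 := by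
    intro h0
    rw [h0, pow_zero, pow_one] at hfind
    exact hz hfind
  obtain ⟨j, hj⟩ := Nat.exists_eq_succ_of_ne_zero hpos
  refine ⟨2 ^ j, ?_, ?_⟩
  · exact Nat.find_min h2 (by omega : j < Nat.find h2)
  · rw [← pow_mul, ← pow_succ, ← Nat.succ_eq_add_one, ← hj]
    exact hfind

end Abstract

section ZM

theorem two_mul_eq_zero (m : ℕ) (hm : 1 ≤ m) (a : ZMod (2 ^ m)) (h : 2 * a = 0) :
    a = 0 ∨ a = ((2 ^ (m - 1) : ℕ) : ZMod (2 ^ m)) := by
  obtain ⟨m', rfl⟩ : ∃ m', m = m' + 1 := ⟨m - 1, by omega⟩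
  have : NeZero (2 ^ (m' + 1)) := ⟨by positivity⟩
  have hv : a = ((a.val : ℕ) : ZMod (2 ^ (m' + 1))) := (ZMod.natCast_zmod_val a).symm
  have h1 : ((2 * a.val : ℕ) : ZMod (2 ^ (m' + 1))) = 0 := by
    rw [Nat.cast_mul, ZMod.natCast_zmod_val]
    exact_mod_cast h
  rw [ZMod.natCast_eq_zero_iff] at h1
  have hlt : a.val < 2 ^ (m' + 1) := ZMod.val_lt a
  have h1' : 2 * 2 ^ m' ∣ 2 * a.val := by rw [← pow_succ']; exact h1
  have hlt' : a.val < 2 ^ m' * 2 := by rw [← pow_succ]; exact hlt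
  have h2 : 2 ^ m' ∣ a.val := (Nat.mul_dvd_mul_iff_left (by norm_num : 0 < 2)).mp h1'
  obtain ⟨c, hc⟩ := h2
  have hc2 : c < 2 := by
    by_contra hcon
    push Not at hcon
    have : 2 ^ m' * 2 ≤ 2 ^ m' * c := Nat.mul_le_mul_left _ hcon
    omega
  simp only [Nat.add_sub_cancel]
  interval_cases c
  · left; rw [hv, hc]; simp
  · right; rw [hv, hc]; simp

theorem half_ne_zero (m : ℕ) (hm : 1 ≤ m) : ((2 ^ (m - 1) : ℕ) : ZMod (2 ^ m)) ≠ 0 := by
  rw [Ne, ZMod.natCast_eq_zero_iff]
  intro h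
  have h1 := Nat.le_of_dvd (by positivity) h
  have h2 : 2 ^ (m - 1) < 2 ^ m := Nat.pow_lt_pow_right (by norm_num) (by omega)
  omega

theorem two_mul_half (m : ℕ) (hm : 1 ≤ m) : 2 * ((2 ^ (m - 1) : ℕ) : ZMod (2 ^ m)) = 0 := by
  have h1 : ((2 * 2 ^ (m - 1) : ℕ) : ZMod (2 ^ m)) = 0 := by
    have : 2 * 2 ^ (m - 1) = 2 ^ m := by
      rw [← pow_succ']; congr 1; omega
    rw [this]
    exact ZMod.natCast_self _
  exact_mod_cast h1

/-- The involutions of a group isomorphic to `Z/2^m × Z/2^m`. -/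
theorem involutions {Q : Type*} [Group Q] (m : ℕ) (hm : 1 ≤ m)
    (e : Q ≃* Multiplicative (ZMod (2 ^ m) × ZMod (2 ^ m))) :
    ∃ t1 t2 t3 : Q, (∀ s : Q, s ^ 2 = 1 → s = 1 ∨ s = t1 ∨ s = t2 ∨ s = t3) ∧
      t1 ≠ 1 ∧ t2 ≠ 1 ∧ t3 ≠ 1 ∧ t1 ^ 2 = 1 ∧ t2 ^ 2 = 1 ∧ t3 ^ 2 = 1 ∧ t1 ≠ t2 ∧ t1 ≠ t3 ∧
      t2 ≠ t3 := by
  obtain ⟨h, hh⟩ : ∃ h : ZMod (2 ^ m), h = ((2 ^ (m - 1) : ℕ) : ZMod (2 ^ m)) := ⟨_, rfl⟩
  have hne : h ≠ 0 := hh ▸ half_ne_zero m hm
  have h2h : 2 * h = 0 := hh ▸ two_mul_half m hm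
  have hsq : ∀ a b : ZMod (2 ^ m), 2 * a = 0 → 2 * b = 0 →
      (e.symm (Multiplicative.ofAdd (a, b))) ^ 2 = 1 := by
    intro a b ha hb
    apply e.injective
    rw [map_pow, MulEquiv.apply_symm_apply, map_one, ← ofAdd_nsmul]
    have : (2 : ℕ) • (a, b) = (0 : ZMod (2 ^ m) × ZMod (2 ^ m)) := by
      ext
      · simpa using ha
      · simpa using hb
    rw [this]; rfl
  have hinj : ∀ a b a' b' : ZMod (2 ^ m),
      e.symm (Multiplicative.ofAdd (a, b)) = e.symm (Multiplicative.ofAdd (a', b')) →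
      a = a' ∧ b = b' := by
    intro a b a' b' hab
    have := e.symm.injective hab
    have h1 := congrArg Multiplicative.toAdd this
    simpa using h1
  have hone : e.symm (Multiplicative.ofAdd ((0 : ZMod (2 ^ m)), (0 : ZMod (2 ^ m)))) = 1 := by
    apply e.injective
    rw [MulEquiv.apply_symm_apply, map_one]; rfl
  refine ⟨e.symm (Multiplicative.ofAdd (h, 0)), e.symm (Multiplicative.ofAdd (0, h)),
    e.symm (Multiplicative.ofAdd (h, h)), ?_, ?_, ?_, ?_, ?_, ?_, ?_, ?_, ?_, ?_⟩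
  · intro s hs
    have hs' : (e s) ^ 2 = 1 := by rw [← map_pow, hs, map_one]
    have h1 := congrArg Multiplicative.toAdd hs'
    rw [toAdd_pow, toAdd_one] at h1
    have ha : 2 * (Multiplicative.toAdd (e s)).1 = 0 := by
      have := congrArg Prod.fst h1
      simpa using this
    have hb : 2 * (Multiplicative.toAdd (e s)).2 = 0 := by
      have := congrArg Prod.snd h1
      simpa using this
    have hse : s = e.symm (Multiplicative.ofAdd ((Multiplicative.toAdd (e s)).1,
        (Multiplicative.toAdd (e s)).2)) := by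
      apply e.injective
      rw [MulEquiv.apply_symm_apply]
      rfl
    rcases two_mul_eq_zero m hm _ ha with h1 | h1 <;> rcases two_mul_eq_zero m hm _ hb with h2 | h2
    · left; rw [hse, h1, h2, hone]
    · right; right; left; rw [hse, h1, h2, hh]
    · right; left; rw [hse, h1, h2, hh]
    · right; right; right; rw [hse, h1, h2, hh]
  · intro h1; rw [← hone] at h1; exact hne (hinj _ _ _ _ h1).1
  · intro h1; rw [← hone] at h1; exact hne (hinj _ _ _ _ h1).2
  · intro h1; rw [← hone] at h1; exact hne (hinj _ _ _ _ h1).1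
  · exact hsq _ _ h2h (by simp)
  · exact hsq _ _ (by simp) h2h
  · exact hsq _ _ h2h h2h
  · intro h1; exact hne (hinj _ _ _ _ h1).1
  · intro h1; exact hne (hinj _ _ _ _ h1).2.symm
  · intro h1; exact hne (hinj _ _ _ _ h1).1.symm

end ZM

/-- Statement S0945. -/
theorem result {G : Type*} [Group G] [Finite G] (P : Sylow 2 G) (m : ℕ) (hm : 1 ≤ m) (e : (P : Subgroup G) ≃* Multiplicative (ZMod (2 ^ m) × ZMod (2 ^ m))) : ((Subgroup.centralizer (P : Set G)).relIndex (Subgroup.normalizer (P : Set G)) = 1 ∨ (Subgroup.centralizer (P : Set G)).relIndex (Subgroup.normalizer (P : Set G)) = 3) ∧ ((Subgroup.centralizer (P : Set G)).relIndex (Subgroup.normalizer (P : Set G)) ≠ 1 → ∀ z ∈ (P : Subgroup G), z ≠ 1 → Subgroup.centralizer ({z} : Set G) ⊓ Subgroup.normalizer (P : Set G) = Subgroup.centralizer (P : Set G)) := by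
  classical
  have hcQ : ∀ x y : ↥(P : Subgroup G), x * y = y * x := by
    intro x y
    apply e.injective
    rw [map_mul, map_mul, mul_comm]
  have h2Q : ∀ x : ↥(P : Subgroup G), ∃ j : ℕ, x ^ 2 ^ j = 1 := fun x => P.isPGroup' x
  obtain ⟨t1, t2, t3, hall, h11, h21, h31, h12, h22, h32, d12, d13, d23⟩ := involutions m hm e
  obtain ⟨φ, hφ⟩ : ∃ φ : ↥(Subgroup.normalizer ((P : Subgroup G) : Set G)) →* MulAut ↥(P : Subgroup G),
      φ = (P : Subgroup G).normalizerMonoidHom := ⟨_, rfl⟩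
  have hφapp : ∀ (n : ↥(Subgroup.normalizer ((P : Subgroup G) : Set G))) (x : ↥(P : Subgroup G)),
      ((φ n x : ↥(P : Subgroup G)) : G) = n * x * (n : G)⁻¹ := by
    intro n x
    rw [hφ]
    rfl
  obtain ⟨k0, hk0⟩ : ∃ k0, k0 = (Subgroup.centralizer ((P : Subgroup G) : Set G)).relIndex
      (Subgroup.normalizer ((P : Subgroup G) : Set G)) := ⟨_, rfl⟩
  have hk0card : Nat.card φ.range = k0 := by
    rw [← Subgroup.index_ker, hφ, Subgroup.normalizerMonoidHom_ker, hk0]
    rfl
  have hPC : (P : Subgroup G) ≤ Subgroup.centralizer ((P : Subgroup G) : Set G) := by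
    intro x hx
    rw [Subgroup.mem_centralizer_iff]
    intro y hy
    exact congrArg Subtype.val (hcQ ⟨y, hy⟩ ⟨x, hx⟩)
  have hodd : Odd k0 := by
    have h1 : k0 ∣ (P : Subgroup G).relIndex (Subgroup.normalizer ((P : Subgroup G) : Set G)) := by
      rw [hk0]; exact Subgroup.relIndex_dvd_of_le_left _ hPC
    have h2 : (P : Subgroup G).relIndex (Subgroup.normalizer ((P : Subgroup G) : Set G)) ∣
        (P : Subgroup G).index := Subgroup.relIndex_dvd_index_of_le Subgroup.le_normalizer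
    have h3 : ¬ 2 ∣ (P : Subgroup G).index := P.not_dvd_index
    rw [← Nat.not_even_iff_odd, even_iff_two_dvd]
    intro h
    exact h3 (h.trans (h1.trans h2))
  have hpow : ∀ α ∈ φ.range, α ^ k0 = 1 := by
    intro α hα
    have h1 := pow_card_eq_one' (x := (⟨α, hα⟩ : φ.range))
    rw [hk0card] at h1
    have h2 := congrArg Subtype.val h1
    simpa using h2
  have hkey : ∀ α ∈ φ.range, ∀ t : ↥(P : Subgroup G), t ≠ 1 → t ^ 2 = 1 → α t = t → α = 1 := by
    intro α hα t ht1 ht2 hαt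
    apply MulEquiv.ext
    intro x
    exact trivial_of_fix_one hcQ h2Q t1 t2 t3 hall h11 h21 h31 h12 h22 h32 d12 d13 d23 α k0 hodd
      (hpow α hα) t ht1 ht2 hαt x
  have hk0' : k0 = (Subgroup.centralizer (P : Set G)).relIndex (Subgroup.normalizer (P : Set G)) :=
    hk0
  rw [← hk0']
  constructor
  · have hle : k0 ≤ 3 := by
      rw [← hk0card]
      have himg : ∀ α : φ.range, (α : MulAut ↥(P : Subgroup G)) t1 = t1 ∨
          (α : MulAut ↥(P : Subgroup G)) t1 = t2 ∨ (α : MulAut ↥(P : Subgroup G)) t1 = t3 := by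
        intro α
        rcases hall ((α : MulAut ↥(P : Subgroup G)) t1) (by rw [← map_pow, h12, map_one])
          with h | h | h | h
        · exact absurd (by simpa using h) h11
        · exact Or.inl h
        · exact Or.inr (Or.inl h)
        · exact Or.inr (Or.inr h)
      let f : φ.range → Fin 3 := fun α =>
        if (α : MulAut ↥(P : Subgroup G)) t1 = t1 then 0
        else if (α : MulAut ↥(P : Subgroup G)) t1 = t2 then 1 else 2
      have hf : Function.Injective f := by
        intro α β hαβ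
        have heq : (α : MulAut ↥(P : Subgroup G)) t1 = (β : MulAut ↥(P : Subgroup G)) t1 := by
          simp only [f] at hαβ
          rcases himg α with ha | ha | ha <;> rcases himg β with hb | hb | hb
          · rw [ha, hb]
          · exfalso; rw [if_pos ha, if_neg (hb ▸ d12.symm), if_pos hb] at hαβ; simp at hαβ
          · exfalso
            rw [if_pos ha, if_neg (hb ▸ d13.symm), if_neg (hb ▸ d23.symm)] at hαβ; simp at hαβ
          · exfalso; rw [if_neg (ha ▸ d12.symm), if_pos ha, if_pos hb] at hαβ; simp at hαβ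
          · rw [ha, hb]
          · exfalso
            rw [if_neg (ha ▸ d12.symm), if_pos ha, if_neg (hb ▸ d13.symm),
              if_neg (hb ▸ d23.symm)] at hαβ
            simp at hαβ
          · exfalso
            rw [if_neg (ha ▸ d13.symm), if_neg (ha ▸ d23.symm), if_pos hb] at hαβ; simp at hαβ
          · exfalso
            rw [if_neg (ha ▸ d13.symm), if_neg (ha ▸ d23.symm), if_neg (hb ▸ d12.symm),
              if_pos hb] at hαβ
            simp at hαβ
          · rw [ha, hb]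
        have h1 := hkey ((β : MulAut ↥(P : Subgroup G))⁻¹ * α)
          (φ.range.mul_mem (φ.range.inv_mem β.2) α.2) t1 h11 h12
          (by rw [MulAut.mul_apply, heq, MulAut.inv_apply_self])
        apply Subtype.ext
        exact (inv_mul_eq_one.mp h1).symm
      have := Nat.card_le_card_of_injective f hf
      simpa using this
    have hpos : k0 ≠ 0 := by
      rw [← hk0card]
      exact Nat.card_pos.ne'
    obtain ⟨l, hl⟩ := hodd
    omega
  · intro _ z hz hz1
    apply le_antisymm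
    · intro n hn
      obtain ⟨hnz, hnN⟩ := Subgroup.mem_inf.mp hn
      have hα : φ ⟨n, hnN⟩ ∈ φ.range := ⟨_, rfl⟩
      have hz1' : (⟨z, hz⟩ : ↥(P : Subgroup G)) ≠ 1 := fun h => hz1 (congrArg Subtype.val h)
      obtain ⟨i, hi1, hi2⟩ := exists_involution_pow (⟨z, hz⟩ : ↥(P : Subgroup G)) hz1' (h2Q _)
      have hfixz : (φ ⟨n, hnN⟩) ⟨z, hz⟩ = ⟨z, hz⟩ := by
        apply Subtype.ext
        rw [hφapp]
        rw [Subgroup.mem_centralizer_iff] at hnz
        have := hnz z (Set.mem_singleton z)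
        show n * z * n⁻¹ = z
        rw [← this]; group
      have h1 := hkey _ hα _ hi1 hi2 (by rw [map_pow, hfixz])
      rw [Subgroup.mem_centralizer_iff]
      intro x hx
      have h2 : ((φ ⟨n, hnN⟩ ⟨x, hx⟩ : ↥(P : Subgroup G)) : G) = x := by rw [h1]; rfl
      rw [hφapp] at h2
      have h3 : n * x * n⁻¹ = x := h2
      calc x * n = (n * x * n⁻¹) * n := by rw [h3]
        _ = n * x := by group
    · intro n hn
      exact Subgroup.mem_inf.mpr ⟨Subgroup.centralizer_le (Set.singleton_subset_iff.mpr hz) hn,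
        Subgroup.centralizer_le_normalizer _ hn⟩


end Cfsg.Agent.S0945
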