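import Mathlib
import Cfsg.Statements.S0948
import Cfsg.Agent.Lib.Helper16.Klein
import Cfsg.Agent.S0947

set_option autoImplicit false
open Cfsg

namespace Cfsg.Agent.S0948

open Cfsg.Agent.Lib.Helper16

/-- Let the finite group G have a Sylow 2-subgroup P that is a Klein four-group, suppose all involutions of G are conjugate, and fix a maximal ideal M of the algebraic integers containing 2. Then the principal block consists of exactly four irreducible characters, the principal character and ζ₂, ζ₃, ζ₄, and there is a sign ε such that for every involution z: ζ₂ z = 1, ζ₃ z = ε, ζ₄ z = -1; moreover ζ₂ 1 ≡ 1, ζ₃ 1 ≡ ε, ζ₄ 1 ≡ -1 (mod 4), and 1 + ζ₂ y + ε ζ₃ y - ζ₄ y = 0 for every y of odd order. -/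
theorem result {G : Type*} [Group G] [Finite G] (M : Ideal Cfsg.AlgInt) (hM : Cfsg.IsPModular 2 M) (P : Sylow 2 G) (hP : IsKleinFour (P : Subgroup G)) (hone : ∀ s t : G, orderOf s = 2 → orderOf t = 2 → IsConj s t) : ∃ ζ₂ ζ₃ ζ₄ : Cfsg.IrrCharacter G, ∃ ε : ℤ, (ε = 1 ∨ ε = -1) ∧ (ζ₂ : G → ℂ) ≠ (fun _ => 1) ∧ (ζ₃ : G → ℂ) ≠ (fun _ => 1) ∧ ζ₂ ≠ ζ₃ ∧ ζ₂ ≠ ζ₄ ∧ ζ₃ ≠ ζ₄ ∧ Cfsg.principalBlock M G = {χ : Cfsg.IrrCharacter G | (χ : G → ℂ) = (fun _ => 1) ∨ χ = ζ₂ ∨ χ = ζ₃ ∨ χ = ζ₄} ∧ (∀ z : G, orderOf z = 2 → (ζ₂ : G → ℂ) z = 1 ∧ (ζ₃ : G → ℂ) z = (ε : ℂ) ∧ (ζ₄ : G → ℂ) z = -1) ∧ (4 : ℤ) ∣ (Cfsg.charDegree (ζ₂ : G → ℂ) : ℤ) - 1 ∧ (4 : ℤ) ∣ (Cfsg.charDegree (ζ₃ : G → ℂ) : ℤ) - ε ∧ (4 : ℤ) ∣ (Cfsg.charDegree (ζ₄ : G → ℂ) : ℤ) + 1 ∧ ∀ y : G, Odd (orderOf y) → 1 + (ζ₂ : G → ℂ) y + (ε : ℂ) * (ζ₃ : G → ℂ) y - (ζ₄ : G → ℂ) y = 0 := by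

  classical
  have : Fintype G := Fintype.ofFinite G
  have hf2 : Fact (Nat.Prime 2) := ⟨Nat.prime_two⟩
  obtain ⟨z0, -, hz0P, -, hz1, -, -, -⟩ := Cfsg.Agent.Lib.Helper52.klein_exists_basis P hP
  have hz0 : orderOf z0 = 2 := Cfsg.Agent.Lib.Helper52.klein_orderOf P hP z0 hz0P hz1
  obtain ⟨hidx, hfac⟩ := klein_centralizer_index P hP z0 hz0P hz1
  have hy : ¬ 2 ∣ orderOf (1 : Subgroup.centralizer ({z0} : Set G)) := by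
    rw [orderOf_one]
    norm_num
  have h947 := (Cfsg.Agent.S0947.result 2 M hM z0 ⟨1, by rw [hz0, pow_one]⟩ hz1
    (1 : Subgroup.centralizer ({z0} : Set G)) hy).2 ⟨2, hidx⟩
  rw [hfac] at h947
  have hsum : ∑ᶠ ζ ∈ Cfsg.principalBlock M G, ‖(ζ : G → ℂ) z0‖ ^ 2 = 4 := by
    have h1 : (z0 * ((1 : Subgroup.centralizer ({z0} : Set G)) : G)) = z0 := by
      rw [OneMemClass.coe_one, mul_one]
    rw [h1] at h947
    rw [h947]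
    norm_num
  exact klein_principal hM P hP hone z0 hz0 hsum

end Cfsg.Agent.S0948
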