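import Mathlib
import Cfsg.Statements.S0950
import Cfsg.Agent.Lib.Helper95.OddAut
import Cfsg.Agent.Lib.Helper54.Frobenius

set_option autoImplicit false
open Cfsg

namespace Cfsg.Agent.S0950

open Cfsg.Agent.Lib.Helper95.OddAut

set_option maxRecDepth 1000000 in
set_option synthInstance.maxSize 4096 in
set_option synthInstance.maxHeartbeats 0 in
theorem q8_four : ∀ x y z w : QuaternionGroup 2, x ^ 2 ≠ 1 → y ^ 2 ≠ 1 → z ^ 2 ≠ 1 → w ^ 2 ≠ 1 →
    y ≠ x → y ≠ x ^ 3 → z ≠ x → z ≠ x ^ 3 → z ≠ y → z ≠ y ^ 3 →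
    (w = x ∨ w = x ^ 3 ∨ w = y ∨ w = y ^ 3 ∨ w = z ∨ w = z ^ 3) := by
  decide +kernel

set_option maxRecDepth 1000000 in
theorem q8_pow_four : ∀ x : QuaternionGroup 2, x ^ 4 = 1 := by
  decide +kernel

set_option maxRecDepth 1000000 in
theorem q8_sq : ∀ x : QuaternionGroup 2, x ^ 2 = 1 → x = 1 ∨ x = QuaternionGroup.a 2 := by
  decide +kernel

set_option maxRecDepth 1000000 in
theorem q8_a2_sq : (QuaternionGroup.a 2 : QuaternionGroup 2) ^ 2 = 1 := by
  decide +kernel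

variable {G : Type*} [Group G]

section Q8

variable (S : Subgroup G) (e : ↥S ≃* QuaternionGroup 2)

include e

theorem pow_four {x : G} (hx : x ∈ S) : x ^ 4 = 1 := by
  have h := q8_pow_four (e ⟨x, hx⟩)
  rw [← map_pow] at h
  have h2 := e.injective (h.trans (map_one e).symm)
  exact congrArg Subtype.val h2

theorem sq_cases : ∃ z0 ∈ S, z0 ^ 2 = 1 ∧ ∀ x ∈ S, x ^ 2 = 1 → x = 1 ∨ x = z0 := by
  refine ⟨(e.symm (QuaternionGroup.a 2) : ↥S), (e.symm (QuaternionGroup.a 2)).2, ?_, ?_⟩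
  · have h : (e.symm (QuaternionGroup.a 2) : ↥S) ^ 2 = 1 := by
      apply e.injective
      rw [map_pow, MulEquiv.apply_symm_apply, map_one]
      exact q8_a2_sq
    exact congrArg Subtype.val h
  · intro x hx hx2
    have h : (e ⟨x, hx⟩) ^ 2 = 1 := by
      rw [← map_pow]
      have : (⟨x, hx⟩ : ↥S) ^ 2 = 1 := Subtype.ext hx2
      rw [this, map_one]
    rcases q8_sq _ h with h1 | h1
    · left
      have := e.injective (h1.trans (map_one e).symm)
      exact congrArg Subtype.val this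
    · right
      have : (⟨x, hx⟩ : ↥S) = e.symm (QuaternionGroup.a 2) := by
        apply e.injective
        rw [MulEquiv.apply_symm_apply]
        exact h1
      exact congrArg Subtype.val this

theorem four_classes {x y z w : G} (hx : x ∈ S) (hy : y ∈ S) (hz : z ∈ S) (hw : w ∈ S)
    (hx2 : x ^ 2 ≠ 1) (hy2 : y ^ 2 ≠ 1) (hz2 : z ^ 2 ≠ 1) (hw2 : w ^ 2 ≠ 1)
    (h1 : y ≠ x) (h2 : y ≠ x ^ 3) (h3 : z ≠ x) (h4 : z ≠ x ^ 3) (h5 : z ≠ y) (h6 : z ≠ y ^ 3) :
    w = x ∨ w = x ^ 3 ∨ w = y ∨ w = y ^ 3 ∨ w = z ∨ w = z ^ 3 := by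
  have key : ∀ {u v : G} (hu : u ∈ S) (hv : v ∈ S), e ⟨u, hu⟩ = e ⟨v, hv⟩ → u = v := by
    intro u v hu hv h
    exact congrArg Subtype.val (e.injective h)
  have key3 : ∀ {u v : G} (hu : u ∈ S) (hv : v ∈ S), e ⟨u, hu⟩ = (e ⟨v, hv⟩) ^ 3 → u = v ^ 3 := by
    intro u v hu hv h
    rw [← map_pow] at h
    exact congrArg Subtype.val (e.injective h)
  have ksq : ∀ {u : G} (hu : u ∈ S), u ^ 2 ≠ 1 → (e ⟨u, hu⟩) ^ 2 ≠ 1 := by
    intro u hu h h'
    apply h
    rw [← map_pow] at h'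
    exact congrArg Subtype.val (e.injective (h'.trans (map_one e).symm))
  have := q8_four (e ⟨x, hx⟩) (e ⟨y, hy⟩) (e ⟨z, hz⟩) (e ⟨w, hw⟩) (ksq hx hx2) (ksq hy hy2)
    (ksq hz hz2) (ksq hw hw2) (fun h => h1 (key hy hx h)) (fun h => h2 (key3 hy hx h))
    (fun h => h3 (key hz hx h)) (fun h => h4 (key3 hz hx h)) (fun h => h5 (key hz hy h))
    (fun h => h6 (key3 hz hy h))
  rcases this with h | h | h | h | h | h
  · exact Or.inl (key hw hx h)
  · exact Or.inr (Or.inl (key3 hw hx h))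
  · exact Or.inr (Or.inr (Or.inl (key hw hy h)))
  · exact Or.inr (Or.inr (Or.inr (Or.inl (key3 hw hy h))))
  · exact Or.inr (Or.inr (Or.inr (Or.inr (Or.inl (key hw hz h)))))
  · exact Or.inr (Or.inr (Or.inr (Or.inr (Or.inr (key3 hw hz h)))))

/-- Subgroups of order four are cyclic, generated by any element of order four. -/
theorem exists_gen [Finite G] (X : Subgroup G) (hX : X ≤ S) (hX4 : Nat.card X = 4) :
    ∃ x ∈ X, x ^ 2 ≠ 1 ∧ X = Subgroup.zpowers x := by
  obtain ⟨z0, hz0S, hz0sq, hsq⟩ := sq_cases S e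
  have hex : ∃ x ∈ X, x ^ 2 ≠ 1 := by
    by_contra hcon
    push Not at hcon
    have hle : X ≤ Subgroup.zpowers z0 := by
      intro x hx
      rcases hsq x (hX hx) (hcon x hx) with h | h
      · rw [h]; exact Subgroup.one_mem _
      · rw [h]; exact Subgroup.mem_zpowers _
    have h1 := Subgroup.card_le_of_le hle
    rw [hX4, Nat.card_zpowers] at h1
    have h2 : orderOf z0 ≤ 2 := Nat.le_of_dvd (by norm_num) (orderOf_dvd_of_pow_eq_one hz0sq)
    omega
  obtain ⟨x, hxX, hx2⟩ := hex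
  refine ⟨x, hxX, hx2, ?_⟩
  symm
  apply Subgroup.eq_of_le_of_card_ge (Subgroup.zpowers_le.mpr hxX)
  rw [hX4, Nat.card_zpowers]
  have h4 : orderOf x = 2 ^ (1 + 1) := by
    apply orderOf_eq_prime_pow
    · simpa using hx2
    · have := pow_four S e (hX hxX)
      simpa using this
  rw [h4]; norm_num

omit e in
theorem eq_of_mem_of_card' {X Y : Subgroup G} [Finite G] (hX4 : Nat.card X = 4)
    (hY4 : Nat.card Y = 4) (x : G) (hX : X = Subgroup.zpowers x) (hxY : x ∈ Y) : X = Y := by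
  apply Subgroup.eq_of_le_of_card_ge
  · rw [hX]; exact Subgroup.zpowers_le.mpr hxY
  · rw [hX4, hY4]

/-- There are at most three subgroups of order four. -/
theorem three_subgroups [Finite G] (A A1 A2 B : Subgroup G) (hA : A ≤ S) (hA1 : A1 ≤ S)
    (hA2 : A2 ≤ S) (hB : B ≤ S) (cA : Nat.card A = 4) (cA1 : Nat.card A1 = 4)
    (cA2 : Nat.card A2 = 4) (cB : Nat.card B = 4) (d1 : A1 ≠ A) (d2 : A2 ≠ A) (d3 : A2 ≠ A1) :
    B = A ∨ B = A1 ∨ B = A2 := by
  obtain ⟨a, haA, ha2, hAa⟩ := exists_gen S e A hA cA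
  obtain ⟨a1, haA1, ha12, hAa1⟩ := exists_gen S e A1 hA1 cA1
  obtain ⟨a2, haA2, ha22, hAa2⟩ := exists_gen S e A2 hA2 cA2
  obtain ⟨b, hbB, hb2, hBb⟩ := exists_gen S e B hB cB
  have := four_classes S e (hA haA) (hA1 haA1) (hA2 haA2) (hB hbB) ha2 ha12 ha22 hb2
    (fun h => d1 (eq_of_mem_of_card' cA1 cA a1 hAa1 (h ▸ haA)))
    (fun h => d1 (eq_of_mem_of_card' cA1 cA a1 hAa1 (h ▸ A.pow_mem haA 3)))
    (fun h => d2 (eq_of_mem_of_card' cA2 cA a2 hAa2 (h ▸ haA)))
    (fun h => d2 (eq_of_mem_of_card' cA2 cA a2 hAa2 (h ▸ A.pow_mem haA 3)))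
    (fun h => d3 (eq_of_mem_of_card' cA2 cA1 a2 hAa2 (h ▸ haA1)))
    (fun h => d3 (eq_of_mem_of_card' cA2 cA1 a2 hAa2 (h ▸ A1.pow_mem haA1 3)))
  rcases this with h | h | h | h | h | h
  · exact Or.inl (eq_of_mem_of_card' cB cA b hBb (h ▸ haA))
  · exact Or.inl (eq_of_mem_of_card' cB cA b hBb (h ▸ A.pow_mem haA 3))
  · exact Or.inr (Or.inl (eq_of_mem_of_card' cB cA1 b hBb (h ▸ haA1)))
  · exact Or.inr (Or.inl (eq_of_mem_of_card' cB cA1 b hBb (h ▸ A1.pow_mem haA1 3)))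
  · exact Or.inr (Or.inr (eq_of_mem_of_card' cB cA2 b hBb (h ▸ haA2)))
  · exact Or.inr (Or.inr (eq_of_mem_of_card' cB cA2 b hBb (h ▸ A2.pow_mem haA2 3)))

omit e in
theorem mem_map_conj {A : Subgroup G} {n x : G} :
    x ∈ A.map (MulAut.conj n).toMonoidHom ↔ n⁻¹ * x * n ∈ A := by
  constructor
  · rintro ⟨a, ha, rfl⟩
    have : n⁻¹ * ((MulAut.conj n).toMonoidHom a) * n = a := by
      simp [MulAut.conj_apply, mul_assoc]
    rw [this]; exact ha
  · intro h
    refine ⟨n⁻¹ * x * n, h, ?_⟩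
    simp [MulAut.conj_apply, mul_assoc]

omit e in
theorem conj_mem_map_conj {A : Subgroup G} {n a : G} (ha : a ∈ A) :
    n * a * n⁻¹ ∈ A.map (MulAut.conj n).toMonoidHom := by
  rw [mem_map_conj]
  have : n⁻¹ * (n * a * n⁻¹) * n = a := by group
  rw [this]; exact ha

/-- An element of odd order normalizing `S` and a subgroup of order four centralizes `S`. -/
theorem lemK [Finite G] (h2 : IsPGroup 2 S) (hS8 : Nat.card S = 8) (A : Subgroup G) (hA : A ≤ S)
    (cA : Nat.card A = 4) (h : G) (hodd : Odd (orderOf h)) (hS : ∀ q ∈ S, h * q * h⁻¹ ∈ S)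
    (hAn : ∀ a ∈ A, h * a * h⁻¹ ∈ A) : ∀ q ∈ S, h * q * h⁻¹ = q := by
  obtain ⟨a, haA, ha2, hAa⟩ := exists_gen S e A hA cA
  have hc : IsCyclic A := by rw [hAa]; infer_instance
  have hD := centralizes_cyclic_two A hc (h2.to_le hA) h hAn hodd
  have hidx : A.relIndex S = 2 := by
    have h1 := Subgroup.card_mul_index (A.subgroupOf S)
    have h2 : Nat.card (A.subgroupOf S) = Nat.card A :=
      Nat.card_congr (Subgroup.subgroupOfEquivOfLe hA).toEquiv
    rw [h2, cA, hS8] at h1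
    have h3 : (A.subgroupOf S).index = 2 := by omega
    exact h3
  exact centralizes_of_relIndex_two S A hA h2 hidx h hodd hS hD

end Q8

/-- Let S be a Sylow 2-subgroup of the finite group G that is isomorphic to the quaternion group of order 8, and suppose S has no normal complement in G. Then any two subgroups of order 4 of S are conjugate by an element of the normalizer of S. -/
theorem result {G : Type*} [Group G] [Finite G] (S : Sylow 2 G) (e : (S : Subgroup G) ≃* QuaternionGroup 2) (hnc : ∀ N : Subgroup G, N.Normal → ¬ Subgroup.IsComplement' N (S : Subgroup G)) (A B : Subgroup G) (hA : A ≤ S) (hB : B ≤ S) (hA4 : Nat.card A = 4) (hB4 : Nat.card B = 4) : ∃ n ∈ Subgroup.normalizer ((S : Subgroup G) : Set G), B = A.map (MulAut.conj n).toMonoidHom := by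
  have : Fact (Nat.Prime 2) := ⟨Nat.prime_two⟩
  have hS8 : Nat.card (S : Subgroup G) = 8 := by
    rw [Nat.card_congr e.toEquiv, Nat.card_eq_fintype_card, QuaternionGroup.card]
  have h2S : IsPGroup 2 (S : Subgroup G) := S.isPGroup'
  -- Frobenius
  have hfrob : ¬ ∀ Q : Subgroup G, Q ≤ (S : Subgroup G) → ∀ g ∈ Subgroup.normalizer (Q : Set G),
        Nat.Coprime (orderOf g) 2 → g ∈ Subgroup.centralizer (Q : Set G) := by
    intro hF
    obtain ⟨N, hN, hc⟩ := (Cfsg.Agent.Lib.Helper54.frobenius_sylow S).mpr hF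
    exact hnc N hN hc
  push Not at hfrob
  obtain ⟨Q, hQS, g, hgN, hgcop, hgC⟩ := hfrob
  have hodd : Odd (orderOf g) := Nat.coprime_two_right.mp hgcop
  have hgQ : ∀ q ∈ Q, g * q * g⁻¹ ∈ Q := fun q hq => (Subgroup.mem_normalizer_iff.mp hgN q).mp hq
  -- `Q` is not cyclic
  have hncyc : ¬ IsCyclic Q := by
    intro hc
    apply hgC
    rw [Subgroup.mem_centralizer_iff]
    intro q hq
    have := centralizes_cyclic_two Q hc (h2S.to_le hQS) g hgQ hodd q hq
    exact (mul_inv_eq_iff_eq_mul.mp this).symm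
  have hQeq : Q = (S : Subgroup G) := by
    have hdvd : Nat.card Q ∣ 8 := hS8 ▸ Subgroup.card_dvd_of_le hQS
    have hdvd' : Nat.card Q ∣ 2 ^ 3 := by norm_num; exact hdvd
    obtain ⟨k, hk, hk2⟩ := (Nat.dvd_prime_pow Nat.prime_two).mp hdvd'
    have hk4 : k = 0 ∨ k = 1 ∨ k = 2 ∨ k = 3 := by omega
    rcases hk4 with rfl | rfl | rfl | rfl
    · exfalso
      apply hncyc
      have : Subsingleton Q := (Nat.card_eq_one_iff_unique.mp (by simpa using hk2)).1
      infer_instance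
    · exfalso
      apply hncyc
      exact isCyclic_of_prime_card (p := 2) (by simpa using hk2)
    · exfalso
      apply hncyc
      obtain ⟨x, hxQ, hx2, hQx⟩ := exists_gen (S : Subgroup G) e Q hQS (by simpa using hk2)
      rw [hQx]; infer_instance
    · apply Subgroup.eq_of_le_of_card_ge hQS
      rw [hS8, hk2]; norm_num
  subst hQeq
  have hnotc : ¬ ∀ q ∈ (S : Subgroup G), g * q * g⁻¹ = q := by
    intro hc
    apply hgC
    rw [Subgroup.mem_centralizer_iff]
    intro q hq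
    have := hc q hq
    exact (mul_inv_eq_iff_eq_mul.mp this).symm
  -- `g` does not normalize `A`
  have hK := lemK (S : Subgroup G) e h2S hS8 A hA hA4
  have hgA : ¬ ∀ a ∈ A, g * a * g⁻¹ ∈ A := fun h => hnotc (hK g hodd hgQ h)
  -- `g ^ 2`
  have hodd2 : Odd (orderOf (g ^ 2)) := by
    have hdvd : orderOf (g ^ 2) ∣ orderOf g := orderOf_pow_dvd 2
    exact Odd.of_dvd_nat hodd hdvd
  have hg2N : g ^ 2 ∈ Subgroup.normalizer ((S : Subgroup G) : Set G) := Subgroup.pow_mem _ hgN 2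
  have hg2Q : ∀ q ∈ (S : Subgroup G), g ^ 2 * q * (g ^ 2)⁻¹ ∈ (S : Subgroup G) :=
    fun q hq => (Subgroup.mem_normalizer_iff.mp hg2N q).mp hq
  have hg2A : ¬ ∀ a ∈ A, g ^ 2 * a * (g ^ 2)⁻¹ ∈ A := by
    intro h
    apply hnotc
    have hc2 := hK (g ^ 2) hodd2 hg2Q h
    intro q hq
    obtain ⟨m, hm⟩ := hodd
    have hgm : (g ^ 2) ^ (m + 1) = g := by
      rw [← pow_mul]
      have : 2 * (m + 1) = orderOf g + 1 := by omega
      rw [this, pow_succ, pow_orderOf_eq_one, one_mul]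
    have hcomm : Commute (g ^ 2) q := by
      have := hc2 q hq
      have h' : g ^ 2 * q = q * g ^ 2 := by
        rw [mul_inv_eq_iff_eq_mul] at this
        exact this
      exact h'
    have hcomm' : Commute g q := by
      have := hcomm.pow_left (m + 1)
      rwa [hgm] at this
    rw [hcomm'.eq, mul_assoc, mul_inv_cancel, mul_one]
  -- the three subgroups
  have hmapS : ∀ n ∈ Subgroup.normalizer ((S : Subgroup G) : Set G),
      A.map (MulAut.conj n).toMonoidHom ≤ (S : Subgroup G) := by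
    intro n hn x hx
    rw [mem_map_conj] at hx
    have h1 := (Subgroup.mem_normalizer_iff.mp hn _).mp (hA hx)
    have h2 : n * (n⁻¹ * x * n) * n⁻¹ = x := by group
    rwa [h2] at h1
  have hmapc : ∀ n : G, Nat.card (A.map (MulAut.conj n).toMonoidHom) = 4 := by
    intro n
    rw [Subgroup.card_map_of_injective (MulAut.conj n).injective]
    exact hA4
  have d1 : A.map (MulAut.conj g).toMonoidHom ≠ A := by
    intro h
    apply hgA
    intro a ha
    rw [← h]
    exact conj_mem_map_conj ha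
  have d2 : A.map (MulAut.conj (g ^ 2)).toMonoidHom ≠ A := by
    intro h
    apply hg2A
    intro a ha
    rw [← h]
    exact conj_mem_map_conj ha
  have d3 : A.map (MulAut.conj (g ^ 2)).toMonoidHom ≠ A.map (MulAut.conj g).toMonoidHom := by
    intro h
    apply hgA
    intro a ha
    have h1 : g ^ 2 * a * (g ^ 2)⁻¹ ∈ A.map (MulAut.conj g).toMonoidHom := by
      rw [← h]
      exact conj_mem_map_conj ha
    rw [mem_map_conj] at h1
    have h2 : g⁻¹ * (g ^ 2 * a * (g ^ 2)⁻¹) * g = g * a * g⁻¹ := by group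
    rwa [h2] at h1
  rcases three_subgroups (S : Subgroup G) e A _ _ B hA (hmapS g hgN) (hmapS (g ^ 2) hg2N) hB hA4
    (hmapc g) (hmapc (g ^ 2)) hB4 d1 d2 d3 with h | h | h
  · refine ⟨1, Subgroup.one_mem _, ?_⟩
    rw [h]
    ext x
    rw [mem_map_conj]
    simp
  · exact ⟨g, hgN, h⟩
  · exact ⟨g ^ 2, hg2N, h⟩

end Cfsg.Agent.S0950
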