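import Cfsg.Statements.S0953
import Cfsg.Agent.Lib.Helper79.SylowBlocks
import Cfsg.Agent.S0920

set_option autoImplicit false
open Cfsg

namespace Cfsg.Agent.S0953

/-- Let P be a Sylow p-subgroup of the finite group G with normalizer N, and fix a maximal ideal M of the algebraic integers containing p. The number of blocks of G having P as a defect group equals the number of conjugacy classes of N consisting of elements of order prime to p that centralize P. -/
theorem result {G : Type*} [Group G] [Finite G] (p : ℕ) [Fact p.Prime] (M : Ideal Cfsg.AlgInt) (hM : Cfsg.IsPModular p M) (P : Sylow p G) : Nat.card {B : Set (Cfsg.IrrCharacter G) // Cfsg.IsPBlock M B ∧ Cfsg.IsDefectGroup p M B (P : Subgroup G)} = Nat.card {C : ConjClasses (Subgroup.normalizer ((P : Subgroup G) : Set G)) // ∀ n : Subgroup.normalizer ((P : Subgroup G) : Set G), ConjClasses.mk n = C → ¬ p ∣ orderOf n ∧ (n : G) ∈ Subgroup.centralizer ((P : Subgroup G) : Set G)} := by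
  classical
  have hMp := Cfsg.Agent.Lib.Helper16.isPrime_of_isPModular hM
  have hp : p.Prime := Fact.out
  have hD : IsPGroup p (P : Subgroup G) := P.isPGroup'
  have hDN : (P : Subgroup G) ≤ Subgroup.normalizer ((P : Subgroup G) : Set G) :=
    Subgroup.le_normalizer
  have hQn : ((P : Subgroup G).subgroupOf (Subgroup.normalizer ((P : Subgroup G) : Set G))).Normal :=
    (Subgroup.normal_subgroupOf_iff_le_normalizer hDN).mpr le_rfl
  have hQ : IsPGroup p ((P : Subgroup G).subgroupOf
      (Subgroup.normalizer ((P : Subgroup G) : Set G))) := hD.comap_subtype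
  have hQi : ¬ p ∣ ((P : Subgroup G).subgroupOf
      (Subgroup.normalizer ((P : Subgroup G) : Set G))).index := by
    intro hdvd
    apply P.not_dvd_index
    have h1 := Subgroup.relIndex_mul_index hDN
    rw [← h1]
    exact Dvd.dvd.mul_right hdvd _
  obtain ⟨hex, hun⟩ := Cfsg.Agent.S0920.result p M hM (P : Subgroup G) hD
  -- Step A: Brauer correspondence
  have hA : Nat.card {B : Set (Cfsg.IrrCharacter G) // Cfsg.IsPBlock M B ∧
      Cfsg.IsDefectGroup p M B (P : Subgroup G)} =
      Nat.card {b : Set (Cfsg.IrrCharacter (Subgroup.normalizer ((P : Subgroup G) : Set G))) //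
        Cfsg.IsPBlock M b} := by
    let f : {B : Set (Cfsg.IrrCharacter G) // Cfsg.IsPBlock M B ∧
        Cfsg.IsDefectGroup p M B (P : Subgroup G)} →
        {b : Set (Cfsg.IrrCharacter (Subgroup.normalizer ((P : Subgroup G) : Set G))) //
          Cfsg.IsPBlock M b} := fun B =>
      ⟨(hun B.1 B.2.1 B.2.2).exists.choose, (hun B.1 B.2.1 B.2.2).exists.choose_spec.1⟩
    have hf : ∀ B, Cfsg.IsInducedBlock M (Subgroup.normalizer ((P : Subgroup G) : Set G))
        (f B).1 B.1 := fun B => (hun B.1 B.2.1 B.2.2).exists.choose_spec.2.2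
    refine Nat.card_eq_of_bijective f ⟨?_, ?_⟩
    · intro B B' hBB
      apply Subtype.ext
      have h1 := hf B
      have h2 := hf B'
      rw [← hBB] at h2
      obtain ⟨ξ, hξ⟩ := Cfsg.Agent.Lib.Helper16.IsPBlock.nonempty hMp h1.1
      obtain ⟨χ, hχ⟩ := Cfsg.Agent.Lib.Helper16.IsPBlock.nonempty hMp B.2.1
      obtain ⟨χ', hχ'⟩ := Cfsg.Agent.Lib.Helper16.IsPBlock.nonempty hMp B'.2.1
      have hs : Cfsg.SameBlock M (χ : G → ℂ) (χ' : G → ℂ) := by
        intro g
        have e1 := h1.2.2 ξ hξ χ hχ g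
        have e2 := h2.2.2 ξ hξ χ' hχ' g
        have := Cfsg.Agent.Lib.Helper16.memLocalIdeal_sub hMp e2 e1
        rwa [sub_sub_sub_cancel_left] at this
      rw [Cfsg.Agent.Lib.Helper16.IsPBlock.eq_blockOf hMp B.2.1 hχ,
        Cfsg.Agent.Lib.Helper16.IsPBlock.eq_blockOf hMp B'.2.1 hχ']
      exact Cfsg.Agent.Lib.Helper16.blockOf_eq_of_sameBlock hMp hs
    · intro b
      have hbD := Cfsg.Agent.Lib.Helper79.isDefectGroup_of_normal_sylow hM _ hQ hQi b.1 b.2
      obtain ⟨B, hB, hBD, hind⟩ := hex b.1 b.2 hbD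
      refine ⟨⟨B, hB, hBD⟩, ?_⟩
      apply Subtype.ext
      exact (hun B hB hBD).unique (hun B hB hBD).exists.choose_spec ⟨b.2, hbD, hind⟩
  rw [hA, Cfsg.Agent.Lib.Helper79.card_blocks_eq_of_normal_sylow hM _ hQ hQi]
  -- Step C: rewrite the class condition
  have hS : ∀ n : Subgroup.normalizer ((P : Subgroup G) : Set G),
      n ∈ Subgroup.centralizer ((((P : Subgroup G).subgroupOf
        (Subgroup.normalizer ((P : Subgroup G) : Set G)) :
          Subgroup (Subgroup.normalizer ((P : Subgroup G) : Set G))) :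
            Set (Subgroup.normalizer ((P : Subgroup G) : Set G)))) ↔
        (n : G) ∈ Subgroup.centralizer ((P : Subgroup G) : Set G) := by
    intro n
    rw [Subgroup.mem_centralizer_iff, Subgroup.mem_centralizer_iff]
    constructor
    · intro h d hd
      have := h ⟨d, hDN hd⟩ (Subgroup.mem_subgroupOf.mpr hd)
      exact congrArg Subtype.val this
    · intro h q hq
      apply Subtype.ext
      exact h (q : G) (Subgroup.mem_subgroupOf.mp hq)
  refine Nat.card_congr (Equiv.subtypeEquivRight (fun C => ?_))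
  constructor
  · rintro ⟨g, rfl, hg⟩ n hn
    obtain ⟨c, hc⟩ := isConj_iff.mp (ConjClasses.mk_eq_mk_iff_isConj.mp hn.symm)
    have := Cfsg.Agent.Lib.Helper79.regular_cent_conj _ c g hg
    rw [hc] at this
    exact ⟨this.1, (hS n).mp this.2⟩
  · intro h
    obtain ⟨g, rfl⟩ := ConjClasses.mk_surjective C
    exact ⟨g, rfl, (h g rfl).1, (hS g).mpr (h g rfl).2⟩

end Cfsg.Agent.S0953
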