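import Cfsg.Statements.S0954
import Cfsg.Agent.Lib.Helper79.CliffordRatio
import Cfsg.Agent.Lib.Helper16.NormalKer
import Cfsg.Agent.Lib.Helper16.PRegular
import Cfsg.Agent.Lib.Helper16.NormalIdem

set_option autoImplicit false
open Cfsg

namespace Cfsg.Agent.S0954

/-- Let N be a normal subgroup of the finite group G of order prime to p and of p-power index (a normal p-complement), and fix a maximal ideal M of the algebraic integers containing p. Then two irreducible characters χ, ψ of G lie in the same block if and only if some irreducible character of N has nonzero inner product with both the restriction of χ and the restriction of ψ. -/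
theorem result {G : Type*} [Group G] [Fintype G] (p : ℕ) [Fact p.Prime] (M : Ideal Cfsg.AlgInt) (hM : Cfsg.IsPModular p M) (N : Subgroup G) [N.Normal] [Fintype N] (hN : ¬ p ∣ Nat.card N) (hidx : ∃ k : ℕ, N.index = p ^ k) (χ ψ : Cfsg.IrrCharacter G) : Cfsg.SameBlock M (χ : G → ℂ) (ψ : G → ℂ) ↔ ∃ θ : Cfsg.IrrCharacter N, Cfsg.classInner (fun n : N => (χ : G → ℂ) n) (θ : N → ℂ) ≠ 0 ∧ Cfsg.classInner (fun n : N => (ψ : G → ℂ) n) (θ : N → ℂ) ≠ 0 := by
  classical
  have hp : p.Prime := Fact.out
  have hMp := Cfsg.Agent.Lib.Helper16.isPrime_of_isPModular hM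
  constructor
  · intro h
    let _ : Fintype (Cfsg.IrrCharacter N) := Fintype.ofFinite _
    have hcl := Cfsg.Agent.Lib.Helper3.isClassFunction_of_isCharacter
      (Cfsg.Agent.Lib.Helper3.isCharacter_of_irr χ.2)
    have h1 := Cfsg.Agent.Lib.Helper16.res_one_eq_sum N hcl
    obtain ⟨θ, hθ⟩ : ∃ θ : Cfsg.IrrCharacter N,
        Cfsg.classInner (fun n : N => (χ : G → ℂ) n) (θ : N → ℂ) ≠ 0 := by
      by_contra hcon
      push Not at hcon
      have h2 : (χ : G → ℂ) 1 = 0 := by
        rw [h1]
        exact Finset.sum_eq_zero (fun θ _ => by rw [hcon θ, zero_mul])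
      exact Cfsg.Agent.Lib.Helper79.irr_one_ne_zero χ.2 h2
    exact ⟨θ, hθ, Cfsg.Agent.Lib.Helper16.constituent_of_sameBlock N hM hN h θ hθ⟩
  · rintro ⟨θ, hχθ, hψθ⟩
    apply Cfsg.Agent.Lib.Helper16.sameBlock_of_pRegular hM
    intro g hg
    obtain ⟨k, hk⟩ := hidx
    have hgN : g ∈ N := Cfsg.Agent.Lib.Helper16.mem_of_pRegular_of_index hp N hk hg
    have h1 := Cfsg.Agent.Lib.Helper79.div_one_eq_of_common_constituent N χ.2 ψ.2 θ hχθ hψθ hgN
    have h2 : Cfsg.centralChar (χ : G → ℂ) g = Cfsg.centralChar (ψ : G → ℂ) g := by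
      unfold Cfsg.centralChar
      rw [mul_div_assoc, mul_div_assoc, h1]
    rw [h2, sub_self]
    exact Cfsg.Agent.Lib.Helper16.memLocalIdeal_zero hMp

end Cfsg.Agent.S0954
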