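import Mathlib
import Cfsg.Statements.S0956
import Cfsg.Agent.Lib.Helper16.Green

set_option autoImplicit false
open Cfsg

namespace Cfsg.Agent.S0956

open Cfsg.Agent.Lib.Helper16

/-- Let D be a defect group of a block of the finite group G (relative to a maximal ideal M of the algebraic integers containing the prime p) and P a Sylow p-subgroup containing D. Then there is an element x of order prime to p such that D is a Sylow p-subgroup of the centralizer of x and D = P ∩ x P x⁻¹. -/
theorem result {G : Type*} [Group G] [Finite G] (p : ℕ) [Fact p.Prime] (M : Ideal Cfsg.AlgInt) (hM : Cfsg.IsPModular p M) (B : Set (Cfsg.IrrCharacter G)) (hB : Cfsg.IsPBlock M B) (D : Subgroup G) (hD : Cfsg.IsDefectGroup p M B D) (P : Sylow p G) (hDP : D ≤ P) : ∃ x : G, ¬ p ∣ orderOf x ∧ (∃ S : Sylow p (Subgroup.centralizer ({x} : Set G)), (S : Subgroup (Subgroup.centralizer ({x} : Set G))).map (Subgroup.centralizer ({x} : Set G)).subtype = D) ∧ (P : Subgroup G) ⊓ (P : Subgroup G).map (MulAut.conj x).toMonoidHom = D :=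 by
  classical
  have : Fintype G := Fintype.ofFinite G
  have hMp := isPrime_of_isPModular hM
  have hDp : IsPGroup p D := isPGroup_of_isDefectGroup hD
  have hDN : D ≤ Subgroup.normalizer (D : Set G) := Subgroup.le_normalizer
  have : Fintype (Subgroup.normalizer (D : Set G)) := Fintype.ofFinite _
  obtain ⟨b, hb⟩ := exists_isInducedBlock_normalizer hM B hB D hD
  obtain ⟨hbD, -⟩ := isDefectGroup_of_isInducedBlock_normalizer hM B hB D hD b hb
  have hnorm : (D.subgroupOf (Subgroup.normalizer (D : Set G))).Normal :=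
    (Subgroup.normal_subgroupOf_iff_le_normalizer hDN).mpr le_rfl
  obtain ⟨P1, hP1⟩ := IsPGroup.exists_le_sylow
    ((P.isPGroup'.to_le inf_le_left : IsPGroup p
      ((P : Subgroup G) ⊓ Subgroup.normalizer (D : Set G) : Subgroup G)).comap_subtype
      (K := Subgroup.normalizer (D : Set G)))
  obtain ⟨y, hy, ⟨S, hS⟩, hPy⟩ := green_normal hM b hb.1 _ hnorm hbD P1
  refine ⟨(y : G), ?_, ?_, ?_⟩
  · intro hdiv
    rw [Subgroup.orderOf_coe] at hdiv
    apply hy.2.1
    rw [Cfsg.Agent.Lib.Helper77.blockCoeff_eq_zero_of_singular hM b hb.1 hdiv]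
    exact memLocalIdeal_zero hMp
  · obtain ⟨S', hS'⟩ := exists_sylow_eq_of_subgroupOf D hDp y S hS
    exact ⟨S', hS'.symm⟩
  · have hR : IsPGroup p ((P : Subgroup G) ⊓
        (P : Subgroup G).map (MulAut.conj (y : G)).toMonoidHom : Subgroup G) :=
      P.isPGroup'.to_le inf_le_left
    have hDR : D ≤ (P : Subgroup G) ⊓ (P : Subgroup G).map (MulAut.conj (y : G)).toMonoidHom := by
      refine le_inf hDP ?_
      intro d hd
      rw [mem_map_conj_iff]
      apply hDP
      have := (Subgroup.mem_normalizer_iff.mp (inv_mem y.2) d).mp hd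
      simpa using this
    apply le_antisymm _ hDR
    apply Cfsg.Agent.Lib.Helper50.le_of_isPGroup_of_inf_normalizer D _ hR hDR
    apply le_antisymm _ (le_inf hDR hDN)
    intro g hg
    obtain ⟨⟨hgP, hgPy⟩, hgN⟩ := hg
    have h1 : (⟨g, hgN⟩ : Subgroup.normalizer (D : Set G)) ∈
        (P1 : Subgroup (Subgroup.normalizer (D : Set G))) := by
      apply hP1
      rw [Subgroup.mem_comap]
      exact ⟨hgP, hgN⟩
    have h2 : (⟨g, hgN⟩ : Subgroup.normalizer (D : Set G)) ∈
        (P1 : Subgroup (Subgroup.normalizer (D : Set G))).map (MulAut.conj y).toMonoidHom := by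
      rw [mem_map_conj_iff]
      apply hP1
      rw [Subgroup.mem_comap]
      refine ⟨?_, ?_⟩
      · exact (mem_map_conj_iff _ _ _).mp hgPy
      · exact (y⁻¹ * ⟨g, hgN⟩ * y : Subgroup.normalizer (D : Set G)).2
    have h3 : (⟨g, hgN⟩ : Subgroup.normalizer (D : Set G)) ∈
        D.subgroupOf (Subgroup.normalizer (D : Set G)) := by
      rw [← hPy]
      exact ⟨h1, h2⟩
    exact Subgroup.mem_subgroupOf.mp h3

end Cfsg.Agent.S0956
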