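import Mathlib
import Cfsg.Statements.S0957
import Cfsg.Agent.Lib.Helper16.ClassSum

set_option autoImplicit false
open Cfsg

namespace Cfsg.Agent.S0957

open Cfsg.Agent.Lib.Helper16

section
variable {G : Type*} [Group G]

/-- the set of pairs on which `P` acts -/
abbrev Pairs (P : Subgroup G) (g h : G) : Type _ :=
  {yz : G × G // IsConj g yz.1 ∧ IsConj h yz.2 ∧ yz.2 * yz.1⁻¹ ∈ P}

/-- simultaneous conjugation -/
@[reducible] def pairsAction (P : Subgroup G) (g h : G) : MulAction P (Pairs P g h) where
  smul u x := ⟨((u : G) * x.1.1 * (u : G)⁻¹, (u : G) * x.1.2 * (u : G)⁻¹), by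
    obtain ⟨⟨y, z⟩, hy, hz, hP⟩ := x
    refine ⟨?_, ?_, ?_⟩
    · exact hy.trans (isConj_iff.mpr ⟨(u : G), rfl⟩)
    · exact hz.trans (isConj_iff.mpr ⟨(u : G), rfl⟩)
    · have : (u : G) * z * (u : G)⁻¹ * ((u : G) * y * (u : G)⁻¹)⁻¹ =
          (u : G) * (z * y⁻¹) * (u : G)⁻¹ := by group
      show (u : G) * z * (u : G)⁻¹ * ((u : G) * y * (u : G)⁻¹)⁻¹ ∈ P
      rw [this]
      exact P.mul_mem (P.mul_mem u.2 hP) (P.inv_mem u.2)⟩
  one_smul x := by
    apply Subtype.ext
    show (((1 : P) : G) * x.1.1 * ((1 : P) : G)⁻¹, ((1 : P) : G) * x.1.2 * ((1 : P) : G)⁻¹) = x.1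
    simp
  mul_smul u v x := by
    apply Subtype.ext
    show (((u * v : P) : G) * x.1.1 * ((u * v : P) : G)⁻¹,
      ((u * v : P) : G) * x.1.2 * ((u * v : P) : G)⁻¹) =
      ((u : G) * ((v : G) * x.1.1 * (v : G)⁻¹) * (u : G)⁻¹,
        (u : G) * ((v : G) * x.1.2 * (v : G)⁻¹) * (u : G)⁻¹)
    simp only [Subgroup.coe_mul, mul_inv_rev, Prod.mk.injEq]
    constructor <;> group

end

/-- Let P be a Sylow p-subgroup of the finite group G, let g, h ∈ G and let p ^ d be the order of a Sylow p-subgroup of the centralizer of g. Then the number of pairs (y, z) with y conjugate to g, z conjugate to h and z * y⁻¹ ∈ P is divisible by the order of P divided by p ^ d. -/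
theorem result {G : Type*} [Group G] [Finite G] (p : ℕ) [Fact p.Prime] (P : Sylow p G) (g h : G) (S : Sylow p (Subgroup.centralizer ({g} : Set G))) : Nat.card P / Nat.card S ∣ Nat.card {yz : G × G // IsConj g yz.1 ∧ IsConj h yz.2 ∧ yz.2 * yz.1⁻¹ ∈ (P : Subgroup G)} := by
  classical
  have hp : p.Prime := Fact.out
  have : Fintype G := Fintype.ofFinite G
  letI := pairsAction (P : Subgroup G) g h
  have : Fintype (Pairs (P : Subgroup G) g h) := Fintype.ofFinite _
  have : Fintype (Quotient (MulAction.orbitRel (P : Subgroup G) (Pairs (P : Subgroup G) g h))) :=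
    Fintype.ofFinite _
  have : Fintype (P : Subgroup G) := Fintype.ofFinite _
  show Nat.card P / Nat.card S ∣ Nat.card (Pairs (P : Subgroup G) g h)
  rw [Nat.card_eq_fintype_card (α := Pairs (P : Subgroup G) g h),
    MulAction.card_eq_sum_card_group_div_card_stabilizer (P : Subgroup G) (Pairs (P : Subgroup G) g h)]
  apply Finset.dvd_sum
  intro ω _
  set x := ω.out with hx
  -- the stabilizer has order dividing |S|
  have hSP : Nat.card S ∣ Nat.card P := by
    rw [Sylow.card_eq_multiplicity, Sylow.card_eq_multiplicity]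
    apply pow_dvd_pow
    have hdvd : Nat.card (Subgroup.centralizer ({g} : Set G)) ∣ Nat.card G :=
      Subgroup.card_subgroup_dvd_card _
    exact (Nat.factorization_le_iff_dvd Nat.card_pos.ne' Nat.card_pos.ne').mpr hdvd p
  have hstab : Nat.card (MulAction.stabilizer (P : Subgroup G) x) ∣ Nat.card S := by
    obtain ⟨⟨y, z⟩, hy, hz, hPz⟩ := x
    -- the stabilizer is a p-group
    have hpg : IsPGroup p (MulAction.stabilizer (P : Subgroup G) (⟨(y, z), hy, hz, hPz⟩ : Pairs (P : Subgroup G) g h)) :=
      P.isPGroup'.to_subgroup _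
    obtain ⟨e, he⟩ := (IsPGroup.iff_card).mp hpg
    -- it embeds in the centralizer of y
    have hle : ((MulAction.stabilizer (P : Subgroup G) (⟨(y, z), hy, hz, hPz⟩ : Pairs (P : Subgroup G) g h)).map
        (P : Subgroup G).subtype) ≤ Subgroup.centralizer ({y} : Set G) := by
      rintro _ ⟨u, hu, rfl⟩
      have hu' : u • (⟨(y, z), hy, hz, hPz⟩ : Pairs (P : Subgroup G) g h) = ⟨(y, z), hy, hz, hPz⟩ :=
        MulAction.mem_stabilizer_iff.mp hu
      have h1 := congrArg (fun t : Pairs (P : Subgroup G) g h => t.1.1) hu'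
      have h1' : (u : G) * y * (u : G)⁻¹ = y := h1
      rw [Subgroup.mem_centralizer_iff]
      intro t ht
      rw [Set.mem_singleton_iff] at ht
      subst ht
      show t * (u : G) = (u : G) * t
      calc t * (u : G) = ((u : G) * t * (u : G)⁻¹) * (u : G) := by rw [h1']
        _ = (u : G) * t := by group
    have hcard : Nat.card ((MulAction.stabilizer (P : Subgroup G) (⟨(y, z), hy, hz, hPz⟩ : Pairs (P : Subgroup G) g h)).map
        (P : Subgroup G).subtype) = p ^ e := by
      rw [Subgroup.card_map_of_injective (Subgroup.subtype_injective _), he]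
    have hdvd := Subgroup.card_dvd_of_le hle
    rw [hcard] at hdvd
    -- centralizers of conjugate elements have the same order
    have hCy : Nat.card (Subgroup.centralizer ({y} : Set G)) =
        Nat.card (Subgroup.centralizer ({g} : Set G)) := by
      have h1 := Subgroup.index_mul_card (Subgroup.centralizer ({y} : Set G))
      have h2 := Subgroup.index_mul_card (Subgroup.centralizer ({g} : Set G))
      rw [← card_isConj] at h1 h2
      have h3 : (Finset.univ.filter (fun t : G => IsConj y t)) =
          (Finset.univ.filter (fun t : G => IsConj g t)) := by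
        ext t
        simp only [Finset.mem_filter, Finset.mem_univ, true_and]
        exact ⟨fun ht => hy.trans ht, fun ht => hy.symm.trans ht⟩
      rw [h3] at h1
      have hpos : 0 < (Finset.univ.filter (fun t : G => IsConj g t)).card :=
        Finset.card_pos.mpr ⟨g, Finset.mem_filter.mpr ⟨Finset.mem_univ _, IsConj.refl g⟩⟩
      exact Nat.eq_of_mul_eq_mul_left hpos (h1.trans h2.symm)
    rw [hCy] at hdvd
    rw [he, Sylow.card_eq_multiplicity]
    apply pow_dvd_pow
    exact (hp.pow_dvd_iff_le_factorization Nat.card_pos.ne').mp hdvd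
  rw [← Nat.card_eq_fintype_card, ← Nat.card_eq_fintype_card]
  exact Nat.div_dvd_div_left hSP hstab

end Cfsg.Agent.S0957
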