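import Mathlib
import Cfsg.Statements.S0962
import Cfsg.Agent.Lib.Helper76.BlockCount

set_option autoImplicit false
open Cfsg

namespace Cfsg.Agent.S0962

/-- Fix a maximal ideal M of the algebraic integers containing the prime p and a natural number d. The number of blocks of the finite group G of defect at least d is at most the number of conjugacy classes of p-regular elements of G of defect at least d, where the defect of a class is the exponent of p in the order of the centralizer of any of its elements. -/
theorem result {G : Type*} [Group G] [Finite G] (p : ℕ) [Fact p.Prime] (M : Ideal Cfsg.AlgInt) (hM : Cfsg.IsPModular p M) (d : ℕ) : Nat.card {B : Set (Cfsg.IrrCharacter G) // Cfsg.IsPBlock M B ∧ d ≤ Cfsg.blockDefect p B} ≤ Nat.card {C : ConjClasses G // ∃ g : G, ConjClasses.mk g = C ∧ Cfsg.IsPRegular p g ∧ d ≤ (Nat.card (Subgroup.centralizer ({g} : Set G))).factorization p} := by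
  classical
  let _ := Fintype.ofFinite G
  have hMp := Cfsg.Agent.Lib.Helper16.isPrime_of_isPModular hM
  refine Cfsg.Agent.Lib.Helper76.card_blocks_le_card_classes hM
    (fun B => d ≤ Cfsg.blockDefect p B)
    (fun g => Cfsg.IsPRegular p g ∧
      d ≤ (Nat.card (Subgroup.centralizer ({g} : Set G))).factorization p) ?_ ?_
  · rintro x g ⟨h1, h2⟩
    refine ⟨?_, ?_⟩
    · have h3 : orderOf (x * g * x⁻¹) = orderOf g :=
        orderOf_injective (MulAut.conj x).toMonoidHom (MulAut.conj x).injective g
      show ¬ p ∣ orderOf (x * g * x⁻¹)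
      rw [h3]
      exact h1
    · rw [Cfsg.Agent.Lib.Helper76.card_centralizer_conj]
      exact h2
  · intro B B' hB hPb hB' hPb' χ hχ g hS
    by_cases hg : p ∣ orderOf g
    · rw [Cfsg.Agent.Lib.Helper77.blockCoeff_eq_zero_of_singular hM B hB hg, zero_mul]
      exact Cfsg.Agent.Lib.Helper16.memLocalIdeal_zero hMp
    · have hlt : (Nat.card (Subgroup.centralizer ({g} : Set G))).factorization p <
          Cfsg.blockDefect p B' := by
        by_contra h
        exact hS ⟨hg, by omega⟩
      exact Cfsg.Agent.Lib.Helper16.memLocalIdeal_mul_left hMp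
        (Cfsg.Agent.Lib.Helper77.memLocalRing_blockCoeff hMp B hB g)
        (Cfsg.Agent.Lib.Helper76.memLocalIdeal_centralChar_of_defect_lt hM B' hB' χ hχ g hlt)

end Cfsg.Agent.S0962
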