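import Cfsg.Statements.S0963
import Cfsg.Agent.S0174
import Cfsg.Agent.Lib.Helper16.ClassSum
import Cfsg.Agent.Lib.Helper74.CharSums
import Cfsg.Agent.Lib.Helper75.CliffordCorr

set_option autoImplicit false
open Cfsg

namespace Cfsg.Agent.S0963

open Cfsg.Agent.Lib.Helper3 Cfsg.Agent.Lib.Helper74 Cfsg.Agent.Lib.Helper75
open scoped ComplexConjugate

variable {G : Type*} [Group G] [Fintype G] (N : Subgroup G) [hN : N.Normal] [Fintype N]

/-- The sum of the conjugates of `θ` at `n` in terms of the induced central character. -/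
theorem sum_conjChar_eq (θ : N → ℂ) (h0 : θ 1 ≠ 0) (n : N) :
    ∑ g : G, conjChar N θ g n = (Nat.card (Subgroup.centralizer ({(n : G)} : Set G)) : ℂ) *
      (θ 1 * Cfsg.inducedCentralChar N θ (n : G)) := by
  classical
  have h1 : ∀ g : G, conjChar N θ g n = Cfsg.extendByZero N θ (g⁻¹ * (n : G) * g) := by
    intro g
    have hmem : g⁻¹ * (n : G) * g ∈ N := by
      have := hN.conj_mem n n.2 g⁻¹
      rw [inv_inv] at this
      exact this
    rw [conjChar_val N θ g n hmem, extendByZero_mem N θ hmem]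
  simp_rw [h1]
  rw [Cfsg.Agent.Lib.Helper16.sum_conj_eq]
  congr 1
  have h2 : ∑ y : G, (if IsConj (n : G) y then Cfsg.extendByZero N θ y else 0)
      = ∑ h : N, if IsConj (n : G) (h : G) then θ h else 0 := by
    have h3 := sum_extendByZero_mul N θ (fun y : G => if IsConj (n : G) y then (1 : ℂ) else 0)
    have h4 : ∀ y : G, Cfsg.extendByZero N θ y * (if IsConj (n : G) y then (1 : ℂ) else 0)
        = if IsConj (n : G) y then Cfsg.extendByZero N θ y else 0 := by
      intro y; split_ifs <;> simp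
    have h5 : ∀ h : N, θ h * (if IsConj (n : G) (h : G) then (1 : ℂ) else 0)
        = if IsConj (n : G) (h : G) then θ h else 0 := by
      intro h; split_ifs <;> simp
    simp_rw [h4, h5] at h3
    exact h3
  rw [h2]
  unfold Cfsg.inducedCentralChar
  rw [Cfsg.Agent.Lib.Helper16.finsum_mem_eq_sum_ite, Finset.mul_sum]
  refine Finset.sum_congr rfl (fun h _ => ?_)
  by_cases hc : IsConj (n : G) (h : G)
  · rw [if_pos hc, if_pos (by exact hc)]
    field_simp
  · rw [if_neg hc, if_neg (by exact hc), mul_zero]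

/-- If `θ` is a constituent of `χ_N` then the sum of the conjugates of `θ` is a multiple
of `χ_N`. -/
theorem sum_conjChar_of_constituent (χ : Cfsg.IrrCharacter G) (θ : Cfsg.IrrCharacter N)
    (h : Cfsg.classInner (fun n : N => (χ : G → ℂ) n) (θ : N → ℂ) ≠ 0) (n : N) :
    ∑ g : G, conjChar N (θ : N → ℂ) g n * (χ : G → ℂ) 1
      = (Nat.card G : ℂ) * (θ : N → ℂ) 1 * (χ : G → ℂ) n := by
  classical
  have : Fintype (Cfsg.IrrCharacter G) := Fintype.ofFinite _
  set Sg : N → ℂ := ∑ᶠ ψ ∈ {ψ : N → ℂ | ∃ g : G, ψ = fun n : N =>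
    (θ : N → ℂ) ⟨g * n * g⁻¹, hN.conj_mem n n.2 g⟩}, ψ with hSg
  have hcl : ∀ ψ : Cfsg.IrrCharacter G,
      Cfsg.classInner (fun n : N => (ψ : G → ℂ) n) (θ : N → ℂ) ≠ 0 →
      (fun n : N => (ψ : G → ℂ) n)
        = Cfsg.classInner (fun n : N => (ψ : G → ℂ) n) (θ : N → ℂ) • Sg :=
    fun ψ hψ => Cfsg.Agent.S0174.result N hN ψ ψ.2 θ θ.2 hψ
  have hI := isCharacter_indFun N (isCharacter_of_irr θ.2)
  obtain ⟨m, hm, hsum⟩ := char_eq_sum_irr hI
  -- the restriction of the induced character is a multiple of `Sg`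
  have hres : ∀ k : N, Cfsg.indFun N (θ : N → ℂ) k
      = (∑ ψ : Cfsg.IrrCharacter G, (m ψ : ℂ) * (m ψ : ℂ)) * Sg k := by
    intro k
    have h1 := congrFun hsum k
    simp only [Finset.sum_apply, Pi.smul_apply, smul_eq_mul] at h1
    rw [h1, Finset.sum_mul]
    refine Finset.sum_congr rfl (fun ψ _ => ?_)
    by_cases hm0 : m ψ = 0
    · rw [hm0]; simp
    · have h2 : Cfsg.classInner (fun n : N => (ψ : G → ℂ) n) (θ : N → ℂ) = (m ψ : ℂ) := by
        rw [classInner_conj_symm, ← frobenius_reciprocity N (θ : N → ℂ)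
          (isClassFunction_of_isCharacter (isCharacter_of_irr ψ.2)), hm ψ]
        simp
      have h3 : Cfsg.classInner (fun n : N => (ψ : G → ℂ) n) (θ : N → ℂ) ≠ 0 := by
        rw [h2]; exact_mod_cast hm0
      have h4 := congrFun (hcl ψ h3) k
      simp only [Pi.smul_apply, smul_eq_mul] at h4
      rw [h4, h2]
      ring
  have hχ : ∀ k : N, (χ : G → ℂ) k
      = Cfsg.classInner (fun n : N => (χ : G → ℂ) n) (θ : N → ℂ) * Sg k := by
    intro k
    have h4 := congrFun (hcl χ h) k
    simpa using h4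
  have hind : ∀ k : N, ∑ g : G, conjChar N (θ : N → ℂ) g k
      = (Nat.card N : ℂ) * Cfsg.indFun N (θ : N → ℂ) k := by
    intro k
    have h5 := congrFun (indFun_res N (θ : N → ℂ)) k
    simp only [Pi.smul_apply, Finset.sum_apply, smul_eq_mul] at h5
    rw [h5]
    have hNne : (Nat.card N : ℂ) ≠ 0 := by
      have : Nat.card N ≠ 0 := Nat.card_pos.ne'
      exact_mod_cast this
    field_simp
  have hone : ∑ g : G, conjChar N (θ : N → ℂ) g 1 = (Nat.card G : ℂ) * (θ : N → ℂ) 1 := by
    simp only [conjChar_apply_one, Finset.sum_const, Finset.card_univ, nsmul_eq_mul]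
    rw [← Nat.card_eq_fintype_card]
  rw [← Finset.sum_mul, hind n, hres n, ← hone, hind 1, hres 1]
  have h6 := hχ 1
  have h7 := hχ n
  rw [show ((1 : N) : G) = 1 from rfl] at h6
  rw [h6, h7]
  ring

/-- `θ` is a constituent of `χ_N` iff the central characters agree. -/
theorem result {G : Type*} [Group G] [Fintype G] (N : Subgroup G) [N.Normal] [Fintype N] (χ : Cfsg.IrrCharacter G) (θ : Cfsg.IrrCharacter N) : Cfsg.classInner (fun n : N => (χ : G → ℂ) n) (θ : N → ℂ) ≠ 0 ↔ ∀ n : N, Cfsg.centralChar (χ : G → ℂ) (n : G) = Cfsg.inducedCentralChar N (θ : N → ℂ) (n : G) := by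
  classical
  have hχ1 : (χ : G → ℂ) 1 ≠ 0 := by
    obtain ⟨d, hd, h1⟩ := irr_degree χ
    rw [h1]; exact_mod_cast hd.ne'
  have hθ1 : (θ : N → ℂ) 1 ≠ 0 := by
    obtain ⟨d, hd, h1⟩ := irr_degree θ
    rw [h1]; exact_mod_cast hd.ne'
  have hG : (Nat.card G : ℂ) ≠ 0 := card_ne_zero'
  have hcard : ∀ n : N, ((Subgroup.centralizer ({(n : G)} : Set G)).index : ℂ) *
      (Nat.card (Subgroup.centralizer ({(n : G)} : Set G)) : ℂ) = (Nat.card G : ℂ) := by
    intro n
    rw [← Nat.cast_mul, mul_comm, Subgroup.card_mul_index]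
  have hCne : ∀ n : N, (Nat.card (Subgroup.centralizer ({(n : G)} : Set G)) : ℂ) ≠ 0 := by
    intro n
    have : Nat.card (Subgroup.centralizer ({(n : G)} : Set G)) ≠ 0 := Nat.card_pos.ne'
    exact_mod_cast this
  have hIne : ∀ n : N, ((Subgroup.centralizer ({(n : G)} : Set G)).index : ℂ) ≠ 0 := by
    intro n h0
    have := hcard n
    rw [h0, zero_mul] at this
    exact hG this.symm
  constructor
  · intro h n
    have hA := sum_conjChar_of_constituent N χ θ h n
    rw [← Finset.sum_mul, sum_conjChar_eq N (θ : N → ℂ) hθ1 n] at hA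
    unfold Cfsg.centralChar
    rw [div_eq_iff hχ1]
    have h1 : (Nat.card (Subgroup.centralizer ({(n : G)} : Set G)) : ℂ) *
        (((Subgroup.centralizer ({(n : G)} : Set G)).index : ℂ) * (χ : G → ℂ) n)
        = (Nat.card (Subgroup.centralizer ({(n : G)} : Set G)) : ℂ) *
          (Cfsg.inducedCentralChar N (θ : N → ℂ) (n : G) * (χ : G → ℂ) 1) := by
      have h2 := hcard n
      have : (Nat.card (Subgroup.centralizer ({(n : G)} : Set G)) : ℂ) *
          (((Subgroup.centralizer ({(n : G)} : Set G)).index : ℂ) * (χ : G → ℂ) n)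
          = (Nat.card G : ℂ) * (χ : G → ℂ) n := by
        rw [← mul_assoc, mul_comm (Nat.card _ : ℂ), h2]
      rw [this]
      have h3 : (Nat.card G : ℂ) * (θ : N → ℂ) 1 * (χ : G → ℂ) n
          = (θ : N → ℂ) 1 * ((Nat.card G : ℂ) * (χ : G → ℂ) n) := by ring
      rw [h3] at hA
      have h4 : (θ : N → ℂ) 1 * ((Nat.card (Subgroup.centralizer ({(n : G)} : Set G)) : ℂ) *
          (Cfsg.inducedCentralChar N (θ : N → ℂ) (n : G) * (χ : G → ℂ) 1))
          = (θ : N → ℂ) 1 * ((Nat.card G : ℂ) * (χ : G → ℂ) n) := by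
        rw [← hA]; ring
      exact (mul_left_cancel₀ hθ1 h4).symm
    exact mul_left_cancel₀ (hCne n) h1
  · intro h
    -- `χ_N` is a nonzero multiple of the sum of the conjugates of `θ`
    have hχN : (fun n : N => (χ : G → ℂ) n)
        = ((χ : G → ℂ) 1 / ((Nat.card G : ℂ) * (θ : N → ℂ) 1)) •
          ∑ g : G, conjChar N (θ : N → ℂ) g := by
      funext n
      simp only [Pi.smul_apply, Finset.sum_apply, smul_eq_mul]
      rw [sum_conjChar_eq N (θ : N → ℂ) hθ1 n, ← h n]
      unfold Cfsg.centralChar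
      have h2 := hcard n
      field_simp
      rw [← h2]
      ring
    rw [hχN, classInner_smul_left, classInner_sum_left]
    have hterm : ∀ g : G, Cfsg.classInner (conjChar N (θ : N → ℂ) g) (θ : N → ℂ)
        = if conjChar N (θ : N → ℂ) g = (θ : N → ℂ) then 1 else 0 := by
      intro g
      by_cases hg : conjChar N (θ : N → ℂ) g = (θ : N → ℂ)
      · rw [if_pos hg, hg, classInner_irr_self θ.2]
      · rw [if_neg hg, classInner_irr_ne (isIrrCharacter_conjChar N θ.2 g) θ.2 hg]
    simp_rw [hterm]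
    rw [Finset.sum_boole]
    apply mul_ne_zero
    · exact div_ne_zero hχ1 (mul_ne_zero hG hθ1)
    · have hmem : (1 : G) ∈ Finset.univ.filter
          (fun g : G => conjChar N (θ : N → ℂ) g = (θ : N → ℂ)) := by
        simp [conjChar_one]
      have : (Finset.univ.filter
          (fun g : G => conjChar N (θ : N → ℂ) g = (θ : N → ℂ))).card ≠ 0 :=
        Finset.card_ne_zero_of_mem hmem
      exact_mod_cast this

end Cfsg.Agent.S0963
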