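import Cfsg.Statements.S0967
import Cfsg.Agent.Lib.Helper79.QuotBlock

set_option autoImplicit false
open Cfsg

namespace Cfsg.Agent.S0967

/-- Let N be a normal subgroup of the finite group G of order prime to p and fix a maximal ideal M of the algebraic integers containing p. If χ is an irreducible character of G ⧸ N and ψ lies in the block of its inflation χ ∘ (quotient map), then ψ is itself inflated from an irreducible character ψ' of G ⧸ N lying in the block of χ. (Over a normal p'-subgroup, blocks of the quotient are whole blocks of G.) -/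
theorem result {G : Type*} [Group G] [Finite G] (p : ℕ) [Fact p.Prime] (M : Ideal Cfsg.AlgInt) (hM : Cfsg.IsPModular p M) (N : Subgroup G) [N.Normal] (hN : ¬ p ∣ Nat.card N) (χ : Cfsg.IrrCharacter (G ⧸ N)) (ψ : Cfsg.IrrCharacter G) (hψ : ψ ∈ Cfsg.blockOf M ((χ : G ⧸ N → ℂ) ∘ QuotientGroup.mk)) : ∃ ψ' : Cfsg.IrrCharacter (G ⧸ N), (ψ : G → ℂ) = (ψ' : G ⧸ N → ℂ) ∘ QuotientGroup.mk ∧ Cfsg.SameBlock M (χ : G ⧸ N → ℂ) (ψ' : G ⧸ N → ℂ) := by
  classical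
  let _ : Fintype G := Fintype.ofFinite G
  have hMp := Cfsg.Agent.Lib.Helper16.isPrime_of_isPModular hM
  obtain ⟨χ', hχ'⟩ : ∃ χ' : Cfsg.IrrCharacter G,
      (χ' : G → ℂ) = (χ : G ⧸ N → ℂ) ∘ QuotientGroup.mk :=
    ⟨⟨_, Cfsg.Agent.Lib.Helper80.isIrrCharacter_inflate N χ.2⟩, rfl⟩
  have hsame : Cfsg.SameBlock M (χ' : G → ℂ) (ψ : G → ℂ) := by
    rw [hχ']
    exact hψ
  have hker : ∀ n ∈ N, (χ' : G → ℂ) n = (χ' : G → ℂ) 1 := by
    intro n hn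
    rw [hχ']
    show (χ : G ⧸ N → ℂ) (n : G ⧸ N) = (χ : G ⧸ N → ℂ) ((1 : G) : G ⧸ N)
    rw [(QuotientGroup.eq_one_iff n).mpr hn]
    rfl
  have hkerψ := Cfsg.Agent.Lib.Helper79.ker_of_sameBlock_of_coprime N hM hN hsame hker
  obtain ⟨ψ', hψ', hψψ'⟩ := Cfsg.Agent.Lib.Helper80.exists_isIrrCharacter_deflate N ψ.2 hkerψ
  have e : (ψ' ∘ QuotientGroup.mk : G → ℂ) = (ψ : G → ℂ) := funext hψψ'
  refine ⟨⟨ψ', hψ'⟩, e.symm, ?_⟩
  apply Cfsg.Agent.Lib.Helper79.sameBlock_deflate_of_coprime N hM hN χ ⟨ψ', hψ'⟩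
  show Cfsg.SameBlock M ((χ : G ⧸ N → ℂ) ∘ QuotientGroup.mk) (ψ' ∘ QuotientGroup.mk)
  rw [e]
  exact hψ

end Cfsg.Agent.S0967
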