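import Mathlib
import Cfsg.Statements.S0968
import Cfsg.Agent.Lib.Helper16.CentProd

set_option autoImplicit false
open Cfsg

namespace Cfsg.Agent.S0968

open Cfsg.Agent.Lib.Helper16

/-- Let P be a p-subgroup of the finite group G with P ⊔ C_G(P) = G, and let B be a block with defect group P relative to a maximal ideal M of the algebraic integers containing p. Then there is exactly one θ ∈ B with θ x = θ 1 for all x ∈ P; for this θ the exponent of p in θ(1) equals the exponent of p in the index of P; and the number of members of B equals the number of conjugacy classes of P. -/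
theorem result {G : Type*} [Group G] [Finite G] (p : ℕ) [Fact p.Prime] (M : Ideal Cfsg.AlgInt) (hM : Cfsg.IsPModular p M) (P : Subgroup G) (hP : IsPGroup p P) (hG : P ⊔ Subgroup.centralizer (P : Set G) = ⊤) (B : Set (Cfsg.IrrCharacter G)) (hB : Cfsg.IsPBlock M B) (hD : Cfsg.IsDefectGroup p M B P) : (∃! θ : Cfsg.IrrCharacter G, θ ∈ B ∧ ∀ x ∈ P, (θ : G → ℂ) x = (θ : G → ℂ) 1) ∧ (∀ θ ∈ B, (∀ x ∈ P, (θ : G → ℂ) x = (θ : G → ℂ) 1) → (Cfsg.charDegree (θ : G → ℂ)).factorization p = P.index.factorization p) ∧ Nat.card B = Nat.card (ConjClasses P) := by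

  classical
  have : Fintype G := Fintype.ofFinite G
  have : Fintype P := Fintype.ofFinite P
  have hMp := isPrime_of_isPModular hM
  have hp : p.Prime := Fact.out
  choose lam psi hspec using fun χ : Cfsg.IrrCharacter G => exists_prod_decomp P hG χ
  have hinj : ∀ χ ∈ B, ∀ χ' ∈ B, lam χ = lam χ' → χ = χ' := by
    intro χ hχ χ' hχ' h
    exact eq_of_lam_eq hM P hP hG B hB hD χ χ' hχ hχ' (lam χ) (psi χ) (psi χ') (hspec χ)
      (by rw [h]; exact hspec χ')
  have hsurj : ∀ lam0 : Cfsg.IrrCharacter P, ∃ χ ∈ B, lam χ = lam0 :=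
    exists_mem_lam_eq hM P hP B hB lam psi hspec
  have htriv : ∀ θ : Cfsg.IrrCharacter G,
      (∀ x ∈ P, (θ : G → ℂ) x = (θ : G → ℂ) 1) ↔ lam θ = Cfsg.Agent.Lib.Helper77.trivIrr P := by
    intro θ
    have hpsi1 : (psi θ : ↥(Subgroup.centralizer (P : Set G)) → ℂ) 1 ≠ 0 := irr_one_ne_zero _
    have h1 : (θ : G → ℂ) 1 = (lam θ : P → ℂ) 1 *
        (psi θ : ↥(Subgroup.centralizer (P : Set G)) → ℂ) 1 := by
      have := hspec θ 1 1
      simpa using this
    have hx : ∀ x : P, (θ : G → ℂ) x = (lam θ : P → ℂ) x *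
        (psi θ : ↥(Subgroup.centralizer (P : Set G)) → ℂ) 1 := by
      intro x
      have := hspec θ x 1
      simpa using this
    constructor
    · intro h
      have hconst : ∀ x : P, (lam θ : P → ℂ) x = (lam θ : P → ℂ) 1 := by
        intro x
        have h2 := h x x.2
        rw [hx x, h1] at h2
        exact mul_right_cancel₀ hpsi1 h2
      have h2 := Cfsg.Agent.Lib.Helper80.classInner_irr (lam θ) (Cfsg.Agent.Lib.Helper77.trivIrr P)
      by_contra hne
      rw [if_neg hne] at h2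
      unfold Cfsg.classInner at h2
      have h3 : ∑ x : P, (lam θ : P → ℂ) x *
          (starRingEnd ℂ) ((Cfsg.Agent.Lib.Helper77.trivIrr P : P → ℂ) x) =
          (Nat.card P : ℂ) * (lam θ : P → ℂ) 1 := by
        rw [Finset.sum_congr rfl (fun x _ => by
          rw [hconst x, Cfsg.Agent.Lib.Helper77.trivIrr_apply, map_one, mul_one])]
        rw [Finset.sum_const, Finset.card_univ, Nat.card_eq_fintype_card]
        simp
      rw [h3] at h2
      have hP0 : (Nat.card P : ℂ) ≠ 0 := card_ne_zero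
      rcases mul_eq_zero.mp h2 with h4 | h4
      · exact inv_ne_zero hP0 h4
      · rcases mul_eq_zero.mp h4 with h5 | h5
        · exact hP0 h5
        · exact irr_one_ne_zero _ h5
    · intro h x hxP
      rw [hx ⟨x, hxP⟩, h1, h, Cfsg.Agent.Lib.Helper77.trivIrr_apply,
        Cfsg.Agent.Lib.Helper77.trivIrr_apply]
  refine ⟨?_, ?_, ?_⟩
  · obtain ⟨θ, hθB, hθ⟩ := hsurj (Cfsg.Agent.Lib.Helper77.trivIrr P)
    refine ⟨θ, ⟨hθB, (htriv θ).mpr hθ⟩, ?_⟩
    rintro θ' ⟨hθ'B, hθ'⟩
    exact hinj θ' hθ'B θ hθB (((htriv θ').mp hθ').trans hθ.symm)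
  · intro θ hθB hθ
    have hlam := (htriv θ).mp hθ
    have h1 : (θ : G → ℂ) 1 = (psi θ : ↥(Subgroup.centralizer (P : Set G)) → ℂ) 1 := by
      have := hspec θ 1 1
      rw [hlam, Cfsg.Agent.Lib.Helper77.trivIrr_apply] at this
      simpa using this
    obtain ⟨hd, hdpos, -⟩ := Cfsg.Agent.Lib.Helper79.irr_charDegree θ.2
    have hR := memLocalRing_psi_one hM P hP hG B hB hD θ hθB (lam θ) (psi θ) (hspec θ)
    rw [← h1, hd] at hR
    have hcard : Nat.card P * P.index = Nat.card G := Subgroup.card_mul_index P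
    have hidx0 : 0 < P.index := by
      rcases Nat.eq_zero_or_pos P.index with h | h
      · rw [h, mul_zero] at hcard
        exact absurd hcard.symm Nat.card_pos.ne'
      · exact h
    apply le_antisymm
    · obtain ⟨N, hN, hmem⟩ := Cfsg.Agent.Lib.Helper80.exists_ker_subgroup
        (Cfsg.Agent.Lib.Helper80.isCharacter_of_isIrrCharacter θ.2)
      have hPN : P ≤ N := fun x hx => (hmem x).mpr (hθ x hx)
      have hdvd := Cfsg.Agent.Lib.Helper80.card_ker_mul_charDegree_dvd θ.2
      have hcardN : Nat.card {g : G // (θ : G → ℂ) g = (θ : G → ℂ) 1} = Nat.card N :=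
        Nat.card_congr (Equiv.subtypeEquivRight (fun g => (hmem g).symm))
      rw [hcardN] at hdvd
      have h2 : Nat.card P * Cfsg.charDegree (θ : G → ℂ) ∣ Nat.card P * P.index := by
        rw [hcard]
        exact dvd_trans (Nat.mul_dvd_mul_right (Subgroup.card_dvd_of_le hPN) _) hdvd
      have h3 : Cfsg.charDegree (θ : G → ℂ) ∣ P.index :=
        Nat.dvd_of_mul_dvd_mul_left Nat.card_pos h2
      exact (Nat.factorization_le_iff_dvd hdpos.ne' hidx0.ne').mpr h3 p
    · have hP0 : (Nat.card P : ℂ) ≠ 0 := card_ne_zero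
      have hi0 : (P.index : ℂ) ≠ 0 := by exact_mod_cast hidx0.ne'
      have ht : (Cfsg.charDegree (θ : G → ℂ) : ℂ) * (Nat.card P : ℂ) / (Nat.card G : ℂ) =
          (Cfsg.charDegree (θ : G → ℂ) : ℂ) / (P.index : ℂ) := by
        rw [← hcard]
        push_cast
        field_simp
      rw [ht] at hR
      obtain ⟨n', hn', -⟩ := Cfsg.Agent.Lib.Helper76.val_lemma hM
        (Cfsg.charDegree (θ : G → ℂ) : ℤ) P.index 1 hidx0
        (fun h => hp.one_lt.ne' (Nat.dvd_one.mp h)) _ hR (by push_cast; field_simp)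
      have hdvd : p ^ (P.index.factorization p) ∣ Cfsg.charDegree (θ : G → ℂ) := by
        have h4 : ((p ^ (P.index.factorization p) : ℕ) : ℤ) ∣
            (Cfsg.charDegree (θ : G → ℂ) : ℤ) := ⟨n', by rw [hn']; push_cast; rfl⟩
        exact Int.natCast_dvd_natCast.mp h4
      exact (hp.pow_dvd_iff_le_factorization hdpos.ne').mp hdvd
  · have hbij : Function.Bijective (fun χ : B => lam χ.1) :=
      ⟨fun χ χ' h => Subtype.ext (hinj χ.1 χ.2 χ'.1 χ'.2 h), fun l => by
        obtain ⟨χ, hχ, h⟩ := hsurj l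
        exact ⟨⟨χ, hχ⟩, h⟩⟩
    rw [Nat.card_congr (Equiv.ofBijective _ hbij)]
    have : Finite (Cfsg.IrrCharacter P) := Cfsg.Agent.Lib.Helper77.irr_finite P
    have : Fintype (Cfsg.IrrCharacter P) := Fintype.ofFinite _
    exact Cfsg.Agent.Lib.Helper80.card_irr_eq_card_conjClasses

end Cfsg.Agent.S0968
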