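import Cfsg.Statements.S0987
import Cfsg.Agent.Lib.Helper17.Simple

set_option autoImplicit false
open Cfsg
open Cfsg.Agent.Lib.Helper17

namespace Cfsg.Agent.S0987

/-- If a finite group has order pqr for primes p < q < r, then its Sylow r-subgroups are normal. -/
theorem result {G : Type*} [Group G] [Finite G] (p q r : ℕ) (hp : p.Prime) (hq : q.Prime) [Fact r.Prime] (hpq : p < q) (hqr : q < r) (hG : Nat.card G = p * q * r) (R : Sylow r G) : (R : Subgroup G).Normal := by
  have hr : r.Prime := Fact.out
  have hcard : Nat.card G = r ^ 1 * (p * q) := by rw [hG]; ring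
  have hp1 := hp.one_lt
  have hq1 := hq.one_lt
  have hrpq : ¬ r ∣ p * q := by
    intro h
    rcases (Nat.Prime.dvd_mul hr).mp h with h | h
    · have := Nat.le_of_dvd hp.pos h; omega
    · have := Nat.le_of_dvd hq.pos h; omega
  have hn1 := card_sylow_dvd_of_card_eq (G := G) r 1 (p * q) hcard
  have hn2 := card_sylow_mod (G := G) r
  have hRcard : Nat.card (R : Subgroup G) = r := by
    simpa using card_sylow_eq_of_card_eq r 1 (p * q) hcard hrpq R
  -- the number of Sylow r-subgroups is 1 or p * q
  have hcases : Nat.card (Sylow r G) = 1 ∨ Nat.card (Sylow r G) = p * q := by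
    obtain ⟨a, b, ha, hb, hab⟩ := (Nat.dvd_mul).mp hn1
    rcases (Nat.dvd_prime hp).mp ha with rfl | rfl <;> rcases (Nat.dvd_prime hq).mp hb with rfl | rfl
    · left; rw [← hab]
    · exfalso
      rw [← hab, one_mul, Nat.mod_eq_of_lt hqr] at hn2
      omega
    · exfalso
      rw [← hab, mul_one, Nat.mod_eq_of_lt (by omega)] at hn2
      omega
    · right; rw [← hab]
  rcases hcases with h1 | hpq'
  · have hsub : Subsingleton (Sylow r G) := (Nat.card_eq_one_iff_unique.mp h1).1
    exact Sylow.normal_of_subsingleton R
  · exfalso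
    -- the normalizer of R is R
    have h4 := card_sylow_mul_card_normalizer r R
    rw [hpq', hG] at h4
    have hN : Nat.card (Subgroup.normalizer ((R : Subgroup G) : Set G)) = r := by
      have hpos : 0 < p * q := Nat.mul_pos hp.pos hq.pos
      exact Nat.eq_of_mul_eq_mul_left hpos h4
    have hNR : Subgroup.normalizer ((R : Subgroup G) : Set G) = (R : Subgroup G) :=
      (Subgroup.eq_of_le_of_card_ge Subgroup.le_normalizer (by rw [hN, hRcard])).symm
    have hcomm : IsMulCommutative (R : Subgroup G) := by
      have hcyc : IsCyclic (R : Subgroup G) := isCyclic_of_prime_card hRcard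
      exact ⟨⟨fun a b => (IsCyclic.commGroup (α := (R : Subgroup G))).mul_comm a b⟩⟩
    have hRC : (R : Subgroup G) ≤ Subgroup.centralizer ((R : Subgroup G) : Set G) :=
      Subgroup.le_centralizer (R : Subgroup G)
    have hNC : Subgroup.normalizer ((R : Subgroup G) : Set G) ≤
        Subgroup.centralizer ((R : Subgroup G) : Set G) := by rw [hNR]; exact hRC
    -- Burnside: a normal complement K of order p * q
    have hc := MonoidHom.ker_transferSylow_isComplement' R hNC
    set K : Subgroup G := (MonoidHom.transferSylow R hNC).ker with hK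
    have hKn : K.Normal := MonoidHom.normal_ker _
    have hKcard : Nat.card K = p * q := by
      have := hc.card_mul_card
      rw [hRcard, hG] at this
      exact Nat.eq_of_mul_eq_mul_right hr.pos this
    -- the Sylow q-subgroup of K is unique
    have : Fact q.Prime := ⟨hq⟩
    have hKcard' : Nat.card K = q ^ 1 * p := by rw [hKcard]; ring
    have hqp : ¬ q ∣ p := fun h => by
      have := Nat.le_of_dvd hp.pos h; omega
    have hm1 := card_sylow_dvd_of_card_eq (G := K) q 1 p hKcard'
    have hm2 := card_sylow_mod (G := K) q
    have hone : Nat.card (Sylow q K) = 1 := by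
      rcases (Nat.dvd_prime hp).mp hm1 with h | h
      · exact h
      · exfalso
        rw [h, Nat.mod_eq_of_lt hpq] at hm2
        omega
    have hsub : Subsingleton (Sylow q K) := (Nat.card_eq_one_iff_unique.mp hone).1
    obtain ⟨Q₀⟩ := (Sylow.nonempty : Nonempty (Sylow q K))
    have hQ₀card : Nat.card (Q₀ : Subgroup K) = q := by
      simpa using card_sylow_eq_of_card_eq q 1 p hKcard' hqp Q₀
    have hchar : (Q₀ : Subgroup K).Characteristic := Sylow.characteristic_of_subsingleton Q₀
    set Q : Subgroup G := (Q₀ : Subgroup K).map K.subtype with hQ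
    have hQn : Q.Normal := ConjAct.normal_of_characteristic_of_normal
    have hQcard : Nat.card Q = q := by
      rw [hQ, Subgroup.card_map_of_injective (Subgroup.subtype_injective K), hQ₀card]
    -- R centralizes Q
    have hQcyc : IsCyclic Q := isCyclic_of_prime_card hQcard
    have hRCQ : (R : Subgroup G) ≤ Subgroup.centralizer (Q : Set G) := by
      intro x hx
      have hxN : x ∈ Subgroup.normalizer (Q : Set G) := by
        rw [Subgroup.normalizer_eq_top]; trivial
      set φ := Q.normalizerMonoidHom with hφ
      have ho1 : orderOf (φ ⟨x, hxN⟩) ∣ r := by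
        have h1 : orderOf (φ ⟨x, hxN⟩) ∣ orderOf (⟨x, hxN⟩ : Subgroup.normalizer (Q : Set G)) :=
          orderOf_map_dvd φ _
        have h2 : orderOf (⟨x, hxN⟩ : Subgroup.normalizer (Q : Set G)) = orderOf x :=
          (Subgroup.orderOf_coe (⟨x, hxN⟩ : Subgroup.normalizer (Q : Set G))).symm
        have h3 : orderOf x ∣ r := by
          have := Subgroup.orderOf_dvd_natCard (R : Subgroup G) hx
          rwa [hRcard] at this
        exact h1.trans (h2 ▸ h3)
      have ho2 : orderOf (φ ⟨x, hxN⟩) ∣ q - 1 := by
        have := orderOf_dvd_natCard (φ ⟨x, hxN⟩)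
        rwa [IsCyclic.card_mulAut, hQcard, Nat.totient_prime hq] at this
      have ho3 : orderOf (φ ⟨x, hxN⟩) = 1 := by
        rcases (Nat.dvd_prime hr).mp ho1 with h | h
        · exact h
        · exfalso
          rw [h] at ho2
          have := Nat.le_of_dvd (by omega) ho2
          omega
      have hker : (⟨x, hxN⟩ : Subgroup.normalizer (Q : Set G)) ∈ φ.ker :=
        orderOf_eq_one_iff.mp ho3
      rw [hφ, Subgroup.normalizerMonoidHom_ker, Subgroup.mem_subgroupOf] at hker
      exact hker
    have hQCR : Q ≤ Subgroup.centralizer ((R : Subgroup G) : Set G) :=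
      Subgroup.le_centralizer_iff.mp hRCQ
    have hQR : Q ≤ (R : Subgroup G) := by
      rw [← hNR]
      exact hQCR.trans (Subgroup.centralizer_le_normalizer _)
    have := Subgroup.card_dvd_of_le hQR
    rw [hQcard, hRcard] at this
    have := (Nat.prime_dvd_prime_iff_eq hq hr).mp this
    omega

end Cfsg.Agent.S0987
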