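import Mathlib
import Cfsg.Statements.S0988
import Cfsg.Agent.S0144
import Cfsg.Agent.Lib.Helper17.Simple
import Cfsg.Agent.Lib.Helper17.Small

set_option autoImplicit false
open Cfsg

namespace Cfsg.Agent.S0988

open Cfsg.Agent.Lib.Helper17

/-- orbit counting: an element of `s`-power order normalizing `T` fixes `|T|` mod `s` elements -/
theorem card_modEq_card_fixed {G : Type*} [Group G] (s : ℕ) [Fact s.Prime] (T : Subgroup G)
    [Finite T] (x : G) (hx : x ∈ Subgroup.normalizer (T : Set G)) (n : ℕ) (hxs : x ^ s ^ n = 1) :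
    Nat.card T ≡ Nat.card ↥(T ⊓ Subgroup.centralizer ({x} : Set G)) [MOD s] := by
  classical
  have : Fintype T := Fintype.ofFinite T
  have hmem : ∀ (k : ℕ) (t : G), t ∈ T → x ^ k * t * (x ^ k)⁻¹ ∈ T := by
    intro k t ht
    have := Subgroup.pow_mem _ hx k
    exact (Subgroup.mem_normalizer_iff.mp this t).mp ht
  let f : Function.End T := fun t => ⟨x * t.1 * x⁻¹, by simpa using hmem 1 t.1 t.2⟩
  have hf : ∀ (k : ℕ) (t : T), ((f ^ k) t : G) = x ^ k * t.1 * (x ^ k)⁻¹ := by
    intro k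
    induction k with
    | zero =>
      intro t
      rw [pow_zero, pow_zero, one_mul, inv_one, mul_one]
      rfl
    | succ k ih =>
      intro t
      rw [pow_succ']
      change ((f ((f ^ k) t) : T) : G) = _
      change x * ((f ^ k) t : G) * x⁻¹ = _
      rw [ih t, pow_succ']
      group
  have hf1 : f ^ s ^ n = 1 := by
    funext t
    apply Subtype.ext
    rw [hf, hxs, one_mul, inv_one, mul_one]
    rfl
  have hmod := Equiv.Perm.card_fixedPoints_modEq (p := s) (n := n) hf1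
  have hcard : Fintype.card ↑(Function.fixedPoints f) =
      Nat.card ↥(T ⊓ Subgroup.centralizer ({x} : Set G)) := by
    rw [← Nat.card_eq_fintype_card]
    apply Nat.card_congr
    refine ⟨fun t => ⟨t.1.1, Subgroup.mem_inf.mpr ⟨t.1.2, ?_⟩⟩,
      fun u => ⟨⟨u.1, (Subgroup.mem_inf.mp u.2).1⟩, ?_⟩, ?_, ?_⟩
    · rw [Subgroup.mem_centralizer_iff]
      intro h hh
      rw [Set.mem_singleton_iff] at hh
      rw [hh]
      have h1 : x * t.1.1 * x⁻¹ = t.1.1 := congrArg Subtype.val t.2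
      calc x * t.1.1 = (x * t.1.1 * x⁻¹) * x := by group
        _ = t.1.1 * x := by rw [h1]
    · have h1 := Subgroup.mem_centralizer_iff.mp (Subgroup.mem_inf.mp u.2).2 x rfl
      apply Subtype.ext
      change x * u.1 * x⁻¹ = u.1
      rw [h1]; group
    · intro t; rfl
    · intro u; rfl
  rw [Nat.card_eq_fintype_card, ← hcard]
  exact hmod

/-- a Sylow subgroup of prime order `l` in a simple group forces a smaller prime divisor -/
theorem exists_smaller_prime {G : Type*} [Group G] [Finite G] [IsSimpleGroup G]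
    (hGn : ¬ (Nat.card G).Prime) (l m : ℕ) (hl : l.Prime) (hG : Nat.card G = l * m)
    (hlm : ¬ l ∣ m) : ∃ s : ℕ, s.Prime ∧ s ∣ m ∧ s < l := by
  have : Fact l.Prime := ⟨hl⟩
  obtain ⟨P⟩ := (Sylow.nonempty : Nonempty (Sylow l G))
  have hP : Nat.card (P : Subgroup G) = l := by
    have h1 := card_sylow_eq_of_card_eq l 1 m (by rw [hG, pow_one]) hlm P
    rwa [pow_one] at h1
  obtain ⟨d, hd1, hd2, hd3⟩ := exists_dvd_of_sylow_prime hGn l P hP
  have h1 : d * l ∣ l * m := by
    rw [← hG]; exact hd3.trans (Subgroup.card_subgroup_dvd_card _)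
  have h2 : d ∣ m := by
    rw [mul_comm d l] at h1
    exact (Nat.mul_dvd_mul_iff_left hl.pos).mp h1
  have hl2 := hl.two_le
  have h3 : d ≤ l - 1 := Nat.le_of_dvd (by omega) hd2
  have hd0 : d ≠ 0 := by
    rintro rfl
    rw [zero_dvd_iff] at hd2
    omega
  refine ⟨d.minFac, Nat.minFac_prime hd1, (Nat.minFac_dvd d).trans h2, ?_⟩
  have h4 : d.minFac ≤ d := Nat.minFac_le (Nat.pos_of_ne_zero hd0)
  omega

/-- if `p` is the smallest prime divisor then `p = 2` and `3` divides the order -/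
theorem two_three {G : Type*} [Group G] [Finite G] [IsSimpleGroup G]
    (hGn : ¬ (Nat.card G).Prime) (p q r : ℕ) (hp : p.Prime) (hq : q.Prime) (hr : r.Prime)
    (hG : Nat.card G = p ^ 2 * q * r) (hpq : p < q) (hpr : p < r) :
    p = 2 ∧ (q = 3 ∨ r = 3) := by
  classical
  have : Fact p.Prime := ⟨hp⟩
  have hp2 := hp.two_le
  have hpG : p ∣ Nat.card G := by rw [hG]; exact ⟨p * q * r, by ring⟩
  have hndvd : ¬ p ∣ q * r := by
    intro h
    rcases (Nat.Prime.dvd_mul hp).mp h with h1 | h1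
    · have := (Nat.prime_dvd_prime_iff_eq hp hq).mp h1; omega
    · have := (Nat.prime_dvd_prime_iff_eq hp hr).mp h1; omega
  obtain ⟨P⟩ := (Sylow.nonempty : Nonempty (Sylow p G))
  have hPcard : Nat.card (P : Subgroup G) = p ^ 2 :=
    card_sylow_eq_of_card_eq p 2 (q * r) (by rw [hG]; ring) hndvd P
  have hPcomm : IsMulCommutative (P : Subgroup G) :=
    IsPGroup.isMulCommutative_of_card_eq_prime_sq hPcard
  have hPC : (P : Subgroup G) ≤ Subgroup.centralizer ((P : Subgroup G) : Set G) := by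
    intro u hu
    rw [Subgroup.mem_centralizer_iff]
    intro v hv
    exact setLike_mul_comm hv hu
  have hNC := not_normalizer_le_centralizer hGn p hpG P
  have hex : ∃ n : ℕ, ∃ x : G, x ∈ Subgroup.normalizer ((P : Subgroup G) : Set G) ∧
      x ∉ Subgroup.centralizer ((P : Subgroup G) : Set G) ∧ orderOf x = n := by
    obtain ⟨x, hx1, hx2⟩ := SetLike.not_le_iff_exists.mp hNC
    exact ⟨_, x, hx1, hx2, rfl⟩
  obtain ⟨x, hxN, hxC, hxo⟩ := Nat.find_spec hex
  have hmin : ∀ y : G, y ∈ Subgroup.normalizer ((P : Subgroup G) : Set G) →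
      orderOf y < orderOf x → y ∈ Subgroup.centralizer ((P : Subgroup G) : Set G) := by
    intro y hy hlt
    by_contra hyC
    have h1 := Nat.find_min' hex ⟨y, hy, hyC, rfl⟩
    omega
  have ho_pos : 0 < orderOf x := orderOf_pos x
  have ho1 : orderOf x ≠ 1 := by
    intro h
    rw [orderOf_eq_one_iff] at h
    rw [h] at hxC
    exact hxC (Subgroup.one_mem _)
  obtain ⟨s, hs, hso⟩ := Nat.exists_prime_and_dvd ho1
  obtain ⟨a, m, hsm, hom⟩ := Nat.exists_eq_pow_mul_and_not_dvd ho_pos.ne' s hs.ne_one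
  have ha : a ≠ 0 := by
    rintro rfl
    rw [pow_zero, one_mul] at hom
    exact hsm (hom ▸ hso)
  have hm0 : m ≠ 0 := by
    rintro rfl
    rw [mul_zero] at hom
    omega
  have hspos : 0 < s ^ a := pow_pos hs.pos a
  have hm1 : m = 1 := by
    by_contra hm
    have hm2 : 2 ≤ m := by omega
    have hsa2 : 2 ≤ s ^ a := by
      calc 2 ≤ s := hs.two_le
        _ = s ^ 1 := (pow_one s).symm
        _ ≤ s ^ a := Nat.pow_le_pow_right hs.pos (by omega)
    have h1 : orderOf (x ^ (s ^ a)) = m := by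
      rw [orderOf_pow_of_dvd hspos.ne' (hom ▸ dvd_mul_right _ _), hom,
        Nat.mul_div_cancel_left _ hspos]
    have h2 : orderOf (x ^ m) = s ^ a := by
      rw [orderOf_pow_of_dvd hm0 (hom ▸ dvd_mul_left _ _), hom,
        Nat.mul_div_cancel _ (Nat.pos_of_ne_zero hm0)]
    have h3 : x ^ (s ^ a) ∈ Subgroup.centralizer ((P : Subgroup G) : Set G) := by
      apply hmin _ (Subgroup.pow_mem _ hxN _)
      rw [h1, hom]
      nlinarith
    have h4 : x ^ m ∈ Subgroup.centralizer ((P : Subgroup G) : Set G) := by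
      apply hmin _ (Subgroup.pow_mem _ hxN _)
      rw [h2, hom]
      nlinarith
    have hcop : Nat.Coprime (s ^ a) m :=
      Nat.Coprime.pow_left a ((Nat.Prime.coprime_iff_not_dvd hs).mpr hsm)
    have h5 : ((s ^ a : ℕ) : ℤ) * Nat.gcdA (s ^ a) m + (m : ℤ) * Nat.gcdB (s ^ a) m = 1 := by
      have h6 := Nat.gcd_eq_gcd_ab (s ^ a) m
      rw [hcop] at h6
      exact_mod_cast h6.symm
    have h7 : x = (x ^ (s ^ a)) ^ Nat.gcdA (s ^ a) m * (x ^ m) ^ Nat.gcdB (s ^ a) m := by
      rw [← zpow_natCast, ← zpow_natCast, ← zpow_mul, ← zpow_mul, ← zpow_add, h5, zpow_one]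
    apply hxC
    rw [h7]
    exact Subgroup.mul_mem _ (Subgroup.zpow_mem _ h3 _) (Subgroup.zpow_mem _ h4 _)
  rw [hm1, mul_one] at hom
  -- `x` has order `s ^ a`
  have hsp : s ≠ p := by
    rintro rfl
    exact hxC (hPC (mem_sylow_of_mem_normalizer_of_orderOf s P x hxN a hom))
  have hsG : s ∣ p ^ 2 * q * r := by
    rw [← hG]
    exact hso.trans (orderOf_dvd_natCard x)
  have hsqr : s = q ∨ s = r := by
    rcases (Nat.Prime.dvd_mul hs).mp hsG with h1 | h1
    · rcases (Nat.Prime.dvd_mul hs).mp h1 with h2 | h2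
      · exact absurd ((Nat.prime_dvd_prime_iff_eq hs hp).mp (hs.dvd_of_dvd_pow h2)) hsp
      · exact Or.inl ((Nat.prime_dvd_prime_iff_eq hs hq).mp h2)
    · exact Or.inr ((Nat.prime_dvd_prime_iff_eq hs hr).mp h1)
  have hps : p < s := by rcases hsqr with rfl | rfl <;> assumption
  have : Fact s.Prime := ⟨hs⟩
  have hxs : x ^ s ^ a = 1 := by rw [← hom]; exact pow_orderOf_eq_one x
  have hmod := card_modEq_card_fixed s (P : Subgroup G) x hxN a hxs
  rw [hPcard] at hmod
  have hdvd : Nat.card ↥((P : Subgroup G) ⊓ Subgroup.centralizer ({x} : Set G)) ∣ p ^ 2 := by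
    rw [← hPcard]
    exact Subgroup.card_dvd_of_le inf_le_left
  obtain ⟨j, hj, hjc⟩ := (Nat.dvd_prime_pow hp).mp hdvd
  rw [hjc] at hmod
  have hj2 : j ≠ 2 := by
    rintro rfl
    have h1 : (P : Subgroup G) ⊓ Subgroup.centralizer ({x} : Set G) = (P : Subgroup G) :=
      Subgroup.eq_of_le_of_card_ge inf_le_left (by rw [hjc, hPcard])
    apply hxC
    rw [Subgroup.mem_centralizer_iff]
    intro u hu
    have h2 : u ∈ (P : Subgroup G) ⊓ Subgroup.centralizer ({x} : Set G) := by rw [h1]; exact hu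
    have h3 := Subgroup.mem_centralizer_iff.mp (Subgroup.mem_inf.mp h2).2 x rfl
    exact h3.symm
  have hs2 := hs.two_le
  have hj01 : j = 0 ∨ j = 1 := by omega
  rcases hj01 with rfl | rfl
  · -- s ∣ p ^ 2 - 1
    rw [pow_zero] at hmod
    have h1 : s ∣ p ^ 2 - 1 := (Nat.modEq_iff_dvd' (by nlinarith)).mp hmod.symm
    have h2 : p ^ 2 - 1 = (p - 1) * (p + 1) := by
      obtain ⟨k, rfl⟩ : ∃ k, p = k + 1 := ⟨p - 1, by omega⟩
      simp only [Nat.add_sub_cancel]
      have h3 : (k + 1) ^ 2 = k * (k + 1 + 1) + 1 := by ring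
      rw [h3, Nat.add_sub_cancel]
    rw [h2] at h1
    rcases (Nat.Prime.dvd_mul hs).mp h1 with h3 | h3
    · have := Nat.le_of_dvd (by omega) h3
      omega
    · have h4 := Nat.le_of_dvd (by omega) h3
      have h5 : s = p + 1 := by omega
      rcases hp.eq_two_or_odd with h6 | h6
      · refine ⟨h6, ?_⟩
        rcases hsqr with h7 | h7
        · left; omega
        · right; omega
      · exfalso
        have h7 : 2 ∣ s := by omega
        have h8 := (Nat.prime_dvd_prime_iff_eq Nat.prime_two hs).mp h7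
        omega
  · -- s ∣ p ^ 2 - p
    rw [pow_one] at hmod
    have h1 : s ∣ p ^ 2 - p := (Nat.modEq_iff_dvd' (by nlinarith)).mp hmod.symm
    have h2 : p ^ 2 - p = p * (p - 1) := by
      obtain ⟨k, rfl⟩ : ∃ k, p = k + 1 := ⟨p - 1, by omega⟩
      simp only [Nat.add_sub_cancel]
      have h3 : (k + 1) ^ 2 = (k + 1) * k + (k + 1) := by ring
      rw [h3, Nat.add_sub_cancel]
    rw [h2] at h1
    exfalso
    rcases (Nat.Prime.dvd_mul hs).mp h1 with h3 | h3
    · exact hsp ((Nat.prime_dvd_prime_iff_eq hs hp).mp h3)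
    · have := Nat.le_of_dvd (by omega) h3
      omega

/-- a simple group of order `12 r` with `r ≥ 5` prime has `r = 5` -/
theorem twelve {G : Type*} [Group G] [Finite G] [IsSimpleGroup G] (hGn : ¬ (Nat.card G).Prime)
    (r : ℕ) (hr : r.Prime) (hr5 : 5 ≤ r) (hG : Nat.card G = 12 * r) : r = 5 := by
  have : Fact r.Prime := ⟨hr⟩
  have hndvd : ¬ r ∣ 12 := by
    intro h
    have h1 := Nat.le_of_dvd (by norm_num) h
    interval_cases r <;> first | exact absurd h (by decide) | exact absurd hr (by decide)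
  obtain ⟨P⟩ := (Sylow.nonempty : Nonempty (Sylow r G))
  have hP : Nat.card (P : Subgroup G) = r := by
    have h1 := card_sylow_eq_of_card_eq r 1 12 (by rw [hG, pow_one]; ring) hndvd P
    rwa [pow_one] at h1
  obtain ⟨d, hd1, hd2, hd3⟩ := exists_dvd_of_sylow_prime hGn r P hP
  have hn := card_sylow_mul_card_normalizer r P
  have hmod := card_sylow_mod (G := G) r
  have hrG : r ∣ Nat.card G := by rw [hG]; exact dvd_mul_left _ _
  have h2G : 2 ∣ Nat.card G := by rw [hG]; exact ⟨6 * r, by ring⟩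
  have hn1 : Nat.card (Sylow r G) ≠ 1 :=
    card_sylow_ne_one r hrG 2 Nat.prime_two (by omega) h2G
  obtain ⟨n, hndef⟩ : ∃ n : ℕ, n = Nat.card (Sylow r G) := ⟨_, rfl⟩
  rw [← hndef] at hn hmod hn1
  have h1 : n * (d * r) ∣ 12 * r := by
    rw [← hG, ← hn]; exact Nat.mul_dvd_mul_left _ hd3
  have h2 : n * d ∣ 12 := by
    have h3 : n * d * r ∣ 12 * r := by rwa [mul_assoc]
    exact (Nat.mul_dvd_mul_iff_right hr.pos).mp h3
  have hd0 : d ≠ 0 := by
    rintro rfl
    rw [zero_dvd_iff] at hd2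
    omega
  have hle : n * d ≤ 12 := Nat.le_of_dvd (by norm_num) h2
  have hd2' : 2 ≤ d := by omega
  have hn6 : n ≤ 6 := by nlinarith
  have hn0 : n ≠ 0 := by
    rintro rfl
    rw [Nat.zero_mod] at hmod
    omega
  have h3 : r ∣ n - 1 := by
    have h4 : 1 ≡ n [MOD r] := by
      rw [Nat.ModEq, hmod, Nat.mod_eq_of_lt (by omega)]
    exact (Nat.modEq_iff_dvd' (by omega)).mp h4
  have h4 : r ≤ n - 1 := Nat.le_of_dvd (by omega) h3
  omega

/-- If a finite simple group has order p^2 * q * r with p, q and r prime, then its order is 60. -/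
theorem result {G : Type*} [Group G] [Finite G] [IsSimpleGroup G] (p q r : ℕ) (hp : p.Prime) (hq : q.Prime) (hr : r.Prime) (hG : Nat.card G = p ^ 2 * q * r) : Nat.card G = 60 := by
  have hp2 := hp.two_le
  have hq2 := hq.two_le
  have hr2 := hr.two_le
  have hGn : ¬ (Nat.card G).Prime := by
    rw [hG]
    intro h
    have h1 : p ∣ p ^ 2 * q * r := ⟨p * q * r, by ring⟩
    rcases (Nat.dvd_prime h).mp h1 with h2 | h2
    · exact hp.ne_one h2
    · have h3 : p * 1 < p * (p * q * r) := by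
        apply Nat.mul_lt_mul_of_pos_left _ hp.pos
        have : 2 * 2 * 2 ≤ p * q * r := Nat.mul_le_mul (Nat.mul_le_mul hp2 hq2) hr2
        omega
      have h4 : p ^ 2 * q * r = p * (p * q * r) := by ring
      rw [h4] at h2
      omega
  have hns : ¬ Group.IsSolvable G := by
    intro hs
    have hcomm := (IsSimpleGroup.comm_iff_isSolvable.mpr hs)
    exact not_comm_of_not_prime hGn ⟨⟨hcomm⟩⟩
  have hpq : p ≠ q := by
    rintro rfl
    exact hns (Cfsg.Agent.S0144.result p r 3 1 hp hr (by rw [hG]; ring))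
  have hpr : p ≠ r := by
    rintro rfl
    exact hns (Cfsg.Agent.S0144.result p q 3 1 hp hq (by rw [hG]; ring))
  have hqr : q ≠ r := by
    rintro rfl
    exact hns (Cfsg.Agent.S0144.result p q 2 2 hp hq (by rw [hG]; ring))
  -- `p` is the smallest prime divisor
  have hq_ndvd : ¬ q ∣ p ^ 2 * r := by
    intro h
    rcases (Nat.Prime.dvd_mul hq).mp h with h1 | h1
    · exact hpq ((Nat.prime_dvd_prime_iff_eq hq hp).mp (hq.dvd_of_dvd_pow h1)).symm
    · exact hqr ((Nat.prime_dvd_prime_iff_eq hq hr).mp h1)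
  have hr_ndvd : ¬ r ∣ p ^ 2 * q := by
    intro h
    rcases (Nat.Prime.dvd_mul hr).mp h with h1 | h1
    · exact hpr ((Nat.prime_dvd_prime_iff_eq hr hp).mp (hr.dvd_of_dvd_pow h1)).symm
    · exact hqr ((Nat.prime_dvd_prime_iff_eq hr hq).mp h1).symm
  obtain ⟨s₁, hs₁, hs₁d, hs₁l⟩ :=
    exists_smaller_prime hGn q (p ^ 2 * r) hq (by rw [hG]; ring) hq_ndvd
  obtain ⟨s₂, hs₂, hs₂d, hs₂l⟩ :=
    exists_smaller_prime hGn r (p ^ 2 * q) hr (by rw [hG]; ring) hr_ndvd
  have h1 : s₁ = p ∨ s₁ = r := by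
    rcases (Nat.Prime.dvd_mul hs₁).mp hs₁d with h | h
    · exact Or.inl ((Nat.prime_dvd_prime_iff_eq hs₁ hp).mp (hs₁.dvd_of_dvd_pow h))
    · exact Or.inr ((Nat.prime_dvd_prime_iff_eq hs₁ hr).mp h)
  have h2 : s₂ = p ∨ s₂ = q := by
    rcases (Nat.Prime.dvd_mul hs₂).mp hs₂d with h | h
    · exact Or.inl ((Nat.prime_dvd_prime_iff_eq hs₂ hp).mp (hs₂.dvd_of_dvd_pow h))
    · exact Or.inr ((Nat.prime_dvd_prime_iff_eq hs₂ hq).mp h)
  have hpq' : p < q := by
    rcases h1 with h | h <;> rcases h2 with h' | h' <;> omega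
  have hpr' : p < r := by
    rcases h1 with h | h <;> rcases h2 with h' | h' <;> omega
  obtain ⟨hp2', h3⟩ := two_three hGn p q r hp hq hr hG hpq' hpr'
  subst hp2'
  rcases h3 with rfl | rfl
  · have h4 : r = 5 := by
      apply twelve hGn r hr _ (by rw [hG]; norm_num)
      rcases Nat.lt_or_ge r 5 with h5 | h5
      · exfalso
        interval_cases r <;> first | exact absurd rfl hqr | exact absurd hr (by decide)
      · exact h5
    rw [hG, h4]; norm_num
  · have h4 : q = 5 := by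
      apply twelve hGn q hq _ (by rw [hG]; ring)
      rcases Nat.lt_or_ge q 5 with h5 | h5
      · exfalso
        interval_cases q <;> first | exact absurd rfl hqr | exact absurd hq (by decide)
      · exact h5
    rw [hG, h4]; norm_num

end Cfsg.Agent.S0988
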