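import Cfsg.Statements.S0992
import Cfsg.Agent.Lib.Helper17.Simple

set_option autoImplicit false
open Cfsg
open Cfsg.Agent.Lib.Helper17

namespace Cfsg.Agent.S0992

/-- Let G be a non-abelian finite simple group of even order not divisible by 8, and T a Sylow 2-subgroup. Then T is a Klein four-group and the centralizer of T has index 3 in the normalizer of T. -/
theorem result {G : Type*} [Group G] [Finite G] [IsSimpleGroup G] (hG : ¬ IsMulCommutative G) (h2 : Even (Nat.card G)) (h8 : ¬ 8 ∣ Nat.card G) (T : Sylow 2 G) : IsKleinFour ↥(T : Subgroup G) ∧ (Subgroup.centralizer ((T : Subgroup G) : Set G)).relIndex (Subgroup.normalizer ((T : Subgroup G) : Set G)) = 3 := by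
  have hnp : ¬ (Nat.card G).Prime := by
    intro hprime
    apply hG
    have : Fact (Nat.card G).Prime := ⟨hprime⟩
    have hcyc : IsCyclic G := isCyclic_of_prime_card rfl
    exact ⟨⟨fun a b => (IsCyclic.commGroup (α := G)).mul_comm a b⟩⟩
  have h2dvd : 2 ∣ Nat.card G := even_iff_two_dvd.mp h2
  have hne0 : Nat.card G ≠ 0 := Nat.card_pos.ne'
  have hNC := not_normalizer_le_centralizer hnp 2 h2dvd T
  have hnotcyc : ¬ IsCyclic (T : Subgroup G) := by
    intro hcyc
    exact hNC (IsCyclic.normalizer_le_centralizer ((Nat.minFac_eq_two_iff _).mpr h2dvd) hcyc)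
  have hcardT := Sylow.card_eq_multiplicity T
  set a := (Nat.card G).factorization 2 with ha
  have ha1 : 1 ≤ a := by
    have := (Nat.prime_two.pow_dvd_iff_le_factorization hne0 (k := 1)).mp (by simpa using h2dvd)
    exact this
  have ha2 : a < 3 := by
    by_contra hcon
    push Not at hcon
    apply h8
    have := (Nat.prime_two.pow_dvd_iff_le_factorization hne0 (k := 3)).mpr hcon
    simpa using this
  have ha' : a = 2 := by
    have : a = 1 ∨ a = 2 := by omega
    rcases this with h | h
    · exfalso
      rw [h, pow_one] at hcardT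
      exact hnotcyc (isCyclic_of_prime_card hcardT)
    · exact h
  rw [ha'] at hcardT
  have hexp : Monoid.exponent (T : Subgroup G) = 2 :=
    (not_isCyclic_iff_exponent_eq_prime Nat.prime_two hcardT).mp hnotcyc
  have hK : IsKleinFour ↥(T : Subgroup G) := ⟨by rw [hcardT]; norm_num, hexp⟩
  refine ⟨hK, ?_⟩
  set N := Subgroup.normalizer ((T : Subgroup G) : Set G) with hN
  set C := Subgroup.centralizer ((T : Subgroup G) : Set G) with hC
  have hne1 : C.relIndex N ≠ 1 := fun h => hNC (Subgroup.relIndex_eq_one.mp h)
  have hcomm : IsMulCommutative (T : Subgroup G) := IsKleinFour.isMulCommutative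
  have hTC : (T : Subgroup G) ≤ C := Subgroup.le_centralizer (T : Subgroup G)
  have hCN : C ≤ N := Subgroup.centralizer_le_normalizer _
  -- the index is odd
  have hodd : ¬ 2 ∣ C.relIndex N := by
    intro hd
    have h1 := Subgroup.relIndex_mul_relIndex (T : Subgroup G) C N hTC hCN
    have h3 : (T : Subgroup G).relIndex N ∣ (T : Subgroup G).index :=
      Subgroup.relIndex_dvd_index_of_le Subgroup.le_normalizer
    have h4 : 2 ∣ (T : Subgroup G).index := (hd.trans (Dvd.intro_left _ h1)).trans h3
    exact T.not_dvd_index h4
  -- the index divides 24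
  have hdvd : C.relIndex N ∣ 24 := by
    have key := Subgroup.card_dvd_of_injective _
      (QuotientGroup.kerLift_injective (T : Subgroup G).normalizerMonoidHom)
    rw [Subgroup.normalizerMonoidHom_ker, ← Subgroup.index, ← Subgroup.relIndex] at key
    have hinj : Function.Injective (MulAut.toPerm (T : Subgroup G)) := by
      intro f g hfg
      apply MulEquiv.ext
      intro x
      exact congrArg (fun e => e x) hfg
    have h5 := Subgroup.card_dvd_of_injective _ hinj
    rw [Nat.card_perm, hcardT] at h5
    exact key.trans (by simpa [Nat.factorial] using h5)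
  have hle : C.relIndex N ≤ 24 := Nat.le_of_dvd (by norm_num) hdvd
  generalize C.relIndex N = r at *
  interval_cases r <;> omega

end Cfsg.Agent.S0992
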