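import Cfsg.Statements.S0995
import Cfsg.Agent.Lib.Helper17.Count
import Cfsg.Agent.Lib.Helper17.Simple

set_option autoImplicit false
open Cfsg
open Cfsg.Agent.Lib.Helper17

namespace Cfsg.Agent.S0995

theorem mem_smul_sylow'' {G : Type*} [Group G] {p : ℕ} (g x : G) (P : Sylow p G) :
    x ∈ ((g • P : Sylow p G) : Subgroup G) ↔ g⁻¹ * x * g ∈ (P : Subgroup G) := by
  rw [Sylow.coe_subgroup_smul, Subgroup.mem_pointwise_smul_iff_inv_smul_mem]
  simp [MulAut.smul_def]

/-- Let G be a finite perfect group containing an element z of prime order p whose centralizer is the cyclic group it generates. Let t be the number of conjugacy classes of elements of order p. Then t divides p - 1, the number of Sylow p-subgroups has the form 1 + n * p, and |G| * t = (p - 1) * p * (1 + n * p). -/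
theorem result {G : Type*} [Group G] [Finite G] (hperf : commutator G = ⊤) (p : ℕ) [Fact p.Prime] (z : G) (hz : orderOf z = p) (hC : Subgroup.centralizer ({z} : Set G) = Subgroup.zpowers z) : ∃ n t : ℕ, t = Nat.card {c : ConjClasses G // ∃ g : G, ConjClasses.mk g = c ∧ orderOf g = p} ∧ t ∣ p - 1 ∧ Nat.card (Sylow p G) = 1 + n * p ∧ Nat.card G * t = (p - 1) * p * (1 + n * p) := by
  classical
  have hpp : p.Prime := Fact.out
  have hZcard : Nat.card (Subgroup.zpowers z) = p := by rw [Nat.card_zpowers, hz]
  have hz1 : z ≠ 1 := by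
    rintro rfl
    rw [orderOf_one] at hz
    exact hpp.one_lt.ne hz
  have hZpg : IsPGroup p (Subgroup.zpowers z) := IsPGroup.of_card (n := 1) (by rw [hZcard, pow_one])
  obtain ⟨P, hZP⟩ := hZpg.exists_le_sylow
  have hzP : z ∈ (P : Subgroup G) := hZP (Subgroup.mem_zpowers z)
  -- P = (Subgroup.zpowers z)
  have hPZ : (P : Subgroup G) = (Subgroup.zpowers z) := by
    have hPne : Nontrivial ↥(P : Subgroup G) :=
      ⟨⟨⟨z, hzP⟩, 1, fun h => hz1 (congrArg Subtype.val h)⟩⟩
    have hcen : Nontrivial (Subgroup.center ↥(P : Subgroup G)) := P.2.center_nontrivial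
    obtain ⟨c, hc⟩ := exists_ne (1 : Subgroup.center ↥(P : Subgroup G))
    have hc1 : ((c : ↥(P : Subgroup G)) : G) ≠ 1 := by
      intro h
      apply hc
      ext
      exact h
    have hccomm : ∀ x : G, x ∈ (P : Subgroup G) → x * ((c : ↥(P : Subgroup G)) : G) =
        ((c : ↥(P : Subgroup G)) : G) * x := by
      intro x hx
      have := (Subgroup.mem_center_iff.mp c.2) ⟨x, hx⟩
      exact congrArg Subtype.val this
    have hcZ : ((c : ↥(P : Subgroup G)) : G) ∈ (Subgroup.zpowers z) := by
      rw [← hC, Subgroup.mem_centralizer_iff]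
      intro h hh
      rw [Set.mem_singleton_iff] at hh
      subst hh
      exact hccomm h hzP
    have hgen := zpowers_eq_of_mem_of_card_prime hpp (Subgroup.zpowers z) hZcard _ hcZ hc1
    apply le_antisymm _ hZP
    intro x hx
    rw [← hC, Subgroup.mem_centralizer_iff]
    intro h hh
    rw [Set.mem_singleton_iff] at hh
    subst hh
    have hzc : h ∈ Subgroup.zpowers ((c : ↥(P : Subgroup G)) : G) := by
      rw [hgen]; exact Subgroup.mem_zpowers h
    obtain ⟨k, rfl⟩ := Subgroup.mem_zpowers_iff.mp hzc
    have hcm : Commute x ((c : ↥(P : Subgroup G)) : G) := hccomm x hx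
    exact (hcm.zpow_right k).eq.symm
  have hPcard : Nat.card (P : Subgroup G) = p := by rw [hPZ, hZcard]
  -- number of Sylow subgroups
  have hmod := card_sylow_mod (G := G) p
  set n := Nat.card (Sylow p G) / p with hn
  have hnp : Nat.card (Sylow p G) = 1 + n * p := by
    have := Nat.div_add_mod (Nat.card (Sylow p G)) p
    rw [hmod] at this
    rw [hn]
    linarith
  -- centralizers of elements of P
  have hcent : ∀ y : G, y ∈ (P : Subgroup G) → y ≠ 1 →
      Nat.card (Subgroup.centralizer ({y} : Set G)) = p := by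
    intro y hy hy1
    have hgen := zpowers_eq_of_mem_of_card_prime hpp (P : Subgroup G) hPcard y hy hy1
    have : Subgroup.centralizer ({y} : Set G) = Subgroup.centralizer ({z} : Set G) := by
      have hzy : z ∈ Subgroup.zpowers y := by rw [hgen]; exact hzP
      have hyz : y ∈ Subgroup.zpowers z := by rw [← hPZ]; exact hy
      obtain ⟨k, hk⟩ := Subgroup.mem_zpowers_iff.mp hzy
      obtain ⟨l, hl⟩ := Subgroup.mem_zpowers_iff.mp hyz
      ext g
      rw [Subgroup.mem_centralizer_iff, Subgroup.mem_centralizer_iff]
      constructor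
      · intro h1 h hh
        rw [Set.mem_singleton_iff] at hh
        subst hh
        have hcm : Commute g y := (h1 y rfl).symm
        rw [← hk]
        exact (hcm.zpow_right k).eq.symm
      · intro h1 h hh
        rw [Set.mem_singleton_iff] at hh
        subst hh
        have hcm : Commute g z := (h1 z rfl).symm
        rw [← hl]
        exact (hcm.zpow_right l).eq.symm
    rw [this, hC, hZcard]
  -- every class of elements of order p has |G| / p elements
  set T := {c : ConjClasses G // ∃ g : G, ConjClasses.mk g = c ∧ orderOf g = p} with hT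
  have hclass : ∀ c : T, Nat.card {x : G // ConjClasses.mk x = c.1} * p = Nat.card G := by
    rintro ⟨c, g, rfl, hg⟩
    -- g is conjugate to an element of P
    have hpg : IsPGroup p (Subgroup.zpowers g) := by
      apply IsPGroup.of_card (n := 1)
      rw [Nat.card_zpowers, hg, pow_one]
    obtain ⟨Q, hQ⟩ := hpg.exists_le_sylow
    obtain ⟨a, ha⟩ := MulAction.exists_smul_eq G P Q
    have hgQ : g ∈ ((a • P : Sylow p G) : Subgroup G) := by
      rw [ha]; exact hQ (Subgroup.mem_zpowers g)
    have hy := (mem_smul_sylow'' _ _ _).mp hgQ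
    set y := a⁻¹ * g * a with hydef
    have hy1 : y ≠ 1 := by
      intro h
      have : g = 1 := by
        have := congrArg (fun w => a * w * a⁻¹) h
        simpa [hydef, mul_assoc] using this
      rw [this, orderOf_one] at hg
      exact hpp.one_lt.ne hg
    have hconj : IsConj y g := isConj_iff.mpr ⟨a, by simp [hydef, mul_assoc]⟩
    have e : {x : G // ConjClasses.mk x = ConjClasses.mk g} ≃ {x : G // IsConj y x} :=
      Equiv.subtypeEquivRight (fun x => by
        rw [ConjClasses.mk_eq_mk_iff_isConj]
        exact ⟨fun h => hconj.trans h.symm, fun h => (hconj.symm.trans h).symm⟩)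
    rw [Nat.card_congr e, ← hcent y hy hy1]
    exact card_isConj_mul_card_centralizer y
  -- elements of order p, counted by classes
  have : Fintype T := Fintype.ofFinite T
  have hS : Nat.card {x : G // orderOf x = p} = ∑ c : T, Nat.card {x : G // ConjClasses.mk x = c.1} := by
    rw [← Nat.card_sigma]
    apply Nat.card_congr
    refine
      { toFun := fun x => ⟨⟨ConjClasses.mk x.1, x.1, rfl, x.2⟩, ⟨x.1, rfl⟩⟩
        invFun := fun cx => ⟨cx.2.1, ?_⟩
        left_inv := fun x => rfl
        right_inv := ?_ }
    · obtain ⟨⟨c, g, hgc, hg⟩, ⟨x, hx⟩⟩ := cx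
      show orderOf x = p
      have h1 : ConjClasses.mk x = ConjClasses.mk g := hx.trans hgc.symm
      have h2 : IsConj x g := ConjClasses.mk_eq_mk_iff_isConj.mp h1
      obtain ⟨b, hb⟩ := isConj_iff.mp h2
      rw [← hg, ← hb]
      have : b * x * b⁻¹ = (MulAut.conj b) x := by simp
      rw [this, MulEquiv.orderOf_eq]
    · rintro ⟨⟨c, hc⟩, ⟨x, hx⟩⟩
      have hx' : ConjClasses.mk x = c := hx
      subst hx'
      rfl
  have hE := card_orderOf_eq_prime p P hPcard
  have hkey : Nat.card G * Nat.card T = (p - 1) * p * (1 + n * p) := by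
    have h1 : (∑ c : T, Nat.card {x : G // ConjClasses.mk x = c.1}) * p = Nat.card T * Nat.card G := by
      rw [Finset.sum_mul]
      simp only [hclass, Finset.sum_const, Finset.card_univ, smul_eq_mul, Nat.card_eq_fintype_card]
    rw [← hS, hE, hnp] at h1
    linarith
  refine ⟨n, Nat.card T, rfl, ?_, hnp, hkey⟩
  -- divisibility
  have hN := card_sylow_mul_card_normalizer p P
  have hpN : p ∣ Nat.card (Subgroup.normalizer ((P : Subgroup G) : Set G)) := by
    have := Subgroup.card_dvd_of_le (Subgroup.le_normalizer : (P : Subgroup G) ≤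
      Subgroup.normalizer ((P : Subgroup G) : Set G))
    rwa [hPcard] at this
  obtain ⟨e, he⟩ := hpN
  rw [he, hnp] at hN
  rw [← hN] at hkey
  have hpos : 0 < (1 + n * p) * p := Nat.mul_pos (by omega) hpp.pos
  have : (1 + n * p) * p * (e * Nat.card T) = (1 + n * p) * p * (p - 1) := by
    calc (1 + n * p) * p * (e * Nat.card T) = (1 + n * p) * (p * e) * Nat.card T := by ring
      _ = (p - 1) * p * (1 + n * p) := hkey
      _ = (1 + n * p) * p * (p - 1) := by ring
  have := Nat.eq_of_mul_eq_mul_left hpos this
  exact Dvd.intro_left e this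

end Cfsg.Agent.S0995
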