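import Cfsg.Statements.S1001
import Cfsg.Agent.S0904
import Cfsg.Agent.S0144

set_option autoImplicit false
open Cfsg

namespace Cfsg.Agent.S1001

/-- In a finite simple group whose order has the form p * 3^a * 2^b with p prime, the centralizer of any element of order p is the cyclic group it generates. -/
theorem result {G : Type*} [Group G] [Finite G] [IsSimpleGroup G] (p a b : ℕ) (hp : p.Prime) (hG : Nat.card G = p * 3 ^ a * 2 ^ b) (x : G) (hx : orderOf x = p) : Subgroup.centralizer ({x} : Set G) = Subgroup.zpowers x := by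
  classical
  have hzle : Subgroup.zpowers x ≤ Subgroup.centralizer ({x} : Set G) := by
    rw [Subgroup.zpowers_le]
    exact Subgroup.mem_centralizer_iff.mpr (fun h hh => by rw [Set.mem_singleton_iff.mp hh])
  by_cases h23 : p = 2 ∨ p = 3
  · -- the order is `2 ^ _ * 3 ^ _`: Burnside
    have hs : Group.IsSolvable G := by
      rcases h23 with rfl | rfl
      · exact Cfsg.Agent.S0144.result 3 2 a (b + 1) Nat.prime_three Nat.prime_two
          (by rw [hG]; ring)
      · exact Cfsg.Agent.S0144.result 3 2 (a + 1) b Nat.prime_three Nat.prime_two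
          (by rw [hG]; ring)
    have hcomm : ∀ u v : G, u * v = v * u := IsSimpleGroup.comm_iff_isSolvable.mpr hs
    have hprime : (Nat.card G).Prime := by
      let _ : CommGroup G := { ‹Group G› with mul_comm := hcomm }
      exact IsSimpleGroup.prime_card
    have hpG : p ∣ Nat.card G := hx ▸ orderOf_dvd_natCard x
    have hcard : Nat.card G = p := ((Nat.prime_dvd_prime_iff_eq hp hprime).mp hpG).symm
    have htop : Subgroup.zpowers x = ⊤ := by
      apply Subgroup.eq_top_of_card_eq
      rw [Nat.card_zpowers, hx, hcard]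
    apply le_antisymm _ hzle
    rw [htop]
    exact le_top
  · have hp2 : p ≠ 2 := fun h => h23 (Or.inl h)
    have hp3 : p ≠ 3 := fun h => h23 (Or.inr h)
    have : Fact p.Prime := ⟨hp⟩
    have hpz : IsPGroup p (Subgroup.zpowers x) :=
      IsPGroup.of_card (n := 1) (by rw [Nat.card_zpowers, hx, pow_one])
    obtain ⟨S, hS⟩ := hpz.exists_le_sylow
    have hres := Cfsg.Agent.S0904.result 2 3 p b a Nat.prime_two Nat.prime_three (by norm_num)
      (Ne.symm hp2) (Ne.symm hp3) (by rw [hG]; ring) S
    have hpn : ¬ p ∣ 3 ^ a * 2 ^ b := by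
      intro h
      rcases (Nat.Prime.dvd_mul hp).mp h with h | h
      · exact hp3 ((Nat.prime_dvd_prime_iff_eq hp Nat.prime_three).mp (hp.dvd_of_dvd_pow h))
      · exact hp2 ((Nat.prime_dvd_prime_iff_eq hp Nat.prime_two).mp (hp.dvd_of_dvd_pow h))
    have hcardS : Nat.card (S : Subgroup G) = p := by
      have h1 := Sylow.card_eq_multiplicity S
      have h2 : (p * 3 ^ a * 2 ^ b).factorization p = 1 := by
        rw [mul_assoc, Nat.factorization_mul hp.ne_zero
          (mul_ne_zero (pow_ne_zero _ (by norm_num)) (pow_ne_zero _ (by norm_num))),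
          Finsupp.add_apply, Nat.factorization_eq_zero_of_not_dvd hpn, hp.factorization_self]
      rw [hG, h2, pow_one] at h1
      exact h1
    have hSeq : Subgroup.zpowers x = (S : Subgroup G) :=
      Subgroup.eq_of_le_of_card_ge hS (by rw [hcardS, Nat.card_zpowers, hx])
    apply le_antisymm _ hzle
    intro y hy
    have hyS : y ∈ Subgroup.centralizer (S : Set G) := by
      rw [Subgroup.mem_centralizer_iff]
      intro h hh
      have hh2 : h ∈ (S : Subgroup G) := hh
      have hh' : h ∈ Subgroup.zpowers x := by rw [hSeq]; exact hh2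
      obtain ⟨k, rfl⟩ := Subgroup.mem_zpowers_iff.mp hh'
      have hc : Commute x y := Subgroup.mem_centralizer_iff.mp hy x rfl
      exact (hc.zpow_left k).eq
    rw [hres] at hyS
    rw [hSeq]
    exact hyS

end Cfsg.Agent.S1001
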