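import Mathlib
import Cfsg.Statements.S1002
import Cfsg.Agent.Lib.Helper17.Simple
import Cfsg.Agent.Lib.Helper17.Small
import Cfsg.Agent.Lib.Helper17.Count
import Cfsg.Agent.Lib.Helper17.PrimeSylow

set_option autoImplicit false
open Cfsg

namespace Cfsg.Agent.S1002

open Cfsg.Agent.Lib.Helper17

section main

variable {G : Type*} [Group G] [Finite G] [IsSimpleGroup G]

/-- Sylow `409`-data in a simple group of order `1004913` -/
theorem syl409 [Fact (Nat.Prime 409)] (hG : Nat.card G = 1004913) (Q : Sylow 409 G) :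
    Nat.card (Q : Subgroup G) = 409 ∧ Nat.card (Sylow 409 G) = 819 ∧
    Nat.card (Subgroup.normalizer ((Q : Subgroup G) : Set G)) = 1227 ∧
    Nat.card (Subgroup.centralizer ((Q : Subgroup G) : Set G)) = 409 := by
  have hGn : ¬ (Nat.card G).Prime := by rw [hG]; norm_num
  have hQ : Nat.card (Q : Subgroup G) = 409 := by
    simpa using card_sylow_eq_of_card_eq 409 1 2457 (by rw [hG]; norm_num) (by norm_num) Q
  have hn : Nat.card (Sylow 409 G) = 819 := by
    have hc := card_sylow_mem_cands (G := G) 409 1 2457 (by rw [hG]; norm_num) (by norm_num)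
    have hcl : sylowCands 409 2457 = [1, 819] := by decide +kernel
    rw [hcl] at hc
    have h3 : Nat.card (Sylow 409 G) ≠ 1 :=
      card_sylow_ne_one 409 (by rw [hG]; norm_num) 3 (by norm_num) (by norm_num)
        (by rw [hG]; norm_num)
    simp only [List.mem_cons, List.not_mem_nil, or_false] at hc
    omega
  have hN : Nat.card (Subgroup.normalizer ((Q : Subgroup G) : Set G)) = 1227 := by
    have h4 := card_sylow_mul_card_normalizer 409 Q
    rw [hn, hG] at h4
    omega
  refine ⟨hQ, hn, hN, ?_⟩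
  obtain ⟨hr1, hr2, hr3, hPC⟩ := relIndex_centralizer_sylow_prime hGn 409 Q hQ
  rw [hN] at hr3
  have h409 : 409 ∣ Nat.card (Subgroup.centralizer ((Q : Subgroup G) : Set G)) := by
    have := Subgroup.card_dvd_of_le hPC
    rwa [hQ] at this
  obtain ⟨r, hr⟩ : ∃ r, r = (Subgroup.centralizer ((Q : Subgroup G) : Set G)).relIndex
      (Subgroup.normalizer ((Q : Subgroup G) : Set G)) := ⟨_, rfl⟩
  rw [← hr] at hr1 hr2 hr3
  obtain ⟨c, hc⟩ := h409
  rw [hc] at hr3 ⊢
  have h1 : r * c = 3 := by
    have h2 : 409 * (r * c) = 409 * 3 := by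
      calc 409 * (r * c) = r * (409 * c) := by ring
        _ = 409 * 3 := by rw [hr3]
    exact Nat.eq_of_mul_eq_mul_left (by norm_num) h2
  have h408 : r ∣ 408 := by simpa using hr2
  have h3 : r ∣ 3 := Dvd.intro _ h1
  have hr3' : r ≤ 3 := Nat.le_of_dvd (by norm_num) h3
  have hc1 : c = 1 := by
    interval_cases r
    · omega
    · exact absurd rfl hr1
    · omega
    · omega
  rw [hc1]

/-- no element of order `409` normalizes a Sylow subgroup of smaller prime order -/
theorem not_dvd_card_normalizer [Fact (Nat.Prime 409)] (hG : Nat.card G = 1004913) (p : ℕ)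
    [Fact p.Prime] (hp : p < 409) (P : Sylow p G) (hP : Nat.card (P : Subgroup G) = p) :
    ¬ 409 ∣ Nat.card (Subgroup.normalizer ((P : Subgroup G) : Set G)) := by
  intro h
  have hpp : p.Prime := Fact.out
  obtain ⟨hr2, hr3⟩ := relIndex_centralizer_of_card_prime p (P : Subgroup G) hP
  obtain ⟨r, hr⟩ : ∃ r, r = (Subgroup.centralizer ((P : Subgroup G) : Set G)).relIndex
      (Subgroup.normalizer ((P : Subgroup G) : Set G)) := ⟨_, rfl⟩
  rw [← hr] at hr2 hr3
  rw [← hr3] at h
  have hc : 409 ∣ Nat.card (Subgroup.centralizer ((P : Subgroup G) : Set G)) := by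
    rcases (Nat.Prime.dvd_mul (by norm_num : Nat.Prime 409)).mp h with h1 | h1
    · exfalso
      have h2 := hpp.two_le
      have h3 : r ≤ p - 1 := Nat.le_of_dvd (by omega) hr2
      have h4 : r ≠ 0 := by
        rintro rfl
        rw [zero_mul] at hr3
        have := Nat.card_pos (α := ↥(Subgroup.normalizer ((P : Subgroup G) : Set G)))
        omega
      have h5 := Nat.le_of_dvd (Nat.pos_of_ne_zero h4) h1
      omega
    · exact h1
  obtain ⟨z, hz⟩ := exists_prime_orderOf_dvd_card'
    (G := ↥(Subgroup.centralizer ((P : Subgroup G) : Set G))) 409 hc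
  have hz' : orderOf (z : G) = 409 := by rw [Subgroup.orderOf_coe, hz]
  obtain ⟨w, hw⟩ := exists_prime_orderOf_dvd_card' (G := ↥(P : Subgroup G)) p (by rw [hP])
  have hw' : orderOf (w : G) = p := by rw [Subgroup.orderOf_coe, hw]
  have hcomm : (w : G) * (z : G) = (z : G) * (w : G) :=
    Subgroup.mem_centralizer_iff.mp z.2 (w : G) w.2
  have hpg : IsPGroup 409 (Subgroup.zpowers (z : G)) := by
    apply IsPGroup.of_card (n := 1)
    rw [Nat.card_zpowers, hz', pow_one]
  obtain ⟨Q, hQ⟩ := hpg.exists_le_sylow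
  obtain ⟨hQc, -, -, hQC⟩ := syl409 hG Q
  have hQeq : Subgroup.zpowers (z : G) = (Q : Subgroup G) := by
    apply Subgroup.eq_of_le_of_card_ge hQ
    rw [Nat.card_zpowers, hz', hQc]
  have hwC : (w : G) ∈ Subgroup.centralizer ((Q : Subgroup G) : Set G) := by
    rw [Subgroup.mem_centralizer_iff]
    intro y hy
    have hy' : y ∈ Subgroup.zpowers (z : G) := by rw [hQeq]; exact hy
    obtain ⟨k, rfl⟩ := Subgroup.mem_zpowers_iff.mp hy'
    have hc2 : Commute (w : G) (z : G) := hcomm
    exact ((hc2.zpow_right k).eq).symm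
  have h1 := Subgroup.orderOf_dvd_natCard _ hwC
  rw [hw', hQC] at h1
  rcases (Nat.dvd_prime (by norm_num : Nat.Prime 409)).mp h1 with h2 | h2
  · exact hpp.one_lt.ne' h2
  · omega

/-- the number of Sylow `13`-subgroups -/
theorem card_sylow13 [Fact (Nat.Prime 409)] [Fact (Nat.Prime 13)] (hG : Nat.card G = 1004913) :
    Nat.card (Sylow 13 G) = 25767 := by
  obtain ⟨P⟩ := (Sylow.nonempty : Nonempty (Sylow 13 G))
  have hP : Nat.card (P : Subgroup G) = 13 := by
    simpa using card_sylow_eq_of_card_eq 13 1 77301 (by rw [hG]; norm_num) (by norm_num) P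
  have hdvd := card_sylow_dvd_of_card_eq (G := G) 13 1 77301 (by rw [hG]; norm_num)
  have hmod := card_sylow_mod (G := G) 13
  have hN := card_sylow_mul_card_normalizer 13 P
  rw [hG] at hN
  have h409 := not_dvd_card_normalizer hG 13 (by norm_num) P hP
  obtain ⟨n, hn⟩ : ∃ n, n = Nat.card (Sylow 13 G) := ⟨_, rfl⟩
  rw [← hn] at hdvd hmod hN ⊢
  have h1 : 409 ∣ n := by
    have h2 : 409 ∣ n * Nat.card (Subgroup.normalizer ((P : Subgroup G) : Set G)) := by
      rw [hN]; norm_num
    rcases (Nat.Prime.dvd_mul (by norm_num : Nat.Prime 409)).mp h2 with h3 | h3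
    · exact h3
    · exact absurd h3 h409
  obtain ⟨k, hk⟩ := h1
  have hk189 : k ∣ 189 := by
    have h2 : 409 * k ∣ 409 * 189 := by
      rw [← hk]; norm_num; exact hdvd
    exact Nat.dvd_of_mul_dvd_mul_left (by norm_num) h2
  have hkle : k ≤ 189 := Nat.le_of_dvd (by norm_num) hk189
  interval_cases k <;> omega

/-- the number of Sylow `7`-subgroups -/
theorem card_sylow7 [Fact (Nat.Prime 409)] [Fact (Nat.Prime 7)] (hG : Nat.card G = 1004913) :
    Nat.card (Sylow 7 G) = 47853 := by
  obtain ⟨P⟩ := (Sylow.nonempty : Nonempty (Sylow 7 G))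
  have hP : Nat.card (P : Subgroup G) = 7 := by
    simpa using card_sylow_eq_of_card_eq 7 1 143559 (by rw [hG]; norm_num) (by norm_num) P
  have hdvd := card_sylow_dvd_of_card_eq (G := G) 7 1 143559 (by rw [hG]; norm_num)
  have hmod := card_sylow_mod (G := G) 7
  have hN := card_sylow_mul_card_normalizer 7 P
  rw [hG] at hN
  have h409 := not_dvd_card_normalizer hG 7 (by norm_num) P hP
  obtain ⟨n, hn⟩ : ∃ n, n = Nat.card (Sylow 7 G) := ⟨_, rfl⟩
  rw [← hn] at hdvd hmod hN ⊢
  have h1 : 409 ∣ n := by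
    have h2 : 409 ∣ n * Nat.card (Subgroup.normalizer ((P : Subgroup G) : Set G)) := by
      rw [hN]; norm_num
    rcases (Nat.Prime.dvd_mul (by norm_num : Nat.Prime 409)).mp h2 with h3 | h3
    · exact h3
    · exact absurd h3 h409
  obtain ⟨k, hk⟩ := h1
  have hk351 : k ∣ 351 := by
    have h2 : 409 * k ∣ 409 * 351 := by
      rw [← hk]; norm_num; exact hdvd
    exact Nat.dvd_of_mul_dvd_mul_left (by norm_num) h2
  have hkle : k ≤ 351 := Nat.le_of_dvd (by norm_num) hk351
  interval_cases k <;> omega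

/-- an element of order `3` does not centralize a Sylow `409`-subgroup -/
theorem not_mem_centralizer409 [Fact (Nat.Prime 409)] (hG : Nat.card G = 1004913)
    (Q : Sylow 409 G) (x : G) (hx : orderOf x = 3) :
    x ∉ Subgroup.centralizer ((Q : Subgroup G) : Set G) := by
  intro hmem
  obtain ⟨-, -, -, hC⟩ := syl409 hG Q
  have h := Subgroup.orderOf_dvd_natCard _ hmem
  rw [hx, hC] at h
  norm_num at h

/-- an element of order `3` normalizing a Sylow `409`-subgroup normalizes at most three -/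
theorem fix_le_three [Fact (Nat.Prime 409)] (hG : Nat.card G = 1004913) (Q : Sylow 409 G)
    (x : G) (hx : orderOf x = 3)
    (hxN : x ∈ Subgroup.normalizer ((Q : Subgroup G) : Set G)) :
    Set.ncard {Q' : Sylow 409 G | x • Q' = Q'} ≤ 3 := by
  classical
  obtain ⟨hQ, hn, hN, hC⟩ := syl409 hG Q
  have hxC := not_mem_centralizer409 hG Q x hx
  have : Fintype (Sylow 409 G) := Fintype.ofFinite _
  have : Fintype (Q : Subgroup G) := Fintype.ofFinite _
  have hQfix : ∀ y : G, y ∈ (Q : Subgroup G) → y • Q = Q := fun y hy =>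
    Sylow.smul_eq_iff_mem_normalizer.mpr (Subgroup.le_normalizer hy)
  have key : ∀ (Q' : Sylow 409 G) (z : G), z ∈ (Q : Subgroup G) → Q' ≠ Q → x • Q' = Q' →
      x • (z • Q') = z • Q' → z = 1 := by
    intro Q' z hz hQ'Q h1 h2
    by_contra hz1
    have h3 : (z⁻¹ * x * z) • Q' = Q' := by
      rw [mul_smul, mul_smul, h2, inv_smul_smul]
    have h1' : x⁻¹ • Q' = Q' := by
      nth_rewrite 1 [← h1]
      rw [inv_smul_smul]
    have h4 : (x⁻¹ * (z⁻¹ * x * z)) • Q' = Q' := by
      rw [mul_smul, h3, h1']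
    obtain ⟨w, hw⟩ : ∃ w, w = x⁻¹ * (z⁻¹ * x * z) := ⟨_, rfl⟩
    rw [← hw] at h4
    have hwN : w ∈ Subgroup.normalizer ((Q' : Subgroup G) : Set G) :=
      Sylow.smul_eq_iff_mem_normalizer.mp h4
    have hwQ : w ∈ (Q : Subgroup G) := by
      have h5 : w = (x⁻¹ * z⁻¹ * x⁻¹⁻¹) * z := by rw [hw]; group
      rw [h5]
      apply Subgroup.mul_mem _ _ hz
      exact (Subgroup.mem_normalizer_iff.mp (Subgroup.inv_mem _ hxN) z⁻¹).mp
        (Subgroup.inv_mem _ hz)
    have hw1 : w = 1 := by
      by_contra hw1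
      have how : orderOf w = 409 :=
        orderOf_eq_of_mem_of_card_prime (by norm_num) (Q : Subgroup G) hQ w hwQ hw1
      have h8 : w ∈ (Q' : Subgroup G) :=
        mem_sylow_of_mem_normalizer_of_orderOf 409 Q' w hwN 1 (by rw [how]; norm_num)
      have h10 := inf_eq_bot_of_sylow_prime 409 Q Q' hQ (Ne.symm hQ'Q)
      have h11 : w ∈ (Q : Subgroup G) ⊓ (Q' : Subgroup G) := ⟨hwQ, h8⟩
      rw [h10, Subgroup.mem_bot] at h11
      exact hw1 h11
    have hcomm : x * z = z * x := by
      have h5 : x * z = z * x * w := by rw [hw]; group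
      rw [h5, hw1, mul_one]
    apply hxC
    have hgen := zpowers_eq_of_mem_of_card_prime (by norm_num : Nat.Prime 409)
      (Q : Subgroup G) hQ z hz hz1
    rw [Subgroup.mem_centralizer_iff]
    intro y hy
    have hy' : y ∈ Subgroup.zpowers z := by rw [hgen]; exact hy
    obtain ⟨k, rfl⟩ := Subgroup.mem_zpowers_iff.mp hy'
    have hcw : Commute x z := hcomm
    exact ((hcw.zpow_right k).eq).symm
  obtain ⟨F, hF⟩ : ∃ F : Finset (Sylow 409 G),
      F = Finset.univ.filter (fun Q' => x • Q' = Q') := ⟨_, rfl⟩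
  have hFmem : ∀ Q', Q' ∈ F ↔ x • Q' = Q' := by
    intro Q'; rw [hF, Finset.mem_filter]; simp
  have hQF : Q ∈ F := (hFmem Q).mpr (Sylow.smul_eq_iff_mem_normalizer.mpr hxN)
  have hcardS : Fintype.card (Sylow 409 G) = 819 := by rw [← Nat.card_eq_fintype_card, hn]
  have hcardQ : Fintype.card (Q : Subgroup G) = 409 := by rw [← Nat.card_eq_fintype_card, hQ]
  have hle : ((F.erase Q) ×ˢ (Finset.univ : Finset (Q : Subgroup G))).card ≤
      ((Finset.univ : Finset (Sylow 409 G)).erase Q).card := by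
    apply Finset.card_le_card_of_injOn (fun y => (y.2 : G) • y.1)
    · intro y hy
      have hy' := Finset.mem_product.mp (Finset.mem_coe.mp hy)
      have hy1 := Finset.mem_erase.mp hy'.1
      apply Finset.mem_coe.mpr
      apply Finset.mem_erase.mpr
      refine ⟨?_, Finset.mem_univ _⟩
      intro h
      apply hy1.1
      have h2 := congrArg (fun Q' => (y.2 : G)⁻¹ • Q') h
      simp only [inv_smul_smul] at h2
      rw [h2, hQfix _ (Subgroup.inv_mem _ y.2.2)]
    · intro y hy y' hy' hyy'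
      have hy1 := Finset.mem_erase.mp (Finset.mem_product.mp (Finset.mem_coe.mp hy)).1
      have hy1' := Finset.mem_erase.mp (Finset.mem_product.mp (Finset.mem_coe.mp hy')).1
      have hyy'' : (y.2 : G) • y.1 = (y'.2 : G) • y'.1 := hyy'
      have h1 : y'.1 = ((y'.2 : G)⁻¹ * (y.2 : G)) • y.1 := by
        rw [mul_smul, hyy'', inv_smul_smul]
      have hz : (y'.2 : G)⁻¹ * (y.2 : G) ∈ (Q : Subgroup G) :=
        Subgroup.mul_mem _ (Subgroup.inv_mem _ y'.2.2) y.2.2
      have h2 : (y'.2 : G)⁻¹ * (y.2 : G) = 1 := by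
        apply key y.1 _ hz hy1.1 ((hFmem _).mp hy1.2)
        rw [← h1]; exact (hFmem _).mp hy1'.2
      have h3 : y.2 = y'.2 := Subtype.ext (inv_mul_eq_one.mp h2).symm
      have h4 : y.1 = y'.1 := by
        rw [h1, h2, one_smul]
      exact Prod.ext h4 h3
  rw [Finset.card_product, Finset.card_univ, hcardQ, Finset.card_erase_of_mem (Finset.mem_univ _),
    Finset.card_univ, hcardS, Finset.card_erase_of_mem hQF] at hle
  have hFpos : 0 < F.card := Finset.card_pos.mpr ⟨Q, hQF⟩
  have hFs : Set.ncard {Q' : Sylow 409 G | x • Q' = Q'} = F.card := by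
    rw [← Set.ncard_coe_finset F]
    congr 1
    ext Q'
    simp [hFmem]
  rw [hFs]
  omega

/-- the centralizer of such an element has order at most `9` -/
theorem card_centralizer_le [Fact (Nat.Prime 409)] (hG : Nat.card G = 1004913) (Q : Sylow 409 G)
    (x : G) (hx : orderOf x = 3)
    (hxN : x ∈ Subgroup.normalizer ((Q : Subgroup G) : Set G)) :
    Nat.card (Subgroup.centralizer ({x} : Set G)) ≤ 9 := by
  classical
  obtain ⟨hQ, hn, hN, hC⟩ := syl409 hG Q
  have hxC := not_mem_centralizer409 hG Q x hx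
  have : Fintype G := Fintype.ofFinite _
  have : Fintype (Sylow 409 G) := Fintype.ofFinite _
  obtain ⟨C, hCdef⟩ : ∃ C : Subgroup G, C = Subgroup.centralizer ({x} : Set G) := ⟨_, rfl⟩
  rw [← hCdef]
  have hCmem : ∀ g : G, g ∈ C ↔ x * g = g * x := by
    intro g
    rw [hCdef, Subgroup.mem_centralizer_iff]
    constructor
    · intro h; exact h x rfl
    · intro h y hy
      rw [Set.mem_singleton_iff] at hy
      rw [hy]; exact h
  obtain ⟨K, hK⟩ : ∃ K : Subgroup G,
      K = Subgroup.normalizer ((Q : Subgroup G) : Set G) ⊓ C := ⟨_, rfl⟩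
  have hxK : x ∈ K := by
    rw [hK]; exact ⟨hxN, (hCmem x).mpr rfl⟩
  have hKcard : Nat.card K = 3 := by
    have h1 : Nat.card K ∣ 1227 := by
      rw [← hN, hK]; exact Subgroup.card_dvd_of_le inf_le_left
    have h2 : 3 ∣ Nat.card K := by
      rw [← hx]; exact Subgroup.orderOf_dvd_natCard K hxK
    have h3 : ¬ 409 ∣ Nat.card K := by
      intro h409
      obtain ⟨y, hy⟩ := exists_prime_orderOf_dvd_card' (G := K) 409 h409
      have hy' : orderOf (y : G) = 409 := by rw [Subgroup.orderOf_coe, hy]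
      have hyK : (y : G) ∈ Subgroup.normalizer ((Q : Subgroup G) : Set G) ⊓ C := by
        rw [← hK]; exact y.2
      have hyQ : (y : G) ∈ (Q : Subgroup G) :=
        mem_sylow_of_mem_normalizer_of_orderOf 409 Q (y : G) hyK.1 1 (by rw [hy']; norm_num)
      have hy1 : (y : G) ≠ 1 := by
        intro h
        rw [h, orderOf_one] at hy'
        norm_num at hy'
      have hgen := zpowers_eq_of_mem_of_card_prime (by norm_num : Nat.Prime 409)
        (Q : Subgroup G) hQ _ hyQ hy1
      apply hxC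
      rw [Subgroup.mem_centralizer_iff]
      intro u hu
      have hu' : u ∈ Subgroup.zpowers (y : G) := by rw [hgen]; exact hu
      obtain ⟨k, rfl⟩ := Subgroup.mem_zpowers_iff.mp hu'
      have hcw : Commute x (y : G) := (hCmem _).mp hyK.2
      exact ((hcw.zpow_right k).eq).symm
    obtain ⟨k, hk⟩ : ∃ k, k = Nat.card K := ⟨_, rfl⟩
    rw [← hk] at h1 h2 h3 ⊢
    obtain ⟨m, hm⟩ := h2
    rw [hm] at h1 h3 ⊢
    have h5 : m ∣ 409 :=
      Nat.dvd_of_mul_dvd_mul_left (by norm_num : 0 < 3) (show 3 * m ∣ 3 * 409 from h1)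
    rcases (Nat.dvd_prime (by norm_num : Nat.Prime 409)).mp h5 with h6 | h6
    · rw [h6]
    · exfalso
      apply h3
      rw [h6]
      norm_num
  have hF3 := fix_le_three hG Q x hx hxN
  obtain ⟨F, hF⟩ : ∃ F : Finset (Sylow 409 G),
      F = Finset.univ.filter (fun Q' => x • Q' = Q') := ⟨_, rfl⟩
  have hFmem : ∀ Q', Q' ∈ F ↔ x • Q' = Q' := by
    intro Q'; rw [hF, Finset.mem_filter]; simp
  have hFcard : F.card ≤ 3 := by
    have h1 : Set.ncard {Q' : Sylow 409 G | x • Q' = Q'} = F.card := by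
      rw [← Set.ncard_coe_finset F]
      congr 1
      ext Q'
      simp [hFmem]
    rw [← h1]; exact hF3
  obtain ⟨Cfin, hCfin⟩ : ∃ Cfin : Finset G, Cfin = Finset.univ.filter (fun g => g ∈ C) :=
    ⟨_, rfl⟩
  obtain ⟨Kfin, hKfin⟩ : ∃ Kfin : Finset G, Kfin = Finset.univ.filter (fun g => g ∈ K) :=
    ⟨_, rfl⟩
  have hCfmem : ∀ g, g ∈ Cfin ↔ g ∈ C := by
    intro g; rw [hCfin, Finset.mem_filter]; simp
  have hKfmem : ∀ g, g ∈ Kfin ↔ g ∈ K := by
    intro g; rw [hKfin, Finset.mem_filter]; simp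
  have hCcard : Nat.card C = Cfin.card := by
    rw [Nat.card_eq_fintype_card]
    exact Fintype.card_of_subtype Cfin hCfmem
  have hKcard' : Kfin.card = 3 := by
    rw [← hKcard, Nat.card_eq_fintype_card]
    exact (Fintype.card_of_subtype Kfin hKfmem).symm
  have hbound : Cfin.card ≤ 3 * F.card := by
    apply Finset.card_le_mul_card_image_of_maps_to (f := fun g : G => g • Q)
    · intro g hg
      rw [hFmem]
      have hg2 : x * g = g * x := (hCmem g).mp ((hCfmem g).mp hg)
      rw [← mul_smul, hg2, mul_smul, Sylow.smul_eq_iff_mem_normalizer.mpr hxN]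
    · intro Q' hQ'
      by_cases hempty : (Cfin.filter (fun a => a • Q = Q')) = ∅
      · rw [hempty]; simp
      · obtain ⟨g₀, hg₀⟩ := Finset.nonempty_iff_ne_empty.mpr hempty
        rw [Finset.mem_filter] at hg₀
        rw [← hKcard']
        apply Finset.card_le_card_of_injOn (fun y => g₀⁻¹ * y)
        · intro y hy
          have hy' := Finset.mem_filter.mp (Finset.mem_coe.mp hy)
          apply Finset.mem_coe.mpr
          rw [hKfmem, hK]
          refine ⟨?_, ?_⟩
          · apply Sylow.smul_eq_iff_mem_normalizer.mp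
            rw [mul_smul, hy'.2, ← hg₀.2, inv_smul_smul]
          · exact Subgroup.mul_mem _ (Subgroup.inv_mem _ ((hCfmem _).mp hg₀.1))
              ((hCfmem _).mp hy'.1)
        · intro y _ y' _ hyy'
          exact mul_left_cancel hyy'
  rw [hCcard]
  omega

/-- the class of such an element has at least `111657` elements -/
theorem card_class_ge [Fact (Nat.Prime 409)] (hG : Nat.card G = 1004913) (Q : Sylow 409 G)
    (x : G) (hx : orderOf x = 3)
    (hxN : x ∈ Subgroup.normalizer ((Q : Subgroup G) : Set G)) :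
    111657 ≤ Nat.card {h : G // IsConj x h} := by
  have h1 := card_isConj_mul_card_centralizer x
  rw [hG] at h1
  have h2 := card_centralizer_le hG Q x hx hxN
  by_contra h
  push Not at h
  have h3 : Nat.card {h : G // IsConj x h} * Nat.card (Subgroup.centralizer ({x} : Set G)) ≤
      111656 * 9 := Nat.mul_le_mul (by omega) h2
  omega

end main

/-- No finite simple group has order 1004913 = 3^3 * 7 * 13 * 409. -/
theorem result {G : Type*} [Group G] [Finite G] [IsSimpleGroup G] : Nat.card G ≠ 1004913 := by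
  intro hG
  classical
  have : Fact (Nat.Prime 409) := ⟨by norm_num⟩
  have : Fact (Nat.Prime 13) := ⟨by norm_num⟩
  have : Fact (Nat.Prime 7) := ⟨by norm_num⟩
  have : Fintype G := Fintype.ofFinite _
  obtain ⟨Q⟩ := (Sylow.nonempty : Nonempty (Sylow 409 G))
  obtain ⟨hQ, hn409, hN, hC⟩ := syl409 hG Q
  -- an element of order `3` in `N(Q)`
  obtain ⟨x0, hx0⟩ := exists_prime_orderOf_dvd_card'
    (G := ↥(Subgroup.normalizer ((Q : Subgroup G) : Set G))) 3 (by rw [hN]; norm_num)
  obtain ⟨x, hxdef⟩ : ∃ x : G, x = (x0 : G) := ⟨_, rfl⟩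
  have hxo : orderOf x = 3 := by rw [hxdef, Subgroup.orderOf_coe, hx0]
  have hxN : x ∈ Subgroup.normalizer ((Q : Subgroup G) : Set G) := by rw [hxdef]; exact x0.2
  -- the sets of elements of given order
  obtain ⟨A, hA⟩ : ∃ A : ℕ → Finset G,
      A = fun p => Finset.univ.filter (fun g => orderOf g = p) := ⟨_, rfl⟩
  have hAmem : ∀ p g, g ∈ A p ↔ orderOf g = p := by
    intro p g; rw [hA, Finset.mem_filter]; simp
  have hAcard : ∀ p, Nat.card {g : G // orderOf g = p} = (A p).card := by
    intro p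
    rw [Nat.card_eq_fintype_card]
    exact Fintype.card_of_subtype (A p) (hAmem p)
  have h409 : (A 409).card = 334152 := by
    rw [← hAcard, card_orderOf_eq_prime 409 Q hQ, hn409]
  obtain ⟨P13⟩ := (Sylow.nonempty : Nonempty (Sylow 13 G))
  have hP13 : Nat.card (P13 : Subgroup G) = 13 := by
    simpa using card_sylow_eq_of_card_eq 13 1 77301 (by rw [hG]; norm_num) (by norm_num) P13
  have h13 : (A 13).card = 309204 := by
    rw [← hAcard, card_orderOf_eq_prime 13 P13 hP13, card_sylow13 hG]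
  obtain ⟨P7⟩ := (Sylow.nonempty : Nonempty (Sylow 7 G))
  have hP7 : Nat.card (P7 : Subgroup G) = 7 := by
    simpa using card_sylow_eq_of_card_eq 7 1 143559 (by rw [hG]; norm_num) (by norm_num) P7
  have h7 : (A 7).card = 287118 := by
    rw [← hAcard, card_orderOf_eq_prime 7 P7 hP7, card_sylow7 hG]
  have h3 : 111657 ≤ (A 3).card := by
    have h1 := card_class_ge hG Q x hxo hxN
    obtain ⟨T, hT⟩ : ∃ T : Finset G, T = Finset.univ.filter (fun h => IsConj x h) := ⟨_, rfl⟩
    have hTmem : ∀ h, h ∈ T ↔ IsConj x h := by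
      intro h; rw [hT, Finset.mem_filter]; simp
    rw [Nat.card_eq_fintype_card, Fintype.card_of_subtype T hTmem] at h1
    refine h1.trans (Finset.card_le_card ?_)
    intro h hh
    rw [hTmem] at hh
    rw [hAmem]
    obtain ⟨c, hc⟩ := hh
    rw [← SemiconjBy.orderOf_eq _ hc]
    exact hxo
  have hdisj : ∀ p q, p ≠ q → Disjoint (A p) (A q) := by
    intro p q hpq
    rw [Finset.disjoint_left]
    intro g hg hg'
    rw [hAmem] at hg hg'
    exact hpq (hg.symm.trans hg')
  have hunion : ((A 409 ∪ A 13) ∪ (A 7 ∪ A 3)).card =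
      (A 409).card + (A 13).card + ((A 7).card + (A 3).card) := by
    rw [Finset.card_union_of_disjoint, Finset.card_union_of_disjoint (hdisj _ _ (by norm_num)),
      Finset.card_union_of_disjoint (hdisj _ _ (by norm_num))]
    rw [Finset.disjoint_union_left, Finset.disjoint_union_right, Finset.disjoint_union_right]
    exact ⟨⟨hdisj _ _ (by norm_num), hdisj _ _ (by norm_num)⟩,
      ⟨hdisj _ _ (by norm_num), hdisj _ _ (by norm_num)⟩⟩
  have hle := Finset.card_le_univ ((A 409 ∪ A 13) ∪ (A 7 ∪ A 3))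
  rw [hunion, ← Nat.card_eq_fintype_card, hG, h409, h13, h7] at hle
  omega

end Cfsg.Agent.S1002
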