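-- Statement S1010: no finite group has exactly 21 Sylow 5-subgroups.
-- Elementary proof on a minimal counterexample G (acting faithfully on its 21 Sylow 5-subgroups):
-- the Sylow 5-subgroups have order 5 and are TI (linear-space count), all of G acts by even
-- permutations; an involution centralizing a Sylow 5-subgroup P normalizes no other one; an
-- involution normalizing two Sylow 5-subgroups is isolated in a Sylow 2-subgroup (dihedral count),
-- which contradicts Glauberman's Z*-theorem (S0215); otherwise Sylow 2-subgroups have order at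
-- most 4 and Burnside's / Thompson's transfer gives a normal subgroup of index 2, or
-- N_G(P) = C_G(P) and Burnside's transfer plus a Sylow 7-subgroup gives a contradiction.
import Cfsg.Statements.S1010
import Cfsg.Agent.S4304
import Cfsg.Agent.S0215
import Cfsg.Agent.Lib.Helper53.Basic

set_option autoImplicit false
open Cfsg

namespace Cfsg.Agent.S1010

open Subgroup MulAction
open scoped Pointwise
open Cfsg.Agent.S4304 (mem_smul_sylow sylow_card_eq sylow_eq_of_le comm_apply pow_apply_of_comm)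


section Five
variable {G : Type*} [Group G] [Finite G] [Fact (Nat.Prime 5)]

/-- the orbit of `Q` under `P` has 5 elements and `[P : P ∩ Q] = 5` -/
theorem relIndex_eq_five (hn : Nat.card (Sylow 5 G) = 21) (P Q : Sylow 5 G) (hPQ : P ≠ Q) :
    (Q : Subgroup G).relIndex P = 5 ∧ (orbit (P : Subgroup G) Q).ncard = 5 := by
  have hstab : stabilizer (P : Subgroup G) Q = (Q : Subgroup G).subgroupOf P := by
    ext u
    rw [mem_stabilizer_iff, Subgroup.mem_subgroupOf, Subgroup.smul_def,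
      Sylow.smul_eq_iff_mem_normalizer]
    constructor
    · intro h
      have h1 : (u : G) ∈ (P : Subgroup G) ⊓ normalizer (Q : Set G) := ⟨u.2, h⟩
      rw [P.isPGroup'.inf_normalizer_sylow Q] at h1
      exact h1.2
    · intro h
      exact Subgroup.le_normalizer h
  have hidx := MulAction.index_stabilizer (P : Subgroup G) Q
  rw [hstab] at hidx
  change (Q : Subgroup G).relIndex P = _ at hidx
  obtain ⟨n, hn5⟩ := P.isPGroup'.card_orbit Q
  rw [Nat.card_coe_set_eq] at hn5
  have hle : (orbit (P : Subgroup G) Q).ncard ≤ 21 := by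
    rw [← hn, ← Set.ncard_univ]
    exact Set.ncard_le_ncard (Set.subset_univ _)
  have hne1 : (Q : Subgroup G).relIndex P ≠ 1 := by
    intro h
    rw [Subgroup.relIndex_eq_one] at h
    exact hPQ (sylow_eq_of_le h)
  rw [hidx, hn5] at hne1
  rw [hn5] at hle
  have hn1 : n = 1 := by
    rcases n with _ | _ | n
    · simp at hne1
    · rfl
    · exfalso
      have : (5:ℕ) ^ 2 ≤ 5 ^ (n + 1 + 1) := Nat.pow_le_pow_right (by norm_num) (by omega)
      omega
  subst hn1
  rw [hidx, hn5]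
  simp

theorem card_inf_mul_five (hn : Nat.card (Sylow 5 G) = 21) (P Q : Sylow 5 G) (hPQ : P ≠ Q) :
    Nat.card ((P : Subgroup G) ⊓ Q : Subgroup G) * 5 = Nat.card P := by
  have h1 := (relIndex_eq_five hn P Q hPQ).1
  have h2 := Subgroup.relIndex_mul_relIndex ⊥ ((P : Subgroup G) ⊓ Q) (P : Subgroup G) bot_le inf_le_left
  rw [Subgroup.relIndex_bot_left, Subgroup.relIndex_bot_left, Subgroup.inf_relIndex_left, h1] at h2
  exact h2

/-- the block through two distinct Sylow subgroups contains the orbit -/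
theorem orbit_subset_block (hn : Nat.card (Sylow 5 G) = 21) (S T : Sylow 5 G) (hST : S ≠ T) :
    insert S (orbit (S : Subgroup G) T) ⊆ {U : Sylow 5 G | (S : Subgroup G) ⊓ T ≤ U} ∧
      S ∉ orbit (S : Subgroup G) T := by
  obtain ⟨h5, horb⟩ := relIndex_eq_five hn S T hST
  have hcardS : Nat.card (S : Subgroup G) = Nat.card ((S : Subgroup G) ⊓ T : Subgroup G) * 5 :=
    (card_inf_mul_five hn S T hST).symm
  have hnorm : (((S : Subgroup G) ⊓ T).subgroupOf S).Normal := by
    apply Subgroup.normal_of_index_eq_minFac_card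
    change ((S : Subgroup G) ⊓ T).relIndex S = _
    rw [Subgroup.inf_relIndex_left, h5]
    obtain ⟨k, hk⟩ := S.isPGroup'.exists_card_eq
    have hk0 : k ≠ 0 := by
      rintro rfl
      rw [pow_zero] at hk
      omega
    rw [hk, Nat.Prime.pow_minFac (by norm_num) hk0]
  constructor
  · intro U hU
    rcases hU with rfl | ⟨u, rfl⟩
    · exact (inf_le_left : (U : Subgroup G) ⊓ T ≤ U)
    · intro d hd
      change d ∈ ((u • T : Sylow 5 G))
      rw [Subgroup.smul_def, mem_smul_sylow]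
      have hdS : d ∈ (S : Subgroup G) := hd.1
      have := hnorm.conj_mem ⟨d, hdS⟩ (by rw [Subgroup.mem_subgroupOf]; exact hd) u⁻¹
      rw [Subgroup.mem_subgroupOf] at this
      have h2 := this.2
      simpa using h2
  · rintro ⟨u, hu⟩
    apply hST
    have : (u : G) • T = S := by rw [← Subgroup.smul_def]; exact hu
    have h2 : T = (u : G)⁻¹ • S := eq_inv_smul_iff.mpr this
    rw [h2]
    symm
    rw [Sylow.smul_eq_iff_mem_normalizer]
    exact Subgroup.le_normalizer (inv_mem u.2)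

theorem six_le_block (hn : Nat.card (Sylow 5 G) = 21) (S T : Sylow 5 G) (hST : S ≠ T) :
    6 ≤ {U : Sylow 5 G | (S : Subgroup G) ⊓ T ≤ U}.ncard := by
  obtain ⟨hsub, hnot⟩ := orbit_subset_block hn S T hST
  obtain ⟨h5, horb⟩ := relIndex_eq_five hn S T hST
  calc 6 = (insert S (orbit (S : Subgroup G) T)).ncard := by
        rw [Set.ncard_insert_of_notMem hnot, horb]
    _ ≤ _ := Set.ncard_le_ncard hsub

theorem block_inter (hn : Nat.card (Sylow 5 G) = 21) (S T U V : Sylow 5 G) (hST : S ≠ T)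
    (hUV : U ≠ V) (hU : (S : Subgroup G) ⊓ T ≤ U) (hV : (S : Subgroup G) ⊓ T ≤ V) :
    (U : Subgroup G) ⊓ V = (S : Subgroup G) ⊓ T := by
  symm
  apply Subgroup.eq_of_le_of_card_ge (le_inf hU hV)
  have h1 := card_inf_mul_five hn S T hST
  have h2 := card_inf_mul_five hn U V hUV
  have h3 : Nat.card (S : Subgroup G) = Nat.card (U : Subgroup G) := sylow_card_eq S U
  omega

/-- the intersection of two distinct Sylow 5-subgroups lies in every Sylow 5-subgroup -/
theorem inter_le_all (hn : Nat.card (Sylow 5 G) = 21) (P Q R : Sylow 5 G) (hPQ : P ≠ Q) :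
    (P : Subgroup G) ⊓ Q ≤ R := by
  classical
  by_contra hR
  let _ : Fintype (Sylow 5 G) := Fintype.ofFinite _
  set B : Finset (Sylow 5 G) := Finset.univ.filter (fun U => (P : Subgroup G) ⊓ Q ≤ U) with hB
  have hBmem : ∀ U, U ∈ B ↔ (P : Subgroup G) ⊓ Q ≤ U := by intro U; simp [hB]
  have hBR : ∀ U ∈ B, R ≠ U := by
    rintro U hU rfl
    exact hR ((hBmem _).mp hU)
  have hBcard : 6 ≤ B.card := by
    have h := six_le_block hn P Q hPQ
    have e : {U : Sylow 5 G | (P : Subgroup G) ⊓ Q ≤ U} = (B : Set (Sylow 5 G)) := by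
      ext U; simp [hB]
    rw [e, Set.ncard_coe_finset] at h
    exact h
  let O : Sylow 5 G → Finset (Sylow 5 G) := fun U => (orbit (R : Subgroup G) U).toFinset
  have hOcard : ∀ U ∈ B, (O U).card = 5 := by
    intro U hU
    have h := (relIndex_eq_five hn R U (hBR U hU)).2
    rw [Set.ncard_eq_toFinset_card'] at h
    exact h
  have hdisj : (B : Set (Sylow 5 G)).PairwiseDisjoint O := by
    intro U hU V hV hUV
    have hU' : U ∈ B := Finset.mem_coe.mp hU
    have hV' : V ∈ B := Finset.mem_coe.mp hV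
    change Disjoint (O U) (O V)
    rw [Finset.disjoint_left]
    intro W hW1 hW2
    have hW1' : W ∈ orbit (R : Subgroup G) U := Set.mem_toFinset.mp hW1
    have hW2' : W ∈ orbit (R : Subgroup G) V := Set.mem_toFinset.mp hW2
    have e1 : orbit (R : Subgroup G) W = orbit (R : Subgroup G) U := orbit_eq_iff.mpr hW1'
    have e2 : orbit (R : Subgroup G) W = orbit (R : Subgroup G) V := orbit_eq_iff.mpr hW2'
    have hV3 : V ∈ orbit (R : Subgroup G) U := by
      rw [← e1, e2]; exact mem_orbit_self V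
    have hsub := (orbit_subset_block hn R U (hBR U hU')).1
    have hVblock : (R : Subgroup G) ⊓ U ≤ V := hsub (Set.mem_insert_of_mem _ hV3)
    have i1 := block_inter hn R U U V (hBR U hU') hUV inf_le_right hVblock
    have i2 := block_inter hn P Q U V hPQ hUV ((hBmem U).mp hU') ((hBmem V).mp hV')
    apply hR
    rw [← i2, i1]
    exact inf_le_left
  have hcard := Finset.card_biUnion hdisj
  rw [Finset.sum_congr rfl hOcard] at hcard
  simp only [Finset.sum_const, smul_eq_mul] at hcard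
  have hle : (B.biUnion O).card ≤ 21 := by
    calc (B.biUnion O).card ≤ Fintype.card (Sylow 5 G) := Finset.card_le_univ _
      _ = 21 := by rw [← Nat.card_eq_fintype_card, hn]
  omega

end Five




section Perm
variable {Ω : Type*} [Fintype Ω] [DecidableEq Ω]

omit [Fintype Ω] [DecidableEq Ω] in
theorem pow_mod5 (x : Equiv.Perm Ω) (hx5 : x ^ 5 = 1) (n : ℕ) : x ^ n = x ^ (n % 5) := by
  conv_lhs => rw [← Nat.div_add_mod n 5, pow_add, pow_mul, hx5, one_pow, one_mul]

omit [Fintype Ω] [DecidableEq Ω] in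
theorem five_dvd_of_fix (x : Equiv.Perm Ω) (α : Ω) (hx5 : x ^ 5 = 1)
    (hfix : ∀ ω, x ω = ω ↔ ω = α) (ω : Ω) (hω : ω ≠ α) (d : ℕ) (hd : (x ^ d) ω = ω) : 5 ∣ d := by
  by_contra h5
  have hr : 0 < d % 5 := Nat.pos_of_ne_zero (fun h => h5 (Nat.dvd_of_mod_eq_zero h))
  have hr5 : d % 5 < 5 := Nat.mod_lt _ (by norm_num)
  have hcop : Nat.Coprime (d % 5) 5 := (Nat.coprime_of_lt_prime hr.ne' hr5 (by norm_num)).symm
  obtain ⟨m, -, hm⟩ := Nat.exists_mul_mod_eq_one_of_coprime hcop (by norm_num)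
  have h1 : (x ^ (d % 5)) ω = ω := by rw [← pow_mod5 x hx5]; exact hd
  have h2 : ((x ^ (d % 5)) ^ m) ω = ω := Equiv.Perm.pow_apply_eq_self_of_apply_eq_self h1 m
  rw [← pow_mul, pow_mod5 x hx5, hm, pow_one] at h2
  exact hω ((hfix ω).mp h2)

/-- an involution-free statement: a 2-element different from 1 has a power of order 2 -/
theorem exists_invol_pow {M : Type*} [Group M] (s : M) (k : ℕ) (hs : s ^ (2 ^ k) = 1)
    (hs1 : s ≠ 1) : ∃ j : ℕ, orderOf (s ^ j) = 2 := by
  have hd := orderOf_dvd_of_pow_eq_one hs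
  obtain ⟨a, -, ha⟩ := (Nat.dvd_prime_pow Nat.prime_two).mp hd
  have ha0 : a ≠ 0 := by
    rintro rfl
    rw [pow_zero, orderOf_eq_one_iff] at ha
    exact hs1 ha
  refine ⟨2 ^ (a - 1), ?_⟩
  rw [orderOf_pow_of_dvd (by positivity) (by rw [ha]; exact pow_dvd_pow 2 (by omega)), ha]
  have : a = (a - 1) + 1 := by omega
  conv_lhs => rw [this, pow_succ]
  exact Nat.mul_div_cancel_left 2 (by positivity)

theorem fix_mod5 [Fact (Nat.Prime 5)] (x z : Equiv.Perm Ω) (α : Ω) (hx5 : x ^ 5 = 1)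
    (hfix : ∀ ω, x ω = ω ↔ ω = α) (hzx : Commute z x) :
    (Finset.univ.filter (fun ω => z ω = ω)).card % 5 = 1 := by
  have hzα : z α = α := by
    rw [← hfix, ← comm_apply hzx, (hfix α).mpr rfl]
  have h : ∀ ω, z (x ω) = x ω ↔ z ω = ω := fun ω => by
    rw [comm_apply hzx]; exact x.injective.eq_iff
  set σ : Equiv.Perm {ω // z ω = ω} := x.subtypePerm h with hσdef
  have hσ : σ ^ 5 ^ 1 = 1 := by
    rw [pow_one, hσdef, Equiv.Perm.subtypePerm_pow]
    ext ⟨ω, hω⟩
    simp [hx5]
  have hmod := Equiv.Perm.card_compl_support_modEq (p := 5) (n := 1) hσ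
  have hs : σ.supportᶜ = {⟨α, hzα⟩} := by
    ext ⟨ω, hω⟩
    simp [hσdef, Equiv.Perm.mem_support, hfix, Subtype.ext_iff]
  rw [hs, Finset.card_singleton, Fintype.card_subtype] at hmod
  exact hmod.symm

theorem eq_one_of_pow_seven [Fact (Nat.Prime 5)] [Fact (Nat.Prime 7)] (hΩ : Fintype.card Ω = 21)
    (x z : Equiv.Perm Ω) (α : Ω) (hx5 : x ^ 5 = 1)
    (hfix : ∀ ω, x ω = ω ↔ ω = α) (hzx : Commute z x) (hz7 : z ^ 7 = 1) : z = 1 := by
  have h5 := fix_mod5 x z α hx5 hfix hzx
  have h7 := Equiv.Perm.card_compl_support_modEq (p := 7) (n := 1) (σ := z) (by simpa using hz7)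
  have hs : z.supportᶜ = Finset.univ.filter (fun ω => z ω = ω) := by ext ω; simp
  rw [hs, hΩ] at h7
  have hle : (Finset.univ.filter (fun ω => z ω = ω)).card ≤ 21 := hΩ ▸ Finset.card_le_univ _
  have h21 : (Finset.univ.filter (fun ω => z ω = ω)).card = 21 := by
    unfold Nat.ModEq at h7; omega
  have huniv : Finset.univ.filter (fun ω => z ω = ω) = Finset.univ :=
    Finset.eq_univ_of_card _ (by rw [h21, hΩ])
  ext ω
  have := Finset.mem_univ ω
  rw [← huniv] at this
  simpa using this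

theorem invol_fix_unique [Fact (Nat.Prime 5)] (hΩ : Fintype.card Ω = 21)
    (x z : Equiv.Perm Ω) (α : Ω) (hx5 : x ^ 5 = 1)
    (hfix : ∀ ω, x ω = ω ↔ ω = α) (hzx : Commute z x) (hz2 : z ^ 2 = 1) (hz1 : z ≠ 1)
    (hsign : Equiv.Perm.sign z = 1) (ω : Ω) (hω : z ω = ω) : ω = α := by
  have : Fact (Nat.Prime 2) := ⟨Nat.prime_two⟩
  have hzα : z α = α := by
    rw [← hfix, ← comm_apply hzx, (hfix α).mpr rfl]
  have h5 := fix_mod5 x z α hx5 hfix hzx
  have h2 := Equiv.Perm.card_compl_support_modEq (p := 2) (n := 1) (σ := z) (by simpa using hz2)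
  have hs : z.supportᶜ = Finset.univ.filter (fun ω => z ω = ω) := by ext ω; simp
  rw [hs, hΩ] at h2
  have hle : (Finset.univ.filter (fun ω => z ω = ω)).card ≤ 21 := hΩ ▸ Finset.card_le_univ _
  have hsg := Equiv.Perm.sign_of_pow_two_eq_one hz2
  have hcf : Fintype.card (Function.fixedPoints z) = (Finset.univ.filter (fun ω => z ω = ω)).card :=
    Fintype.card_of_subtype _ (fun ω => by simp [Function.mem_fixedPoints, Function.IsFixedPt])
  rw [hsign, hcf, hΩ] at hsg
  have hev : Even ((21 - (Finset.univ.filter (fun ω => z ω = ω)).card) / 2) :=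
    (neg_one_pow_eq_one_iff_even (by decide)).mp hsg.symm
  have hcases : (Finset.univ.filter (fun ω => z ω = ω)).card = 1 ∨
      (Finset.univ.filter (fun ω => z ω = ω)).card = 21 := by
    unfold Nat.ModEq at h2
    rcases hev with ⟨m, hm⟩
    omega
  rcases hcases with h1 | h21
  · obtain ⟨a, ha⟩ := Finset.card_eq_one.mp h1
    have m1 : α ∈ Finset.univ.filter (fun ω => z ω = ω) := by simp [hzα]
    have m2 : ω ∈ Finset.univ.filter (fun ω => z ω = ω) := by simp [hω]
    rw [ha, Finset.mem_singleton] at m1 m2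
    rw [m1, m2]
  · exfalso
    apply hz1
    have huniv : Finset.univ.filter (fun ω => z ω = ω) = Finset.univ :=
      Finset.eq_univ_of_card _ (by rw [h21, hΩ])
    ext ω
    have := Finset.mem_univ ω
    rw [← huniv] at this
    simpa using this

theorem dihedral_fix (hΩ : Fintype.card Ω = 21) (x t : Equiv.Perm Ω) (α : Ω) (hx5 : x ^ 5 = 1)
    (hfix : ∀ ω, x ω = ω ↔ ω = α) (htx : t * x * t⁻¹ = x⁻¹) :
    (Finset.univ.filter (fun ω => t ω = ω)).card ≤ 5 ∧
    ((Finset.univ.filter (fun ω => t ω = ω)).card = 5 →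
      ∀ ω, ω ≠ α → ∃ (i : ℕ) (a : Ω), a ≠ α ∧ t a = a ∧ ω = (x ^ i) a) := by
  have hxα : ∀ i, (x ^ i) α = α := fun i =>
    Equiv.Perm.pow_apply_eq_self_of_apply_eq_self ((hfix α).mpr rfl) i
  have hrel : ∀ (i : ℕ) (ω : Ω), t ((x ^ i) ω) = (x ^ i)⁻¹ (t ω) := by
    intro i ω
    have h1 : t * x ^ i * t⁻¹ = (x ^ i)⁻¹ := by
      rw [← conj_pow, htx, inv_pow]
    have h2 : t * x ^ i = (x ^ i)⁻¹ * t := by
      rw [← h1]; group
    have := congrArg (fun f : Equiv.Perm Ω => f ω) h2
    simpa [Equiv.Perm.mul_apply] using this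
  have htα : t α = α := by
    have h := hrel 1 α
    rw [pow_one, (hfix α).mpr rfl] at h
    rw [← hfix]
    have h' := congrArg x h
    simpa using h'
  set F := Finset.univ.filter (fun ω => t ω = ω) with hF
  have hαF : α ∈ F := by simp [hF, htα]
  set A := F.erase α with hA
  have hAcard : A.card = F.card - 1 := Finset.card_erase_of_mem hαF
  have hAmem : ∀ a, a ∈ A ↔ a ≠ α ∧ t a = a := by
    intro a; simp [hA, hF]
  have haux : ∀ i j, i < j → j < 5 → ∀ a ∈ A, ∀ b ∈ A, (x ^ i) a = (x ^ j) b → False := by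
    intro i j hij hj a ha b hb hab
    have h1 : a = (x ^ (j - i)) b := by
      apply (x ^ i).injective
      rw [hab, ← Equiv.Perm.mul_apply, ← pow_add, Nat.add_sub_cancel' hij.le]
    have hta := ((hAmem a).mp ha).2
    have htb := ((hAmem b).mp hb).2
    have hbα := ((hAmem b).mp hb).1
    rw [h1, hrel, htb] at hta
    have h2 : (x ^ (j - i + (j - i))) b = b := by
      rw [pow_add, Equiv.Perm.mul_apply, ← hta]; simp
    have := five_dvd_of_fix x α hx5 hfix b hbα _ h2
    omega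
  set U := (Finset.range 5).biUnion (fun i => A.image (fun a => (x ^ i) a)) with hU
  have hUcard : U.card = 5 * A.card := by
    rw [hU, Finset.card_biUnion]
    · rw [Finset.sum_congr rfl (fun i _ => Finset.card_image_of_injective A (x ^ i).injective)]
      simp
    · intro i hi j hj hij
      have hi' := Finset.mem_range.mp (Finset.mem_coe.mp hi)
      have hj' := Finset.mem_range.mp (Finset.mem_coe.mp hj)
      change Disjoint _ _
      rw [Finset.disjoint_left]
      intro ω h1 h2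
      obtain ⟨a, ha, rfl⟩ := Finset.mem_image.mp h1
      obtain ⟨b, hb, hb'⟩ := Finset.mem_image.mp h2
      rcases lt_or_gt_of_ne hij with h | h
      · exact haux i j h hj' a ha b hb hb'.symm
      · exact haux j i h hi' b hb a ha hb'
  have hUsub : U ⊆ Finset.univ.erase α := by
    intro ω hω
    obtain ⟨i, -, hi⟩ := Finset.mem_biUnion.mp hω
    obtain ⟨a, ha, rfl⟩ := Finset.mem_image.mp hi
    rw [Finset.mem_erase]
    exact ⟨fun h => ((hAmem a).mp ha).1 ((x ^ i).injective (h.trans (hxα i).symm)),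
      Finset.mem_univ _⟩
  have h20 : (Finset.univ.erase α).card = 20 := by
    rw [Finset.card_erase_of_mem (Finset.mem_univ _), Finset.card_univ, hΩ]
  have hle := Finset.card_le_card hUsub
  rw [hUcard, h20] at hle
  have hFpos : 1 ≤ F.card := Finset.card_pos.mpr ⟨α, hαF⟩
  refine ⟨by omega, fun h5 ω hω => ?_⟩
  have hUeq : U = Finset.univ.erase α := by
    apply Finset.eq_of_subset_of_card_le hUsub
    rw [hUcard, h20]; omega
  have hωU : ω ∈ U := by rw [hUeq]; simp [hω]
  obtain ⟨i, -, hi⟩ := Finset.mem_biUnion.mp hωU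
  obtain ⟨a, ha, rfl⟩ := Finset.mem_image.mp hi
  exact ⟨i, a, ((hAmem a).mp ha).1, ((hAmem a).mp ha).2, rfl⟩

theorem invol_isolated [Fact (Nat.Prime 5)] (hΩ : Fintype.card Ω = 21)
    (x t t' : Equiv.Perm Ω) (α : Ω) (hx5 : x ^ 5 = 1)
    (hfix : ∀ ω, x ω = ω ↔ ω = α) (ht2 : t ^ 2 = 1)
    (htx : t * x * t⁻¹ = x⁻¹) (ht'x : t' * x * t'⁻¹ = x⁻¹)
    (hst : Equiv.Perm.sign t = 1) (hst' : Equiv.Perm.sign t' = 1)
    (hft : ∃ ω, ω ≠ α ∧ t ω = ω) (hft' : ∃ ω, ω ≠ α ∧ t' ω = ω)
    (k : ℕ) (hk : (t' * t) ^ (2 ^ k) = 1) : t' = t := by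
  have : Fact (Nat.Prime 2) := ⟨Nat.prime_two⟩
  obtain ⟨hle5, hcov⟩ := dihedral_fix hΩ x t α hx5 hfix htx
  have hxα : ∀ i, (x ^ i) α = α := fun i =>
    Equiv.Perm.pow_apply_eq_self_of_apply_eq_self ((hfix α).mpr rfl) i
  have htinv : t⁻¹ = t := by
    rw [inv_eq_iff_mul_eq_one, ← pow_two, ht2]
  -- t fixes α
  have htα : t α = α := by
    have h2 : t * x = x⁻¹ * t := by rw [← htx]; group
    have h := congrArg (fun f : Equiv.Perm Ω => f α) h2
    simp only [Equiv.Perm.mul_apply, (hfix α).mpr rfl] at h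
    rw [← hfix]
    have h' := congrArg x h
    simpa using h'
  -- |Fix t| = 5
  have h2 := Equiv.Perm.card_compl_support_modEq (p := 2) (n := 1) (σ := t) (by simpa using ht2)
  have hs : t.supportᶜ = Finset.univ.filter (fun ω => t ω = ω) := by ext ω; simp
  rw [hs, hΩ] at h2
  have hsg := Equiv.Perm.sign_of_pow_two_eq_one ht2
  have hcf : Fintype.card (Function.fixedPoints t) = (Finset.univ.filter (fun ω => t ω = ω)).card :=
    Fintype.card_of_subtype _ (fun ω => by simp [Function.mem_fixedPoints, Function.IsFixedPt])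
  rw [hst, hcf, hΩ] at hsg
  have hev : Even ((21 - (Finset.univ.filter (fun ω => t ω = ω)).card) / 2) :=
    (neg_one_pow_eq_one_iff_even (by decide)).mp hsg.symm
  have hge2 : 2 ≤ (Finset.univ.filter (fun ω => t ω = ω)).card := by
    obtain ⟨ω, hωα, hω⟩ := hft
    have : 1 < (Finset.univ.filter (fun ω => t ω = ω)).card :=
      Finset.one_lt_card.mpr ⟨ω, by simp [hω], α, by simp [htα], hωα⟩
    omega
  have hf5 : (Finset.univ.filter (fun ω => t ω = ω)).card = 5 := by
    unfold Nat.ModEq at h2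
    rcases hev with ⟨m, hm⟩
    omega
  obtain ⟨ω', hω'α, hω'⟩ := hft'
  obtain ⟨i, a, haα, hta, rfl⟩ := hcov hf5 ω' hω'α
  -- relation for t'
  have hrel' : t' * x ^ i = (x ^ i)⁻¹ * t' := by
    have h1 : t' * x ^ i * t'⁻¹ = (x ^ i)⁻¹ := by
      rw [← conj_pow, ht'x, inv_pow]
    rw [← h1]; group
  have h3 : t' a = (x ^ (i + i)) a := by
    have h := congrArg (fun f : Equiv.Perm Ω => f a) hrel'
    simp only [Equiv.Perm.mul_apply] at h
    rw [hω'] at h
    rw [pow_add, Equiv.Perm.mul_apply, h]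
    simp
  set z := t' * t with hz
  have hza : z a = (x ^ (i + i)) a := by
    rw [hz, Equiv.Perm.mul_apply, hta, h3]
  have hzx : Commute z x := by
    have e1 : t * x = x⁻¹ * t := by rw [← htx]; group
    have e2 : t' * x⁻¹ = x * t' := by
      have h' : (t' * x * t'⁻¹)⁻¹ = x := by rw [ht'x, inv_inv]
      have h'' : t' * x⁻¹ * t'⁻¹ = x := by
        have e : t' * x⁻¹ * t'⁻¹ = (t' * x * t'⁻¹)⁻¹ := by group
        rw [e, h']
      calc t' * x⁻¹ = (t' * x⁻¹ * t'⁻¹) * t' := by group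
        _ = x * t' := by rw [h'']
    change t' * t * x = x * (t' * t)
    rw [mul_assoc, e1, ← mul_assoc, e2, mul_assoc]
  have h4 := pow_apply_of_comm hzx a (i + i) hza (2 ^ k)
  rw [hk, Equiv.Perm.one_apply] at h4
  have h5 := five_dvd_of_fix x α hx5 hfix a haα _ h4.symm
  have h6 : 5 ∣ i + i :=
    (Nat.Coprime.dvd_of_dvd_mul_right (Nat.Coprime.pow_right k (by norm_num)) h5)
  have hza' : z a = a := by
    rw [hza]
    obtain ⟨q, hq⟩ := h6
    rw [hq, pow_mul, hx5, one_pow]; rfl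
  by_contra hne
  have hz1 : z ≠ 1 := by
    intro h
    apply hne
    have : t' = t⁻¹ := eq_inv_of_mul_eq_one_left h
    rw [this, htinv]
  obtain ⟨j, hj⟩ := exists_invol_pow z k hk hz1
  have hw2 : (z ^ j) ^ 2 = 1 := by rw [← hj]; exact pow_orderOf_eq_one _
  have hw1 : z ^ j ≠ 1 := by
    intro h
    rw [h, orderOf_one] at hj
    omega
  have hsw : Equiv.Perm.sign (z ^ j) = 1 := by
    rw [map_pow, hz, map_mul, hst, hst', one_mul, one_pow]
  have hwa : (z ^ j) a = a := Equiv.Perm.pow_apply_eq_self_of_apply_eq_self hza' j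
  exact haα (invol_fix_unique hΩ x (z ^ j) α hx5 hfix (hzx.pow_left j) hw2 hw1 hsw a hwa)

end Perm



theorem card_dvd_twenty {T : Type*} [Group T] [Finite T] {X : Type*} [Finite X] [MulAction T X]
    (hX : Nat.card X = 21) (x₀ : X) (hfree : ∀ s : T, s ≠ 1 → ∀ x : X, s • x = x ↔ x = x₀) :
    Nat.card T ∣ 20 := by
  classical
  let _ : Fintype T := Fintype.ofFinite T
  let _ : Fintype X := Fintype.ofFinite X
  have hburn := MulAction.sum_card_fixedBy_eq_card_orbits_mul_card_group T X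
  have h1 : Fintype.card (MulAction.fixedBy X (1 : T)) = 21 := by
    rw [← hX, Nat.card_eq_fintype_card]
    apply Fintype.card_of_subtype Finset.univ
    intro x; simp
  have hs : ∀ s : T, s ≠ 1 → Fintype.card (MulAction.fixedBy X s) = 1 := by
    intro s hs1
    apply Fintype.card_of_subtype {x₀}
    intro x; simp [MulAction.mem_fixedBy, hfree s hs1 x]
  rw [← Finset.add_sum_erase Finset.univ _ (Finset.mem_univ (1 : T)), h1,
    Finset.sum_congr rfl (fun s hs' => hs s (Finset.ne_of_mem_erase hs'))] at hburn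
  simp only [Finset.sum_const, Finset.card_erase_of_mem (Finset.mem_univ _), Finset.card_univ,
    smul_eq_mul, mul_one] at hburn
  rw [Nat.card_eq_fintype_card]
  have hpos : 0 < Fintype.card T := Fintype.card_pos
  have h3 : Fintype.card T ∣ 20 + Fintype.card T :=
    ⟨Fintype.card (Quotient (MulAction.orbitRel T X)), by rw [mul_comm]; omega⟩
  exact (Nat.dvd_add_left (dvd_refl _)).mp h3

universe u

section Main
variable {G : Type u} [Group G] [Finite G]

/-- the data of a minimal counterexample -/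
structure Setup (G : Type u) [Group G] [Finite G] [Fact (Nat.Prime 5)] : Prop where
  hn : Nat.card (Sylow 5 G) = 21
  hM1 : ∀ (P : Sylow 5 G) (M : Subgroup G), M.Normal → (P : Subgroup G) ≤ M → M = ⊤
  faith : ∀ g : G, (∀ S : Sylow 5 G, g • S = S) → g = 1
  card5 : ∀ P : Sylow 5 G, Nat.card (P : Subgroup G) = 5
  fixP : ∀ (P : Sylow 5 G) (g : G), g ∈ (P : Subgroup G) → g ≠ 1 →
    ∀ S : Sylow 5 G, g • S = S ↔ S = P

variable [Fact (Nat.Prime 5)]

theorem Setup.pow5 (h : Setup G) (P : Sylow 5 G) (g : G) (hg : g ∈ (P : Subgroup G)) :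
    g ^ 5 = 1 := by
  have := pow_card_eq_one' (G := (P : Subgroup G)) (x := ⟨g, hg⟩)
  rw [h.card5 P] at this
  simpa using congrArg Subtype.val this

theorem Setup.zpowers_eq (h : Setup G) (P : Sylow 5 G) (g : G) (hg : g ∈ (P : Subgroup G))
    (hg1 : g ≠ 1) : Subgroup.zpowers g = (P : Subgroup G) := by
  have hord : orderOf g = 5 := orderOf_eq_prime (h.pow5 P g hg) hg1
  apply Subgroup.eq_of_le_of_card_ge (Subgroup.zpowers_le.mpr hg)
  rw [Nat.card_zpowers, hord, h.card5 P]

theorem Setup.exists_gen (h : Setup G) (P : Sylow 5 G) : ∃ c ∈ (P : Subgroup G), c ≠ 1 := by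
  have hPne : (P : Subgroup G) ≠ ⊥ := by
    rw [← Subgroup.one_lt_card_iff_ne_bot, h.card5 P]; norm_num
  exact (P : Subgroup G).bot_or_exists_ne_one.resolve_left hPne

theorem Setup.eq_top_of_mem (h : Setup G) (P : Sylow 5 G) (c : G) (hc : c ∈ (P : Subgroup G))
    (hc1 : c ≠ 1) (K : Subgroup G) (hK : K.Normal) (hcK : c ∈ K) : K = ⊤ :=
  h.hM1 P K hK (by rw [← h.zpowers_eq P c hc hc1]; exact Subgroup.zpowers_le.mpr hcK)

theorem Setup.inj (h : Setup G) : Function.Injective (MulAction.toPermHom G (Sylow 5 G)) := by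
  rw [← MonoidHom.ker_eq_bot_iff, eq_bot_iff]
  intro g hg
  rw [MonoidHom.mem_ker] at hg
  rw [Subgroup.mem_bot]
  apply h.faith
  intro S
  have := congrArg (fun f : Equiv.Perm (Sylow 5 G) => f S) hg
  simpa using this

theorem Setup.sign_eq_one (h : Setup G) [Fintype (Sylow 5 G)] [DecidableEq (Sylow 5 G)] (g : G) :
    Equiv.Perm.sign (MulAction.toPermHom G (Sylow 5 G) g) = 1 := by
  set φ := MulAction.toPermHom G (Sylow 5 G)
  obtain P : Sylow 5 G := default
  have hPle : (P : Subgroup G) ≤ (Equiv.Perm.sign.comp φ).ker := by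
    intro g hg
    rw [MonoidHom.mem_ker, MonoidHom.comp_apply]
    have h5 : Equiv.Perm.sign (φ g) ^ 5 = 1 := by
      rw [← map_pow, ← map_pow, h.pow5 P g hg, map_one, map_one]
    have h2 : Equiv.Perm.sign (φ g) ^ 2 = 1 := Int.units_sq _
    have := Nat.eq_one_of_dvd_coprimes (by norm_num : Nat.Coprime 5 2)
      (orderOf_dvd_of_pow_eq_one h5) (orderOf_dvd_of_pow_eq_one h2)
    exact orderOf_eq_one_iff.mp this
  have htop := h.hM1 P (Equiv.Perm.sign.comp φ).ker (MonoidHom.normal_ker _) hPle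
  have hb : g ∈ (Equiv.Perm.sign.comp φ).ker := htop ▸ Subgroup.mem_top g
  exact hb

/-- an involution centralizing a Sylow 5-subgroup normalizes no other Sylow 5-subgroup -/
theorem Setup.invol_fix_unique (h : Setup G) (P : Sylow 5 G) (c : G) (hc : c ∈ (P : Subgroup G))
    (hc1 : c ≠ 1) (z : G) (hzc : Commute z c) (hz : orderOf z = 2) (S : Sylow 5 G)
    (hS : z • S = S) : S = P := by
  classical
  let _ : Fintype (Sylow 5 G) := Fintype.ofFinite _
  have hΩ : Fintype.card (Sylow 5 G) = 21 := by rw [← Nat.card_eq_fintype_card, h.hn]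
  set φ := MulAction.toPermHom G (Sylow 5 G) with hφ
  have hx5 : (φ c) ^ 5 = 1 := by rw [← map_pow, h.pow5 P c hc, map_one]
  have hfix : ∀ S, φ c S = S ↔ S = P := h.fixP P c hc hc1
  have hz2 : (φ z) ^ 2 = 1 := by rw [← map_pow, ← hz, pow_orderOf_eq_one, map_one]
  have hz1 : φ z ≠ 1 := by
    intro h1
    have : z = 1 := h.inj (h1.trans (map_one φ).symm)
    rw [this, orderOf_one] at hz
    omega
  exact Cfsg.Agent.S1010.invol_fix_unique hΩ (φ c) (φ z) P hx5 hfix (hzc.map φ) hz2 hz1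
    (h.sign_eq_one z) S hS

/-- no element of order 7 centralizes a Sylow 5-subgroup -/
theorem Setup.eq_one_of_pow_seven (h : Setup G) (P : Sylow 5 G) (c : G)
    (hc : c ∈ (P : Subgroup G)) (hc1 : c ≠ 1) (z : G) (hzc : Commute z c) (hz7 : z ^ 7 = 1) :
    z = 1 := by
  classical
  have : Fact (Nat.Prime 7) := ⟨by norm_num⟩
  let _ : Fintype (Sylow 5 G) := Fintype.ofFinite _
  have hΩ : Fintype.card (Sylow 5 G) = 21 := by rw [← Nat.card_eq_fintype_card, h.hn]
  set φ := MulAction.toPermHom G (Sylow 5 G) with hφ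
  have hx5 : (φ c) ^ 5 = 1 := by rw [← map_pow, h.pow5 P c hc, map_one]
  have hfix : ∀ S, φ c S = S ↔ S = P := h.fixP P c hc hc1
  have hz7' : (φ z) ^ 7 = 1 := by rw [← map_pow, hz7, map_one]
  have := Cfsg.Agent.S1010.eq_one_of_pow_seven hΩ (φ c) (φ z) P hx5 hfix (hzc.map φ) hz7'
  exact h.inj (this.trans (map_one φ).symm)

/-- an involution normalizing a Sylow 5-subgroup centralizes or inverts it -/
theorem Setup.comm_or_inv (h : Setup G) (P : Sylow 5 G) (c : G) (hc : c ∈ (P : Subgroup G))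
    (hc1 : c ≠ 1) (t : G) (ht2 : t ^ 2 = 1) (htP : t • P = P) :
    Commute t c ∨ t * c * t⁻¹ = c⁻¹ := by
  have htN : t ∈ normalizer ((P : Subgroup G) : Set G) := Sylow.smul_eq_iff_mem_normalizer.mp htP
  have hconj : t * c * t⁻¹ ∈ (P : Subgroup G) := (Subgroup.mem_normalizer_iff.mp htN c).mp hc
  rw [← h.zpowers_eq P c hc hc1] at hconj
  obtain ⟨k, hk⟩ := Subgroup.mem_zpowers_iff.mp hconj
  have hord : orderOf c = 5 := orderOf_eq_prime (h.pow5 P c hc) hc1
  have htinv : t⁻¹ = t := by rw [inv_eq_iff_mul_eq_one, ← pow_two, ht2]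
  have h1 : c ^ (k * k) = c := by
    rw [zpow_mul, hk, conj_zpow, hk, htinv]
    calc t * (t * c * t) * t = t ^ 2 * c * t ^ 2 := by simp [pow_two, mul_assoc]
      _ = c := by rw [ht2, one_mul, mul_one]
  have h2 : c ^ (k * k - 1) = 1 := by
    rw [zpow_sub, h1, zpow_one, mul_inv_cancel]
  have h3 : (5 : ℤ) ∣ k * k - 1 := by
    have := orderOf_dvd_iff_zpow_eq_one.mpr h2
    rwa [hord] at this
  have hp : Prime (5 : ℤ) := Int.prime_iff_natAbs_prime.mpr (by norm_num)
  have h4 : (5 : ℤ) ∣ (k - 1) * (k + 1) := by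
    have : (k - 1) * (k + 1) = k * k - 1 := by ring
    rw [this]; exact h3
  rcases hp.dvd_mul.mp h4 with h5 | h5
  · left
    have h6 : c ^ (k - 1) = 1 := by
      apply orderOf_dvd_iff_zpow_eq_one.mp; rw [hord]; exact_mod_cast h5
    have h7 : c ^ k = c := by
      have : c ^ k = c ^ (k - 1) * c := by rw [← zpow_add_one]; congr 1; ring
      rw [this, h6, one_mul]
    rw [h7] at hk
    have : t * c = c * t := by
      calc t * c = (t * c * t⁻¹) * t := by group
        _ = c * t := by rw [← hk]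
    exact this
  · right
    have h6 : c ^ (k + 1) = 1 := by
      apply orderOf_dvd_iff_zpow_eq_one.mp; rw [hord]; exact_mod_cast h5
    have h7 : c ^ k = c⁻¹ := by
      have : c ^ k = c ^ (k + 1) * c⁻¹ := by rw [zpow_add_one]; group
      rw [this, h6, one_mul]
    rw [← hk, h7]

/-- a 2-subgroup normalizes some Sylow 5-subgroup -/
theorem Setup.exists_fixed (h : Setup G) (T : Subgroup G) (hT : IsPGroup 2 T) :
    ∃ Q : Sylow 5 G, ∀ s ∈ T, s • Q = Q := by
  have : Fact (Nat.Prime 2) := ⟨Nat.prime_two⟩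
  obtain ⟨Q, hQ⟩ := IsPGroup.nonempty_fixed_point_of_prime_not_dvd_card hT (Sylow 5 G)
    (by rw [h.hn]; norm_num)
  refine ⟨Q, fun s hs => ?_⟩
  have := hQ ⟨s, hs⟩
  rwa [Subgroup.smul_def] at this

/-- Case A: an involution normalizing two Sylow 5-subgroups is impossible (Glauberman Z*) -/
theorem Setup.caseA (h : Setup G) (t : G) (ht : orderOf t = 2) (S₁ S₂ : Sylow 5 G)
    (hne : S₁ ≠ S₂) (h1 : t • S₁ = S₁) (h2 : t • S₂ = S₂) : False := by
  classical
  have : Fact (Nat.Prime 2) := ⟨Nat.prime_two⟩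
  let _ : Fintype (Sylow 5 G) := Fintype.ofFinite _
  have hΩ : Fintype.card (Sylow 5 G) = 21 := by rw [← Nat.card_eq_fintype_card, h.hn]
  have ht2 : t ^ 2 = 1 := by rw [← ht]; exact pow_orderOf_eq_one t
  have hpg : IsPGroup 2 (Subgroup.zpowers t) := by
    apply IsPGroup.of_card (n := 1)
    rw [Nat.card_zpowers, ht, pow_one]
  obtain ⟨T, hT⟩ := hpg.exists_le_sylow
  have htT : t ∈ (T : Subgroup G) := hT (Subgroup.mem_zpowers t)
  obtain ⟨Q, hQ⟩ := h.exists_fixed T T.isPGroup'
  obtain ⟨c, hc, hc1⟩ := h.exists_gen Q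
  set φ := MulAction.toPermHom G (Sylow 5 G) with hφ
  have hx5 : (φ c) ^ 5 = 1 := by rw [← map_pow, h.pow5 Q c hc, map_one]
  have hfix : ∀ S, φ c S = S ↔ S = Q := h.fixP Q c hc hc1
  have key : ∀ s : G, orderOf s = 2 → s ∈ (T : Subgroup G) → (∃ S, S ≠ Q ∧ s • S = S) →
      s * c * s⁻¹ = c⁻¹ := by
    intro s hs hsT ⟨S, hSQ, hS⟩
    have hs2 : s ^ 2 = 1 := by rw [← hs]; exact pow_orderOf_eq_one s
    rcases h.comm_or_inv Q c hc hc1 s hs2 (hQ s hsT) with hcomm | hinv
    · exact absurd (h.invol_fix_unique Q c hc hc1 s hcomm hs S hS) hSQ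
    · exact hinv
  have hex : ∀ (s : G) (U₁ U₂ : Sylow 5 G), U₁ ≠ U₂ → s • U₁ = U₁ → s • U₂ = U₂ →
      ∃ S, S ≠ Q ∧ s • S = S := by
    intro s U₁ U₂ hU h1 h2
    by_cases hU1 : U₁ = Q
    · exact ⟨U₂, fun h => hU (hU1.trans h.symm), h2⟩
    · exact ⟨U₁, hU1, h1⟩
  have htfix := hex t S₁ S₂ hne h1 h2
  have htc := key t ht htT htfix
  have hiso : ∀ g : G, g * t * g⁻¹ ∈ T → g * t * g⁻¹ = t := by
    intro g hg
    have ht'o : orderOf (g * t * g⁻¹) = 2 := by
      rw [Cfsg.Agent.Lib.Helper53.orderOf_conj_eq, ht]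
    have ht'fix : ∃ S, S ≠ Q ∧ (g * t * g⁻¹) • S = S := by
      apply hex (g * t * g⁻¹) (g • S₁) (g • S₂) (fun h => hne (smul_left_cancel g h))
      · rw [← mul_smul, inv_mul_cancel_right, mul_smul, h1]
      · rw [← mul_smul, inv_mul_cancel_right, mul_smul, h2]
    have ht'c := key (g * t * g⁻¹) ht'o hg ht'fix
    obtain ⟨k, hk⟩ := T.isPGroup' ⟨g * t * g⁻¹ * t, mul_mem hg htT⟩
    have hk' : (g * t * g⁻¹ * t) ^ (2 ^ k) = 1 := by simpa using congrArg Subtype.val hk
    apply h.inj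
    obtain ⟨S, hSQ, hS⟩ := htfix
    obtain ⟨S', hS'Q, hS'⟩ := ht'fix
    refine invol_isolated hΩ (φ c) (φ t) (φ (g * t * g⁻¹)) Q hx5 hfix ?_ ?_ ?_ (h.sign_eq_one t)
      (h.sign_eq_one _) ⟨S, hSQ, hS⟩ ⟨S', hS'Q, hS'⟩ k ?_
    · rw [← map_pow, ht2, map_one]
    · rw [← map_inv, ← map_mul, ← map_mul, htc, map_inv]
    · rw [← map_inv, ← map_mul, ← map_mul, ht'c, map_inv]
    · rw [← map_mul, ← map_pow, hk', map_one]
  obtain ⟨K, hKn, hKodd, hK⟩ := Cfsg.Agent.S0215.result T t ht htT hiso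
  have hcK : c ∈ K := by
    have h1 := hK c
    rw [htc] at h1
    have h2 : c = (c⁻¹ * c⁻¹) ^ 2 := by
      have h5 := h.pow5 Q c hc
      calc c = c ^ 5 * ((c⁻¹ * c⁻¹) ^ 2) := by group
        _ = (c⁻¹ * c⁻¹) ^ 2 := by rw [h5, one_mul]
    rw [h2]; exact K.pow_mem h1 2
  have hKtop : K = ⊤ := h.eq_top_of_mem Q c hc hc1 K hKn hcK
  rw [hKtop, Subgroup.card_top] at hKodd
  have h2dvd : 2 ∣ Nat.card G := ht ▸ orderOf_dvd_natCard t
  exact (Nat.not_even_iff_odd.mpr hKodd) (even_iff_two_dvd.mpr h2dvd)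

/-- Case B1: `N_G(Q) = C_G(Q)` is impossible (Burnside transfer and a Sylow 7-subgroup) -/
theorem Setup.caseB1 (h : Setup G) (Q : Sylow 5 G)
    (hNC : normalizer (Q : Set G) ≤ centralizer (Q : Set G)) : False := by
  have : Fact (Nat.Prime 7) := ⟨by norm_num⟩
  obtain ⟨c, hc, hc1⟩ := h.exists_gen Q
  have h7N : ¬ 7 ∣ Nat.card (normalizer (Q : Set G)) := by
    intro hd
    obtain ⟨z, hz⟩ := exists_prime_orderOf_dvd_card' 7 hd
    have hzC : (z : G) ∈ centralizer (Q : Set G) := hNC z.2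
    have hcomm : Commute (z : G) c := (Subgroup.mem_centralizer_iff.mp hzC c hc).symm
    have hz7 : (z : G) ^ 7 = 1 := by
      have := pow_orderOf_eq_one z
      rw [hz] at this
      simpa using congrArg Subtype.val this
    have hz1 : z = 1 := Subtype.ext (h.eq_one_of_pow_seven Q c hc hc1 (z : G) hcomm hz7)
    rw [hz1, orderOf_one] at hz
    omega
  have hidx : (normalizer (Q : Set G)).index = 21 := by
    rw [← h.hn]; exact (Sylow.card_eq_index_normalizer Q).symm
  have hG : Nat.card G = Nat.card (normalizer (Q : Set G)) * 21 := by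
    rw [← hidx]; exact (Subgroup.card_mul_index _).symm
  have h7G : 7 ∣ Nat.card G := by rw [hG]; exact Dvd.dvd.mul_left (by norm_num) _
  have h49G : ¬ 7 ^ 2 ∣ Nat.card G := by
    rw [hG]
    intro hd
    apply h7N
    have h' : 7 * 7 ∣ (Nat.card (normalizer (Q : Set G)) * 3) * 7 := by
      have e : Nat.card (normalizer (Q : Set G)) * 21 =
          (Nat.card (normalizer (Q : Set G)) * 3) * 7 := by ring
      rw [← e]; exact hd
    have h'' : 7 ∣ Nat.card (normalizer (Q : Set G)) * 3 :=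
      Nat.dvd_of_mul_dvd_mul_right (by norm_num) h'
    exact Nat.Coprime.dvd_of_dvd_mul_right (by norm_num) h''
  obtain T : Sylow 7 G := default
  have hT7 : Nat.card T = 7 := Cfsg.Agent.S4304.sylow_card_eq_prime T h7G h49G
  have hcomp := MonoidHom.ker_transferSylow_isComplement' Q hNC
  set f := MonoidHom.transferSylow Q hNC with hf
  have hf5 : ∀ y : G, f y ^ 5 = 1 := by
    intro y
    have := pow_card_eq_one' (G := (Q : Subgroup G)) (x := f y)
    rwa [h.card5 Q] at this
  have hTK : (T : Subgroup G) ≤ f.ker := by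
    intro g hg
    rw [MonoidHom.mem_ker]
    have hg7 : g ^ 7 = 1 := by
      have := pow_card_eq_one' (G := (T : Subgroup G)) (x := ⟨g, hg⟩)
      rw [hT7] at this
      simpa using congrArg Subtype.val this
    have h1 : f g ^ 7 = 1 := by rw [← map_pow, hg7, map_one]
    have := Nat.eq_one_of_dvd_coprimes (by norm_num : Nat.Coprime 7 5)
      (orderOf_dvd_of_pow_eq_one h1) (orderOf_dvd_of_pow_eq_one (hf5 g))
    exact orderOf_eq_one_iff.mp this
  have hfrat := Sylow.normalizer_sup_eq_top' T hTK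
  have h5N : 5 ∣ Nat.card (normalizer (T : Set G)) := by
    by_contra hnd
    have hle : normalizer (T : Set G) ≤ f.ker := by
      intro y hy
      rw [MonoidHom.mem_ker]
      have h3 : f y ^ Nat.card (normalizer (T : Set G)) = 1 := by
        rw [← map_pow]
        have : y ^ Nat.card (normalizer (T : Set G)) = 1 := by
          have h0 := pow_card_eq_one' (G := normalizer (T : Set G)) (x := ⟨y, hy⟩)
          have h1 := congrArg Subtype.val h0
          simp only [Subgroup.coe_pow, Subgroup.coe_one] at h1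
          exact h1
        rw [this, map_one]
      have hcop : Nat.Coprime 5 (Nat.card (normalizer (T : Set G))) :=
        (Nat.Prime.coprime_iff_not_dvd (by norm_num)).mpr hnd
      have := Nat.eq_one_of_dvd_coprimes hcop (orderOf_dvd_of_pow_eq_one (hf5 y))
        (orderOf_dvd_of_pow_eq_one h3)
      exact orderOf_eq_one_iff.mp this
    rw [sup_eq_right.mpr hle] at hfrat
    rw [hfrat] at hcomp
    have hcc := hcomp.card_mul_card
    rw [Subgroup.card_top, h.card5 Q] at hcc
    have hpos : 0 < Nat.card G := Nat.card_pos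
    omega
  obtain ⟨w, hw⟩ := exists_prime_orderOf_dvd_card' 5 h5N
  have hw5 : (w : G) ^ 5 = 1 := by
    have := pow_orderOf_eq_one w
    rw [hw] at this
    simpa using congrArg Subtype.val this
  have hw1 : (w : G) ≠ 1 := by
    intro h1
    have : w = 1 := Subtype.ext h1
    rw [this, orderOf_one] at hw
    omega
  have hwC : (w : G) ∈ centralizer (T : Set G) :=
    Cfsg.Agent.S4304.centralizes_of_coprime (T : Subgroup G) (by norm_num : Nat.Prime 7) hT7
      (w : G) w.2 hw5 (by norm_num)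
  have hpg : IsPGroup 5 (Subgroup.zpowers (w : G)) := by
    apply IsPGroup.of_card (n := 1)
    rw [Nat.card_zpowers, orderOf_eq_prime hw5 hw1, pow_one]
  obtain ⟨Q', hQ'⟩ := hpg.exists_le_sylow
  have hwQ' : (w : G) ∈ (Q' : Subgroup G) := hQ' (Subgroup.mem_zpowers _)
  have hTne : (T : Subgroup G) ≠ ⊥ := by
    rw [← Subgroup.one_lt_card_iff_ne_bot, hT7]; norm_num
  obtain ⟨z, hzT, hz1⟩ := (T : Subgroup G).bot_or_exists_ne_one.resolve_left hTne
  have hz7 : z ^ 7 = 1 := by
    have := pow_card_eq_one' (G := (T : Subgroup G)) (x := ⟨z, hzT⟩)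
    rw [hT7] at this
    simpa using congrArg Subtype.val this
  have hcomm : Commute z (w : G) := Subgroup.mem_centralizer_iff.mp hwC z hzT
  exact hz1 (h.eq_one_of_pow_seven Q' (w : G) hwQ' hw1 z hcomm hz7)

/-- Case B2: every involution normalizes a unique Sylow 5-subgroup and `N_G(Q) ≠ C_G(Q)` -/
theorem Setup.caseB2 (h : Setup G)
    (hB : ∀ t : G, orderOf t = 2 → ∀ S₁ S₂ : Sylow 5 G, t • S₁ = S₁ → t • S₂ = S₂ → S₁ = S₂)
    (Q : Sylow 5 G) (hNC : ¬ normalizer (Q : Set G) ≤ centralizer (Q : Set G)) : False := by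
  classical
  have : Fact (Nat.Prime 2) := ⟨Nat.prime_two⟩
  obtain ⟨c, hc, hc1⟩ := h.exists_gen Q
  obtain ⟨g, hgN, hgC⟩ := SetLike.not_le_iff_exists.mp hNC
  obtain ⟨k, m, hm, hkm⟩ := Nat.exists_eq_two_pow_mul_odd (orderOf_pos g).ne'
  have hg₂pow : (g ^ m) ^ (2 ^ k) = 1 := by
    rw [← pow_mul, mul_comm, ← hkm]; exact pow_orderOf_eq_one g
  have hg₂N : g ^ m ∈ normalizer (Q : Set G) := pow_mem hgN m
  have hg₂C : g ^ m ∉ centralizer (Q : Set G) := by
    intro hcon
    apply hgC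
    have hcyc : IsCyclic (Q : Subgroup G) := isCyclic_of_prime_card (h.card5 Q)
    have hcard : Nat.card (MulAut (Q : Subgroup G)) = 4 := by
      rw [hcyc.card_mulAut, h.card5 Q, Nat.totient_prime (by norm_num)]
    set ψ := (Q : Subgroup G).normalizerMonoidHom with hψ
    have h1 : ψ ⟨g, hgN⟩ ^ m = 1 := by
      rw [← map_pow]
      have hmem : (⟨g, hgN⟩ : normalizer (Q : Set G)) ^ m ∈ ψ.ker := by
        rw [hψ, normalizerMonoidHom_ker, Subgroup.mem_subgroupOf]
        exact hcon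
      exact hmem
    have h2 : ψ ⟨g, hgN⟩ ^ 4 = 1 := by rw [← hcard]; exact pow_card_eq_one'
    have hcop : Nat.Coprime m 4 := by
      have h2' : Nat.Coprime m 2 := Nat.coprime_two_right.mpr hm
      exact Nat.Coprime.pow_right 2 h2'
    have h3 : ψ ⟨g, hgN⟩ = 1 := orderOf_eq_one_iff.mp
      (Nat.eq_one_of_dvd_coprimes hcop (orderOf_dvd_of_pow_eq_one h1)
        (orderOf_dvd_of_pow_eq_one h2))
    have h4 : (⟨g, hgN⟩ : normalizer (Q : Set G)) ∈ ψ.ker := h3
    rw [hψ, normalizerMonoidHom_ker] at h4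
    exact h4
  generalize g ^ m = g₂ at hg₂pow hg₂N hg₂C
  have hg₂1 : g₂ ≠ 1 := by
    rintro rfl; exact hg₂C (one_mem _)
  have hpg : IsPGroup 2 (Subgroup.zpowers g₂) := by
    obtain ⟨a, -, ha⟩ := (Nat.dvd_prime_pow Nat.prime_two).mp (orderOf_dvd_of_pow_eq_one hg₂pow)
    apply IsPGroup.of_card (n := a)
    rw [Nat.card_zpowers, ha]
  obtain ⟨T, hT⟩ := hpg.exists_le_sylow
  have hg₂T : g₂ ∈ (T : Subgroup G) := hT (Subgroup.mem_zpowers _)
  obtain ⟨Q₁, hQ₁⟩ := h.exists_fixed T T.isPGroup'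
  have huniq : ∀ s ∈ (T : Subgroup G), s ≠ 1 → ∀ S₁ S₂ : Sylow 5 G, s • S₁ = S₁ → s • S₂ = S₂ →
      S₁ = S₂ := by
    intro s hs hs1 S₁ S₂ h1 h2
    obtain ⟨k', hk'⟩ := T.isPGroup' ⟨s, hs⟩
    have hk'' : s ^ (2 ^ k') = 1 := by simpa using congrArg Subtype.val hk'
    obtain ⟨j, hj⟩ := exists_invol_pow s k' hk'' hs1
    refine hB (s ^ j) hj S₁ S₂ ?_ ?_
    · exact MulAction.mem_stabilizer_iff.mp
        ((MulAction.stabilizer G S₁).pow_mem (MulAction.mem_stabilizer_iff.mpr h1) j)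
    · exact MulAction.mem_stabilizer_iff.mp
        ((MulAction.stabilizer G S₂).pow_mem (MulAction.mem_stabilizer_iff.mpr h2) j)
  have hQQ₁ : Q₁ = Q := huniq g₂ hg₂T hg₂1 Q₁ Q (hQ₁ g₂ hg₂T)
    (Sylow.smul_eq_iff_mem_normalizer.mpr hg₂N)
  rw [hQQ₁] at hQ₁
  have hTcard : Nat.card (T : Subgroup G) = 2 ∨ Nat.card (T : Subgroup G) = 4 := by
    have hdvd : Nat.card (T : Subgroup G) ∣ 20 := by
      apply card_dvd_twenty (X := Sylow 5 G) h.hn Q
      intro s hs1 S
      constructor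
      · intro hS
        exact huniq (s : G) s.2 (fun hh => hs1 (Subtype.ext hh)) S Q
          (by rw [← Subgroup.smul_def]; exact hS) (hQ₁ s s.2)
      · rintro rfl
        rw [Subgroup.smul_def]; exact hQ₁ s s.2
    obtain ⟨j, hj⟩ := (IsPGroup.iff_card).mp T.isPGroup'
    rw [hj] at hdvd ⊢
    have hj2 : j ≤ 2 := by
      by_contra hj3
      have h8 : 2 ^ 3 ∣ 2 ^ j := pow_dvd_pow 2 (by omega)
      have := h8.trans hdvd
      norm_num at this
    have hj0 : j ≠ 0 := by
      rintro rfl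
      rw [pow_zero] at hj
      have : (T : Subgroup G) = ⊥ := Subgroup.card_eq_one.mp hj
      rw [this, Subgroup.mem_bot] at hg₂T
      exact hg₂1 hg₂T
    interval_cases j
    · exact absurd rfl hj0
    · left; norm_num
    · right; norm_num
  have hcent : ∀ s : G, Commute s c → s ∈ centralizer (Q : Set G) := by
    intro s hs
    rw [Subgroup.mem_centralizer_iff]
    intro q hq
    have hq' : q ∈ (Q : Subgroup G) := hq
    rw [← h.zpowers_eq Q c hc hc1] at hq'
    obtain ⟨n, rfl⟩ := Subgroup.mem_zpowers_iff.mp hq'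
    exact (hs.zpow_right n).eq.symm
  have hc5 := h.pow5 Q c hc
  by_cases hcyc : IsCyclic (T : Subgroup G)
  · obtain ⟨K, hKn, hKc⟩ :=
      Cfsg.Agent.Lib.Helper53.exists_normal_complement_of_isCyclic_sylow_two T hcyc
    have hcK : c ∈ K := by
      have hidx : K.index = Nat.card (T : Subgroup G) := hKc.symm.index_eq_card
      rw [← QuotientGroup.eq_one_iff (N := K)]
      have h5 : ((c : G) : G ⧸ K) ^ 5 = 1 := by
        rw [← QuotientGroup.mk_pow, hc5]; rfl
      have hT' : ((c : G) : G ⧸ K) ^ Nat.card (T : Subgroup G) = 1 := by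
        rw [← hidx, Subgroup.index_eq_card]; exact pow_card_eq_one'
      rcases hTcard with e | e <;> rw [e] at hT'
      · exact orderOf_eq_one_iff.mp (Nat.eq_one_of_dvd_coprimes (by norm_num : Nat.Coprime 5 2)
          (orderOf_dvd_of_pow_eq_one h5) (orderOf_dvd_of_pow_eq_one hT'))
      · exact orderOf_eq_one_iff.mp (Nat.eq_one_of_dvd_coprimes (by norm_num : Nat.Coprime 5 4)
          (orderOf_dvd_of_pow_eq_one h5) (orderOf_dvd_of_pow_eq_one hT'))
    have hKtop : K = ⊤ := h.eq_top_of_mem Q c hc hc1 K hKn hcK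
    have hcc := hKc.card_mul_card
    rw [hKtop, Subgroup.card_top] at hcc
    have hpos : 0 < Nat.card G := Nat.card_pos
    rcases hTcard with e | e <;> rw [e] at hcc <;> omega
  · have hT4 : Nat.card (T : Subgroup G) = 4 := by
      rcases hTcard with e | e
      · exact absurd (isCyclic_of_prime_card e) hcyc
      · exact e
    have hexp : ∀ s ∈ (T : Subgroup G), s ^ 2 = 1 := by
      intro s hs
      by_contra hs2
      apply hcyc
      have hdvd : orderOf (⟨s, hs⟩ : (T : Subgroup G)) ∣ 4 := hT4 ▸ orderOf_dvd_natCard _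
      have hne2 : ¬ orderOf (⟨s, hs⟩ : (T : Subgroup G)) ∣ 2 := by
        intro hd
        apply hs2
        have := orderOf_dvd_iff_pow_eq_one.mp hd
        simpa using congrArg Subtype.val this
      have ho : orderOf (⟨s, hs⟩ : (T : Subgroup G)) = 4 := by
        have hle := Nat.le_of_dvd (by norm_num) hdvd
        generalize orderOf (⟨s, hs⟩ : (T : Subgroup G)) = o at hdvd hne2 hle
        interval_cases o <;> simp_all
      exact isCyclic_of_orderOf_eq_card ⟨s, hs⟩ (by rw [ho, hT4])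
    have hg₂o : orderOf g₂ = 2 := orderOf_eq_prime (hexp g₂ hg₂T) hg₂1
    have hdich : ∀ s ∈ (T : Subgroup G), Commute s c ∨ s * c * s⁻¹ = c⁻¹ :=
      fun s hs => h.comm_or_inv Q c hc hc1 s (hexp s hs) (hQ₁ s hs)
    have hg₂inv : g₂ * c * g₂⁻¹ = c⁻¹ :=
      (hdich g₂ hg₂T).resolve_left (fun hh => hg₂C (hcent g₂ hh))
    have hMi : ((T : Subgroup G) ⊓ centralizer (Q : Set G)).relIndex (T : Subgroup G) = 2 := by
      rw [Subgroup.inf_relIndex_left]
      change (Subgroup.subgroupOf _ _).index = 2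
      rw [Subgroup.index_eq_two_iff]
      refine ⟨⟨g₂, hg₂T⟩, fun b => ?_⟩
      simp only [Subgroup.mem_subgroupOf, Subgroup.coe_mul]
      rcases hdich b b.2 with hb | hb
      · right
        refine ⟨hcent _ hb, fun hcon => hg₂C ?_⟩
        have e : g₂ = (b : G)⁻¹ * ((b : G) * g₂) := by group
        rw [e]; exact mul_mem (inv_mem (hcent _ hb)) hcon
      · left
        refine ⟨hcent _ ?_, fun hcon => ?_⟩
        · change (b : G) * g₂ * c = c * ((b : G) * g₂)
          calc (b : G) * g₂ * c = (b : G) * (g₂ * c * g₂⁻¹) * g₂ := by group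
            _ = (b : G) * c⁻¹ * g₂ := by rw [hg₂inv]
            _ = ((b : G) * c * (b : G)⁻¹)⁻¹ * (b : G) * g₂ := by group
            _ = c * ((b : G) * g₂) := by rw [hb, inv_inv, mul_assoc]
        · have hbc : (b : G) * c = c * (b : G) :=
            (Subgroup.mem_centralizer_iff.mp hcon c hc).symm
          have e : (b : G) * c * (b : G)⁻¹ = c := by rw [hbc]; group
          rw [e] at hb
          have hc2 : c ^ 2 = 1 := by
            rw [pow_two]
            nth_rewrite 1 [hb]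
            exact inv_mul_cancel c
          have : c = 1 := by
            calc c = c ^ 5 * (c ^ 2)⁻¹ * (c ^ 2)⁻¹ := by group
              _ = 1 := by rw [hc5, hc2]; simp
          exact hc1 this
    have hconj : ∀ x : G, x * g₂ * x⁻¹ ∉ (T : Subgroup G) ⊓ centralizer (Q : Set G) := by
      intro x hx
      have hu'o : orderOf (x * g₂ * x⁻¹) = 2 := by
        rw [Cfsg.Agent.Lib.Helper53.orderOf_conj_eq, hg₂o]
      have hfix1 : (x * g₂ * x⁻¹) • Q = Q := hQ₁ _ hx.1
      have hfix2 : (x * g₂ * x⁻¹) • (x • Q) = x • Q := by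
        rw [← mul_smul, inv_mul_cancel_right, mul_smul, hQ₁ g₂ hg₂T]
      have hxQ : x • Q = Q := hB _ hu'o _ _ hfix2 hfix1
      have hxN : x ∈ normalizer (Q : Set G) := Sylow.smul_eq_iff_mem_normalizer.mp hxQ
      apply hg₂C
      rw [Subgroup.mem_centralizer_iff]
      intro q hq
      have hq' : x * q * x⁻¹ ∈ (Q : Subgroup G) := (Subgroup.mem_normalizer_iff.mp hxN q).mp hq
      have hcm := Subgroup.mem_centralizer_iff.mp hx.2 _ hq'
      have e : x * (q * g₂) * x⁻¹ = x * (g₂ * q) * x⁻¹ := by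
        calc x * (q * g₂) * x⁻¹ = (x * q * x⁻¹) * (x * g₂ * x⁻¹) := by group
          _ = (x * g₂ * x⁻¹) * (x * q * x⁻¹) := hcm
          _ = x * (g₂ * q) * x⁻¹ := by group
      exact mul_left_cancel (mul_right_cancel e)
    obtain ⟨M', hM'n, hM'i, hM'u⟩ := Cfsg.Agent.Lib.Helper53.thompson_transfer T
      ((T : Subgroup G) ⊓ centralizer (Q : Set G)) inf_le_left hMi g₂ hg₂o hconj
    have hcM' : c ∈ M' := by
      rw [← QuotientGroup.eq_one_iff (N := M')]
      have h5 : ((c : G) : G ⧸ M') ^ 5 = 1 := by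
        rw [← QuotientGroup.mk_pow, hc5]; rfl
      have h2 : ((c : G) : G ⧸ M') ^ 2 = 1 := by
        have := pow_card_eq_one' (G := G ⧸ M') (x := ((c : G) : G ⧸ M'))
        rwa [← Subgroup.index_eq_card, hM'i] at this
      exact orderOf_eq_one_iff.mp (Nat.eq_one_of_dvd_coprimes (by norm_num : Nat.Coprime 5 2)
        (orderOf_dvd_of_pow_eq_one h5) (orderOf_dvd_of_pow_eq_one h2))
    have hM'top : M' = ⊤ := h.eq_top_of_mem Q c hc hc1 M' hM'n hcM'
    rw [hM'top, Subgroup.index_top] at hM'i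
    omega

end Main


section Final
variable {G : Type u} [Group G] [Finite G]

theorem min_counter [Fact (Nat.Prime 5)] (hn : Nat.card (Sylow 5 G) = 21)
    (hmin : ∀ (H : Type u) [Group H] [Finite H], Nat.card H < Nat.card G →
      Nat.card (Sylow 5 H) ≠ 21) : False := by
  classical
  let _ : Fintype (Sylow 5 G) := Fintype.ofFinite _
  have hM1 : ∀ (P : Sylow 5 G) (M : Subgroup G), M.Normal → (P : Subgroup G) ≤ M → M = ⊤ := by
    intro P M hMn hPM
    by_contra hM
    have h1 := Cfsg.Agent.S4304.card_sylow_of_normal M P hPM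
    rw [hn] at h1
    refine hmin M ?_ h1
    have hle : Nat.card M ≤ Nat.card G := Subgroup.card_le_card_group M
    have hne : Nat.card M ≠ Nat.card G := fun h => hM ((Subgroup.card_eq_iff_eq_top M).mp h)
    omega
  set φ : G →* Equiv.Perm (Sylow 5 G) := MulAction.toPermHom G (Sylow 5 G) with hφ
  have hφapp : ∀ (g : G) (S : Sylow 5 G), φ g S = g • S := fun g S => rfl
  have hker_norm : ∀ S : Sylow 5 G, φ.ker ≤ normalizer (S : Set G) := by
    intro S g hg
    rw [MonoidHom.mem_ker] at hg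
    rw [← Sylow.smul_eq_iff_mem_normalizer, ← hφapp, hg]; rfl
  have hker : φ.ker = ⊥ := by
    by_contra hk
    have h1 := Cfsg.Agent.S4304.card_sylow_quotient φ.ker hker_norm
    rw [hn] at h1
    refine hmin (G ⧸ φ.ker) ?_ h1
    have h2 := Subgroup.card_mul_index φ.ker
    have h3 : 1 < Nat.card φ.ker := (Subgroup.one_lt_card_iff_ne_bot _).mpr hk
    change φ.ker.index < _
    have hpos : 0 < φ.ker.index := Nat.pos_of_ne_zero Subgroup.index_ne_zero_of_finite
    nlinarith
  have hfaith : ∀ g : G, (∀ S : Sylow 5 G, g • S = S) → g = 1 := by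
    intro g hg
    have : g ∈ φ.ker := by
      rw [MonoidHom.mem_ker]
      ext S : 1
      rw [hφapp, Equiv.Perm.one_apply, hg S]
    rw [hker] at this
    exact Subgroup.mem_bot.mp this
  have hTI : ∀ P Q : Sylow 5 G, P ≠ Q → (P : Subgroup G) ⊓ Q = ⊥ := by
    intro P Q hPQ
    rw [eq_bot_iff, ← hker]
    intro g hg
    rw [MonoidHom.mem_ker]
    ext S : 1
    rw [hφapp, Equiv.Perm.one_apply, Sylow.smul_eq_iff_mem_normalizer]
    exact Subgroup.le_normalizer (inter_le_all hn P Q S hPQ hg)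
  have hcard5 : ∀ P : Sylow 5 G, Nat.card (P : Subgroup G) = 5 := by
    intro P
    have hnontriv : ∃ Q : Sylow 5 G, Q ≠ P := by
      have : Nontrivial (Sylow 5 G) :=
        (Finite.one_lt_card_iff_nontrivial).mp (by rw [hn]; norm_num)
      exact exists_ne P
    obtain ⟨Q, hQP⟩ := hnontriv
    have h1 := card_inf_mul_five hn P Q (Ne.symm hQP)
    rw [hTI P Q (Ne.symm hQP), Subgroup.card_bot] at h1
    omega
  have hfixP : ∀ (P : Sylow 5 G) (g : G), g ∈ (P : Subgroup G) → g ≠ 1 →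
      ∀ S : Sylow 5 G, g • S = S ↔ S = P := by
    intro P g hgP hg1 S
    constructor
    · intro h
      by_contra hSP
      rw [Sylow.smul_eq_iff_mem_normalizer] at h
      have h1 : g ∈ (P : Subgroup G) ⊓ normalizer (S : Set G) := ⟨hgP, h⟩
      rw [P.isPGroup'.inf_normalizer_sylow S, hTI P S (Ne.symm hSP)] at h1
      exact hg1 (Subgroup.mem_bot.mp h1)
    · rintro rfl
      rw [Sylow.smul_eq_iff_mem_normalizer]
      exact Subgroup.le_normalizer hgP
  have hS : Setup G := ⟨hn, hM1, hfaith, hcard5, hfixP⟩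
  by_cases hA : ∃ (t : G) (S₁ S₂ : Sylow 5 G), orderOf t = 2 ∧ S₁ ≠ S₂ ∧ t • S₁ = S₁ ∧
      t • S₂ = S₂
  · obtain ⟨t, S₁, S₂, ht, hne, h1, h2⟩ := hA
    exact hS.caseA t ht S₁ S₂ hne h1 h2
  · have hB : ∀ t : G, orderOf t = 2 → ∀ S₁ S₂ : Sylow 5 G, t • S₁ = S₁ → t • S₂ = S₂ →
        S₁ = S₂ := by
      intro t ht S₁ S₂ h1 h2
      by_contra hne
      exact hA ⟨t, S₁, S₂, ht, hne, h1, h2⟩
    obtain Q : Sylow 5 G := default
    by_cases hNC : normalizer (Q : Set G) ≤ centralizer (Q : Set G)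
    · exact hS.caseB1 Q hNC
    · exact hS.caseB2 hB Q hNC

theorem main_aux [Fact (Nat.Prime 5)] : ∀ (n : ℕ) (G : Type u) [Group G] [Finite G],
    Nat.card G = n → Nat.card (Sylow 5 G) ≠ 21 := by
  intro n
  induction n using Nat.strong_induction_on with
  | _ n ih =>
    intro G _ _ hcard hn
    exact min_counter hn (fun H _ _ hlt => ih (Nat.card H) (hcard ▸ hlt) H rfl)

end Final

/-- No finite group has exactly twenty-one Sylow 5-subgroups. -/
theorem result {G : Type*} [Group G] [Finite G] : Nat.card (Sylow 5 G) ≠ 21 := by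
  have : Fact (Nat.Prime 5) := ⟨by norm_num⟩
  exact main_aux _ G rfl

end Cfsg.Agent.S1010
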