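import Cfsg.Statements.S1013
import Cfsg.Agent.S0989

set_option autoImplicit false
open Cfsg

namespace Cfsg.Agent.S1013

theorem mem_smul_sylow3 {G : Type*} [Group G] {p : ℕ} (g x : G) (P : Sylow p G) :
    x ∈ ((g • P : Sylow p G) : Subgroup G) ↔ g⁻¹ * x * g ∈ (P : Subgroup G) := by
  rw [Sylow.coe_subgroup_smul, Subgroup.mem_pointwise_smul_iff_inv_smul_mem]
  simp [MulAut.smul_def]

/-- Let G be a transitive permutation group of prime degree p having more than one Sylow p-subgroup, and suppose a Sylow p-subgroup P has prime index in its normalizer. Then G is simple. -/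
theorem result {α : Type*} [Fintype α] [DecidableEq α] {p : ℕ} [Fact p.Prime] (hα : Fintype.card α = p) (G : Subgroup (Equiv.Perm α)) [MulAction.IsPretransitive ↥G α] (P : Sylow p ↥G) (hn : 1 < Nat.card (Sylow p ↥G)) (ht : (((P : Subgroup ↥G).subgroupOf (Subgroup.normalizer ((P : Subgroup ↥G) : Set ↥G))).index).Prime) : IsSimpleGroup ↥G := by
  classical
  have hpp : p.Prime := Fact.out
  have hprim : MulAction.IsPreprimitive ↥G α :=
    MulAction.IsPreprimitive.of_prime_card (by rw [Nat.card_eq_fintype_card, hα]; exact hpp)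
  have hαne : Nonempty α := by
    rw [← Fintype.card_pos_iff, hα]; exact hpp.pos
  obtain ⟨a₀⟩ := hαne
  -- nontrivial normal subgroups have order divisible by p
  have L : ∀ K : Subgroup ↥G, K.Normal → K ≠ ⊥ → p ∣ Nat.card K := by
    intro K hK hne
    have hfix : MulAction.fixedPoints K α ≠ Set.univ := by
      intro h
      apply hne
      rw [Subgroup.eq_bot_iff_forall]
      intro k hk
      apply Subtype.ext
      apply Equiv.ext
      intro a
      have : a ∈ MulAction.fixedPoints K α := h ▸ Set.mem_univ a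
      exact this ⟨k, hk⟩
    have htrans : MulAction.IsPretransitive K α :=
      MulAction.IsQuasiPreprimitive.isPretransitive_of_normal hfix
    have := MulAction.index_stabilizer_of_transitive K a₀
    rw [Nat.card_eq_fintype_card, hα] at this
    rw [← this]
    exact Subgroup.index_dvd_card _
  have hnt : Nontrivial ↥G := by
    by_contra hcon
    rw [not_nontrivial_iff_subsingleton] at hcon
    have : Subsingleton (Sylow p ↥G) := ⟨fun A B => Sylow.ext (Subsingleton.elim _ _)⟩
    have := Finite.card_le_one_iff_subsingleton.mpr this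
    omega
  have hpG : p ∣ Nat.card ↥G := by
    have := L ⊤ inferInstance top_ne_bot
    rwa [Subgroup.card_top] at this
  have hPcard : Nat.card (P : Subgroup ↥G) = p := by
    rw [Sylow.card_eq_multiplicity]
    have hne0 : Nat.card ↥G ≠ 0 := Nat.card_pos.ne'
    have h1 : 1 ≤ (Nat.card ↥G).factorization p :=
      (hpp.pow_dvd_iff_le_factorization hne0 (k := 1)).mp (by simpa using hpG)
    have h2 : Nat.card ↥G ∣ p.factorial := by
      have := Subgroup.card_subgroup_dvd_card G
      rwa [Nat.card_perm, Nat.card_eq_fintype_card (α := α), hα] at this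
    have h3 : (Nat.card ↥G).factorization p ≤ (p.factorial).factorization p :=
      (Nat.factorization_le_iff_dvd hne0 (Nat.factorial_ne_zero p)).mpr h2 p
    rw [Cfsg.Agent.S0989.factorization_factorial_eq_one p p hpp le_rfl
      (by have := hpp.two_le; omega)] at h3
    have : (Nat.card ↥G).factorization p = 1 := by omega
    rw [this, pow_one]
  have hcardS : ∀ Q : Sylow p ↥G, Nat.card (Q : Subgroup ↥G) = p := by
    intro Q
    rw [Sylow.card_eq_multiplicity, ← Sylow.card_eq_multiplicity P, hPcard]
  refine { exists_pair_ne := hnt.exists_pair_ne, eq_bot_or_eq_top_of_normal := ?_ }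
  intro K hK
  by_cases hne : K = ⊥
  · left; exact hne
  right
  have hpK := L K hK hne
  -- P ≤ K
  have hPK : (P : Subgroup ↥G) ≤ K := by
    obtain ⟨x, hx⟩ := exists_prime_orderOf_dvd_card' (G := ↥K) p hpK
    have hx' : orderOf (x : ↥G) = p := by rw [Subgroup.orderOf_coe, hx]
    have hpg : IsPGroup p (Subgroup.zpowers (x : ↥G)) := by
      apply IsPGroup.of_card (n := 1)
      rw [Nat.card_zpowers, hx', pow_one]
    obtain ⟨Q, hQ⟩ := hpg.exists_le_sylow
    have hQeq : Subgroup.zpowers (x : ↥G) = (Q : Subgroup ↥G) :=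
      Subgroup.eq_of_le_of_card_ge hQ (by rw [Nat.card_zpowers, hx', hcardS Q])
    have hQK : (Q : Subgroup ↥G) ≤ K := by
      rw [← hQeq, Subgroup.zpowers_le]; exact x.2
    obtain ⟨g, hg⟩ := MulAction.exists_smul_eq ↥G Q P
    intro y hy
    rw [← hg] at hy
    have h1 := (mem_smul_sylow3 _ _ _).mp hy
    have h2 := hK.conj_mem _ (hQK h1) g
    simpa [mul_assoc] using h2
  set N : Subgroup ↥G := Subgroup.normalizer ((P : Subgroup ↥G) : Set ↥G) with hN
  have hPN : (P : Subgroup ↥G) ≤ N := Subgroup.le_normalizer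
  -- Frattini
  have hfr : N ⊔ K = ⊤ := by
    have := Sylow.normalizer_sup_eq_top (P.subtype hPK)
    rw [Sylow.coe_subtype, Subgroup.subgroupOf_map_subtype, inf_eq_left.mpr hPK] at this
    exact this
  have hrel : ((P : Subgroup ↥G).relIndex (N ⊓ K)) * ((N ⊓ K).relIndex N) =
      (P : Subgroup ↥G).relIndex N :=
    Subgroup.relIndex_mul_relIndex _ _ _ (le_inf hPN hPK) inf_le_left
  have ht' : ((P : Subgroup ↥G).relIndex N).Prime := ht
  rw [← hrel] at ht'
  rcases (Nat.prime_mul_iff.mp ht') with ⟨-, h1⟩ | ⟨-, h1⟩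
  · -- N ≤ K
    have hNK : N ≤ K := (Subgroup.relIndex_eq_one.mp h1).trans inf_le_right
    rw [sup_eq_right.mpr hNK] at hfr
    exact hfr
  · -- N ⊓ K = P : Burnside gives a normal p-complement in K
    exfalso
    have hNKP : N ⊓ K = (P : Subgroup ↥G) :=
      le_antisymm (Subgroup.relIndex_eq_one.mp h1) (le_inf hPN hPK)
    set P' : Sylow p ↥K := P.subtype hPK with hP'
    have hP'coe : (P' : Subgroup ↥K) = (P : Subgroup ↥G).subgroupOf K := Sylow.coe_subtype _ _
    have hP'card : Nat.card (P' : Subgroup ↥K) = p := by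
      rw [hP'coe, Nat.card_congr (Subgroup.subgroupOfEquivOfLe hPK).toEquiv, hPcard]
    have hnorm : Subgroup.normalizer ((P' : Subgroup ↥K) : Set ↥K) = (P' : Subgroup ↥K) := by
      rw [hP'coe, ← Subgroup.subgroupOf_normalizer_eq hPK, ← Subgroup.inf_subgroupOf_right,
        hNKP]
    have hcomm : IsMulCommutative (P' : Subgroup ↥K) := by
      have hcyc : IsCyclic (P' : Subgroup ↥K) := isCyclic_of_prime_card hP'card
      exact ⟨⟨fun a b => (IsCyclic.commGroup (α := (P' : Subgroup ↥K))).mul_comm a b⟩⟩
    have hNC : Subgroup.normalizer ((P' : Subgroup ↥K) : Set ↥K) ≤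
        Subgroup.centralizer ((P' : Subgroup ↥K) : Set ↥K) := by
      rw [hnorm]; exact Subgroup.le_centralizer (P' : Subgroup ↥K)
    have hc := MonoidHom.ker_transferSylow_isComplement' P' hNC
    have hnd := MonoidHom.not_dvd_card_ker_transferSylow P' hNC
    set f := MonoidHom.transferSylow P' hNC with hf
    set M₀ : Subgroup ↥K := f.ker with hM₀
    set M₁ : Subgroup ↥G := M₀.map K.subtype with hM₁
    have hM₁card : Nat.card M₁ = Nat.card M₀ :=
      Subgroup.card_map_of_injective (Subgroup.subtype_injective K)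
    have hM₁n : M₁.Normal := by
      constructor
      intro m hm g
      obtain ⟨m₀, hm₀, rfl⟩ := hm
      have hmem : g * (m₀ : ↥G) * g⁻¹ ∈ K := hK.conj_mem _ m₀.2 g
      refine ⟨⟨g * (m₀ : ↥G) * g⁻¹, hmem⟩, ?_, rfl⟩
      show (⟨g * (m₀ : ↥G) * g⁻¹, hmem⟩ : ↥K) ∈ f.ker
      rw [MonoidHom.mem_ker]
      set y : ↥K := ⟨g * (m₀ : ↥G) * g⁻¹, hmem⟩ with hy
      have ho1 : orderOf (f y) ∣ orderOf y := orderOf_map_dvd f y
      have ho2 : orderOf y = orderOf m₀ := by
        rw [← Subgroup.orderOf_coe y, ← Subgroup.orderOf_coe m₀]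
        have : g * (m₀ : ↥G) * g⁻¹ = (MulAut.conj g) (m₀ : ↥G) := by simp
        show orderOf (g * (m₀ : ↥G) * g⁻¹) = _
        rw [this, MulEquiv.orderOf_eq]
      have ho3 : orderOf m₀ ∣ Nat.card M₀ := Subgroup.orderOf_dvd_natCard M₀ hm₀
      have ho4 : orderOf (f y) ∣ p := by
        have := orderOf_dvd_natCard (f y)
        rwa [hP'card] at this
      rcases (Nat.dvd_prime hpp).mp ho4 with h | h
      · exact orderOf_eq_one_iff.mp h
      · exfalso
        rw [h, ho2] at ho1
        exact hnd (ho1.trans ho3)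
    have hM₁bot : M₁ = ⊥ := by
      by_contra hcon
      have := L M₁ hM₁n hcon
      rw [hM₁card] at this
      exact hnd this
    have hM₀card : Nat.card M₀ = 1 := by
      rw [← hM₁card, hM₁bot, Subgroup.card_bot]
    have hKcard : Nat.card K = p := by
      have := hc.card_mul_card
      rw [hM₀card, one_mul, hP'card] at this
      exact this.symm
    have hKP : (P : Subgroup ↥G) = K :=
      Subgroup.eq_of_le_of_card_ge hPK (by rw [hKcard, hPcard])
    have hPn : (P : Subgroup ↥G).Normal := hKP ▸ hK
    have huniq : Subsingleton (Sylow p ↥G) := by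
      constructor
      intro A B
      have hA : A = P := by
        obtain ⟨g, hg⟩ := MulAction.exists_smul_eq ↥G P A
        rw [← hg]
        exact Sylow.smul_eq_of_normal
      have hB : B = P := by
        obtain ⟨g, hg⟩ := MulAction.exists_smul_eq ↥G P B
        rw [← hg]
        exact Sylow.smul_eq_of_normal
      rw [hA, hB]
    have := Finite.card_le_one_iff_subsingleton.mpr huniq
    omega

end Cfsg.Agent.S1013
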