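import Cfsg.Statements.S1014
import Cfsg.Agent.Lib.Helper17.PrimeSylow
import Cfsg.Agent.Lib.Helper17.Involution

set_option autoImplicit false
open Cfsg
open Cfsg.Agent.Lib.Helper17

namespace Cfsg.Agent.S1014

/-- No finite simple group has order 1104 = 2^4 * 3 * 23. -/
theorem result {G : Type*} [Group G] [Finite G] [IsSimpleGroup G] : Nat.card G ≠ 1104 := by
  intro h
  have hnp : ¬ (Nat.card G).Prime := by rw [h]; norm_num
  have : Fact (Nat.Prime 23) := ⟨by norm_num⟩
  obtain ⟨P⟩ := (Sylow.nonempty : Nonempty (Sylow 23 G))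
  have hc := card_sylow_mem_cands (G := G) 23 1 48 (by rw [h]; norm_num) (by norm_num)
  have hcl : sylowCands 23 48 = [1, 24] := by decide +kernel
  rw [hcl] at hc
  have h3 : Nat.card (Sylow 23 G) ≠ 1 :=
    card_sylow_ne_one 23 (by rw [h]; norm_num) 2 (by norm_num) (by norm_num) (by rw [h]; norm_num)
  have h5 : Nat.card (Sylow 23 G) = 24 := by
    simp only [List.mem_cons, List.not_mem_nil, or_false] at hc
    omega
  have h4 := card_sylow_mul_card_normalizer 23 P
  rw [h5, h] at h4
  have hN : Nat.card (Subgroup.normalizer ((P : Subgroup G) : Set G)) = 46 := by omega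
  have hP : Nat.card (P : Subgroup G) = 23 := by
    simpa using card_sylow_eq_of_card_eq 23 1 48 (by rw [h]; norm_num) (by norm_num) P
  obtain ⟨hr1, hr2, hr3, hPC⟩ := relIndex_centralizer_sylow_prime hnp 23 P hP
  rw [hN] at hr3
  have hPC' : 23 ∣ Nat.card (Subgroup.centralizer ((P : Subgroup G) : Set G)) := by
    have := Subgroup.card_dvd_of_le hPC
    rwa [hP] at this
  have hC : Nat.card (Subgroup.centralizer ((P : Subgroup G) : Set G)) = 23 := by
    obtain ⟨k, hk⟩ := hPC'
    rw [hk] at hr3 ⊢
    set r := (Subgroup.centralizer ((P : Subgroup G) : Set G)).relIndex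
      (Subgroup.normalizer ((P : Subgroup G) : Set G)) with hr
    have hrk : r * k = 2 := by
      have : 23 * (r * k) = 23 * 2 := by
        calc 23 * (r * k) = r * (23 * k) := by ring
          _ = 23 * 2 := by rw [hr3]
      exact Nat.eq_of_mul_eq_mul_left (by norm_num) this
    have hr2' : r ≤ 2 := Nat.le_of_dvd (by norm_num) (Dvd.intro _ hrk)
    have hk1 : k = 1 := by
      interval_cases r
      · simp at hrk
      · exact absurd rfl hr1
      · omega
    rw [hk1]
  -- an involution in the normalizer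
  obtain ⟨t, ht⟩ := exists_prime_orderOf_dvd_card'
    (G := ↥(Subgroup.normalizer ((P : Subgroup G) : Set G))) 2 (by rw [hN]; norm_num)
  have ht' : orderOf (t : G) = 2 := by rw [Subgroup.orderOf_coe, ht]
  have ht2 : (t : G) * (t : G) = 1 := by
    rw [← pow_two, ← ht']; exact pow_orderOf_eq_one _
  have htC : (t : G) ∉ Subgroup.centralizer ((P : Subgroup G) : Set G) := by
    intro hmem
    have := Subgroup.orderOf_dvd_natCard _ hmem
    rw [ht', hC] at this
    revert this; decide
  have hle := ncard_fixed_sylow_le_two 23 P hP h5 (t : G) t.2 htC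
  obtain ⟨c, hc4⟩ := involution_fixed_mod_four hnp (X := Sylow 23 G) (t : G) ht2
  rw [h5] at hc4
  have hpos : 0 < Set.ncard {Q : Sylow 23 G | (t : G) • Q = Q} := by
    rw [Set.ncard_pos]
    exact ⟨P, Sylow.smul_eq_iff_mem_normalizer.mpr t.2⟩
  omega

end Cfsg.Agent.S1014
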