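import Cfsg.Statements.S1015
import Cfsg.Agent.Lib.Helper17.Tame

set_option autoImplicit false
open Cfsg
open Cfsg.Agent.Lib.Helper17

namespace Cfsg.Agent.S1015

/-- No finite simple group has order 1200 = 2^4 * 3 * 5^2. -/
theorem result {G : Type*} [Group G] [Finite G] [IsSimpleGroup G] : Nat.card G ≠ 1200 := by
  intro h
  have hnp : ¬ (Nat.card G).Prime := by rw [h]; norm_num
  have : Fact (Nat.Prime 5) := ⟨by norm_num⟩
  have hc := card_sylow_mem_cands (G := G) 5 2 48 (by rw [h]; norm_num) (by norm_num)
  have hcl : sylowCands 5 48 = [1, 6, 16] := by decide +kernel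
  rw [hcl] at hc
  have h3 : Nat.card (Sylow 5 G) ≠ 1 :=
    card_sylow_ne_one 5 (by rw [h]; norm_num) 2 (by norm_num) (by norm_num) (by rw [h]; norm_num)
  have h4 := card_sylow_modEq_of_tameCheck hnp 5 2 48 2 (by rw [h]; norm_num) (by norm_num)
    (by norm_num) (by decide +kernel)
  have h5 := card_dvd_factorial_card_sylow 5 h3
  rw [h] at h5
  simp only [List.mem_cons, List.not_mem_nil, or_false] at hc
  rcases hc with hc | hc | hc
  · exact h3 hc
  · rw [hc] at h5
    revert h5; decide
  · rw [hc] at h4
    revert h4; decide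

end Cfsg.Agent.S1015
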