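import Cfsg.Statements.S1016
import Cfsg.Agent.Lib.Helper91.SSBasic
import Cfsg.Agent.Lib.Helper91.SSSum
import Cfsg.Agent.Lib.Helper91.SSBrauer
import Cfsg.Agent.Lib.Helper17.PrimeSylow
import Cfsg.Agent.Lib.Helper17.Involution

set_option autoImplicit false
open Cfsg

namespace Cfsg.Agent.S1016

open Cfsg.Agent.Lib.Helper17 Cfsg.Agent.Lib.Helper91.SS

/-- the only solutions of Brauer's degree equation for `p = 5`, `e = 2` among divisors of `1440` -/
theorem arith_1440 (x y : ℕ) (hx : x ∣ 1440) (hy : y ∣ 1440) (hx1 : x ≠ 1) :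
    ¬ (x % 5 = 1 ∧ y = x + 1) ∧ (x % 5 = 4 ∧ x = y + 1 → x = 4 ∨ x = 9) := by
  have hx' : x ∈ Nat.divisors 1440 := Nat.mem_divisors.mpr ⟨hx, by norm_num⟩
  have hy' : y ∈ Nat.divisors 1440 := Nat.mem_divisors.mpr ⟨hy, by norm_num⟩
  have key : ∀ x ∈ Nat.divisors 1440, ∀ y ∈ Nat.divisors 1440, x ≠ 1 →
      ¬ (x % 5 = 1 ∧ y = x + 1) ∧ (x % 5 = 4 ∧ x = y + 1 → x = 4 ∨ x = 9) := by decide +kernel
  exact key x hx' y hy' hx1

/-- The case `[N(P) : C(P)] = 2` with an element of order `2` or `3` in `C(P)`. -/
theorem case_m2 {G : Type*} [Group G] [Finite G] [IsSimpleGroup G] (hG : Nat.card G = 1440)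
    (P : Sylow 5 G) (hP : Nat.card (P : Subgroup G) = 5)
    (hm : (Subgroup.centralizer ((P : Subgroup G) : Set G)).relIndex
      (Subgroup.normalizer ((P : Subgroup G) : Set G)) = 2)
    (c : G) (hc : c ∈ Subgroup.centralizer ((P : Subgroup G) : Set G))
    (hcq : orderOf c = 2 ∨ orderOf c = 3) : False := by
  have : Fact (Nat.Prime 5) := ⟨by norm_num⟩
  have hGn : ¬ (Nat.card G).Prime := by rw [hG]; norm_num
  obtain ⟨k, χ, a, η, d, δ, hk, hδ, hχ, hη1, hηP, hnorm, hrel, hj, hreal⟩ :=
    brauer_chars hGn 5 P hP 2 (by norm_num) hm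
  have h2 : ((5 - 1) / 2 : ℕ) = 2 := by norm_num
  rw [h2] at hnorm hrel
  push_cast at hnorm hrel
  have hk' : k = 0 ∨ k = 1 := by omega
  rcases hk' with rfl | rfl
  · simp only [Finset.univ_eq_empty, Finset.sum_empty, add_zero] at hnorm
    rcases hδ with rfl | rfl
    · have : 2 * (d * d - d) = 1 := by nlinarith
      omega
    · have : 2 * (d * d + d) = 1 := by nlinarith
      omega
  · simp only [Fin.sum_univ_succ, Fin.sum_univ_zero, add_zero] at hnorm hrel
    obtain ⟨ha0, hx1, hxa⟩ := hχ 0
    have hirr := (χ 0).2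
    have hirrη := η.2
    obtain ⟨hxd, hxpos, hxdvd⟩ := Cfsg.Agent.Lib.Helper79.irr_charDegree hirr
    obtain ⟨hyd, hypos, hydvd⟩ := Cfsg.Agent.Lib.Helper79.irr_charDegree hirrη
    rw [hG] at hxdvd hydvd
    set x := Cfsg.charDegree ((χ 0 : IrrCharacter G) : G → ℂ) with hxdef
    set y := Cfsg.charDegree ((η : IrrCharacter G) : G → ℂ) with hydef
    have hx1' : x ≠ 1 := by
      intro h
      apply hx1
      rw [hxd, h]
      norm_num
    have hmod : (x : ℤ) ≡ a 0 [ZMOD 5] := by
      have := Cfsg.Agent.Lib.Helper90.BrauerDeg.degree_modEq hirr 5 (P : Subgroup G) hP (a 0)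
        (fun y hy hy1 => hxa y y (isPPart_self (by norm_num) _ hP y hy hy1) hy hy1)
      exact_mod_cast this
    -- the relation at 1
    have hrel1 := hrel 1 (by rw [orderOf_one]; norm_num)
    rw [hxd, hyd] at hrel1
    have hrel1' : (2 * d - δ) * (y : ℤ) + 1 + a 0 * (x : ℤ) = 0 := by
      have h : (((2 * d - δ) * (y : ℤ) + 1 + a 0 * (x : ℤ) : ℤ) : ℂ) = 0 := by
        push_cast
        exact hrel1
      exact_mod_cast h
    -- a 0 = ±1, 2d - δ = ±1
    have hd : -1 ≤ d ∧ d ≤ 1 := by
      constructor <;> rcases hδ with rfl | rfl <;> nlinarith [sq_nonneg (a 0), sq_nonneg (d - 1), sq_nonneg (d + 1)]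
    have ha2 : a 0 ^ 2 = 1 ∧ (2 * d - δ = 1 ∨ 2 * d - δ = -1) := by
      obtain ⟨hd1, hd2⟩ := hd
      have hapos : 0 < a 0 ^ 2 := by positivity
      obtain ⟨A, hA⟩ : ∃ A, A = a 0 ^ 2 := ⟨_, rfl⟩
      rw [← hA] at hnorm hapos ⊢
      interval_cases d <;> rcases hδ with rfl | rfl <;> norm_num at hnorm ⊢ <;> omega
    obtain ⟨ha2, hε⟩ := ha2
    have ha : a 0 = 1 ∨ a 0 = -1 := by
      have h1 : (a 0 - 1) * (a 0 + 1) = 0 := by nlinarith
      rcases mul_eq_zero.mp h1 with h | h
      · left; omega
      · right; omega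
    have harith := arith_1440 x y hxdvd hydvd hx1'
    unfold Int.ModEq at hmod
    have hxy : (x = 4 ∨ x = 9) ∧ x = y + 1 ∧ a 0 = -1 := by
      rcases hε with h | h <;> rcases ha with h' | h' <;> rw [h, h'] at hrel1' <;> rw [h'] at hmod
      · omega
      · exact ⟨harith.2 ⟨by omega, by omega⟩, by omega, h'⟩
      · exact absurd ⟨by omega, by omega⟩ harith.1
      · omega
    obtain ⟨hx49, hxy, ha0'⟩ := hxy
    have hchar := Cfsg.Agent.Lib.Helper80.isCharacter_of_isIrrCharacter hirr
    have hfaith : ∀ g : G, ((χ 0 : IrrCharacter G) : G → ℂ) g = (x : ℂ) → g = 1 := by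
      intro g hg
      exact eq_one_of_char_eq (χ 0) hx1 g (by rw [hg, hxd])
    have hbound : ∀ g : G, ‖((χ 0 : IrrCharacter G) : G → ℂ) g‖ ≤ (x : ℝ) :=
      fun g => Cfsg.Agent.Lib.Helper80.norm_char_le_charDegree hchar g
    rcases hcq with hc2 | hc3
    · obtain ⟨t, ht1, ht2, htC, n, hn⟩ := sum_involution_centralizer hirr 5 (by norm_num)
        (P : Subgroup G) hP (a 0) hxa c hc hc2
      rw [hxd, ha0'] at hn
      push_cast at hn
      have hval : ((χ 0 : IrrCharacter G) : G → ℂ) t = ((10 * n + 8 : ℕ) : ℂ) - (x : ℂ) := by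
        push_cast
        linear_combination hn
      obtain ⟨k4, hk4⟩ := mod_four hGn hchar t ht2
      rw [hxd] at hk4
      have hb := hbound t
      rcases hx49 with h4 | h9
      · rw [h4] at hval hb hk4
        have hval' : ((χ 0 : IrrCharacter G) : G → ℂ) t = ((10 * n + 4 : ℕ) : ℂ) := by
          rw [hval]; push_cast; ring
        rw [hval', Complex.norm_natCast] at hb
        have hn0 : n = 0 := by
          have : (10 * n + 4 : ℕ) ≤ 4 := by exact_mod_cast hb
          omega
        subst hn0
        apply ht1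
        apply hfaith
        rw [hval', h4]
      · rw [h9] at hval hb hk4
        rcases Nat.eq_zero_or_pos n with hn0 | hnpos
        · subst hn0
          rw [hval] at hk4
          have : ((4 * k4 : ℕ) : ℂ) = ((10 : ℕ) : ℂ) := by
            push_cast
            linear_combination hk4
          have := Nat.cast_injective this
          omega
        · have hval' : ((χ 0 : IrrCharacter G) : G → ℂ) t = ((10 * n - 1 : ℕ) : ℂ) := by
            rw [hval]
            rw [Nat.cast_sub (by omega)]
            push_cast; ring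
          rw [hval', Complex.norm_natCast] at hb
          have hn1 : n = 1 := by
            have : (10 * n - 1 : ℕ) ≤ 9 := by exact_mod_cast hb
            omega
          subst hn1
          apply ht1
          apply hfaith
          rw [hval', h9]
    · obtain ⟨t, ht1, ht3, htC, n, hn⟩ := sum_order_three_centralizer hirr 5 (by norm_num)
        (P : Subgroup G) hP (a 0) hxa c hc hc3
      have hre := hreal 0 (by
        rw [hxd, hyd]
        intro h
        have : x = y := by exact_mod_cast h
        omega) (by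
        intro i' hi'
        exact absurd (Subsingleton.elim i' 0) hi') t
      rw [hre, hxd, ha0'] at hn
      push_cast at hn
      have hb := hbound t
      have hint := Cfsg.Agent.Lib.Helper79.irr_isIntegral hirr t
      rcases hx49 with h4 | h9
      · rw [h4] at hn hb
        have hval : 2 * ((χ 0 : IrrCharacter G) : G → ℂ) t = ((15 * n + 8 : ℕ) : ℂ) := by
          push_cast
          linear_combination hn
        have hn0 : n = 0 := by
          have h1 : ‖2 * ((χ 0 : IrrCharacter G) : G → ℂ) t‖ ≤ 8 := by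
            rw [norm_mul]
            have : ‖(2 : ℂ)‖ = 2 := by norm_num
            rw [this]
            push_cast at hb
            linarith
          rw [hval, Complex.norm_natCast] at h1
          have : (15 * n + 8 : ℕ) ≤ 8 := by exact_mod_cast h1
          omega
        subst hn0
        apply ht1
        apply hfaith
        rw [h4]
        push_cast at hval ⊢
        linear_combination hval / 2
      · rw [h9] at hn hb
        have hval : 2 * ((χ 0 : IrrCharacter G) : G → ℂ) t = ((15 * n + 3 : ℕ) : ℂ) := by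
          push_cast
          linear_combination hn
        have hn1 : n ≤ 1 := by
          have h1 : ‖2 * ((χ 0 : IrrCharacter G) : G → ℂ) t‖ ≤ 18 := by
            rw [norm_mul]
            have : ‖(2 : ℂ)‖ = 2 := by norm_num
            rw [this]
            push_cast at hb
            linarith
          rw [hval, Complex.norm_natCast] at h1
          have : (15 * n + 3 : ℕ) ≤ 18 := by exact_mod_cast h1
          omega
        interval_cases n
        · have hval' : 2 * ((χ 0 : IrrCharacter G) : G → ℂ) t = 3 := by rw [hval]; norm_num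
          have := Cfsg.Agent.Lib.Helper79.nat_dvd_of_eq_mul_isIntegral 3 2 (by norm_num) _ hint
            (by push_cast; exact hval'.symm)
          omega
        · apply ht1
          apply hfaith
          rw [h9]
          push_cast at hval ⊢
          linear_combination hval / 2

/-- The case `|N(P)| = 40`, `|C(P)| = 10`. -/
theorem case_m4 {G : Type*} [Group G] [Finite G] [IsSimpleGroup G] (hG : Nat.card G = 1440)
    (P : Sylow 5 G) (hP : Nat.card (P : Subgroup G) = 5)
    (hn : Nat.card (Sylow 5 G) = 36)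
    (hN : Nat.card (Subgroup.normalizer ((P : Subgroup G) : Set G)) = 40)
    (hC : Nat.card (Subgroup.centralizer ((P : Subgroup G) : Set G)) = 10) : False := by
  classical
  have : Fact (Nat.Prime 5) := ⟨by norm_num⟩
  have h5 : Nat.Prime 5 := by norm_num
  have hGn : ¬ (Nat.card G).Prime := by rw [hG]; norm_num
  obtain ⟨-, -, -, hPC⟩ := relIndex_centralizer_sylow_prime hGn 5 P hP
  set N := Subgroup.normalizer ((P : Subgroup G) : Set G) with hNdef
  set C := Subgroup.centralizer ((P : Subgroup G) : Set G) with hCdef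
  have hCN : C ≤ N := Subgroup.centralizer_le_normalizer _
  have hPN : (P : Subgroup G) ≤ N := Subgroup.le_normalizer
  -- elements of P of order dividing 2 are trivial
  have hP2 : ∀ y : G, y ∈ (P : Subgroup G) → y * y = 1 → y = 1 := by
    intro y hy hyy
    by_contra hy1
    have h1 := orderOf_eq_of_mem_of_card_prime h5 (P : Subgroup G) hP y hy hy1
    have h2 : orderOf y ∣ 2 := orderOf_dvd_of_pow_eq_one (by rw [pow_two]; exact hyy)
    rw [h1] at h2
    have := Nat.le_of_dvd (by norm_num) h2
    omega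
  have hPcomm : ∀ a b : G, a ∈ (P : Subgroup G) → b ∈ (P : Subgroup G) → a * b = b * a :=
    fun a b ha hb => Subgroup.mem_centralizer_iff.mp (hPC hb) a ha
  -- an involution t of C
  obtain ⟨t', ht'⟩ := exists_prime_orderOf_dvd_card' (G := C) 2 (by rw [hC]; norm_num)
  obtain ⟨t, htdef⟩ : ∃ t : G, t = (t' : G) := ⟨_, rfl⟩
  have htC : t ∈ C := by rw [htdef]; exact t'.2
  have hto : orderOf t = 2 := by rw [htdef, Subgroup.orderOf_coe]; exact ht'
  have ht1 : t ≠ 1 := by
    intro h
    rw [h, orderOf_one] at hto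
    omega
  have ht2 : t * t = 1 := by
    rw [← pow_two, ← hto]
    exact pow_orderOf_eq_one t
  have htinv : t⁻¹ = t := inv_eq_of_mul_eq_one_left ht2
  -- t is the unique involution of C
  have huniq : ∀ v : G, v ∈ C → v ≠ 1 → v * v = 1 → v = t := by
    intro v hvC hv1 hv2
    have hidx : ((P : Subgroup G).subgroupOf C).index = 2 := by
      have h1 := Subgroup.index_mul_card ((P : Subgroup G).subgroupOf C)
      rw [Nat.card_congr (Subgroup.subgroupOfEquivOfLe hPC).toEquiv, hP, hC] at h1
      omega
    have hvP : v ∉ (P : Subgroup G) := fun h => hv1 (hP2 v h hv2)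
    have htP : t ∉ (P : Subgroup G) := fun h => ht1 (hP2 t h ht2)
    have hmul := Subgroup.mul_mem_iff_of_index_two hidx (a := (⟨v, hvC⟩ : C)) (b := (⟨t, htC⟩ : C))
    have hvt : v * t ∈ (P : Subgroup G) := by
      have h1 : ((⟨v, hvC⟩ : C) * (⟨t, htC⟩ : C)) ∈ (P : Subgroup G).subgroupOf C := by
        rw [hmul]
        simp only [Subgroup.mem_subgroupOf]
        exact ⟨fun h => absurd h hvP, fun h => absurd h htP⟩
      simpa [Subgroup.mem_subgroupOf] using h1
    have hcomm : (v * t) * v = v * (v * t) := Subgroup.mem_centralizer_iff.mp hvC _ hvt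
    have hvt' : t * v = v * t := by
      rw [mul_assoc] at hcomm
      exact mul_left_cancel hcomm
    have h1 : (v * t) * (v * t) = 1 := by
      calc (v * t) * (v * t) = v * (t * v) * t := by group
        _ = v * (v * t) * t := by rw [hvt']
        _ = (v * v) * (t * t) := by group
        _ = 1 := by rw [hv2, ht2, one_mul]
    have h2 := hP2 _ hvt h1
    calc v = t⁻¹ := eq_inv_of_mul_eq_one_left h2
      _ = t := htinv
  have hconj : ∀ g : G, g * t * g⁻¹ ≠ 1 ∧ (g * t * g⁻¹) * (g * t * g⁻¹) = 1 := by
    intro g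
    constructor
    · intro h
      apply ht1
      have h1 : t = g⁻¹ * (g * t * g⁻¹) * g := by group
      rw [h1, h]
      group
    · calc (g * t * g⁻¹) * (g * t * g⁻¹) = g * (t * t) * g⁻¹ := by group
        _ = 1 := by rw [ht2]; group
  -- N centralizes t
  have hNt : ∀ n : G, n ∈ N → n * t = t * n := by
    intro n hn
    have hcj : n * t * n⁻¹ ∈ C := by
      rw [hCdef, Subgroup.mem_centralizer_iff]
      intro y hy
      have hy' : n⁻¹ * y * n ∈ (P : Subgroup G) := by
        have := (Subgroup.mem_normalizer_iff.mp (inv_mem hn) y).mp hy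
        rwa [inv_inv] at this
      have h1 : (n⁻¹ * y * n) * t = t * (n⁻¹ * y * n) := Subgroup.mem_centralizer_iff.mp htC _ hy'
      calc y * (n * t * n⁻¹) = n * ((n⁻¹ * y * n) * t) * n⁻¹ := by group
        _ = n * (t * (n⁻¹ * y * n)) * n⁻¹ := by rw [h1]
        _ = n * t * n⁻¹ * y := by group
    have h3 := huniq _ hcj (hconj n).1 (hconj n).2
    calc n * t = (n * t * n⁻¹) * n := by group
      _ = t * n := by rw [h3]
  -- the centralizer of t is N
  set H := Subgroup.centralizer ({t} : Set G) with hHdef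
  have hmemH : ∀ g : G, g ∈ H ↔ g * t = t * g := by
    intro g
    rw [hHdef, Subgroup.mem_centralizer_iff]
    simp only [Set.mem_singleton_iff, forall_eq]
    exact eq_comm
  have hNH : N ≤ H := fun n hn => (hmemH n).mpr (hNt n hn)
  have hPH : (P : Subgroup G) ≤ H := hPN.trans hNH
  have hHN : H = N := by
    have h1 : Nat.card (Sylow 5 H) ≡ 1 [MOD 5] := card_sylow_modEq_one 5 H
    have h2 : Nat.card (Sylow 5 H) =
        (Subgroup.normalizer (((P.subtype hPH : Sylow 5 H) : Subgroup H) : Set H)).index :=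
      (P.subtype hPH).card_eq_index_normalizer
    have h3 : Subgroup.normalizer (((P.subtype hPH : Sylow 5 H) : Subgroup H) : Set H) =
        N.subgroupOf H := by
      rw [Sylow.coe_subtype]
      exact (Subgroup.subgroupOf_normalizer_eq hPH).symm
    have h4 : (N.subgroupOf H).index * 40 = Nat.card H := by
      have := Subgroup.index_mul_card (N.subgroupOf H)
      rwa [Nat.card_congr (Subgroup.subgroupOfEquivOfLe hNH).toEquiv, hN] at this
    obtain ⟨k, hk⟩ : ∃ k, k = (N.subgroupOf H).index := ⟨_, rfl⟩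
    rw [h3, ← hk] at h2
    rw [← hk] at h4
    rw [h2] at h1
    have h5' : Nat.card H ∣ 1440 := hG ▸ Subgroup.card_subgroup_dvd_card H
    have hk36 : k ∣ 36 := by
      rw [← h4] at h5'
      exact Nat.dvd_of_mul_dvd_mul_right (by norm_num : 0 < 40) h5'
    have hk' : k = 1 ∨ k = 6 ∨ k = 36 := by
      have hle : k ≤ 36 := Nat.le_of_dvd (by norm_num) hk36
      unfold Nat.ModEq at h1
      clear h2 h4 h5' hk
      interval_cases k <;> omega
    rcases hk' with h | h | h
    · symm
      apply Subgroup.eq_of_le_of_card_ge hNH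
      rw [hN, ← h4, h]
    · exfalso
      have hidx : H.index = 6 := by
        have := Subgroup.index_mul_card H
        rw [← h4, h, hG] at this
        omega
      have hne : H ≠ ⊤ := by
        intro htop
        rw [htop, Subgroup.index_top] at hidx
        omega
      have hdvd := card_dvd_factorial_index H hne
      rw [hidx, hG] at hdvd
      revert hdvd
      decide
    · exfalso
      have hHtop : H = ⊤ := by
        apply Subgroup.eq_top_of_card_eq
        rw [← h4, h, hG]
      have htc : t ∈ Subgroup.center G := by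
        rw [Subgroup.mem_center_iff]
        intro g
        have : g ∈ H := by rw [hHtop]; trivial
        exact (hmemH g).mp this
      rcases (inferInstance : (Subgroup.center G).Normal).eq_bot_or_eq_top with hb | htop
      · rw [hb] at htc
        exact ht1 (Subgroup.mem_bot.mp htc)
      · apply not_comm_of_not_prime hGn
        refine ⟨⟨fun a b => ?_⟩⟩
        have hb' : b ∈ Subgroup.center G := by rw [htop]; trivial
        exact (Subgroup.mem_center_iff.mp hb' a)
  -- involutions of N other than t invert P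
  have hinvert : ∀ v : G, v ∈ N → v ≠ 1 → v * v = 1 → v ≠ t →
      ∀ y : G, y ∈ (P : Subgroup G) → v * y * v⁻¹ = y⁻¹ := by
    intro v hvN hv1 hv2 hvt y hy
    have hvC : v ∉ C := fun h => hvt (huniq v h hv1 hv2)
    have hy' : v * y * v⁻¹ ∈ (P : Subgroup G) := (Subgroup.mem_normalizer_iff.mp hvN y).mp hy
    have hwP : y * (v * y * v⁻¹) ∈ (P : Subgroup G) := mul_mem hy hy'
    have h1 : v * (y * (v * y * v⁻¹)) * v⁻¹ = (v * y * v⁻¹) * y := by
      calc v * (y * (v * y * v⁻¹)) * v⁻¹ = (v * y * v⁻¹) * ((v * v) * y * (v * v)⁻¹) := by group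
        _ = (v * y * v⁻¹) * y := by rw [hv2]; group
    have h2 : v * (y * (v * y * v⁻¹)) * v⁻¹ = y * (v * y * v⁻¹) := by
      rw [h1]
      exact hPcomm _ _ hy' hy
    have hvw : v * (y * (v * y * v⁻¹)) = (y * (v * y * v⁻¹)) * v := by
      calc v * (y * (v * y * v⁻¹)) = (v * (y * (v * y * v⁻¹)) * v⁻¹) * v := by group
        _ = (y * (v * y * v⁻¹)) * v := by rw [h2]
    have hw1 : y * (v * y * v⁻¹) = 1 := by
      by_contra hne
      exact hvC (mem_centralizer_of_commute h5 (P : Subgroup G) hP _ hwP hne v hvw)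
    exact eq_inv_of_mul_eq_one_right hw1
  -- the involutions of N
  set J : Set G := {v : G | v ∈ N ∧ v ≠ 1 ∧ v * v = 1} with hJ
  have hJcard : J.ncard ≤ 11 := by
    by_cases hex : ∃ v₁ ∈ J, v₁ ≠ t
    · obtain ⟨v₁, hv₁J, hv₁t⟩ := hex
      have hsub : J ⊆ insert t ((fun c => v₁ * c) '' (C : Set G)) := by
        intro v hv
        by_cases hvt : v = t
        · exact Set.mem_insert_iff.mpr (Or.inl hvt)
        · refine Set.mem_insert_of_mem _ ⟨v₁⁻¹ * v, ?_, by group⟩
          rw [SetLike.mem_coe, hCdef, Subgroup.mem_centralizer_iff]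
          intro y hy
          have e1 := hinvert v hv.1 hv.2.1 hv.2.2 hvt y hy
          have e2 := hinvert v₁ hv₁J.1 hv₁J.2.1 hv₁J.2.2 hv₁t y hy
          calc y * (v₁⁻¹ * v) = v₁⁻¹ * (v₁ * y * v₁⁻¹) * v := by group
            _ = v₁⁻¹ * y⁻¹ * v := by rw [e2]
            _ = v₁⁻¹ * (v * y * v⁻¹) * v := by rw [e1]
            _ = v₁⁻¹ * v * y := by group
      have hCcard : (C : Set G).ncard = 10 := by
        rw [← Nat.card_coe_set_eq]
        exact hC
      calc J.ncard ≤ (insert t ((fun c => v₁ * c) '' (C : Set G))).ncard :=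
            Set.ncard_le_ncard hsub (Set.toFinite _)
        _ ≤ ((fun c => v₁ * c) '' (C : Set G)).ncard + 1 := Set.ncard_insert_le _ _
        _ ≤ (C : Set G).ncard + 1 := by
            have := Set.ncard_image_le (f := fun c => v₁ * c) (s := (C : Set G)) (Set.toFinite _)
            omega
        _ = 11 := by rw [hCcard]
    · push Not at hex
      have hsub : J ⊆ {t} := fun v hv => hex v hv
      have := Set.ncard_le_ncard hsub (Set.toFinite _)
      rw [Set.ncard_singleton] at this
      omega
  -- the Sylow 5-subgroups normalized by t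
  set F : Set (Sylow 5 G) := {Q : Sylow 5 G | t • Q = Q} with hF
  have hFJ : F.ncard ≤ J.ncard := by
    have hex : ∀ Q : Sylow 5 G, ∃ g : G, g • P = Q := fun Q => MulAction.exists_smul_eq G P Q
    choose gg hgg using hex
    apply Set.ncard_le_ncard_of_injOn (fun Q => gg Q * t * (gg Q)⁻¹)
    · intro Q hQ
      have hQ' : t • Q = Q := hQ
      have h1 : ((gg Q)⁻¹ * t * gg Q) • P = P := by
        rw [mul_smul, mul_smul, hgg Q, hQ']
        exact inv_smul_eq_iff.mpr (hgg Q).symm
      have h2 : (gg Q)⁻¹ * t * gg Q ∈ N := Sylow.smul_eq_iff_mem_normalizer.mp h1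
      have h3 := hNt _ h2
      have h4 : (gg Q * t * (gg Q)⁻¹) * t = t * (gg Q * t * (gg Q)⁻¹) := by
        calc (gg Q * t * (gg Q)⁻¹) * t = gg Q * (t * ((gg Q)⁻¹ * t * gg Q)) * (gg Q)⁻¹ := by group
          _ = gg Q * (((gg Q)⁻¹ * t * gg Q) * t) * (gg Q)⁻¹ := by rw [h3]
          _ = t * (gg Q * t * (gg Q)⁻¹) := by group
      have h5 : gg Q * t * (gg Q)⁻¹ ∈ N := by
        rw [← hHN]
        exact (hmemH _).mpr h4
      exact ⟨h5, (hconj _).1, (hconj _).2⟩
    · intro Q₁ _ Q₂ _ h
      simp only at h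
      have h1 : (gg Q₂)⁻¹ * gg Q₁ * t = t * ((gg Q₂)⁻¹ * gg Q₁) := by
        calc (gg Q₂)⁻¹ * gg Q₁ * t = (gg Q₂)⁻¹ * (gg Q₁ * t * (gg Q₁)⁻¹) * gg Q₁ := by group
          _ = (gg Q₂)⁻¹ * (gg Q₂ * t * (gg Q₂)⁻¹) * gg Q₁ := by rw [h]
          _ = t * ((gg Q₂)⁻¹ * gg Q₁) := by group
      have h2 : (gg Q₂)⁻¹ * gg Q₁ ∈ N := by
        rw [← hHN]
        exact (hmemH _).mpr h1
      have h3 : ((gg Q₂)⁻¹ * gg Q₁) • P = P := Sylow.smul_eq_iff_mem_normalizer.mpr h2
      rw [mul_smul, hgg Q₁] at h3
      calc Q₁ = gg Q₂ • ((gg Q₂)⁻¹ • Q₁) := (smul_inv_smul _ _).symm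
        _ = gg Q₂ • P := by rw [h3]
        _ = Q₂ := hgg Q₂
  obtain ⟨c4, hc4⟩ := involution_fixed_mod_four hGn (X := Sylow 5 G) t ht2
  rw [hn] at hc4
  have hc4' : F.ncard + 4 * c4 = 36 := hc4
  -- P acts on F with unique fixed point P
  have hF5 : F.ncard % 5 = 1 := by
    let inst : MulAction (P : Subgroup G) F :=
      { smul := fun y Q => ⟨(y : G) • (Q : Sylow 5 G), by
          show t • ((y : G) • (Q : Sylow 5 G)) = (y : G) • (Q : Sylow 5 G)
          have hQ : t • (Q : Sylow 5 G) = Q := Q.2
          have hcomm : t * (y : G) = (y : G) * t :=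
            (Subgroup.mem_centralizer_iff.mp htC y y.2).symm
          rw [← mul_smul, hcomm, mul_smul, hQ]⟩
        one_smul := fun Q => Subtype.ext (one_smul G (Q : Sylow 5 G))
        mul_smul := fun y z Q => Subtype.ext (mul_smul (y : G) (z : G) (Q : Sylow 5 G)) }
    have hsmul : ∀ (y : (P : Subgroup G)) (Q : F), ((y • Q : F) : Sylow 5 G) = (y : G) • (Q : Sylow 5 G) :=
      fun _ _ => rfl
    have hmod := P.2.card_modEq_card_fixedPoints F
    have hPF : P ∈ F := by
      show t • P = P
      exact Sylow.smul_eq_iff_mem_normalizer.mpr (hCN htC)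
    have hfix : MulAction.fixedPoints (P : Subgroup G) F = {⟨P, hPF⟩} := by
      ext ⟨Q, hQ⟩
      simp only [MulAction.mem_fixedPoints, Set.mem_singleton_iff, Subtype.mk.injEq]
      constructor
      · intro h
        have h' : ∀ y : (P : Subgroup G), (y : G) • Q = Q := fun y => by
          have := congrArg Subtype.val (h y)
          rwa [hsmul] at this
        have hle : (P : Subgroup G) ≤ Subgroup.normalizer ((Q : Subgroup G) : Set G) :=
          fun y hy => Sylow.smul_eq_iff_mem_normalizer.mp (h' ⟨y, hy⟩)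
        have h4 : (P : Subgroup G) ⊓ Subgroup.normalizer ((Q : Subgroup G) : Set G)
            = (P : Subgroup G) ⊓ (Q : Subgroup G) := P.2.inf_normalizer_sylow Q
        rw [inf_eq_left.mpr hle] at h4
        have hle' : (P : Subgroup G) ≤ (Q : Subgroup G) := inf_eq_left.mp h4.symm
        exact Sylow.ext (P.3 Q.2 hle')
      · rintro rfl y
        apply Subtype.ext
        rw [hsmul]
        exact Sylow.smul_eq_iff_mem_normalizer.mpr (Subgroup.le_normalizer y.2)
    rw [hfix, Nat.card_coe_set_eq, Nat.card_coe_set_eq, Set.ncard_singleton] at hmod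
    exact hmod
  omega

/-- No finite simple group has order 1440 = 2^5 * 3^2 * 5. -/
theorem result {G : Type*} [Group G] [Finite G] [IsSimpleGroup G] : Nat.card G ≠ 1440 := by
  intro hG
  have : Fact (Nat.Prime 5) := ⟨by norm_num⟩
  have hGn : ¬ (Nat.card G).Prime := by rw [hG]; norm_num
  obtain ⟨P⟩ := (Sylow.nonempty : Nonempty (Sylow 5 G))
  have hP : Nat.card (P : Subgroup G) = 5 := by
    simpa using card_sylow_eq_of_card_eq 5 1 288 (by rw [hG]; norm_num) (by norm_num) P
  have hc := card_sylow_mem_cands (G := G) 5 1 288 (by rw [hG]; norm_num) (by norm_num)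
  have hcl : sylowCands 5 288 = [1, 6, 16, 36, 96] := by decide +kernel
  rw [hcl] at hc
  have h1 : Nat.card (Sylow 5 G) ≠ 1 :=
    card_sylow_ne_one 5 (by rw [hG]; norm_num) 2 (by norm_num) (by norm_num)
      (by rw [hG]; norm_num)
  have h4 := card_sylow_mul_card_normalizer 5 P
  rw [hG] at h4
  obtain ⟨hr1, hr2, hr3, -⟩ := relIndex_centralizer_sylow_prime hGn 5 P hP
  obtain ⟨r, hr⟩ : ∃ r, r = (Subgroup.centralizer ((P : Subgroup G) : Set G)).relIndex
      (Subgroup.normalizer ((P : Subgroup G) : Set G)) := ⟨_, rfl⟩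
  rw [← hr] at hr1 hr2 hr3
  have h4' : r ∣ 4 := by simpa using hr2
  have hr4 : r ≤ 4 := Nat.le_of_dvd (by norm_num) h4'
  have hr0 : r ≠ 0 := by
    rintro rfl
    simp at h4'
  simp only [List.mem_cons, List.not_mem_nil, or_false] at hc
  rcases hc with h | h | h | h | h
  · exact h1 h
  · have hd := card_normalizer_dvd_of_card_sylow_succ 5 h (by rw [hG]; norm_num) P
    rw [h] at h4
    have hN : Nat.card (Subgroup.normalizer ((P : Subgroup G) : Set G)) = 240 := by omega
    rw [hN] at hd
    revert hd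
    decide
  · rw [h] at h4
    have hN : Nat.card (Subgroup.normalizer ((P : Subgroup G) : Set G)) = 90 := by omega
    rw [hN] at hr3
    have hr2' : r = 2 := by
      interval_cases r <;> omega
    have hC : Nat.card (Subgroup.centralizer ((P : Subgroup G) : Set G)) = 45 := by
      rw [hr2'] at hr3
      omega
    obtain ⟨c', hc'⟩ := exists_prime_orderOf_dvd_card'
      (G := Subgroup.centralizer ((P : Subgroup G) : Set G)) 3 (by rw [hC]; norm_num)
    exact case_m2 hG P hP (by rw [← hr, hr2']) (c' : G) c'.2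
      (Or.inr (by rw [Subgroup.orderOf_coe]; exact hc'))
  · rw [h] at h4
    have hN : Nat.card (Subgroup.normalizer ((P : Subgroup G) : Set G)) = 40 := by omega
    rw [hN] at hr3
    have hr2' : r = 2 ∨ r = 4 := by
      interval_cases r <;> omega
    rcases hr2' with hr2' | hr2'
    · have hC : Nat.card (Subgroup.centralizer ((P : Subgroup G) : Set G)) = 20 := by
        rw [hr2'] at hr3
        omega
      obtain ⟨c', hc'⟩ := exists_prime_orderOf_dvd_card'
        (G := Subgroup.centralizer ((P : Subgroup G) : Set G)) 2 (by rw [hC]; norm_num)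
      exact case_m2 hG P hP (by rw [← hr, hr2']) (c' : G) c'.2
        (Or.inl (by rw [Subgroup.orderOf_coe]; exact hc'))
    · have hC : Nat.card (Subgroup.centralizer ((P : Subgroup G) : Set G)) = 10 := by
        rw [hr2'] at hr3
        omega
      exact case_m4 hG P hP h hN hC
  · rw [h] at h4
    have hN : Nat.card (Subgroup.normalizer ((P : Subgroup G) : Set G)) = 15 := by omega
    rw [hN] at hr3
    interval_cases r <;> omega

end Cfsg.Agent.S1016
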