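import Cfsg.Statements.S1022
import Cfsg.Agent.Lib.Helper91.SSFive
import Cfsg.Agent.Lib.Helper91.SSExtra

set_option autoImplicit false
open Cfsg

namespace Cfsg.Agent.S1022

open Cfsg.Agent.Lib.Helper17 Cfsg.Agent.Lib.Helper91.SS

/-! ### Arithmetic of the principal `19`-block -/

/-- candidates `(degree, value on 19-singular elements)` for the non-exceptional characters,
together with the padding entry `(0, 0)` -/
def pp19 : List (ℕ × ℤ) := [(0, 0), (56, -1), (96, 1), (112, -2), (189, -1), (192, 2), (378, -2)]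

/-- the weighted degree sum -/
def s19 (x₁ x₂ x₃ x₄ x₅ : ℕ × ℤ) : ℤ :=
  1 + (x₁.2 * (x₁.1 : ℤ) + x₂.2 * (x₂.1 : ℤ) + x₃.2 * (x₃.1 : ℤ) + x₄.2 * (x₄.1 : ℤ) +
        x₅.2 * (x₅.1 : ℤ))

/-- the coefficient of the exceptional degree -/
def c19 (m : ℕ) (d δ : ℤ) : ℤ := ((18 / m : ℕ) : ℤ) * d - δ

/-- the part of the norm equation not involving the non-exceptional characters -/
def b19 (m : ℕ) (d δ : ℤ) : ℤ := (d - δ) ^ 2 + (((18 / m : ℕ) : ℤ) - 1) * d ^ 2 + 1

/-- the check for one tuple -/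
def chk19 (m : ℕ) (d δ : ℤ) (x₁ x₂ x₃ x₄ x₅ : ℕ × ℤ) : Prop :=
  b19 m d δ + (x₁.2 ^ 2 + x₂.2 ^ 2 + x₃.2 ^ 2 + x₄.2 ^ 2 + x₅.2 ^ 2) = (m : ℤ) + 1 →
    s19 x₁ x₂ x₃ x₄ x₅ % c19 m d δ = 0 →
    (c19 m d δ * 459648) % s19 x₁ x₂ x₃ x₄ x₅ = 0 →
    s19 x₁ x₂ x₃ x₄ x₅ ≠ -c19 m d δ →
    s19 x₁ x₂ x₃ x₄ x₅ ≠ 0 →
    m = 6 ∧ (x₁ = (189, -1) ∨ x₂ = (189, -1) ∨ x₃ = (189, -1) ∨ x₄ = (189, -1) ∨
      x₅ = (189, -1))

instance (m : ℕ) (d δ : ℤ) (x₁ x₂ x₃ x₄ x₅ : ℕ × ℤ) : Decidable (chk19 m d δ x₁ x₂ x₃ x₄ x₅) := by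
  unfold chk19
  infer_instance

/-- nested check, level 4 -/
def chkD (m : ℕ) (d δ : ℤ) (x₁ x₂ x₃ x₄ : ℕ × ℤ) : Prop :=
  b19 m d δ + (x₁.2 ^ 2 + x₂.2 ^ 2 + x₃.2 ^ 2 + x₄.2 ^ 2) ≤ (m : ℤ) + 1 →
    ∀ x₅ ∈ pp19, chk19 m d δ x₁ x₂ x₃ x₄ x₅

instance (m : ℕ) (d δ : ℤ) (x₁ x₂ x₃ x₄ : ℕ × ℤ) : Decidable (chkD m d δ x₁ x₂ x₃ x₄) := by
  unfold chkD
  infer_instance

/-- nested check, level 3 -/
def chkC (m : ℕ) (d δ : ℤ) (x₁ x₂ x₃ : ℕ × ℤ) : Prop :=
  b19 m d δ + (x₁.2 ^ 2 + x₂.2 ^ 2 + x₃.2 ^ 2) ≤ (m : ℤ) + 1 →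
    ∀ x₄ ∈ pp19, chkD m d δ x₁ x₂ x₃ x₄

instance (m : ℕ) (d δ : ℤ) (x₁ x₂ x₃ : ℕ × ℤ) : Decidable (chkC m d δ x₁ x₂ x₃) := by
  unfold chkC
  infer_instance

/-- nested check, level 2 -/
def chkB (m : ℕ) (d δ : ℤ) (x₁ x₂ : ℕ × ℤ) : Prop :=
  b19 m d δ + (x₁.2 ^ 2 + x₂.2 ^ 2) ≤ (m : ℤ) + 1 →
    ∀ x₃ ∈ pp19, chkC m d δ x₁ x₂ x₃

instance (m : ℕ) (d δ : ℤ) (x₁ x₂ : ℕ × ℤ) : Decidable (chkB m d δ x₁ x₂) := by
  unfold chkB
  infer_instance

/-- nested check, level 1 -/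
def chkA (m : ℕ) (d δ : ℤ) (x₁ : ℕ × ℤ) : Prop :=
  b19 m d δ + x₁.2 ^ 2 ≤ (m : ℤ) + 1 →
    ∀ x₂ ∈ pp19, chkB m d δ x₁ x₂

instance (m : ℕ) (d δ : ℤ) (x₁ : ℕ × ℤ) : Decidable (chkA m d δ x₁) := by
  unfold chkA
  infer_instance

set_option maxRecDepth 100000 in
/-- the finite verification: every solution of the block equations has `m = 6` and contains a
character of degree `189` -/
theorem key19 : ∀ m ∈ ([2, 3, 6] : List ℕ), ∀ d ∈ ([-1, 0, 1] : List ℤ), ∀ δ ∈ ([1, -1] : List ℤ),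
    ∀ x₁ ∈ pp19, chkA m d δ x₁ := by
  decide +kernel

/-- the admissible non-exceptional degrees -/
theorem cand19 (f : ℕ) (a : ℤ) (hf : f ∣ 459648) (h1 : f ≠ 1) (hsq : f ^ 2 ≤ 459648)
    (ha : a ∈ ([-2, -1, 1, 2] : List ℤ)) (hmod : (f : ℤ) % 19 = a % 19) (n k : ℕ)
    (h : 19 * (n : ℤ) + 2 * (k : ℤ) = (f : ℤ) + 18 * a) (hk1 : 1 ≤ k) (hk2 : 2 * k ≤ f) :
    (f, a) ∈ pp19 := by
  have hf678 : f ∈ List.range 678 := by
    rw [List.mem_range]
    nlinarith
  have key : ∀ f ∈ List.range 678, f ∣ 459648 → f ≠ 1 → ∀ a ∈ ([-2, -1, 1, 2] : List ℤ),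
      (f : ℤ) % 19 = a % 19 →
      (f, a) ∈ ([(2, 2), (18, -1), (21, 2), (36, -2), (56, -1), (96, 1), (112, -2), (189, -1),
        (192, 2), (378, -2)] : List (ℕ × ℤ)) := by decide +kernel
  have hmem := key f hf678 hf h1 a ha hmod
  simp only [List.mem_cons, List.not_mem_nil, or_false, Prod.mk.injEq] at hmem
  rcases hmem with ⟨rfl, rfl⟩ | ⟨rfl, rfl⟩ | ⟨rfl, rfl⟩ | ⟨rfl, rfl⟩ | ⟨rfl, rfl⟩ | ⟨rfl, rfl⟩ |
    ⟨rfl, rfl⟩ | ⟨rfl, rfl⟩ | ⟨rfl, rfl⟩ | ⟨rfl, rfl⟩
  · exfalso; push_cast at h; omega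
  · exfalso; push_cast at h; omega
  · exfalso; push_cast at h; omega
  · exfalso; push_cast at h; omega
  all_goals decide

/-- a sum over `Fin k`, `k ≤ 5`, as a padded sum of five terms -/
theorem pad_sum (k : ℕ) (hk : k ≤ 5) (g : Fin k → ℤ) (Pd : ℕ → ℤ)
    (h1 : ∀ i : Fin k, Pd i = g i) (h2 : ∀ j, k ≤ j → Pd j = 0) :
    ∑ i, g i = Pd 0 + Pd 1 + Pd 2 + Pd 3 + Pd 4 := by
  have e1 : ∑ i, g i = ∑ i : Fin k, Pd i := Finset.sum_congr rfl (fun i _ => (h1 i).symm)
  rw [e1, Fin.sum_univ_eq_sum_range Pd k]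
  have e2 : ∑ j ∈ Finset.range k, Pd j = ∑ j ∈ Finset.range 5, Pd j := by
    apply Finset.sum_subset (Finset.range_subset_range.mpr hk)
    intro j _ hj
    exact h2 j (by simpa using hj)
  rw [e2]
  simp [Finset.sum_range_succ]

/-- a small divisor congruent to `1` modulo `7` is `1` -/
theorem fin96 (q : ℕ) (hq : q ∈ ([18, 12, 6, 4, 2] : List ℕ)) (n w' : ℕ) (h : n * w' = q)
    (hmod : n % 7 = 1) : n = 1 := by
  simp only [List.mem_cons, List.not_mem_nil, or_false] at hq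
  have hq18 : 0 < q ∧ q ≤ 18 := by omega
  have hn18 : n ≤ 18 := le_trans (Nat.le_of_dvd hq18.1 (Dvd.intro _ h)) hq18.2
  interval_cases n <;> omega

/-- arithmetic for the case `n_19 = 96` -/
theorem arith_96 (r cC : ℕ) (hr : r ∣ 18) (hr1 : r ≠ 1) (h : r * cC = 4788) :
    ∃ m', cC = 7 ^ 1 * m' ∧ ¬ 7 ∣ m' ∧
      ∀ n w : ℕ, n * w = cC → 19 ∣ w → 7 ∣ w → n % 7 = 1 → n = 1 := by
  have hr18 : r ≤ 18 := Nat.le_of_dvd (by norm_num) hr
  have hcC : cC = 2394 ∨ cC = 1596 ∨ cC = 798 ∨ cC = 532 ∨ cC = 266 := by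
    interval_cases r <;> omega
  refine ⟨cC / 7, by omega, by omega, ?_⟩
  intro n w hnw h19 h7 hmod
  obtain ⟨w', rfl⟩ : 133 ∣ w := by omega
  have h2 : 133 * (n * w') = cC := by rw [← hnw]; ring
  refine fin96 (cC / 133) ?_ n w' (by omega) hmod
  simp only [List.mem_cons, List.not_mem_nil, or_false]
  omega

/-- arithmetic for the Sylow `7`-subgroups in the case `n_19 = 96` -/
theorem arith_seven (n N7 : ℕ) (h : n * N7 = 459648) (hd : 4788 ∣ N7) (hmod : n % 7 = 1)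
    (hn1 : n ≠ 1) : n = 8 ∧ N7 = 57456 := by
  obtain ⟨w, rfl⟩ := hd
  have h2 : 4788 * (n * w) = 459648 := by rw [← h]; ring
  have h3 : n * w = 96 := by omega
  have hn : n ≤ 96 := Nat.le_of_dvd (by norm_num) (Dvd.intro _ h3)
  have hn8 : n = 8 := by interval_cases n <;> omega
  subst hn8
  omega

/-- arithmetic for the centralizer of the involution in the case `n_19 = 1008` -/
theorem arith_H (n w h : ℕ) (hw8 : 8 ∣ w) (hw19 : 19 ∣ w) (hw : w ∣ 456) (hmod : n % 19 = 1)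
    (hnw : n * w = h) (hh : h ∣ 459648) (hb : 457 ≤ h) : h = 459648 ∨ 3 * h = 459648 := by
  have hw' : w = 152 ∨ w = 456 := by
    have hle : w ≤ 456 := Nat.le_of_dvd (by norm_num) hw
    obtain ⟨j, rfl⟩ : 152 ∣ w := by omega
    have hj : j ≤ 3 := by omega
    interval_cases j
    · omega
    · left; rfl
    · exfalso; revert hw; decide
    · right; rfl
  rcases hw' with rfl | rfl
  · have hn : n ∣ 3024 := by
      have h1 : n * 152 ∣ 3024 * 152 := by rw [hnw]; exact hh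
      exact Nat.dvd_of_mul_dvd_mul_right (by norm_num) h1
    have key : ∀ n ∈ Nat.divisors 3024, n % 19 = 1 → n = 1 ∨ n = 1008 := by decide +kernel
    rcases key n (Nat.mem_divisors.mpr ⟨hn, by norm_num⟩) hmod with rfl | rfl
    · omega
    · right; omega
  · have hn : n ∣ 1008 := by
      have h1 : n * 456 ∣ 1008 * 456 := by rw [hnw]; exact hh
      exact Nat.dvd_of_mul_dvd_mul_right (by norm_num) h1
    have key : ∀ n ∈ Nat.divisors 1008, n % 19 = 1 → n = 1 ∨ n = 1008 := by decide +kernel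
    rcases key n (Nat.mem_divisors.mpr ⟨hn, by norm_num⟩) hmod with rfl | rfl
    · omega
    · left; omega

/-! ### The principal `19`-block -/

set_option maxHeartbeats 1600000 in
/-- The principal `19`-block when `[N(P) : C(P)] ∈ {2, 3, 6}` and `C(P)` contains an involution:
the index is `6` and the block contains a character of degree `189` with value `-1` on the
`19`-singular elements. -/
theorem block_nineteen {G : Type*} [Group G] [Finite G] [IsSimpleGroup G]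
    (hG : Nat.card G = 459648) (P : Sylow 19 G) (hP : Nat.card (P : Subgroup G) = 19) (m : ℕ)
    (hm : m ∈ ([2, 3, 6] : List ℕ))
    (hCN : (Subgroup.centralizer ((P : Subgroup G) : Set G)).relIndex
      (Subgroup.normalizer ((P : Subgroup G) : Set G)) = m)
    (c : G) (hc : c ∈ Subgroup.centralizer ((P : Subgroup G) : Set G)) (hc2 : orderOf c = 2) :
    m = 6 ∧ ∃ χ : IrrCharacter G, (χ : G → ℂ) 1 ≠ 1 ∧ Cfsg.charDegree (χ : G → ℂ) = 189 ∧
      ∀ z y : G, IsPPart 19 z y → y ∈ (P : Subgroup G) → y ≠ 1 →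
        (χ : G → ℂ) z = ((-1 : ℤ) : ℂ) := by
  classical
  have : Fact (Nat.Prime 19) := ⟨by norm_num⟩
  have hGn : ¬ (Nat.card G).Prime := by rw [hG]; norm_num
  have hm' : m = 2 ∨ m = 3 ∨ m = 6 := by
    simpa only [List.mem_cons, List.not_mem_nil, or_false] using hm
  have hm19 : m + 1 < 19 := by omega
  obtain ⟨k, χ, a, η, d, δ, hk, hδ, hχ, hη1, hηP, hnorm, hrel, hj, hreal⟩ :=
    brauer_chars hGn 19 P hP m hm19 hCN
  have h18 : (19 - 1) / m = 18 / m := rfl
  rw [h18] at hnorm hrel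
  have hcc : c * c = 1 := by rw [← pow_two, ← hc2]; exact pow_orderOf_eq_one c
  have hc1 : c ≠ 1 := by
    intro h
    rw [h, orderOf_one] at hc2
    omega
  have hc19 : c ^ 19 = c := by
    have h1 : c ^ 19 = (c ^ 2) ^ 9 * c := by rw [← pow_mul, ← pow_succ]
    rw [h1, pow_two, hcc, one_pow, one_mul]
  obtain ⟨T, hTdef⟩ : ∃ T : ℤ, T = (((18 / m : ℕ) : ℕ) : ℤ) := ⟨_, rfl⟩
  have hT3 : 3 ≤ T := by
    rw [hTdef]
    rcases hm' with rfl | rfl | rfl <;> norm_num
  have hm6 : (m : ℤ) ≤ 6 := by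
    have : m ≤ 6 := by omega
    exact_mod_cast this
  rw [← hTdef] at hnorm
  have hsum0 : 0 ≤ ∑ i, a i ^ 2 := Finset.sum_nonneg (fun i _ => sq_nonneg (a i))
  have hTd : 0 ≤ (T - 3) * d ^ 2 := mul_nonneg (by linarith) (sq_nonneg d)
  have hd2 : d ^ 2 ≤ 3 := by nlinarith [sq_nonneg (d - δ)]
  have hdmem : d ∈ ([-1, 0, 1] : List ℤ) := by
    have h1 : -1 ≤ d := by nlinarith
    have h2 : d ≤ 1 := by nlinarith
    interval_cases d <;> simp
  have hδmem : δ ∈ ([1, -1] : List ℤ) := by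
    rcases hδ with rfl | rfl <;> simp
  have hsum6 : ∑ i, a i ^ 2 ≤ 6 := by nlinarith [sq_nonneg (d - δ)]
  have hk5 : k ≤ 5 := by omega
  -- the non-exceptional characters
  obtain ⟨F, hFdef⟩ : ∃ F : Fin k → ℕ × ℤ, F = fun i => (Cfsg.charDegree (χ i : G → ℂ), a i) :=
    ⟨_, rfl⟩
  have hF1 : ∀ i, (χ i : G → ℂ) 1 = (((F i).1 : ℕ) : ℂ) := by
    intro i
    rw [hFdef]
    exact (Cfsg.Agent.Lib.Helper79.irr_charDegree (χ i).2).1
  have hF2 : ∀ i, (F i).2 = a i := fun i => by rw [hFdef]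
  have hFmem : ∀ i, F i ∈ pp19 := by
    intro i
    obtain ⟨ha0, hx1, hxa⟩ := hχ i
    have hirr := (χ i).2
    have hchar := Cfsg.Agent.Lib.Helper80.isCharacter_of_isIrrCharacter hirr
    obtain ⟨hxd, hxpos, hxdvd⟩ := Cfsg.Agent.Lib.Helper79.irr_charDegree hirr
    obtain ⟨f, hf⟩ : ∃ f, f = Cfsg.charDegree (χ i : G → ℂ) := ⟨_, rfl⟩
    have hFi : F i = (f, a i) := by rw [hFdef, hf]
    rw [← hf] at hxd hxpos hxdvd
    rw [hFi]
    have hmod := Cfsg.Agent.Lib.Helper90.BrauerDeg.degree_modEq hirr 19 (P : Subgroup G) hP (a i)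
        (fun y hy hy1 => hxa y y (isPPart_self (by norm_num) _ hP y hy hy1) hy hy1)
    rw [← hf] at hmod
    have hmod' : (f : ℤ) % 19 = a i % 19 := by
      have := hmod
      unfold Int.ModEq at this
      exact_mod_cast this
    have hf1 : f ≠ 1 := by
      intro h
      apply hx1
      rw [hxd, h]
      norm_num
    have hsq : f ^ 2 ≤ 459648 := by
      have := Cfsg.Agent.Lib.Helper80.charDegree_sq_le_card hirr
      rw [hG, ← hf] at this
      exact this
    rw [hG] at hxdvd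
    have hai : a i ∈ ([-2, -1, 1, 2] : List ℤ) := by
      have h1 : a i ^ 2 ≤ 6 :=
        le_trans (Finset.single_le_sum (f := fun i => a i ^ 2) (fun j _ => sq_nonneg (a j))
          (Finset.mem_univ i)) hsum6
      have h2 : -2 ≤ a i := by nlinarith
      have h3 : a i ≤ 2 := by nlinarith
      interval_cases (a i) <;> simp_all
    -- the involution
    obtain ⟨n, hn⟩ := sum_pow_centralizer hirr 19 (P : Subgroup G) hP (a i : ℂ) hxa c hc 2
      Nat.prime_two (by norm_num) hc2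
    rw [Finset.sum_range_succ, Finset.sum_range_one, pow_zero, pow_one, hc19, hxd] at hn
    obtain ⟨k4, hk4⟩ := mod_four hGn hchar c hcc
    rw [hxd] at hk4
    have hχc : (χ i : G → ℂ) c = (f : ℂ) - 4 * (k4 : ℂ) := by linear_combination hk4
    have hk41 : 1 ≤ k4 := by
      rcases Nat.eq_zero_or_pos k4 with h0 | h0
      · exfalso
        apply hc1
        apply eq_one_of_char_eq (χ i) hx1 c
        rw [hχc, hxd, h0]
        push_cast
        ring
      · exact h0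
    have hk42 : 2 * k4 ≤ f := by
      have hb := Cfsg.Agent.Lib.Helper80.norm_char_le_charDegree hchar c
      rw [hχc, ← hf] at hb
      have h1 : (f : ℂ) - 4 * (k4 : ℂ) = (((f : ℤ) - 4 * (k4 : ℤ) : ℤ) : ℂ) := by
        push_cast
        ring
      rw [h1, Complex.norm_intCast] at hb
      have h2 : |((f : ℤ) - 4 * (k4 : ℤ) : ℤ)| ≤ (f : ℤ) := by exact_mod_cast hb
      have h3 := abs_le.mp h2
      omega
    have heq : 19 * (n : ℤ) + 2 * (k4 : ℤ) = (f : ℤ) + 18 * a i := by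
      rw [hχc] at hn
      have h1 : ((19 * (n : ℤ) + 2 * (k4 : ℤ) : ℤ) : ℂ) = (((f : ℤ) + 18 * a i : ℤ) : ℂ) := by
        push_cast
        push_cast at hn
        linear_combination (-1 / 2 : ℂ) * hn
      exact_mod_cast h1
    exact cand19 f (a i) hxdvd hf1 hsq hai hmod' n k4 heq hk41 hk42
  -- the exceptional character
  obtain ⟨hyd, hypos, hydvd⟩ := Cfsg.Agent.Lib.Helper79.irr_charDegree η.2
  obtain ⟨f0, hf0⟩ : ∃ f0, f0 = Cfsg.charDegree (η : G → ℂ) := ⟨_, rfl⟩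
  rw [← hf0] at hyd hypos hydvd
  rw [hG] at hydvd
  have hf01 : f0 ≠ 1 := by
    intro h
    apply hη1
    rw [hyd, h]
    norm_num
  -- the relation at 1
  have hrel1 := hrel 1 (by rw [orderOf_one]; norm_num)
  have hrelZ : (T * d - δ) * (f0 : ℤ) + 1 + ∑ i, (F i).2 * ((F i).1 : ℤ) = 0 := by
    have h : (((T * d - δ) * (f0 : ℤ) + 1 + ∑ i, (F i).2 * ((F i).1 : ℤ) : ℤ) : ℂ) = 0 := by
      rw [hTdef]
      push_cast
      rw [← hrel1, hyd]
      congr 1
      exact Finset.sum_congr rfl (fun i _ => by rw [hF1 i, hF2 i])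
    exact_mod_cast h
  have hnormF : (d - δ) ^ 2 + (T - 1) * d ^ 2 + 1 + ∑ i, (F i).2 ^ 2 = (m : ℤ) + 1 := by
    rw [← hnorm]
    congr 1
    exact Finset.sum_congr rfl (fun i _ => by rw [hF2 i])
  -- padding
  obtain ⟨X, hXdef⟩ : ∃ X : ℕ → ℕ × ℤ, X = fun j => if h : j < k then F ⟨j, h⟩ else (0, 0) :=
    ⟨_, rfl⟩
  have hX1 : ∀ i : Fin k, X i = F i := by
    intro i
    rw [hXdef]
    simp only [i.2, dif_pos, Fin.eta]
  have hX2 : ∀ j, k ≤ j → X j = (0, 0) := by
    intro j hj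
    rw [hXdef]
    simp only [not_lt.mpr hj, dif_neg, not_false_eq_true]
  have hXmem : ∀ j, X j ∈ pp19 := by
    intro j
    by_cases h : j < k
    · have := hX1 ⟨j, h⟩
      simp only at this
      rw [this]
      exact hFmem _
    · rw [hX2 j (not_lt.mp h)]
      decide
  have hXgood : ∀ j, X j = (189, -1) → ∃ i : Fin k, F i = (189, -1) := by
    intro j hj
    by_cases h : j < k
    · have := hX1 ⟨j, h⟩
      simp only at this
      exact ⟨⟨j, h⟩, by rw [← this]; exact hj⟩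
    · rw [hX2 j (not_lt.mp h)] at hj
      simp at hj
  have hsq := pad_sum k hk5 (fun i => (F i).2 ^ 2) (fun j => (X j).2 ^ 2)
    (fun i => by simp only [hX1 i]) (fun j hj => by simp only [hX2 j hj]; norm_num)
  have hlin := pad_sum k hk5 (fun i => (F i).2 * ((F i).1 : ℤ)) (fun j => (X j).2 * ((X j).1 : ℤ))
    (fun i => by simp only [hX1 i]) (fun j hj => by simp only [hX2 j hj]; norm_num)
  rw [hsq] at hnormF
  rw [hlin] at hrelZ
  -- apply the finite verification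
  have hb : b19 m d δ = (d - δ) ^ 2 + (T - 1) * d ^ 2 + 1 := by rw [hTdef]; rfl
  have hcdef : c19 m d δ = T * d - δ := by rw [hTdef]; rfl
  have hs : s19 (X 0) (X 1) (X 2) (X 3) (X 4) = 1 + ((X 0).2 * ((X 0).1 : ℤ) +
      (X 1).2 * ((X 1).1 : ℤ) + (X 2).2 * ((X 2).1 : ℤ) + (X 3).2 * ((X 3).1 : ℤ) +
      (X 4).2 * ((X 4).1 : ℤ)) := rfl
  have q0 := sq_nonneg (X 0).2
  have q1 := sq_nonneg (X 1).2
  have q2 := sq_nonneg (X 2).2
  have q3 := sq_nonneg (X 3).2
  have q4 := sq_nonneg (X 4).2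
  have hA := key19 m hm d hdmem δ hδmem (X 0) (hXmem 0)
  unfold chkA at hA
  have hB := hA (by rw [hb]; linarith) (X 1) (hXmem 1)
  unfold chkB at hB
  have hC := hB (by rw [hb]; linarith) (X 2) (hXmem 2)
  unfold chkC at hC
  have hD := hC (by rw [hb]; linarith) (X 3) (hXmem 3)
  unfold chkD at hD
  have hE := hD (by rw [hb]; linarith) (X 4) (hXmem 4)
  unfold chk19 at hE
  have hc0 : T * d - δ ≠ 0 := by
    rw [hTdef]
    rcases hm' with rfl | rfl | rfl <;> rcases hδ with rfl | rfl <;> norm_num <;> omega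
  have hf0pos : (0 : ℤ) < (f0 : ℤ) := by exact_mod_cast hypos
  have hsval : s19 (X 0) (X 1) (X 2) (X 3) (X 4) = -((T * d - δ) * (f0 : ℤ)) := by
    rw [hs]
    linear_combination hrelZ
  obtain ⟨q, hq⟩ := hydvd
  have hfin := hE (by rw [hb]; linarith)
    (by
      rw [hcdef, hsval]
      exact Int.emod_eq_zero_of_dvd ⟨-(f0 : ℤ), by ring⟩)
    (by
      rw [hcdef, hsval]
      apply Int.emod_eq_zero_of_dvd
      refine ⟨-(q : ℤ), ?_⟩
      have hq' : (459648 : ℤ) = (f0 : ℤ) * (q : ℤ) := by exact_mod_cast hq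
      rw [hq']
      ring)
    (by
      rw [hcdef, hsval]
      intro h
      have h1 : (T * d - δ) * ((f0 : ℤ) - 1) = 0 := by linear_combination (-1 : ℤ) * h
      rcases mul_eq_zero.mp h1 with h2 | h2
      · exact hc0 h2
      · apply hf01
        have : (f0 : ℤ) = 1 := by linear_combination h2
        exact_mod_cast this)
    (by
      rw [hsval]
      intro h
      have h1 : (T * d - δ) * (f0 : ℤ) = 0 := by linear_combination (-1 : ℤ) * h
      rcases mul_eq_zero.mp h1 with h2 | h2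
      · exact hc0 h2
      · exact absurd h2 (ne_of_gt hf0pos))
  refine ⟨hfin.1, ?_⟩
  have hex : ∃ i : Fin k, F i = (189, -1) := by
    rcases hfin.2 with h | h | h | h | h
    · exact hXgood 0 h
    · exact hXgood 1 h
    · exact hXgood 2 h
    · exact hXgood 3 h
    · exact hXgood 4 h
  obtain ⟨i, hi⟩ := hex
  rw [hFdef] at hi
  simp only [Prod.mk.injEq] at hi
  refine ⟨χ i, (hχ i).2.1, hi.1, ?_⟩
  intro z y hz hy hy1
  rw [(hχ i).2.2 z y hz hy hy1, hi.2]

/-! ### The two cases -/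

/-- The case `n_19 = 96`: a Sylow `7`-subgroup of `C(P)` is normalized by `N(P)`, which forces
`n_7 = 8`. -/
theorem case_96 {G : Type*} [Group G] [Finite G] [IsSimpleGroup G] (hG : Nat.card G = 459648)
    (P : Sylow 19 G) (hP : Nat.card (P : Subgroup G) = 19)
    (hN : Nat.card (Subgroup.normalizer ((P : Subgroup G) : Set G)) = 4788) : False := by
  have : Fact (Nat.Prime 19) := ⟨by norm_num⟩
  have : Fact (Nat.Prime 7) := ⟨by norm_num⟩
  have hGn : ¬ (Nat.card G).Prime := by rw [hG]; norm_num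
  obtain ⟨hr1, hr2, hr3, hPC⟩ := relIndex_centralizer_sylow_prime hGn 19 P hP
  rw [hN] at hr3
  obtain ⟨r, hr⟩ : ∃ r, r = (Subgroup.centralizer ((P : Subgroup G) : Set G)).relIndex
      (Subgroup.normalizer ((P : Subgroup G) : Set G)) := ⟨_, rfl⟩
  rw [← hr] at hr1 hr2 hr3
  have h18 : r ∣ 18 := by simpa using hr2
  obtain ⟨m', hm'1, hm'2, hfin⟩ := arith_96 r _ h18 hr1 hr3
  -- an element of order 7 in C(P)
  have h7C : 7 ∣ Nat.card (Subgroup.centralizer ((P : Subgroup G) : Set G)) := by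
    rw [hm'1, pow_one]
    exact Dvd.intro _ rfl
  obtain ⟨x', hx'⟩ := exists_prime_orderOf_dvd_card'
    (G := Subgroup.centralizer ((P : Subgroup G) : Set G)) 7 h7C
  obtain ⟨x, hxdef⟩ : ∃ x : G, x = (x' : G) := ⟨_, rfl⟩
  have hxC : x ∈ Subgroup.centralizer ((P : Subgroup G) : Set G) := by rw [hxdef]; exact x'.2
  have hx7 : orderOf x = 7 := by rw [hxdef, Subgroup.orderOf_coe]; exact hx'
  -- the Sylow 7-subgroup of C(P) is unique
  obtain ⟨S₀⟩ := (Sylow.nonempty :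
    Nonempty (Sylow 7 (Subgroup.centralizer ((P : Subgroup G) : Set G))))
  have hS₀ := card_sylow_eq_of_card_eq 7 1 m' hm'1 hm'2 S₀
  have hab : ∀ a ∈ (P : Subgroup G), ∀ b ∈ (P : Subgroup G), a * b = b * a := by
    intro a ha b hb
    exact Subgroup.mem_centralizer_iff.mp (hPC hb) a ha
  obtain ⟨w, hw1, hw2, hw3⟩ := card_sylow_centralizer_mul (P : Subgroup G) hab 7 S₀
  rw [hP] at hw2
  rw [hS₀, pow_one] at hw3
  have hn1 := hfin _ w hw1 hw2 hw3 (card_sylow_mod 7)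
  have hNQ := normalizer_le_normalizer_zpowers (P : Subgroup G) 7 m' hm'1 hm'2 hn1 x hxC hx7
  -- the Sylow 7-subgroup of G generated by x
  have hpx : IsPGroup 7 (Subgroup.zpowers x) :=
    IsPGroup.of_card (n := 1) (by rw [Nat.card_zpowers, hx7, pow_one])
  obtain ⟨Q, hQ⟩ := hpx.exists_le_sylow
  have hQ7 : Nat.card (Q : Subgroup G) = 7 := by
    simpa using card_sylow_eq_of_card_eq 7 1 65664 (by rw [hG]; norm_num) (by norm_num) Q
  have hxQ : Subgroup.zpowers x = (Q : Subgroup G) :=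
    Subgroup.eq_of_le_of_card_ge hQ (by rw [hQ7, Nat.card_zpowers, hx7])
  rw [hxQ] at hNQ
  have h7 := card_sylow_mul_card_normalizer 7 Q
  rw [hG] at h7
  have hdvd := Subgroup.card_dvd_of_le hNQ
  rw [hN] at hdvd
  have hn7 : Nat.card (Sylow 7 G) ≠ 1 :=
    card_sylow_ne_one 7 (by rw [hG]; norm_num) 2 (by norm_num) (by norm_num)
      (by rw [hG]; norm_num)
  obtain ⟨h8, hN7⟩ := arith_seven _ _ h7 hdvd (card_sylow_mod 7) hn7
  have hd := card_normalizer_dvd_of_card_sylow_succ 7 h8 (by rw [hG]; norm_num) Q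
  rw [hN7] at hd
  revert hd
  decide

set_option maxHeartbeats 1600000 in
/-- The case `n_19 = 1008`: the principal `19`-block forces `[N(P) : C(P)] = 6` and a character
of degree `189`; an involution of `C(P)` central in a Sylow `2`-subgroup of `N(P)` then has too
large a centralizer. -/
theorem case_1008 {G : Type*} [Group G] [Finite G] [IsSimpleGroup G] (hG : Nat.card G = 459648)
    (P : Sylow 19 G) (hP : Nat.card (P : Subgroup G) = 19)
    (hN : Nat.card (Subgroup.normalizer ((P : Subgroup G) : Set G)) = 456) : False := by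
  classical
  have : Fact (Nat.Prime 19) := ⟨by norm_num⟩
  have : Fact (Nat.Prime 2) := ⟨by norm_num⟩
  have hGn : ¬ (Nat.card G).Prime := by rw [hG]; norm_num
  obtain ⟨hr1, hr2, hr3, hPC⟩ := relIndex_centralizer_sylow_prime hGn 19 P hP
  rw [hN] at hr3
  obtain ⟨r, hr⟩ : ∃ r, r = (Subgroup.centralizer ((P : Subgroup G) : Set G)).relIndex
      (Subgroup.normalizer ((P : Subgroup G) : Set G)) := ⟨_, rfl⟩
  rw [← hr] at hr1 hr2 hr3
  have h18 : r ∣ 18 := by simpa using hr2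
  have hr18 : r ≤ 18 := Nat.le_of_dvd (by norm_num) h18
  obtain ⟨cC, hcC⟩ : ∃ cC, cC = Nat.card (Subgroup.centralizer ((P : Subgroup G) : Set G)) :=
    ⟨_, rfl⟩
  rw [← hcC] at hr3
  have hrm' : r = 2 ∨ r = 3 ∨ r = 6 := by
    interval_cases r <;> omega
  have hrm : r ∈ ([2, 3, 6] : List ℕ) := by
    simp only [List.mem_cons, List.not_mem_nil, or_false]
    exact hrm'
  have h2C : 2 ∣ Nat.card (Subgroup.centralizer ((P : Subgroup G) : Set G)) := by
    rw [← hcC]
    rcases hrm' with rfl | rfl | rfl <;> omega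
  obtain ⟨c', hc'⟩ := exists_prime_orderOf_dvd_card'
    (G := Subgroup.centralizer ((P : Subgroup G) : Set G)) 2 h2C
  obtain ⟨hr6, χ, hχ1, hdeg, hval⟩ := block_nineteen hG P hP r hrm hr.symm (c' : G) c'.2
    (by rw [Subgroup.orderOf_coe]; exact hc')
  -- a Sylow 2-subgroup of N(P)
  obtain ⟨T'⟩ := (Sylow.nonempty :
    Nonempty (Sylow 2 (Subgroup.normalizer ((P : Subgroup G) : Set G))))
  have hT'8 := card_sylow_eq_of_card_eq 2 3 57 (by rw [hN]; norm_num) (by norm_num) T'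
  obtain ⟨T, hTdef⟩ : ∃ T : Subgroup G, T = (T' : Subgroup _).map
      (Subgroup.normalizer ((P : Subgroup G) : Set G)).subtype := ⟨_, rfl⟩
  have hT8 : Nat.card T = 8 := by
    rw [hTdef, Subgroup.card_map_of_injective (Subgroup.subtype_injective _), hT'8]
    norm_num
  have hTN : T ≤ Subgroup.normalizer ((P : Subgroup G) : Set G) := by
    rw [hTdef]
    exact Subgroup.map_subtype_le _
  have hT2 : IsPGroup 2 T := IsPGroup.of_card (n := 3) (by rw [hT8]; norm_num)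
  -- T ⊓ C(P) is nontrivial
  have hMne : T ⊓ Subgroup.centralizer ((P : Subgroup G) : Set G) ≠ ⊥ := by
    intro h
    have h1 := Subgroup.inf_relIndex_right (Subgroup.centralizer ((P : Subgroup G) : Set G)) T
    rw [inf_comm, h, Subgroup.relIndex_bot_left, hT8] at h1
    have h2 := Subgroup.relIndex_le_of_le_right
      (H := Subgroup.centralizer ((P : Subgroup G) : Set G)) hTN (by rw [← hr, hr6]; norm_num)
    rw [← hr, ← h1, hr6] at h2
    omega
  have hTM : T ≤ Subgroup.normalizer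
      ((T ⊓ Subgroup.centralizer ((P : Subgroup G) : Set G) : Subgroup G) : Set G) := by
    apply Cfsg.Agent.Lib.Helper53.le_normalizer_of_conj_mem
    intro g hg w hw
    exact ⟨T.mul_mem (T.mul_mem hg hw.1) (T.inv_mem hg),
      conj_mem_centralizer_of_mem_normalizer (P : Subgroup G) g w (hTN hg) hw.2⟩
  obtain ⟨t, htM, ht2, htc⟩ := exists_involution_central T
    (T ⊓ Subgroup.centralizer ((P : Subgroup G) : Set G)) hT2 inf_le_left hTM hMne
  have htC : t ∈ Subgroup.centralizer ((P : Subgroup G) : Set G) := htM.2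
  have ht1 : t ≠ 1 := by
    intro h
    rw [h, orderOf_one] at ht2
    omega
  have htt : t * t = 1 := by rw [← pow_two, ← ht2]; exact pow_orderOf_eq_one t
  have ht19 : t ^ 19 = t := by
    have h1 : t ^ 19 = (t ^ 2) ^ 9 * t := by rw [← pow_mul, ← pow_succ]
    rw [h1, pow_two, htt, one_pow, one_mul]
  -- the centralizer of t
  obtain ⟨H, hHdef⟩ : ∃ H : Subgroup G, H = Subgroup.centralizer ({t} : Set G) := ⟨_, rfl⟩
  have hmemH : ∀ g : G, g ∈ H ↔ g * t = t * g := by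
    intro g
    rw [hHdef, Subgroup.mem_centralizer_iff]
    simp only [Set.mem_singleton_iff, forall_eq]
    exact eq_comm
  have hPH : (P : Subgroup G) ≤ H := by
    intro u hu
    rw [hmemH]
    exact Subgroup.mem_centralizer_iff.mp htC u hu
  have hTH : T ≤ H := fun g hg => (hmemH g).mpr (htc g hg)
  obtain ⟨W, hWdef⟩ : ∃ W : Subgroup G,
      W = Subgroup.normalizer ((P : Subgroup G) : Set G) ⊓ H := ⟨_, rfl⟩
  have hw8 : 8 ∣ Nat.card W := by
    rw [← hT8]
    exact Subgroup.card_dvd_of_le (by rw [hWdef]; exact le_inf hTN hTH)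
  have hw19 : 19 ∣ Nat.card W := by
    rw [← hP]
    exact Subgroup.card_dvd_of_le (by rw [hWdef]; exact le_inf Subgroup.le_normalizer hPH)
  have hw456 : Nat.card W ∣ 456 := by
    rw [← hN]
    exact Subgroup.card_dvd_of_le (by rw [hWdef]; exact inf_le_left)
  obtain ⟨hmod, hcount⟩ := card_sylow_subgroup 19 P H hPH
  rw [← hWdef] at hcount
  have hHdvd : Nat.card H ∣ 459648 := by
    rw [← hG]
    exact Subgroup.card_subgroup_dvd_card H
  -- the character of degree 189 bounds the centralizer from below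
  have hbound : 457 ≤ Nat.card H := by
    have hirr := χ.2
    have hchar := Cfsg.Agent.Lib.Helper80.isCharacter_of_isIrrCharacter hirr
    obtain ⟨hxd, -, -⟩ := Cfsg.Agent.Lib.Helper79.irr_charDegree hirr
    rw [hdeg] at hxd
    obtain ⟨n, hn⟩ := sum_pow_centralizer hirr 19 (P : Subgroup G) hP (((-1 : ℤ)) : ℂ) hval t
      htC 2 Nat.prime_two (by norm_num) ht2
    rw [Finset.sum_range_succ, Finset.sum_range_one, pow_zero, pow_one, ht19, hxd] at hn
    obtain ⟨k4, hk4⟩ := mod_four hGn hchar t htt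
    rw [hxd] at hk4
    have heq : 19 * n + 2 * k4 = 171 := by
      have h1 : ((19 * n + 2 * k4 : ℕ) : ℂ) = ((171 : ℕ) : ℂ) := by
        push_cast
        push_cast at hn hk4
        linear_combination (1 / 2 : ℂ) * hk4 - (1 / 2 : ℂ) * hn
      exact_mod_cast h1
    have hv : (χ : G → ℂ) t = (((38 * (n : ℤ) - 153 : ℤ)) : ℂ) := by
      push_cast
      push_cast at hn
      linear_combination hn
    have hcol := one_add_sum_sq_le_card_centralizer 1 (fun _ => χ)
      (fun i j _ => Subsingleton.elim i j) (fun _ => hχ1) t (fun _ => 38 * (n : ℤ) - 153)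
      (fun _ => hv)
    simp only [Finset.univ_unique, Finset.sum_singleton] at hcol
    rw [← hHdef] at hcol
    have hn9 : n ≤ 9 := by omega
    have h457 : (457 : ℤ) ≤ (Nat.card H : ℤ) := by
      refine le_trans ?_ hcol
      interval_cases n <;> omega
    exact_mod_cast h457
  rcases arith_H _ _ _ hw8 hw19 hw456 hmod hcount hHdvd hbound with h | h
  · have hHtop : H = ⊤ := Subgroup.eq_top_of_card_eq H (by rw [h, hG])
    apply ht1
    apply eq_one_of_central hGn t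
    intro g
    exact (hmemH g).mp (by rw [hHtop]; exact Subgroup.mem_top g)
  · have hidx : H.index = 3 := by
      have h1 := H.index_mul_card
      rw [hG, ← h] at h1
      exact Nat.eq_of_mul_eq_mul_right Nat.card_pos h1
    have hHne : H ≠ ⊤ := by
      intro htop
      rw [htop, Subgroup.index_top] at hidx
      omega
    have h2 := card_dvd_factorial_index H hHne
    rw [hidx, hG] at h2
    revert h2
    decide

/-- No finite simple group has order 459648 = 2^7 * 3^3 * 7 * 19. -/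
theorem result {G : Type*} [Group G] [Finite G] [IsSimpleGroup G] : Nat.card G ≠ 459648 := by
  intro hG
  have : Fact (Nat.Prime 19) := ⟨by norm_num⟩
  obtain ⟨P⟩ := (Sylow.nonempty : Nonempty (Sylow 19 G))
  have hP : Nat.card (P : Subgroup G) = 19 := by
    simpa using card_sylow_eq_of_card_eq 19 1 24192 (by rw [hG]; norm_num) (by norm_num) P
  have hc := card_sylow_mem_cands (G := G) 19 1 24192 (by rw [hG]; norm_num) (by norm_num)
  have hcl : sylowCands 19 24192 = [1, 96, 1008] := by decide +kernel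
  rw [hcl] at hc
  have h1 : Nat.card (Sylow 19 G) ≠ 1 :=
    card_sylow_ne_one 19 (by rw [hG]; norm_num) 2 (by norm_num) (by norm_num)
      (by rw [hG]; norm_num)
  have h4 := card_sylow_mul_card_normalizer 19 P
  rw [hG] at h4
  simp only [List.mem_cons, List.not_mem_nil, or_false] at hc
  rcases hc with h | h | h
  · exact h1 h
  · rw [h] at h4
    exact case_96 hG P hP (by omega)
  · rw [h] at h4
    exact case_1008 hG P hP (by omega)

end Cfsg.Agent.S1022
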