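import Cfsg.Statements.S1030
import Cfsg.Agent.Lib.Helper18.ChevSl2Hom

set_option autoImplicit false
open Cfsg

namespace Cfsg.Agent.S1030

open Cfsg.Agent.Lib.Helper18 in
/-- There is a homomorphism `SL₂(F) → GL` with image `⟨X_r, X_{-r}⟩` sending `[[1,t],[0,1]]` to `x_r(t)` and `[[1,0],[t,1]]` to `x_{-r}(t)`. -/
theorem result {F : Type*} [Field F] (D : Cfsg.Lie.ChevalleyDatum) (hD : D ∈ [Cfsg.Lie.chevG2, Cfsg.Lie.chevB2, Cfsg.Lie.chevD4, Cfsg.Lie.chevF4, Cfsg.Lie.chevE6, Cfsg.Lie.chevE7, Cfsg.Lie.chevE8]) (r : ℕ) (hr : r < D.nroots) :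
    ∃ φ : Matrix.SpecialLinearGroup (Fin 2) F →* GL D.Idx F,
      φ.range = D.rootSubgroup F r ⊔ D.rootSubgroup F (D.neg r) ∧
      ∀ (g : Matrix.SpecialLinearGroup (Fin 2) F) (t : F),
        ((g : Matrix (Fin 2) (Fin 2) F) = !![1, t; 0, 1] → ((φ g : GL D.Idx F) : Matrix D.Idx D.Idx F) = D.x F r t) ∧
        ((g : Matrix (Fin 2) (Fin 2) F) = !![1, 0; t, 1] → ((φ g : GL D.Idx F) : Matrix D.Idx D.Idx F) = D.x F (D.neg r) t) := by
  have hrel := chev_sl2Rel (F := F) D hD r hr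
  have hup : ∀ (g : Matrix.SpecialLinearGroup (Fin 2) F) (t : F),
      (g : Matrix (Fin 2) (Fin 2) F) = !![1, t; 0, 1] → sl2Hom hrel g = xU D hD r t :=
    fun g t hg => sl2Hom_upper hrel g t hg
  have hlow : ∀ (g : Matrix.SpecialLinearGroup (Fin 2) F) (t : F),
      (g : Matrix (Fin 2) (Fin 2) F) = !![1, 0; t, 1] → sl2Hom hrel g = xU D hD (D.neg r) t := by
    intro g t hg
    by_cases ht : t = 0
    · have e : g = 1 := by
        apply Subtype.ext
        rw [hg, ht]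
        exact Matrix.one_fin_two.symm
      rw [e, map_one, ht, xU_zero]
    · rw [sl2Hom_lower hrel g t hg ht, xU_neg_eq D hD r hr t]
      group
  refine ⟨sl2Hom hrel, ?_, fun g t => ⟨fun hg => ?_, fun hg => ?_⟩⟩
  · apply le_antisymm
    · rintro _ ⟨g, rfl⟩
      have hX : ∀ u : F, xU D hD r u ∈ D.rootSubgroup F r ⊔ D.rootSubgroup F (D.neg r) :=
        fun u => Subgroup.mem_sup_left (Subgroup.subset_closure ⟨u, rfl⟩)
      have hY : ∀ u : F, xU D hD (D.neg r) u ∈ D.rootSubgroup F r ⊔ D.rootSubgroup F (D.neg r) :=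
        fun u => Subgroup.mem_sup_right (Subgroup.subset_closure ⟨u, rfl⟩)
      have hT : ∀ t : F, nT D hD r t ∈ D.rootSubgroup F r ⊔ D.rootSubgroup F (D.neg r) := by
        intro t
        rw [nT_eq]
        exact mul_mem (hX _) (mul_mem (hY _) (hX _))
      have hN : (nU D hD r : GL D.Idx F) ∈ D.rootSubgroup F r ⊔ D.rootSubgroup F (D.neg r) := by
        rw [← nT_one]
        exact hT 1
      apply sl2Hom_mem hrel _ hX _ hN
      intro t _
      have e : hU D hD r t = nT D hD r t * (nU D hD r)⁻¹ := by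
        rw [nT_eq_hU_mul D hD r hr t, mul_inv_cancel_right]
      rw [e]
      exact mul_mem (hT t) (inv_mem hN)
    · apply sup_le
      · unfold Cfsg.Lie.ChevalleyDatum.rootSubgroup
        rw [Subgroup.closure_le]
        rintro g ⟨t, hg⟩
        rw [eq_xU D hD r t g hg]
        exact ⟨sl2x t, hup (sl2x t) t rfl⟩
      · unfold Cfsg.Lie.ChevalleyDatum.rootSubgroup
        rw [Subgroup.closure_le]
        rintro g ⟨t, hg⟩
        rw [eq_xU D hD (D.neg r) t g hg]
        exact ⟨⟨!![1, 0; t, 1], by simp [Matrix.det_fin_two]⟩, hlow _ t rfl⟩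
  · rw [hup g t hg, coe_xU]
  · rw [hlow g t hg, coe_xU]

end Cfsg.Agent.S1030
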