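import Cfsg.Statements.S1041

set_option autoImplicit false
open Cfsg

namespace Cfsg.Agent.S1041

open Cfsg.Lie

theorem posneg_G2 : ∀ r < chevG2.nroots, chevG2.IsPosRoot r ∨ chevG2.IsNegRoot r := by decide +kernel
theorem posneg_B2 : ∀ r < chevB2.nroots, chevB2.IsPosRoot r ∨ chevB2.IsNegRoot r := by decide +kernel
theorem posneg_D4 : ∀ r < chevD4.nroots, chevD4.IsPosRoot r ∨ chevD4.IsNegRoot r := by decide +kernel
theorem posneg_F4 : ∀ r < chevF4.nroots, chevF4.IsPosRoot r ∨ chevF4.IsNegRoot r := by decide +kernel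
theorem posneg_E6 : ∀ r < chevE6.nroots, chevE6.IsPosRoot r ∨ chevE6.IsNegRoot r := by decide +kernel
theorem posneg_E7 : ∀ r < chevE7.nroots, chevE7.IsPosRoot r ∨ chevE7.IsNegRoot r := by decide +kernel
theorem posneg_E8 : ∀ r < chevE8.nroots, chevE8.IsPosRoot r ∨ chevE8.IsNegRoot r := by decide +kernel

theorem sup_eq_of_posneg {F : Type*} [Field F] (D : ChevalleyDatum)
    (h : ∀ r < D.nroots, D.IsPosRoot r ∨ D.IsNegRoot r) :
    D.posUnipotent F ⊔ D.negUnipotent F = D.group F := by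
  apply le_antisymm
  · apply sup_le
    · unfold ChevalleyDatum.posUnipotent ChevalleyDatum.group
      apply Subgroup.closure_mono
      rintro g ⟨r, t, hr, hg⟩
      refine ⟨⟨r, hr.1⟩, t, ?_⟩
      rw [hg, ChevalleyDatum.x, dif_pos hr.1]
    · unfold ChevalleyDatum.negUnipotent ChevalleyDatum.group
      apply Subgroup.closure_mono
      rintro g ⟨r, t, hr, hg⟩
      refine ⟨⟨r, hr.1⟩, t, ?_⟩
      rw [hg, ChevalleyDatum.x, dif_pos hr.1]
  · unfold ChevalleyDatum.group
    rw [Subgroup.closure_le]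
    rintro g ⟨r, t, hg⟩
    have hx : (g : Matrix D.Idx D.Idx F) = D.x F r.val t := by
      rw [hg, ChevalleyDatum.x, dif_pos r.isLt]
    rcases h r.val r.isLt with hp | hn
    · exact Subgroup.mem_sup_left (Subgroup.subset_closure ⟨r.val, t, hp, hx⟩)
    · exact Subgroup.mem_sup_right (Subgroup.subset_closure ⟨r.val, t, hn, hx⟩)

/-- `U` and `V` generate the whole Chevalley group. -/
theorem result {F : Type*} [Field F] (D : Cfsg.Lie.ChevalleyDatum) (hD : D ∈ [Cfsg.Lie.chevG2, Cfsg.Lie.chevB2, Cfsg.Lie.chevD4, Cfsg.Lie.chevF4, Cfsg.Lie.chevE6, Cfsg.Lie.chevE7, Cfsg.Lie.chevE8]) : D.posUnipotent F ⊔ D.negUnipotent F = D.group F := by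
  simp only [List.mem_cons, List.mem_nil_iff, or_false] at hD
  rcases hD with rfl | rfl | rfl | rfl | rfl | rfl | rfl
  · exact sup_eq_of_posneg _ posneg_G2
  · exact sup_eq_of_posneg _ posneg_B2
  · exact sup_eq_of_posneg _ posneg_D4
  · exact sup_eq_of_posneg _ posneg_F4
  · exact sup_eq_of_posneg _ posneg_E6
  · exact sup_eq_of_posneg _ posneg_E7
  · exact sup_eq_of_posneg _ posneg_E8

end Cfsg.Agent.S1041
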