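import Cfsg.Statements.S1044
import Cfsg.Agent.Lib.Helper18.ChevBN

set_option autoImplicit false
open Cfsg

namespace Cfsg.Agent.S1044

open Cfsg.Agent.Lib.Helper18 in
/-- For a fundamental root `p` and `n = n_p`, the union `B ∪ B n B` is a subgroup (the rank-one parabolic subgroup). -/
theorem result {F : Type*} [Field F] (D : Cfsg.Lie.ChevalleyDatum) (hD : D ∈ [Cfsg.Lie.chevG2, Cfsg.Lie.chevB2, Cfsg.Lie.chevD4, Cfsg.Lie.chevF4, Cfsg.Lie.chevE6, Cfsg.Lie.chevE7, Cfsg.Lie.chevE8]) (i : ℕ) (hi : i < D.rank) (n : GL D.Idx F)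
    (hn : (n : Matrix D.Idx D.Idx F) = D.nMat F (D.simple i) 1) :
    ∃ P : Subgroup (GL D.Idx F), (P : Set (GL D.Idx F)) =
      (D.borelSubgroup F : Set (GL D.Idx F)) ∪ DoubleCoset.doubleCoset n (D.borelSubgroup F : Set (GL D.Idx F)) (D.borelSubgroup F) := by
  rw [eq_nU D hD _ n hn]
  exact ⟨parSubgroup D hD i hi, rfl⟩

end Cfsg.Agent.S1044
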