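import Cfsg.Statements.S1048
import Cfsg.Agent.Lib.Helper18.ChevLevi
import Cfsg.Agent.S1047

set_option autoImplicit false
open Cfsg

namespace Cfsg.Agent.S1048

open Cfsg.Agent.Lib.Helper18 in
/-- `U_J ⊴ P_J`, `P_J = U_J L_J` and `U_J ∩ L_J = 1` (Levi decomposition of the standard parabolic subgroup). -/
theorem result {F : Type*} [Field F] (D : Cfsg.Lie.ChevalleyDatum) (hD : D ∈ [Cfsg.Lie.chevG2, Cfsg.Lie.chevB2, Cfsg.Lie.chevD4, Cfsg.Lie.chevF4, Cfsg.Lie.chevE6, Cfsg.Lie.chevE7, Cfsg.Lie.chevE8]) (J : Set ℕ) :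
    D.parabolicSubgroup F J ≤ Subgroup.normalizer (D.unipotentRadical F J : Set (GL D.Idx F)) ∧
      D.unipotentRadical F J ⊔ D.leviSubgroup F J = D.parabolicSubgroup F J ∧
      D.unipotentRadical F J ⊓ D.leviSubgroup F J = ⊥ := by
  have hP := Cfsg.Agent.S1047.result (F := F) D hD J
  refine ⟨?_, ?_, radical_inf_levi D hD J⟩
  · rw [hP]
    apply sup_le (diagonalSubgroup_le_normalizer_radical D hD J)
    rw [Subgroup.closure_le]
    rintro g ⟨r, t, hr, hg⟩
    exact rootSubgroup_le_normalizer_radical D hD J r hr (Subgroup.subset_closure ⟨t, hg⟩)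
  · rw [hP]
    apply le_antisymm
    · apply sup_le
      · unfold Cfsg.Lie.ChevalleyDatum.unipotentRadical
        rw [Subgroup.closure_le]
        rintro g ⟨r, t, hr, -, hg⟩
        exact Subgroup.mem_sup_right (Subgroup.subset_closure ⟨r, t, Or.inl hr, hg⟩)
      · unfold Cfsg.Lie.ChevalleyDatum.leviSubgroup
        apply sup_le le_sup_left
        rw [Subgroup.closure_le]
        rintro g ⟨r, t, hr, hg⟩
        exact Subgroup.mem_sup_right (Subgroup.subset_closure ⟨r, t, Or.inr hr, hg⟩)
    · apply sup_le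
      · exact le_sup_of_le_right le_sup_left
      · rw [Subgroup.closure_le]
        rintro g ⟨r, t, hr, hg⟩
        by_cases hJ : D.InRootSub J r
        · exact Subgroup.mem_sup_right (Subgroup.mem_sup_right (Subgroup.subset_closure ⟨r, t, hJ, hg⟩))
        · rcases hr with hr | hr
          · exact Subgroup.mem_sup_left (Subgroup.subset_closure ⟨r, t, hr, hJ, hg⟩)
          · exact absurd hr hJ

end Cfsg.Agent.S1048
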