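import Cfsg.Statements.S1049
import Cfsg.Agent.Lib.Helper18.ChevExch
import Cfsg.Agent.Lib.Helper18.ChevBruhat4
import Cfsg.Agent.Lib.Helper18.ChevLevi
import Cfsg.Agent.S1048
import Cfsg.Agent.S1024
import Cfsg.Agent.S1037

set_option autoImplicit false
open Cfsg

namespace Cfsg.Agent.S1049

open Cfsg.Agent.Lib.Helper18 in
/-- `N_G(U_J) = P_J`: the normaliser of `U_J` inside the Chevalley group is the standard parabolic subgroup. -/
theorem result {F : Type*} [Field F] (D : Cfsg.Lie.ChevalleyDatum) (hD : D ∈ [Cfsg.Lie.chevG2, Cfsg.Lie.chevB2, Cfsg.Lie.chevD4, Cfsg.Lie.chevF4, Cfsg.Lie.chevE6, Cfsg.Lie.chevE7, Cfsg.Lie.chevE8]) (J : Set ℕ) (hJ : ∀ j ∈ J, j < D.rank) :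
    Subgroup.normalizer (D.unipotentRadical F J : Set (GL D.Idx F)) ⊓ D.group F = D.parabolicSubgroup F J := by
  have hUB : D.posUnipotent F ≤ D.borelSubgroup F := le_sup_left
  have hHB : D.diagonalSubgroup F ≤ D.borelSubgroup F := le_sup_right
  have hBP : D.borelSubgroup F ≤ D.parabolicSubgroup F J := le_sup_left
  have hPN : D.parabolicSubgroup F J ≤
      Subgroup.normalizer (D.unipotentRadical F J : Set (GL D.Idx F)) :=
    (Cfsg.Agent.S1048.result D hD J).1
  have hUJ : D.unipotentRadical F J ≤ D.posUnipotent F := by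
    unfold Cfsg.Lie.ChevalleyDatum.unipotentRadical Cfsg.Lie.ChevalleyDatum.posUnipotent
    apply Subgroup.closure_mono
    rintro g ⟨r, t, hr, -, hg⟩
    exact ⟨r, t, hr, hg⟩
  -- an element of `N` normalising `U_J` maps the positive roots outside `Φ_J` to positive roots
  have claimA : ∀ (n : GL D.Idx F) (hn : n ∈ D.monomialSubgroup F),
      n ∈ Subgroup.normalizer (D.unipotentRadical F J : Set (GL D.Idx F)) →
      ∀ r, D.IsPosRoot r → ¬ D.InRootSub J r → D.IsPosRoot (piN D hD ⟨n, hn⟩ r) := by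
    intro n hn hnN r hr hnr
    have hσ : RootAct D hD n (piN D hD ⟨n, hn⟩) := piN_spec D hD ⟨n, hn⟩
    obtain ⟨c, hc, e⟩ := hσ.conj r hr.1
    have hslt := hσ.lt r hr.1
    have hx : xU D hD r (1 : F) ∈ D.unipotentRadical F J :=
      Subgroup.subset_closure ⟨r, 1, hr, hnr, rfl⟩
    have hy : xU D hD (piN D hD ⟨n, hn⟩ r) (c * 1) ∈ D.unipotentRadical F J := by
      have h1 := (Subgroup.mem_normalizer_iff.mp hnN _).mp hx
      have h2 : n * xU D hD r 1 * n⁻¹ = xU D hD (piN D hD ⟨n, hn⟩ r) (c * 1) := by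
        rw [e 1]
        group
      rwa [h2] at h1
    by_contra hneg
    have hnegroot : D.IsNegRoot (piN D hD ⟨n, hn⟩ r) := by
      rcases (posTab_spec D hD).2.1 _ hslt with h | h
      · exact absurd h hneg
      · exact h
    have h3 : xU D hD (piN D hD ⟨n, hn⟩ r) (c * 1) ∈ D.borelSubgroup F ⊓ D.negUnipotent F :=
      Subgroup.mem_inf.mpr ⟨hUB (hUJ hy), Subgroup.subset_closure ⟨_, _, hnegroot, rfl⟩⟩
    rw [(Cfsg.Agent.S1037.result D hD).1, Subgroup.mem_bot] at h3
    have h4 : D.x F (piN D hD ⟨n, hn⟩ r) (c * 1) = 1 := by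
      rw [← coe_xU D hD, h3]
      rfl
    have h5 := (Cfsg.Agent.S1024.result D hD _ hslt (c * 1)).mp h4
    rw [mul_one] at h5
    exact hc h5
  -- induction on the number of inversions
  have key : ∀ (k : ℕ) (n : GL D.Idx F) (hn : n ∈ D.monomialSubgroup F),
      n ∈ Subgroup.normalizer (D.unipotentRadical F J : Set (GL D.Idx F)) →
      invCount D (piN D hD ⟨n, hn⟩) = k → n ∈ D.parabolicSubgroup F J := by
    intro k
    induction k using Nat.strong_induction_on with
    | _ k ih =>
      intro n hn hnN hk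
      by_cases hall : ∀ i < D.rank, D.IsPosRoot (piN D hD ⟨n, hn⟩ (D.simple i))
      · exact hBP (hHB (mem_diagonal_of_simple_pos D hD n hn hall))
      · push_neg at hall
        obtain ⟨i, hi, hneg⟩ := hall
        have hiJ : i ∈ J := by
          by_contra hiJ
          have hsp : D.IsPosRoot (D.simple i) := (commCheck_spec D hD i hi).1
          have hns : ¬ D.InRootSub J (D.simple i) := by
            intro h
            have h0 := h.2 i hi hiJ
            have h1 := (posTab_spec D hD).2.2.1 i hi i hi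
            rw [if_pos rfl] at h1
            unfold cv at h1
            omega
          exact hneg (claimA n hn hnN (D.simple i) hsp hns)
        have hni : (nU D hD (D.simple i) : GL D.Idx F) ∈ D.parabolicSubgroup F J :=
          Subgroup.mem_sup_right (Subgroup.subset_closure ⟨i, hiJ, hi, coe_nU D hD _⟩)
        have hn' : n * nU D hD (D.simple i) ∈ D.monomialSubgroup F :=
          mul_mem hn (nU_mem_monomial D hD _ (simple_lt_nroots D hD i hi))
        have hσ : RootAct D hD n (piN D hD ⟨n, hn⟩) := piN_spec D hD ⟨n, hn⟩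
        have e : piN D hD ⟨n * nU D hD (D.simple i), hn'⟩ =
            piN D hD ⟨n, hn⟩ * reflPerm D hD i hi :=
          piN_eq D hD _ _ (hσ.mul (rootAct_nU D hD i hi))
        have hlt : invCount D (piN D hD ⟨n * nU D hD (D.simple i), hn'⟩) < k := by
          rw [e, ← hk]
          exact invCount_lt D hD _ hσ.lt hσ.neg i hi hneg
        have h1 := ih _ hlt (n * nU D hD (D.simple i)) hn' (mul_mem hnN (hPN hni)) rfl
        have e2 : n = n * nU D hD (D.simple i) * (nU D hD (D.simple i))⁻¹ := by group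
        rw [e2]
        exact mul_mem h1 (inv_mem hni)
  apply le_antisymm
  · intro g hg
    obtain ⟨hgN, hgG⟩ := Subgroup.mem_inf.mp hg
    obtain ⟨b, hb, n, hn, b', hb', rfl⟩ := bruhat_exists D hD g hgG
    have hnN : n ∈ Subgroup.normalizer (D.unipotentRadical F J : Set (GL D.Idx F)) := by
      have e : n = b⁻¹ * (b * n * b') * b'⁻¹ := by group
      rw [e]
      exact mul_mem (mul_mem (inv_mem (hPN (hBP hb))) hgN) (inv_mem (hPN (hBP hb')))
    exact mul_mem (mul_mem (hBP hb) (key _ n hn hnN rfl)) (hBP hb')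
  · apply le_inf hPN
    unfold Cfsg.Lie.ChevalleyDatum.parabolicSubgroup
    apply sup_le (borelSubgroup_le_group D hD)
    rw [Subgroup.closure_le]
    rintro g ⟨j, -, hjr, hg⟩
    exact monomialSubgroup_le_group D hD (Subgroup.mem_sup_right
      (Subgroup.subset_closure ⟨D.simple j, simple_lt_nroots D hD j hjr, hg⟩))

end Cfsg.Agent.S1049
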