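import Cfsg.Statements.S1060
import Cfsg.Agent.Lib.Helper17.ChevOrder

set_option autoImplicit false
open Cfsg

namespace Cfsg.Agent.S1060

/-- `gcd(2, q-1) · |B₂(q)| = q⁴ (q² - 1)(q⁴ - 1)`. -/
theorem result {F : Type*} [Field F] [Fintype F] {q : ℕ} (hq : Fintype.card F = q) : Nat.gcd 2 (q - 1) * Nat.card ↥(Cfsg.Lie.chevB2.group F) = q ^ 4 * (q ^ 2 - 1) * (q ^ 4 - 1) := by
  open Cfsg.Agent.Lib.Helper17 in
  have h := card_group_of_poincare (F := F) Cfsg.Lie.chevB2 (by simp) q hq (Nat.gcd 2 (q - 1))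
    (Cfsg.Agent.S1035.result hq (Cfsg.Lie.chevB2, Nat.gcd 2 (q - 1)) (by simp))
    (Weyl.sgF Weyl.b2WG) (Weyl.wsysOK_spec Weyl.b2_wsys)
    (fun i hi s hs => Weyl.linkOK_spec Weyl.b2_link i hi s hs) [2, 4] Weyl.b2_poincare
  rw [h]
  simp only [List.map_cons, List.map_nil, List.prod_cons, List.prod_nil, mul_one]
  have e : Cfsg.Lie.chevB2.nroots / 2 = 4 := rfl
  rw [e]
  ring

end Cfsg.Agent.S1060
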