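import Cfsg.Statements.S1062
import Cfsg.Agent.Lib.Helper17.ChevOrder

set_option autoImplicit false
open Cfsg

namespace Cfsg.Agent.S1062

/-- `|F₄(q)| = q²⁴ (q² - 1)(q⁶ - 1)(q⁸ - 1)(q¹² - 1)`. -/
theorem result {F : Type*} [Field F] [Fintype F] {q : ℕ} (hq : Fintype.card F = q) : Nat.card ↥(Cfsg.Lie.chevF4.group F) = q ^ 24 * (q ^ 2 - 1) * (q ^ 6 - 1) * (q ^ 8 - 1) * (q ^ 12 - 1) := by
  open Cfsg.Agent.Lib.Helper17 in
  have h := card_group_of_poincare (F := F) Cfsg.Lie.chevF4 (by simp) q hq (1)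
    (Cfsg.Agent.S1035.result hq (Cfsg.Lie.chevF4, 1) (by simp))
    (Weyl.sgF Weyl.f4WG) (Weyl.wsysOK_spec Weyl.f4_wsys)
    (fun i hi s hs => Weyl.linkOK_spec Weyl.f4_link i hi s hs) [2, 6, 8, 12] Weyl.f4_poincare
  rw [one_mul] at h
  rw [h]
  simp only [List.map_cons, List.map_nil, List.prod_cons, List.prod_nil, mul_one]
  have e : Cfsg.Lie.chevF4.nroots / 2 = 24 := rfl
  rw [e]
  ring

end Cfsg.Agent.S1062
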