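import Cfsg.Statements.S1065
import Cfsg.Agent.Lib.Helper17.ChevOrder

set_option autoImplicit false
open Cfsg

namespace Cfsg.Agent.S1065

/-- `|E₈(q)| = q¹²⁰ ∏_{d ∈ {2,8,12,14,18,20,24,30}} (q^d - 1)`. -/
theorem result {F : Type*} [Field F] [Fintype F] {q : ℕ} (hq : Fintype.card F = q) : Nat.card ↥(Cfsg.Lie.chevE8.group F) = q ^ 120 * (q ^ 2 - 1) * (q ^ 8 - 1) * (q ^ 12 - 1) * (q ^ 14 - 1) * (q ^ 18 - 1) * (q ^ 20 - 1) * (q ^ 24 - 1) * (q ^ 30 - 1) := by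
  open Cfsg.Agent.Lib.Helper17 in
  have h := card_group_of_poincare (F := F) Cfsg.Lie.chevE8 (by simp) q hq (1)
    (Cfsg.Agent.S1035.result hq (Cfsg.Lie.chevE8, 1) (by simp))
    (Weyl.sgF Weyl.e8WG) (Weyl.wsysOK_spec Weyl.e8_wsys)
    (fun i hi s hs => Weyl.linkOK_spec Weyl.e8_link i hi s hs) [2, 8, 12, 14, 18, 20, 24, 30] Weyl.e8_poincare
  rw [one_mul] at h
  rw [h]
  simp only [List.map_cons, List.map_nil, List.prod_cons, List.prod_nil, mul_one]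
  have e : Cfsg.Lie.chevE8.nroots / 2 = 120 := rfl
  rw [e]
  ring

end Cfsg.Agent.S1065
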