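import Cfsg.Statements.S1066
import Cfsg.Agent.Lib.Helper18.ChevE6TwH
import Cfsg.Agent.Lib.Helper18.ChevE6TwOrd

set_option autoImplicit false
open Cfsg

namespace Cfsg.Agent.S1066

/-- `gcd(3, q+1) · |²E₆(q)| = q³⁶ (q² - 1)(q⁵ + 1)(q⁶ - 1)(q⁸ - 1)(q⁹ + 1)(q¹² - 1)`, the group being realised inside E₆ over the field with `q²` elements. -/
theorem result {K : Type*} [Field K] [Fintype K] {q : ℕ} (hq : IsPrimePow q) (hK : Fintype.card K = q ^ 2) :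
    Nat.gcd 3 (q + 1) * Nat.card ↥(Cfsg.Lie.twistedE6 K q) =
      q ^ 36 * (q ^ 2 - 1) * (q ^ 5 + 1) * (q ^ 6 - 1) * (q ^ 8 - 1) * (q ^ 9 + 1) * (q ^ 12 - 1) := by
  have h1 := Cfsg.Agent.Lib.Helper18.e6_card_tw_mul hq hK
  have h2 := Cfsg.Agent.Lib.Helper18.e6_card_diag_tw hq hK
  have hq1 : 1 < q := hq.one_lt
  have hpos : 0 < (q - 1) ^ 4 * (q + 1) ^ 2 := by
    apply Nat.mul_pos
    · exact Nat.pow_pos (by omega)
    · exact Nat.pow_pos (by omega)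
  apply Nat.eq_of_mul_eq_mul_left hpos
  calc (q - 1) ^ 4 * (q + 1) ^ 2 * (Nat.gcd 3 (q + 1) * Nat.card ↥(Cfsg.Lie.twistedE6 K q))
      = Nat.gcd 3 (q + 1) * ((q - 1) ^ 4 * (q + 1) ^ 2 * Nat.card ↥(Cfsg.Lie.twistedE6 K q)) := by
        ring
    _ = (Nat.gcd 3 (q + 1) *
          Nat.card ↥(Cfsg.Lie.chevE6.diagonalSubgroup K ⊓ Cfsg.Lie.twistedE6 K q)) * q ^ 36 *
          ((q ^ 2 - 1) * (q ^ 5 + 1) * (q ^ 6 - 1) * (q ^ 8 - 1) * (q ^ 9 + 1) * (q ^ 12 - 1)) := by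
        rw [h1]
        ring
    _ = (q - 1) ^ 4 * (q + 1) ^ 2 *
          (q ^ 36 * (q ^ 2 - 1) * (q ^ 5 + 1) * (q ^ 6 - 1) * (q ^ 8 - 1) * (q ^ 9 + 1) *
            (q ^ 12 - 1)) := by
        rw [h2]
        ring

end Cfsg.Agent.S1066
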