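import Cfsg.Statements.S1077
import Cfsg.Agent.Lib.Helper18.StPres

set_option autoImplicit false
open Cfsg

namespace Cfsg.Agent.S1077

/-- Steinberg's Theorem: there is a homomorphism `x̄_r(t) ↦ x_r(t)` from the presented group onto the Chevalley group whose kernel is precisely the centre; hence `L(K) ≅ Ḡ/Z(Ḡ)`. -/
theorem result {K : Type*} [Field K] (D : Cfsg.Lie.ChevalleyDatum) (hD : D ∈ [Cfsg.Lie.chevG2, Cfsg.Lie.chevB2, Cfsg.Lie.chevD4, Cfsg.Lie.chevF4, Cfsg.Lie.chevE6, Cfsg.Lie.chevE7, Cfsg.Lie.chevE8]) :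
    ∃ θ : D.SteinbergGroup K →* ↥(D.group K), Function.Surjective θ ∧ θ.ker = Subgroup.center (D.SteinbergGroup K) ∧
      ∀ (r : ℕ) (t : K), r < D.nroots → ((θ (D.stGen K r t) : GL D.Idx K) : Matrix D.Idx D.Idx K) = D.x K r t := by
  classical
  have hgen : ∀ (r : ℕ) (t : K), r < D.nroots →
      (((PresentedGroup.toGroup (Cfsg.Agent.Lib.Helper18.StAbs.rels_lift (K := K) D hD))
        (Cfsg.Agent.Lib.Helper18.StAbs.XP D (D.steinbergRels K) r t) : GL D.Idx K) :
          Matrix D.Idx D.Idx K) = D.x K r t := by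
    intro r t _
    have h1 := Cfsg.Agent.Lib.Helper18.StAbs.lift_stX (K := K) D hD r t
    have h2 := congrArg Units.val h1
    rw [Cfsg.Agent.Lib.Helper18.coe_xU] at h2
    exact h2
  refine ⟨PresentedGroup.toGroup (Cfsg.Agent.Lib.Helper18.StAbs.rels_lift (K := K) D hD),
    Cfsg.Agent.Lib.Helper18.StAbs.pres_surj _ hgen, ?_, hgen⟩
  apply le_antisymm
  · intro x hx
    have hsub : D.steinbergRelsAB K ⊆ D.steinbergRels K := fun g hg => Or.inl hg
    exact (Cfsg.Agent.Lib.Helper18.StAbs.pres_ker (rels := D.steinbergRels K) hD hsub _ hgen x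
      (MonoidHom.mem_ker.mp hx)).2
  · intro x hx
    exact MonoidHom.mem_ker.mpr (Cfsg.Agent.Lib.Helper18.StAbs.pres_center hD _ hgen x hx)

end Cfsg.Agent.S1077
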