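import Cfsg.Statements.S1082
import Cfsg.Agent.Lib.Helper99.CHO.Asm
import Cfsg.Agent.Lib.Helper47.CHO.UnitD4
import Cfsg.Agent.Lib.Helper29.CHO.EquivD4
import Cfsg.Agent.Lib.Helper31.CHO.CentD4
import Cfsg.Agent.Lib.Helper31.CHO.NonabD4
import Cfsg.Agent.Lib.Helper67.CHO.GenD4

set_option autoImplicit false
open Cfsg

namespace Cfsg.Agent.S1082

/-- D₄(F) ≅ PΩ₈⁺(F), the commutator subgroup of the orthogonal group of `Σ xᵢ yᵢ` modulo its centre. -/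
theorem result {F : Type*} [Field F] : Nonempty (↥(Cfsg.Lie.chevD4.group F) ≃* Cfsg.POmega F (Cfsg.quadFormPlus 4 F)) := by
  exact Cfsg.Agent.Lib.Helper99.CHO.s1082_of
    Cfsg.Agent.Lib.Helper99.CHO.pkgXGL_D4
    Cfsg.Agent.Lib.Helper47.CHO.pkgUnitD4
    Cfsg.Agent.Lib.Helper29.CHO.pkgEquivD4
    Cfsg.Agent.Lib.Helper31.CHO.pkgCentD4
    Cfsg.Agent.Lib.Helper31.CHO.pkgNonabD4
    (fun K _ => Cfsg.Agent.Lib.Helper67.CHO.genD4 K) F

end Cfsg.Agent.S1082
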