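import Cfsg.Statements.S1083
import Cfsg.Agent.Lib.Helper99.CHO.Asm
import Cfsg.Agent.Lib.Helper99.CHO.Defs2
import Cfsg.Agent.Lib.Helper99.CHO.Defs3
import Cfsg.Agent.Lib.Helper38.CHO.UnitIsoB2
import Cfsg.Agent.Lib.Helper36.CHO.EquivB2
import Cfsg.Agent.Lib.Helper31.CHO.CentB2
import Cfsg.Agent.Lib.Helper31.CHO.NonabB2
import Cfsg.Agent.Lib.Helper66.CHO.InB2
import Cfsg.Agent.Lib.Helper10.CHO.Ro
import Cfsg.Agent.Lib.Helper79.CHO.StB20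
import Cfsg.Agent.Lib.Helper38.CHO.StB21
import Cfsg.Agent.Lib.Helper46.CHO.FinB2
import Cfsg.Agent.Lib.Helper24.CHO.NormB2
import Cfsg.Agent.Lib.Helper65.CHO.CommB2

set_option autoImplicit false
open Cfsg

namespace Cfsg.Agent.S1083

/-- B₂(F) ≅ PΩ₅(F) for the form `x₀² + x₁y₁ + x₂y₂`, over every field with more than two elements. -/
theorem result {F : Type*} [Field F] (hF : ∃ a : F, a ≠ 0 ∧ a ≠ 1) :
    Nonempty (↥(Cfsg.Lie.chevB2.group F) ≃* Cfsg.POmega F (Cfsg.quadFormOdd 2 F)) := by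
  have hU := @Cfsg.Agent.Lib.Helper38.CHO.pkgUnitB2
  have hI := @Cfsg.Agent.Lib.Helper38.CHO.pkgIsoB2
  exact Cfsg.Agent.Lib.Helper99.CHO.s1083_of
    Cfsg.Agent.Lib.Helper99.CHO.pkgXGL_B2
    hU
    Cfsg.Agent.Lib.Helper36.CHO.pkgEquivB2
    Cfsg.Agent.Lib.Helper31.CHO.pkgCentB2
    Cfsg.Agent.Lib.Helper31.CHO.pkgNonabB2
    (Cfsg.Agent.Lib.Helper99.CHO.pkgGenB2_of
      (Cfsg.Agent.Lib.Helper66.CHO.pkgInB2_of hU hI)
      (Cfsg.Agent.Lib.Helper99.CHO.pkgRedB2_of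
        (Cfsg.Agent.Lib.Helper10.CHO.pkgRoB2_of hU hI)
        (Cfsg.Agent.Lib.Helper79.CHO.pkgStB2_0_of hU)
        (Cfsg.Agent.Lib.Helper38.CHO.pkgStB21_of hU)
        Cfsg.Agent.Lib.Helper46.CHO.pkgFinB2)
      (Cfsg.Agent.Lib.Helper24.CHO.pkgNormB2_of hU)
      Cfsg.Agent.Lib.Helper65.CHO.pkgCommB2) F hF

end Cfsg.Agent.S1083
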