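import Cfsg.Statements.S1097
import Cfsg.Agent.Lib.Helper18.StPresH

set_option autoImplicit false
open Cfsg

namespace Cfsg.Agent.S1097

/-- Any homomorphism from the presented group to the Chevalley group with `x̄_r(t) ↦ x_r(t)` has kernel contained in `H̄ = ⟨h̄_p(t) : p fundamental, t ≠ 0⟩`. -/
theorem result {K : Type*} [Field K] (D : Cfsg.Lie.ChevalleyDatum) (hD : D ∈ [Cfsg.Lie.chevG2, Cfsg.Lie.chevB2, Cfsg.Lie.chevD4, Cfsg.Lie.chevF4, Cfsg.Lie.chevE6, Cfsg.Lie.chevE7, Cfsg.Lie.chevE8]) (θ : D.SteinbergGroup K →* ↥(D.group K))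
    (hθ : ∀ (r : ℕ) (t : K), r < D.nroots → ((θ (D.stGen K r t) : GL D.Idx K) : Matrix D.Idx D.Idx K) = D.x K r t) :
    θ.ker ≤ Subgroup.closure {h | ∃ (i : ℕ) (t : K), i < D.rank ∧ t ≠ 0 ∧ h = PresentedGroup.mk (D.steinbergRels K) (D.stH (D.simple i) t)} := by
  intro x hx
  have hsub : D.steinbergRelsAB K ⊆ D.steinbergRels K := fun g hg => Or.inl hg
  have h1 := Cfsg.Agent.Lib.Helper18.StAbs.pres_ker_H0 (rels := D.steinbergRels K) hD hsub θ hθ x
    (MonoidHom.mem_ker.mp hx)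
  have h2 : Cfsg.Agent.Lib.Helper18.StAbs.H0 D
      (Cfsg.Agent.Lib.Helper18.StAbs.XP D (D.steinbergRels K)) ≤
      Subgroup.closure {h | ∃ (i : ℕ) (t : K), i < D.rank ∧ t ≠ 0 ∧
        h = PresentedGroup.mk (D.steinbergRels K) (D.stH (D.simple i) t)} := by
    refine (Subgroup.closure_le _).mpr ?_
    rintro y ⟨i, hi, t, ht, rfl⟩
    exact Subgroup.subset_closure ⟨i, t, hi, ht,
      (Cfsg.Agent.Lib.Helper18.StAbs.mk_stH D (D.steinbergRels K) (D.simple i) t).symm⟩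
  exact h2 h1

end Cfsg.Agent.S1097
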