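import Cfsg.Statements.S1098
import Cfsg.Agent.Lib.Helper17.SpFaith

set_option autoImplicit false
open Cfsg

namespace Cfsg.Agent.S1098

/-- Graph automorphisms in characteristic 2 (K perfect): for B₂ (a short, b long) `x_a(t) ↦ x_b(t²)`, `x_b(t) ↦ x_a(t)`, and for F₄ (p₁, p₂ short, p₃, p₄ long) `x_{p₁}(t) ↦ x_{p₄}(t²)`, `x_{p₂}(t) ↦ x_{p₃}(t²)`, `x_{p₃}(t) ↦ x_{p₂}(t)`, `x_{p₄}(t) ↦ x_{p₁}(t)`, likewise on the negatives, extend to an automorphism of the group. -/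
theorem result {K : Type*} [Field K] [CharP K 2] (hperf : ∀ x : K, ∃ y : K, y ^ 2 = x)
    (p : Cfsg.Lie.ChevalleyDatum × List (ℕ × ℕ))
    (hp : p ∈ [(Cfsg.Lie.chevB2, [(1, 2), (0, 1)]), (Cfsg.Lie.chevF4, [(3, 2), (2, 2), (1, 1), (0, 1)])]) :
    ∃ α : ↥(p.1.group K) ≃* ↥(p.1.group K), ∀ (g : ↥(p.1.group K)) (i : ℕ) (t : K), i < p.1.rank →
      (((g : GL p.1.Idx K) : Matrix p.1.Idx p.1.Idx K) = p.1.x K (p.1.simple i) t →
        ((α g : GL p.1.Idx K) : Matrix p.1.Idx p.1.Idx K) = p.1.x K (p.1.simple (p.2.getD i (0, 1)).1) (t ^ (p.2.getD i (0, 1)).2)) ∧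
      (((g : GL p.1.Idx K) : Matrix p.1.Idx p.1.Idx K) = p.1.x K (p.1.neg (p.1.simple i)) t →
        ((α g : GL p.1.Idx K) : Matrix p.1.Idx p.1.Idx K) = p.1.x K (p.1.neg (p.1.simple (p.2.getD i (0, 1)).1)) (t ^ (p.2.getD i (0, 1)).2)) := by
  simp only [List.mem_cons, List.mem_nil_iff, or_false] at hp
  rcases hp with rfl | rfl
  · obtain ⟨α, hα⟩ := Cfsg.Agent.Lib.Helper17.SpData.exists_aut Cfsg.Agent.Lib.Helper17.b2mem
      Cfsg.Agent.Lib.Helper17.b2S_ok (K := K) Cfsg.Agent.Lib.Helper17.b2_faithful hperf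
    refine ⟨α, ?_⟩
    intro g i t hi
    have key : ∀ i < Cfsg.Lie.chevB2.rank,
        Cfsg.Lie.chevB2.simple i < Cfsg.Lie.chevB2.nroots ∧
        Cfsg.Lie.chevB2.neg (Cfsg.Lie.chevB2.simple i) < Cfsg.Lie.chevB2.nroots ∧
        Cfsg.Agent.Lib.Helper17.b2S.ρ (Cfsg.Lie.chevB2.simple i) =
          Cfsg.Lie.chevB2.simple ([(1, 2), (0, 1)].getD i (0, 1)).1 ∧
        Cfsg.Agent.Lib.Helper17.b2S.lam (Cfsg.Lie.chevB2.simple i) =
          ([(1, 2), (0, 1)].getD i (0, 1)).2 ∧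
        Cfsg.Agent.Lib.Helper17.b2S.ρ (Cfsg.Lie.chevB2.neg (Cfsg.Lie.chevB2.simple i)) =
          Cfsg.Lie.chevB2.neg (Cfsg.Lie.chevB2.simple ([(1, 2), (0, 1)].getD i (0, 1)).1) ∧
        Cfsg.Agent.Lib.Helper17.b2S.lam (Cfsg.Lie.chevB2.neg (Cfsg.Lie.chevB2.simple i)) =
          ([(1, 2), (0, 1)].getD i (0, 1)).2 := by decide +kernel
    obtain ⟨k1, k2, k3, k4, k5, k6⟩ := key i hi
    constructor
    · intro hg
      have h1 := hα g _ t k1 hg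
      rw [k3, k4] at h1
      exact h1
    · intro hg
      have h1 := hα g _ t k2 hg
      rw [k5, k6] at h1
      exact h1
  · obtain ⟨α, hα⟩ := Cfsg.Agent.Lib.Helper17.SpData.exists_aut Cfsg.Agent.Lib.Helper17.f4mem
      Cfsg.Agent.Lib.Helper17.f4S_ok (K := K) Cfsg.Agent.Lib.Helper17.f4_faithful hperf
    refine ⟨α, ?_⟩
    intro g i t hi
    have key : ∀ i < Cfsg.Lie.chevF4.rank,
        Cfsg.Lie.chevF4.simple i < Cfsg.Lie.chevF4.nroots ∧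
        Cfsg.Lie.chevF4.neg (Cfsg.Lie.chevF4.simple i) < Cfsg.Lie.chevF4.nroots ∧
        Cfsg.Agent.Lib.Helper17.f4S.ρ (Cfsg.Lie.chevF4.simple i) =
          Cfsg.Lie.chevF4.simple ([(3, 2), (2, 2), (1, 1), (0, 1)].getD i (0, 1)).1 ∧
        Cfsg.Agent.Lib.Helper17.f4S.lam (Cfsg.Lie.chevF4.simple i) =
          ([(3, 2), (2, 2), (1, 1), (0, 1)].getD i (0, 1)).2 ∧
        Cfsg.Agent.Lib.Helper17.f4S.ρ (Cfsg.Lie.chevF4.neg (Cfsg.Lie.chevF4.simple i)) =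
          Cfsg.Lie.chevF4.neg
            (Cfsg.Lie.chevF4.simple ([(3, 2), (2, 2), (1, 1), (0, 1)].getD i (0, 1)).1) ∧
        Cfsg.Agent.Lib.Helper17.f4S.lam (Cfsg.Lie.chevF4.neg (Cfsg.Lie.chevF4.simple i)) =
          ([(3, 2), (2, 2), (1, 1), (0, 1)].getD i (0, 1)).2 := by decide +kernel
    obtain ⟨k1, k2, k3, k4, k5, k6⟩ := key i hi
    constructor
    · intro hg
      have h1 := hα g _ t k1 hg
      rw [k3, k4] at h1
      exact h1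
    · intro hg
      have h1 := hα g _ t k2 hg
      rw [k5, k6] at h1
      exact h1

end Cfsg.Agent.S1098
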