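import Cfsg.Statements.S1099
import Cfsg.Agent.Lib.Helper18.ReeSigma

set_option autoImplicit false
open Cfsg

namespace Cfsg.Agent.S1099

/-- Graph automorphism of G₂ in characteristic 3 (K perfect): `x_a(t) ↦ x_b(t³)`, `x_b(t) ↦ x_a(t)`, `x_{-a}(t) ↦ x_{-b}(t³)`, `x_{-b}(t) ↦ x_{-a}(t)` extend to an automorphism of the group. -/
theorem result {K : Type*} [Field K] [CharP K 3] (hperf : ∀ x : K, ∃ y : K, y ^ 3 = x) :
    ∃ α : ↥(Cfsg.Lie.chevG2.group K) ≃* ↥(Cfsg.Lie.chevG2.group K), ∀ (g : ↥(Cfsg.Lie.chevG2.group K)) (t : K),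
      (((g : GL Cfsg.Lie.chevG2.Idx K) : Matrix _ _ K) = Cfsg.Lie.chevG2.x K Cfsg.Lie.g2a t →
        ((α g : GL Cfsg.Lie.chevG2.Idx K) : Matrix _ _ K) = Cfsg.Lie.chevG2.x K Cfsg.Lie.g2b (t ^ 3)) ∧
      (((g : GL Cfsg.Lie.chevG2.Idx K) : Matrix _ _ K) = Cfsg.Lie.chevG2.x K Cfsg.Lie.g2b t →
        ((α g : GL Cfsg.Lie.chevG2.Idx K) : Matrix _ _ K) = Cfsg.Lie.chevG2.x K Cfsg.Lie.g2a t) ∧
      (((g : GL Cfsg.Lie.chevG2.Idx K) : Matrix _ _ K) = Cfsg.Lie.chevG2.x K Cfsg.Lie.g2ma t →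
        ((α g : GL Cfsg.Lie.chevG2.Idx K) : Matrix _ _ K) = Cfsg.Lie.chevG2.x K Cfsg.Lie.g2mb (t ^ 3)) ∧
      (((g : GL Cfsg.Lie.chevG2.Idx K) : Matrix _ _ K) = Cfsg.Lie.chevG2.x K Cfsg.Lie.g2mb t →
        ((α g : GL Cfsg.Lie.chevG2.Idx K) : Matrix _ _ K) = Cfsg.Lie.chevG2.x K Cfsg.Lie.g2ma t) := by
  classical
  have hG := Cfsg.Agent.Lib.Helper18.g2mem
  have h2 : (2 : K) ≠ 0 := by
    intro h
    have h' : ((2 : ℕ) : K) = 0 := by exact_mod_cast h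
    rw [CharP.cast_eq_zero_iff K 3] at h'
    omega
  have hK : ∃ a : K, a ≠ 0 ∧ a ≠ 1 := by
    refine ⟨-1, by simp, fun h => h2 ?_⟩
    have : (2 : K) = 1 - (-1) := by ring
    rw [this, h, sub_self]
  obtain ⟨hsimple, -⟩ := Cfsg.Agent.S1055.result hK
  have hρρ : ∀ r < 12, Cfsg.Agent.Lib.Helper18.g2ρ (Cfsg.Agent.Lib.Helper18.g2ρ r) = r ∧
      (Cfsg.Agent.Lib.Helper18.g2lam r = 1 ∨ Cfsg.Agent.Lib.Helper18.g2lam r = 3) := by decide
  have hinj : Function.Injective (Cfsg.Agent.Lib.Helper18.g2φ (K := K)) := by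
    rw [← MonoidHom.ker_eq_bot_iff]
    rcases (Cfsg.Agent.Lib.Helper18.g2φ (K := K)).normal_ker.eq_bot_or_eq_top with h | h
    · exact h
    · exfalso
      have hx : Cfsg.Agent.Lib.Helper18.g2x 6 (1 : K) ∈
          (Cfsg.Agent.Lib.Helper18.g2φ (K := K)).ker := by
        rw [h]
        trivial
      rw [MonoidHom.mem_ker, Cfsg.Agent.Lib.Helper18.g2φ_x 6 (by decide)] at hx
      have h3 := congrArg (fun g : ↥(Cfsg.Lie.chevG2.group K) =>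
        ((g : GL Cfsg.Lie.chevG2.Idx K) : Matrix Cfsg.Lie.chevG2.Idx Cfsg.Lie.chevG2.Idx K)) hx
      simp only [Cfsg.Agent.Lib.Helper18.coe_g2x, Cfsg.Agent.Lib.Helper18.coe_xU] at h3
      have h4 : ((1 : ↥(Cfsg.Lie.chevG2.group K)) : GL Cfsg.Lie.chevG2.Idx K) = 1 := rfl
      rw [h4, Units.val_one] at h3
      have h5 := (Cfsg.Agent.S1024.result Cfsg.Lie.chevG2 hG _
        (Cfsg.Agent.Lib.Helper18.g2ρ_lt 6 (by decide)) _).mp h3
      exact one_ne_zero (pow_eq_zero_iff (by decide) |>.mp h5)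
  have hsurj : Function.Surjective (Cfsg.Agent.Lib.Helper18.g2φ (K := K)) := by
    rintro ⟨g, hg⟩
    have key := Cfsg.Agent.Lib.Helper18.chev_group_induction Cfsg.Lie.chevG2 hG
      (p := fun g => ∃ y : ↥(Cfsg.Lie.chevG2.group K),
        ((Cfsg.Agent.Lib.Helper18.g2φ y : ↥(Cfsg.Lie.chevG2.group K)) :
          GL Cfsg.Lie.chevG2.Idx K) = g)
      ⟨1, by rw [map_one]; rfl⟩
      (fun r hr t => by
        obtain ⟨hr1, hr2⟩ := hρρ r hr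
        have hρlt := Cfsg.Agent.Lib.Helper18.g2ρ_lt r hr
        obtain ⟨hr3, hr4⟩ := hρρ _ hρlt
        rcases hr4 with h1 | h3
        · refine ⟨Cfsg.Agent.Lib.Helper18.g2x (Cfsg.Agent.Lib.Helper18.g2ρ r) t, ?_⟩
          rw [Cfsg.Agent.Lib.Helper18.g2φ_x _ hρlt, hr1, h1, pow_one]
          rfl
        · obtain ⟨u, hu⟩ := hperf t
          refine ⟨Cfsg.Agent.Lib.Helper18.g2x (Cfsg.Agent.Lib.Helper18.g2ρ r) u, ?_⟩
          rw [Cfsg.Agent.Lib.Helper18.g2φ_x _ hρlt, hr1, h3, hu]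
          rfl)
      (fun a b ha hb => by
        obtain ⟨ya, hya⟩ := ha
        obtain ⟨yb, hyb⟩ := hb
        exact ⟨ya * yb, by rw [map_mul, Subgroup.coe_mul, hya, hyb]⟩) g hg
    obtain ⟨y, hy⟩ := key
    exact ⟨y, Subtype.ext hy⟩
  have hform : ∀ (g : ↥(Cfsg.Lie.chevG2.group K)) (r : ℕ) (hr : r < 12) (t : K),
      ((g : GL Cfsg.Lie.chevG2.Idx K) : Matrix _ _ K) = Cfsg.Lie.chevG2.x K r t →
      ((Cfsg.Agent.Lib.Helper18.g2φ g : GL Cfsg.Lie.chevG2.Idx K) : Matrix _ _ K) =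
        Cfsg.Lie.chevG2.x K (Cfsg.Agent.Lib.Helper18.g2ρ r)
          (t ^ Cfsg.Agent.Lib.Helper18.g2lam r) := by
    intro g r hr t hg
    have e : g = Cfsg.Agent.Lib.Helper18.g2x r t := Subtype.ext (Units.ext hg)
    rw [e, Cfsg.Agent.Lib.Helper18.g2φ_x r hr]
    rfl
  refine ⟨MulEquiv.ofBijective (Cfsg.Agent.Lib.Helper18.g2φ (K := K)) ⟨hinj, hsurj⟩, ?_⟩
  intro g t
  refine ⟨fun h => ?_, fun h => ?_, fun h => ?_, fun h => ?_⟩
  · exact hform g 7 (by decide) t h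
  · have := hform g 6 (by decide) t h
    rw [show Cfsg.Agent.Lib.Helper18.g2lam 6 = 1 from rfl, pow_one] at this
    exact this
  · exact hform g 4 (by decide) t h
  · have := hform g 5 (by decide) t h
    rw [show Cfsg.Agent.Lib.Helper18.g2lam 5 = 1 from rfl, pow_one] at this
    exact this

end Cfsg.Agent.S1099
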