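import Cfsg.Statements.S1104
import Cfsg.Agent.Lib.Helper18.ChevE6TwPerf

set_option autoImplicit false
open Cfsg

namespace Cfsg.Agent.S1104

/-- ²E₆(q) equals its derived subgroup. -/
theorem result {K : Type*} [Field K] [Fintype K] {q : ℕ} (hq : IsPrimePow q) (hK : Fintype.card K = q ^ 2) : commutator ↥(Cfsg.Lie.twistedE6 K q) = ⊤ := by
  obtain ⟨φ, hφ, -⟩ := Cfsg.Agent.Lib.Helper18.exists_frob_sq hq hK
  have hle := Cfsg.Agent.Lib.Helper18.e6_tw_le_commutator (K := K) q φ hφ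
  rw [eq_top_iff]
  rintro ⟨g, hg⟩ -
  have h1 := hle hg
  rw [← Subgroup.map_subtype_commutator] at h1
  obtain ⟨x, hx, hxg⟩ := h1
  have : x = ⟨g, hg⟩ := Subtype.ext hxg
  rw [← this]
  exact hx

end Cfsg.Agent.S1104
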