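import Cfsg.Statements.S1105
import Cfsg.Agent.Lib.Helper18.ChevE6TwCore

set_option autoImplicit false
open Cfsg

namespace Cfsg.Agent.S1105

/-- The normal core of `B¹ = G¹ ∩ B` in ²E₆(q) is trivial. -/
theorem result {K : Type*} [Field K] [Fintype K] {q : ℕ} (hq : IsPrimePow q) (hK : Fintype.card K = q ^ 2) :
    ((Cfsg.Lie.chevE6.borelSubgroup K ⊓ Cfsg.Lie.twistedE6 K q).subgroupOf (Cfsg.Lie.twistedE6 K q)).normalCore = ⊥ := by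
  obtain ⟨φ, hφ, -⟩ := Cfsg.Agent.Lib.Helper18.exists_frob_sq hq hK
  rw [eq_bot_iff]
  intro z hz
  rw [Subgroup.mem_bot]
  apply Subtype.ext
  apply Cfsg.Agent.Lib.Helper18.e6_core q φ hφ
  intro g hg
  have h1 := hz ⟨g, hg⟩
  have h2 : ((⟨g, hg⟩ * z * (⟨g, hg⟩ : ↥(Cfsg.Lie.twistedE6 K q))⁻¹ : ↥(Cfsg.Lie.twistedE6 K q)) :
      GL Cfsg.Lie.chevE6.Idx K) ∈ Cfsg.Lie.chevE6.borelSubgroup K ⊓ Cfsg.Lie.twistedE6 K q := h1
  exact (Subgroup.mem_inf.mp h2).1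

end Cfsg.Agent.S1105
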