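import Cfsg.Statements.S1111
import Cfsg.Agent.Lib.Helper18.F4Weyl

set_option autoImplicit false
open Cfsg

namespace Cfsg.Agent.S1111

/-- `N¹/H¹ ≅ W¹`: a surjective homomorphism from `N¹ = G¹ ∩ N` onto the dihedral group of order 16 with kernel `H¹`. -/
theorem result {K : Type*} [Field K] [Fintype K] {m : ℕ} (hK : Fintype.card K = 2 ^ (2 * m + 1)) :
    ∃ φ : ↥(Cfsg.Lie.chevF4.monomialSubgroup K ⊓ Cfsg.Lie.twistedF4 K (2 ^ m)) →* DihedralGroup 8, Function.Surjective φ ∧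
      φ.ker = (Cfsg.Lie.chevF4.diagonalSubgroup K ⊓ Cfsg.Lie.twistedF4 K (2 ^ m)).subgroupOf (Cfsg.Lie.chevF4.monomialSubgroup K ⊓ Cfsg.Lie.twistedF4 K (2 ^ m)) := by
  have := Cfsg.Agent.Lib.Helper18.charP_two_of_card hK
  obtain ⟨T⟩ := Cfsg.Agent.Lib.Helper18.exists_f4Tw (K := K) m
  have he : 2 ^ m ≠ 0 := by positivity
  have hchk := Cfsg.Agent.Lib.Helper18.f4_dih_chk
  have : ((Cfsg.Lie.chevF4.diagonalSubgroup K ⊓ Cfsg.Lie.twistedF4 K (2 ^ m)).subgroupOf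
      (Cfsg.Lie.chevF4.monomialSubgroup K ⊓ Cfsg.Lie.twistedF4 K (2 ^ m))).Normal := by
    constructor
    intro h hh n
    rw [Subgroup.mem_subgroupOf] at hh ⊢
    obtain ⟨h1, h2⟩ := Subgroup.mem_inf.mp hh
    obtain ⟨n1, n2⟩ := Subgroup.mem_inf.mp n.2
    refine Subgroup.mem_inf.mpr ⟨?_, ?_⟩
    · exact (Subgroup.mem_normalizer_iff.mp
        (Cfsg.Agent.Lib.Helper18.monomialSubgroup_le_normalizer Cfsg.Lie.chevF4
          Cfsg.Agent.Lib.Helper18.f4mem n1) _).mp h1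
    · exact mul_mem (mul_mem n2 h2) (inv_mem n2)
  have hmem : ∀ c : List ℕ, (Cfsg.Agent.Lib.Helper18.f4nC c : GL Cfsg.Lie.chevF4.Idx K) ∈
      Cfsg.Lie.chevF4.monomialSubgroup K ⊓ Cfsg.Lie.twistedF4 K (2 ^ m) := fun c =>
    Subgroup.mem_inf.mpr ⟨Cfsg.Agent.Lib.Helper18.f4nC_mem_monomial c,
      Cfsg.Agent.Lib.Helper18.f4nC_mem_tw (2 ^ m) he c⟩
  have hiff : ∀ x : ↥(Cfsg.Lie.chevF4.monomialSubgroup K ⊓ Cfsg.Lie.twistedF4 K (2 ^ m)),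
      x ∈ (Cfsg.Lie.chevF4.diagonalSubgroup K ⊓ Cfsg.Lie.twistedF4 K (2 ^ m)).subgroupOf
        (Cfsg.Lie.chevF4.monomialSubgroup K ⊓ Cfsg.Lie.twistedF4 K (2 ^ m)) ↔
      (x : GL Cfsg.Lie.chevF4.Idx K) ∈ Cfsg.Lie.chevF4.diagonalSubgroup K := by
    intro x
    rw [Subgroup.mem_subgroupOf, Subgroup.mem_inf]
    exact ⟨fun h => h.1, fun h => ⟨h, (Subgroup.mem_inf.mp x.2).2⟩⟩
  refine Cfsg.Agent.Lib.Helper18.dihedral_of_quot _ ⟨_, hmem [0]⟩ ⟨_, hmem [1]⟩ ?_ ?_ ?_ ?_ ?_ ?_ ?_ ?_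
  · rw [hiff]
    show (Cfsg.Agent.Lib.Helper18.f4nC [0] : GL Cfsg.Lie.chevF4.Idx K) *
      Cfsg.Agent.Lib.Helper18.f4nC [0] ∈ _
    rw [← Cfsg.Agent.Lib.Helper18.f4nC_cons 0 [0], Cfsg.Agent.Lib.Helper18.f4nC_mem_diag_iff]
    exact hchk.1
  · rw [hiff]
    show (Cfsg.Agent.Lib.Helper18.f4nC [0] : GL Cfsg.Lie.chevF4.Idx K) ∉ _
    rw [Cfsg.Agent.Lib.Helper18.f4nC_mem_diag_iff]
    exact hchk.2.1
  · rw [hiff]
    show (Cfsg.Agent.Lib.Helper18.f4nC [1] : GL Cfsg.Lie.chevF4.Idx K) *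
      Cfsg.Agent.Lib.Helper18.f4nC [1] ∈ _
    rw [← Cfsg.Agent.Lib.Helper18.f4nC_cons 1 [1], Cfsg.Agent.Lib.Helper18.f4nC_mem_diag_iff]
    exact hchk.2.2.1
  · rw [hiff]
    show (Cfsg.Agent.Lib.Helper18.f4nC [1] : GL Cfsg.Lie.chevF4.Idx K) ∉ _
    rw [Cfsg.Agent.Lib.Helper18.f4nC_mem_diag_iff]
    exact hchk.2.2.2.1
  · rw [hiff]
    show (Cfsg.Agent.Lib.Helper18.f4nC [0] : GL Cfsg.Lie.chevF4.Idx K) *
      Cfsg.Agent.Lib.Helper18.f4nC [1] ∉ _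
    rw [← Cfsg.Agent.Lib.Helper18.f4nC_cons 0 [1], Cfsg.Agent.Lib.Helper18.f4nC_mem_diag_iff]
    exact hchk.2.2.2.2.1
  · rw [hiff]
    show ((Cfsg.Agent.Lib.Helper18.f4nC [0] : GL Cfsg.Lie.chevF4.Idx K) *
      Cfsg.Agent.Lib.Helper18.f4nC [1]) ^ 8 ∈ _
    rw [Cfsg.Agent.Lib.Helper18.f4nC_pow, Cfsg.Agent.Lib.Helper18.f4nC_mem_diag_iff]
    exact hchk.2.2.2.2.2.1
  · rw [hiff]
    show ((Cfsg.Agent.Lib.Helper18.f4nC [0] : GL Cfsg.Lie.chevF4.Idx K) *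
      Cfsg.Agent.Lib.Helper18.f4nC [1]) ^ 4 ∉ _
    rw [Cfsg.Agent.Lib.Helper18.f4nC_pow, Cfsg.Agent.Lib.Helper18.f4nC_mem_diag_iff]
    exact hchk.2.2.2.2.2.2
  · intro g
    obtain ⟨gN, gG⟩ := Subgroup.mem_inf.mp g.2
    obtain ⟨c, hc, hcH⟩ := T.fix_N ⟨g.1, Cfsg.Agent.Lib.Helper18.f4_tw_le_group _ gG⟩ gN
      (T.fixed hK _ gG)
    have hprod : ∀ c' : List ℕ, (((c'.map (fun i =>
        if i = 0 then (⟨_, hmem [0]⟩ :
          ↥(Cfsg.Lie.chevF4.monomialSubgroup K ⊓ Cfsg.Lie.twistedF4 K (2 ^ m)))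
        else ⟨_, hmem [1]⟩)).prod :
          ↥(Cfsg.Lie.chevF4.monomialSubgroup K ⊓ Cfsg.Lie.twistedF4 K (2 ^ m))) :
          GL Cfsg.Lie.chevF4.Idx K) = Cfsg.Agent.Lib.Helper18.f4nC c' := by
      intro c'
      induction c' with
      | nil => rfl
      | cons k c' ih =>
        rw [List.map_cons, List.prod_cons, Subgroup.coe_mul, ih,
          Cfsg.Agent.Lib.Helper18.f4nC_cons k c']
        rcases k with _ | k
        · rfl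
        · rfl
    refine ⟨c.map (fun i => if i = 0 then ⟨_, hmem [0]⟩ else ⟨_, hmem [1]⟩), ?_, ?_⟩
    · intro x hx
      obtain ⟨i, -, rfl⟩ := List.mem_map.mp hx
      by_cases hi : i = 0
      · left
        rw [if_pos hi]
      · right
        rw [if_neg hi]
    · rw [hiff, Subgroup.coe_mul, Subgroup.coe_inv, hprod c]
      exact hcH

end Cfsg.Agent.S1111
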