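import Cfsg.Statements.S1117
import Cfsg.Agent.Lib.Helper18.ReeBN

set_option autoImplicit false
open Cfsg

namespace Cfsg.Agent.S1117

/-- The normal core of `B¹ = G¹ ∩ B` in ²G₂(q) is trivial. -/
theorem result {K : Type*} [Field K] [Fintype K] {m : ℕ} (hK : Fintype.card K = 3 ^ (2 * m + 1)) :
    ((Cfsg.Lie.chevG2.borelSubgroup K ⊓ Cfsg.Lie.twistedG2 K (3 ^ m)).subgroupOf (Cfsg.Lie.twistedG2 K (3 ^ m))).normalCore = ⊥ := by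
  haveI := Cfsg.Agent.Lib.Helper18.charP_three_of_card hK
  rw [eq_bot_iff]
  intro z hz
  rw [Subgroup.mem_bot]
  apply Subtype.ext
  apply Cfsg.Agent.Lib.Helper18.g2_core (3 ^ m) (pow_ne_zero _ (by norm_num))
  intro g hg
  have h1 := hz ⟨g, hg⟩
  have h2 : ((⟨g, hg⟩ * z * (⟨g, hg⟩ : ↥(Cfsg.Lie.twistedG2 K (3 ^ m)))⁻¹ : ↥(Cfsg.Lie.twistedG2 K (3 ^ m))) :
      GL Cfsg.Lie.chevG2.Idx K) ∈ Cfsg.Lie.chevG2.borelSubgroup K ⊓ Cfsg.Lie.twistedG2 K (3 ^ m) := h1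
  exact (Subgroup.mem_inf.mp h2).1

end Cfsg.Agent.S1117
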