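import Cfsg.Statements.S1124

set_option autoImplicit false
open scoped Pointwise
open Cfsg

namespace Cfsg.Agent.S1124

/-- Let `t` be an element of order 2 of a finite group normalising a subgroup `X` of odd order, `Y = C_X(t)` and `Z` the set of elements of `X` inverted by `t`. Then `(y, z) ↦ y z` is a bijection `Y × Z → X`, so `|X| = |Y| |Z|`, and the subgroup generated by `Z` is normal in `X`. -/
theorem result {M : Type*} [Group M] [Finite M]
    (t : M) (ht : orderOf t = 2) (X : Subgroup M) (hodd : Odd (Nat.card X))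
    (hnorm : ∀ x ∈ X, t * x * t⁻¹ ∈ X) :
    (∀ x ∈ X, ∃! p : M × M, p.1 ∈ X ⊓ Subgroup.centralizer {t} ∧ p.2 ∈ Cfsg.invertedBy X t ∧ x = p.1 * p.2) ∧
      Nat.card X = Nat.card ↥(X ⊓ Subgroup.centralizer {t}) * Nat.card (Cfsg.invertedBy X t) ∧
      ∀ x ∈ X, MulAut.conj x • Subgroup.closure (Cfsg.invertedBy X t) = Subgroup.closure (Cfsg.invertedBy X t) := by
  have htt : t * t = 1 := by
    have := pow_orderOf_eq_one t
    rw [ht, pow_two] at this; exact this
  have htinv : t⁻¹ = t := inv_eq_of_mul_eq_one_left htt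
  obtain ⟨k, hk⟩ := hodd
  have hpow : ∀ a ∈ X, a ^ (2 * k + 1) = 1 := by
    intro a ha
    have h1 : (⟨a, ha⟩ : X) ^ Nat.card X = 1 := pow_card_eq_one'
    rw [hk] at h1
    have := congrArg Subtype.val h1
    simpa using this
  have hsq : ∀ a ∈ X, (a * a) ^ (k + 1) = a := by
    intro a ha
    have h2 : (a * a) ^ (k + 1) = a ^ (2 * k + 1) * a := by
      rw [← pow_two, ← pow_mul, ← pow_succ]
      congr 1
    rw [h2, hpow a ha, one_mul]
  have hsqinj : ∀ a ∈ X, ∀ b ∈ X, a * a = b * b → a = b := by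
    intro a ha b hb h
    rw [← hsq a ha, ← hsq b hb, h]
  -- membership in the centralizer
  have hcent : ∀ y : M, y ∈ Subgroup.centralizer ({t} : Set M) ↔ t * y * t⁻¹ = y := by
    intro y
    rw [Subgroup.mem_centralizer_iff]
    constructor
    · intro h
      have := h t (Set.mem_singleton t)
      rw [this]; group
    · intro h g hg
      rw [Set.mem_singleton_iff] at hg
      subst hg
      calc g * y = g * y * g⁻¹ * g := by group
        _ = y * g := by rw [h]
  -- existence and uniqueness of the decomposition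
  have key : ∀ x ∈ X, ∃! p : M × M, p.1 ∈ X ⊓ Subgroup.centralizer {t} ∧ p.2 ∈ Cfsg.invertedBy X t ∧ x = p.1 * p.2 := by
    intro x hx
    set v : M := (t * x * t⁻¹)⁻¹ * x with hv
    have hvX : v ∈ X := X.mul_mem (X.inv_mem (hnorm x hx)) hx
    have hvinv : t * v * t⁻¹ = v⁻¹ := by
      rw [hv, htinv]
      have e1 : t * ((t * x * t)⁻¹ * x) * t = (t * (t * x * t)⁻¹ * t) * (t * x * t) := by
        calc t * ((t * x * t)⁻¹ * x) * t = t * (t * x * t)⁻¹ * (1 * x) * t := by group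
          _ = t * (t * x * t)⁻¹ * ((t * t) * x) * t := by rw [htt]
          _ = (t * (t * x * t)⁻¹ * t) * (t * x * t) := by group
      have e2 : t * (t * x * t)⁻¹ * t = x⁻¹ := by
        calc t * (t * x * t)⁻¹ * t = t * (t⁻¹ * x⁻¹ * t⁻¹) * t := by group
          _ = t * (t * x⁻¹ * t) * t := by rw [htinv]
          _ = (t * t) * x⁻¹ * (t * t) := by group
          _ = x⁻¹ := by rw [htt]; group
      rw [e1, e2]; group
    set z : M := v ^ (k + 1) with hz
    have hzX : z ∈ X := X.pow_mem hvX _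
    have hzz : z * z = v := by
      rw [hz, ← pow_add]
      have : k + 1 + (k + 1) = (2 * k + 1) + 1 := by ring
      rw [this, pow_succ, hpow v hvX, one_mul]
    have hzinv : t * z * t⁻¹ = z⁻¹ := by
      have : t * z * t⁻¹ = (t * v * t⁻¹) ^ (k + 1) := by
        rw [hz, conj_pow]
      rw [this, hvinv, inv_pow]
    refine ⟨(x * z⁻¹, z), ⟨?_, ⟨hzX, hzinv⟩, by simp⟩, ?_⟩
    · refine ⟨X.mul_mem hx (X.inv_mem hzX), (hcent _).2 ?_⟩
      show t * (x * z⁻¹) * t⁻¹ = x * z⁻¹
      have e : t * (x * z⁻¹) * t⁻¹ = (t * x * t⁻¹) * (t * z * t⁻¹)⁻¹ := by group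
      rw [e, hzinv, inv_inv]
      have hv' : (t * x * t⁻¹) * v = x := by rw [hv]; group
      calc t * x * t⁻¹ * z = t * x * t⁻¹ * (z * z) * z⁻¹ := by group
        _ = x * z⁻¹ := by rw [hzz, hv']
    · rintro ⟨y', z'⟩ ⟨⟨hy'X, hy'C⟩, ⟨hz'X, hz'inv⟩, hxe⟩
      simp only at hy'X hy'C hz'X hz'inv hxe
      have hy'C := (hcent y').1 hy'C
      have hz'2 : z' * z' = v := by
        rw [hv, hxe]
        have e : t * (y' * z') * t⁻¹ = (t * y' * t⁻¹) * (t * z' * t⁻¹) := by group
        rw [e, hy'C, hz'inv]; group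
      have hzz' : z' = z := hsqinj z' hz'X z hzX (by rw [hz'2, hzz])
      subst hzz'
      have : y' = x * z⁻¹ := by rw [hxe]; group
      rw [this]
  refine ⟨key, ?_, ?_⟩
  · -- cardinality
    rw [← Nat.card_prod]
    symm
    let f : ↥(X ⊓ Subgroup.centralizer {t}) × ↥(Cfsg.invertedBy X t) → ↥X :=
      fun p => ⟨p.1.1 * p.2.1, X.mul_mem p.1.2.1 p.2.2.1⟩
    apply Nat.card_eq_of_bijective f
    constructor
    · rintro ⟨⟨y1, hy1⟩, ⟨z1, hz1⟩⟩ ⟨⟨y2, hy2⟩, ⟨z2, hz2⟩⟩ h
      have h' : y1 * z1 = y2 * z2 := congrArg Subtype.val h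
      obtain ⟨p, -, hp⟩ := key (y1 * z1) (X.mul_mem hy1.1 hz1.1)
      have e1 := hp (y1, z1) ⟨hy1, hz1, rfl⟩
      have e2 := hp (y2, z2) ⟨hy2, hz2, h'⟩
      have e3 : (y1, z1) = (y2, z2) := e1.trans e2.symm
      simp only [Prod.mk.injEq] at e3
      obtain ⟨rfl, rfl⟩ := e3
      rfl
    · rintro ⟨x, hx⟩
      obtain ⟨p, ⟨hp1, hp2, hp3⟩, -⟩ := key x hx
      exact ⟨(⟨p.1, hp1⟩, ⟨p.2, hp2⟩), Subtype.ext hp3.symm⟩
  · -- normality of the closure
    have hconj : ∀ x ∈ X, ∀ g ∈ Subgroup.closure (Cfsg.invertedBy X t),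
        x * g * x⁻¹ ∈ Subgroup.closure (Cfsg.invertedBy X t) := by
      intro x hx
      obtain ⟨p, ⟨hp1, hp2, hp3⟩, -⟩ := key x hx
      have hy : t * p.1 * t⁻¹ = p.1 := (hcent p.1).1 hp1.2
      have h2 : ∀ g ∈ Subgroup.closure (Cfsg.invertedBy X t), p.1 * g * p.1⁻¹ ∈ Subgroup.closure (Cfsg.invertedBy X t) := by
        intro g hg
        induction hg using Subgroup.closure_induction with
        | mem w hw =>
          apply Subgroup.subset_closure
          refine ⟨X.mul_mem (X.mul_mem hp1.1 hw.1) (X.inv_mem hp1.1), ?_⟩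
          have e : t * (p.1 * w * p.1⁻¹) * t⁻¹ = (t * p.1 * t⁻¹) * (t * w * t⁻¹) * (t * p.1 * t⁻¹)⁻¹ := by group
          rw [e, hy, hw.2]; group
        | one => simp
        | mul a b _ _ iha ihb =>
          have e : p.1 * (a * b) * p.1⁻¹ = (p.1 * a * p.1⁻¹) * (p.1 * b * p.1⁻¹) := by group
          rw [e]; exact Subgroup.mul_mem _ iha ihb
        | inv a _ iha =>
          have e : p.1 * a⁻¹ * p.1⁻¹ = (p.1 * a * p.1⁻¹)⁻¹ := by group
          rw [e]; exact Subgroup.inv_mem _ iha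
      intro g hg
      have h1 : p.2 * g * p.2⁻¹ ∈ Subgroup.closure (Cfsg.invertedBy X t) :=
        Subgroup.mul_mem _ (Subgroup.mul_mem _ (Subgroup.subset_closure hp2) hg)
          (Subgroup.inv_mem _ (Subgroup.subset_closure hp2))
      have := h2 _ h1
      rw [hp3]
      have e : p.1 * p.2 * g * (p.1 * p.2)⁻¹ = p.1 * (p.2 * g * p.2⁻¹) * p.1⁻¹ := by group
      rw [e]; exact this
    intro x hx
    ext g
    rw [Subgroup.mem_pointwise_smul_iff_inv_smul_mem]
    constructor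
    · intro h
      have h5 := hconj x hx _ h
      have e : x * ((MulAut.conj x)⁻¹ • g) * x⁻¹ = g := by
        simp [MulAut.smul_def]; group
      rw [e] at h5; exact h5
    · intro h
      have := hconj x⁻¹ (X.inv_mem hx) _ h
      simpa [MulAut.smul_def] using this

end Cfsg.Agent.S1124
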