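import Cfsg.Statements.S1138
import Cfsg.Agent.Lib.Helper45.HigOrder
-- import your own Cfsg.Agent.* helpers here

set_option autoImplicit false
open Cfsg

namespace Cfsg.Agent.S1138

/-- Let `P` be a Suzuki 2-group with `|Z(P)| = q`. Then every square lies in `Z(P)` and `P/Z(P)` is abelian (so elementary abelian), `|P| = q²` or `|P| = q³`, and `P` has exponent 4. -/
theorem result {P : Type*} [Group P] (hP : Cfsg.IsSuzukiTwoGroup P) :
    (∀ x : P, x * x ∈ Subgroup.center P) ∧ (∀ x y : P, x⁻¹ * y⁻¹ * x * y ∈ Subgroup.center P) ∧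
      (Nat.card P = Nat.card (Subgroup.center P) ^ 2 ∨ Nat.card P = Nat.card (Subgroup.center P) ^ 3) ∧
      Monoid.exponent P = 4 := by
  obtain ⟨K, h⟩ := Cfsg.Agent.Lib.Helper45.Hig.suzuki_SD hP
  refine ⟨h.sq_central, fun x y => ?_, h.card_cases, ?_⟩
  · have e : x⁻¹ * y⁻¹ * x * y = Cfsg.Agent.Lib.Helper21.Suz2.cm x y := by
      unfold Cfsg.Agent.Lib.Helper21.Suz2.cm; group
    rw [e]; exact h.cm_central x y
  · have h4 : Monoid.exponent P ∣ 2 ^ 2 := by
      apply Monoid.exponent_dvd_of_forall_pow_eq_one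
      intro g
      have h1 := h.exp4 g
      have e : g ^ 2 ^ 2 = (g * g) * (g * g) := by
        show g ^ 4 = _
        simp only [pow_succ, pow_zero, one_mul, mul_assoc]
      rw [e]; exact h1
    have h2 : ¬ Monoid.exponent P ∣ 2 := by
      intro hd
      obtain ⟨x, y, hxy⟩ := h.hna
      have hx : x ^ 2 = 1 := Monoid.exponent_dvd_iff_forall_pow_eq_one.mp hd x
      rw [pow_two] at hx
      exact hxy (Subgroup.mem_center_iff.mp (h.hci x hx) y).symm
    obtain ⟨m, hm, hme⟩ := (Nat.dvd_prime_pow Nat.prime_two).mp h4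
    interval_cases m
    · exfalso; apply h2; rw [hme]; norm_num
    · exfalso; apply h2; rw [hme]; norm_num
    · rw [hme]; norm_num

end Cfsg.Agent.S1138
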