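import Cfsg.Statements.S1160
import Cfsg.Agent.Lib.Helper20.PGroupOdd

set_option autoImplicit false
open Cfsg

namespace Cfsg.Agent.S1160

/-- The orbit sum `v ↦ ∑_{k < n} u^k • v`. -/
def trSum (E : Type*) [AddCommGroup E] {P : Type*} [Group P] [DistribMulAction P E] (n : ℕ)
    (u : P) : E →+ E :=
  ∑ k ∈ Finset.range n, DistribMulAction.toAddMonoidHom E (u ^ k)

theorem trSum_apply {E : Type*} [AddCommGroup E] {P : Type*} [Group P] [DistribMulAction P E]
    (n : ℕ) (u : P) (v : E) : trSum E n u v = ∑ k ∈ Finset.range n, u ^ k • v := by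
  simp [trSum, AddMonoidHom.finset_sum_apply]

theorem trSum_fixed {E : Type*} [AddCommGroup E] {P : Type*} [Group P] [DistribMulAction P E]
    {n : ℕ} {u : P} (hu : u ^ n = 1) (v : E) : u • trSum E n u v = trSum E n u v := by
  rw [trSum_apply, Finset.smul_sum]
  have h1 : ∑ k ∈ Finset.range n, u • u ^ k • v = ∑ k ∈ Finset.range n, u ^ (k + 1) • v := by
    apply Finset.sum_congr rfl
    intro k _
    rw [smul_smul, ← pow_succ']
  rw [h1]
  have h2 := Finset.sum_range_succ (fun k => u ^ k • v) n
  have h3 := Finset.sum_range_succ' (fun k => u ^ k • v) n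
  rw [h2] at h3
  simp only [hu, pow_zero] at h3
  exact (add_right_cancel h3).symm

theorem trSum_of_fixed {E : Type*} [AddCommGroup E] {P : Type*} [Group P] [DistribMulAction P E]
    {n : ℕ} {u : P} {v : E} (h : u • v = v) : trSum E n u v = n • v := by
  rw [trSum_apply]
  have : ∀ k : ℕ, u ^ k • v = v := by
    intro k
    induction k with
    | zero => simp
    | succ k ih => rw [pow_succ, mul_smul, h, ih]
  rw [Finset.sum_congr rfl (fun k _ => this k), Finset.sum_const, Finset.card_range]

theorem trSum_comm {E : Type*} [AddCommGroup E] {P : Type*} [Group P] [DistribMulAction P E]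
    {n : ℕ} {u g : P} (h : g * u = u * g) (v : E) :
    g • trSum E n u v = trSum E n u (g • v) := by
  rw [trSum_apply, trSum_apply, Finset.smul_sum]
  apply Finset.sum_congr rfl
  intro k _
  have hc : Commute g (u ^ k) := Commute.pow_right h k
  rw [smul_smul, smul_smul, hc.eq]

/-- Let `p ≠ 2` be prime and `P` a finite `p`-group acting faithfully by additive automorphisms on a finite elementary abelian `q`-group `E` (`q` prime), such that `|P_a|` is the same for all `a ≠ 0`. Then `P` is cyclic and every non-identity element of `P` fixes only `0`. -/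
theorem result {P E : Type*} [Group P] [Finite P]
    [AddCommGroup E] [Finite E] [DistribMulAction P E] [FaithfulSMul P E]
    {p q : ℕ} [Fact p.Prime] (hp2 : p ≠ 2) (hP : IsPGroup p P) (hq : q.Prime) (hE : ∀ e : E, q • e = 0)
    (hconst : ∀ a b : E, a ≠ 0 → b ≠ 0 →
      Nat.card (MulAction.stabilizer P a) = Nat.card (MulAction.stabilizer P b)) :
    IsCyclic P ∧ ∀ g : P, g ≠ 1 → ∀ a : E, g • a = a → a = 0 := by
  have hp : p.Prime := Fact.out
  have hstab : ∀ a b : E, a ≠ 0 → b ≠ 0 →
      MulAction.stabilizer P a ≤ MulAction.stabilizer P b →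
      MulAction.stabilizer P a = MulAction.stabilizer P b := fun a b ha hb hle =>
    Subgroup.eq_of_le_of_card_ge hle (hconst a b ha hb).ge
  have hsn : ∀ (g : P) (n : ℕ) (e : E), g • (n • e) = n • (g • e) := fun g n e =>
    map_nsmul (DistribMulAction.toAddMonoidHom E g) n e
  by_cases hqp : q = p
  · -- `P` is trivial
    rw [hqp] at hE
    have htriv : ∀ g : P, g = 1 := by
      intro g
      apply FaithfulSMul.eq_of_smul_eq_smul (α := E)
      intro a
      rw [one_smul]
      by_cases ha : a = 0
      · rw [ha, smul_zero]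
      · have hdvd : p ∣ Nat.card E := by
          have h1 : addOrderOf a = p := addOrderOf_eq_prime (hE a) ha
          rw [← h1]; exact addOrderOf_dvd_natCard a
        obtain ⟨b, hb, hb0⟩ := hP.exists_fixed_point_of_prime_dvd_card_of_fixed_point (α := E) hdvd
          (a := (0 : E)) (fun g => smul_zero g)
        have hb0' : b ≠ 0 := fun h => hb0 h.symm
        have hbtop : MulAction.stabilizer P b = ⊤ := by
          rw [eq_top_iff]; intro g _; exact MulAction.mem_stabilizer_iff.mpr (hb g)
        have hatop : MulAction.stabilizer P a = ⊤ := by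
          apply Subgroup.eq_top_of_card_eq
          rw [hconst a b ha hb0', hbtop]; exact Subgroup.card_top
        have hg : g ∈ MulAction.stabilizer P a := by rw [hatop]; trivial
        exact MulAction.mem_stabilizer_iff.mp hg
    refine ⟨?_, fun g hg => absurd (htriv g) hg⟩
    haveI : Subsingleton P := ⟨fun a b => (htriv a).trans (htriv b).symm⟩
    exact isCyclic_of_subsingleton
  · have hcop : Nat.Coprime p q := (Nat.coprime_primes hp hq).mpr (Ne.symm hqp)
    have hcc : ∀ e : E, p • e = 0 → e = 0 := by
      intro e he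
      have h1 : addOrderOf e ∣ p := addOrderOf_dvd_iff_nsmul_eq_zero.mpr he
      have h2 : addOrderOf e ∣ q := addOrderOf_dvd_iff_nsmul_eq_zero.mpr (hE e)
      have h3 : addOrderOf e ∣ Nat.gcd p q := Nat.dvd_gcd h1 h2
      rw [hcop.gcd_eq_one] at h3
      exact AddMonoid.addOrderOf_eq_one_iff.mp (Nat.dvd_one.mp h3)
    have hcc2 : ∀ e₁ e₂ : E, p • e₁ = p • e₂ → e₁ = e₂ := by
      intro e₁ e₂ h
      have : p • (e₁ - e₂) = 0 := by rw [nsmul_sub, h, sub_self]
      exact sub_eq_zero.mp (hcc _ this)
    -- central elements of order `p` are fixed point free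
    have hN : ∀ u : P, u ∈ Subgroup.center P → u ≠ 1 → u ^ p = 1 →
        ∀ a : E, u • a = a → a = 0 := by
      intro u huc hu1 hup a₀ ha₀
      by_contra ha₀0
      have hex : ∃ v : E, u • v ≠ v := by
        by_contra hall
        push_neg at hall
        exact hu1 (FaithfulSMul.eq_of_smul_eq_smul (α := E) (fun a => by rw [hall a, one_smul]))
      obtain ⟨v₁, hv₁⟩ := hex
      obtain ⟨b₀, hb₀⟩ : ∃ b₀ : E, b₀ = p • v₁ - trSum E p u v₁ := ⟨_, rfl⟩
      have hTb : trSum E p u b₀ = 0 := by
        have h1 : trSum E p u (trSum E p u v₁) = p • trSum E p u v₁ :=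
          trSum_of_fixed (trSum_fixed hup v₁)
        rw [hb₀, map_sub, map_nsmul, h1, sub_self]
      have hb₀0 : b₀ ≠ 0 := by
        intro h
        have h2 : p • v₁ = trSum E p u v₁ := by
          rw [hb₀] at h; exact sub_eq_zero.mp h
        apply hv₁
        apply hcc2
        rw [← hsn u p v₁, h2, trSum_fixed hup]
      have hTab : trSum E p u (a₀ + b₀) = p • a₀ := by
        rw [map_add, hTb, add_zero, trSum_of_fixed ha₀]
      have hab : a₀ + b₀ ≠ 0 := by
        intro h
        rw [h, map_zero] at hTab
        exact ha₀0 (hcc _ hTab.symm)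
      have hle : MulAction.stabilizer P (a₀ + b₀) ≤ MulAction.stabilizer P a₀ := by
        intro g hg
        rw [MulAction.mem_stabilizer_iff] at hg ⊢
        apply hcc2
        have h2 : g • trSum E p u (a₀ + b₀) = trSum E p u (g • (a₀ + b₀)) :=
          trSum_comm (Subgroup.mem_center_iff.mp huc g) _
        rw [hg, hTab, hsn] at h2
        exact h2
      have heq := hstab _ _ hab ha₀0 hle
      have hu_mem : u ∈ MulAction.stabilizer P (a₀ + b₀) := by
        rw [heq]; exact MulAction.mem_stabilizer_iff.mpr ha₀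
      rw [MulAction.mem_stabilizer_iff, smul_add, ha₀] at hu_mem
      have hub : u • b₀ = b₀ := add_left_cancel hu_mem
      have h0 : p • b₀ = 0 := by rw [← trSum_of_fixed hub, hTb]
      exact hb₀0 (hcc _ h0)
    have hcyc : IsCyclic P := by
      by_contra hnc
      obtain ⟨z₀, x, hz₀c, hz₀o, hxp, hxZ, hxconj⟩ :=
        Cfsg.Agent.Lib.Helper20.exists_normal_rank_two hp2 hP hnc
      have hz₀p : z₀ ^ p = 1 := by
        have := pow_orderOf_eq_one z₀
        rwa [hz₀o] at this
      have hz₀1 : z₀ ≠ 1 := by
        intro h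
        rw [h, orderOf_one] at hz₀o
        exact hp.one_lt.ne hz₀o
      have hZc : ∀ t ∈ Subgroup.zpowers z₀, t ∈ Subgroup.center P :=
        fun t ht => (Subgroup.zpowers_le.mpr hz₀c) ht
      have hZp : ∀ t ∈ Subgroup.zpowers z₀, t ^ p = 1 := by
        intro t ht
        obtain ⟨j, rfl⟩ := Subgroup.mem_zpowers_iff.mp ht
        rw [← zpow_natCast, ← zpow_mul, mul_comm, zpow_mul, zpow_natCast, hz₀p, one_zpow]
      have hZf : ∀ t ∈ Subgroup.zpowers z₀, t ≠ 1 → ∀ a : E, t • a = a → a = 0 :=
        fun t ht ht1 => hN t (hZc t ht) ht1 (hZp t ht)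
      have hup : ∀ t ∈ Subgroup.zpowers z₀, (x * t) ^ p = 1 := by
        intro t ht
        have hc : Commute x t := Subgroup.mem_center_iff.mp (hZc t ht) x
        rw [hc.mul_pow, hxp, hZp t ht, one_mul]
      have hF2 : ∀ s ∈ Subgroup.zpowers z₀, ∀ t ∈ Subgroup.zpowers z₀, s ≠ t →
          ∀ a : E, (x * s) • a = a → (x * t) • a = a → a = 0 := by
        intro s hs t ht hst a has hat
        apply hZf (s⁻¹ * t) (Subgroup.mul_mem _ (Subgroup.inv_mem _ hs) ht)
        · intro h; exact hst (inv_mul_eq_one.mp h)
        · have h1 : s⁻¹ * t = (x * s)⁻¹ * (x * t) := by group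
          rw [h1, mul_smul, hat, inv_smul_eq_iff, has]
      have hxx : ∀ s ∈ Subgroup.zpowers z₀, ∀ t ∈ Subgroup.zpowers z₀,
          (x * t) * (x * s) = (x * s) * (x * t) := by
        intro s hs t ht
        have h1 := Subgroup.mem_center_iff.mp (hZc s hs)
        have h2 := Subgroup.mem_center_iff.mp (hZc t ht)
        have hxs : Commute x s := h1 x
        have htx : Commute t x := (h2 x).symm
        have hts : Commute t s := h1 t
        exact (((Commute.refl x).mul_right hxs).mul_left (htx.mul_right hts)).eq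
      have hK : ∀ s ∈ Subgroup.zpowers z₀, ∀ t ∈ Subgroup.zpowers z₀, s ≠ t →
          ∀ b : E, (x * t) • b = b → trSum E p (x * s) b = 0 := by
        intro s hs t ht hst b hb
        apply hF2 s hs t ht hst
        · exact trSum_fixed (hup s hs) b
        · rw [trSum_comm (hxx s hs t ht) b, hb]
      have hF1 : ∀ v : E, ∑ i ∈ Finset.range p, trSum E p (x * z₀ ^ i) v = p • v := by
        intro v
        have h1 : ∀ i : ℕ, trSum E p (x * z₀ ^ i) v =
            ∑ k ∈ Finset.range p, x ^ k • (z₀ ^ k) ^ i • v := by
          intro i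
          rw [trSum_apply]
          apply Finset.sum_congr rfl
          intro k _
          have hc : Commute x (z₀ ^ i) :=
            Subgroup.mem_center_iff.mp (Subgroup.pow_mem _ hz₀c i) x
          rw [hc.mul_pow, mul_smul, ← pow_mul, ← pow_mul, mul_comm i k]
        rw [Finset.sum_congr rfl (fun i _ => h1 i), Finset.sum_comm]
        have h2 : ∀ k ∈ Finset.range p, k ≠ 0 →
            ∑ i ∈ Finset.range p, x ^ k • (z₀ ^ k) ^ i • v = 0 := by
          intro k hk hk0
          rw [← Finset.smul_sum, ← trSum_apply]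
          have hkp : (z₀ ^ k) ^ p = 1 := by rw [← pow_mul, mul_comm, pow_mul, hz₀p, one_pow]
          have hfix : z₀ ^ k • trSum E p (z₀ ^ k) v = trSum E p (z₀ ^ k) v := trSum_fixed hkp v
          have hk1 : z₀ ^ k ≠ 1 := by
            apply pow_ne_one_of_lt_orderOf hk0
            rw [hz₀o]; exact Finset.mem_range.mp hk
          have h0 : trSum E p (z₀ ^ k) v = 0 :=
            hN (z₀ ^ k) (Subgroup.pow_mem _ hz₀c k) hk1 hkp _ hfix
          rw [h0, smul_zero]
        rw [Finset.sum_eq_single_of_mem 0 (Finset.mem_range.mpr hp.pos)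
          (fun k hk hk0 => h2 k hk hk0)]
        simp
      obtain ⟨v, hv⟩ : ∃ v : E, v ≠ 0 := by
        by_contra hall
        push_neg at hall
        exact hz₀1 (FaithfulSMul.eq_of_smul_eq_smul (α := E)
          (fun a => by rw [hall a, smul_zero, smul_zero]))
      have hpv : p • v ≠ 0 := fun h => hv (hcc v h)
      obtain ⟨i, hi, hTi⟩ := Finset.exists_ne_zero_of_sum_ne_zero (by rw [hF1 v]; exact hpv)
      have hsi : z₀ ^ i ∈ Subgroup.zpowers z₀ := Subgroup.pow_mem _ (Subgroup.mem_zpowers z₀) i
      obtain ⟨a, ha⟩ : ∃ a : E, a = trSum E p (x * z₀ ^ i) v := ⟨_, rfl⟩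
      have ha0 : a ≠ 0 := ha ▸ hTi
      have hai : (x * z₀ ^ i) • a = a := by rw [ha]; exact trSum_fixed (hup _ hsi) v
      obtain ⟨j, hj, hji, b, hb0, hbj⟩ : ∃ j ∈ Finset.range p, j ≠ i ∧
          ∃ b : E, b ≠ 0 ∧ (x * z₀ ^ j) • b = b := by
        by_contra hno
        push_neg at hno
        have hall : ∀ v' : E, (x * z₀ ^ i) • v' = v' := by
          intro v'
          have h1 : ∑ j ∈ Finset.range p, trSum E p (x * z₀ ^ j) v' =
              trSum E p (x * z₀ ^ i) v' := by
            apply Finset.sum_eq_single_of_mem i hi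
            intro j hj hji
            by_contra h0
            exact hno j hj hji _ h0
              (trSum_fixed (hup _ (Subgroup.pow_mem _ (Subgroup.mem_zpowers z₀) j)) v')
          rw [hF1 v'] at h1
          apply hcc2
          rw [← hsn (x * z₀ ^ i) p v', h1, trSum_fixed (hup _ hsi)]
        have h1 : x * z₀ ^ i = 1 :=
          FaithfulSMul.eq_of_smul_eq_smul (α := E) (fun a => by rw [hall a, one_smul])
        apply hxZ
        rw [eq_inv_of_mul_eq_one_left h1]
        exact Subgroup.inv_mem _ hsi
      have hsj : z₀ ^ j ∈ Subgroup.zpowers z₀ := Subgroup.pow_mem _ (Subgroup.mem_zpowers z₀) j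
      have hsij : z₀ ^ i ≠ z₀ ^ j := by
        intro h
        have hi' : i ∈ Set.Iio (orderOf z₀) := by rw [hz₀o]; exact Finset.mem_range.mp hi
        have hj' : j ∈ Set.Iio (orderOf z₀) := by rw [hz₀o]; exact Finset.mem_range.mp hj
        exact hji (pow_injOn_Iio_orderOf hj' hi' h.symm)
      have hab : a + b ≠ 0 := by
        intro h
        have hb' : b = -a := (neg_eq_of_add_eq_zero_right h).symm
        have h1 : (x * z₀ ^ i) • b = b := by rw [hb', smul_neg, hai]
        exact hb0 (hF2 _ hsi _ hsj hsij b h1 hbj)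
      have hle : MulAction.stabilizer P (a + b) ≤ MulAction.stabilizer P a := by
        intro g hg
        rw [MulAction.mem_stabilizer_iff] at hg ⊢
        obtain ⟨c, hc, hgx⟩ : ∃ c ∈ Subgroup.zpowers z₀, g * x = x * c * g :=
          ⟨x⁻¹ * (g * x * g⁻¹), hxconj g, by group⟩
        have hconj : ∀ r ∈ Subgroup.zpowers z₀, g * (x * r) = (x * (c * r)) * g := by
          intro r hr
          have h1 := Subgroup.mem_center_iff.mp (hZc r hr) g
          calc g * (x * r) = (g * x) * r := by rw [mul_assoc]
            _ = x * c * g * r := by rw [hgx]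
            _ = x * c * (g * r) := by rw [mul_assoc]
            _ = x * c * (r * g) := by rw [h1]
            _ = x * (c * r) * g := by simp only [mul_assoc]
        have hmove : ∀ r ∈ Subgroup.zpowers z₀, ∀ e : E, (x * r) • e = e →
            (x * (c * r)) • (g • e) = g • e := by
          intro r hr e he
          rw [smul_smul, ← hconj r hr, mul_smul, he]
        have hga := hmove _ hsi a hai
        have hgb := hmove _ hsj b hbj
        have hcs : c * z₀ ^ i ∈ Subgroup.zpowers z₀ := Subgroup.mul_mem _ hc hsi
        have hct : c * z₀ ^ j ∈ Subgroup.zpowers z₀ := Subgroup.mul_mem _ hc hsj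
        have hT : trSum E p (x * z₀ ^ i) (g • a) + trSum E p (x * z₀ ^ i) (g • b) = p • a := by
          rw [← map_add, ← smul_add, hg, map_add, trSum_of_fixed hai,
            hK _ hsi _ hsj hsij b hbj, add_zero]
        by_cases hc1 : c = 1
        · rw [hc1, one_mul] at hga hgb
          rw [trSum_of_fixed hga, hK _ hsi _ hsj hsij _ hgb, add_zero] at hT
          exact hcc2 _ _ hT
        · exfalso
          have hne1 : z₀ ^ i ≠ c * z₀ ^ i := fun h => hc1 (by simpa using h)
          have hTa : trSum E p (x * z₀ ^ i) (g • a) = 0 := hK _ hsi _ hcs hne1 _ hga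
          rw [hTa, zero_add] at hT
          by_cases hcase : z₀ ^ i = c * z₀ ^ j
          · rw [← hcase] at hgb
            rw [trSum_of_fixed hgb] at hT
            have hgba : g • b = a := hcc2 _ _ hT
            have hgab : g • a = b := by
              rw [smul_add, hgba, add_comm] at hg
              exact add_left_cancel hg
            rw [hgab] at hga
            apply hb0
            refine hF2 _ hcs _ hsj ?_ b hga hbj
            intro h
            rw [hcase, ← mul_assoc] at h
            have hc2 : c ^ 2 = 1 := by rw [pow_two]; exact mul_eq_right.mp h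
            have hcop2 : Nat.Coprime 2 p := (Nat.coprime_primes Nat.prime_two hp).mpr (Ne.symm hp2)
            have h3 : orderOf c ∣ Nat.gcd 2 p :=
              Nat.dvd_gcd (orderOf_dvd_of_pow_eq_one hc2) (orderOf_dvd_of_pow_eq_one (hZp c hc))
            rw [hcop2.gcd_eq_one] at h3
            exact hc1 (orderOf_eq_one_iff.mp (Nat.dvd_one.mp h3))
          · have hTb : trSum E p (x * z₀ ^ i) (g • b) = 0 := hK _ hsi _ hct hcase _ hgb
            rw [hTb] at hT
            exact ha0 (hcc _ hT.symm)
      have heq := hstab _ _ hab ha0 hle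
      have hu_mem : (x * z₀ ^ i) ∈ MulAction.stabilizer P (a + b) := by
        rw [heq]; exact MulAction.mem_stabilizer_iff.mpr hai
      rw [MulAction.mem_stabilizer_iff, smul_add, hai] at hu_mem
      have hub : (x * z₀ ^ i) • b = b := add_left_cancel hu_mem
      exact hb0 (hF2 _ hsi _ hsj hsij b hub hbj)
    refine ⟨hcyc, ?_⟩
    intro g hg a hga
    obtain ⟨k, hk⟩ := IsPGroup.iff_orderOf.mp hP g
    have hpg : p ∣ orderOf g := by
      rw [hk]
      apply dvd_pow_self
      rintro rfl
      rw [pow_zero, orderOf_eq_one_iff] at hk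
      exact hg hk
    have hu : orderOf (g ^ (orderOf g / p)) = p :=
      orderOf_pow_orderOf_div (orderOf_pos g).ne' hpg
    have hup : (g ^ (orderOf g / p)) ^ p = 1 := by
      have := pow_orderOf_eq_one (g ^ (orderOf g / p))
      rwa [hu] at this
    have hu1 : g ^ (orderOf g / p) ≠ 1 := by
      intro h
      rw [h, orderOf_one] at hu
      exact hp.one_lt.ne hu
    have hucen : g ^ (orderOf g / p) ∈ Subgroup.center P := by
      rw [Subgroup.mem_center_iff]
      intro h
      exact mul_comm' _ _
    have hufix : g ^ (orderOf g / p) • a = a :=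
      MulAction.mem_stabilizer_iff.mp
        (Subgroup.pow_mem _ (MulAction.mem_stabilizer_iff.mpr hga) _)
    exact hN _ hucen hu1 hup a hufix

end Cfsg.Agent.S1160
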