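import Cfsg.Statements.S1165

set_option autoImplicit false
open Cfsg

namespace Cfsg.Agent.S1165

variable {G Ω : Type*} [Group G] [MulAction G Ω] {a : Ω} {t : G} {Q : Subgroup G}

theorem tinv (hS : Cfsg.IsRankOneSetup G Ω a t Q) : t⁻¹ = t :=
  inv_eq_of_mul_eq_one_left hS.mul_self

theorem tt_left (hS : Cfsg.IsRankOneSetup G Ω a t Q) (z : G) : t * (t * z) = z := by
  rw [← mul_assoc, hS.mul_self, one_mul]

theorem memD {d : G} : d ∈ MulAction.stabilizer G a ⊓ MulAction.stabilizer G (t • a) ↔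
    d • a = a ∧ d • (t • a) = t • a := by
  rw [Subgroup.mem_inf, MulAction.mem_stabilizer_iff, MulAction.mem_stabilizer_iff]

theorem tDt (hS : Cfsg.IsRankOneSetup G Ω a t Q) {d : G}
    (hd : d ∈ MulAction.stabilizer G a ⊓ MulAction.stabilizer G (t • a)) :
    t * d * t ∈ MulAction.stabilizer G a ⊓ MulAction.stabilizer G (t • a) := by
  rw [memD] at hd ⊢
  obtain ⟨h1, h2⟩ := hd
  constructor
  · rw [mul_smul, mul_smul, h2, ← mul_smul, hS.mul_self, one_smul]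
  · rw [mul_smul, mul_smul, ← mul_smul t t, hS.mul_self, one_smul, h1]

theorem conj_mem' (hS : Cfsg.IsRankOneSetup G Ω a t Q) {d x : G}
    (hd : d ∈ MulAction.stabilizer G a) (hx : x ∈ Q) : d⁻¹ * x * d ∈ Q := by
  have := hS.conj_mem d⁻¹ (inv_mem hd) x hx
  rwa [inv_inv] at this

/-- Uniqueness of the decomposition `g * h * t * f`. -/
theorem uniq (hS : Cfsg.IsRankOneSetup G Ω a t Q) {g h f g' h' f' : G}
    (hg : g ∈ Q) (hh : h ∈ MulAction.stabilizer G a ⊓ MulAction.stabilizer G (t • a)) (hf : f ∈ Q)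
    (hg' : g' ∈ Q) (hh' : h' ∈ MulAction.stabilizer G a ⊓ MulAction.stabilizer G (t • a))
    (hf' : f' ∈ Q) (e : g * h * t * f = g' * h' * t * f') : g = g' ∧ h = h' ∧ f = f' := by
  have hti := tinv hS
  have hh1 := (Subgroup.mem_inf.mp hh).1
  have hh2 := (Subgroup.mem_inf.mp hh).2
  have hh1' := (Subgroup.mem_inf.mp hh').1
  have hh2' := (Subgroup.mem_inf.mp hh').2
  have hw : (g * h)⁻¹ * (g' * h') ∈ MulAction.stabilizer G a :=
    mul_mem (inv_mem (mul_mem (hS.le hg) hh1)) (mul_mem (hS.le hg') hh1')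
  have key : f * f'⁻¹ = t * ((g * h)⁻¹ * (g' * h')) * t := by
    have e2 : f = t * ((g * h)⁻¹ * (g' * h')) * t * f' := by
      have : f = t⁻¹ * (g * h)⁻¹ * (g * h * t * f) := by group
      rw [this, e, hti]; group
    rw [e2]; group
  have hff : f * f'⁻¹ ∈ Q ⊓ MulAction.stabilizer G (t • a) := by
    refine Subgroup.mem_inf.mpr ⟨mul_mem hf (inv_mem hf'), ?_⟩
    rw [key, MulAction.mem_stabilizer_iff, mul_smul, mul_smul, ← mul_smul t t,
      hS.mul_self, one_smul]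
    rw [MulAction.mem_stabilizer_iff] at hw
    rw [hw]
  rw [hS.inf_eq_bot, Subgroup.mem_bot] at hff
  have hf_eq : f = f' := mul_inv_eq_one.mp hff
  subst hf_eq
  have e3 : g * h = g' * h' := mul_right_cancel (mul_right_cancel e)
  have hgg : g'⁻¹ * g ∈ Q ⊓ MulAction.stabilizer G (t • a) := by
    refine Subgroup.mem_inf.mpr ⟨mul_mem (inv_mem hg') hg, ?_⟩
    have : g'⁻¹ * g = h' * h⁻¹ := by
      have : g = g' * h' * h⁻¹ := by rw [← e3]; group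
      rw [this]; group
    rw [this]
    exact mul_mem hh2' (inv_mem hh2)
  rw [hS.inf_eq_bot, Subgroup.mem_bot] at hgg
  have hg_eq : g = g' := (inv_mul_eq_one.mp hgg).symm
  subst hg_eq
  exact ⟨rfl, mul_left_cancel e3, rfl⟩

/-- In the rank-one set-up (`G` finite and doubly transitive on `Ω`, `t` an involution moving `a`, `Q` normal in `G_a` with `G_a = Q D`, `Q ⊓ D = 1` for the two-point stabiliser `D = G_a ⊓ G_{t • a}`, `|Q|` even, `|D|` odd): every `x ∈ Q`, `x ≠ 1`, determines unique `g, f ∈ Q`, `h ∈ D` with `t x t = g h t f` (a consequence of the canonical form). For these: (H1) the `f`-part of `x⁻¹` is `g⁻¹`; (H2) the `f`-part of `f` is `x`; (H3) for `a ∈ D` the `f`-part of `a⁻¹ x a` is `(t a t)⁻¹ f (t a t)`; (H4) the `h`-part of `a⁻¹ x a` is `(t a t)⁻¹ h a`, that of `x⁻¹` is `t h⁻¹ t`, and that of `f` is `h⁻¹`. -/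
theorem result {G Ω : Type*} [Group G] [Finite G] [MulAction G Ω] {a : Ω} {t : G} {Q : Subgroup G}
    (hS : Cfsg.IsRankOneSetup G Ω a t Q)
    (x g h f : G) (hx : x ∈ Q) (hx1 : x ≠ 1) (hg : g ∈ Q) (hh : h ∈ (MulAction.stabilizer G a ⊓ MulAction.stabilizer G (t • a))) (hf : f ∈ Q)
    (heq : t * x * t = g * h * t * f) :
    (∀ g₁ h₁ f₁ : G, g₁ ∈ Q → h₁ ∈ (MulAction.stabilizer G a ⊓ MulAction.stabilizer G (t • a)) → f₁ ∈ Q → t * x⁻¹ * t = g₁ * h₁ * t * f₁ →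
        f₁ = g⁻¹ ∧ h₁ = t * h⁻¹ * t) ∧
      (∀ g₂ h₂ f₂ : G, g₂ ∈ Q → h₂ ∈ (MulAction.stabilizer G a ⊓ MulAction.stabilizer G (t • a)) → f₂ ∈ Q → t * f * t = g₂ * h₂ * t * f₂ →
        f₂ = x ∧ h₂ = h⁻¹) ∧
      ∀ c ∈ (MulAction.stabilizer G a ⊓ MulAction.stabilizer G (t • a)), ∀ g₃ h₃ f₃ : G, g₃ ∈ Q → h₃ ∈ (MulAction.stabilizer G a ⊓ MulAction.stabilizer G (t • a)) → f₃ ∈ Q →
        t * (c⁻¹ * x * c) * t = g₃ * h₃ * t * f₃ →
          f₃ = (t * c * t)⁻¹ * f * (t * c * t) ∧ h₃ = (t * c * t)⁻¹ * h * c := by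
  have hti := tinv hS
  have htt := hS.mul_self
  have htl := tt_left hS
  -- x in terms of the rest
  have hxe : x = t * (g * h * t * f) * t := by
    rw [← heq]; simp [mul_assoc, htl, htt]
  refine ⟨?_, ?_, ?_⟩
  · intro g₁ h₁ f₁ hg₁ hh₁ hf₁ e₁
    have e' : g₁ * h₁ * t * f₁ = f⁻¹ * (t * h⁻¹ * t) * t * g⁻¹ := by
      rw [← e₁, hxe]
      simp [mul_assoc, htl, htt, hti]
    obtain ⟨-, h2, h3⟩ := uniq hS hg₁ hh₁ hf₁ (inv_mem hf) (tDt hS (inv_mem hh)) (inv_mem hg) e'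
    exact ⟨h3, h2⟩
  · intro g₂ h₂ f₂ hg₂ hh₂ hf₂ e₂
    have e' : g₂ * h₂ * t * f₂ = (h⁻¹ * g⁻¹ * h) * h⁻¹ * t * x := by
      rw [← e₂, hxe]
      simp [mul_assoc, htl, htt, hti]
    obtain ⟨-, h2, h3⟩ := uniq hS hg₂ hh₂ hf₂ (conj_mem' hS (Subgroup.mem_inf.mp hh).1 (inv_mem hg)) (inv_mem hh) hx e'
    exact ⟨h3, h2⟩
  · intro c hc g₃ h₃ f₃ hg₃ hh₃ hf₃ e₃
    have hc' := tDt hS hc
    have e' : g₃ * h₃ * t * f₃ =
        ((t * c * t)⁻¹ * g * (t * c * t)) * ((t * c * t)⁻¹ * h * c) * t *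
          ((t * c * t)⁻¹ * f * (t * c * t)) := by
      rw [← e₃, hxe]
      simp [mul_assoc, htl, htt, hti]
    obtain ⟨-, h2, h3⟩ := uniq hS hg₃ hh₃ hf₃ (conj_mem' hS (Subgroup.mem_inf.mp hc').1 hg)
      (mul_mem (mul_mem (inv_mem hc') hh) hc) (conj_mem' hS (Subgroup.mem_inf.mp hc').1 hf) e'
    exact ⟨h3, h2⟩

end Cfsg.Agent.S1165
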