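import Cfsg.Statements.S1166

set_option autoImplicit false
open Cfsg

namespace Cfsg.Agent.S1166

variable {G Ω : Type*} [Group G] [MulAction G Ω] {a : Ω} {t : G} {Q : Subgroup G}

theorem tinv (hS : Cfsg.IsRankOneSetup G Ω a t Q) : t⁻¹ = t :=
  inv_eq_of_mul_eq_one_left hS.mul_self

theorem tt_left (hS : Cfsg.IsRankOneSetup G Ω a t Q) (z : G) : t * (t * z) = z := by
  rw [← mul_assoc, hS.mul_self, one_mul]

theorem memD {d : G} : d ∈ MulAction.stabilizer G a ⊓ MulAction.stabilizer G (t • a) ↔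
    d • a = a ∧ d • (t • a) = t • a := by
  rw [Subgroup.mem_inf, MulAction.mem_stabilizer_iff, MulAction.mem_stabilizer_iff]

theorem tDt (hS : Cfsg.IsRankOneSetup G Ω a t Q) {d : G}
    (hd : d ∈ MulAction.stabilizer G a ⊓ MulAction.stabilizer G (t • a)) :
    t * d * t ∈ MulAction.stabilizer G a ⊓ MulAction.stabilizer G (t • a) := by
  rw [memD] at hd ⊢
  obtain ⟨h1, h2⟩ := hd
  constructor
  · rw [mul_smul, mul_smul, h2, ← mul_smul, hS.mul_self, one_smul]
  · rw [mul_smul, mul_smul, ← mul_smul t t, hS.mul_self, one_smul, h1]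

theorem conj_mem' (hS : Cfsg.IsRankOneSetup G Ω a t Q) {d x : G}
    (hd : d ∈ MulAction.stabilizer G a) (hx : x ∈ Q) : d⁻¹ * x * d ∈ Q := by
  have := hS.conj_mem d⁻¹ (inv_mem hd) x hx
  rwa [inv_inv] at this

/-- Uniqueness of the decomposition `g * h * t * f`. -/
theorem uniq (hS : Cfsg.IsRankOneSetup G Ω a t Q) {g h f g' h' f' : G}
    (hg : g ∈ Q) (hh : h ∈ MulAction.stabilizer G a ⊓ MulAction.stabilizer G (t • a)) (hf : f ∈ Q)
    (hg' : g' ∈ Q) (hh' : h' ∈ MulAction.stabilizer G a ⊓ MulAction.stabilizer G (t • a))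
    (hf' : f' ∈ Q) (e : g * h * t * f = g' * h' * t * f') : g = g' ∧ h = h' ∧ f = f' := by
  have hti := tinv hS
  have hh1 := (Subgroup.mem_inf.mp hh).1
  have hh2 := (Subgroup.mem_inf.mp hh).2
  have hh1' := (Subgroup.mem_inf.mp hh').1
  have hh2' := (Subgroup.mem_inf.mp hh').2
  have hw : (g * h)⁻¹ * (g' * h') ∈ MulAction.stabilizer G a :=
    mul_mem (inv_mem (mul_mem (hS.le hg) hh1)) (mul_mem (hS.le hg') hh1')
  have key : f * f'⁻¹ = t * ((g * h)⁻¹ * (g' * h')) * t := by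
    have e2 : f = t * ((g * h)⁻¹ * (g' * h')) * t * f' := by
      have : f = t⁻¹ * (g * h)⁻¹ * (g * h * t * f) := by group
      rw [this, e, hti]; group
    rw [e2]; group
  have hff : f * f'⁻¹ ∈ Q ⊓ MulAction.stabilizer G (t • a) := by
    refine Subgroup.mem_inf.mpr ⟨mul_mem hf (inv_mem hf'), ?_⟩
    rw [key, MulAction.mem_stabilizer_iff, mul_smul, mul_smul, ← mul_smul t t,
      hS.mul_self, one_smul]
    rw [MulAction.mem_stabilizer_iff] at hw
    rw [hw]
  rw [hS.inf_eq_bot, Subgroup.mem_bot] at hff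
  have hf_eq : f = f' := mul_inv_eq_one.mp hff
  subst hf_eq
  have e3 : g * h = g' * h' := mul_right_cancel (mul_right_cancel e)
  have hgg : g'⁻¹ * g ∈ Q ⊓ MulAction.stabilizer G (t • a) := by
    refine Subgroup.mem_inf.mpr ⟨mul_mem (inv_mem hg') hg, ?_⟩
    have : g'⁻¹ * g = h' * h⁻¹ := by
      have : g = g' * h' * h⁻¹ := by rw [← e3]; group
      rw [this]; group
    rw [this]
    exact mul_mem hh2' (inv_mem hh2)
  rw [hS.inf_eq_bot, Subgroup.mem_bot] at hgg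
  have hg_eq : g = g' := (inv_mul_eq_one.mp hgg).symm
  subst hg_eq
  exact ⟨rfl, mul_left_cancel e3, rfl⟩

/-- In the rank-one set-up (`G` finite and doubly transitive on `Ω`, `t` an involution moving `a`, `Q` normal in `G_a` with `G_a = Q D`, `Q ⊓ D = 1` for the two-point stabiliser `D = G_a ⊓ G_{t • a}`, `|Q|` even, `|D|` odd), with `t x t = g_x h_x t f_x` and `t y t = g_y h_y t f_y` (`g, f ∈ Q`, `h ∈ D`) for `x, y ∈ Q ∖ 1` with `x y ≠ 1`: then `z = f_x g_y ≠ 1`, and if `t z t = g_z h_z t f_z` and `t (x y) t = g' h' t f'` then `f' = (t h_y t)⁻¹ f_z (t h_y t) f_y` and `h' = h_x h_z h_y` (H6). -/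
theorem result {G Ω : Type*} [Group G] [Finite G] [MulAction G Ω] {a : Ω} {t : G} {Q : Subgroup G}
    (hS : Cfsg.IsRankOneSetup G Ω a t Q)
    (x y gx hx fx gy hy fy : G) (hxQ : x ∈ Q) (hx1 : x ≠ 1) (hyQ : y ∈ Q) (hy1 : y ≠ 1) (hxy : x * y ≠ 1)
    (hgx : gx ∈ Q) (hhx : hx ∈ (MulAction.stabilizer G a ⊓ MulAction.stabilizer G (t • a))) (hfx : fx ∈ Q) (ex : t * x * t = gx * hx * t * fx)
    (hgy : gy ∈ Q) (hhy : hy ∈ (MulAction.stabilizer G a ⊓ MulAction.stabilizer G (t • a))) (hfy : fy ∈ Q) (ey : t * y * t = gy * hy * t * fy) :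
    fx * gy ≠ 1 ∧
      ∀ gz hz fz g' h' f' : G, gz ∈ Q → hz ∈ (MulAction.stabilizer G a ⊓ MulAction.stabilizer G (t • a)) → fz ∈ Q → t * (fx * gy) * t = gz * hz * t * fz →
        g' ∈ Q → h' ∈ (MulAction.stabilizer G a ⊓ MulAction.stabilizer G (t • a)) → f' ∈ Q → t * (x * y) * t = g' * h' * t * f' →
          f' = (t * hy * t)⁻¹ * fz * (t * hy * t) * fy ∧ h' = hx * hz * hy := by
  have hti := tinv hS
  have htt := hS.mul_self
  have htl := tt_left hS
  have hxe : x = t * (gx * hx * t * fx) * t := by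
    rw [← ex]; simp [mul_assoc, htl, htt]
  have hye : y = t * (gy * hy * t * fy) * t := by
    rw [← ey]; simp [mul_assoc, htl, htt]
  have hhx1 := (Subgroup.mem_inf.mp hhx).1
  have hhy' := tDt hS hhy
  refine ⟨?_, ?_⟩
  · intro h1
    apply hxy
    have hgy_e : gy = fx⁻¹ := eq_inv_of_mul_eq_one_right h1
    have e1 : t * (x * y) * t = gx * hx * (t * hy * t) * fy := by
      rw [hxe, hye, hgy_e]
      simp [mul_assoc, htl, htt]
    have hmem : x * y ∈ Q ⊓ MulAction.stabilizer G (t • a) := by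
      refine Subgroup.mem_inf.mpr ⟨mul_mem hxQ hyQ, ?_⟩
      have h2 : gx * hx * (t * hy * t) * fy ∈ MulAction.stabilizer G a :=
        mul_mem (mul_mem (mul_mem (hS.le hgx) hhx1) (Subgroup.mem_inf.mp hhy').1) (hS.le hfy)
      rw [← e1, MulAction.mem_stabilizer_iff, mul_smul, mul_smul] at h2
      rw [MulAction.mem_stabilizer_iff]
      have h3 := congrArg (fun w => t • w) h2
      simp only [← mul_smul t t, htt, one_smul] at h3
      exact h3
    rw [hS.inf_eq_bot, Subgroup.mem_bot] at hmem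
    exact hmem
  · intro gz hz fz g' h' f' hgz hhz hfz ez hg' hh' hf' e'
    have hgz_e : gz = t * (fx * gy) * t * fz⁻¹ * t * hz⁻¹ := by
      rw [ez]; simp [mul_assoc, htl, htt]
    have e'' : g' * h' * t * f' =
        (gx * (hx * gz * hx⁻¹)) * (hx * hz * hy) * t *
          ((t * hy * t)⁻¹ * fz * (t * hy * t) * fy) := by
      rw [← e', hxe, hye]
      conv_rhs => rw [hgz_e]
      simp [mul_assoc, htl, htt, hti]
    have hQ1 : gx * (hx * gz * hx⁻¹) ∈ Q := mul_mem hgx (hS.conj_mem hx hhx1 gz hgz)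
    have hQ2 : (t * hy * t)⁻¹ * fz * (t * hy * t) * fy ∈ Q :=
      mul_mem (conj_mem' hS (Subgroup.mem_inf.mp hhy').1 hfz) hfy
    obtain ⟨-, h2, h3⟩ := uniq hS hg' hh' hf' hQ1 (mul_mem (mul_mem hhx hhz) hhy) hQ2 e''
    exact ⟨h3, h2⟩

end Cfsg.Agent.S1166
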