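import Cfsg.Statements.S1167
import Cfsg.Agent.Lib.Helper83.Zass

set_option autoImplicit false
open Cfsg

namespace Cfsg.Agent.S1167

/-- Let `G` be a finite simple Zassenhaus group on `Ω`, `U` a normal subgroup of `G_a` regular on `Ω` minus `a` which is an abelian 2-group, and `v` an involution with `v • a ≠ a`. Then there is a unique `u₀ ∈ U`, `u₀ ≠ 1`, with `v u₀ v = u₀ v u₀`. -/
theorem result {G Ω : Type*} [Group G] [Finite G] [MulAction G Ω] [Finite Ω]
    (hZ : Cfsg.IsZassenhausGroup G Ω) [IsSimpleGroup G] {a : Ω}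
    (U : Subgroup G) (hUle : U ≤ MulAction.stabilizer G a)
    (hUn : ∀ h ∈ MulAction.stabilizer G a, ∀ u ∈ U, h * u * h⁻¹ ∈ U)
    (hreg : ∀ c d : Ω, c ≠ a → d ≠ a → ∃! u : U, (u : G) • c = d)
    (hU2 : IsPGroup 2 U) (hUab : ∀ u ∈ U, ∀ u' ∈ U, u * u' = u' * u)
    (v : G) (hv1 : v ≠ 1) (hv2 : v * v = 1) (hva : v • a ≠ a) :
    ∃! u₀ : G, u₀ ∈ U ∧ u₀ ≠ 1 ∧ v * u₀ * v = u₀ * v * u₀ := by
  obtain ⟨hfaith, h2t, h3, ⟨g, hg1, a', b', hab', hga', hgb'⟩, -⟩ := hZ
  have hb : v • a ≠ a := hva
  have hvv : v • v • a = a := by rw [smul_smul, hv2, one_smul]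
  have hUa : ∀ u ∈ U, u • a = a := fun u hu => MulAction.mem_stabilizer_iff.mp (hUle hu)
  have hex : ∀ c d : Ω, c ≠ a → d ≠ a → ∃ u ∈ U, u • c = d := by
    intro c d hc hd
    obtain ⟨u, hu, -⟩ := hreg c d hc hd
    exact ⟨u, u.2, hu⟩
  have huniq : ∀ u ∈ U, ∀ d : Ω, d ≠ a → u • d = d → u = 1 := by
    intro u hu d hd hud
    obtain ⟨w, -, hw⟩ := hreg d d hd hd
    have h1 := hw ⟨u, hu⟩ hud
    have h2 := hw 1 (by simp)
    have := h1.trans h2.symm
    exact congrArg Subtype.val this
  have hUne : U ≠ ⊥ := by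
    intro hbot
    have hall : ∀ d : Ω, d = a ∨ d = v • a := by
      intro d
      by_cases hd : d = a
      · exact Or.inl hd
      · right
        obtain ⟨u, hu, hud⟩ := hex (v • a) d hb hd
        rw [hbot, Subgroup.mem_bot] at hu
        rw [hu, one_smul] at hud
        exact hud.symm
    have hga : g • a = a := by
      rcases hall a' with h | h
      · rw [← h]; exact hga'
      · rcases hall b' with h' | h'
        · rw [← h']; exact hgb'
        · exact absurd (h.trans h'.symm) hab'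
    have hgb : g • (v • a) = v • a := by
      rcases hall a' with h | h
      · rcases hall b' with h' | h'
        · exact absurd (h.trans h'.symm) hab'
        · rw [← h']; exact hgb'
      · rw [← h]; exact hga'
    apply hg1
    apply hfaith.eq_of_smul_eq_smul
    intro d
    rw [one_smul]
    rcases hall d with h | h
    · rw [h]; exact hga
    · rw [h]; exact hgb
  have hH : ∃ q ∈ Cfsg.Agent.Lib.Helper83.zH G a (v • a), q ≠ 1 := by
    obtain ⟨t, hta, htb⟩ := MulAction.is_two_pretransitive_iff.mp h2t hab' hb.symm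
    have hta' : t⁻¹ • a = a' := by rw [inv_smul_eq_iff, hta]
    have htb' : t⁻¹ • (v • a) = b' := by rw [inv_smul_eq_iff, htb]
    refine ⟨t * g * t⁻¹, ?_, ?_⟩
    · rw [Cfsg.Agent.Lib.Helper83.mem_zH]
      constructor
      · rw [mul_smul, mul_smul, hta', hga', hta]
      · rw [mul_smul, mul_smul, htb', hgb', htb]
    · intro h
      exact hg1 (conj_eq_one_iff.mp h)
  have Z : Cfsg.Agent.Lib.Helper83.ZSetup a (v • a) U v :=
    { h3 := h3
      hUa := hUa
      hUn := fun h hh u hu => hUn h (MulAction.mem_stabilizer_iff.mpr hh) u hu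
      hex := hex
      huniq := huniq
      hU2 := hU2
      hUab := hUab
      hv2 := hv2
      hva := rfl
      hvb := hvv
      hab := hb.symm
      hUne := hUne }
  exact Cfsg.Agent.Lib.Helper83.zass_structure Z hH

end Cfsg.Agent.S1167
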