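import Cfsg.Statements.S1168

set_option autoImplicit false
open Cfsg

namespace Cfsg.Agent.S1168

theorem quad_mem {F : Type*} [Field F] [CharP F 2] (q : F → F)
    (hq : ∀ x y z : F, q (x + y + z) + q (x + y) + q (x + z) + q (y + z) + q x + q y + q z = 0)
    (Q : Submodule F (F → F)) {ι : Type*} (d : ι → F) (lam : ι → F → F)
    (H1 : ∀ i x, lam i x = 0 ∨ lam i x = 1)
    (H3 : ∀ i j, (fun x => lam i x * lam j x) ∈ Q) (S : Finset ι) :
    (fun x => q (∑ i ∈ S, lam i x * d i)) ∈ Q := by
  classical
  have h2 : ∀ a : F, a + a = 0 := fun a => CharTwo.add_self_eq_zero a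
  have hq0 : q 0 = 0 := by
    have h := hq 0 0 0
    simp only [add_zero] at h
    linear_combination h - 3 * h2 (q 0)
  have hBadd : ∀ x y z : F, q (x + y + z) + q (x + y) + q z =
      (q (x + z) + q x + q z) + (q (y + z) + q y + q z) := by
    intro x y z
    linear_combination hq x y z - h2 (q (x + z)) - h2 (q (y + z)) - h2 (q x) - h2 (q y) - h2 (q z)
  have hB0l : ∀ z : F, q (0 + z) + q 0 + q z = 0 := by
    intro z; rw [zero_add, hq0, add_zero]; exact h2 _
  have hBsum : ∀ (T : Finset ι) (f : ι → F) (z : F),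
      q (∑ i ∈ T, f i + z) + q (∑ i ∈ T, f i) + q z =
        ∑ i ∈ T, (q (f i + z) + q (f i) + q z) := by
    intro T f z
    induction T using Finset.induction_on with
    | empty => simp only [Finset.sum_empty]; exact hB0l z
    | insert a T ha ih =>
      rw [Finset.sum_insert ha, Finset.sum_insert ha, hBadd, ih]
  induction S using Finset.induction_on with
  | empty =>
    have : (fun x => q (∑ i ∈ (∅ : Finset ι), lam i x * d i)) = 0 := by
      funext x; simp [hq0]
    rw [this]; exact Q.zero_mem
  | insert j S hj ih =>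
    have key : (fun x => q (∑ i ∈ insert j S, lam i x * d i)) =
        (fun x => q (∑ i ∈ S, lam i x * d i)) + q (d j) • (fun x => lam j x * lam j x)
          + ∑ i ∈ S, (q (d i + d j) + q (d i) + q (d j)) • (fun x => lam i x * lam j x) := by
      funext x
      simp only [Pi.add_apply, Pi.smul_apply, Finset.sum_apply, smul_eq_mul]
      rw [Finset.sum_insert hj, add_comm (lam j x * d j)]
      have e1 := hBsum S (fun i => lam i x * d i) (lam j x * d j)
      have e2 : ∀ i, q (lam i x * d i + lam j x * d j) + q (lam i x * d i) + q (lam j x * d j)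
          = (q (d i + d j) + q (d i) + q (d j)) * (lam i x * lam j x) := by
        intro i
        rcases H1 i x with h | h <;> rcases H1 j x with h' | h' <;> rw [h, h'] <;> simp [hq0, h2]
      have e3 : q (lam j x * d j) = q (d j) * (lam j x * lam j x) := by
        rcases H1 j x with h | h <;> rw [h] <;> simp [hq0]
      rw [Finset.sum_congr rfl (fun i _ => e2 i)] at e1
      linear_combination e1 - h2 (q (∑ i ∈ S, lam i x * d i)) + e3 - h2 (q (lam j x * d j))
    rw [key]
    exact Q.add_mem (Q.add_mem ih (Q.smul_mem _ (H3 j j)))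
      (Q.sum_mem fun i _ => Q.smul_mem _ (H3 i j))

/-- For a finite field `F` of characteristic 2: if `q : F → F` is quadratic over the prime field, i.e. `(x, y) ↦ q (x + y) + q x + q y` is additive in each variable, then `q x = Σ c_{σ,τ} σ(x) τ(x)` for some coefficients indexed by pairs of field automorphisms. -/
theorem result {F : Type*} [Field F] [Fintype F] [CharP F 2]
    (q : F → F)
    (hq : ∀ x y z : F, q (x + y + z) + q (x + y) + q (x + z) + q (y + z) + q x + q y + q z = 0) :
    ∃ (s : Finset ((F ≃+* F) × (F ≃+* F))) (c : (F ≃+* F) × (F ≃+* F) → F),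
      ∀ x : F, q x = ∑ p ∈ s, c p * (p.1 x * p.2 x) := by
  classical
  let _ : Algebra (ZMod 2) F := ZMod.algebra F 2
  obtain ⟨Q, hQ⟩ : ∃ Q : Submodule F (F → F), Q = Submodule.span F
      (Set.range fun p : (F ≃+* F) × (F ≃+* F) => fun x => p.1 x * p.2 x) := ⟨_, rfl⟩
  have hB := traceForm_nondegenerate (ZMod 2) F
  let b := Module.finBasis (ZMod 2) F
  let d := (Algebra.traceForm (ZMod 2) F).dualBasis hB b
  let lam : Fin (Module.finrank (ZMod 2) F) → F → F := fun i x =>
    algebraMap (ZMod 2) F (Algebra.trace (ZMod 2) F (x * b i))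
  have H1 : ∀ i x, lam i x = 0 ∨ lam i x = 1 := by
    intro i x
    have h01 : ∀ c : ZMod 2, c = 0 ∨ c = 1 := by decide
    rcases h01 (Algebra.trace (ZMod 2) F (x * b i)) with h | h
    · left; simp only [lam, h, map_zero]
    · right; simp only [lam, h, map_one]
  have H2 : ∀ x, ∑ i, lam i x * d i = x := by
    intro x
    calc ∑ i, lam i x * d i = ∑ i, d.repr x i • d i :=
          Finset.sum_congr rfl (fun i _ => by
            rw [Algebra.smul_def, LinearMap.BilinForm.dualBasis_repr_apply,
              Algebra.traceForm_apply])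
      _ = x := d.sum_repr x
  have H3 : ∀ i j, (fun x => lam i x * lam j x) ∈ Q := by
    intro i j
    have e : (fun x => lam i x * lam j x) = ∑ σ : F ≃ₐ[ZMod 2] F, ∑ τ : F ≃ₐ[ZMod 2] F,
        (σ (b i) * τ (b j)) • (fun x => (σ : F ≃+* F) x * (τ : F ≃+* F) x) := by
      funext x
      simp only [lam, Finset.sum_apply, Pi.smul_apply, smul_eq_mul]
      rw [trace_eq_sum_automorphisms, trace_eq_sum_automorphisms, Finset.sum_mul_sum]
      apply Finset.sum_congr rfl; intro σ _
      apply Finset.sum_congr rfl; intro τ _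
      simp only [map_mul, AlgEquiv.coe_ringEquiv]
      ring
    rw [e, hQ]
    exact Submodule.sum_mem _ fun σ _ => Submodule.sum_mem _ fun τ _ =>
      Submodule.smul_mem _ _ (Submodule.subset_span ⟨((σ : F ≃+* F), (τ : F ≃+* F)), rfl⟩)
  have hmem : q ∈ Q := by
    have h := quad_mem q hq Q d lam H1 H3 Finset.univ
    have e : (fun x => q (∑ i, lam i x * d i)) = q := by funext x; rw [H2 x]
    rwa [e] at h
  rw [hQ] at hmem
  obtain ⟨c, hc⟩ := Finsupp.mem_span_range_iff_exists_finsupp.mp hmem
  refine ⟨c.support, c, fun x => ?_⟩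
  have hx := congrFun hc x
  rw [← hx]
  simp [Finsupp.sum, Finset.sum_apply]

end Cfsg.Agent.S1168
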