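import Cfsg.Statements.S1176
import Cfsg.Agent.Lib.Helper20.Isolated

set_option autoImplicit false
open Cfsg

namespace Cfsg.Agent.S1176

open scoped commutatorElement in
theorem comm_mem {G : Type*} [Group G] {H : Subgroup G} (h : ⁅⁅H, H⁆, H⁆ = ⊥) {a b c : G}
    (ha : a ∈ H) (hb : b ∈ H) (hc : c ∈ H) :
    (a * b * a⁻¹ * b⁻¹) * c * (a * b * a⁻¹ * b⁻¹)⁻¹ * c⁻¹ = 1 := by
  have h3 : ⁅⁅a, b⁆, c⁆ ∈ ⁅⁅H, H⁆, H⁆ :=
    Subgroup.commutator_mem_commutator (Subgroup.commutator_mem_commutator ha hb) hc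
  rw [h, Subgroup.mem_bot, commutatorElement_def, commutatorElement_def] at h3
  exact h3

/-- Let x₀ be an involution of the finite group G and D its conjugacy class. Assume (a) for each x ∈ D the subgroup W(x) generated by the members of D commuting with x is a 2-group of nilpotency class at most 2, and (b) the product of two distinct commuting members of D again lies in D. Then for all x, y ∈ D, if xy has even order greater than 2, its order is 4. -/
theorem result {G : Type*} [Group G] [Finite G] (x₀ : G) (hx₀ : orderOf x₀ = 2) (ha : ∀ x : G, IsConj x₀ x → IsPGroup 2 ↥(Subgroup.closure {y : G | IsConj x₀ y ∧ Commute y x}) ∧ ⁅⁅Subgroup.closure {y : G | IsConj x₀ y ∧ Commute y x}, Subgroup.closure {y : G | IsConj x₀ y ∧ Commute y x}⁆, Subgroup.closure {y : G | IsConj x₀ y ∧ Commute y x}⁆ = ⊥) (hb : ∀ x y : G, IsConj x₀ x → IsConj x₀ y → x ≠ y → Commute x y → IsConj x₀ (x * y)) (x y : G) (hx : IsConj x₀ x) (hy : IsConj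 x₀ y) (heven : Even (orderOf (x * y))) (hgt : 2 < orderOf (x * y)) : orderOf (x * y) = 4 := by
  have hx₀2 : x₀ * x₀ = 1 := by
    have := pow_orderOf_eq_one x₀
    rw [hx₀, pow_two] at this
    exact this
  have sq_of_conj : ∀ w : G, IsConj x₀ w → w * w = 1 := by
    intro w hw
    obtain ⟨c, rfl⟩ := isConj_iff.mp hw
    calc c * x₀ * c⁻¹ * (c * x₀ * c⁻¹) = c * (x₀ * x₀) * c⁻¹ := by group
      _ = 1 := by rw [hx₀2]; group
  have hxx := sq_of_conj x hx
  have hyy := sq_of_conj y hy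
  have hxi : x⁻¹ = x := inv_eq_of_mul_eq_one_left hxx
  have hyi : y⁻¹ = y := inv_eq_of_mul_eq_one_left hyy
  have hxr : x * (x * y) * x⁻¹ = (x * y)⁻¹ := by
    rw [mul_inv_rev, hxi, hyi, ← mul_assoc, hxx, one_mul]
  have hyr : y * (x * y) * y⁻¹ = (x * y)⁻¹ := by
    rw [mul_inv_rev, hxi, hyi, mul_assoc, mul_assoc, hyy, mul_one]
  have hry : (x * y) * y = x := by rw [mul_assoc, hyy, mul_one]
  obtain ⟨k, hk⟩ := heven
  have hk2 : 2 ≤ k := by omega
  generalize hr : x * y = r at hxr hyr hk hgt hry ⊢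
  have hc1 : r ^ k ≠ 1 := pow_ne_one_of_lt_orderOf (by omega) (by omega)
  have hcc : r ^ k * r ^ k = 1 := by rw [← pow_add, ← hk, pow_orderOf_eq_one]
  have hc_inv : (r ^ k)⁻¹ = r ^ k := inv_eq_of_mul_eq_one_left hcc
  have hxc : x * r ^ k * x⁻¹ = r ^ k := by
    rw [← conj_pow, hxr, inv_pow, hc_inv]
  have hxc' : x * r ^ k = r ^ k * x := by
    rw [mul_inv_eq_iff_eq_mul] at hxc; exact hxc
  have hyc : y * r ^ k * y⁻¹ = r ^ k := by
    rw [← conj_pow, hyr, inv_pow, hc_inv]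
  have hyc' : y * r ^ k = r ^ k * y := by
    rw [mul_inv_eq_iff_eq_mul] at hyc; exact hyc
  -- c * x is conjugate to x₀
  have hcx : IsConj x₀ (r ^ k * x) := by
    rcases Nat.even_or_odd' k with ⟨j, hj | hj⟩
    · have h1 := Cfsg.Agent.Lib.Helper20.inv_conj_pow hxr j
      rw [← hj] at h1
      rw [← h1]
      exact hx.trans (isConj_iff.mpr ⟨r ^ j, rfl⟩)
    · have h1 := Cfsg.Agent.Lib.Helper20.inv_conj_pow hyr (j + 1)
      have h2 : r ^ (2 * (j + 1)) * y = r ^ k * x := by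
        have : 2 * (j + 1) = k + 1 := by omega
        rw [this, pow_succ, mul_assoc, hry]
      rw [h2] at h1
      rw [← h1]
      exact hy.trans (isConj_iff.mpr ⟨r ^ (j + 1), rfl⟩)
  have hcx_ne : r ^ k * x ≠ x := fun h => hc1 (mul_eq_right.mp h)
  have hcx_comm : Commute (r ^ k * x) x := by
    unfold Commute SemiconjBy
    rw [← mul_assoc, hxc']
  have hc : IsConj x₀ (r ^ k) := by
    have := hb (r ^ k * x) x hcx hx hcx_ne hcx_comm
    rwa [mul_assoc, hxx, mul_one] at this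
  obtain ⟨-, hW⟩ := ha (r ^ k) hc
  have hxW : x ∈ Subgroup.closure {y : G | IsConj x₀ y ∧ Commute y (r ^ k)} :=
    Subgroup.subset_closure ⟨hx, hxc'⟩
  have hyW : y ∈ Subgroup.closure {y : G | IsConj x₀ y ∧ Commute y (r ^ k)} :=
    Subgroup.subset_closure ⟨hy, hyc'⟩
  have h3 := comm_mem hW hxW hyW hxW
  have h4 : (x * y * x⁻¹ * y⁻¹) * x * (x * y * x⁻¹ * y⁻¹)⁻¹ * x⁻¹ = r ^ 4 := by
    have e1 : x * y * x⁻¹ * y⁻¹ = r ^ 2 := by
      rw [hxi, hyi, ← hr, pow_two]; group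
    rw [e1]
    have e2 : x * (r ^ 2)⁻¹ * x⁻¹ = r ^ 2 := by
      have := congrArg (fun w => w⁻¹) (show x * r ^ 2 * x⁻¹ = (r ^ 2)⁻¹ by rw [← conj_pow, hxr, inv_pow])
      simp only [mul_inv_rev, inv_inv] at this
      rw [← mul_assoc] at this
      exact this
    calc r ^ 2 * x * (r ^ 2)⁻¹ * x⁻¹ = r ^ 2 * (x * (r ^ 2)⁻¹ * x⁻¹) := by group
      _ = r ^ 2 * r ^ 2 := by rw [e2]
      _ = r ^ 4 := by rw [← pow_add]
  rw [h4] at h3
  have h5 : orderOf r ∣ 4 := orderOf_dvd_of_pow_eq_one h3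
  have h6 : orderOf r ≤ 4 := Nat.le_of_dvd (by norm_num) h5
  interval_cases h : orderOf r
  · norm_num at h5
  · rfl

end Cfsg.Agent.S1176
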