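import Cfsg.Statements.S1177
import Cfsg.Agent.Lib.Helper20.Conj

set_option autoImplicit false
open Cfsg

namespace Cfsg.Agent.S1177

/-- Let A be a nontrivial elementary abelian 2-subgroup of a finite group G which is a T.I. set (each conjugate of A meets A trivially or equals A) and which does not commute elementwise with any conjugate of A other than A itself. Then for every a ∈ A, a ≠ 1, every conjugate of A contained in C_G(a) is equal to A (A is weakly closed in C_G(a)). -/
theorem result {G : Type*} [Group G] [Finite G] (A : Subgroup G) (hA : Cfsg.IsElementaryAbelian 2 A) (hA1 : A ≠ ⊥) (hTI : ∀ g : G, A.map (MulAut.conj g).toMonoidHom ⊓ A = ⊥ ∨ A.map (MulAut.conj g).toMonoidHom = A) (hb : ∀ g : G, (∀ a ∈ A, ∀ b ∈ A.map (MulAut.conj g).toMonoidHom, a * b = b * a) → A.map (MulAut.conj g).toMonoidHom = A) (a : G) (ha : a ∈ A) (ha1 : a ≠ 1) (g : G) (hg : A.map (MulAut.conj g).toMonoidHom ≤ Subgroup.centralizer ({a} : Set G)) : A.map (MulAut.conj g).toMonoidHom = A := by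
  obtain ⟨hAcomm, hAsq⟩ := hA
  have mem : ∀ (k x : G), x ∈ A.map (MulAut.conj k).toMonoidHom ↔ k⁻¹ * x * k ∈ A :=
    fun k x => Cfsg.Agent.Lib.Helper20.mem_map_conj A k x
  have mem1 : ∀ x : G, x ∈ A.map (MulAut.conj (1 : G)).toMonoidHom ↔ x ∈ A := by
    intro x; rw [Cfsg.Agent.Lib.Helper20.map_conj_one]
  -- squares
  have sq : ∀ (k x : G), x ∈ A.map (MulAut.conj k).toMonoidHom → x * x = 1 := by
    intro k x hx
    rw [mem] at hx
    have h1 := hAsq _ hx
    rw [pow_two] at h1
    have e : x * x = k * ((k⁻¹ * x * k) * (k⁻¹ * x * k)) * k⁻¹ := by group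
    rw [e, h1]; group
  -- conjugation moves conjugates
  have mv : ∀ (k n x : G), x ∈ A.map (MulAut.conj k).toMonoidHom →
      n * x * n⁻¹ ∈ A.map (MulAut.conj (n * k)).toMonoidHom := by
    intro k n x hx
    rw [mem] at hx ⊢
    have e : (n * k)⁻¹ * (n * x * n⁻¹) * (n * k) = k⁻¹ * x * k := by group
    rw [e]; exact hx
  -- transport
  have tr : ∀ k l : G, A.map (MulAut.conj (l⁻¹ * k)).toMonoidHom = A →
      A.map (MulAut.conj k).toMonoidHom = A.map (MulAut.conj l).toMonoidHom := by
    intro k l h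
    have h1 := Cfsg.Agent.Lib.Helper20.map_conj_mul A l (l⁻¹ * k)
    rw [mul_inv_cancel_left, h] at h1
    exact h1
  -- general TI
  have TI : ∀ k l : G, A.map (MulAut.conj k).toMonoidHom ⊓ A.map (MulAut.conj l).toMonoidHom = ⊥ ∨
      A.map (MulAut.conj k).toMonoidHom = A.map (MulAut.conj l).toMonoidHom := by
    intro k l
    rcases hTI (l⁻¹ * k) with h | h
    · left
      rw [eq_bot_iff]
      intro x hx
      rw [Subgroup.mem_inf, mem, mem] at hx
      have h2 : l⁻¹ * x * l ∈ A.map (MulAut.conj (l⁻¹ * k)).toMonoidHom ⊓ A := by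
        refine Subgroup.mem_inf.mpr ⟨?_, hx.2⟩
        rw [mem]
        have e : (l⁻¹ * k)⁻¹ * (l⁻¹ * x * l) * (l⁻¹ * k) = k⁻¹ * x * k := by group
        rw [e]; exact hx.1
      rw [h, Subgroup.mem_bot] at h2
      rw [Subgroup.mem_bot]
      have e : x = l * (l⁻¹ * x * l) * l⁻¹ := by group
      rw [e, h2]; group
    · right; exact tr k l h
  -- general hb
  have HB : ∀ k l : G, (∀ x ∈ A.map (MulAut.conj k).toMonoidHom,
      ∀ y ∈ A.map (MulAut.conj l).toMonoidHom, x * y = y * x) →
      A.map (MulAut.conj k).toMonoidHom = A.map (MulAut.conj l).toMonoidHom := by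
    intro k l h
    apply tr k l
    apply hb
    intro a' ha' b' hb'
    rw [mem] at hb'
    have h1 : l * b' * l⁻¹ ∈ A.map (MulAut.conj k).toMonoidHom := by
      rw [mem]
      have e : k⁻¹ * (l * b' * l⁻¹) * k = (l⁻¹ * k)⁻¹ * b' * (l⁻¹ * k) := by group
      rw [e]; exact hb'
    have h2 : l * a' * l⁻¹ ∈ A.map (MulAut.conj l).toMonoidHom := by
      rw [mem]
      have e : l⁻¹ * (l * a' * l⁻¹) * l = a' := by group
      rw [e]; exact ha'
    have h3 := h _ h1 _ h2
    have e1 : a' * b' = l⁻¹ * ((l * a' * l⁻¹) * (l * b' * l⁻¹)) * l := by group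
    have e2 : b' * a' = l⁻¹ * ((l * b' * l⁻¹) * (l * a' * l⁻¹)) * l := by group
    rw [e1, e2, h3]
  -- normalizing lemma
  have NL : ∀ (k n b : G), b ∈ A.map (MulAut.conj k).toMonoidHom → b ≠ 1 → n * b = b * n →
      ∀ x ∈ A.map (MulAut.conj k).toMonoidHom, n * x * n⁻¹ ∈ A.map (MulAut.conj k).toMonoidHom := by
    intro k n b hbk hb1 hnb x hx
    have h1 : b ∈ A.map (MulAut.conj (n * k)).toMonoidHom := by
      have := mv k n b hbk
      have e : n * b * n⁻¹ = b := by rw [hnb]; group
      rwa [e] at this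
    rcases TI (n * k) k with h | h
    · exfalso
      have : b ∈ A.map (MulAut.conj (n * k)).toMonoidHom ⊓ A.map (MulAut.conj k).toMonoidHom :=
        Subgroup.mem_inf.mpr ⟨h1, hbk⟩
      rw [h, Subgroup.mem_bot] at this
      exact hb1 this
    · rw [← h]; exact mv k n x hx
  by_contra hne
  -- Step 1: elements of C g normalize A
  have hcent : ∀ b ∈ A.map (MulAut.conj g).toMonoidHom, b * a = a * b := by
    intro b hb'
    have := hg hb'
    rw [Subgroup.mem_centralizer_singleton_iff] at this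
    exact this
  have S1 : ∀ b ∈ A.map (MulAut.conj g).toMonoidHom, ∀ x ∈ A, b * x * b⁻¹ ∈ A := by
    intro b hb' x hx
    have := NL 1 b a ((mem1 a).mpr ha) ha1 (hcent b hb') x ((mem1 x).mpr hx)
    exact (mem1 _).mp this
  -- Step 2
  have S2 : A.map (MulAut.conj g).toMonoidHom ⊓ A = ⊥ := by
    rcases hTI g with h | h
    · exact h
    · exact absurd h hne
  -- Step 3
  have S3 : ∀ a' ∈ A, ∀ b ∈ A.map (MulAut.conj g).toMonoidHom,
      (a' * b * a'⁻¹) * b = b * (a' * b * a'⁻¹) := by
    intro a' ha' b hb'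
    have hbb := sq g b hb'
    have hbi : b⁻¹ = b := inv_eq_of_mul_eq_one_left hbb
    have hc : a' * (b * a'⁻¹ * b⁻¹) ∈ A := mul_mem ha' (S1 b hb' _ (inv_mem ha'))
    have hcc : (a' * (b * a'⁻¹ * b⁻¹)) * (a' * (b * a'⁻¹ * b⁻¹)) = 1 := by
      have := hAsq _ hc; rwa [pow_two] at this
    have hb'' : (a' * b * a'⁻¹) * (a' * b * a'⁻¹) = 1 := by
      calc (a' * b * a'⁻¹) * (a' * b * a'⁻¹) = a' * (b * b) * a'⁻¹ := by group
        _ = 1 := by rw [hbb]; group
    have e : a' * b * a'⁻¹ = (a' * (b * a'⁻¹ * b⁻¹)) * b := by group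
    generalize a' * (b * a'⁻¹ * b⁻¹) = c at hc hcc e
    rw [e] at hb'' ⊢
    -- (c b)(c b) = 1, c c = 1, b b = 1 → c b b = b c b
    have h1 : b * c = c * b := by
      have h2 : c * b * (c * b) = 1 := hb''
      calc b * c = (c * c) * b * c * (b * b) := by rw [hcc, hbb]; group
        _ = c * (c * b * (c * b)) * b := by group
        _ = c * b := by rw [h2]; group
    calc c * b * b = c * (b * b) := by group
      _ = (b * b) * c := by rw [hbb]; group
      _ = b * (b * c) := by group
      _ = b * (c * b) := by rw [h1]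
  -- Step 5: conjugates of C g by elements of A equal C g
  have S5 : ∀ a' ∈ A, A.map (MulAut.conj (a' * g)).toMonoidHom = A.map (MulAut.conj g).toMonoidHom := by
    intro a' ha'
    rcases TI (a' * g) g with h | h
    · apply HB
      intro x hx y hy
      -- x = a' b a'⁻¹ with b ∈ C g
      have hbx : a'⁻¹ * x * a' ∈ A.map (MulAut.conj g).toMonoidHom := by
        rw [mem] at hx ⊢
        have e : g⁻¹ * (a'⁻¹ * x * a') * g = (a' * g)⁻¹ * x * (a' * g) := by group
        rw [e]; exact hx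
      have hxe : x = a' * (a'⁻¹ * x * a') * a'⁻¹ := by group
      -- x normalizes C g
      have hxn : x * y * x⁻¹ ∈ A.map (MulAut.conj g).toMonoidHom := by
        by_cases hx1 : a'⁻¹ * x * a' = 1
        · have : x = 1 := by rw [hxe, hx1]; group
          rw [this]; simpa using hy
        · have h3 := S3 a' ha' _ hbx
          rw [← hxe] at h3
          exact NL g x _ hbx hx1 h3 y hy
      -- y normalizes C (a' g)
      have hyn : y * x⁻¹ * y⁻¹ ∈ A.map (MulAut.conj (a' * g)).toMonoidHom := by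
        by_cases hy1 : y = 1
        · rw [hy1]; simpa using inv_mem hx
        · have h3 := S3 a' ha' y hy
          have h4 : a' * y * a'⁻¹ ∈ A.map (MulAut.conj (a' * g)).toMonoidHom := mv g a' y hy
          have h5 : a' * y * a'⁻¹ ≠ 1 := by
            intro h6
            apply hy1
            have : y = a'⁻¹ * (a' * y * a'⁻¹) * a' := by group
            rw [this, h6]; group
          exact NL (a' * g) y _ h4 h5 h3.symm _ (inv_mem hx)
      have hcomm : x * y * x⁻¹ * y⁻¹ ∈ A.map (MulAut.conj (a' * g)).toMonoidHom ⊓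
          A.map (MulAut.conj g).toMonoidHom := by
        refine Subgroup.mem_inf.mpr ⟨?_, mul_mem hxn (inv_mem hy)⟩
        have e : x * y * x⁻¹ * y⁻¹ = x * (y * x⁻¹ * y⁻¹) := by group
        rw [e]; exact mul_mem hx hyn
      rw [h, Subgroup.mem_bot] at hcomm
      calc x * y = (x * y * x⁻¹ * y⁻¹) * y * x := by group
        _ = y * x := by rw [hcomm]; group
    · exact h
  -- Step 6
  apply hne
  apply hb
  intro x hx y hy
  have h1 : y * x * y⁻¹ ∈ A := S1 y hy x hx
  have h2 : x * y * x⁻¹ ∈ A.map (MulAut.conj g).toMonoidHom := by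
    rw [← S5 x hx]; exact mv g x y hy
  have hcomm : y * x * y⁻¹ * x⁻¹ ∈ A.map (MulAut.conj g).toMonoidHom ⊓ A := by
    refine Subgroup.mem_inf.mpr ⟨?_, mul_mem h1 (inv_mem hx)⟩
    have e : y * x * y⁻¹ * x⁻¹ = y * (x * y * x⁻¹)⁻¹ := by group
    rw [e]; exact mul_mem hy (inv_mem h2)
  rw [S2, Subgroup.mem_bot] at hcomm
  calc x * y = (y * x * y⁻¹ * x⁻¹)⁻¹ * y * x := by group
    _ = y * x := by rw [hcomm]; group

end Cfsg.Agent.S1177
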