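import Cfsg.Statements.S1178
import Cfsg.Agent.Lib.Helper20.Conj

set_option autoImplicit false
open Cfsg

namespace Cfsg.Agent.S1178

/-- Let A be a subgroup of a Sylow 2-subgroup S of the finite group G which is weakly closed in S. If a conjugate g A g⁻¹ commutes elementwise with A, then g A g⁻¹ = A. -/
theorem result {G : Type*} [Group G] [Finite G] (S : Sylow 2 G) (A : Subgroup G) (hW : Cfsg.IsWeaklyClosed A (S : Subgroup G)) (g : G) (hc : ∀ a ∈ A, ∀ b ∈ A.map (MulAut.conj g).toMonoidHom, a * b = b * a) : A.map (MulAut.conj g).toMonoidHom = A := by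
  obtain ⟨hAS, hwc⟩ := hW
  have hA2 : IsPGroup 2 A := S.isPGroup'.to_le hAS
  have hB2 : IsPGroup 2 (A.map (MulAut.conj g).toMonoidHom) := hA2.map _
  have hnorm : A ≤ Subgroup.normalizer (A.map (MulAut.conj g).toMonoidHom : Set G) := by
    intro a ha
    rw [Subgroup.mem_normalizer_iff]
    intro b
    constructor
    · intro hb
      have h1 := hc a ha b hb
      have e : a * b * a⁻¹ = b := by rw [h1]; group
      rw [e]; exact hb
    · intro hb
      have h1 := hc a ha _ hb
      have e : a * b * a⁻¹ = b := by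
        apply mul_left_cancel (a := a)
        rw [h1]; group
      rw [← e]; exact hb
  have hsup : IsPGroup 2 (A ⊔ A.map (MulAut.conj g).toMonoidHom : Subgroup G) :=
    IsPGroup.to_sup_of_normal_right' hA2 hB2 hnorm
  obtain ⟨Q, hQ⟩ := hsup.exists_le_sylow
  obtain ⟨h, rfl⟩ := MulAction.exists_smul_eq G S Q
  -- A^(h⁻¹) ≤ S
  have h1 : A.map (MulAut.conj h⁻¹).toMonoidHom ≤ S := by
    intro x hx
    rw [Cfsg.Agent.Lib.Helper20.mem_map_conj, inv_inv] at hx
    have h2 := hQ (Subgroup.mem_sup_left hx)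
    rw [Cfsg.Agent.Lib.Helper20.mem_sylow_smul] at h2
    have e : h⁻¹ * (h * x * h⁻¹) * h = x := by group
    rw [e] at h2
    exact h2
  have h2 : A.map (MulAut.conj (h⁻¹ * g)).toMonoidHom ≤ S := by
    intro x hx
    rw [Cfsg.Agent.Lib.Helper20.mem_map_conj] at hx
    have h3 : h * x * h⁻¹ ∈ A.map (MulAut.conj g).toMonoidHom := by
      rw [Cfsg.Agent.Lib.Helper20.mem_map_conj]
      have e : g⁻¹ * (h * x * h⁻¹) * g = (h⁻¹ * g)⁻¹ * x * (h⁻¹ * g) := by group
      rw [e]; exact hx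
    have h4 := hQ (Subgroup.mem_sup_right h3)
    rw [Cfsg.Agent.Lib.Helper20.mem_sylow_smul] at h4
    have e : h⁻¹ * (h * x * h⁻¹) * h = x := by group
    rw [e] at h4
    exact h4
  have e1 := hwc h⁻¹ h1
  have e2 := hwc (h⁻¹ * g) h2
  have e3 := Cfsg.Agent.Lib.Helper20.map_conj_inv_eq e1
  rw [inv_inv] at e3
  have e4 := Cfsg.Agent.Lib.Helper20.map_conj_mul A h (h⁻¹ * g)
  rw [mul_inv_cancel_left, e2, e3] at e4
  exact e4

end Cfsg.Agent.S1178
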