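import Cfsg.Statements.S1181
import Cfsg.Agent.Lib.Helper20.Isolated

set_option autoImplicit false
open Cfsg

namespace Cfsg.Agent.S1181

/-- Let z be an isolated involution of the finite group G and N a normal subgroup with z ∉ N. Then the centralizer of zN in G/N is the image of C_G(z), and zN is an isolated involution of G/N. -/
theorem result {G : Type*} [Group G] [Finite G] (z : G) (hz : Cfsg.IsIsolatedInvolution z) (N : Subgroup G) [N.Normal] (hzN : z ∉ N) : Subgroup.centralizer ({(QuotientGroup.mk z : G ⧸ N)} : Set (G ⧸ N)) = (Subgroup.centralizer ({z} : Set G)).map (QuotientGroup.mk' N) ∧ Cfsg.IsIsolatedInvolution (QuotientGroup.mk z : G ⧸ N) := by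
  have hzz := Cfsg.Agent.Lib.Helper20.iso_sq hz
  have hzi := Cfsg.Agent.Lib.Helper20.iso_inv hz
  have huu : ∀ g : G, (g * z * g⁻¹) * (g * z * g⁻¹) = 1 := fun g =>
    Cfsg.Agent.Lib.Helper20.iso_sq (Cfsg.Agent.Lib.Helper20.iso_conj hz g)
  -- if the image of `g z g⁻¹` commutes with the image of `z` then `z * (g z g⁻¹) ∈ N`
  have key : ∀ g : G, (QuotientGroup.mk z : G ⧸ N) * QuotientGroup.mk (g * z * g⁻¹) =
      QuotientGroup.mk (g * z * g⁻¹) * QuotientGroup.mk z → z * (g * z * g⁻¹) ∈ N := by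
    intro g hcomm
    obtain ⟨m, hm⟩ := Cfsg.Agent.Lib.Helper20.iso_odd hz g
    have h2 : (z * (g * z * g⁻¹)) * (z * (g * z * g⁻¹)) ∈ N := by
      rw [← QuotientGroup.eq_one_iff]
      have e1 : ((z * (g * z * g⁻¹) * (z * (g * z * g⁻¹)) : G) : G ⧸ N) =
          ((z : G) : G ⧸ N) * ((g * z * g⁻¹ : G) : G ⧸ N) * (((z : G) : G ⧸ N) * ((g * z * g⁻¹ : G) : G ⧸ N)) := by
        simp only [QuotientGroup.mk_mul]
      rw [e1]
      calc ((z : G) : G ⧸ N) * ((g * z * g⁻¹ : G) : G ⧸ N) * (((z : G) : G ⧸ N) * ((g * z * g⁻¹ : G) : G ⧸ N))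
          = ((z : G) : G ⧸ N) * (((g * z * g⁻¹ : G) : G ⧸ N) * ((z : G) : G ⧸ N)) * ((g * z * g⁻¹ : G) : G ⧸ N) := by group
        _ = ((z : G) : G ⧸ N) * (((z : G) : G ⧸ N) * ((g * z * g⁻¹ : G) : G ⧸ N)) * ((g * z * g⁻¹ : G) : G ⧸ N) := by rw [hcomm]
        _ = ((z * z : G) : G ⧸ N) * (((g * z * g⁻¹) * (g * z * g⁻¹) : G) : G ⧸ N) := by
            simp only [QuotientGroup.mk_mul]; group
        _ = 1 := by rw [hzz, huu g]; simp
    have h3 : (z * (g * z * g⁻¹)) * ((z * (g * z * g⁻¹)) * (z * (g * z * g⁻¹))) ^ m = 1 := by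
      rw [← pow_two, ← pow_mul, ← pow_succ', ← hm, pow_orderOf_eq_one]
    have h4 : z * (g * z * g⁻¹) = (((z * (g * z * g⁻¹)) * (z * (g * z * g⁻¹))) ^ m)⁻¹ :=
      eq_inv_of_mul_eq_one_left h3
    rw [h4]
    exact inv_mem (pow_mem h2 m)
  have hmkconj : ∀ g : G, (QuotientGroup.mk g : G ⧸ N) * QuotientGroup.mk z * (QuotientGroup.mk g)⁻¹ =
      QuotientGroup.mk (g * z * g⁻¹) := by
    intro g; simp
  refine ⟨?_, ?_, ?_⟩
  · ext q
    constructor
    · intro hq
      obtain ⟨g, rfl⟩ := QuotientGroup.mk_surjective q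
      rw [Subgroup.mem_centralizer_singleton_iff] at hq
      have hcomm : (QuotientGroup.mk z : G ⧸ N) * QuotientGroup.mk (g * z * g⁻¹) =
          QuotientGroup.mk (g * z * g⁻¹) * QuotientGroup.mk z := by
        rw [← hmkconj g]
        have hbab : (QuotientGroup.mk g : G ⧸ N) * QuotientGroup.mk z * (QuotientGroup.mk g)⁻¹ =
            QuotientGroup.mk z := by
          rw [hq]; group
        rw [hbab]
      have hzuN := key g hcomm
      obtain ⟨m, hm⟩ := Cfsg.Agent.Lib.Helper20.iso_odd hz g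
      have hce := Cfsg.Agent.Lib.Helper20.iso_conj_elt_of hz g hm
      have hwN : (z * (g * z * g⁻¹)) ^ m ∈ N := pow_mem hzuN m
      generalize (z * (g * z * g⁻¹)) ^ m = w at hce hwN
      refine ⟨w⁻¹ * g, ?_, ?_⟩
      · rw [SetLike.mem_coe, Subgroup.mem_centralizer_singleton_iff]
        calc w⁻¹ * g * z = w⁻¹ * (g * z * g⁻¹) * g := by group
          _ = w⁻¹ * (w * z * w⁻¹) * g := by rw [hce]
          _ = _ := by group
      · rw [QuotientGroup.mk'_apply, QuotientGroup.mk_mul, QuotientGroup.mk_inv,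
          (QuotientGroup.eq_one_iff w).mpr hwN]
        simp
    · rintro ⟨c, hc, rfl⟩
      rw [SetLike.mem_coe, Subgroup.mem_centralizer_singleton_iff] at hc
      rw [Subgroup.mem_centralizer_singleton_iff, QuotientGroup.mk'_apply, ← QuotientGroup.mk_mul,
        ← QuotientGroup.mk_mul, hc]
  · have h1 : (QuotientGroup.mk z : G ⧸ N) ^ 2 = 1 := by
      rw [← QuotientGroup.mk_pow, pow_two, hzz]; rfl
    have h2 : (QuotientGroup.mk z : G ⧸ N) ≠ 1 := by
      rw [Ne, QuotientGroup.eq_one_iff]; exact hzN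
    have : Fact (Nat.Prime 2) := ⟨Nat.prime_two⟩
    exact orderOf_eq_prime h1 h2
  · intro q hq
    obtain ⟨g, rfl⟩ := QuotientGroup.mk_surjective q
    rw [hmkconj g] at hq ⊢
    have hzuN := key g hq.eq
    have h3 : (QuotientGroup.mk z : G ⧸ N) * QuotientGroup.mk (g * z * g⁻¹) = 1 := by
      rw [← QuotientGroup.mk_mul]; exact (QuotientGroup.eq_one_iff _).mpr hzuN
    have h4 : (QuotientGroup.mk (g * z * g⁻¹) : G ⧸ N) = (QuotientGroup.mk z)⁻¹ :=
      eq_inv_of_mul_eq_one_right h3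
    rw [h4, ← QuotientGroup.mk_inv, hzi]

end Cfsg.Agent.S1181
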