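import Cfsg.Statements.S1182
import Cfsg.Agent.Lib.Helper20.Isolated

set_option autoImplicit false
open Cfsg

namespace Cfsg.Agent.S1182

/-- Let z be an isolated involution of the finite group G and H a subgroup normalized by z. If x, y ∈ H both commute with z and y = h x h⁻¹ for some h ∈ H, then y = c x c⁻¹ for some c ∈ H commuting with z. -/
theorem result {G : Type*} [Group G] [Finite G] (z : G) (hz : Cfsg.IsIsolatedInvolution z) (H : Subgroup G) (hzH : z ∈ Subgroup.normalizer (H : Set G)) (x y : G) (hx : x ∈ H) (hy : y ∈ H) (hxz : Commute x z) (hyz : Commute y z) (h : G) (hh : h ∈ H) (hconj : h * x * h⁻¹ = y) : ∃ c ∈ H, Commute c z ∧ c * x * c⁻¹ = y := by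
  obtain ⟨m, hm⟩ := Cfsg.Agent.Lib.Helper20.iso_conj_elt hz h
  have hzi := Cfsg.Agent.Lib.Helper20.iso_inv hz
  -- z * u ∈ H
  have hzuH : z * (h * z * h⁻¹) ∈ H := by
    have h1 : z * h * z⁻¹ ∈ H := (Subgroup.mem_normalizer_iff.mp hzH h).mp hh
    have h2 : z * (h * z * h⁻¹) = (z * h * z⁻¹) * h⁻¹ := by rw [hzi]; group
    rw [h2]
    exact mul_mem h1 (inv_mem hh)
  -- z * u commutes with y
  have hcy : Commute (z * (h * z * h⁻¹)) y := by
    have h1 : Commute (h * z * h⁻¹) y := by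
      rw [← hconj]
      have hxz' : z * x = x * z := hxz.eq.symm
      unfold Commute SemiconjBy
      calc h * z * h⁻¹ * (h * x * h⁻¹) = h * (z * x) * h⁻¹ := by group
        _ = h * (x * z) * h⁻¹ := by rw [hxz']
        _ = _ := by group
    exact (hyz.symm).mul_left h1
  have hwy : Commute ((z * (h * z * h⁻¹)) ^ m) y := hcy.pow_left m
  refine ⟨((z * (h * z * h⁻¹)) ^ m)⁻¹ * h, mul_mem (inv_mem (pow_mem hzuH m)) hh, ?_, ?_⟩
  · -- commutes with z
    generalize (z * (h * z * h⁻¹)) ^ m = w at hm hwy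
    have h3 : w⁻¹ * h * z * (w⁻¹ * h)⁻¹ = z := by
      calc w⁻¹ * h * z * (w⁻¹ * h)⁻¹ = w⁻¹ * (h * z * h⁻¹) * w := by group
        _ = w⁻¹ * (w * z * w⁻¹) * w := by rw [hm]
        _ = z := by group
    unfold Commute SemiconjBy
    rw [mul_inv_eq_iff_eq_mul] at h3
    exact h3
  · generalize (z * (h * z * h⁻¹)) ^ m = w at hm hwy
    calc w⁻¹ * h * x * (w⁻¹ * h)⁻¹ = w⁻¹ * (h * x * h⁻¹) * w := by group
      _ = w⁻¹ * y * w := by rw [hconj]
      _ = w⁻¹ * (y * w) := by group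
      _ = w⁻¹ * (w * y) := by rw [hwy.eq]
      _ = y := by group

end Cfsg.Agent.S1182
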