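import Mathlib
import Cfsg.Statements.S1242

set_option autoImplicit false
open Cfsg
open scoped commutatorElement

namespace Cfsg.Agent.S1242

/-- a subgroup containing the commutator subgroup is normal -/
theorem normal_of_commutator_le {H : Type*} [Group H] (N : Subgroup H) (h : commutator H ≤ N) : N.Normal := by
  constructor
  intro n hn g
  have h1 : ⁅g, n⁆ ∈ commutator H := by
    rw [commutator_def]
    exact Subgroup.commutator_mem_commutator (Subgroup.mem_top g) (Subgroup.mem_top n)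
  have h2 : g * n * g⁻¹ = ⁅g, n⁆ * n := by rw [commutatorElement_def]; group
  rw [h2]
  exact N.mul_mem (h h1) hn

/-- the quotient by `O^p(H) H'` is a `p`-group -/
theorem isPGroup_quot {H : Type*} [Group H] [Finite H] (p : ℕ) [Fact p.Prime] (N : Subgroup H) [N.Normal]
    (hN : Cfsg.pResidual p H ≤ N) : IsPGroup p (H ⧸ N) := by
  have hp : p.Prime := Fact.out
  intro ξ
  obtain ⟨h, rfl⟩ := QuotientGroup.mk'_surjective N ξ
  obtain ⟨a, m, hm, hxa⟩ := Nat.exists_eq_pow_mul_and_not_dvd (orderOf_pos h).ne' p hp.ne_one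
  refine ⟨a, ?_⟩
  rw [← map_pow]
  apply (QuotientGroup.eq_one_iff _).mpr
  apply hN
  apply Subgroup.subset_closure
  show Nat.Coprime (orderOf (h ^ p ^ a)) p
  have h1 : (h ^ p ^ a) ^ m = 1 := by rw [← pow_mul, ← hxa, pow_orderOf_eq_one]
  exact Nat.Coprime.coprime_dvd_left (orderOf_dvd_of_pow_eq_one h1)
    (Nat.Coprime.symm ((Nat.Prime.coprime_iff_not_dvd hp).mpr hm))

theorem factor_eq {G : Type*} [Group G] {p : ℕ} [hpf : Fact p.Prime] (H : Subgroup G) (N : Subgroup H) [hNn : N.Normal]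
    (hcomm : commutator H ≤ N)
    (hfus : ∀ g ∈ H, (∃ k : ℕ, orderOf g = p ^ k) → ∀ a : G, a * g * a⁻¹ ∈ H → ∃ h ∈ H, h * g * h⁻¹ = a * g * a⁻¹)
    (g : G) (hgH : g ∈ H) (k : ℕ) (hgp : orderOf g = p ^ k)
    (a : G) (n : ℕ) (hmem : a⁻¹ * g ^ n * a ∈ H) :
    QuotientGroup.mk' N ⟨a⁻¹ * g ^ n * a, hmem⟩ = (QuotientGroup.mk' N ⟨g, hgH⟩) ^ n := by
  have hp : p.Prime := Fact.out
  have hgn : g ^ n ∈ H := H.pow_mem hgH n
  have hord : ∃ j : ℕ, orderOf (g ^ n) = p ^ j := by
    have h1 : orderOf (g ^ n) ∣ p ^ k := by rw [← hgp]; exact orderOf_pow_dvd n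
    obtain ⟨j, _, hj⟩ := (Nat.dvd_prime_pow hp).mp h1
    exact ⟨j, hj⟩
  have h1 : a⁻¹ * g ^ n * a⁻¹⁻¹ ∈ H := by rw [inv_inv]; exact hmem
  obtain ⟨h, hhH, hh⟩ := hfus (g ^ n) hgn hord a⁻¹ h1
  rw [inv_inv] at hh
  have e : (⟨a⁻¹ * g ^ n * a, hmem⟩ : H) = ⁅(⟨h, hhH⟩ : H), (⟨g ^ n, hgn⟩ : H)⁆ * (⟨g ^ n, hgn⟩ : H) := by
    apply Subtype.ext
    rw [commutatorElement_def]
    simp only [Subgroup.coe_mul, Subgroup.coe_inv]
    rw [← hh]; group
  have hc : ⁅(⟨h, hhH⟩ : H), (⟨g ^ n, hgn⟩ : H)⁆ ∈ N := by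
    apply hcomm
    rw [commutator_def]
    exact Subgroup.commutator_mem_commutator (Subgroup.mem_top _) (Subgroup.mem_top _)
  have hc' : QuotientGroup.mk' N ⁅(⟨h, hhH⟩ : H), (⟨g ^ n, hgn⟩ : H)⁆ = 1 := (QuotientGroup.eq_one_iff _).mpr hc
  rw [e, map_mul, hc', one_mul, ← map_pow]
  rfl

open scoped IsMulCommutative in
/-- Let G be a finite group, p a prime and H a subgroup of index prime to p such that any two elements of H of p-power order that are conjugate in G are conjugate in H. Then (O^p(G)·G') ∩ H = O^p(H)·H', where O^p denotes the subgroup generated by the elements of order prime to p. -/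
theorem result {G : Type*} [Group G] [Finite G] {p : ℕ} [Fact p.Prime] (H : Subgroup G) (hidx : Nat.Coprime p H.index) (hfus : ∀ g ∈ H, (∃ k : ℕ, orderOf g = p ^ k) → ∀ a : G, a * g * a⁻¹ ∈ H → ∃ h ∈ H, h * g * h⁻¹ = a * g * a⁻¹) : (Cfsg.pResidual p G ⊔ commutator G) ⊓ H = (Cfsg.pResidual p ↥H ⊔ commutator ↥H).map H.subtype := by
  have hp : p.Prime := Fact.out
  have hNn : (Cfsg.pResidual p ↥H ⊔ commutator ↥H).Normal := normal_of_commutator_le _ le_sup_right
  have hQc : IsMulCommutative (H ⧸ (Cfsg.pResidual p ↥H ⊔ commutator ↥H)) :=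
    Subgroup.Normal.quotient_commutative_iff_commutator_le.mpr le_sup_right
  have hQp : IsPGroup p (H ⧸ (Cfsg.pResidual p ↥H ⊔ commutator ↥H)) := isPGroup_quot p _ le_sup_left
  -- the transfer kills p'-elements and commutators
  have hker : Cfsg.pResidual p G ⊔ commutator G ≤
      (MonoidHom.transfer (QuotientGroup.mk' (Cfsg.pResidual p ↥H ⊔ commutator ↥H))).ker := by
    apply sup_le
    · have hdef : Cfsg.pResidual p G = Subgroup.closure {g : G | Nat.Coprime (orderOf g) p} := rfl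
      rw [hdef, Subgroup.closure_le]
      intro y hy
      have hy' : Nat.Coprime (orderOf y) p := hy
      rw [SetLike.mem_coe, MonoidHom.mem_ker]
      obtain ⟨j, hj⟩ := (IsPGroup.iff_orderOf.mp hQp)
        (MonoidHom.transfer (QuotientGroup.mk' (Cfsg.pResidual p ↥H ⊔ commutator ↥H)) y)
      have h1 : orderOf (MonoidHom.transfer (QuotientGroup.mk' (Cfsg.pResidual p ↥H ⊔ commutator ↥H)) y) ∣ orderOf y :=
        orderOf_map_dvd _ y
      have h2 := Nat.Coprime.coprime_dvd_left h1 hy'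
      rw [hj] at h2
      have h3 : Nat.Coprime (p ^ j) (p ^ j) := Nat.Coprime.pow_right j h2
      rw [Nat.coprime_self] at h3
      rw [← orderOf_eq_one_iff, hj, h3]
    · exact Abelianization.commutator_subset_ker _
  apply le_antisymm
  · intro x hx
    obtain ⟨hx1, hxH⟩ := Subgroup.mem_inf.mp hx
    have hV : MonoidHom.transfer (QuotientGroup.mk' (Cfsg.pResidual p ↥H ⊔ commutator ↥H)) x = 1 := hker hx1
    obtain ⟨a, m, hm, hxa⟩ := Nat.exists_eq_pow_mul_and_not_dvd (orderOf_pos x).ne' p hp.ne_one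
    have hcop : Nat.Coprime m p := (Nat.Coprime.symm ((Nat.Prime.coprime_iff_not_dvd hp).mpr hm))
    -- u = x^m is a p-element of H
    have huH : x ^ m ∈ H := H.pow_mem hxH m
    have hu : ∃ k : ℕ, orderOf (x ^ m) = p ^ k := by
      have h1 : (x ^ m) ^ (p ^ a) = 1 := by rw [← pow_mul, mul_comm, ← hxa, pow_orderOf_eq_one]
      obtain ⟨j, _, hj⟩ := (Nat.dvd_prime_pow hp).mp (orderOf_dvd_of_pow_eq_one h1)
      exact ⟨j, hj⟩
    obtain ⟨k, hk⟩ := hu
    have hVu : MonoidHom.transfer (QuotientGroup.mk' (Cfsg.pResidual p ↥H ⊔ commutator ↥H)) (x ^ m)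
        = (QuotientGroup.mk' (Cfsg.pResidual p ↥H ⊔ commutator ↥H) ⟨x ^ m, huH⟩) ^ H.index := by
      have : Fintype (Quotient (MulAction.orbitRel (Subgroup.zpowers (x ^ m)) (G ⧸ H))) := Fintype.ofFinite _
      rw [Subgroup.index_eq_sum_minimalPeriod H (x ^ m), ← Finset.prod_pow_eq_pow_sum,
        MonoidHom.transfer_eq_prod_quotient_orbitRel_zpowers_quot]
      apply Finset.prod_congr rfl
      intro q _
      exact factor_eq H _ le_sup_right hfus (x ^ m) huH k hk _ _ _
    rw [map_pow, hV, one_pow] at hVu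
    -- ξ = class of x
    have e1 : (QuotientGroup.mk' (Cfsg.pResidual p ↥H ⊔ commutator ↥H) ⟨x, hxH⟩) ^ (m * H.index) = 1 := by
      rw [pow_mul, ← map_pow]
      exact hVu.symm
    have e2 : (QuotientGroup.mk' (Cfsg.pResidual p ↥H ⊔ commutator ↥H) ⟨x, hxH⟩) ^ (p ^ a) = 1 := by
      rw [← map_pow]
      apply (QuotientGroup.eq_one_iff _).mpr
      apply Subgroup.mem_sup_left
      apply Subgroup.subset_closure
      show Nat.Coprime (orderOf ((⟨x, hxH⟩ : H) ^ p ^ a)) p
      have h1 : ((⟨x, hxH⟩ : H) ^ p ^ a) ^ m = 1 := by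
        apply Subtype.ext
        simp only [Subgroup.coe_pow, Subgroup.coe_one]
        rw [← pow_mul, ← hxa, pow_orderOf_eq_one]
      exact Nat.Coprime.coprime_dvd_left (orderOf_dvd_of_pow_eq_one h1) hcop
    have hcop2 : Nat.Coprime (m * H.index) (p ^ a) :=
      Nat.Coprime.pow_right a (Nat.Coprime.mul_left hcop hidx.symm)
    have e3 : orderOf (QuotientGroup.mk' (Cfsg.pResidual p ↥H ⊔ commutator ↥H) ⟨x, hxH⟩) = 1 :=
      Nat.eq_one_of_dvd_coprimes hcop2 (orderOf_dvd_of_pow_eq_one e1) (orderOf_dvd_of_pow_eq_one e2)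
    rw [orderOf_eq_one_iff] at e3
    exact ⟨⟨x, hxH⟩, (QuotientGroup.eq_one_iff _).mp e3, rfl⟩
  · apply le_inf
    · rw [Subgroup.map_sup]
      apply sup_le_sup
      · have hdef : Cfsg.pResidual p G = Subgroup.closure {g : G | Nat.Coprime (orderOf g) p} := rfl
        have hdef' : Cfsg.pResidual p ↥H = Subgroup.closure {g : ↥H | Nat.Coprime (orderOf g) p} := rfl
        rw [hdef, hdef', MonoidHom.map_closure]
        apply Subgroup.closure_mono
        rintro _ ⟨h, hh, rfl⟩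
        show Nat.Coprime (orderOf (H.subtype h)) p
        rw [Subgroup.coe_subtype, Subgroup.orderOf_coe]
        exact hh
      · rw [Subgroup.map_subtype_commutator, commutator_def]
        exact Subgroup.commutator_mono le_top le_top
    · exact Subgroup.map_subtype_le _

end Cfsg.Agent.S1242
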