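import Cfsg.Statements.S1183
import Cfsg.Agent.Lib.Helper20.Isolated
import Cfsg.Agent.S1182
import Cfsg.Agent.S1242

set_option autoImplicit false
open Cfsg

namespace Cfsg.Agent.S1183

open Cfsg.Agent.Lib.Helper20

theorem pRes_normal (p : ℕ) (X : Type*) [Group X] : (Cfsg.pResidual p X).Normal := by
  have h : Subgroup.normalizer {g : X | Nat.Coprime (orderOf g) p} = ⊤ := by
    ext g
    simp only [Subgroup.mem_top, iff_true, Subgroup.mem_set_normalizer_iff, Set.mem_ofPred_eq]
    intro n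
    have : g * n * g⁻¹ = MulAut.conj g n := rfl
    rw [this, MulEquiv.orderOf_eq]
  have h2 := Subgroup.normalizer_le_normalizer_closure {g : X | Nat.Coprime (orderOf g) p}
  rw [h, top_le_iff] at h2
  exact Subgroup.normalizer_eq_top_iff.mp h2

theorem isPGroup_quot_of_le {X : Type*} [Group X] [Finite X] (N : Subgroup X) [N.Normal]
    (hN : Cfsg.pResidual 2 X ≤ N) : IsPGroup 2 (X ⧸ N) := by
  intro q
  obtain ⟨g, rfl⟩ := QuotientGroup.mk_surjective q
  obtain ⟨e, m, hm, hem⟩ := Nat.exists_eq_pow_mul_and_not_dvd (orderOf_pos g).ne' 2 (by norm_num)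
  refine ⟨e, ?_⟩
  have h1 : (g ^ 2 ^ e) ^ m = 1 := by
    rw [← pow_mul, ← hem, pow_orderOf_eq_one]
  have h2 : orderOf (g ^ 2 ^ e) ∣ m := orderOf_dvd_of_pow_eq_one h1
  have h3 : Nat.Coprime m 2 := Nat.coprime_comm.mp ((Nat.Prime.coprime_iff_not_dvd Nat.prime_two).mpr hm)
  have h4 : g ^ 2 ^ e ∈ Cfsg.pResidual 2 X :=
    Subgroup.subset_closure (Nat.Coprime.coprime_dvd_left h2 h3)
  rw [← QuotientGroup.mk_pow]
  exact (QuotientGroup.eq_one_iff _).mpr (hN h4)

theorem pRes_eq_top_of_sup {X : Type*} [Group X] [Finite X]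
    (h : Cfsg.pResidual 2 X ⊔ commutator X = ⊤) : Cfsg.pResidual 2 X = ⊤ := by
  have := pRes_normal 2 X
  have hT : IsPGroup 2 (X ⧸ Cfsg.pResidual 2 X) := isPGroup_quot_of_le _ le_rfl
  have : Fact (Nat.Prime 2) := ⟨Nat.prime_two⟩
  have : Group.IsNilpotent (X ⧸ Cfsg.pResidual 2 X) := hT.isNilpotent
  by_contra hne
  have : Nontrivial (X ⧸ Cfsg.pResidual 2 X) := QuotientGroup.nontrivial_iff.mpr hne
  have hlt := Group.IsSolvable.commutator_lt_top_of_nontrivial (X ⧸ Cfsg.pResidual 2 X)
  apply hlt.ne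
  have e1 : commutator (X ⧸ Cfsg.pResidual 2 X) =
      (commutator X).map (QuotientGroup.mk' (Cfsg.pResidual 2 X)) := by
    rw [commutator_def, commutator_def, Subgroup.map_commutator,
      Subgroup.map_top_of_surjective _ (QuotientGroup.mk'_surjective _)]
  rw [e1]
  have e2 := congrArg (Subgroup.map (QuotientGroup.mk' (Cfsg.pResidual 2 X))) h
  rw [Subgroup.map_sup, QuotientGroup.map_mk'_self, bot_sup_eq,
    Subgroup.map_top_of_surjective _ (QuotientGroup.mk'_surjective _)] at e2
  exact e2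

/-- Let z be an isolated involution of the finite group G and C = C_G(z). Then the subgroup of G generated by its elements of odd order is all of G if and only if the subgroup of C generated by its elements of odd order is all of C. -/
theorem result {G : Type*} [Group G] [Finite G] (z : G) (hz : Cfsg.IsIsolatedInvolution z) : Cfsg.pResidual 2 G = ⊤ ↔ Cfsg.pResidual 2 ↥(Subgroup.centralizer ({z} : Set G)) = ⊤ := by
  have : Fact (Nat.Prime 2) := ⟨Nat.prime_two⟩
  have hz2 : IsPGroup 2 (Subgroup.zpowers z) := by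
    apply IsPGroup.of_card (n := 1)
    rw [Nat.card_zpowers, hz.1, pow_one]
  obtain ⟨S, hS⟩ := hz2.exists_le_sylow
  have hzS : z ∈ (S : Subgroup G) := hS (Subgroup.mem_zpowers z)
  have hSC : (S : Subgroup G) ≤ Subgroup.centralizer ({z} : Set G) := by
    intro s hs
    rw [Subgroup.mem_centralizer_singleton_iff]
    have hodd := iso_odd hz s
    have hmem : z * (s * z * s⁻¹) ∈ (S : Subgroup G) :=
      mul_mem hzS (mul_mem (mul_mem hs hzS) (inv_mem hs))
    obtain ⟨k, hk⟩ := (IsPGroup.iff_orderOf.mp S.isPGroup') ⟨_, hmem⟩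
    rw [Subgroup.orderOf_mk] at hk
    have h1 : z * (s * z * s⁻¹) = 1 := by
      rcases Nat.eq_zero_or_pos k with h0 | h0
      · rw [h0, pow_zero] at hk; exact orderOf_eq_one_iff.mp hk
      · exfalso
        rw [hk] at hodd
        exact (Nat.not_even_iff_odd.mpr hodd) ((Nat.even_pow).mpr ⟨even_two, h0.ne'⟩)
    have h2 : s * z * s⁻¹ = z := by
      have := eq_inv_of_mul_eq_one_right h1
      rw [this, iso_inv hz]
    rw [mul_inv_eq_iff_eq_mul] at h2
    exact h2
  have hidx : Nat.Coprime 2 (Subgroup.centralizer ({z} : Set G)).index := by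
    have h1 : (Subgroup.centralizer ({z} : Set G)).index ∣ (S : Subgroup G).index :=
      Subgroup.index_dvd_of_le hSC
    have h2 : ¬ 2 ∣ (S : Subgroup G).index := S.not_dvd_index
    exact (Nat.Prime.coprime_iff_not_dvd Nat.prime_two).mpr (fun h => h2 (dvd_trans h h1))
  have hfus : ∀ g ∈ Subgroup.centralizer ({z} : Set G), (∃ k : ℕ, orderOf g = 2 ^ k) →
      ∀ a : G, a * g * a⁻¹ ∈ Subgroup.centralizer ({z} : Set G) →
      ∃ h ∈ Subgroup.centralizer ({z} : Set G), h * g * h⁻¹ = a * g * a⁻¹ := by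
    intro g hg _ a ha
    rw [Subgroup.mem_centralizer_singleton_iff] at hg ha
    obtain ⟨c, -, hcz, hc⟩ := Cfsg.Agent.S1182.result z hz ⊤ (Subgroup.mem_normalizer_iff.mpr (fun h => by simp)) g (a * g * a⁻¹)
      (Subgroup.mem_top _) (Subgroup.mem_top _) hg ha a (Subgroup.mem_top _) rfl
    exact ⟨c, Subgroup.mem_centralizer_singleton_iff.mpr hcz.eq, hc⟩
  have key := Cfsg.Agent.S1242.result (p := 2) (Subgroup.centralizer ({z} : Set G)) hidx hfus
  constructor
  · intro hG
    apply pRes_eq_top_of_sup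
    rw [hG, top_sup_eq, top_inf_eq] at key
    rw [eq_top_iff]
    intro x _
    have hx : (x : G) ∈ (Cfsg.pResidual 2 ↥(Subgroup.centralizer ({z} : Set G)) ⊔
        commutator ↥(Subgroup.centralizer ({z} : Set G))).map
        (Subgroup.centralizer ({z} : Set G)).subtype := by
      rw [← key]; exact x.2
    obtain ⟨y, hy, hyx⟩ := hx
    have : y = x := Subtype.ext hyx
    rwa [this] at hy
  · intro hC
    apply pRes_eq_top_of_sup
    rw [hC, top_sup_eq] at key
    have hC_le : Subgroup.centralizer ({z} : Set G) ≤ Cfsg.pResidual 2 G ⊔ commutator G := by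
      intro x hx
      have : x ∈ (⊤ : Subgroup ↥(Subgroup.centralizer ({z} : Set G))).map
          (Subgroup.centralizer ({z} : Set G)).subtype := ⟨⟨x, hx⟩, Subgroup.mem_top _, rfl⟩
      rw [← key] at this
      exact this.1
    have := pRes_normal 2 G
    have : (Cfsg.pResidual 2 G ⊔ commutator G).Normal := Subgroup.sup_normal _ _
    have hT : IsPGroup 2 (G ⧸ (Cfsg.pResidual 2 G ⊔ commutator G)) :=
      isPGroup_quot_of_le _ le_sup_left
    obtain ⟨k, hk⟩ := hT.exists_card_eq
    rw [← Subgroup.index_eq_card] at hk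
    have h1 : (Cfsg.pResidual 2 G ⊔ commutator G).index ∣ (S : Subgroup G).index :=
      Subgroup.index_dvd_of_le (hSC.trans hC_le)
    have h2 : ¬ 2 ∣ (S : Subgroup G).index := S.not_dvd_index
    rcases Nat.eq_zero_or_pos k with h0 | h0
    · rw [h0, pow_zero] at hk
      exact Subgroup.index_eq_one.mp hk
    · exfalso
      apply h2
      refine dvd_trans ?_ h1
      rw [hk]
      exact dvd_pow_self 2 h0.ne'

end Cfsg.Agent.S1183
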