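import Cfsg.Statements.S1184
import Cfsg.Agent.Lib.Helper20.Isolated

set_option autoImplicit false
open Cfsg

namespace Cfsg.Agent.S1184

/-- Let z be an isolated involution of the finite group G. If s and t are distinct conjugates of z, then st does not commute with z. -/
theorem result {G : Type*} [Group G] [Finite G] (z : G) (hz : Cfsg.IsIsolatedInvolution z) (g h : G) (hne : g * z * g⁻¹ ≠ h * z * h⁻¹) : ¬ Commute (g * z * g⁻¹ * (h * z * h⁻¹)) z := by
  intro hc
  have hzz := Cfsg.Agent.Lib.Helper20.iso_sq hz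
  have hzi := Cfsg.Agent.Lib.Helper20.iso_inv hz
  obtain ⟨m, hm⟩ := Cfsg.Agent.Lib.Helper20.iso_conj_elt hz g
  have hsiso := Cfsg.Agent.Lib.Helper20.iso_conj hz g
  have hss : (g * z * g⁻¹) * (g * z * g⁻¹) = 1 := Cfsg.Agent.Lib.Helper20.iso_sq hsiso
  have htt : (h * z * h⁻¹) * (h * z * h⁻¹) = 1 :=
    Cfsg.Agent.Lib.Helper20.iso_sq (Cfsg.Agent.Lib.Helper20.iso_conj hz h)
  have htconj : h * z * h⁻¹ = (h * g⁻¹) * (g * z * g⁻¹) * (h * g⁻¹)⁻¹ := by group
  generalize g * z * g⁻¹ = s at hm hss hsiso hne hc htconj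
  generalize h * z * h⁻¹ = t at htt hne hc htconj
  have hsi : s⁻¹ = s := inv_eq_of_mul_eq_one_left hss
  have hti : t⁻¹ = t := inv_eq_of_mul_eq_one_left htt
  have hxinv : (s * t)⁻¹ = t * s := by rw [mul_inv_rev, hsi, hti]
  -- s inverts x = s * t
  have hsx : s * (s * t) * s⁻¹ = (s * t)⁻¹ := by
    rw [hxinv, hsi, ← mul_assoc, hss, one_mul]
  have hzx : z * (s * t) * z⁻¹ = s * t := by
    rw [mul_inv_eq_iff_eq_mul]; exact hc.eq.symm
  have hzsx : (z * s) * (s * t) * (z * s)⁻¹ = (s * t)⁻¹ := by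
    calc (z * s) * (s * t) * (z * s)⁻¹ = z * (s * (s * t) * s⁻¹) * z⁻¹ := by group
      _ = z * (s * t)⁻¹ * z⁻¹ := by rw [hsx]
      _ = (z * (s * t) * z⁻¹)⁻¹ := by group
      _ = (s * t)⁻¹ := by rw [hzx]
  have hpow : ∀ k : ℕ, (z * s) ^ k * (s * t) * ((z * s) ^ k)⁻¹ = s * t ∨
      (z * s) ^ k * (s * t) * ((z * s) ^ k)⁻¹ = (s * t)⁻¹ := by
    intro k
    induction k with
    | zero => left; simp
    | succ k ih =>
      have e : (z * s) ^ (k + 1) * (s * t) * ((z * s) ^ (k + 1))⁻¹ =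
          ((z * s) ^ k * (s * t) * ((z * s) ^ k)⁻¹)⁻¹ := by
        calc (z * s) ^ (k + 1) * (s * t) * ((z * s) ^ (k + 1))⁻¹
            = (z * s) ^ k * ((z * s) * (s * t) * (z * s)⁻¹) * ((z * s) ^ k)⁻¹ := by
              rw [pow_succ]; group
          _ = (z * s) ^ k * (s * t)⁻¹ * ((z * s) ^ k)⁻¹ := by rw [hzsx]
          _ = _ := by group
      rcases ih with ih | ih
      · right; rw [e, ih]
      · left; rw [e, ih, inv_inv]
  have hxs : Commute (s * t) s := by
    have hpm := hpow m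
    generalize (z * s) ^ m = w at hm hpm
    have h1 : Commute (w * (s * t) * w⁻¹) (w * z * w⁻¹) := by
      unfold Commute SemiconjBy
      calc w * (s * t) * w⁻¹ * (w * z * w⁻¹) = w * ((s * t) * z) * w⁻¹ := by group
        _ = w * (z * (s * t)) * w⁻¹ := by rw [hc.eq]
        _ = _ := by group
    rw [hm] at h1
    rcases hpm with h2 | h2
    · rw [h2] at h1; exact h1
    · rw [h2] at h1; exact (Commute.inv_left_iff.mp h1)
  have hx2 : s * t = t * s := by
    have h3 : s * (s * t) * s⁻¹ = s * t := by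
      rw [mul_inv_eq_iff_eq_mul]; exact hxs.eq.symm
    rw [hsx, hxinv] at h3
    exact h3.symm
  have h4 := hsiso.2 (h * g⁻¹) (by rw [← htconj]; exact hx2)
  rw [← htconj] at h4
  exact hne h4.symm

end Cfsg.Agent.S1184
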