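import Cfsg.Statements.S1185
import Cfsg.Agent.Lib.Helper20.Isolated

set_option autoImplicit false
open Cfsg

namespace Cfsg.Agent.S1185

/-- Let z be an isolated involution of the finite group G with centralizer C. Then for every g ∈ G there is exactly one element k in the coset gC that has odd order and is inverted by z. -/
theorem result {G : Type*} [Group G] [Finite G] (z : G) (hz : Cfsg.IsIsolatedInvolution z) (g : G) : ∃! k : G, (Odd (orderOf k) ∧ z * k * z⁻¹ = k⁻¹) ∧ g⁻¹ * k ∈ Subgroup.centralizer ({z} : Set G) := by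
  obtain ⟨m, hm⟩ := Cfsg.Agent.Lib.Helper20.iso_odd hz g
  have hce := Cfsg.Agent.Lib.Helper20.iso_conj_elt_of hz g hm
  have hzz := Cfsg.Agent.Lib.Helper20.iso_sq hz
  have hzi := Cfsg.Agent.Lib.Helper20.iso_inv hz
  have huu : (g * z * g⁻¹) * (g * z * g⁻¹) = 1 :=
    Cfsg.Agent.Lib.Helper20.iso_sq (Cfsg.Agent.Lib.Helper20.iso_conj hz g)
  have hui : (g * z * g⁻¹)⁻¹ = g * z * g⁻¹ := inv_eq_of_mul_eq_one_left huu
  have hzr : z * (z * (g * z * g⁻¹)) * z⁻¹ = (z * (g * z * g⁻¹))⁻¹ := by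
    rw [mul_inv_rev, hzi, hui, ← mul_assoc, hzz, one_mul]
  have hodd : Odd (orderOf ((z * (g * z * g⁻¹)) ^ m)) := by
    have h1 : Odd (orderOf (z * (g * z * g⁻¹))) := ⟨m, hm⟩
    exact Odd.of_dvd_nat h1 (orderOf_pow_dvd m)
  have hinv : z * (z * (g * z * g⁻¹)) ^ m * z⁻¹ = ((z * (g * z * g⁻¹)) ^ m)⁻¹ := by
    rw [← conj_pow, hzr, inv_pow]
  generalize (z * (g * z * g⁻¹)) ^ m = k at hce hodd hinv
  -- general facts
  have key : ∀ k' : G, z * k' * z⁻¹ = k'⁻¹ → k' * z * k'⁻¹ = k' ^ 2 * z := by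
    intro k' hk'
    have := Cfsg.Agent.Lib.Helper20.inv_conj_pow hk' 1
    simpa using this
  have cent : ∀ k' : G, g⁻¹ * k' ∈ Subgroup.centralizer ({z} : Set G) ↔
      k' * z * k'⁻¹ = g * z * g⁻¹ := by
    intro k'
    rw [Subgroup.mem_centralizer_singleton_iff]
    constructor
    · intro h
      calc k' * z * k'⁻¹ = g * (g⁻¹ * k' * z) * k'⁻¹ := by group
        _ = g * (z * (g⁻¹ * k')) * k'⁻¹ := by rw [h]
        _ = _ := by group
    · intro h
      calc g⁻¹ * k' * z = g⁻¹ * (k' * z * k'⁻¹) * k' := by group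
        _ = g⁻¹ * (g * z * g⁻¹) * k' := by rw [h]
        _ = _ := by group
  refine ⟨k, ⟨⟨hodd, hinv⟩, (cent k).mpr hce⟩, ?_⟩
  rintro k' ⟨⟨hodd', hinv'⟩, hc'⟩
  have h1 := (cent k').mp hc'
  rw [key k' hinv'] at h1
  rw [key k hinv] at hce
  have h2 : k' ^ 2 = k ^ 2 := by
    have := h1.trans hce.symm
    exact mul_right_cancel this
  exact Cfsg.Agent.Lib.Helper20.odd_sq_inj hodd' hodd h2

end Cfsg.Agent.S1185
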