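import Cfsg.Statements.S1186
import Cfsg.Agent.Lib.Helper20.Isolated
import Cfsg.Agent.S1180
import Cfsg.Agent.S1184
import Cfsg.Agent.S1185

set_option autoImplicit false
open Cfsg

namespace Cfsg.Agent.S1186

open Cfsg.Agent.Lib.Helper20

section aux
variable {G : Type*} [Group G] [Finite G]

theorem card_K_eq (z : G) (hz : Cfsg.IsIsolatedInvolution z) (t : G) (ht : Commute t z) :
    Nat.card {k : G // Odd (orderOf k) ∧ z * k * z⁻¹ = k⁻¹ ∧ Commute k t} =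
      Nat.card {u : G // IsConj z u ∧ Commute u t} := by
  have key : ∀ k' : G, z * k' * z⁻¹ = k'⁻¹ → k' * z * k'⁻¹ = k' ^ 2 * z := by
    intro k' hk'
    have := inv_conj_pow hk' 1
    simpa using this
  have hzz := iso_sq hz
  have hzi := iso_inv hz
  refine Nat.card_congr (Equiv.ofBijective
    (fun k => ⟨k.1 * z * k.1⁻¹, isConj_iff.mpr ⟨k.1, rfl⟩,
      (k.2.2.2.mul_left ht.symm).mul_left k.2.2.2.inv_left⟩) ⟨?_, ?_⟩)
  · rintro ⟨k, hk1, hk2, hk3⟩ ⟨k', hk1', hk2', hk3'⟩ h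
    have h1 : k * z * k⁻¹ = k' * z * k'⁻¹ := congrArg Subtype.val h
    rw [key k hk2, key k' hk2'] at h1
    have h2 : k ^ 2 = k' ^ 2 := mul_right_cancel h1
    exact Subtype.ext (odd_sq_inj hk1 hk1' h2)
  · rintro ⟨u, hu, hut⟩
    obtain ⟨g, rfl⟩ := isConj_iff.mp hu
    obtain ⟨m, hm⟩ := iso_odd hz g
    have hce := iso_conj_elt_of hz g hm
    have huu : (g * z * g⁻¹) * (g * z * g⁻¹) = 1 := iso_sq (iso_conj hz g)
    have hui : (g * z * g⁻¹)⁻¹ = g * z * g⁻¹ := inv_eq_of_mul_eq_one_left huu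
    have hzr : z * (z * (g * z * g⁻¹)) * z⁻¹ = (z * (g * z * g⁻¹))⁻¹ := by
      rw [mul_inv_rev, hzi, hui, ← mul_assoc, hzz, one_mul]
    have hodd : Odd (orderOf ((z * (g * z * g⁻¹)) ^ m)) := by
      have h1 : Odd (orderOf (z * (g * z * g⁻¹))) := ⟨m, hm⟩
      exact Odd.of_dvd_nat h1 (orderOf_pow_dvd m)
    have hinv : z * (z * (g * z * g⁻¹)) ^ m * z⁻¹ = ((z * (g * z * g⁻¹)) ^ m)⁻¹ := by
      rw [← conj_pow, hzr, inv_pow]
    have hcomm : Commute ((z * (g * z * g⁻¹)) ^ m) t := (ht.symm.mul_left hut).pow_left m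
    exact ⟨⟨(z * (g * z * g⁻¹)) ^ m, hodd, hinv, hcomm⟩, Subtype.ext hce⟩

theorem card_G_eq (z : G) (hz : Cfsg.IsIsolatedInvolution z) :
    Nat.card G = Nat.card {k : G // Odd (orderOf k) ∧ z * k * z⁻¹ = k⁻¹ ∧ Commute k 1} *
      Nat.card (Subgroup.centralizer ({z} : Set G)) := by
  rw [← Nat.card_prod]
  symm
  refine Nat.card_congr (Equiv.ofBijective
    (fun p : {k : G // Odd (orderOf k) ∧ z * k * z⁻¹ = k⁻¹ ∧ Commute k 1} ×
      (Subgroup.centralizer ({z} : Set G)) => p.1.1 * (p.2.1)⁻¹) ⟨?_, ?_⟩)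
  · rintro ⟨⟨k, hk1, hk2, hk3⟩, ⟨c, hc⟩⟩ ⟨⟨k', hk1', hk2', hk3'⟩, ⟨c', hc'⟩⟩ h
    have h' : k * c⁻¹ = k' * c'⁻¹ := h
    obtain ⟨k0, -, huniq⟩ := Cfsg.Agent.S1185.result z hz (k * c⁻¹)
    have e1 : k = k0 := huniq k ⟨⟨hk1, hk2⟩, by
      have : (k * c⁻¹)⁻¹ * k = c := by group
      rw [this]; exact hc⟩
    have e2 : k' = k0 := huniq k' ⟨⟨hk1', hk2'⟩, by
      have : (k * c⁻¹)⁻¹ * k' = c' := by rw [h']; group
      rw [this]; exact hc'⟩
    have ek : k = k' := e1.trans e2.symm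
    subst ek
    have ec : c = c' := by
      have := mul_left_cancel h'
      exact inv_injective this
    subst ec
    rfl
  · intro g
    obtain ⟨k, ⟨⟨hk1, hk2⟩, hk3⟩, -⟩ := Cfsg.Agent.S1185.result z hz g
    refine ⟨(⟨k, hk1, hk2, Commute.one_right k⟩, ⟨g⁻¹ * k, hk3⟩), ?_⟩
    show k * (g⁻¹ * k)⁻¹ = g
    group

/-- existence of the midpoint -/
theorem exists_mid (z : G) (hz : Cfsg.IsIsolatedInvolution z) (s : G) (hss : s * s = 1)
    (u : G) (hu : IsConj z u) :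
    ∃ w : G, IsConj z w ∧ Commute w s ∧ Commute u (s * w) := by
  have hsi : s⁻¹ = s := inv_eq_of_mul_eq_one_left hss
  obtain ⟨g, rfl⟩ := isConj_iff.mp hu
  have huiso := iso_conj hz g
  generalize g * z * g⁻¹ = u at hu huiso
  have huu := iso_sq huiso
  have hui := iso_inv huiso
  -- u' = s u s⁻¹
  have hu'iso := iso_conj huiso s
  have hu'u' := iso_sq hu'iso
  have hu'i := iso_inv hu'iso
  have hodd := iso_odd hu'iso s⁻¹
  have e0 : s⁻¹ * (s * u * s⁻¹) * s⁻¹⁻¹ = u := by group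
  rw [e0] at hodd
  obtain ⟨j, hj⟩ := hodd
  have hsu' : s * (s * u * s⁻¹) * s⁻¹ = u := by
    rw [hsi]
    calc s * (s * u * s) * s = (s * s) * u * (s * s) := by group
      _ = u := by rw [hss]; group
  generalize hu' : s * u * s⁻¹ = u' at hu'iso hu'u' hu'i hj hsu'
  have hur : u * (u' * u) * u⁻¹ = (u' * u)⁻¹ := by
    rw [mul_inv_rev, hui, hu'i, mul_assoc, mul_assoc, huu, mul_one]
  have hsr : s * (u' * u) * s⁻¹ = (u' * u)⁻¹ := by
    rw [mul_inv_rev, hui, hu'i]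
    calc s * (u' * u) * s⁻¹ = (s * u' * s⁻¹) * (s * u * s⁻¹) := by group
      _ = u * u' := by rw [hsu', hu']
  have hru : (u' * u) * u = u' := by rw [mul_assoc, huu, mul_one]
  generalize hr : u' * u = r at hj hur hsr hru
  -- e = (j+1)^2, r^(4e) = r
  have h4e : r ^ (2 * ((j + 1) * (j + 1))) * r ^ (2 * ((j + 1) * (j + 1))) = r := by
    have e1 : 2 * ((j + 1) * (j + 1)) + 2 * ((j + 1) * (j + 1)) = orderOf r * (2 * j + 3) + 1 := by
      rw [hj]; ring
    rw [← pow_add, e1, pow_succ, pow_mul, pow_orderOf_eq_one, one_pow, one_mul]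
  have hw := inv_conj_pow hur ((j + 1) * (j + 1))
  have hsq : s * r ^ (2 * ((j + 1) * (j + 1))) * s⁻¹ = (r ^ (2 * ((j + 1) * (j + 1))))⁻¹ := by
    rw [← conj_pow, hsr, inv_pow]
  have huq : u * r ^ (2 * ((j + 1) * (j + 1))) * u⁻¹ = (r ^ (2 * ((j + 1) * (j + 1))))⁻¹ := by
    rw [← conj_pow, hur, inv_pow]
  have hsu : s * u * s⁻¹ = r * u := by rw [hu', hru]
  refine ⟨r ^ ((j + 1) * (j + 1)) * u * (r ^ ((j + 1) * (j + 1)))⁻¹,
    hu.trans (isConj_iff.mpr ⟨_, rfl⟩), ?_, ?_⟩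
  · rw [hw]
    generalize r ^ (2 * ((j + 1) * (j + 1))) = q at h4e hsq huq
    have h1 : s * (q * u) * s⁻¹ = q * u := by
      calc s * (q * u) * s⁻¹ = (s * q * s⁻¹) * (s * u * s⁻¹) := by group
        _ = q⁻¹ * (r * u) := by rw [hsq, hsu]
        _ = q⁻¹ * (q * q * u) := by rw [h4e]
        _ = q * u := by group
    unfold Commute SemiconjBy
    rw [mul_inv_eq_iff_eq_mul] at h1
    exact h1.symm
  · rw [hw]
    generalize r ^ (2 * ((j + 1) * (j + 1))) = q at h4e hsq huq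
    have huq' : u * q⁻¹ * u⁻¹ = q := by
      have := congrArg (fun w => w⁻¹) huq
      simp only [mul_inv_rev, inv_inv] at this
      rw [← mul_assoc] at this
      exact this
    have h1 : (q * u) * u * (q * u)⁻¹ = u' := by
      calc (q * u) * u * (q * u)⁻¹ = q * (u * q⁻¹ * u⁻¹) * u := by group
        _ = q * q * u := by rw [huq']
        _ = u' := by rw [h4e, hru]
    have h2 : (s * (q * u)) * u * (s * (q * u))⁻¹ = u := by
      calc (s * (q * u)) * u * (s * (q * u))⁻¹ = s * ((q * u) * u * (q * u)⁻¹) * s⁻¹ := by group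
        _ = u := by rw [h1, hsu']
    unfold Commute SemiconjBy
    rw [mul_inv_eq_iff_eq_mul] at h2
    exact h2.symm

/-- uniqueness of the midpoint -/
theorem mid_unique (z : G) (hz : Cfsg.IsIsolatedInvolution z) (s : G)
    (u w w' : G) (hu : IsConj z u) (hw : IsConj z w) (hw' : IsConj z w')
    (h : Commute u (s * w)) (h' : Commute u (s * w')) : w = w' := by
  by_contra hne
  obtain ⟨g, hg⟩ := isConj_iff.mp (hu.symm.trans hw)
  obtain ⟨g', hg'⟩ := isConj_iff.mp (hu.symm.trans hw')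
  obtain ⟨g0, hg0⟩ := isConj_iff.mp hu
  have huiso : Cfsg.IsIsolatedInvolution u := by rw [← hg0]; exact iso_conj hz g0
  have hwiso : Cfsg.IsIsolatedInvolution w := by rw [← hg]; exact iso_conj huiso g
  have hww := iso_sq hwiso
  have hwi := iso_inv hwiso
  have h1 := Cfsg.Agent.S1184.result u huiso g g' (by rw [hg, hg']; exact hne)
  rw [hg, hg'] at h1
  apply h1
  -- w * w' = (s w)⁻¹ (s w')
  have e : w * w' = (s * w)⁻¹ * (s * w') := by
    rw [mul_inv_rev, hwi]; group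
  rw [e]
  exact (h.symm.inv_left.mul_left h'.symm)

theorem comm_conj {h u t : G} (hc : Commute u (h * t * h⁻¹)) : Commute (h⁻¹ * u * h) t := by
  unfold Commute SemiconjBy at hc ⊢
  calc h⁻¹ * u * h * t = h⁻¹ * (u * (h * t * h⁻¹)) * h := by group
    _ = h⁻¹ * ((h * t * h⁻¹) * u) * h := by rw [hc]
    _ = t * (h⁻¹ * u * h) := by group

theorem comm_conj' {h v t : G} (hc : Commute v t) : Commute (h * v * h⁻¹) (h * t * h⁻¹) := by
  unfold Commute SemiconjBy at hc ⊢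
  calc h * v * h⁻¹ * (h * t * h⁻¹) = h * (v * t) * h⁻¹ := by group
    _ = h * (t * v) * h⁻¹ := by rw [hc]
    _ = h * t * h⁻¹ * (h * v * h⁻¹) := by group

theorem card_omega (z : G) (hz : Cfsg.IsIsolatedInvolution z) (s : G) (hss : s * s = 1)
    (hsz : Commute s z) :
    Nat.card {u : G // IsConj z u ∧ Commute u 1} =
      Nat.card {u : G // IsConj z u ∧ Commute u s} *
        Nat.card {u : G // IsConj z u ∧ Commute u (s * z)} := by
  have hA : Nat.card {p : G × G // (IsConj z p.1 ∧ Commute p.1 s) ∧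
      (IsConj z p.2 ∧ Commute p.2 (s * p.1))} = Nat.card {u : G // IsConj z u ∧ Commute u 1} := by
    refine Nat.card_congr (Equiv.ofBijective
      (fun p => ⟨p.1.2, p.2.2.1, Commute.one_right _⟩) ⟨?_, ?_⟩)
    · rintro ⟨⟨w, u⟩, ⟨hw, hws⟩, ⟨hu, huw⟩⟩ ⟨⟨w', u'⟩, ⟨hw', hws'⟩, ⟨hu', huw'⟩⟩ h
      have hu_eq : u = u' := congrArg Subtype.val h
      subst hu_eq
      have hw_eq := mid_unique z hz s u w w' hu hw hw' huw huw'
      subst hw_eq
      rfl
    · rintro ⟨u, hu, -⟩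
      obtain ⟨w, hw, hws, huw⟩ := exists_mid z hz s hss u hu
      exact ⟨⟨(w, u), ⟨hw, hws⟩, ⟨hu, huw⟩⟩, rfl⟩
  have ex : ∀ w : {u : G // IsConj z u ∧ Commute u s}, ∃ h : G, Commute h s ∧ h * z * h⁻¹ = w.1 := by
    rintro ⟨w, hw, hws⟩
    obtain ⟨g, rfl⟩ := isConj_iff.mp hw
    have hzH : z ∈ Subgroup.centralizer ({s} : Set G) :=
      Subgroup.mem_centralizer_singleton_iff.mpr hsz.symm.eq
    have hgH : g * z * g⁻¹ ∈ Subgroup.centralizer ({s} : Set G) :=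
      Subgroup.mem_centralizer_singleton_iff.mpr hws.eq
    obtain ⟨h, hh, hhe⟩ := Cfsg.Agent.S1180.result z hz _ hzH g hgH
    exact ⟨h, Subgroup.mem_centralizer_singleton_iff.mp hh, hhe⟩
  choose hf hfs hfc using ex
  have hsw : ∀ w : {u : G // IsConj z u ∧ Commute u s}, s * w.1 = hf w * (s * z) * (hf w)⁻¹ := by
    intro w
    rw [← hfc w]
    have := (hfs w).eq
    calc s * (hf w * z * (hf w)⁻¹) = (s * hf w) * z * (hf w)⁻¹ := by group
      _ = (hf w * s) * z * (hf w)⁻¹ := by rw [this]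
      _ = _ := by group
  have hB : Nat.card {p : G × G // (IsConj z p.1 ∧ Commute p.1 s) ∧
      (IsConj z p.2 ∧ Commute p.2 (s * p.1))} =
      Nat.card ({u : G // IsConj z u ∧ Commute u s} × {u : G // IsConj z u ∧ Commute u (s * z)}) := by
    refine Nat.card_congr (Equiv.ofBijective
      (fun p => (⟨p.1.1, p.2.1⟩, ⟨(hf ⟨p.1.1, p.2.1⟩)⁻¹ * p.1.2 * (hf ⟨p.1.1, p.2.1⟩),
        p.2.2.1.trans (isConj_iff.mpr ⟨(hf ⟨p.1.1, p.2.1⟩)⁻¹, by rw [inv_inv]⟩),
        comm_conj (by rw [← hsw ⟨p.1.1, p.2.1⟩]; exact p.2.2.2)⟩)) ⟨?_, ?_⟩)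
    · rintro ⟨⟨w, u⟩, ⟨hw, hws⟩, ⟨hu, huw⟩⟩ ⟨⟨w', u'⟩, ⟨hw', hws'⟩, ⟨hu', huw'⟩⟩ h
      have h1 := congrArg (fun q => q.1.1) h
      have h2 := congrArg (fun q => q.2.1) h
      simp only at h1 h2
      subst h1
      have h3 : u = u' := by
        have := mul_left_cancel (mul_right_cancel h2)
        exact this
      subst h3
      rfl
    · rintro ⟨w, ⟨v, hv, hvc⟩⟩
      refine ⟨⟨(w.1, hf w * v * (hf w)⁻¹), ⟨w.2.1, w.2.2⟩,
        ⟨hv.trans (isConj_iff.mpr ⟨hf w, rfl⟩), ?_⟩⟩, ?_⟩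
      · rw [hsw w]; exact comm_conj' hvc
      · apply Prod.ext
        · rfl
        · apply Subtype.ext
          show (hf ⟨w.1, w.2.1, w.2.2⟩)⁻¹ * (hf w * v * (hf w)⁻¹) * (hf ⟨w.1, w.2.1, w.2.2⟩) = v
          group
  rw [← hA, hB, Nat.card_prod]

end aux

/-- Let z be an isolated involution of the finite group G, C = C_G(z), K the set of elements of odd order inverted by z, and s an involution of C. Then |G| = |C| · |C_K(sz)| · |C_K(s)|. -/
theorem result {G : Type*} [Group G] [Finite G] (z : G) (hz : Cfsg.IsIsolatedInvolution z) (s : G) (hs : orderOf s = 2) (hsz : Commute s z) : Nat.card G = Nat.card (Subgroup.centralizer ({z} : Set G)) * Nat.card {k : G // Odd (orderOf k) ∧ z * k * z⁻¹ = k⁻¹ ∧ Commute k (s * z)} * Nat.card {k : G // Odd (orderOf k) ∧ z * k * z⁻¹ = k⁻¹ ∧ Commute k s} := by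
  have hss : s * s = 1 := by
    have := pow_orderOf_eq_one s
    rwa [hs, pow_two] at this
  rw [card_G_eq z hz, card_K_eq z hz 1 (Commute.one_left z),
    card_K_eq z hz (s * z) (hsz.mul_left (Commute.refl z)), card_K_eq z hz s hsz,
    card_omega z hz s hss hsz]
  ring

end Cfsg.Agent.S1186
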