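import Cfsg.Statements.S1226
import Mathlib
import Cfsg.Agent.Lib.Helper49.StrEmb
import Cfsg.Agent.Lib.Helper49.SE2

set_option autoImplicit false
open Cfsg

namespace Cfsg.Agent.S1226

open Cfsg.Agent.Lib.Helper49 Cfsg.Agent.Lib.Helper4

/-- Under the hypotheses of S1226, the Sylow 2-subgroup is nontrivial and is the centralizer of each of its
involutions. -/
theorem sylow_eq_centralizer {G : Type*} [Group G] [Finite G] (T : Sylow 2 G)
    (hnc : ¬ IsCyclic (T : Subgroup G))
    (hC : ∀ t : G, orderOf t = 2 → IsMulCommutative (Subgroup.centralizer ({t} : Set G)) ∧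
      ∀ c ∈ Subgroup.centralizer ({t} : Set G), c ^ 2 = 1) :
    (T : Subgroup G) ≠ ⊥ ∧
      ∀ t ∈ (T : Subgroup G), orderOf t = 2 → Subgroup.centralizer ({t} : Set G) = (T : Subgroup G) := by
  classical
  have : Fact (Nat.Prime 2) := ⟨Nat.prime_two⟩
  have hT1 : (T : Subgroup G) ≠ ⊥ := by
    intro h
    apply hnc
    have : Subsingleton ↥(T : Subgroup G) := by rw [h]; infer_instance
    exact isCyclic_of_subsingleton
  have hcp : ∀ t : G, orderOf t = 2 → IsPGroup 2 ↥(Subgroup.centralizer ({t} : Set G)) := by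
    intro t ht c
    refine ⟨1, ?_⟩
    apply Subtype.ext
    have := (hC t ht).2 c.1 c.2
    simpa using this
  -- a central involution of T
  have hnt : Nontrivial ↥(T : Subgroup G) := (Subgroup.nontrivial_iff_ne_bot _).mpr hT1
  have hcen : Subgroup.center ↥(T : Subgroup G) ≠ ⊥ := (T.isPGroup'.bot_lt_center).ne'
  obtain ⟨z', hz'c, hz'⟩ := exists_involution_of_ne_bot
    (T.isPGroup'.to_subgroup (Subgroup.center ↥(T : Subgroup G))) hcen
  have hz : orderOf (z' : G) = 2 := by rw [Subgroup.orderOf_coe]; exact hz'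
  have hTz : (T : Subgroup G) ≤ Subgroup.centralizer ({(z' : G)} : Set G) := by
    intro s hs
    rw [Subgroup.mem_centralizer_singleton_iff]
    have := Subgroup.mem_center_iff.mp hz'c ⟨s, hs⟩
    have h2 := congrArg (fun a : ↥(T : Subgroup G) => (a : G)) this
    simpa using h2
  have hTeq : Subgroup.centralizer ({(z' : G)} : Set G) = (T : Subgroup G) :=
    T.is_maximal' (hcp _ hz) hTz
  have hcomm : ∀ a ∈ (T : Subgroup G), ∀ b ∈ (T : Subgroup G), a * b = b * a := by
    intro a ha b hb
    have hc := (hC _ hz).1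
    rw [← hTeq] at ha hb
    have := hc.is_comm.comm (⟨a, ha⟩ : ↥(Subgroup.centralizer ({(z' : G)} : Set G))) ⟨b, hb⟩
    have h2 := congrArg (fun a : ↥(Subgroup.centralizer ({(z' : G)} : Set G)) => (a : G)) this
    simpa using h2
  refine ⟨hT1, ?_⟩
  intro t htT ht
  apply T.is_maximal' (hcp t ht)
  intro s hs
  rw [Subgroup.mem_centralizer_singleton_iff]
  exact hcomm s hs t htT


/-- Let G be a finite group with a Sylow 2-subgroup T that is neither cyclic nor normal, such that the centralizer of every involution is an elementary abelian 2-group. Then N_G(T) is a strongly embedded subgroup of G. -/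
theorem result {G : Type*} [Group G] [Finite G] (T : Sylow 2 G) (hnc : ¬ IsCyclic (T : Subgroup G)) (hnn : ¬ (T : Subgroup G).Normal) (hC : ∀ t : G, orderOf t = 2 → IsMulCommutative (Subgroup.centralizer ({t} : Set G)) ∧ ∀ c ∈ Subgroup.centralizer ({t} : Set G), c ^ 2 = 1) : Cfsg.IsStronglyEmbedded (Subgroup.normalizer ((T : Subgroup G) : Set G)) := by
  classical
  have : Fact (Nat.Prime 2) := ⟨Nat.prime_two⟩
  obtain ⟨hT1, hcent⟩ := sylow_eq_centralizer T hnc hC
  have hTN : (T : Subgroup G) ≤ Subgroup.normalizer ((T : Subgroup G) : Set G) :=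
    Subgroup.le_normalizer
  apply stronglyEmbedded_of_normalizers
  · intro h
    exact hnn (Subgroup.normalizer_eq_top_iff.mp h)
  · rcases T.isPGroup'.card_eq_or_dvd with h1 | h2
    · exact absurd (Subgroup.card_eq_one.mp h1) hT1
    · rw [even_iff_two_dvd]
      exact dvd_trans h2 (Subgroup.card_dvd_of_le hTN)
  · intro P hPN hP hP1 g hg
    have hPT : P ≤ (T : Subgroup G) := le_sylow_of_le_normalizer T hP hPN
    obtain ⟨t, htP, ht⟩ := exists_involution_of_ne_bot hP hP1
    have ht' : orderOf (g * t * g⁻¹) = 2 := by rw [orderOf_conj', ht]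
    have hgt : g * t * g⁻¹ ∈ P := by
      rw [Subgroup.mem_normalizer_iff] at hg
      exact (hg t).mp htP
    have hc1 := hcent t (hPT htP) ht
    have hc2 := hcent _ (hPT hgt) ht'
    rw [Subgroup.mem_normalizer_iff]
    intro s
    have e1 : s ∈ (T : Subgroup G) ↔ s ∈ Subgroup.centralizer ({t} : Set G) := by rw [hc1]
    have e2 : g * s * g⁻¹ ∈ (T : Subgroup G) ↔
        g * s * g⁻¹ ∈ Subgroup.centralizer ({g * t * g⁻¹} : Set G) := by rw [hc2]
    rw [e1, e2, Subgroup.mem_centralizer_singleton_iff, Subgroup.mem_centralizer_singleton_iff]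
    constructor
    · intro h
      calc g * s * g⁻¹ * (g * t * g⁻¹) = g * (s * t) * g⁻¹ := by group
        _ = g * (t * s) * g⁻¹ := by rw [h]
        _ = g * t * g⁻¹ * (g * s * g⁻¹) := by group
    · intro h
      have h2 : g * (s * t) * g⁻¹ = g * (t * s) * g⁻¹ := by
        calc g * (s * t) * g⁻¹ = g * s * g⁻¹ * (g * t * g⁻¹) := by group
          _ = g * t * g⁻¹ * (g * s * g⁻¹) := h
          _ = g * (t * s) * g⁻¹ := by group
      exact mul_left_cancel (mul_right_cancel h2)

end Cfsg.Agent.S1226
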