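import Mathlib
import Cfsg.Statements.S1231
import Cfsg.Agent.Lib.Helper46.Amalgam2
import Cfsg.Agent.Lib.Helper50.PGroupAux

set_option autoImplicit false
open Cfsg

namespace Cfsg.Agent.S1231

open Cfsg.Agent.Lib.Helper46 Cfsg.Agent.Lib.Helper50

theorem pRankLE_of_injective {p m : ℕ} {G₁ G₂ : Type*} [Group G₁] [Group G₂] (f : G₂ →* G₁)
    (hf : Function.Injective f) (h : PRankLE p m G₁) : PRankLE p m G₂ := by
  intro A hAc hAp
  have hc : IsMulCommutative (A.map f) := by
    refine ⟨⟨?_⟩⟩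
    rintro ⟨_, a, ha, rfl⟩ ⟨_, b, hb, rfl⟩
    apply Subtype.ext
    have := hAc.is_comm.comm (⟨a, ha⟩ : A) ⟨b, hb⟩
    have h2 : a * b = b * a := congrArg Subtype.val this
    change f a * f b = f b * f a
    rw [← map_mul, ← map_mul, h2]
  have := h (A.map f) hc (by
    rintro _ ⟨a, ha, rfl⟩
    rw [← map_pow, hAp a ha, map_one])
  rwa [Subgroup.card_map_of_injective hf] at this

theorem pRankLE_mono {p m : ℕ} {G : Type*} [Group G] {X Y : Subgroup G} (hXY : X ≤ Y)
    (h : PRankLE p m ↥Y) : PRankLE p m ↥X :=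
  pRankLE_of_injective (Subgroup.inclusion hXY) (Subgroup.inclusion_injective hXY) h

theorem pRankLE_map_iff {p m : ℕ} {G : Type*} [Group G] (X : Subgroup G) (φ : G ≃* G) :
    PRankLE p m ↥(X.map φ.toMonoidHom) ↔ PRankLE p m ↥X := by
  constructor
  · exact pRankLE_of_injective (X.equivMapOfInjective φ.toMonoidHom φ.injective).toMonoidHom
      (MulEquiv.injective _)
  · exact pRankLE_of_injective (X.equivMapOfInjective φ.toMonoidHom φ.injective).symm.toMonoidHom
      (MulEquiv.injective _)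

theorem not_pRankLE_of_witness {p m : ℕ} {G : Type*} [Group G] (A : Subgroup G)
    (hAc : IsMulCommutative A) (hAp : ∀ a ∈ A, a ^ p = 1) (hcard : p ^ m < Nat.card A) :
    ¬ PRankLE p m ↥A := by
  intro h
  have hc : IsMulCommutative (⊤ : Subgroup ↥A) :=
    ⟨⟨fun a b => Subtype.ext (hAc.is_comm.comm a.1 b.1)⟩⟩
  have := h ⊤ hc (fun a _ => Subtype.ext (by simpa using hAp a.1 a.2))
  rw [Subgroup.card_top] at this
  omega

theorem normalizer_le {G : Type*} [Group G] [Finite G] {p : ℕ} [Fact p.Prime] (k : ℕ)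
    (H : Subgroup G) (P : Sylow p ↥H)
    (hL : ∀ X : Subgroup G, X ≤ (P : Subgroup ↥H).map H.subtype → ¬ PRankLE p (k - 1) ↥X →
      Subgroup.normalizer (X : Set G) ≤ H)
    (X : Subgroup G) (hXH : X ≤ H) (hXp : IsPGroup p X) (hXr : ¬ PRankLE p (k - 1) ↥X) :
    Subgroup.normalizer (X : Set G) ≤ H := by
  obtain ⟨Q, hQ⟩ := (hXp.comap_subtype (K := H)).exists_le_sylow
  obtain ⟨h, hh, hPQ⟩ := (isSylowIn_of_sylow Q).exists_conj (isSylowIn_of_sylow P)
  have hXQ : X ≤ (Q : Subgroup ↥H).map H.subtype := by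
    intro x hx
    exact ⟨⟨x, hXH hx⟩, hQ (Subgroup.mem_comap.2 hx), rfl⟩
  have hXP : X.map (MulAut.conj h).toMonoidHom ≤ (P : Subgroup ↥H).map H.subtype := by
    rw [hPQ]
    exact Subgroup.map_mono hXQ
  have hN := hL _ hXP ((pRankLE_map_iff X (MulAut.conj h)).not.2 hXr)
  intro n hn
  have h1 : (MulAut.conj h).toMonoidHom n ∈
      Subgroup.normalizer ((X.map (MulAut.conj h).toMonoidHom : Subgroup G) : Set G) :=
    Subgroup.le_normalizer_map _ (Subgroup.mem_map_of_mem _ hn)
  have h2 : h * n * h⁻¹ ∈ H := by simpa using hN h1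
  have h3 : h⁻¹ * (h * n * h⁻¹) * h ∈ H := H.mul_mem (H.mul_mem (H.inv_mem hh) h2) hh
  simpa [mul_assoc] using h3

theorem isSylowIn_of_normalizer_le {G : Type*} [Group G] [Finite G] {p : ℕ} [Fact p.Prime]
    (D K : Subgroup G) (hDK : D ≤ K) (R : Sylow p ↥D)
    (hN : Subgroup.normalizer (((R : Subgroup ↥D).map D.subtype : Subgroup G) : Set G) ≤ D) :
    IsSylowIn p ((R : Subgroup ↥D).map D.subtype) K := by
  have hR₁p : IsPGroup p ((R : Subgroup ↥D).map D.subtype) := R.isPGroup'.map _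
  have hR₁K : (R : Subgroup ↥D).map D.subtype ≤ K := (Subgroup.map_subtype_le _).trans hDK
  obtain ⟨Q, hQ⟩ := (hR₁p.comap_subtype (K := K)).exists_le_sylow
  have hR₁Q : (R : Subgroup ↥D).map D.subtype ≤ (Q : Subgroup ↥K).map K.subtype := by
    intro x hx
    exact ⟨⟨x, hR₁K hx⟩, hQ (Subgroup.mem_comap.2 hx), rfl⟩
  have hQp : IsPGroup p ((Q : Subgroup ↥K).map K.subtype) := Q.isPGroup'.map _
  have hle : (Q : Subgroup ↥K).map K.subtype ≤ (R : Subgroup ↥D).map D.subtype := by
    apply le_of_isPGroup_of_inf_normalizer _ _ hQp hR₁Q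
    apply le_antisymm
    · intro x hx
      have hxD : x ∈ D := hN (Subgroup.mem_inf.1 hx).2
      have hTp : IsPGroup p (((Q : Subgroup ↥K).map K.subtype ⊓
          Subgroup.normalizer (((R : Subgroup ↥D).map D.subtype : Subgroup G) : Set G)).subgroupOf D) :=
        (hQp.to_inf_left).comap_subtype
      have hRT : (R : Subgroup ↥D) ≤ ((Q : Subgroup ↥K).map K.subtype ⊓
          Subgroup.normalizer (((R : Subgroup ↥D).map D.subtype : Subgroup G) : Set G)).subgroupOf D := by
        intro r hr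
        rw [Subgroup.mem_subgroupOf]
        have hr1 : (r : G) ∈ (R : Subgroup ↥D).map D.subtype := ⟨r, hr, rfl⟩
        exact Subgroup.mem_inf.2 ⟨hR₁Q hr1, Subgroup.le_normalizer hr1⟩
      have hT := R.is_maximal' hTp hRT
      have hxR : (⟨x, hxD⟩ : D) ∈ (R : Subgroup ↥D) := by
        rw [← hT, Subgroup.mem_subgroupOf]
        exact hx
      exact ⟨⟨x, hxD⟩, hxR, rfl⟩
    · exact le_inf hR₁Q Subgroup.le_normalizer
  have heq : (Q : Subgroup ↥K).map K.subtype = (R : Subgroup ↥D).map D.subtype :=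
    le_antisymm hle hR₁Q
  rw [← heq]
  exact isSylowIn_of_sylow Q

/-- Let H be a subgroup of the finite group G, p a prime, k ≥ 1, and P a Sylow p-subgroup of H whose p-rank is at least k. Then N_G(X) ≤ H for every subgroup X of P of p-rank at least k if and only if H ∩ gHg⁻¹ has p-rank less than k for every g ∉ H. -/
theorem result {G : Type*} [Group G] [Finite G] {p : ℕ} [Fact p.Prime] (k : ℕ) (hk : 1 ≤ k) (H : Subgroup G) (P : Sylow p ↥H) (hP : ¬ Cfsg.PRankLE p (k - 1) ↥(P : Subgroup ↥H)) : (∀ X : Subgroup G, X ≤ (P : Subgroup ↥H).map H.subtype → ¬ Cfsg.PRankLE p (k - 1) ↥X → Subgroup.normalizer (X : Set G) ≤ H) ↔ (∀ g : G, g ∉ H → Cfsg.PRankLE p (k - 1) ↥(H ⊓ H.map (MulAut.conj g).toMonoidHom)) := by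
  constructor
  · intro hL g hg
    by_contra hr
    obtain ⟨D, hD⟩ : ∃ D : Subgroup G, D = H ⊓ H.map (MulAut.conj g).toMonoidHom := ⟨_, rfl⟩
    rw [← hD] at hr
    have hDH : D ≤ H := hD ▸ inf_le_left
    have hDHg : D ≤ H.map (MulAut.conj g).toMonoidHom := hD ▸ inf_le_right
    unfold PRankLE at hr
    push Not at hr
    obtain ⟨A, hAc, hAp, hAcard⟩ := hr
    have hApg : IsPGroup p A := by
      rintro ⟨a, ha⟩
      exact ⟨1, Subtype.ext (by simpa using hAp a ha)⟩
    obtain ⟨R, hAR⟩ := hApg.exists_le_sylow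
    have hnA : ¬ PRankLE p (k - 1) ↥A := not_pRankLE_of_witness A hAc hAp hAcard
    have hnR : ¬ PRankLE p (k - 1) ↥(R : Subgroup ↥D) := fun h => hnA (pRankLE_mono hAR h)
    have hnR₁ : ¬ PRankLE p (k - 1) ↥((R : Subgroup ↥D).map D.subtype) := by
      intro h
      apply hnR
      exact pRankLE_of_injective
        ((R : Subgroup ↥D).equivMapOfInjective D.subtype D.subtype_injective).toMonoidHom
        (MulEquiv.injective _) h
    have hR₁p : IsPGroup p ((R : Subgroup ↥D).map D.subtype) := R.isPGroup'.map _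
    have hR₁D : (R : Subgroup ↥D).map D.subtype ≤ D := Subgroup.map_subtype_le _
    have hN1 : Subgroup.normalizer (((R : Subgroup ↥D).map D.subtype : Subgroup G) : Set G) ≤ H :=
      normalizer_le k H P hL _ (hR₁D.trans hDH) hR₁p hnR₁
    have hN2 : Subgroup.normalizer (((R : Subgroup ↥D).map D.subtype : Subgroup G) : Set G) ≤
        H.map (MulAut.conj g).toMonoidHom := by
      have hle : ((R : Subgroup ↥D).map D.subtype).map (MulAut.conj g⁻¹).toMonoidHom ≤ H := by
        have := Subgroup.map_mono (f := (MulAut.conj g⁻¹).toMonoidHom) (hR₁D.trans hDHg)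
        rwa [map_conj_inv_map_conj] at this
      have hN := normalizer_le k H P hL _ hle (hR₁p.map _)
        ((pRankLE_map_iff _ (MulAut.conj g⁻¹)).not.2 hnR₁)
      intro n hn
      have h1 : (MulAut.conj g⁻¹).toMonoidHom n ∈ Subgroup.normalizer
          ((((R : Subgroup ↥D).map D.subtype).map (MulAut.conj g⁻¹).toMonoidHom : Subgroup G) : Set G) :=
        Subgroup.le_normalizer_map _ (Subgroup.mem_map_of_mem _ hn)
      have h2 := hN h1
      refine ⟨(MulAut.conj g⁻¹).toMonoidHom n, h2, ?_⟩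
      simp [mul_assoc]
    have hND : Subgroup.normalizer (((R : Subgroup ↥D).map D.subtype : Subgroup G) : Set G) ≤ D := by
      exact (le_inf hN1 hN2).trans (le_of_eq hD.symm)
    have hS1 : IsSylowIn p ((R : Subgroup ↥D).map D.subtype) H :=
      isSylowIn_of_normalizer_le D H hDH R hND
    have hS2 : IsSylowIn p ((R : Subgroup ↥D).map D.subtype) (H.map (MulAut.conj g).toMonoidHom) :=
      isSylowIn_of_normalizer_le D _ hDHg R hND
    have hS3 : IsSylowIn p (((R : Subgroup ↥D).map D.subtype).map (MulAut.conj g⁻¹).toMonoidHom) H := by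
      have := hS2.map (MulAut.conj g⁻¹)
      rwa [map_conj_inv_map_conj] at this
    obtain ⟨h, hh, hconj⟩ := hS1.exists_conj hS3
    have hgh : g * h ∈ Subgroup.normalizer (((R : Subgroup ↥D).map D.subtype : Subgroup G) : Set G) := by
      rw [Subgroup.mem_normalizer_iff_map_conj_eq]
      have := map_conj_mul g h ((R : Subgroup ↥D).map D.subtype)
      rw [← hconj, map_conj_map_conj_inv] at this
      exact this
    apply hg
    have := H.mul_mem (hN1 hgh) (H.inv_mem hh)
    simpa using this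
  · intro hR X hXP hXr n hn
    by_contra hnH
    apply hXr
    apply pRankLE_mono _ (hR n hnH)
    have hXH : X ≤ H := hXP.trans (Subgroup.map_subtype_le _)
    refine le_inf hXH ?_
    have : X.map (MulAut.conj n).toMonoidHom = X := map_conj_eq_of_mem_normalizer hn
    rw [← this]
    exact Subgroup.map_mono hXH

end Cfsg.Agent.S1231
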