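import Mathlib
import Cfsg.Statements.S1236

set_option autoImplicit false
open Cfsg

namespace Cfsg.Agent.S1236

section general

variable {D : Type*} [Group D]

/-- In a group with a cyclic subgroup `⟨x⟩` of index two on which the elements outside act with
only fixed points of exponent two, every elementary abelian subgroup of order four is
self-centralizing. -/
theorem self_centralizing [Finite D] (x y : D) (hcard : Nat.card D = 2 * orderOf x)
    (hy : y ∉ Subgroup.zpowers x)
    (hfix : ∀ c ∈ Subgroup.zpowers x, y * c * y⁻¹ = c → c ^ 2 = 1)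
    (V : Subgroup D) (hVc : IsMulCommutative V) (hV2 : ∀ v ∈ V, v ^ 2 = 1)
    (hV4 : Nat.card V = 4) :
    Subgroup.centralizer (V : Set D) = V := by
  classical
  obtain ⟨C, hCdef⟩ : ∃ C : Subgroup D, C = Subgroup.zpowers x := ⟨_, rfl⟩
  rw [← hCdef] at hy hfix
  have hCcard : Nat.card C = orderOf x := by rw [hCdef]; exact Nat.card_zpowers x
  have hx0 : 0 < orderOf x := orderOf_pos x
  have hidx : C.index = 2 := by
    have := Subgroup.card_mul_index C
    rw [hCcard, hcard] at this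
    have h' : orderOf x * C.index = orderOf x * 2 := by rw [this, mul_comm]
    exact Nat.eq_of_mul_eq_mul_left hx0 h'
  have hCn : C.Normal := Subgroup.normal_of_index_eq_two hidx
  have hCcyc : IsCyclic C := by rw [hCdef]; infer_instance
  have hsq : ∀ (K : Subgroup D), K ≤ C → (∀ k ∈ K, k ^ 2 = 1) → Nat.card K ≤ 2 := by
    intro K hK hK2
    have hKc : IsCyclic K := by
      have : IsCyclic (K.subgroupOf C) := inferInstance
      exact isCyclic_of_surjective (Subgroup.subgroupOfEquivOfLe hK).toMonoidHom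
        (Subgroup.subgroupOfEquivOfLe hK).surjective
    have := Fintype.ofFinite K
    have h := IsCyclic.card_pow_eq_one_le (α := K) (n := 2) (by norm_num)
    have h2 : (Finset.univ.filter (fun a : K => a ^ 2 = 1)) = Finset.univ := by
      ext a
      simp only [Finset.mem_filter, Finset.mem_univ, true_and, iff_true]
      exact Subtype.ext (hK2 a a.2)
    rw [h2, Finset.card_univ] at h
    rw [Nat.card_eq_fintype_card]; exact h
  have hex : ∃ v ∈ V, v ∉ C := by
    by_contra hcon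
    push Not at hcon
    have := hsq V hcon hV2
    omega
  obtain ⟨v, hvV, hvC⟩ := hex
  have hvy : v * y⁻¹ ∈ C := by
    rw [Subgroup.mul_mem_iff_of_index_two hidx, Subgroup.inv_mem_iff]
    simp [hvC, hy]
  obtain ⟨Z, hZ⟩ : ∃ Z : Subgroup D, Z = Subgroup.centralizer (V : Set D) := ⟨_, rfl⟩
  rw [← hZ]
  have hZC : Nat.card (Z ⊓ C : Subgroup D) ≤ 2 := by
    apply hsq _ inf_le_right
    intro k hk
    have hkZ : k ∈ Z := hk.1
    have hkC : k ∈ C := hk.2
    rw [hZ] at hkZ
    have h1 : v * k = k * v := Subgroup.mem_centralizer_iff.mp hkZ v hvV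
    apply hfix k hkC
    obtain ⟨c0, hc0⟩ : ∃ c0, c0 = v * y⁻¹ := ⟨_, rfl⟩
    have hc0C : c0 ∈ C := hc0 ▸ hvy
    have hy' : y = c0⁻¹ * v := by rw [hc0]; group
    have hcomm : c0 * k = k * c0 := by
      rw [hCdef] at hc0C hkC
      obtain ⟨i, hi⟩ := Subgroup.mem_zpowers_iff.mp hc0C
      obtain ⟨j, hj⟩ := Subgroup.mem_zpowers_iff.mp hkC
      rw [← hi, ← hj, ← zpow_add, ← zpow_add, add_comm]
    rw [hy']
    calc c0⁻¹ * v * k * (c0⁻¹ * v)⁻¹ = c0⁻¹ * (v * k) * v⁻¹ * c0 := by group
      _ = c0⁻¹ * (k * v) * v⁻¹ * c0 := by rw [h1]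
      _ = c0⁻¹ * (k * c0) := by group
      _ = c0⁻¹ * (c0 * k) := by rw [hcomm]
      _ = k := by group
  have hZle : Nat.card Z ≤ 4 := by
    have h1 : (Z ⊓ C).relIndex Z ≤ 2 := by
      rw [Subgroup.inf_relIndex_left]
      have := Subgroup.relIndex_dvd_index_of_normal C Z
      rw [hidx] at this
      exact Nat.le_of_dvd (by norm_num) this
    have h2 := Subgroup.card_mul_index ((Z ⊓ C).subgroupOf Z)
    have h3 : Nat.card ((Z ⊓ C).subgroupOf Z) = Nat.card (Z ⊓ C : Subgroup D) :=
      Nat.card_congr (Subgroup.subgroupOfEquivOfLe inf_le_left).toEquiv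
    rw [h3] at h2
    have h4 : ((Z ⊓ C).subgroupOf Z).index ≤ 2 := h1
    calc Nat.card Z = Nat.card (Z ⊓ C : Subgroup D) * ((Z ⊓ C).subgroupOf Z).index := h2.symm
      _ ≤ 2 * 2 := Nat.mul_le_mul hZC h4
      _ = 4 := by norm_num
  have hVZ : V ≤ Z := by
    intro a ha
    rw [hZ, Subgroup.mem_centralizer_iff]
    intro b hb
    exact setLike_mul_comm hb ha
  exact (Subgroup.eq_of_le_of_card_ge hVZ (by omega)).symm

theorem dihedral_case [Finite D] (m : ℕ) (hm : 2 ≤ m) (e : D ≃* DihedralGroup m)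
    (V : Subgroup D) (hVc : IsMulCommutative V) (hV2 : ∀ v ∈ V, v ^ 2 = 1)
    (hV4 : Nat.card V = 4) :
    Subgroup.centralizer (V : Set D) = V := by
  have : NeZero m := ⟨by omega⟩
  apply self_centralizing (e.symm (DihedralGroup.r 1)) (e.symm (DihedralGroup.sr 0)) _ _ _ V hVc
    hV2 hV4
  · rw [MulEquiv.orderOf_eq, DihedralGroup.orderOf_r_one, Nat.card_congr e.toEquiv,
      DihedralGroup.nat_card]
  · intro h
    obtain ⟨k, hk⟩ := Subgroup.mem_zpowers_iff.mp h
    rw [← map_zpow, DihedralGroup.r_one_zpow] at hk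
    have := e.symm.injective hk
    exact absurd this (by simp)
  · intro c hc hyc
    obtain ⟨k, hk⟩ := Subgroup.mem_zpowers_iff.mp hc
    rw [← map_zpow, DihedralGroup.r_one_zpow] at hk
    rw [← hk] at hyc ⊢
    rw [← map_inv, ← map_mul, ← map_mul] at hyc
    have h1 := e.symm.injective hyc
    rw [DihedralGroup.sr_mul_r, DihedralGroup.inv_sr, DihedralGroup.sr_mul_sr] at h1
    have h2 : (0 : ZMod m) - (0 + (k : ZMod m)) = (k : ZMod m) := DihedralGroup.r.inj h1
    rw [← map_pow, pow_two, DihedralGroup.r_mul_r]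
    have h3 : (k : ZMod m) + (k : ZMod m) = 0 := by
      have : (k : ZMod m) + (k : ZMod m) = (k : ZMod m) + ((0 : ZMod m) - (0 + (k : ZMod m))) := by
        rw [h2]
      rw [this]; ring
    rw [h3]
    exact map_one e.symm

theorem quasi_case [Finite D] (n : ℕ) (hn : 3 ≤ n) (hcard : Nat.card D = 2 ^ (n + 1)) (x y : D)
    (hx : orderOf x = 2 ^ n) (hxy : y * x * y⁻¹ = x ^ (2 ^ (n - 1) - 1))
    (V : Subgroup D) (hVc : IsMulCommutative V) (hV2 : ∀ v ∈ V, v ^ 2 = 1)
    (hV4 : Nat.card V = 4) :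
    Subgroup.centralizer (V : Set D) = V := by
  obtain ⟨j, rfl⟩ : ∃ j, n = j + 3 := ⟨n - 3, by omega⟩
  have e1 : j + 3 - 1 = j + 2 := by omega
  rw [e1] at hxy
  have p0 : 0 < 2 ^ j := Nat.pos_of_ne_zero (by positivity)
  have p2 : 2 ^ (j + 2) = 4 * 2 ^ j := by ring
  have p3 : 2 ^ (j + 3) = 8 * 2 ^ j := by ring
  have p1 : 2 ^ (j + 1) = 2 * 2 ^ j := by ring
  apply self_centralizing x y _ _ _ V hVc hV2 hV4
  · rw [hcard, hx]; ring
  · intro h
    obtain ⟨k, hk⟩ := Subgroup.mem_zpowers_iff.mp h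
    have hcomm : y * x = x * y := by
      rw [← hk, ← zpow_add_one, ← zpow_one_add, add_comm]
    have h1 : y * x * y⁻¹ = x := by rw [hcomm]; group
    rw [h1] at hxy
    have h2 : x ^ 1 = x ^ (2 ^ (j + 2) - 1) := by rw [pow_one]; exact hxy
    rw [pow_eq_pow_iff_modEq, hx] at h2
    have h3 := Nat.ModEq.eq_of_lt_of_lt h2 (by omega) (by omega)
    omega
  · intro c hc hyc
    obtain ⟨k, hk⟩ := Subgroup.mem_zpowers_iff.mp hc
    have h1 : y * c * y⁻¹ = c ^ (2 ^ (j + 2) - 1) := by
      rw [← hk, ← conj_zpow, hxy, ← zpow_natCast, ← zpow_natCast, ← zpow_mul, ← zpow_mul, mul_comm]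
    rw [hyc] at h1
    have h2 : c ^ (2 ^ (j + 2) - 2) = 1 := by
      have h3 : c ^ (2 ^ (j + 2) - 2 + 1) = c := by
        have : 2 ^ (j + 2) - 2 + 1 = 2 ^ (j + 2) - 1 := by omega
        rw [this]; exact h1.symm
      rw [pow_succ] at h3
      exact mul_eq_right.mp h3
    have h4 : orderOf c ∣ 2 * (2 ^ (j + 1) - 1) := by
      have : 2 * (2 ^ (j + 1) - 1) = 2 ^ (j + 2) - 2 := by omega
      rw [this]
      exact orderOf_dvd_of_pow_eq_one h2
    have h5 : orderOf c ∣ 2 ^ (j + 3) := by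
      apply orderOf_dvd_of_pow_eq_one
      rw [← hk, ← zpow_natCast, ← zpow_mul, mul_comm, zpow_mul, zpow_natCast, ← hx,
        pow_orderOf_eq_one, one_zpow]
    have hodd : Odd (2 ^ (j + 1) - 1) := ⟨2 ^ j - 1, by omega⟩
    have hcop : Nat.Coprime (orderOf c) (2 ^ (j + 1) - 1) :=
      Nat.Coprime.coprime_dvd_left h5 (Nat.Coprime.pow_left _ (Nat.coprime_two_left.mpr hodd))
    have h6 : orderOf c ∣ 2 := hcop.dvd_of_dvd_mul_right h4
    exact orderOf_dvd_iff_pow_eq_one.mp h6

end general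

/-- Let R be a finite group, t a central involution of R such that R ⧸ ⟨t⟩ is dihedral (of order ≥ 4) or quasi-dihedral, and A ≤ R an elementary abelian subgroup of order 8 containing t. Then C_R(A) = A. -/
theorem result {R : Type*} [Group R] [Finite R] (t : R) (ht : orderOf t = 2) (htz : t ∈ Subgroup.center R) [(Subgroup.zpowers t).Normal] (hq : (∃ m : ℕ, 2 ≤ m ∧ Nonempty (R ⧸ Subgroup.zpowers t ≃* DihedralGroup m)) ∨ Cfsg.IsQuasiDihedral (R ⧸ Subgroup.zpowers t)) (A : Subgroup R) (hA : Cfsg.IsElementaryAbelian 2 A) (hA8 : Nat.card A = 8) (htA : t ∈ A) : Subgroup.centralizer (A : Set R) = A := by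
  obtain ⟨hAc, hA2⟩ := hA
  have hNA : Subgroup.zpowers t ≤ A := Subgroup.zpowers_le.mpr htA
  have hVc : IsMulCommutative (A.map (QuotientGroup.mk' (Subgroup.zpowers t))) :=
    Subgroup.map_isMulCommutative A _
  have hV2 : ∀ v ∈ A.map (QuotientGroup.mk' (Subgroup.zpowers t)), v ^ 2 = 1 := by
    rintro _ ⟨a, ha, rfl⟩
    rw [← map_pow, hA2 a ha, map_one]
  have hV4 : Nat.card (A.map (QuotientGroup.mk' (Subgroup.zpowers t))) = 4 := by
    have h1 := Subgroup.index_map A (QuotientGroup.mk' (Subgroup.zpowers t))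
    rw [QuotientGroup.ker_mk', sup_eq_left.mpr hNA,
      MonoidHom.range_eq_top.mpr (QuotientGroup.mk'_surjective _), Subgroup.index_top,
      mul_one] at h1
    have h2 := Subgroup.card_mul_index A
    have h3 := Subgroup.card_mul_index (A.map (QuotientGroup.mk' (Subgroup.zpowers t)))
    have h4 := Subgroup.card_eq_card_quotient_mul_card_subgroup (Subgroup.zpowers t)
    have h5 : Nat.card (Subgroup.zpowers t) = 2 := by rw [Nat.card_zpowers, ht]
    rw [h1] at h3; rw [hA8] at h2; rw [h5] at h4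
    have hpos : 0 < A.index := Nat.pos_of_ne_zero (Subgroup.index_ne_zero_of_finite)
    have h6 : Nat.card (A.map (QuotientGroup.mk' (Subgroup.zpowers t))) * A.index
        = 4 * A.index := by
      have : 2 * (Nat.card (A.map (QuotientGroup.mk' (Subgroup.zpowers t))) * A.index)
          = 2 * (4 * A.index) := by
        rw [h3]; omega
      omega
    exact Nat.eq_of_mul_eq_mul_right hpos h6
  have hself : Subgroup.centralizer
      ((A.map (QuotientGroup.mk' (Subgroup.zpowers t)) : Subgroup _) : Set (R ⧸ Subgroup.zpowers t))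
      = A.map (QuotientGroup.mk' (Subgroup.zpowers t)) := by
    rcases hq with ⟨m, hm, ⟨e⟩⟩ | ⟨n, hn, hcard, x, y, hx, hy, hxy⟩
    · exact dihedral_case m hm e _ hVc hV2 hV4
    · exact quasi_case n hn hcard x y hx hxy _ hVc hV2 hV4
  apply le_antisymm
  · intro c hc
    have hπc : QuotientGroup.mk' (Subgroup.zpowers t) c ∈ Subgroup.centralizer
        ((A.map (QuotientGroup.mk' (Subgroup.zpowers t)) : Subgroup _) :
          Set (R ⧸ Subgroup.zpowers t)) := by
      rw [Subgroup.mem_centralizer_iff]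
      rintro _ ⟨a, ha, rfl⟩
      rw [← map_mul, ← map_mul, Subgroup.mem_centralizer_iff.mp hc a ha]
    rw [hself] at hπc
    obtain ⟨a, ha, hac⟩ := hπc
    have h1 : a⁻¹ * c ∈ Subgroup.zpowers t := by
      rw [← QuotientGroup.eq]
      exact hac
    have := A.mul_mem ha (hNA h1)
    simpa using this
  · intro a ha
    rw [Subgroup.mem_centralizer_iff]
    intro b hb
    exact setLike_mul_comm hb ha

end Cfsg.Agent.S1236
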