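import Cfsg.Statements.S1237
import Cfsg.Agent.Lib.Helper45.HigAbel
import Cfsg.Agent.Lib.Helper45.SU3EvenSylow

set_option autoImplicit false
open Cfsg

namespace Cfsg.Agent.S1237

/-- Let T be a finite 2-group of 2-rank exactly 2 (it has a Klein four-subgroup but no elementary abelian subgroup of order 8) admitting an automorphism φ such that any two involutions of T are carried to one another by a power of φ. Then T ≅ Z_{2^n} × Z_{2^n} for some n ≥ 1, or T is isomorphic to a Sylow 2-subgroup of PSU(3) over the field with 16 elements. -/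
theorem result {T : Type*} [Group T] [Finite T] (hT : IsPGroup 2 T) (h2 : Cfsg.PRankLE 2 2 T) (h1 : ¬ Cfsg.PRankLE 2 1 T) (φ : MulAut T) (htrans : ∀ s t : T, orderOf s = 2 → orderOf t = 2 → ∃ k : ℕ, (φ ^ k) s = t) {F : Type*} [Field F] [Fintype F] (hF : Fintype.card F = 16) (P : Sylow 2 (Cfsg.PSU 3 F 4)) : (∃ n : ℕ, 1 ≤ n ∧ Nonempty (T ≃* Multiplicative (ZMod (2 ^ n) × ZMod (2 ^ n)))) ∨ Nonempty (T ≃* (P : Subgroup (Cfsg.PSU 3 F 4))) := by
  classical
  have hinv : ∀ s : T, orderOf s = 2 ↔ s ≠ 1 ∧ s * s = 1 := by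
    intro s
    constructor
    · intro hs
      refine ⟨fun e => ?_, ?_⟩
      · rw [e, orderOf_one] at hs; omega
      · rw [← pow_two, ← hs]; exact pow_orderOf_eq_one s
    · rintro ⟨hs1, hs2⟩
      exact orderOf_eq_prime (by rw [pow_two]; exact hs2) hs1
  have htr : ∀ s t : T, s ≠ 1 → s * s = 1 → t ≠ 1 → t * t = 1 → ∃ k : ℕ, (φ ^ k) s = t :=
    fun s t hs1 hs2 ht1 ht2 => htrans s t ((hinv s).mpr ⟨hs1, hs2⟩) ((hinv t).mpr ⟨ht1, ht2⟩)
  have hci : ∀ x : T, x * x = 1 → x ∈ Subgroup.center T := by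
    intro x hx
    exact Cfsg.Agent.Lib.Helper21.Suz2.involution_mem_center hT ⊤
      (fun a b ha1 ha2 hb1 hb2 => by
        obtain ⟨k, hk⟩ := htr a b ha1 ha2 hb1 hb2
        exact ⟨φ ^ k, Subgroup.mem_top _, hk⟩) hx
  have hE : Nat.card {x : T // x * x = 1} = 4 := by
    have hle : Nat.card (Cfsg.Agent.Lib.Helper21.Suz2.invSub hci) ≤ 2 ^ 2 := by
      apply h2
      · exact ⟨⟨fun a b => Subtype.ext (Subgroup.mem_center_iff.mp (hci b.1 b.2) a.1)⟩⟩
      · intro a ha
        rw [pow_two]; exact ha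
    unfold Cfsg.PRankLE at h1
    push Not at h1
    obtain ⟨A, hAc, hA2, hAcard⟩ := h1
    have hAE : A ≤ Cfsg.Agent.Lib.Helper21.Suz2.invSub hci := fun a ha => by
      have h3 := hA2 a ha
      rw [pow_two] at h3
      exact h3
    have h3 := Subgroup.card_le_of_le hAE
    obtain ⟨n, hn⟩ := IsPGroup.iff_card.mp (hT.to_subgroup (Cfsg.Agent.Lib.Helper21.Suz2.invSub hci))
    have hn2 : n = 2 := by
      rw [hn] at hle h3
      have h5 : 2 ^ 1 < 2 ^ n := lt_of_lt_of_le hAcard h3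
      have h6 : 1 < n := (Nat.pow_lt_pow_iff_right (by norm_num)).mp h5
      have h7 : n ≤ 2 := (Nat.pow_le_pow_iff_right (by norm_num)).mp hle
      omega
    rw [hn2] at hn
    exact hn.trans (by norm_num)
  rcases Cfsg.Agent.Lib.Helper45.Hig.rank_two_main hT hci hE φ htr with h | ⟨K, hSD, hZ⟩
  · exact Or.inl h
  · right
    obtain ⟨-, hZP, hSuz⟩ := Cfsg.Agent.Lib.Helper45.psu3_even_sylow_structure (n := 2)
      (le_refl 2) (hF.trans (by norm_num)) P
    obtain ⟨K', hSD'⟩ := Cfsg.Agent.Lib.Helper45.Hig.suzuki_SD hSuz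
    exact hSD.iso_of_center4 hSD' hZ (hZP.trans (by norm_num))

end Cfsg.Agent.S1237
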