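import Mathlib
import Cfsg.Statements.S1243
import Cfsg.Agent.Lib.Helper21.Conj

set_option autoImplicit false
open Cfsg

namespace Cfsg.Agent.S1243

open Cfsg.Agent.Lib.Helper21

/-- Let T be a Sylow p-subgroup of the finite group G and W ≤ T a subgroup weakly closed in T. If d and g d g⁻¹ both centralize W, then g d g⁻¹ = h d h⁻¹ for some h ∈ N_G(W). -/
theorem result {G : Type*} [Group G] [Finite G] {p : ℕ} [Fact p.Prime] (T : Sylow p G) (W : Subgroup G) (hW : Cfsg.IsWeaklyClosed W (T : Subgroup G)) (d g : G) (hd : d ∈ Subgroup.centralizer (W : Set G)) (hgd : g * d * g⁻¹ ∈ Subgroup.centralizer (W : Set G)) : ∃ h ∈ Subgroup.normalizer (W : Set G), h * d * h⁻¹ = g * d * g⁻¹ := by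
  obtain ⟨hWT, hwc⟩ := hW
  rw [Subgroup.mem_centralizer_iff] at hd hgd
  let C : Subgroup G := Subgroup.centralizer ({g * d * g⁻¹} : Set G)
  have hmemC : ∀ x : G, x ∈ C ↔ (g * d * g⁻¹) * x = x * (g * d * g⁻¹) := by
    intro x
    show x ∈ Subgroup.centralizer ({g * d * g⁻¹} : Set G) ↔ _
    rw [Subgroup.mem_centralizer_iff]
    simp
  have hWp : IsPGroup p W := T.isPGroup'.to_le hWT
  have hWC : W ≤ C := by
    intro w hw
    rw [hmemC]
    exact (hgd w hw).symm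
  let Wg : Subgroup G := W.map (MulAut.conj g).toMonoidHom
  have hWgp : IsPGroup p Wg := hWp.map _
  have hWgC : Wg ≤ C := by
    rintro _ ⟨w, hw, rfl⟩
    rw [hmemC]
    have h1 := hd w hw
    simp only [MulEquiv.toMonoidHom_eq_coe, MonoidHom.coe_coe, MulAut.conj_apply]
    calc g * d * g⁻¹ * (g * w * g⁻¹) = g * (d * w) * g⁻¹ := by group
      _ = g * (w * d) * g⁻¹ := by rw [h1]
      _ = g * w * g⁻¹ * (g * d * g⁻¹) := by group
  obtain ⟨R₁, hR₁⟩ := (hWp.comap_subtype (K := C)).exists_le_sylow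
  obtain ⟨R₂, hR₂⟩ := (hWgp.comap_subtype (K := C)).exists_le_sylow
  obtain ⟨c, hc⟩ := MulAction.exists_smul_eq C R₂ R₁
  have hR₁p : IsPGroup p ((R₁ : Subgroup C).map C.subtype) := R₁.isPGroup'.map _
  obtain ⟨T', hT'⟩ := hR₁p.exists_le_sylow
  obtain ⟨k, hk⟩ := MulAction.exists_smul_eq G T T'
  have hmemT' : ∀ x : G, x ∈ (T' : Subgroup G) → k⁻¹ * x * k ∈ (T : Subgroup G) := by
    intro x hx
    rw [← hk, mem_sylow_smul] at hx
    exact hx
  have hW1 : ∀ w ∈ W, w ∈ (T' : Subgroup G) := by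
    intro w hw
    exact hT' ⟨⟨w, hWC hw⟩, hR₁ (by rw [Subgroup.mem_comap]; exact hw), rfl⟩
  have hW2 : ∀ w ∈ W, ((c : G) * g) * w * ((c : G) * g)⁻¹ ∈ (T' : Subgroup G) := by
    intro w hw
    have hgw : g * w * g⁻¹ ∈ Wg := ⟨w, hw, by simp [MulAut.conj_apply]⟩
    have h1 : (⟨g * w * g⁻¹, hWgC hgw⟩ : C) ∈ (R₂ : Subgroup C) :=
      hR₂ (by rw [Subgroup.mem_comap]; exact hgw)
    have h2 : c * (⟨g * w * g⁻¹, hWgC hgw⟩ : C) * c⁻¹ ∈ ((c • R₂ : Sylow p C) : Subgroup C) := by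
      rw [Sylow.coe_subgroup_smul]; exact ⟨_, h1, rfl⟩
    rw [hc] at h2
    have h3 := hT' ⟨_, h2, rfl⟩
    have e1 : (C.subtype (c * (⟨g * w * g⁻¹, hWgC hgw⟩ : C) * c⁻¹) : G)
        = ((c : G) * g) * w * ((c : G) * g)⁻¹ := by
      simp only [Subgroup.coe_subtype, Subgroup.coe_mul, Subgroup.coe_inv]
      group
    rw [e1] at h3; exact h3
  have hA : W.map (MulAut.conj k⁻¹).toMonoidHom = W := by
    apply hwc
    rintro _ ⟨w, hw, rfl⟩
    have := hmemT' w (hW1 w hw)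
    simpa [MulAut.conj_apply] using this
  have hB : W.map (MulAut.conj (k⁻¹ * ((c : G) * g))).toMonoidHom = W := by
    apply hwc
    rintro _ ⟨w, hw, rfl⟩
    have := hmemT' _ (hW2 w hw)
    have e : (MulAut.conj (k⁻¹ * ((c : G) * g))).toMonoidHom w
        = k⁻¹ * (((c : G) * g) * w * ((c : G) * g)⁻¹) * k := by
      simp only [MulEquiv.toMonoidHom_eq_coe, MonoidHom.coe_coe, MulAut.conj_apply]
      group
    rw [e]; exact this
  have hN : W.map (MulAut.conj ((c : G) * g)).toMonoidHom = W := by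
    rw [map_conj_mul] at hB
    have : (W.map (MulAut.conj ((c : G) * g)).toMonoidHom).map (MulAut.conj k⁻¹).toMonoidHom
        = W.map (MulAut.conj k⁻¹).toMonoidHom := by rw [hB, hA]
    exact Subgroup.map_injective (MulAut.conj k⁻¹).injective this
  refine ⟨(c : G) * g, mem_normalizer_of_map_conj_eq_self hN, ?_⟩
  have hcC := (hmemC c).1 c.2
  calc (c : G) * g * d * ((c : G) * g)⁻¹ = (c : G) * (g * d * g⁻¹) * (c : G)⁻¹ := by group
    _ = (g * d * g⁻¹) * (c : G) * (c : G)⁻¹ := by rw [hcC]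
    _ = g * d * g⁻¹ := by group

end Cfsg.Agent.S1243
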