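import Mathlib
import Cfsg.Statements.S1244
import Cfsg.Agent.Lib.Helper24.NormMap
import Cfsg.Agent.Lib.Helper24.PRank

set_option autoImplicit false
open Cfsg

namespace Cfsg.Agent.S1244

open Cfsg.Agent.Lib.Helper24

open scoped IsMulCommutative in
/-- Let G be a finite group with no subgroup of index 2 whose Sylow 2-subgroup S is commutative, and let R ≤ S be a subgroup whose 2-rank is exactly one less than the 2-rank r of S. Then every involution of S is conjugate, by an element of N_G(S), to an element of R. -/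
theorem result {G : Type*} [Group G] [Finite G] (hG : ∀ H : Subgroup G, H.index ≠ 2) (S : Sylow 2 G) (hS : IsMulCommutative (S : Subgroup G)) (r : ℕ) (hr1 : 1 ≤ r) (hSr : Cfsg.PRankLE 2 r (S : Subgroup G) ∧ ¬ Cfsg.PRankLE 2 (r - 1) (S : Subgroup G)) (R : Subgroup G) (hRS : R ≤ S) (hRr : Cfsg.PRankLE 2 (r - 1) R ∧ (r = 1 ∨ ¬ Cfsg.PRankLE 2 (r - 2) R)) (t : G) (ht : orderOf t = 2) (htS : t ∈ S) : ∃ n ∈ Subgroup.normalizer ((S : Subgroup G) : Set G), n * t * n⁻¹ ∈ R := by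
  classical
  have hfact : Fact (Nat.Prime 2) := ⟨Nat.prime_two⟩
  by_contra hcon
  push Not at hcon
  have hScomm : ∀ a ∈ (S : Subgroup G), ∀ b ∈ (S : Subgroup G), a * b = b * a := by
    intro a ha b hb
    have := hS.is_comm.comm (⟨a, ha⟩ : (S : Subgroup G)) ⟨b, hb⟩
    exact congrArg Subtype.val this
  -- E = Ω₁(S)
  let E : Subgroup G :=
    { carrier := {x | x ∈ (S : Subgroup G) ∧ x ^ 2 = 1}
      mul_mem' := by
        rintro a b ⟨ha, ha2⟩ ⟨hb, hb2⟩
        refine ⟨Subgroup.mul_mem _ ha hb, ?_⟩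
        rw [(show Commute a b from hScomm a ha b hb).mul_pow, ha2, hb2, one_mul]
      one_mem' := ⟨Subgroup.one_mem _, one_pow 2⟩
      inv_mem' := by
        rintro a ⟨ha, ha2⟩
        exact ⟨Subgroup.inv_mem _ ha, by rw [inv_pow, ha2, inv_one]⟩ }
  have hES : E ≤ (S : Subgroup G) := fun x hx => hx.1
  have hEcomm : ∀ a ∈ E, ∀ b ∈ E, a * b = b * a := fun a ha b hb => hScomm a ha.1 b hb.1
  have hEexp : ∀ a ∈ E, a ^ 2 = 1 := fun a ha => ha.2
  have hFE : E ⊓ R ≤ E := inf_le_left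
  have hFR : E ⊓ R ≤ R := inf_le_right
  -- cardinalities
  have hS1 := (pRankLE_subgroup_iff 2 r (S : Subgroup G)).mp hSr.1
  have hS2 : ∃ A : Subgroup G, A ≤ (S : Subgroup G) ∧ (∀ a ∈ A, ∀ b ∈ A, a * b = b * a) ∧
      (∀ a ∈ A, a ^ 2 = 1) ∧ 2 ^ (r - 1) < Nat.card A := by
    by_contra hno
    apply hSr.2
    rw [pRankLE_subgroup_iff]
    intro A hA hc he
    by_contra hlt
    exact hno ⟨A, hA, hc, he, not_le.mp hlt⟩
  have hEcard_le : Nat.card E ≤ 2 ^ r := hS1 E hES hEcomm hEexp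
  obtain ⟨A, hAS, hAc, hAe, hAcard⟩ := hS2
  have hAE : A ≤ E := fun a ha => ⟨hAS ha, hAe a ha⟩
  have hEcard_gt : 2 ^ (r - 1) < Nat.card E := lt_of_lt_of_le hAcard (Subgroup.card_le_of_le hAE)
  have hEp : IsPGroup 2 E := S.isPGroup'.to_le hES
  obtain ⟨k, hk⟩ := hEp.exists_card_eq
  have hkr : k = r := by
    rw [hk] at hEcard_le hEcard_gt
    have h1 : k ≤ r := (Nat.pow_le_pow_iff_right (by norm_num)).mp hEcard_le
    have h2 : r - 1 < k := (Nat.pow_lt_pow_iff_right (by norm_num)).mp hEcard_gt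
    omega
  have hR1 := (pRankLE_subgroup_iff 2 (r - 1) R).mp hRr.1
  have hFcard_le : Nat.card (E ⊓ R : Subgroup G) ≤ 2 ^ (r - 1) :=
    hR1 (E ⊓ R) hFR (fun a ha b hb => hEcomm a (hFE ha) b (hFE hb)) (fun a ha => hEexp a (hFE ha))
  have hFp : IsPGroup 2 (E ⊓ R : Subgroup G) := hEp.to_le hFE
  obtain ⟨j, hj⟩ := hFp.exists_card_eq
  have hjr : j = r - 1 := by
    have h1 : j ≤ r - 1 := by
      rw [hj] at hFcard_le; exact (Nat.pow_le_pow_iff_right (by norm_num)).mp hFcard_le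
    rcases hRr.2 with h | h
    · omega
    · have hR2 : ∃ B : Subgroup G, B ≤ R ∧ (∀ a ∈ B, ∀ b ∈ B, a * b = b * a) ∧
          (∀ a ∈ B, a ^ 2 = 1) ∧ 2 ^ (r - 2) < Nat.card B := by
        by_contra hno
        apply h
        rw [pRankLE_subgroup_iff]
        intro B hB hc he
        by_contra hlt
        exact hno ⟨B, hB, hc, he, not_le.mp hlt⟩
      obtain ⟨B, hBR, hBc, hBe, hBcard⟩ := hR2
      have hBF : B ≤ E ⊓ R := fun b hb => ⟨⟨hRS (hBR hb), hBe b hb⟩, hBR hb⟩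
      have h2 : 2 ^ (r - 2) < 2 ^ j := by
        rw [← hj]; exact lt_of_lt_of_le hBcard (Subgroup.card_le_of_le hBF)
      have h3 : r - 2 < j := (Nat.pow_lt_pow_iff_right (by norm_num)).mp h2
      omega
  -- index two
  have hidx : ((E ⊓ R : Subgroup G).subgroupOf E).index = 2 := by
    have h1 := ((E ⊓ R : Subgroup G).subgroupOf E).card_mul_index
    rw [Nat.card_congr (Subgroup.subgroupOfEquivOfLe hFE).toEquiv, hj, hk, hjr, hkr] at h1
    have h2 : (2 : ℕ) ^ r = 2 ^ (r - 1) * 2 := by rw [← pow_succ]; congr 1; omega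
    rw [h2] at h1
    exact Nat.eq_of_mul_eq_mul_left (by positivity) h1
  have hmul : ∀ x ∈ E, ∀ y ∈ E, x ∉ (E ⊓ R : Subgroup G) → y ∉ (E ⊓ R : Subgroup G) →
      x * y ∈ (E ⊓ R : Subgroup G) := by
    intro x hx y hy hxF hyF
    have h1 := Subgroup.mul_mem_iff_of_index_two hidx (a := (⟨x, hx⟩ : E)) (b := ⟨y, hy⟩)
    have h2 : (⟨x, hx⟩ : E) * ⟨y, hy⟩ ∈ (E ⊓ R : Subgroup G).subgroupOf E :=
      h1.mpr ⟨fun h => absurd (Subgroup.mem_subgroupOf.mp h) hxF,
        fun h => absurd (Subgroup.mem_subgroupOf.mp h) hyF⟩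
    exact Subgroup.mem_subgroupOf.mp h2
  -- norm family
  obtain ⟨K, instK, f, hKcard, hf, hf_mul, hf_one, hcent⟩ := exists_norm_family S hS
  have ht2 : t ^ 2 = 1 := by rw [← ht]; exact pow_orderOf_eq_one t
  have hgE : ∀ k : K, f k ⟨t, htS⟩ ∈ E.subgroupOf (S : Subgroup G) := by
    intro k
    rw [Subgroup.mem_subgroupOf]
    refine ⟨(f k ⟨t, htS⟩).2, ?_⟩
    rw [hf]
    simp only [conj_pow, ht2]
    group
  have hgF : ∀ k : K, f k ⟨t, htS⟩ ∉ (E ⊓ R : Subgroup G).subgroupOf (S : Subgroup G) := by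
    intro k hk
    rw [Subgroup.mem_subgroupOf, hf] at hk
    exact hcon _ k.1.2 hk.2
  have hparity := prod_mem_iff_even (E.subgroupOf (S : Subgroup G))
    ((E ⊓ R : Subgroup G).subgroupOf (S : Subgroup G))
    (fun x hx y hy hxF hyF => by
      rw [Subgroup.mem_subgroupOf] at hx hy hxF hyF ⊢
      exact hmul _ hx _ hy hxF hyF)
    (fun k : K => f k ⟨t, htS⟩) hgE hgF Finset.univ
  obtain ⟨hwE, hwF⟩ := hparity
  have hwF' : (∏ k : K, f k ⟨t, htS⟩) ∉ (E ⊓ R : Subgroup G).subgroupOf (S : Subgroup G) := by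
    intro h
    have h1 := hwF.mp h
    rw [Finset.card_univ] at h1
    exact hKcard (even_iff_two_dvd.mp h1)
  rw [Subgroup.mem_subgroupOf] at hwE hwF'
  have hw_ne : ((∏ k : K, f k ⟨t, htS⟩ : ↥(S : Subgroup G)) : G) ≠ 1 := by
    intro h
    apply hwF'
    rw [h]
    exact Subgroup.one_mem _
  -- transfer
  have hV := transfer_eq_pow_of_central S hS (MonoidHom.id ↥(S : Subgroup G))
    ((∏ k : K, f k ⟨t, htS⟩ : ↥(S : Subgroup G)) : G) hwE.1 (hcent ⟨t, htS⟩)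
  have hodd : Odd (S : Subgroup G).index := by
    rw [← Nat.not_even_iff_odd, even_iff_two_dvd]
    exact S.not_dvd_index
  have hpow : ((∏ k : K, f k ⟨t, htS⟩ : ↥(S : Subgroup G)) : G) ^ (S : Subgroup G).index
      = ((∏ k : K, f k ⟨t, htS⟩ : ↥(S : Subgroup G)) : G) := by
    obtain ⟨m, hm⟩ := hodd
    rw [hm, pow_succ, pow_mul, hwE.2, one_pow, one_mul]
  have hVne : MonoidHom.transfer (MonoidHom.id ↥(S : Subgroup G))
      ((∏ k : K, f k ⟨t, htS⟩ : ↥(S : Subgroup G)) : G) ≠ 1 := by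
    rw [hV]
    intro h
    have h1 := congrArg (fun x : ↥(S : Subgroup G) => (x : G)) h
    simp only [MonoidHom.id_apply, Subgroup.coe_one] at h1
    rw [hpow] at h1
    exact hw_ne h1
  obtain ⟨H, hH⟩ := exists_index_two_of_hom_ne_one S.isPGroup' _ _ hVne
  exact hG H hH

end Cfsg.Agent.S1244
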