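import Cfsg.Statements.S1247
import Cfsg.Agent.Lib.Helper23.BenderF

set_option autoImplicit false
open Cfsg

namespace Cfsg.Agent.S1247

/-- Let G be a non-abelian finite simple group, A a maximal subgroup, F = F*(A) its generalized Fitting subgroup (viewed in G), and S ≤ F a subgroup subnormal in F with C_F(S) ≤ S. Let B be any subgroup of G containing S. Then (a) for every prime q not dividing |F(A)|, O_q(B) ∩ A = 1; and (b) for every prime p dividing |F(A)|, O_p(B) commutes elementwise with the subgroup of F generated by its elements of order prime to p. -/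
theorem result {G : Type*} [Group G] [Finite G] [IsSimpleGroup G] (hna : ¬ IsMulCommutative G) (A : Subgroup G) (hA : IsCoatom A) (S : Subgroup G) (hSF : S ≤ (Cfsg.generalizedFittingSubgroup ↥A).map A.subtype) (hSsn : (S.subgroupOf ((Cfsg.generalizedFittingSubgroup ↥A).map A.subtype)).IsSubnormal) (hSC : (Cfsg.generalizedFittingSubgroup ↥A).map A.subtype ⊓ Subgroup.centralizer (S : Set G) ≤ S) (B : Subgroup G) (hSB : S ≤ B) : (∀ q : ℕ, q.Prime → ¬ q ∣ Nat.card (Cfsg.fittingSubgroup ↥A) → (Cfsg.pCore q ↥B).map B.subtype ⊓ A = ⊥) ∧ (∀ p : ℕ, p.Prime → p ∣ Nat.card (Cfsg.fittingSubgroup ↥A) → ∀ x ∈ (Cfsg.pCore p ↥B).map B.subtype, ∀ y ∈ (Cfsg.pResidual p ↥(Cfsg.generalizedFittingSubgroup ↥A)).map ((Cfsg.generalizedFittingSubgroup ↥A).subtype) , x * (A.subtype y) = (A.subtype y) * x) := by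
  have hsimple : IsSimpleGroup G := inferInstance
  have hcard : Nat.card (Cfsg.fittingSubgroup ↥A) = Nat.card (Cfsg.fittingOf A) := by
    unfold Cfsg.fittingOf
    exact Nat.card_congr
      ((Cfsg.fittingSubgroup ↥A).equivMapOfInjective A.subtype A.subtype_injective).toEquiv
  constructor
  · intro q hq hqF
    have : Fact q.Prime := ⟨hq⟩
    have hn : (Cfsg.pCore q ↥B).Normal := Subgroup.sSup_normal _ (fun _ h => h.1)
    rw [hcard] at hqF
    exact Cfsg.Agent.Lib.Helper23.bender_fstar_a A S B ((Cfsg.pCore q ↥B).map B.subtype) hSF hSsn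
      hSC hSB hqF ((Cfsg.Agent.S3752.pCore_isPGroup q ↥B).map _)
      (Cfsg.Agent.S3752.le_normalizer_map_subtype B _)
  · intro p hp hpF x hx y hy
    have : Fact p.Prime := ⟨hp⟩
    have hn : (Cfsg.pCore p ↥B).Normal := Subgroup.sSup_normal _ (fun _ h => h.1)
    rw [hcard] at hpF
    obtain ⟨h1, h2⟩ := Cfsg.Agent.Lib.Helper23.bender_fstar_b hsimple A hA S B
      ((Cfsg.pCore p ↥B).map B.subtype) hSF hSsn hSC hSB hpF
      ((Cfsg.Agent.S3752.pCore_isPGroup p ↥B).map _)
      (Cfsg.Agent.S3752.le_normalizer_map_subtype B _)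
    obtain ⟨w, hw, rfl⟩ := hy
    have hgen : ∀ w ∈ Cfsg.pResidual p ↥(Cfsg.generalizedFittingSubgroup ↥A),
        x * ((w : ↥A) : G) = ((w : ↥A) : G) * x := by
      intro w hw
      unfold Cfsg.pResidual at hw
      induction hw using Subgroup.closure_induction with
      | mem g hg =>
        have hg' : (orderOf ((g : ↥A) : G)).Coprime p := by
          rw [Subgroup.orderOf_coe, Subgroup.orderOf_coe]
          exact hg
        have hgF : ((g : ↥A) : G) ∈ (Cfsg.generalizedFittingSubgroup ↥A).map A.subtype :=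
          ⟨(g : ↥A), g.2, rfl⟩
        obtain ⟨e, he, f, hf, hef⟩ := Cfsg.Agent.Lib.Helper23.exists_mul_of_mem_fstarIn A hgF
        have hcomm : Commute e f := Cfsg.Agent.Lib.Helper23.layerIn_comm_fittingOf A e he f hf
        obtain ⟨k, hk⟩ := Cfsg.Agent.Lib.Helper21.exists_pow_orderOf_coprime p f
        by_cases hn1 : orderOf ((g : ↥A) : G) = 1
        · rw [orderOf_eq_one_iff.mp hn1, mul_one, one_mul]
        · have hn2 : 1 < orderOf ((g : ↥A) : G) := by
            have := orderOf_pos ((g : ↥A) : G)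
            omega
          have hcop : (p ^ k).Coprime (orderOf ((g : ↥A) : G)) :=
            Nat.Coprime.pow_left k hg'.symm
          obtain ⟨u, -, hu⟩ := Nat.exists_mul_mod_eq_one_of_coprime hcop hn2
          have e1 : ((g : ↥A) : G) = ((g : ↥A) : G) ^ (p ^ k * u) := by
            rw [← pow_mod_orderOf, hu, pow_one]
          have e2 : ((g : ↥A) : G) ^ (p ^ k * u) = e ^ (p ^ k * u) * (f ^ p ^ k) ^ u := by
            rw [hef, hcomm.mul_pow, pow_mul f]
          have h3 : x * e ^ (p ^ k * u) = e ^ (p ^ k * u) * x :=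
            h1 x hx _ (Subgroup.pow_mem _ he _)
          have h4 : x * (f ^ p ^ k) ^ u = (f ^ p ^ k) ^ u * x := by
            apply h2 x hx _ (Subgroup.pow_mem _ (Subgroup.pow_mem _ hf _) _)
            exact Nat.Coprime.coprime_dvd_left (orderOf_pow_dvd u) hk
          rw [e1, e2]
          calc x * (e ^ (p ^ k * u) * (f ^ p ^ k) ^ u)
              = (x * e ^ (p ^ k * u)) * (f ^ p ^ k) ^ u := by group
            _ = (e ^ (p ^ k * u) * x) * (f ^ p ^ k) ^ u := by rw [h3]
            _ = e ^ (p ^ k * u) * (x * (f ^ p ^ k) ^ u) := by group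
            _ = e ^ (p ^ k * u) * ((f ^ p ^ k) ^ u * x) := by rw [h4]
            _ = e ^ (p ^ k * u) * (f ^ p ^ k) ^ u * x := by group
      | one => simp
      | mul a b _ _ ha hb =>
        simp only [Subgroup.coe_mul]
        calc x * (((a : ↥A) : G) * ((b : ↥A) : G)) = (x * ((a : ↥A) : G)) * ((b : ↥A) : G) := by
              group
          _ = (((a : ↥A) : G) * x) * ((b : ↥A) : G) := by rw [ha]
          _ = ((a : ↥A) : G) * (x * ((b : ↥A) : G)) := by group
          _ = ((a : ↥A) : G) * (((b : ↥A) : G) * x) := by rw [hb]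
          _ = ((a : ↥A) : G) * ((b : ↥A) : G) * x := by group
      | inv a _ ha =>
        simp only [Subgroup.coe_inv]
        calc x * ((a : ↥A) : G)⁻¹ = ((a : ↥A) : G)⁻¹ * (((a : ↥A) : G) * x) * ((a : ↥A) : G)⁻¹ := by
              group
          _ = ((a : ↥A) : G)⁻¹ * (x * ((a : ↥A) : G)) * ((a : ↥A) : G)⁻¹ := by rw [ha]
          _ = ((a : ↥A) : G)⁻¹ * x := by group
    exact hgen w hw

end Cfsg.Agent.S1247
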