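import Cfsg.Statements.S1254
import Cfsg.Agent.Lib.Helper52.DihedralSylow
import Cfsg.Agent.Lib.Helper54.Frobenius
import Mathlib

set_option autoImplicit false
open Cfsg

namespace Cfsg.Agent.S1254

theorem eq_one_of_pow_two_pow_of_odd {M : Type*} [Group M] (σ : M) (k m : ℕ)
    (h1 : σ ^ (2 ^ k) = 1) (hm : Odd m) (h2 : σ ^ m = 1) : σ = 1 := by
  have h6 : orderOf σ ∣ Nat.gcd (2 ^ k) m :=
    Nat.dvd_gcd (orderOf_dvd_of_pow_eq_one h1) (orderOf_dvd_of_pow_eq_one h2)
  have h7 : Nat.Coprime (2 ^ k) m := Nat.Coprime.pow_left k (Nat.coprime_two_left.2 hm)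
  rw [Nat.Coprime.gcd_eq_one h7] at h6
  exact orderOf_eq_one_iff.1 (Nat.dvd_one.1 h6)

open Cfsg.Agent.Lib.Helper52 Cfsg.Agent.Lib.Helper54 in
/-- Let X be a finite group whose Sylow 2-subgroup S is dihedral (of order at least 4). Then X has a normal 2-complement if and only if, for every Klein four-subgroup U ≤ S, the normalizer N_X(U) is generated by C_X(U) and N_S(U). -/
theorem result {X : Type*} [Group X] [Finite X] (S : Sylow 2 X) (m : ℕ) (hm : 2 ≤ m) (eS : (S : Subgroup X) ≃* DihedralGroup m) : Cfsg.HasNormalPComplement 2 X ↔ ∀ U : Subgroup X, U ≤ S → IsKleinFour U → Subgroup.normalizer (U : Set X) = Subgroup.centralizer (U : Set X) ⊔ ((S : Subgroup X) ⊓ Subgroup.normalizer (U : Set X)) := by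
  have : Fact (Nat.Prime 2) := ⟨Nat.prime_two⟩
  have : NeZero m := ⟨by omega⟩
  constructor
  · rintro ⟨P, N, hNn, hc⟩ U hUS hU
    have hNS : N.IsComplement' (S : Subgroup X) :=
      (isNormalPComplement_of_isComplement' hNn hc).isComplement' S
    apply le_antisymm
    · intro g hg
      obtain ⟨⟨⟨k, hk⟩, ⟨s, hs⟩⟩, hks, -⟩ := (Subgroup.isComplement'_def.1 hNS).existsUnique g
      have hks : k * s = g := hks
      have h1 : ∀ u ∈ U, k * (s * u * s⁻¹) * k⁻¹ = s * u * s⁻¹ := by
        intro u hu
        have h2 : g * u * g⁻¹ ∈ U := (Subgroup.mem_normalizer_iff.1 hg u).1 hu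
        have h3 : k * (s * u * s⁻¹) * k⁻¹ = g * u * g⁻¹ := by rw [← hks]; group
        have hv : s * u * s⁻¹ ∈ (S : Subgroup X) := mul_mem (mul_mem hs (hUS hu)) (inv_mem hs)
        have h4 : k * (s * u * s⁻¹) * k⁻¹ * (s * u * s⁻¹)⁻¹ ∈ (S : Subgroup X) :=
          mul_mem (h3 ▸ hUS h2) (inv_mem hv)
        have h5 : k * (s * u * s⁻¹) * k⁻¹ * (s * u * s⁻¹)⁻¹ ∈ N := by
          have h5' : k * (s * u * s⁻¹) * k⁻¹ * (s * u * s⁻¹)⁻¹ =
              k * ((s * u * s⁻¹) * k⁻¹ * (s * u * s⁻¹)⁻¹) := by group
          rw [h5']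
          exact mul_mem hk (hNn.conj_mem _ (inv_mem hk) _)
        have h6 : k * (s * u * s⁻¹) * k⁻¹ * (s * u * s⁻¹)⁻¹ = 1 :=
          Subgroup.disjoint_def.1 hNS.disjoint h5 h4
        exact mul_inv_eq_one.1 h6
      have hsU : ∀ u ∈ (U : Set X), s * u * s⁻¹ ∈ (U : Set X) := by
        intro u hu
        have h2 : g * u * g⁻¹ ∈ U := (Subgroup.mem_normalizer_iff.1 hg u).1 hu
        have h3 : k * (s * u * s⁻¹) * k⁻¹ = g * u * g⁻¹ := by rw [← hks]; group
        have h4 := h1 u hu
        rw [h3] at h4
        rw [← h4]; exact h2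
      have hsN : s ∈ Subgroup.normalizer (U : Set X) := Subgroup.mem_normalizer_fintype hsU
      have hkC : k ∈ Subgroup.centralizer (U : Set X) := by
        rw [Subgroup.mem_centralizer_iff]
        intro u hu
        have h7 : s⁻¹ * u * s ∈ U := by
          have h7' := (Subgroup.mem_normalizer_iff.1 (inv_mem hsN) u).1 hu
          simpa using h7'
        have h8 := h1 _ h7
        have h9 : s * (s⁻¹ * u * s) * s⁻¹ = u := by group
        rw [h9] at h8
        rw [mul_inv_eq_iff_eq_mul] at h8
        exact h8.symm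
      rw [← hks]
      exact Subgroup.mul_mem_sup hkC ⟨hs, hsN⟩
    · exact sup_le (Subgroup.centralizer_le_normalizer _) inf_le_right
  · intro h
    have key : ∀ Q : Subgroup X, Q ≤ (S : Subgroup X) →
        ∀ g ∈ Subgroup.normalizer (Q : Set X), Nat.Coprime (orderOf g) 2 →
        g ∈ Subgroup.centralizer (Q : Set X) := by
      intro Q hQ g hg hcop
      obtain ⟨ρ, -, h1, h2⟩ := dihedral_data (S : Subgroup X) m eS
      have hQ2 : IsPGroup 2 Q := S.isPGroup'.to_le hQ
      have hodd : Odd (orderOf g) := Nat.coprime_two_left.1 hcop.symm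
      have hσ := normalizerMonoidHom_pow_orderOf Q g hg
      have hfin : Q.normalizerMonoidHom ⟨g, hg⟩ = 1 := by
        have h1' : ∀ s ∈ Q.map (MonoidHom.id X), s ∉ Subgroup.zpowers ρ → s * s = 1 := by
          intro s hs
          rw [Subgroup.map_id] at hs
          exact h1 s (hQ hs)
        have h2' : ∀ s1 ∈ Q.map (MonoidHom.id X), ∀ s2 ∈ Q.map (MonoidHom.id X),
            s1 ∉ Subgroup.zpowers ρ → s2 ∉ Subgroup.zpowers ρ → s1 * s2 ∈ Subgroup.zpowers ρ := by
          intro s1 hs1 s2 hs2
          rw [Subgroup.map_id] at hs1 hs2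
          exact h2 s1 (hQ hs1) s2 (hQ hs2)
        rcases conj_aut_eq_one_or_four (MonoidHom.id X) Function.injective_id Q hQ2 ρ h1' h2'
          (Q.normalizerMonoidHom ⟨g, hg⟩) (orderOf g) hodd hσ with hσ1 | ⟨hsq, hcard⟩
        · exact hσ1
        · have hK : IsKleinFour Q := by
            refine ⟨hcard, ?_⟩
            have hdvd : Monoid.exponent Q ∣ 2 :=
              Monoid.exponent_dvd_of_forall_pow_eq_one (fun b => by rw [sq]; exact hsq b)
            rcases (Nat.dvd_prime Nat.prime_two).1 hdvd with h3 | h3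
            · exfalso
              have hsub : Subsingleton Q := Monoid.exp_eq_one_iff.1 h3
              have h4 : Nat.card Q = 1 := Nat.card_of_subsingleton 1
              omega
            · exact h3
          have hN := h Q hQ hK
          have htop : (⊤ : Subgroup (Subgroup.normalizer (Q : Set X))) =
              (Subgroup.centralizer (Q : Set X)).subgroupOf (Subgroup.normalizer (Q : Set X)) ⊔
              ((S : Subgroup X) ⊓ Subgroup.normalizer (Q : Set X)).subgroupOf
                (Subgroup.normalizer (Q : Set X)) := by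
            rw [← Subgroup.subgroupOf_sup (Subgroup.centralizer_le_normalizer _) inf_le_right,
              ← hN, Subgroup.subgroupOf_self]
          have hrange : Q.normalizerMonoidHom.range =
              (((S : Subgroup X) ⊓ Subgroup.normalizer (Q : Set X)).subgroupOf
                (Subgroup.normalizer (Q : Set X))).map Q.normalizerMonoidHom := by
            rw [MonoidHom.range_eq_map, htop, Subgroup.map_sup]
            have h5 : ((Subgroup.centralizer (Q : Set X)).subgroupOf
                (Subgroup.normalizer (Q : Set X))).map Q.normalizerMonoidHom = ⊥ := by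
              rw [Subgroup.map_eq_bot_iff, Subgroup.normalizerMonoidHom_ker]
            rw [h5, bot_sup_eq]
          have hpg : IsPGroup 2 ((((S : Subgroup X) ⊓ Subgroup.normalizer (Q : Set X)).subgroupOf
                (Subgroup.normalizer (Q : Set X))).map Q.normalizerMonoidHom) :=
            ((S.isPGroup'.to_le inf_le_left).comap_subtype).map _
          have hmem : Q.normalizerMonoidHom ⟨g, hg⟩ ∈
              (((S : Subgroup X) ⊓ Subgroup.normalizer (Q : Set X)).subgroupOf
                (Subgroup.normalizer (Q : Set X))).map Q.normalizerMonoidHom := by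
            rw [← hrange]; exact MonoidHom.mem_range.2 ⟨_, rfl⟩
          obtain ⟨k, hk⟩ := hpg ⟨_, hmem⟩
          have hk' : (Q.normalizerMonoidHom ⟨g, hg⟩) ^ (2 ^ k) = 1 := by
            have h6 := congrArg Subtype.val hk
            simpa using h6
          exact eq_one_of_pow_two_pow_of_odd _ k (orderOf g) hk' hodd hσ
      exact mem_centralizer_of_normalizerMonoidHom_eq_one Q g hg hfin
    obtain ⟨N, hNn, hc⟩ := (frobenius_sylow S).2 key
    exact ⟨S, N, hNn, hc⟩

end Cfsg.Agent.S1254
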