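import Cfsg.Statements.S1255
import Cfsg.Agent.S0107
import Cfsg.Agent.Lib.Helper52.KleinFusion
import Cfsg.Agent.Lib.Helper20.Isolated
import Mathlib

set_option autoImplicit false
open Cfsg

namespace Cfsg.Agent.S1255

section Coord

variable {X : Type*} [Group X] {S : Subgroup X} {n : ℕ} (e : S ≃* DihedralGroup n)

/-- The rotations of a dihedral subgroup. -/
def R (i : ZMod n) : X := ((e.symm (DihedralGroup.r i) : S) : X)

/-- The reflections of a dihedral subgroup. -/
def T (i : ZMod n) : X := ((e.symm (DihedralGroup.sr i) : S) : X)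

theorem R_mem (i : ZMod n) : R e i ∈ S := (e.symm (DihedralGroup.r i)).2

theorem T_mem (i : ZMod n) : T e i ∈ S := (e.symm (DihedralGroup.sr i)).2

theorem RR (i j : ZMod n) : R e i * R e j = R e (i + j) := by
  unfold R; rw [← Subgroup.coe_mul, ← map_mul, DihedralGroup.r_mul_r]

theorem RT (i j : ZMod n) : R e i * T e j = T e (j - i) := by
  unfold R T; rw [← Subgroup.coe_mul, ← map_mul, DihedralGroup.r_mul_sr]

theorem TR (i j : ZMod n) : T e i * R e j = T e (i + j) := by
  unfold R T; rw [← Subgroup.coe_mul, ← map_mul, DihedralGroup.sr_mul_r]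

theorem TT (i j : ZMod n) : T e i * T e j = R e (j - i) := by
  unfold R T; rw [← Subgroup.coe_mul, ← map_mul, DihedralGroup.sr_mul_sr]

theorem R_zero : R e 0 = 1 := by
  unfold R; rw [DihedralGroup.r_zero, map_one]; rfl

theorem R_inj {i j : ZMod n} (h : R e i = R e j) : i = j := by
  have h1 := e.symm.injective (Subtype.ext h)
  injection h1

theorem R_ne_T (i j : ZMod n) : R e i ≠ T e j := by
  intro h
  have h1 := e.symm.injective (Subtype.ext h)
  cases h1

theorem T_ne_one (i : ZMod n) : T e i ≠ 1 := by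
  rw [← R_zero e]; exact (R_ne_T e 0 i).symm

theorem cover (s : X) (hs : s ∈ S) : (∃ i, s = R e i) ∨ ∃ i, s = T e i := by
  have h0 : (⟨s, hs⟩ : S) = e.symm (e ⟨s, hs⟩) := (e.symm_apply_apply _).symm
  rcases hd : e ⟨s, hs⟩ with i | i
  · left; rw [hd] at h0; exact ⟨i, congrArg Subtype.val h0⟩
  · right; rw [hd] at h0; exact ⟨i, congrArg Subtype.val h0⟩

theorem TT_self (i : ZMod n) : T e i * T e i = 1 := by rw [TT, sub_self, R_zero]

theorem orderOf_T (i : ZMod n) : orderOf (T e i) = 2 := by
  rw [orderOf_eq_prime_iff]; exact ⟨by rw [sq]; exact TT_self e i, T_ne_one e i⟩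

end Coord

/-- The element of order two of `ZMod (2 ^ (k + 1))`. -/
def hf (k : ℕ) : ZMod (2 ^ (k + 1)) := ((2 ^ k : ℕ) : ZMod (2 ^ (k + 1)))

theorem hf_add (k : ℕ) : hf k + hf k = 0 := by
  unfold hf
  rw [← Nat.cast_add, ← two_mul, ← pow_succ', ZMod.natCast_self]

theorem hf_ne (k : ℕ) : hf k ≠ 0 := by
  unfold hf
  rw [Ne, ZMod.natCast_eq_zero_iff]
  intro h
  have h1 := Nat.le_of_dvd (by positivity) h
  have h2 : 2 ^ k < 2 ^ (k + 1) := Nat.pow_lt_pow_right (by norm_num) (by omega)
  omega

theorem sq_eq_one_of_orderOf {X : Type*} [Group X] {t : X} (ht : orderOf t = 2) : t * t = 1 := by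
  have := pow_orderOf_eq_one t
  rw [ht, sq] at this
  exact this

theorem ne_one_of_orderOf {X : Type*} [Group X] {t : X} (ht : orderOf t = 2) : t ≠ 1 := by
  rintro rfl
  rw [orderOf_one] at ht
  exact absurd ht (by norm_num)

section Main

variable {X : Type*} [Group X] [Finite X] (S : Sylow 2 X) {k : ℕ}
  (e : (S : Subgroup X) ≃* DihedralGroup (2 ^ (k + 1)))

include e

omit [Finite X] in
theorem orderOf_Rhf : orderOf (R e (hf k)) = 2 := by
  rw [orderOf_eq_prime_iff]
  refine ⟨by rw [sq, RR, hf_add, R_zero], ?_⟩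
  rw [← R_zero e]; exact fun h => hf_ne k (R_inj e h)

omit [Finite X] in
/-- Every involution of `S` commutes with another involution of `S`. -/
theorem exists_comm_invol (t : X) (ht : t ∈ (S : Subgroup X)) (ht2 : orderOf t = 2) :
    ∃ u ∈ (S : Subgroup X), orderOf u = 2 ∧ u ≠ t ∧ t * u = u * t := by
  rcases cover e t ht with ⟨i, rfl⟩ | ⟨i, rfl⟩
  · have h1 := sq_eq_one_of_orderOf ht2
    rw [RR] at h1
    have h2 : i + i = 0 := R_inj e (h1.trans (R_zero e).symm)
    refine ⟨T e 0, T_mem e 0, orderOf_T e 0, (R_ne_T e i 0).symm, ?_⟩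
    rw [RT, TR]
    congr 1
    linear_combination -h2
  · refine ⟨R e (hf k), R_mem e _, orderOf_Rhf S e, R_ne_T e _ _, ?_⟩
    rw [TR, RT]; congr 1; linear_combination hf_add k

open Cfsg.Agent.Lib.Helper52 in
/-- A single class of involutions implies no subgroup of index two and no isolated involution. -/
theorem lhs_of_caseA (hA : ∀ a b : X, orderOf a = 2 → orderOf b = 2 → IsConj a b) :
    (∀ H : Subgroup X, H.index ≠ 2) ∧ (∀ z : X, ¬ Cfsg.IsIsolatedInvolution z) := by
  have : Fact (Nat.Prime 2) := ⟨Nat.prime_two⟩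
  constructor
  · intro H hH
    have hHn : H.Normal := Subgroup.normal_of_index_eq_two hH
    have h0 : T e 0 ∈ H := by
      by_contra hc
      have hall : ∀ t : X, orderOf t = 2 → t ∉ H := by
        intro t ht htH
        obtain ⟨g, hg⟩ := isConj_iff.1 (hA t (T e 0) ht (orderOf_T e 0))
        apply hc
        rw [← hg]
        exact hHn.conj_mem t htH g
      have h1 := Subgroup.mul_mem_iff_of_index_two hH (a := T e 0) (b := T e (hf k))
      have h2 : T e 0 * T e (hf k) ∈ H :=
        h1.2 ⟨fun h => absurd h hc, fun h => absurd h (hall _ (orderOf_T e _))⟩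
      rw [TT, sub_zero] at h2
      exact hall _ (orderOf_Rhf S e) h2
    have hall : ∀ t : X, orderOf t = 2 → t ∈ H := by
      intro t ht
      obtain ⟨g, hg⟩ := isConj_iff.1 (hA (T e 0) t (orderOf_T e 0) ht)
      rw [← hg]
      exact hHn.conj_mem _ h0 g
    have hle : (S : Subgroup X) ≤ H := by
      intro s hs
      rcases cover e s hs with ⟨i, rfl⟩ | ⟨i, rfl⟩
      · have h3 : R e i = T e 0 * T e i := by rw [TT, sub_zero]
        rw [h3]
        exact H.mul_mem (hall _ (orderOf_T e _)) (hall _ (orderOf_T e _))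
      · exact hall _ (orderOf_T e _)
    have h1 := Subgroup.index_dvd_of_le hle
    rw [hH] at h1
    exact S.not_dvd_index h1
  · intro z hz
    obtain ⟨g, hg⟩ := exists_conj_mem_sylow_of_orderOf_two S z hz.1
    have hz' := Cfsg.Agent.Lib.Helper20.iso_conj hz g
    obtain ⟨u, huS, hu2, hne, hcomm⟩ := exists_comm_invol S e _ hg hz'.1
    obtain ⟨c, hc⟩ := isConj_iff.1 (hA _ u hz'.1 hu2)
    have h1 := hz'.2 c (by rw [hc]; exact hcomm)
    rw [hc] at h1
    exact hne h1

open Cfsg.Agent.Lib.Helper52 in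
/-- If `3` divides `|N(U) : C(U)|` for all four-subgroups `U` of `S`, all involutions are
conjugate. -/
theorem caseA_of_caseB
    (hB : ∀ U : Subgroup X, U ≤ S → IsKleinFour U →
      3 ∣ (Subgroup.centralizer (U : Set X)).relIndex (Subgroup.normalizer (U : Set X))) :
    ∀ a b : X, orderOf a = 2 → orderOf b = 2 → IsConj a b := by
  have key : ∀ x ∈ (S : Subgroup X), ∀ y ∈ (S : Subgroup X), orderOf x = 2 → orderOf y = 2 →
      x * y = y * x → IsConj x y := by
    intro x hx y hy hx2 hy2 hxy
    by_cases hne : x = y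
    · rw [hne]
    have hx1 := ne_one_of_orderOf hx2
    have hy1 := ne_one_of_orderOf hy2
    obtain ⟨U, hU, hmem⟩ := exists_isKleinFour_of_comm x y (sq_eq_one_of_orderOf hx2)
      (sq_eq_one_of_orderOf hy2) hxy hx1 hy1 hne
    have hUS : U ≤ S := by
      intro t ht
      rcases (hmem t).1 ht with h | h | h | h
      · rw [h]; exact one_mem _
      · rw [h]; exact hx
      · rw [h]; exact hy
      · rw [h]; exact mul_mem hx hy
    exact klein_isConj_of_three_dvd U hU (hB U hUS hU) x y ((hmem x).2 (Or.inr (Or.inl rfl)))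
      ((hmem y).2 (Or.inr (Or.inr (Or.inl rfl)))) hx1 hy1
  have hS : ∀ t ∈ (S : Subgroup X), orderOf t = 2 → IsConj t (R e (hf k)) := by
    intro t ht ht2
    have hTz : ∀ i, IsConj (T e i) (R e (hf k)) := by
      intro i
      refine key _ (T_mem e i) _ (R_mem e _) (orderOf_T e i) (orderOf_Rhf S e) ?_
      rw [TR, RT]; congr 1; linear_combination hf_add k
    rcases cover e t ht with ⟨i, rfl⟩ | ⟨i, rfl⟩
    · have h1 := sq_eq_one_of_orderOf ht2
      rw [RR] at h1
      have h2 : i + i = 0 := R_inj e (h1.trans (R_zero e).symm)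
      have hc1 : IsConj (R e i) (T e 0) := by
        refine key _ (R_mem e i) _ (T_mem e 0) ht2 (orderOf_T e 0) ?_
        rw [RT, TR]; congr 1; linear_combination -h2
      exact hc1.trans (hTz 0)
    · exact hTz i
  intro a b ha hb
  obtain ⟨g, hg⟩ := exists_conj_mem_sylow_of_orderOf_two S a ha
  obtain ⟨g', hg'⟩ := exists_conj_mem_sylow_of_orderOf_two S b hb
  have h1 : IsConj a (g * a * g⁻¹) := isConj_iff.2 ⟨g, rfl⟩
  have h2 : IsConj b (g' * b * g'⁻¹) := isConj_iff.2 ⟨g', rfl⟩
  have o1 : orderOf (g * a * g⁻¹) = 2 := by rw [orderOf_conj_eq]; exact ha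
  have o2 : orderOf (g' * b * g'⁻¹) = 2 := by rw [orderOf_conj_eq]; exact hb
  exact (h1.trans (hS _ hg o1)).trans ((h2.trans (hS _ hg' o2)).symm)

open Cfsg.Agent.Lib.Helper52 in
open scoped commutatorElement in
/-- Without subgroups of index two all involutions are conjugate. -/
theorem caseA_of_no_index_two (h : ∀ H : Subgroup X, H.index ≠ 2) :
    ∀ a b : X, orderOf a = 2 → orderOf b = 2 → IsConj a b := by
  have : Fact (Nat.Prime 2) := ⟨Nat.prime_two⟩
  intro a b ha hb
  rcases Nat.eq_zero_or_pos k with rfl | hk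
  · have hS : IsKleinFour (S : Subgroup X) := by
      have h0 : IsKleinFour (DihedralGroup (2 ^ (0 + 1))) := by
        show IsKleinFour (DihedralGroup 2)
        infer_instance
      exact ⟨by rw [Nat.card_congr e.toEquiv]; exact h0.card_four,
        by rw [Monoid.exponent_eq_of_mulEquiv e]; exact h0.exponent_two⟩
    rcases klein_dichotomy S hS with h1 | h1
    · obtain ⟨g, hg⟩ := exists_conj_mem_sylow_of_orderOf_two S a ha
      obtain ⟨g', hg'⟩ := exists_conj_mem_sylow_of_orderOf_two S b hb
      have c1 : IsConj a (g * a * g⁻¹) := isConj_iff.2 ⟨g, rfl⟩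
      have c2 : IsConj b (g' * b * g'⁻¹) := isConj_iff.2 ⟨g', rfl⟩
      have o1 : orderOf (g * a * g⁻¹) = 2 := by rw [orderOf_conj_eq]; exact ha
      have o2 : orderOf (g' * b * g'⁻¹) = 2 := by rw [orderOf_conj_eq]; exact hb
      exact (c1.trans (h1 _ hg _ hg' (ne_one_of_orderOf o1) (ne_one_of_orderOf o2))).trans c2.symm
    · exfalso
      obtain ⟨M, hM⟩ := Sylow.exists_subgroup_card_pow_prime (G := (S : Subgroup X)) 2 (n := 1)
        (by rw [hS.card_four]; norm_num)
      have hMi : M.index = 2 := by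
        have h2 := M.card_mul_index
        rw [hM, hS.card_four] at h2
        omega
      have hfoc : Subgroup.focalSubgroupOf (S : Subgroup X) ≤ M := by
        rw [Subgroup.focalSubgroupOf_eq_closure, Subgroup.closure_le]
        rintro g ⟨x, hx, u, hgu⟩
        rw [commutatorElement_def] at hgu
        have hg1 : (g : X) = 1 := by
          by_cases hx1 : x = 1
          · rw [hgu, hx1]; group
          · have h3 : u * x⁻¹ * u⁻¹ = x⁻¹ * (g : X) := by rw [hgu]; group
            have hxi : x⁻¹ ≠ 1 := fun h0 => hx1 (inv_eq_one.1 h0)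
            have hm : x⁻¹ * (g : X) ∈ (S : Subgroup X) := mul_mem (inv_mem hx) g.2
            have hn1 : x⁻¹ * (g : X) ≠ 1 := by
              rw [← h3]
              intro h0
              apply hxi
              have h4 : x⁻¹ = u⁻¹ * (u * x⁻¹ * u⁻¹) * u := by group
              rw [h4, h0]; group
            have h5 := h1 _ (inv_mem hx) _ hm hxi hn1 (isConj_iff.2 ⟨u, h3⟩)
            have h6 : x⁻¹ * 1 = x⁻¹ * (g : X) := by rw [mul_one]; exact h5
            exact (mul_left_cancel h6).symm
        have hg2 : g = 1 := Subtype.ext hg1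
        rw [hg2]
        exact one_mem M
      obtain ⟨K, -, hK⟩ := exists_index_two_of_focal_le S M hMi hfoc
      exact h K hK
  · obtain ⟨g, hg⟩ := Cfsg.Agent.S0107.result S (k + 1) (by omega) ⟨e⟩
      (pResidual_eq_top_of_no_index_two h) a b ha hb
    exact isConj_iff.2 ⟨g, hg⟩

end Main

/-- Let X be a finite group whose Sylow 2-subgroup S is dihedral of order 2m ≥ 4. Then X has no subgroup of index 2 and no isolated involution if and only if either all involutions of X are conjugate, or for every Klein four-subgroup U ≤ S the index |N_X(U) : C_X(U)| equals 3 when |S| = 4 and equals 6 when |S| > 4. -/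
theorem result {X : Type*} [Group X] [Finite X] (S : Sylow 2 X) (m : ℕ) (hm : 2 ≤ m) (eS : (S : Subgroup X) ≃* DihedralGroup m) : ((∀ H : Subgroup X, H.index ≠ 2) ∧ (∀ z : X, ¬ Cfsg.IsIsolatedInvolution z)) ↔ ((∀ a b : X, orderOf a = 2 → orderOf b = 2 → IsConj a b) ∨ (∀ U : Subgroup X, U ≤ S → IsKleinFour U → (Subgroup.centralizer (U : Set X)).relIndex (Subgroup.normalizer (U : Set X)) = (if Nat.card S = 4 then 3 else 6))) := by
  have : Fact (Nat.Prime 2) := ⟨Nat.prime_two⟩
  obtain ⟨k, rfl⟩ : ∃ k, m = 2 ^ (k + 1) := by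
    have hcard : Nat.card (S : Subgroup X) = 2 * m := by
      rw [Nat.card_congr eS.toEquiv, DihedralGroup.nat_card]
    obtain ⟨a, ha⟩ := IsPGroup.iff_card.1 S.isPGroup'
    have h1 : 2 ^ a = 2 * m := by rw [← ha, hcard]
    have ha2 : 2 ≤ a := by
      by_contra hlt
      have h3 : a = 0 ∨ a = 1 := by omega
      rcases h3 with rfl | rfl
      · simp at h1; omega
      · simp at h1; omega
    refine ⟨a - 2, ?_⟩
    have h2 : 2 ^ a = 2 * 2 ^ (a - 2 + 1) := by rw [← pow_succ']; congr 1; omega
    omega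
  constructor
  · rintro ⟨h1, -⟩
    left
    exact caseA_of_no_index_two S eS h1
  · intro h
    have hA : ∀ a b : X, orderOf a = 2 → orderOf b = 2 → IsConj a b := by
      rcases h with h | h
      · exact h
      · apply caseA_of_caseB S eS
        intro U hUS hU
        rw [h U hUS hU]
        split_ifs <;> norm_num
    exact lhs_of_caseA S eS hA

end Cfsg.Agent.S1255
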