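import Cfsg.Statements.S1256
import Cfsg.Agent.S1255
import Cfsg.Agent.S0116
import Cfsg.Agent.Lib.Helper52.KleinFusion
import Cfsg.Agent.Lib.Helper52.KleinSylow
import Cfsg.Agent.Lib.Helper67.DihFourA
import Mathlib

set_option autoImplicit false
open Cfsg

namespace Cfsg.Agent.S1256

open Cfsg.Agent.S1255 Cfsg.Agent.Lib.Helper67.DihFour

/-- Conjugation of a Sylow subgroup, as a map of subgroups. -/
theorem map_conj_sylow {X : Type*} [Group X] (P : Sylow 2 X) (g : X) :
    (P : Subgroup X).map (MulAut.conj g).toMonoidHom = ((g • P : Sylow 2 X) : Subgroup X) := by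
  rw [Sylow.coe_subgroup_smul]
  rfl

/-- The case `|S| = 4`. -/
theorem part_one {X : Type*} [Group X] [Finite X] (S : Sylow 2 X)
    (h4 : Nat.card (S : Subgroup X) = 4) (U V : Subgroup X) (hU : IsKleinFour U)
    (hV : IsKleinFour V) : ∃ x : X, U.map (MulAut.conj x).toMonoidHom = V := by
  have : Fact (Nat.Prime 2) := ⟨Nat.prime_two⟩
  have key : ∀ W : Subgroup X, IsKleinFour W → ∃ P : Sylow 2 X, (P : Subgroup X) = W := by
    intro W hW
    obtain ⟨P, hP⟩ := (Cfsg.Agent.Lib.Helper52.isPGroup_of_isKleinFour W hW).exists_le_sylow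
    refine ⟨P, (Subgroup.eq_of_le_of_card_ge hP ?_).symm⟩
    have h1 : Nat.card (P : Subgroup X) = Nat.card (S : Subgroup X) := by
      rw [Sylow.card_eq_multiplicity, Sylow.card_eq_multiplicity]
    rw [h1, h4, hW.card_four]
  obtain ⟨P, hP⟩ := key U hU
  obtain ⟨Q, hQ⟩ := key V hV
  obtain ⟨g, hg⟩ := MulAction.exists_smul_eq X P Q
  refine ⟨g, ?_⟩
  rw [← hP, ← hQ, ← hg, map_conj_sylow]

/-- The case `|S| > 4`. -/
theorem part_two {X : Type*} [Group X] [Finite X] (S : Sylow 2 X) {k : ℕ}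
    (e : (S : Subgroup X) ≃* DihedralGroup (2 ^ (k + 1))) (hk : 1 ≤ k) :
    ∃ U₁ U₂ : Subgroup X, IsKleinFour U₁ ∧ IsKleinFour U₂ ∧
      ¬ (∃ x : X, U₁.map (MulAut.conj x).toMonoidHom = U₂) ∧
      ∀ V : Subgroup X, IsKleinFour V → (∃ x : X, V.map (MulAut.conj x).toMonoidHom = U₁) ∨
        (∃ x : X, V.map (MulAut.conj x).toMonoidHom = U₂) := by
  have : Fact (Nat.Prime 2) := ⟨Nat.prime_two⟩
  obtain ⟨z, hz⟩ : ∃ z : X, z = R e (hf k) := ⟨_, rfl⟩
  have hzz : z * z = 1 := by rw [hz, RR, hf_add, R_zero]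
  have hz1 : z ≠ 1 := by rw [hz, ← R_zero e]; exact fun h => hf_ne k (R_inj e h)
  have hzS : z ∈ (S : Subgroup X) := by rw [hz]; exact R_mem e _
  have hTz : ∀ a, T e a * z = z * T e a := by
    intro a; rw [hz, TR, RT]; congr 1; linear_combination hf_add k
  have hTzT : ∀ a, T e a * z = T e (a + hf k) := by intro a; rw [hz, TR]
  have hex : ∀ a, ∃ U : Subgroup X, IsKleinFour U ∧
      ∀ t, t ∈ U ↔ (t = 1 ∨ t = T e a ∨ t = z ∨ t = T e a * z) := fun a =>
    Cfsg.Agent.Lib.Helper52.exists_isKleinFour_of_comm (T e a) z (TT_self e a) hzz (hTz a)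
      (T_ne_one e a) hz1 (by rw [hz]; exact (R_ne_T e _ a).symm)
  obtain ⟨U₁, hU₁, hm₁⟩ := hex 0
  obtain ⟨U₂, hU₂, hm₂⟩ := hex 1
  -- an involution among the rotations is `z`
  have hrot : ∀ i, R e i * R e i = 1 → R e i ≠ 1 → R e i = z := by
    intro i h1 h2
    rcases R_invol S e i h1 with h | h
    · exact absurd h h2
    · rw [hz]; exact h
  refine ⟨U₁, U₂, hU₁, hU₂, ?_, ?_⟩
  · rintro ⟨x, hx⟩
    have hA : (U₁ : Set X) ⊆ ((S : Subgroup X) : Set X) := by
      intro t ht
      rcases (hm₁ t).mp ht with rfl | rfl | rfl | rfl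
      · exact Subgroup.one_mem _
      · exact T_mem e 0
      · exact hzS
      · exact Subgroup.mul_mem _ (T_mem e 0) hzS
    have hU₂S : ∀ t ∈ U₂, t ∈ (S : Subgroup X) := by
      intro t ht
      rcases (hm₂ t).mp ht with rfl | rfl | rfl | rfl
      · exact Subgroup.one_mem _
      · exact T_mem e 1
      · exact hzS
      · exact Subgroup.mul_mem _ (T_mem e 1) hzS
    have hAg : (fun a => (x⁻¹)⁻¹ * a * x⁻¹) '' (U₁ : Set X) ⊆ ((S : Subgroup X) : Set X) := by
      rintro _ ⟨a, ha, rfl⟩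
      apply hU₂S
      rw [← hx]
      refine Subgroup.mem_map.mpr ⟨a, ha, ?_⟩
      simp [MulAut.conj_apply]
    obtain ⟨n, Q, xs, hprod, hnorm, h0, hstep⟩ :=
      Cfsg.Agent.S0116.result S (U₁ : Set X) x⁻¹ hA hAg
    have hEv₁ : ∀ a ∈ U₁, Ev e a := by
      intro t ht
      rcases (hm₁ t).mp ht with rfl | rfl | rfl | rfl
      · exact Ev_one e
      · exact Ev_T e (map_zero _)
      · rw [hz]; exact Ev_R e (par_hf k hk)
      · rw [hTzT, zero_add]; exact Ev_T e (par_hf k hk)
    have hT0 : T e 0 ∈ U₁ := (hm₁ _).mpr (Or.inr (Or.inl rfl))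
    have hT0z : T e 0 * z ∈ U₁ := (hm₁ _).mpr (Or.inr (Or.inr (Or.inr rfl)))
    have hinD : ∀ j (hjn : j < n), ∀ a' ∈ U₁,
        (((List.ofFn xs).take j).prod)⁻¹ * a' * ((List.ofFn xs).take j).prod ∈
          (S : Subgroup X) ⊓ (Q ⟨j, hjn⟩ : Subgroup X) := by
      intro j hjn a' ha'
      rcases j with _ | j'
      · have h1 := h0 hjn ha'
        simp only [List.take_zero, List.prod_nil, inv_one, one_mul, mul_one]
        exact h1
      · exact hstep ⟨j', by omega⟩ hjn ⟨a', ha', rfl⟩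
    have key : ∀ j, j ≤ n → ∀ a ∈ U₁,
        Ev e ((((List.ofFn xs).take j).prod)⁻¹ * a * ((List.ofFn xs).take j).prod) := by
      intro j
      induction j with
      | zero => intro _ a ha; simpa using hEv₁ a ha
      | succ j ih =>
        intro hj a ha
        have hjn : j < n := hj
        have hlen : j < (List.ofFn xs).length := by rw [List.length_ofFn]; exact hjn
        rw [List.prod_take_succ _ _ hlen]
        have hxj : (List.ofFn xs)[j] = xs ⟨j, hjn⟩ := by simp
        rw [hxj]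
        obtain ⟨y, hy⟩ : ∃ y : X, y = ((List.ofFn xs).take j).prod := ⟨_, rfl⟩
        rw [← hy]
        have ih' : ∀ a ∈ U₁, Ev e (y⁻¹ * a * y) := by
          intro a ha; rw [hy]; exact ih (by omega) a ha
        have hinD' : ∀ a ∈ U₁, y⁻¹ * a * y ∈ (S : Subgroup X) ⊓ (Q ⟨j, hjn⟩ : Subgroup X) := by
          intro a ha; rw [hy]; exact hinD j hjn a ha
        obtain ⟨D, hD⟩ : ∃ D : Subgroup X, D = (S : Subgroup X) ⊓ (Q ⟨j, hjn⟩ : Subgroup X) :=
          ⟨_, rfl⟩
        have hxN : xs ⟨j, hjn⟩ ∈ Subgroup.normalizer (D : Set X) := by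
          rw [hD]; exact (hnorm ⟨j, hjn⟩).1
        have hxN' : (xs ⟨j, hjn⟩)⁻¹ ∈ Subgroup.normalizer (D : Set X) := Subgroup.inv_mem _ hxN
        have hb : Ev e (y⁻¹ * a * y) := ih' a ha
        have hbD : y⁻¹ * a * y ∈ D := by rw [hD]; exact hinD' a ha
        have hgoal : (y * xs ⟨j, hjn⟩)⁻¹ * a * (y * xs ⟨j, hjn⟩) =
            (xs ⟨j, hjn⟩)⁻¹ * (y⁻¹ * a * y) * (xs ⟨j, hjn⟩)⁻¹⁻¹ := by group
        rw [hgoal]
        by_cases hDS : D = (S : Subgroup X)
        · have h1 : (xs ⟨j, hjn⟩)⁻¹ ∈ Subgroup.normalizer ((S : Subgroup X) : Set X) := by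
            rw [← hDS]; exact hxN'
          have h2 := normalizer_le_normalizer_Ev S e hk h1
          exact (Subgroup.mem_set_normalizer_iff.mp h2 _).mp hb
        · have hmemD : (xs ⟨j, hjn⟩)⁻¹ * (y⁻¹ * a * y) * (xs ⟨j, hjn⟩)⁻¹⁻¹ ∈ D :=
            (Subgroup.mem_normalizer_iff.mp hxN' _).mp hbD
          have hDle : D ≤ (S : Subgroup X) := by rw [hD]; exact inf_le_left
          obtain ⟨a', ha'par, ha'D⟩ : ∃ a', par k a' = 0 ∧ T e a' ∈ D := by
            have hb1 := ih' _ hT0
            have hb1D : y⁻¹ * T e 0 * y ∈ D := by rw [hD]; exact hinD' _ hT0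
            have hb2 := ih' _ hT0z
            have hb2D : y⁻¹ * (T e 0 * z) * y ∈ D := by rw [hD]; exact hinD' _ hT0z
            obtain ⟨i1, hi1, h1 | h1⟩ := hb1
            · obtain ⟨i2, hi2, h2 | h2⟩ := hb2
              · exfalso
                have hs1 : R e i1 * R e i1 = 1 := by
                  rw [← h1]
                  calc (y⁻¹ * T e 0 * y) * (y⁻¹ * T e 0 * y) = y⁻¹ * (T e 0 * T e 0) * y := by
                        group
                    _ = 1 := by rw [TT_self]; group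
                have hn1 : R e i1 ≠ 1 := by
                  rw [← h1]
                  intro h
                  have h3 : T e 0 = 1 := by
                    have : y⁻¹ * T e 0 * y = y⁻¹ * 1 * y := by rw [h]; group
                    exact mul_left_cancel (mul_right_cancel this)
                  exact T_ne_one e 0 h3
                have hs2 : R e i2 * R e i2 = 1 := by
                  rw [← h2]
                  calc (y⁻¹ * (T e 0 * z) * y) * (y⁻¹ * (T e 0 * z) * y)
                      = y⁻¹ * ((T e 0 * z) * (T e 0 * z)) * y := by group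
                    _ = 1 := by rw [hTzT, TT_self]; group
                have hn2 : R e i2 ≠ 1 := by
                  rw [← h2]
                  intro h
                  have h3 : T e 0 * z = 1 := by
                    have : y⁻¹ * (T e 0 * z) * y = y⁻¹ * 1 * y := by rw [h]; group
                    exact mul_left_cancel (mul_right_cancel this)
                  rw [hTzT] at h3
                  exact T_ne_one e _ h3
                have h5 : y⁻¹ * T e 0 * y = y⁻¹ * (T e 0 * z) * y := by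
                  rw [h1, h2, hrot i1 hs1 hn1, hrot i2 hs2 hn2]
                have h6 : T e 0 = T e 0 * z := mul_left_cancel (mul_right_cancel h5)
                exact hz1 (by
                  have : T e 0 * 1 = T e 0 * z := by rw [mul_one]; exact h6
                  exact (mul_left_cancel this).symm)
              · exact ⟨i2, hi2, by rw [← h2]; exact hb2D⟩
            · exact ⟨i1, hi1, by rw [← h1]; exact hb1D⟩
          exact Ev_of_proper e D hDle hDS a' ha'par ha'D _ hmemD
    have hfinal : ∀ a ∈ U₁, Ev e (x * a * x⁻¹) := by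
      intro a ha
      have h1 := key n le_rfl a ha
      have h2 : (List.ofFn xs).take n = List.ofFn xs := List.take_of_length_le (by simp)
      rw [h2, hprod, inv_inv] at h1
      exact h1
    have hT1 : T e 1 ∈ U₂ := (hm₂ _).mpr (Or.inr (Or.inl rfl))
    rw [← hx] at hT1
    obtain ⟨a, ha, hax⟩ := Subgroup.mem_map.mp hT1
    have h3 : x * a * x⁻¹ = T e 1 := by
      rw [← hax]; simp [MulAut.conj_apply]
    exact not_Ev_T_one e (h3 ▸ hfinal a ha)
  · intro V hV
    obtain ⟨P, hP⟩ := (Cfsg.Agent.Lib.Helper52.isPGroup_of_isKleinFour V hV).exists_le_sylow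
    obtain ⟨g, hg⟩ := MulAction.exists_smul_eq X P S
    have hVS : ∀ v ∈ V, g * v * g⁻¹ ∈ (S : Subgroup X) := by
      intro v hv
      rw [← hg, ← map_conj_sylow]
      exact Subgroup.mem_map.mpr ⟨v, hP hv, by simp [MulAut.conj_apply]⟩
    have hsq : ∀ v ∈ V, v * v = 1 := fun v hv =>
      congrArg Subtype.val (IsKleinFour.mul_self (⟨v, hv⟩ : V))
    have hcardV : Nat.card V = 4 := hV.card_four
    have hcsq : ∀ v ∈ V, (g * v * g⁻¹) * (g * v * g⁻¹) = 1 := by
      intro v hv
      calc (g * v * g⁻¹) * (g * v * g⁻¹) = g * (v * v) * g⁻¹ := by group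
        _ = 1 := by rw [hsq v hv]; group
    have hcne : ∀ v : X, v ≠ 1 → g * v * g⁻¹ ≠ 1 := by
      intro v hv h
      apply hv
      have : g * v * g⁻¹ = g * 1 * g⁻¹ := by rw [h]; group
      exact mul_left_cancel (mul_right_cancel this)
    -- a reflection in the conjugate of V
    obtain ⟨v₁, hv₁, hv₁1, hv₁z⟩ := exists_mem_ne_ne V hcardV 1 (g⁻¹ * z * g)
    obtain ⟨a, ha⟩ : ∃ a, g * v₁ * g⁻¹ = T e a := by
      rcases cover e _ (hVS v₁ hv₁) with ⟨i, hi⟩ | ⟨i, hi⟩
      · exfalso
        have h1 : R e i = z := hrot i (by rw [← hi]; exact hcsq v₁ hv₁)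
          (by rw [← hi]; exact hcne v₁ hv₁1)
        apply hv₁z
        rw [← h1, ← hi]; group
      · exact ⟨i, hi⟩
    -- the central involution
    obtain ⟨v₂, hv₂, hv₂z⟩ : ∃ v ∈ V, g * v * g⁻¹ = z := by
      obtain ⟨u, hu, hu1, hu2⟩ := exists_mem_ne_ne V hcardV 1 v₁
      rcases cover e _ (hVS u hu) with ⟨i, hi⟩ | ⟨i, hi⟩
      · refine ⟨u, hu, ?_⟩
        rw [hi]
        exact hrot i (by rw [← hi]; exact hcsq u hu) (by rw [← hi]; exact hcne u hu1)
      · refine ⟨v₁ * u, V.mul_mem hv₁ hu, ?_⟩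
        have h1 : g * (v₁ * u) * g⁻¹ = R e (i - a) := by
          calc g * (v₁ * u) * g⁻¹ = (g * v₁ * g⁻¹) * (g * u * g⁻¹) := by group
            _ = R e (i - a) := by rw [ha, hi, TT]
        rw [h1]
        apply hrot
        · rw [← h1]; exact hcsq _ (V.mul_mem hv₁ hu)
        · rw [← h1]
          apply hcne
          intro h
          -- v₁ * u = 1 with u * u = 1 gives v₁ = u
          apply hu2
          have h2 : v₁ * u = u * u := by rw [h, hsq u hu]
          exact (mul_right_cancel h2).symm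
    -- normalise the reflection index to `0` or `1`
    have hnat : a = ((a.val / 2 : ℕ) : ZMod (2 ^ (k + 1))) + ((a.val / 2 : ℕ) : ZMod (2 ^ (k + 1)))
        + ((a.val % 2 : ℕ) : ZMod (2 ^ (k + 1))) := by
      have h1 : a.val = a.val / 2 + a.val / 2 + a.val % 2 := by omega
      conv_lhs => rw [← ZMod.natCast_zmod_val a, h1]
      push_cast
      rfl
    obtain ⟨q, hq⟩ : ∃ q : ZMod (2 ^ (k + 1)), q = ((a.val / 2 : ℕ) : ZMod (2 ^ (k + 1))) :=
      ⟨_, rfl⟩
    rw [← hq] at hnat
    have hw1 : (R e q * g) * v₁ * (R e q * g)⁻¹ = T e ((a.val % 2 : ℕ) : ZMod (2 ^ (k + 1))) := by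
      calc (R e q * g) * v₁ * (R e q * g)⁻¹ = R e q * (g * v₁ * g⁻¹) * (R e q)⁻¹ := by group
        _ = T e ((a.val % 2 : ℕ) : ZMod (2 ^ (k + 1))) := by
          rw [ha, R_inv, RT, TR]; congr 1; linear_combination hnat
    have hw2 : (R e q * g) * v₂ * (R e q * g)⁻¹ = z := by
      calc (R e q * g) * v₂ * (R e q * g)⁻¹ = R e q * (g * v₂ * g⁻¹) * (R e q)⁻¹ := by group
        _ = z := by rw [hv₂z, hz, R_inv, RR, RR]; congr 1; ring
    have hcardmap : Nat.card (V.map (MulAut.conj (R e q * g)).toMonoidHom) = 4 := by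
      rw [Subgroup.card_map_of_injective (MulAut.conj (R e q * g)).injective, hcardV]
    have hmem1 : ∀ v ∈ V, (R e q * g) * v * (R e q * g)⁻¹ ∈
        V.map (MulAut.conj (R e q * g)).toMonoidHom := by
      intro v hv
      exact Subgroup.mem_map.mpr ⟨v, hv, by rw [MulEquiv.coe_toMonoidHom, MulAut.conj_apply]⟩
    have hfin : ∀ (b : ZMod (2 ^ (k + 1))) (U : Subgroup X), IsKleinFour U →
        (∀ t, t ∈ U ↔ (t = 1 ∨ t = T e b ∨ t = z ∨ t = T e b * z)) →
        ((a.val % 2 : ℕ) : ZMod (2 ^ (k + 1))) = b →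
        V.map (MulAut.conj (R e q * g)).toMonoidHom = U := by
      intro b U hU hm hb
      symm
      apply Subgroup.eq_of_le_of_card_ge
      · intro t ht
        have hTb : T e b ∈ V.map (MulAut.conj (R e q * g)).toMonoidHom := by
          rw [← hb, ← hw1]; exact hmem1 v₁ hv₁
        have hzm : z ∈ V.map (MulAut.conj (R e q * g)).toMonoidHom := by
          rw [← hw2]; exact hmem1 v₂ hv₂
        rcases (hm t).mp ht with rfl | rfl | rfl | rfl
        · exact Subgroup.one_mem _
        · exact hTb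
        · exact hzm
        · exact Subgroup.mul_mem _ hTb hzm
      · rw [hcardmap, hU.card_four]
    rcases Nat.mod_two_eq_zero_or_one a.val with h0 | h1
    · left
      exact ⟨R e q * g, hfin 0 U₁ hU₁ hm₁ (by rw [h0]; simp)⟩
    · right
      exact ⟨R e q * g, hfin 1 U₂ hU₂ hm₂ (by rw [h1]; simp)⟩

/-- Let X be a finite group whose Sylow 2-subgroup S is dihedral of order 2m ≥ 4. If |S| = 4, any two Klein four-subgroups of X are conjugate; if |S| > 4, there are Klein four-subgroups U₁, U₂ of X that are not conjugate, and every Klein four-subgroup of X is conjugate to U₁ or to U₂. -/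
theorem result {X : Type*} [Group X] [Finite X] (S : Sylow 2 X) (m : ℕ) (hm : 2 ≤ m) (eS : (S : Subgroup X) ≃* DihedralGroup m) : (Nat.card S = 4 → ∀ U V : Subgroup X, IsKleinFour U → IsKleinFour V → (∃ x : X, U.map (MulAut.conj x).toMonoidHom = V)) ∧ (4 < Nat.card S → ∃ U₁ U₂ : Subgroup X, IsKleinFour U₁ ∧ IsKleinFour U₂ ∧ ¬ (∃ x : X, U₁.map (MulAut.conj x).toMonoidHom = U₂) ∧ ∀ V : Subgroup X, IsKleinFour V → (∃ x : X, V.map (MulAut.conj x).toMonoidHom = U₁) ∨ (∃ x : X, V.map (MulAut.conj x).toMonoidHom = U₂)) := by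
  have : Fact (Nat.Prime 2) := ⟨Nat.prime_two⟩
  obtain ⟨k, rfl⟩ : ∃ k, m = 2 ^ (k + 1) := by
    have hcard : Nat.card (S : Subgroup X) = 2 * m := by
      rw [Nat.card_congr eS.toEquiv, DihedralGroup.nat_card]
    obtain ⟨a, ha⟩ := IsPGroup.iff_card.1 S.isPGroup'
    have h1 : 2 ^ a = 2 * m := by rw [← ha, hcard]
    have ha2 : 2 ≤ a := by
      by_contra hlt
      have h3 : a = 0 ∨ a = 1 := by omega
      rcases h3 with rfl | rfl
      · simp at h1; omega
      · simp at h1; omega
    refine ⟨a - 2, ?_⟩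
    have h2 : 2 ^ a = 2 * 2 ^ (a - 2 + 1) := by rw [← pow_succ']; congr 1; omega
    omega
  have hcard : Nat.card (S : Subgroup X) = 2 * 2 ^ (k + 1) := by
    rw [Nat.card_congr eS.toEquiv, DihedralGroup.nat_card]
  constructor
  · intro h4 U V hU hV
    exact part_one S h4 U V hU hV
  · intro h4
    have hk : 1 ≤ k := by
      by_contra hlt
      have h0 : k = 0 := by omega
      subst h0
      have h5 : Nat.card (S : Subgroup X) = 4 := by rw [hcard]; norm_num
      have h6 : 4 < Nat.card (S : Subgroup X) := h4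
      omega
    exact part_two S eS hk

end Cfsg.Agent.S1256
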