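import Mathlib
import Cfsg.Agent.Lib.Helper22.PComp
import Cfsg.Statements.S1273

set_option autoImplicit false
open Cfsg

namespace Cfsg.Agent.S1273

/-- Let K be a p-component of the finite group X and N a normal subgroup of K whose index in K is prime to p. Then N = K. -/
theorem result {X : Type*} [Group X] [Finite X] (p : ℕ) [Fact p.Prime] (K : Subgroup X) (hK : Cfsg.IsPComponent p K) (N : Subgroup ↥K) [N.Normal] (hidx : (N.index).Coprime p) : N = ⊤ := by
  have hNsn : (N.map K.subtype).IsSubnormal :=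
    Subgroup.IsSubnormal.trans' (inferInstance : N.Normal).isSubnormal hK.1
  have hle : N.map K.subtype ≤ K := Subgroup.map_subtype_le N
  have hmap : (N.map K.subtype).map (QuotientGroup.mk' (Cfsg.pPrimeCore p X)) =
      K.map (QuotientGroup.mk' (Cfsg.pPrimeCore p X)) := by
    apply Cfsg.Agent.Lib.Helper22.map_eq_of_pElement_mem hK.2.1 hNsn (Subgroup.map_mono hle)
    intro x hx k hxk
    have hxK : x ∈ K :=
      Cfsg.Agent.Lib.Helper22.pElement_mem_of_map_le hK.1 (Subgroup.le_comap_map _ K)
        (Subgroup.map_comap_le _ _) hx hxk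
    have hxN : (⟨x, hxK⟩ : K) ∈ N :=
      Cfsg.Agent.Lib.Helper22.pElement_mem_of_subnormal_of_index_coprime
        (inferInstance : N.Normal).isSubnormal hidx (k := k) (Subtype.ext hxk)
    exact ⟨⟨x, hxK⟩, hxN, rfl⟩
  have heq := hK.2.2 _ hNsn hle hmap
  rw [eq_top_iff]
  intro y _
  have hy : (y : X) ∈ N.map K.subtype := by rw [heq]; exact y.2
  obtain ⟨n, hn, hny⟩ := hy
  have : n = y := Subtype.ext hny
  rw [← this]; exact hn

end Cfsg.Agent.S1273
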