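import Mathlib
import Cfsg.Agent.Lib.Helper22.Balance
import Cfsg.Statements.S1279

set_option autoImplicit false
open Cfsg

namespace Cfsg.Agent.S1279

/-- Let A be a noncyclic elementary abelian p-subgroup of the finite group G such that C_G(a) is solvable for every non-identity a ∈ A. Then a ↦ O_{p'}(C_G(a)) is a solvable A-signalizer functor on G. -/
theorem result {G : Type*} [Group G] [Finite G] (p : ℕ) [Fact p.Prime] (A : Subgroup G) (hA : Cfsg.IsElementaryAbelian p A) (hA2 : p ^ 2 ≤ Nat.card ↥A) (hsolv : ∀ a ∈ A, a ≠ 1 → Group.IsSolvable ↥(Subgroup.centralizer ({a} : Set G))) : Cfsg.IsSolvableSignalizerFunctor p A (fun a => Cfsg.centralizerPPrimeCore p a) := by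
  have hcomm : ∀ a ∈ A, ∀ b ∈ A, a * b = b * a := by
    intro a ha b hb
    have h1 := hA.1.is_comm.comm (⟨a, ha⟩ : A) ⟨b, hb⟩
    exact congrArg (fun w : A => (w : G)) h1
  refine ⟨⟨?_, ?_, ?_, ?_⟩, ?_⟩
  · intro a _ _
    exact Subgroup.map_subtype_le _
  · intro a _ _ hd
    have h6 : (Nat.card (Cfsg.centralizerPPrimeCore p a)).Coprime p := by
      unfold Cfsg.centralizerPPrimeCore
      rw [Subgroup.card_map_of_injective (Subgroup.subtype_injective _)]
      exact Cfsg.Agent.Lib.Helper22.card_pPrimeCore_coprime p _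
    have h3 := Nat.eq_one_of_dvd_coprimes h6 hd (dvd_refl p)
    exact (Fact.out : p.Prime).one_lt.ne' h3
  · intro a ha _ b hb x hx
    obtain ⟨x', hx', rfl⟩ := hx
    have hb' : b ∈ Subgroup.centralizer ({a} : Set G) := by
      rw [Subgroup.mem_centralizer_singleton_iff]; exact hcomm b hb a ha
    have hn := (Cfsg.Agent.Lib.Helper22.pPrimeCore_normal' p
      ↥(Subgroup.centralizer ({a} : Set G))).conj_mem x' hx' ⟨b, hb'⟩
    exact ⟨_, hn, rfl⟩
  · intro a ha ha1 b hb hb1
    have hap : a ^ p ^ 1 = 1 := by rw [pow_one]; exact hA.2 a ha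
    exact Cfsg.Agent.Lib.Helper22.centralizerPPrimeCore_inf_le p a b (hcomm a ha b hb) hap
      (Cfsg.Agent.Lib.Helper22.pLayer_eq_bot_of_isSolvable p (hsolv b hb hb1))
  · intro a ha ha1
    have hs := hsolv a ha ha1
    have hle : Cfsg.centralizerPPrimeCore p a ≤ Subgroup.centralizer ({a} : Set G) :=
      Subgroup.map_subtype_le _
    exact Group.isSolvable_of_isSolvable_injective (Subgroup.inclusion_injective hle)

end Cfsg.Agent.S1279
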