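import Mathlib
import Cfsg.Agent.S1283
import Cfsg.Agent.S0023
import Cfsg.Statements.S1284

set_option autoImplicit false
open Cfsg

namespace Cfsg.Agent.S1284

/-- Let θ be a solvable A-signalizer functor on the finite group G, A elementary abelian of rank at least 3, q a prime dividing some |θ a|, and Q maximal among the q-subgroups in the family of θ. Then (a) for every member H of the family, some c in the intersection of the θ a (a ∈ A non-identity) makes c Q c⁻¹ ∩ H a Sylow q-subgroup of H; and (b) for every nontrivial subgroup B ≤ A, C_Q(B) is a Sylow q-subgroup of the intersection of the θ b over the non-identity b ∈ B. -/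
theorem result {G : Type*} [Group G] [Finite G] (p : ℕ) [Fact p.Prime] (A : Subgroup G) (hA : Cfsg.IsElementaryAbelian p A) (hA3 : p ^ 3 ≤ Nat.card ↥A) (θ : G → Subgroup G) (hθ : Cfsg.IsSolvableSignalizerFunctor p A θ) (q : ℕ) [Fact q.Prime] (hq : ∃ a ∈ A, a ≠ 1 ∧ q ∣ Nat.card ↥(θ a)) (Q : Subgroup G) (hQW : Q ∈ Cfsg.signalizerFamily p A θ) (hQq : IsPGroup q ↥Q) (hQmax : ∀ R ∈ Cfsg.signalizerFamily p A θ, IsPGroup q ↥R → Q ≤ R → R = Q) : (∀ H : Subgroup G, H ∈ Cfsg.signalizerFamily p A θ → ∃ c ∈ Cfsg.signalizerInf A θ, ∃ S : Sylow q ↥H, (S : Subgroup ↥H).map H.subtype = Q.map (MulAut.conj c).toMonoidHom ⊓ H) ∧ (∀ B : Subgroup G, B ≤ A → B ≠ ⊥ → ∃ S : Sylow q ↥(Cfsg.signalizerInf B θ), (S : Subgroup ↥(Cfsg.signalizerInf B θ)).map (Cfsg.signalizerInf B θ).subtype = Q ⊓ Subgroup.centralizer (B : Set G)) := by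
  have hθ' := hθ
  obtain ⟨⟨h1, h2, h3, h4⟩, hsolv⟩ := hθ
  have hp : p.Prime := Fact.out
  have hq' : q.Prime := Fact.out
  have hApg : IsPGroup p A := by
    intro x
    exact ⟨1, Subtype.ext (by rw [pow_one]; exact hA.2 x x.2)⟩
  have partA : ∀ H : Subgroup G, H ∈ Cfsg.signalizerFamily p A θ → ∃ c ∈ Cfsg.signalizerInf A θ,
      ∃ S : Sylow q ↥H, (S : Subgroup ↥H).map H.subtype = Q.map (MulAut.conj c).toMonoidHom ⊓ H := by
    intro H hH
    have hAH : A ≤ Subgroup.normalizer (H : Set G) := by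
      rw [Subgroup.le_normalizer_iff]
      exact hH.2.2.1
    have hcop : (Nat.card A).Coprime (Nat.card H) := by
      obtain ⟨k, hk⟩ := hApg.exists_card_eq
      rw [hk]
      exact Nat.Coprime.pow_left k ((Nat.Prime.coprime_iff_not_dvd hp).mpr hH.2.1)
    obtain ⟨P, hP⟩ := Cfsg.Agent.S0023.result A H hAH hcop (Or.inr hH.1) q
    have hS₀ : (P : Subgroup H).map H.subtype ∈ Cfsg.signalizerFamily p A θ :=
      Cfsg.Agent.S1283.fam_sub hH (Subgroup.map_subtype_le _) hP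
    have hS₀q : IsPGroup q ((P : Subgroup H).map H.subtype) := P.isPGroup'.map _
    obtain ⟨Q', hle, hQ'F, hQ'q, hQ'max⟩ := Cfsg.Agent.S1283.exists_maxQ hS₀ hS₀q
    obtain ⟨c, hc, hcQ⟩ := Cfsg.Agent.S1283.result p A hA hA3 θ hθ' q hq Q Q' hQW hQq hQmax
      hQ'F hQ'q hQ'max
    refine ⟨c, hc, P, ?_⟩
    rw [hcQ]
    have hqsub : IsPGroup q ((Q' ⊓ H).subgroupOf H) := by
      have : IsPGroup q (Q' ⊓ H : Subgroup G) := hQ'q.to_le inf_le_left
      exact this.comap_subtype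
    have hPle : (P : Subgroup H) ≤ (Q' ⊓ H).subgroupOf H := by
      intro x hx
      rw [Subgroup.mem_subgroupOf]
      exact ⟨hle (Subgroup.mem_map_of_mem _ hx), x.2⟩
    have hEq : (Q' ⊓ H).subgroupOf H = P := P.is_maximal' hqsub hPle
    rw [← hEq, Subgroup.map_subgroupOf_eq_of_le inf_le_right]
  refine ⟨partA, ?_⟩
  intro B hBA hB
  obtain ⟨b₀, hb₀B, hb₀1⟩ : ∃ b ∈ B, b ≠ 1 := by
    by_contra hcon
    push Not at hcon
    exact hB ((Subgroup.eq_bot_iff_forall B).mpr hcon)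
  have hHθ : ∀ b ∈ B, b ≠ 1 → Cfsg.signalizerInf B θ ≤ θ b := by
    intro b hb hb1
    exact iInf_le (fun a : {a : G // a ∈ B ∧ a ≠ 1} => θ (a : G)) ⟨b, hb, hb1⟩
  have hθF : θ b₀ ∈ Cfsg.signalizerFamily p A θ :=
    ⟨hsolv b₀ (hBA hb₀B) hb₀1, h2 b₀ (hBA hb₀B) hb₀1,
      fun b hb u hu => h3 b₀ (hBA hb₀B) hb₀1 b hb u hu,
      fun a ha ha1 => h4 b₀ (hBA hb₀B) hb₀1 a ha ha1⟩
  have hAH : A ≤ Subgroup.normalizer (Cfsg.signalizerInf B θ : Set G) := by
    rw [Subgroup.le_normalizer_iff]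
    intro a ha x hx
    rw [Cfsg.signalizerInf, Subgroup.mem_iInf] at hx ⊢
    intro b
    exact h3 b.1 (hBA b.2.1) b.2.2 a ha x (hx b)
  have hHF : Cfsg.signalizerInf B θ ∈ Cfsg.signalizerFamily p A θ :=
    Cfsg.Agent.S1283.fam_sub hθF (hHθ b₀ hb₀B hb₀1) hAH
  obtain ⟨c, hc, S, hS⟩ := partA _ hHF
  have hcH : c ∈ Cfsg.signalizerInf B θ := by
    rw [Cfsg.signalizerInf, Subgroup.mem_iInf]
    intro b
    exact (Subgroup.mem_iInf.mp hc) ⟨b.1, hBA b.2.1, b.2.2⟩
  have hQC : Q ⊓ Subgroup.centralizer (B : Set G) = Q ⊓ Cfsg.signalizerInf B θ := by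
    apply le_antisymm
    · refine le_inf inf_le_left ?_
      intro x hx
      rw [Cfsg.signalizerInf, Subgroup.mem_iInf]
      intro b
      apply hQW.2.2.2 b.1 (hBA b.2.1) b.2.2
      refine Subgroup.mem_inf.mpr ⟨hx.1, ?_⟩
      rw [Subgroup.mem_centralizer_iff]
      intro h hh
      rw [Set.mem_singleton_iff] at hh
      subst hh
      exact (Subgroup.mem_centralizer_iff.mp hx.2) _ b.2.1
    · refine le_inf inf_le_left ?_
      intro x hx
      rw [Subgroup.mem_centralizer_iff]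
      intro b hb
      by_cases hb1 : b = 1
      · rw [hb1, one_mul, mul_one]
      · have := h1 b (hBA hb) hb1 (hHθ b hb hb1 hx.2)
        exact (Subgroup.mem_centralizer_iff.mp this) b rfl
  rw [hQC]
  have hcard : Nat.card (Q ⊓ Cfsg.signalizerInf B θ : Subgroup G) =
      q ^ (Nat.card (Cfsg.signalizerInf B θ)).factorization q := by
    have e : (Q ⊓ Cfsg.signalizerInf B θ).map (MulAut.conj c).toMonoidHom =
        Q.map (MulAut.conj c).toMonoidHom ⊓ Cfsg.signalizerInf B θ := by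
      ext x
      rw [Cfsg.Agent.Lib.Helper90.mem_map_conj_iff, Subgroup.mem_inf, Subgroup.mem_inf,
        Cfsg.Agent.Lib.Helper90.mem_map_conj_iff]
      constructor
      · rintro ⟨hx1, hx2⟩
        refine ⟨hx1, ?_⟩
        have : x = c * (c⁻¹ * x * c) * c⁻¹ := by group
        rw [this]
        exact Subgroup.mul_mem _ (Subgroup.mul_mem _ hcH hx2) (Subgroup.inv_mem _ hcH)
      · rintro ⟨hx1, hx2⟩
        exact ⟨hx1, Subgroup.mul_mem _ (Subgroup.mul_mem _ (Subgroup.inv_mem _ hcH) hx2) hcH⟩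
    have e2 : Nat.card ((Q ⊓ Cfsg.signalizerInf B θ).map (MulAut.conj c).toMonoidHom) =
        Nat.card (Q ⊓ Cfsg.signalizerInf B θ : Subgroup G) :=
      Subgroup.card_map_of_injective (f := (MulAut.conj c).toMonoidHom) (MulAut.conj c).injective
    rw [← e2, e, ← hS, Subgroup.card_map_of_injective (Subgroup.subtype_injective _)]
    exact S.card_eq_multiplicity
  have hcard' : Nat.card ((Q ⊓ Cfsg.signalizerInf B θ).subgroupOf (Cfsg.signalizerInf B θ)) =
      q ^ (Nat.card (Cfsg.signalizerInf B θ)).factorization q := by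
    rw [← hcard]
    exact Nat.card_congr (Subgroup.subgroupOfEquivOfLe inf_le_right).toEquiv
  refine ⟨Sylow.ofCard ((Q ⊓ Cfsg.signalizerInf B θ).subgroupOf (Cfsg.signalizerInf B θ)) hcard', ?_⟩
  rw [Sylow.coe_ofCard, Subgroup.map_subgroupOf_eq_of_le inf_le_right]

end Cfsg.Agent.S1284
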