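import Mathlib
import Cfsg.Statements.S1286

set_option autoImplicit false
open Cfsg

namespace Cfsg.Agent.S1286

/-- The ambient group `S_5`. -/
abbrev X5 := Equiv.Perm (Fin 5)

/-- The transposition `(0 1)`. -/
def ta : X5 := Equiv.swap 0 1

/-- The transposition `(2 3)`. -/
def tb : X5 := Equiv.swap 2 3

/-- A 3-cycle on `{2, 3, 4}`. -/
def cg : X5 := Equiv.swap 2 3 * Equiv.swap 3 4

/-- A 3-cycle on `{0, 1, 4}`. -/
def ch : X5 := Equiv.swap 0 1 * Equiv.swap 1 4

/-- The four-group generated by `(0 1)` and `(2 3)`. -/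
def AA : Subgroup X5 where
  carrier := {x | x = 1 ∨ x = ta ∨ x = tb ∨ x = ta * tb}
  mul_mem' := by
    rintro x y (rfl | rfl | rfl | rfl) (rfl | rfl | rfl | rfl) <;> decide
  one_mem' := Or.inl rfl
  inv_mem' := by
    rintro x (rfl | rfl | rfl | rfl) <;> decide

theorem mem_AA {x : X5} : x ∈ AA ↔ x = 1 ∨ x = ta ∨ x = tb ∨ x = ta * tb := Iff.rfl

/-- The signalizer functor. -/
def th : X5 → Subgroup X5 := fun x =>
  if x = ta then Subgroup.zpowers cg else if x = tb then Subgroup.zpowers ch else ⊥

theorem th_ta : th ta = Subgroup.zpowers cg := if_pos rfl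

theorem th_tb : th tb = Subgroup.zpowers ch := by
  unfold th
  rw [if_neg (by decide), if_pos rfl]

theorem th_tab : th (ta * tb) = ⊥ := by
  unfold th
  rw [if_neg (by decide), if_neg (by decide)]

theorem mem_zpowers_three {G : Type*} [Group G] {g x : G} (hg : g ^ 3 = 1)
    (hx : x ∈ Subgroup.zpowers g) : x = 1 ∨ x = g ∨ x = g⁻¹ := by
  obtain ⟨k, rfl⟩ := Subgroup.mem_zpowers_iff.mp hx
  have hg' : g ^ (3 : ℤ) = 1 := by exact_mod_cast hg
  rw [zpow_eq_zpow_emod k hg']
  have h1 : 0 ≤ k % 3 := Int.emod_nonneg k (by norm_num)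
  have h2 : k % 3 < 3 := Int.emod_lt_of_pos k (by norm_num)
  generalize k % 3 = r at h1 h2
  interval_cases r
  · left; simp
  · right; left; simp
  · right; right
    rw [eq_inv_iff_mul_eq_one]
    have : g ^ (2 : ℤ) * g = g ^ 3 := by
      rw [show (2 : ℤ) = ((2 : ℕ) : ℤ) from rfl, zpow_natCast]; exact (pow_succ g 2).symm
    rw [this, hg]

theorem zp_mem {G : Type*} [Group G] {g x : G} (hx : x = 1 ∨ x = g ∨ x = g⁻¹) :
    x ∈ Subgroup.zpowers g := by
  rcases hx with rfl | rfl | rfl
  · exact Subgroup.one_mem _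
  · exact Subgroup.mem_zpowers _
  · exact Subgroup.inv_mem _ (Subgroup.mem_zpowers _)

theorem cg_pow : cg ^ 3 = 1 := by decide

theorem ch_pow : ch ^ 3 = 1 := by decide

theorem zpowers_comm {G : Type*} [Group G] (g : G) :
    ∀ x y : Subgroup.zpowers g, x * y = y * x := by
  rintro ⟨x, hx⟩ ⟨y, hy⟩
  obtain ⟨k, rfl⟩ := Subgroup.mem_zpowers_iff.mp hx
  obtain ⟨l, rfl⟩ := Subgroup.mem_zpowers_iff.mp hy
  apply Subtype.ext
  show g ^ k * g ^ l = g ^ l * g ^ k
  rw [← zpow_add, ← zpow_add, add_comm]

theorem card_zp_cg : Nat.card (Subgroup.zpowers cg) = 3 := by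
  rw [Nat.card_zpowers]
  exact orderOf_eq_prime cg_pow (by decide)

theorem card_zp_ch : Nat.card (Subgroup.zpowers ch) = 3 := by
  rw [Nat.card_zpowers]
  exact orderOf_eq_prime ch_pow (by decide)

/-- There exist a finite group X, an elementary abelian subgroup A of order 4 and a solvable A-signalizer functor θ on X for the prime 2 which is not complete. -/
theorem result : ∃ (X : Type) (_ : Group X) (_ : Finite X) (A : Subgroup X) (θ : X → Subgroup X), Cfsg.IsElementaryAbelian 2 A ∧ Nat.card ↥A = 4 ∧ Cfsg.IsSolvableSignalizerFunctor 2 A θ ∧ ¬ Cfsg.IsCompleteSignalizerFunctor 2 A θ := by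
  refine ⟨X5, inferInstance, inferInstance, AA, th, ?_, ?_, ?_, ?_⟩
  · refine ⟨⟨⟨?_⟩⟩, ?_⟩
    · rintro ⟨x, hx⟩ ⟨y, hy⟩
      apply Subtype.ext
      show x * y = y * x
      rcases mem_AA.mp hx with rfl | rfl | rfl | rfl <;>
        rcases mem_AA.mp hy with rfl | rfl | rfl | rfl <;> decide
    · intro x hx
      rcases mem_AA.mp hx with rfl | rfl | rfl | rfl <;> decide
  · have h1 : ((AA : Subgroup X5) : Set X5) = ↑({1, ta, tb, ta * tb} : Finset X5) := by
      ext x
      simp only [SetLike.mem_coe, mem_AA, Finset.coe_insert, Finset.coe_singleton,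
        Set.mem_insert_iff, Set.mem_singleton_iff]
    have h2 : Nat.card ↥AA = ((AA : Subgroup X5) : Set X5).ncard := (_root_.Nat.card_coe_set_eq _)
    rw [h2, h1, Set.ncard_coe_finset]
    decide
  · refine ⟨⟨?_, ?_, ?_, ?_⟩, ?_⟩
    · intro x hx hx1
      rcases mem_AA.mp hx with rfl | rfl | rfl | rfl
      · exact absurd rfl hx1
      · rw [th_ta, Subgroup.zpowers_le, Subgroup.mem_centralizer_singleton_iff]; decide
      · rw [th_tb, Subgroup.zpowers_le, Subgroup.mem_centralizer_singleton_iff]; decide
      · rw [th_tab]; exact bot_le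
    · intro x hx hx1
      rcases mem_AA.mp hx with rfl | rfl | rfl | rfl
      · exact absurd rfl hx1
      · rw [th_ta, card_zp_cg]; decide
      · rw [th_tb, card_zp_ch]; decide
      · rw [th_tab, Subgroup.card_bot]; decide
    · intro x hx hx1 y hy z hz
      rcases mem_AA.mp hx with rfl | rfl | rfl | rfl
      · exact absurd rfl hx1
      · rw [th_ta] at hz ⊢
        apply zp_mem
        rcases mem_zpowers_three cg_pow hz with rfl | rfl | rfl <;>
          rcases mem_AA.mp hy with rfl | rfl | rfl | rfl <;> decide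
      · rw [th_tb] at hz ⊢
        apply zp_mem
        rcases mem_zpowers_three ch_pow hz with rfl | rfl | rfl <;>
          rcases mem_AA.mp hy with rfl | rfl | rfl | rfl <;> decide
      · rw [th_tab] at hz ⊢
        rw [Subgroup.mem_bot] at hz ⊢
        rw [hz]; simp
    · intro x hx hx1 y hy hy1
      rcases mem_AA.mp hx with rfl | rfl | rfl | rfl
      · exact absurd rfl hx1
      · rcases mem_AA.mp hy with rfl | rfl | rfl | rfl
        · exact absurd rfl hy1
        · exact inf_le_left
        · intro z hz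
          obtain ⟨hz1, hz2⟩ := Subgroup.mem_inf.mp hz
          rw [th_ta] at hz1
          rw [Subgroup.mem_centralizer_singleton_iff] at hz2
          rcases mem_zpowers_three cg_pow hz1 with rfl | rfl | rfl
          · exact Subgroup.one_mem _
          · exact absurd hz2 (by decide)
          · exact absurd hz2 (by decide)
        · intro z hz
          obtain ⟨hz1, hz2⟩ := Subgroup.mem_inf.mp hz
          rw [th_ta] at hz1
          rw [Subgroup.mem_centralizer_singleton_iff] at hz2
          rcases mem_zpowers_three cg_pow hz1 with rfl | rfl | rfl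
          · exact Subgroup.one_mem _
          · exact absurd hz2 (by decide)
          · exact absurd hz2 (by decide)
      · rcases mem_AA.mp hy with rfl | rfl | rfl | rfl
        · exact absurd rfl hy1
        · intro z hz
          obtain ⟨hz1, hz2⟩ := Subgroup.mem_inf.mp hz
          rw [th_tb] at hz1
          rw [Subgroup.mem_centralizer_singleton_iff] at hz2
          rcases mem_zpowers_three ch_pow hz1 with rfl | rfl | rfl
          · exact Subgroup.one_mem _
          · exact absurd hz2 (by decide)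
          · exact absurd hz2 (by decide)
        · exact inf_le_left
        · intro z hz
          obtain ⟨hz1, hz2⟩ := Subgroup.mem_inf.mp hz
          rw [th_tb] at hz1
          rw [Subgroup.mem_centralizer_singleton_iff] at hz2
          rcases mem_zpowers_three ch_pow hz1 with rfl | rfl | rfl
          · exact Subgroup.one_mem _
          · exact absurd hz2 (by decide)
          · exact absurd hz2 (by decide)
      · rw [th_tab, bot_inf_eq]; exact bot_le
    · intro x hx hx1
      rcases mem_AA.mp hx with rfl | rfl | rfl | rfl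
      · exact absurd rfl hx1
      · rw [th_ta]; exact Group.isSolvable_of_comm (zpowers_comm cg)
      · rw [th_tb]; exact Group.isSolvable_of_comm (zpowers_comm ch)
      · rw [th_tab]; exact Group.isSolvable_of_comm (fun x y => Subsingleton.elim _ _)
  · rintro ⟨-, X₀, -, hodd, hX₀⟩
    have h1 := hX₀ ta (mem_AA.mpr (Or.inr (Or.inl rfl))) (by decide)
    have h2 := hX₀ tb (mem_AA.mpr (Or.inr (Or.inr (Or.inl rfl)))) (by decide)
    rw [th_ta] at h1
    rw [th_tb] at h2
    have hg : cg ∈ X₀ := by
      have : cg ∈ X₀ ⊓ Subgroup.centralizer {ta} := by rw [h1]; exact Subgroup.mem_zpowers _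
      exact (Subgroup.mem_inf.mp this).1
    have hh : ch ∈ X₀ := by
      have : ch ∈ X₀ ⊓ Subgroup.centralizer {tb} := by rw [h2]; exact Subgroup.mem_zpowers _
      exact (Subgroup.mem_inf.mp this).1
    have hw : cg * ch * cg * ch⁻¹ ∈ X₀ :=
      X₀.mul_mem (X₀.mul_mem (X₀.mul_mem hg hh) hg) (X₀.inv_mem hh)
    have ho : orderOf (cg * ch * cg * ch⁻¹) = 2 := orderOf_eq_prime (by decide) (by decide)
    apply hodd
    rw [← ho]
    exact Subgroup.orderOf_dvd_natCard X₀ hw

end Cfsg.Agent.S1286
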