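import Cfsg.Statements.S1287
import Cfsg.Agent.Lib.Helper90.BrauerWielandt
import Cfsg.Agent.Lib.Helper50.ChermakDelgado

set_option autoImplicit false
open scoped Pointwise
open Cfsg

namespace Cfsg.Agent.S1287

open Cfsg.Agent.Lib.Helper90

theorem arith (p : ℕ) (kx Pk k0 ck ix Pi i0 ci xx Px x0 cx yx Py y0 cy : ℕ)
    (hK : kx * Pk = k0 * ck ^ p) (hI : ix * Pi = i0 * ci ^ p) (hX : xx * Px = x0 * cx ^ p)
    (hY : yx * Py = y0 * cy ^ p) (h1 : kx * ix = xx * yx) (h2 : Pk * Pi = Px * Py)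
    (h3 : cx * cy ≤ ck * ci) (hpos : 0 < ck * ci) : k0 * i0 ≤ x0 * y0 := by
  have E : (k0 * i0) * (ck * ci) ^ p = (x0 * y0) * (cx * cy) ^ p := by
    calc (k0 * i0) * (ck * ci) ^ p = (k0 * ck ^ p) * (i0 * ci ^ p) := by
          rw [mul_pow]
          ring
      _ = (kx * Pk) * (ix * Pi) := by rw [hK, hI]
      _ = (kx * ix) * (Pk * Pi) := by ring
      _ = (xx * yx) * (Px * Py) := by rw [h1, h2]
      _ = (xx * Px) * (yx * Py) := by ring
      _ = (x0 * cx ^ p) * (y0 * cy ^ p) := by rw [hX, hY]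
      _ = _ := by
          rw [mul_pow]
          ring
  have h4 : (cx * cy) ^ p ≤ (ck * ci) ^ p := Nat.pow_le_pow_left h3 p
  have h5 : (k0 * i0) * (ck * ci) ^ p ≤ (x0 * y0) * (ck * ci) ^ p := by
    rw [E]
    exact Nat.mul_le_mul_left _ h4
  exact Nat.le_of_mul_le_mul_right h5 (pow_pos hpos p)

/-- Let A be a noncyclic elementary abelian p-subgroup of a finite group H normalizing a subgroup K of order prime to p, and X, Y ≤ K subgroups normalized by A with C_K(a) = C_X(a) C_Y(a) (as sets) for every non-identity a ∈ A, where X is also normalized by C_K(A). Then K = XY as sets. -/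
theorem result {H : Type*} [Group H] [Finite H] (p : ℕ) [Fact p.Prime] (A K X Y : Subgroup H) (hA : Cfsg.IsElementaryAbelian p A) (hA2 : p ^ 2 ≤ Nat.card ↥A) (hK : ¬ p ∣ Nat.card ↥K) (hAK : A ≤ Subgroup.normalizer (K : Set H)) (hX : X ≤ K) (hY : Y ≤ K) (hAX : A ≤ Subgroup.normalizer (X : Set H)) (hAY : A ≤ Subgroup.normalizer (Y : Set H)) (hCX : K ⊓ Subgroup.centralizer (A : Set H) ≤ Subgroup.normalizer (X : Set H)) (hfac : ∀ a ∈ A, a ≠ 1 → ((K ⊓ Subgroup.centralizer {a} : Subgroup H) : Set H) = ((X ⊓ Subgroup.centralizer {a} : Subgroup H) : Set H) * ((Y ⊓ Subgroup.centralizer {a} : Subgroup H) : Set H)) : (K : Set H) = (X : Set H) * (Y : Set H) := by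
  have hp : p.Prime := Fact.out
  obtain ⟨hAcomm, hAexp⟩ := hA
  have hp2 : p < p ^ 2 := by nlinarith [hp.two_le]
  have hAnt : 1 < Nat.card A := by
    have := hp.two_le
    omega
  obtain ⟨x, hxA, hx1⟩ : ∃ x ∈ A, x ≠ 1 := by
    by_contra hcon
    push Not at hcon
    have hbot : A = ⊥ := (Subgroup.eq_bot_iff_forall A).2 hcon
    rw [hbot, Subgroup.card_bot] at hAnt
    omega
  have hxp : x ^ p = 1 := hAexp x hxA
  have hzx : Nat.card (Subgroup.zpowers x) ≤ p := by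
    rw [Nat.card_zpowers]
    exact orderOf_le_of_pow_eq_one hp.pos hxp
  obtain ⟨y, hyA, hyx⟩ : ∃ y ∈ A, y ∉ Subgroup.zpowers x := by
    by_contra hcon
    push Not at hcon
    have hle : A ≤ Subgroup.zpowers x := hcon
    have := Subgroup.card_le_of_le hle
    omega
  have hyp : y ^ p = 1 := hAexp y hyA
  have hxy : x * y = y * x := congrArg Subtype.val (hAcomm.is_comm.comm ⟨x, hxA⟩ ⟨y, hyA⟩)
  have hne : ∀ i : ℕ, x ^ i * y ≠ 1 := by
    intro i h
    apply hyx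
    have : y = (x ^ i)⁻¹ := eq_inv_of_mul_eq_one_right h
    rw [this]
    exact Subgroup.inv_mem _ (Subgroup.pow_mem _ (Subgroup.mem_zpowers x) i)
  have hxiyA : ∀ i : ℕ, x ^ i * y ∈ A := fun i => A.mul_mem (A.pow_mem hxA i) hyA
  -- normalizers
  have hAI : A ≤ Subgroup.normalizer ((X ⊓ Y : Subgroup H) : Set H) := by
    intro a ha
    have h1 := Subgroup.mem_normalizer_iff.1 (hAX ha)
    have h2 := Subgroup.mem_normalizer_iff.1 (hAY ha)
    rw [Subgroup.mem_normalizer_iff]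
    intro h
    rw [Subgroup.mem_inf, Subgroup.mem_inf, h1 h, h2 h]
  have hXp : ¬ p ∣ Nat.card X := fun h => hK (h.trans (Subgroup.card_dvd_of_le hX))
  have hYp : ¬ p ∣ Nat.card Y := fun h => hK (h.trans (Subgroup.card_dvd_of_le hY))
  have hIp : ¬ p ∣ Nat.card ↥(X ⊓ Y) :=
    fun h => hK (h.trans (Subgroup.card_dvd_of_le (inf_le_left.trans hX)))
  have hbwK := brauer_wielandt x y hxy hxp hyp K (hAK hxA) (hAK hyA) hK
  have hbwX := brauer_wielandt x y hxy hxp hyp X (hAX hxA) (hAX hyA) hXp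
  have hbwY := brauer_wielandt x y hxy hxp hyp Y (hAY hxA) (hAY hyA) hYp
  have hbwI := brauer_wielandt x y hxy hxp hyp (X ⊓ Y) (hAI hxA) (hAI hyA) hIp
  unfold BWFormula at hbwK hbwX hbwY hbwI
  have hinf : ∀ S : Set H, (X ⊓ Subgroup.centralizer S) ⊓ (Y ⊓ Subgroup.centralizer S)
      = (X ⊓ Y) ⊓ Subgroup.centralizer S := by
    intro S
    ext h
    simp only [Subgroup.mem_inf]
    tauto
  have hg : ∀ g ∈ A, g ≠ 1 →
      Nat.card ↥(K ⊓ Subgroup.centralizer ({g} : Set H))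
        * Nat.card ↥((X ⊓ Y) ⊓ Subgroup.centralizer ({g} : Set H))
      = Nat.card ↥(X ⊓ Subgroup.centralizer ({g} : Set H))
        * Nat.card ↥(Y ⊓ Subgroup.centralizer ({g} : Set H)) := by
    intro g hgA hg1
    have h1 := Cfsg.Agent.Lib.Helper50.card_mul_card_inf (X ⊓ Subgroup.centralizer ({g} : Set H))
      (Y ⊓ Subgroup.centralizer ({g} : Set H))
    rw [← hfac g hgA hg1, hinf] at h1
    exact h1
  have hprod : (∏ i ∈ Finset.range p, Nat.card ↥(K ⊓ Subgroup.centralizer ({x ^ i * y} : Set H)))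
      * (∏ i ∈ Finset.range p,
        Nat.card ↥((X ⊓ Y) ⊓ Subgroup.centralizer ({x ^ i * y} : Set H)))
      = (∏ i ∈ Finset.range p, Nat.card ↥(X ⊓ Subgroup.centralizer ({x ^ i * y} : Set H)))
      * (∏ i ∈ Finset.range p, Nat.card ↥(Y ⊓ Subgroup.centralizer ({x ^ i * y} : Set H))) := by
    rw [← Finset.prod_mul_distrib, ← Finset.prod_mul_distrib]
    exact Finset.prod_congr rfl (fun i _ => hg (x ^ i * y) (hxiyA i) (hne i))
  have hineq : Nat.card ↥(X ⊓ Subgroup.centralizer ({x, y} : Set H))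
        * Nat.card ↥(Y ⊓ Subgroup.centralizer ({x, y} : Set H))
      ≤ Nat.card ↥(K ⊓ Subgroup.centralizer ({x, y} : Set H))
        * Nat.card ↥((X ⊓ Y) ⊓ Subgroup.centralizer ({x, y} : Set H)) := by
    have h1 := Cfsg.Agent.Lib.Helper50.card_mul_card_inf
      (X ⊓ Subgroup.centralizer ({x, y} : Set H)) (Y ⊓ Subgroup.centralizer ({x, y} : Set H))
    rw [hinf] at h1
    rw [← h1]
    apply Nat.mul_le_mul_right
    apply Nat.card_mono (Set.toFinite _)
    rintro _ ⟨a, ha, b, hb, rfl⟩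
    exact Subgroup.mul_mem _ (inf_le_inf_right _ hX ha) (inf_le_inf_right _ hY hb)
  have hpos : 0 < Nat.card ↥(K ⊓ Subgroup.centralizer ({x, y} : Set H))
        * Nat.card ↥((X ⊓ Y) ⊓ Subgroup.centralizer ({x, y} : Set H)) :=
    Nat.mul_pos Nat.card_pos Nat.card_pos
  have hmain : Nat.card ↥K * Nat.card ↥(X ⊓ Y) ≤ Nat.card ↥X * Nat.card ↥Y :=
    arith p _ _ _ _ _ _ _ _ _ _ _ _ _ _ _ _ hbwK hbwI hbwX hbwY (hg x hxA hx1) hprod hineq hpos
  have hXY := Cfsg.Agent.Lib.Helper50.card_mul_card_inf X Y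
  rw [← hXY] at hmain
  have hle : Nat.card ↥K ≤ Nat.card ↥((X : Set H) * (Y : Set H) : Set H) :=
    Nat.le_of_mul_le_mul_right hmain Nat.card_pos
  have hsub : (X : Set H) * (Y : Set H) ⊆ (K : Set H) := by
    rintro _ ⟨a, ha, b, hb, rfl⟩
    exact K.mul_mem (hX ha) (hY hb)
  symm
  apply Set.eq_of_subset_of_ncard_le hsub _ (Set.toFinite _)
  rw [← Nat.card_coe_set_eq, ← Nat.card_coe_set_eq]
  exact hle

end Cfsg.Agent.S1287
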