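import Mathlib
import Cfsg.Agent.Lib.Helper61.CoresInt
import Cfsg.Agent.S1324
import Cfsg.Statements.S1288

set_option autoImplicit false

namespace Cfsg.Agent.S1288

open scoped commutatorElement

open Cfsg.Agent.Lib.Helper61 in
theorem result {H : Type*} [Group H] [Finite H] (p : ℕ) [Fact p.Prime] (A K : Subgroup H) (hA : Cfsg.IsElementaryAbelian p A) (hA2 : p ^ 2 ≤ Nat.card ↥A) (hK : ¬ p ∣ Nat.card ↥K) (hKs : Group.IsSolvable ↥K) (hAK : A ≤ Subgroup.normalizer (K : Set H)) (q : ℕ) [Fact q.Prime] (hqK : q ∣ Nat.card ↥K) (U : Subgroup H) (hU : U ≤ K) (hUq : ¬ q ∣ Nat.card ↥U) (hcomm : ∀ B : Subgroup H, B ≤ A → B.relIndex A = p → ¬ q ∣ Nat.card ↥⁅U, K ⊓ Subgroup.centralizer (B : Set H)⁆) : U ≤ (Cfsg.pPrimeCore q ↥K).map K.subtype := by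
  have hp : p.Prime := Fact.out
  have hq : q.Prime := Fact.out
  set N : Subgroup H := (Cfsg.pPrimeCore q ↥K).map K.subtype with hN
  set Qs : Subgroup H := (Cfsg.pPrimePCore q ↥K).map K.subtype with hQs
  have hQsK : Qs ≤ K := Subgroup.map_subtype_le _
  have hKN : K ≤ Subgroup.normalizer (N : Set H) :=
    le_normalizer_map_of_normal K _ inferInstance
  have hKQ : K ≤ Subgroup.normalizer (Qs : Set H) :=
    le_normalizer_map_of_normal K _ (Cfsg.Agent.Lib.Helper23.pPrimePCore_normal q ↥K)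
  have hAQ : A ≤ Subgroup.normalizer (Qs : Set H) :=
    hAK.trans (normalizer_le_normalizer_map_of_characteristic K _
      (Cfsg.Agent.Lib.Helper23.pPrimePCore_characteristic q ↥K))
  -- a hyperplane of A exists
  have hApg : IsPGroup p A := by
    intro x
    refine ⟨1, Subtype.ext ?_⟩
    rw [pow_one]
    exact hA.2 x x.2
  obtain ⟨k, hk⟩ := hApg.exists_card_eq
  have hk2 : 2 ≤ k := by
    by_contra hlt
    have hk1 : k ≤ 1 := by omega
    have : p ^ k ≤ p ^ 1 := Nat.pow_le_pow_right hp.pos hk1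
    have h2 : p ^ 1 < p ^ 2 := Nat.pow_lt_pow_right hp.one_lt (by norm_num)
    omega
  obtain ⟨B₀, hB₀A, hB₀⟩ : ∃ B₀ : Subgroup H, B₀ ≤ A ∧ B₀.relIndex A = p := by
    obtain ⟨K', hK'⟩ := Sylow.exists_subgroup_card_pow_prime (G := ↥A) p (n := k - 1)
      (by rw [hk]; exact pow_dvd_pow p (by omega))
    refine ⟨K'.map A.subtype, Subgroup.map_subtype_le _, ?_⟩
    have hsub : (K'.map A.subtype).subgroupOf A = K' :=
      Subgroup.comap_map_eq_self_of_injective A.subtype_injective K'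
    rw [Subgroup.relIndex, hsub]
    have h1 := K'.index_mul_card
    rw [hK', hk] at h1
    have h2 : p ^ k = p * p ^ (k - 1) := by
      rw [← pow_succ']; congr 1; omega
    rw [h2] at h1
    exact Nat.eq_of_mul_eq_mul_right (pow_pos hp.pos _) h1
  have hyper : ∀ B : Subgroup H, B ≤ A → B.relIndex A ≤ p →
      ∃ B' : Subgroup H, B' ≤ A ∧ B'.relIndex A = p ∧
        Subgroup.centralizer (B : Set H) ≤ Subgroup.centralizer (B' : Set H) := by
    intro B hBA hBp
    by_cases hBeq : B.relIndex A = p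
    · exact ⟨B, hBA, hBeq, le_rfl⟩
    · have hdvd : B.relIndex A ∣ p ^ k := hk ▸ Subgroup.relIndex_dvd_card B A
      obtain ⟨j, hj, hj'⟩ := (Nat.dvd_prime_pow hp).mp hdvd
      have hj0 : j = 0 := by
        by_contra hne
        have hj1 : 1 ≤ j := Nat.one_le_iff_ne_zero.mpr hne
        have h3 : p ^ 1 ≤ p ^ j := Nat.pow_le_pow_right hp.pos hj1
        rw [pow_one] at h3
        rw [hj'] at hBp hBeq
        exact hBeq (le_antisymm hBp h3)
      rw [hj0, pow_zero] at hj'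
      have hAB : A ≤ B := Subgroup.relIndex_eq_one.mp hj'
      refine ⟨B₀, hB₀A, hB₀, ?_⟩
      exact Subgroup.centralizer_le (hB₀A.trans hAB)
  -- generation of Qs
  have hQp : ¬ p ∣ Nat.card ↥Qs := fun h => hK (h.trans (Subgroup.card_dvd_of_le hQsK))
  have hgen := Cfsg.Agent.S1324.result p A Qs hA hA2 hQp hAQ
  -- U centralizes Qs modulo N
  have main : ∀ u ∈ U, ∀ y ∈ Qs, ⁅u, y⁆ ∈ N := by
    intro u hu y hy
    have huK : u ∈ K := hU hu
    rw [hgen] at hy
    have key : y ∈ K ∧ ⁅u, y⁆ ∈ N := by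
      refine Subgroup.iSup_induction (C := fun y => y ∈ K ∧ ⁅u, y⁆ ∈ N) _ hy ?_ ?_ ?_
      · rintro ⟨B, hBA, hBp⟩ z hz
        obtain ⟨hzQ, hzC⟩ := Subgroup.mem_inf.mp hz
        obtain ⟨B', hB'A, hB'p, hCC⟩ := hyper B hBA hBp
        have hzK : z ∈ K := hQsK hzQ
        refine ⟨hzK, ?_⟩
        have h1 : ⁅u, z⁆ ∈ ⁅U, K ⊓ Subgroup.centralizer (B' : Set H)⁆ :=
          Subgroup.commutator_mem_commutator hu (Subgroup.mem_inf.mpr ⟨hzK, hCC hzC⟩)
        have h2 : orderOf ⁅u, z⁆ ∣ Nat.card ↥⁅U, K ⊓ Subgroup.centralizer (B' : Set H)⁆ :=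
          Subgroup.orderOf_dvd_natCard _ h1
        have h3 : (orderOf ⁅u, z⁆).Coprime q := by
          have h4 : (Nat.card ↥⁅U, K ⊓ Subgroup.centralizer (B' : Set H)⁆).Coprime q :=
            ((Nat.Prime.coprime_iff_not_dvd hq).mpr (hcomm B' hB'A hB'p)).symm
          exact Nat.Coprime.coprime_dvd_left h2 h4
        have h5 : ⁅u, z⁆ ∈ Qs := by
          rw [commutatorElement_def]
          exact Qs.mul_mem ((Subgroup.le_normalizer_iff.mp hKQ) u huK z hzQ) (Qs.inv_mem hzQ)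
        exact mem_pPrimeCore_of_mem_pPrimePCore_of_coprime q K h5 h3
      · refine ⟨K.one_mem, ?_⟩
        rw [commutatorElement_one_right]
        exact N.one_mem
      · rintro y₁ y₂ ⟨h1K, h1N⟩ ⟨h2K, h2N⟩
        refine ⟨K.mul_mem h1K h2K, ?_⟩
        have h3 : ⁅u, y₁ * y₂⁆ = ⁅u, y₁⁆ * (y₁ * ⁅u, y₂⁆ * y₁⁻¹) := by
          simp only [commutatorElement_def]; group
        rw [h3]
        exact N.mul_mem h1N ((Subgroup.le_normalizer_iff.mp hKN) y₁ h1K _ h2N)
    exact key.2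
  intro u hu
  have huQ : u ∈ Qs := mem_pPrimePCore_of_commutator_mem q K (hU hu) (main u hu)
  have huo : (orderOf u).Coprime q := by
    have h2 : orderOf u ∣ Nat.card ↥U := Subgroup.orderOf_dvd_natCard _ hu
    exact Nat.Coprime.coprime_dvd_left h2 ((Nat.Prime.coprime_iff_not_dvd hq).mpr hUq).symm
  exact mem_pPrimeCore_of_mem_pPrimePCore_of_coprime q K huQ huo

end Cfsg.Agent.S1288
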