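import Mathlib
import Cfsg.Agent.Lib.Helper61.LocalComplete
import Cfsg.Agent.Lib.Helper31.KBalance
import Cfsg.Statements.S1299
-- import your own Cfsg.Agent.* helpers here

set_option autoImplicit false
open Cfsg

namespace Cfsg.Agent.S1299

open Cfsg.Agent.Lib.Helper61 Cfsg.Agent.Lib.Helper31

section aux

variable {G : Type*} [Group G]

theorem elemAb_of_le {p : ℕ} {A B : Subgroup G} (hA : IsElementaryAbelian p A) (hBA : B ≤ A) :
    IsElementaryAbelian p B := by
  refine ⟨⟨⟨fun a b => ?_⟩⟩, fun a ha => hA.2 a (hBA ha)⟩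
  have h1 := hA.1.is_comm.comm (⟨a.1, hBA a.2⟩ : A) ⟨b.1, hBA b.2⟩
  exact Subtype.ext (congrArg (fun w : A => (w : G)) h1)

theorem elemAb_comm' {p : ℕ} {A : Subgroup G} (hA : IsElementaryAbelian p A) :
    ∀ x ∈ A, ∀ y ∈ A, x * y = y * x := by
  intro x hx y hy
  have h3 := hA.1.is_comm.comm (⟨x, hx⟩ : A) ⟨y, hy⟩
  exact congrArg (fun w : A => (w : G)) h3

theorem delta_anti {p : ℕ} {B₀ B : Subgroup G} (h : B₀ ≤ B) :
    signalizerDelta p B ≤ signalizerDelta p B₀ := by
  refine le_iInf ?_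
  rintro ⟨d, hd, hd1⟩
  exact signalizerDelta_le_core (h hd) hd1

theorem delta_commute {p : ℕ} {E : Subgroup G} {x e : G} (hx : x ∈ signalizerDelta p E)
    (he : e ∈ E) : x * e = e * x := by
  by_cases he1 : e = 1
  · rw [he1]; simp
  · have h1 := centralizerPPrimeCore_le p e (signalizerDelta_le_core he he1 hx)
    exact Subgroup.mem_centralizer_singleton_iff.mp h1

theorem mem_sup_zpowers {M : Subgroup G} {x g : G} (hx : ∀ m ∈ M, m * x = x * m)
    (hg : g ∈ M ⊔ Subgroup.zpowers x) : ∃ m ∈ M, ∃ i : ℤ, g = m * x ^ i := by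
  have hcomm : ∀ m ∈ M, ∀ i : ℤ, x ^ i * m = m * x ^ i := by
    intro m hm i
    exact (Commute.zpow_right (show Commute m x from hx m hm) i).eq.symm
  have hg' : g ∈ Subgroup.closure ((M : Set G) ∪ {x}) := by
    rw [Subgroup.closure_union, Subgroup.closure_eq, ← Subgroup.zpowers_eq_closure]; exact hg
  clear hg
  induction hg' using Subgroup.closure_induction with
  | mem y hy =>
    rcases hy with hy | hy
    · exact ⟨y, hy, 0, by simp⟩
    · rw [Set.mem_singleton_iff] at hy; exact ⟨1, M.one_mem, 1, by simp [hy]⟩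
  | one => exact ⟨1, M.one_mem, 0, by simp⟩
  | mul y z _ _ ihy ihz =>
    obtain ⟨m, hm, i, rfl⟩ := ihy
    obtain ⟨m', hm', j, rfl⟩ := ihz
    refine ⟨m * m', M.mul_mem hm hm', i + j, ?_⟩
    rw [zpow_add]
    calc m * x ^ i * (m' * x ^ j) = m * (x ^ i * m') * x ^ j := by group
      _ = m * (m' * x ^ i) * x ^ j := by rw [hcomm m' hm' i]
      _ = m * m' * (x ^ i * x ^ j) := by group
  | inv y _ ih =>
    obtain ⟨m, hm, i, rfl⟩ := ih
    refine ⟨m⁻¹, M.inv_mem hm, -i, ?_⟩
    rw [mul_inv_rev, ← zpow_neg, hcomm m⁻¹ (M.inv_mem hm) (-i)]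

theorem card_mul_le_card_sup [Finite G] {H K : Subgroup G} (h : H ⊓ K = ⊥) :
    Nat.card H * Nat.card K ≤ Nat.card (H ⊔ K : Subgroup G) := by
  rw [← Nat.card_prod]
  refine Nat.card_le_card_of_injective
    (fun x : H × K => (⟨x.1.1 * x.2.1, Subgroup.mul_mem _ (le_sup_left (a := H) (b := K) x.1.2)
      (le_sup_right (a := H) (b := K) x.2.2)⟩ : (H ⊔ K : Subgroup G))) ?_
  rintro ⟨⟨a, ha⟩, ⟨b, hb⟩⟩ ⟨⟨c, hc⟩, ⟨d, hd⟩⟩ heq
  have h1 : a * b = c * d := congrArg Subtype.val heq
  have h2 : c⁻¹ * a = d * b⁻¹ := by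
    calc c⁻¹ * a = c⁻¹ * (a * b) * b⁻¹ := by group
      _ = c⁻¹ * (c * d) * b⁻¹ := by rw [h1]
      _ = d * b⁻¹ := by group
  have h3 : c⁻¹ * a ∈ H ⊓ K :=
    ⟨H.mul_mem (H.inv_mem hc) ha, by rw [h2]; exact K.mul_mem hd (K.inv_mem hb)⟩
  rw [h, Subgroup.mem_bot] at h3
  have hac : c = a := inv_mul_eq_one.mp h3
  subst hac
  have hbd : b = d := mul_left_cancel h1
  subst hbd
  rfl

theorem exists_large_avoiding [Finite G] {p : ℕ} [Fact p.Prime] {A₁ : Subgroup G}
    (hA₁ : IsElementaryAbelian p A₁) {a b : G} (ha : a ∈ A₁) (hb : b ∈ A₁)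
    (hab : a ∉ Subgroup.zpowers b) :
    ∃ A₂ : Subgroup G, A₂ ≤ A₁ ∧ b ∈ A₂ ∧ a ∉ A₂ ∧ Nat.card A₁ ≤ Nat.card A₂ * p := by
  classical
  have hcomm := elemAb_comm' hA₁
  let S : Set (Subgroup G) := {K | K ≤ A₁ ∧ b ∈ K ∧ a ∉ K}
  have hS0 : Subgroup.zpowers b ∈ S :=
    ⟨(Subgroup.zpowers_le).mpr hb, Subgroup.mem_zpowers b, hab⟩
  obtain ⟨M, -, hM⟩ := (Set.toFinite S).exists_le_maximal hS0
  obtain ⟨hMA, hbM, haM⟩ := hM.prop
  have ha1 : a ≠ 1 := fun h => haM (h ▸ M.one_mem)
  have hoa : orderOf a = p := orderOf_eq_prime (hA₁.2 a ha) ha1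
  refine ⟨M, hMA, hbM, haM, ?_⟩
  have hsurj : ∀ x ∈ A₁, ∃ m ∈ M, ∃ z ∈ Subgroup.zpowers a, x = m * z := by
    intro x hx
    by_cases hxM : x ∈ M
    · exact ⟨x, hxM, 1, Subgroup.one_mem _, by simp⟩
    · have hx1 : x ≠ 1 := fun h => hxM (h ▸ M.one_mem)
      have hK : a ∈ M ⊔ Subgroup.zpowers x := by
        by_contra hcon
        have hKS : M ⊔ Subgroup.zpowers x ∈ S :=
          ⟨sup_le hMA ((Subgroup.zpowers_le).mpr hx), le_sup_left (a := M) hbM, hcon⟩
        have hle : M ⊔ Subgroup.zpowers x ≤ M := hM.le_of_ge hKS le_sup_left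
        exact hxM (hle (le_sup_right (a := M) (Subgroup.mem_zpowers x)))
      obtain ⟨m, hm, i, hmi⟩ := mem_sup_zpowers (fun m hm => hcomm m (hMA hm) x hx) hK
      have hxi1 : x ^ i ≠ 1 := by
        intro h
        rw [h, mul_one] at hmi
        exact haM (hmi ▸ hm)
      have hox : orderOf x = p := orderOf_eq_prime (hA₁.2 x hx) hx1
      have hxip : (x ^ i) ^ p = 1 := by
        rw [← zpow_natCast, ← zpow_mul, mul_comm, zpow_mul, zpow_natCast, hA₁.2 x hx, one_zpow]
      have hoxi : orderOf (x ^ i) = p := orderOf_eq_prime hxip hxi1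
      have hzp : Subgroup.zpowers (x ^ i) = Subgroup.zpowers x := by
        refine Subgroup.eq_of_le_of_card_ge
          ((Subgroup.zpowers_le).mpr (Subgroup.zpow_mem_zpowers x i)) ?_
        rw [Nat.card_zpowers, Nat.card_zpowers, hox, hoxi]
      have hxz : x ∈ Subgroup.zpowers (x ^ i) := by rw [hzp]; exact Subgroup.mem_zpowers x
      obtain ⟨l, hl⟩ := Subgroup.mem_zpowers_iff.mp hxz
      have hxi : x ^ i = m⁻¹ * a := by rw [hmi]; group
      have hma : Commute m⁻¹ a := hcomm m⁻¹ (hMA (M.inv_mem hm)) a ha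
      refine ⟨(m⁻¹) ^ l, M.zpow_mem (M.inv_mem hm) l, a ^ l, Subgroup.zpow_mem_zpowers a l, ?_⟩
      rw [← hl, hxi, hma.mul_zpow]
  have hcard : Nat.card A₁ ≤ Nat.card (M × Subgroup.zpowers a) := by
    refine Nat.card_le_card_of_surjective
      (fun x : M × Subgroup.zpowers a => (⟨x.1.1 * x.2.1,
        A₁.mul_mem (hMA x.1.2) ((Subgroup.zpowers_le).mpr ha x.2.2)⟩ : A₁)) ?_
    rintro ⟨x, hx⟩
    obtain ⟨m, hm, z, hz, rfl⟩ := hsurj x hx
    exact ⟨(⟨m, hm⟩, ⟨z, hz⟩), rfl⟩
  rw [Nat.card_prod, Nat.card_zpowers, hoa] at hcard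
  exact hcard

theorem exists_subgroup_card_pow [Finite G] {p k : ℕ} [Fact p.Prime] {B : Subgroup G}
    (hB : IsElementaryAbelian p B) (hBk : p ^ k ≤ Nat.card B) :
    ∃ B₀ : Subgroup G, B₀ ≤ B ∧ Nat.card B₀ = p ^ k := by
  have hp : p.Prime := Fact.out
  have hBpg : IsPGroup p B := by
    intro x
    refine ⟨1, Subtype.ext ?_⟩
    rw [pow_one]
    exact hB.2 x x.2
  obtain ⟨m, hm⟩ := hBpg.exists_card_eq
  have hkm : k ≤ m := by
    rw [hm] at hBk
    exact (Nat.pow_le_pow_iff_right hp.one_lt).mp hBk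
  obtain ⟨K, hK⟩ := Sylow.exists_subgroup_card_pow_prime p (G := ↥B) (n := k)
    (by rw [hm]; exact pow_dvd_pow p hkm)
  refine ⟨K.map B.subtype, Subgroup.map_subtype_le K, ?_⟩
  rw [Subgroup.card_map_of_injective B.subtype_injective]
  exact hK

theorem balancedWrt_of_balanced [Finite G] {p k : ℕ} [Fact p.Prime] (hbal : IsKBalanced p k G)
    {A : Subgroup G} (hA : IsElementaryAbelian p A) : IsKBalancedWrt p k A := by
  intro B hBA hBel hBk a ha ha1
  obtain ⟨B₀, hB₀B, hB₀card⟩ := exists_subgroup_card_pow hBel hBk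
  have hoa : orderOf a = p := orderOf_eq_prime (hA.2 a ha) ha1
  have h1 := hbal B₀ (elemAb_of_le hBel hB₀B) hB₀card a hoa
    (fun x hx => elemAb_comm' hA x (hBA (hB₀B hx)) a ha)
  exact le_trans (inf_le_inf_right _ (delta_anti hB₀B)) h1

theorem not_dvd_of_le_core [Finite G] {p : ℕ} [Fact p.Prime] {X : Subgroup G} {c : G}
    (h : X ≤ centralizerPPrimeCore p c) : ¬ p ∣ Nat.card X := by
  have h2 : Nat.card X ∣ Nat.card (centralizerPPrimeCore p c) := Subgroup.card_dvd_of_le h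
  have h3 := Nat.Coprime.coprime_dvd_left h2 (card_centralizerPPrimeCore_coprime p c)
  exact (Nat.Prime.coprime_iff_not_dvd Fact.out).mp h3.symm

theorem gen_conj_mem {p : ℕ} {A : Subgroup G} (hA : IsElementaryAbelian p A) {E : Subgroup G}
    (hE : E ≤ A) {c : G} (hc : c ∈ A) :
    ∀ b ∈ A, ∀ x ∈ signalizerDelta p E ⊓ Subgroup.centralizer {c},
      b * x * b⁻¹ ∈ signalizerDelta p E ⊓ Subgroup.centralizer {c} := by
  intro b hb x hx
  have hcomm := elemAb_comm' hA
  have hn : A ≤ Subgroup.normalizer (signalizerDelta p E : Set G) :=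
    le_normalizer_signalizerDelta p (fun g hg e he => hcomm g hg e (hE he))
  have h1 : x ∈ Subgroup.centralizer {c} := hx.2
  have h2 : b * x * b⁻¹ ∈ Subgroup.centralizer {c} := by
    rw [Subgroup.mem_centralizer_singleton_iff] at h1 ⊢
    have hbc : b * c = c * b := hcomm b hb c hc
    have hbc' : b⁻¹ * c = c * b⁻¹ := (Commute.inv_left (show Commute b c from hbc)).eq
    calc b * x * b⁻¹ * c = b * x * (b⁻¹ * c) := by group
      _ = b * x * (c * b⁻¹) := by rw [hbc']
      _ = b * (x * c) * b⁻¹ := by group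
      _ = b * (c * x) * b⁻¹ := by rw [h1]
      _ = (b * c) * x * b⁻¹ := by group
      _ = (c * b) * x * b⁻¹ := by rw [hbc]
      _ = c * (b * x * b⁻¹) := by group
  exact ⟨(Subgroup.mem_normalizer_iff.mp (hn hb) x).mp hx.1, h2⟩

theorem mem_centralizer_sup_zpowers {E : Subgroup G} {a x : G} (hE : ∀ e ∈ E, x * e = e * x)
    (ha : x * a = a * x) :
    x ∈ Subgroup.centralizer ((E ⊔ Subgroup.zpowers a : Subgroup G) : Set G) := by
  have h1 : E ⊔ Subgroup.zpowers a ≤ Subgroup.centralizer {x} := by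
    refine sup_le ?_ ?_
    · intro e he
      exact Subgroup.mem_centralizer_singleton_iff.mpr (hE e he).symm
    · rw [Subgroup.zpowers_le]
      exact Subgroup.mem_centralizer_singleton_iff.mpr ha.symm
  rw [Subgroup.mem_centralizer_iff]
  intro h hh
  exact Subgroup.mem_centralizer_singleton_iff.mp (h1 hh)

theorem centralizer_eq_of_zpowers_eq {a b : G} (h : Subgroup.zpowers a = Subgroup.zpowers b) :
    Subgroup.centralizer ({a} : Set G) = Subgroup.centralizer {b} := by
  have key : ∀ {a b : G}, b ∈ Subgroup.zpowers a →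
      Subgroup.centralizer ({a} : Set G) ≤ Subgroup.centralizer {b} := by
    intro a b hb x hx
    obtain ⟨i, rfl⟩ := Subgroup.mem_zpowers_iff.mp hb
    rw [Subgroup.mem_centralizer_singleton_iff] at hx ⊢
    exact (Commute.zpow_right (show Commute x a from hx) i).eq
  exact le_antisymm (key (by rw [h]; exact Subgroup.mem_zpowers b))
    (key (by rw [← h]; exact Subgroup.mem_zpowers a))

/-- The generalized functor: `F` is the frozen part, `A₁` the acting group. -/
def thetaF (p k : ℕ) (F A₁ : Subgroup G) (c : G) : Subgroup G :=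
  ⨆ D : {D : Subgroup G // D ≤ A₁ ∧ p ^ k ≤ Nat.card (F ⊔ D : Subgroup G)},
    signalizerDelta p (F ⊔ (D : Subgroup G)) ⊓ Subgroup.centralizer {c}

theorem thetaF_conj_mem {p k : ℕ} {A : Subgroup G} (hA : IsElementaryAbelian p A)
    {F A₁ : Subgroup G} (hFA : F ≤ A) (hA₁A : A₁ ≤ A) {c : G} (hc : c ∈ A) :
    ∀ b ∈ A, ∀ x ∈ thetaF p k F A₁ c, b * x * b⁻¹ ∈ thetaF p k F A₁ c := by
  intro b hb
  exact lc_conj_mem_iSup _ b
    (fun D x hx => gen_conj_mem hA (sup_le hFA (D.2.1.trans hA₁A)) hc b hb x hx)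

theorem balance_aux [Finite G] {p k : ℕ} [Fact p.Prime] {A : Subgroup G}
    (hA : IsElementaryAbelian p A) (hbalW : IsKBalancedWrt p k A)
    (hsolv : ∀ a ∈ A, a ≠ 1 → Group.IsSolvable (centralizerPPrimeCore p a)) :
    ∀ j : ℕ, 1 ≤ j → ∀ F A₁ : Subgroup G, F ≤ A → A₁ ≤ A → F ⊓ A₁ = ⊥ →
      p ^ k ≤ Nat.card F * p ^ j → p ^ (j + 2) ≤ Nat.card A₁ →
      ∀ a ∈ A₁, a ≠ 1 → ∀ b ∈ A₁, b ≠ 1 →
        thetaF p k F A₁ a ⊓ Subgroup.centralizer {b} ≤ thetaF p k F A₁ b := by
  have hp : p.Prime := Fact.out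
  have hcommA := elemAb_comm' hA
  intro j hj
  induction j, hj using Nat.le_induction with
  | base =>
    intro F A₁ hFA hA₁A hdisj hcard _ a ha ha1 b _ _
    have hoa : orderOf a = p := orderOf_eq_prime (hA.2 a (hA₁A ha)) ha1
    have hzaA₁ : Subgroup.zpowers a ≤ A₁ := (Subgroup.zpowers_le).mpr ha
    have hF'A : F ⊔ Subgroup.zpowers a ≤ A := sup_le hFA (hzaA₁.trans hA₁A)
    have hF'big : p ^ k ≤ Nat.card (F ⊔ Subgroup.zpowers a : Subgroup G) := by
      have h0 : F ⊓ Subgroup.zpowers a = ⊥ := by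
        rw [eq_bot_iff, ← hdisj]; exact inf_le_inf_left _ hzaA₁
      have h1 := card_mul_le_card_sup h0
      rw [Nat.card_zpowers, hoa] at h1
      rw [pow_one] at hcard
      exact hcard.trans h1
    have h1 : thetaF p k F A₁ a ≤ signalizerDelta p (F ⊔ Subgroup.zpowers a) := by
      refine iSup_le ?_
      rintro ⟨D, hD, hDbig⟩ x hx
      have hFDA : F ⊔ D ≤ A := sup_le hFA (hD.trans hA₁A)
      have hxΔ : x ∈ signalizerDelta p (F ⊔ D) := hx.1
      have hxa : x ∈ Subgroup.centralizer {a} := hx.2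
      apply signalizerDelta_inf_centralizer_le hbalW hFDA (elemAb_of_le hA hFDA) hDbig hF'A
      exact ⟨hxΔ, mem_centralizer_sup_zpowers
        (fun e he => delta_commute hxΔ (le_sup_left (a := F) he))
        (Subgroup.mem_centralizer_singleton_iff.mp hxa)⟩
    refine le_trans (inf_le_inf_right _ h1) ?_
    exact le_iSup (fun D : {D : Subgroup G // D ≤ A₁ ∧ p ^ k ≤ Nat.card (F ⊔ D : Subgroup G)} =>
      signalizerDelta p (F ⊔ (D : Subgroup G)) ⊓ Subgroup.centralizer {b})
      ⟨Subgroup.zpowers a, hzaA₁, hF'big⟩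
  | succ j hj ih =>
    intro F A₁ hFA hA₁A hdisj hcard hA₁card a ha ha1 b hb hb1
    have hoa : orderOf a = p := orderOf_eq_prime (hA.2 a (hA₁A ha)) ha1
    have hob : orderOf b = p := orderOf_eq_prime (hA.2 b (hA₁A hb)) hb1
    by_cases hab : a ∈ Subgroup.zpowers b
    · have hz : Subgroup.zpowers a = Subgroup.zpowers b :=
        Subgroup.eq_of_le_of_card_ge ((Subgroup.zpowers_le).mpr hab)
          (by rw [Nat.card_zpowers, Nat.card_zpowers, hoa, hob])
      have hcent := centralizer_eq_of_zpowers_eq hz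
      unfold thetaF
      rw [hcent]
      exact inf_le_left
    · obtain ⟨A₂, hA₂A₁, hbA₂, haA₂, hA₂card⟩ :=
        exists_large_avoiding (elemAb_of_le hA hA₁A) ha hb hab
      have hzaA₁ : Subgroup.zpowers a ≤ A₁ := (Subgroup.zpowers_le).mpr ha
      have hF'A : F ⊔ Subgroup.zpowers a ≤ A := sup_le hFA (hzaA₁.trans hA₁A)
      have hA₂A : A₂ ≤ A := hA₂A₁.trans hA₁A
      have hA₂el := elemAb_of_le hA hA₂A
      have hA₂big : p ^ (j + 2) ≤ Nat.card A₂ := by
        have h1 : p ^ (j + 2) * p ≤ Nat.card A₂ * p := by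
          calc p ^ (j + 2) * p = p ^ (j + 1 + 2) := by ring
            _ ≤ Nat.card A₁ := hA₁card
            _ ≤ Nat.card A₂ * p := hA₂card
        exact Nat.le_of_mul_le_mul_right h1 hp.pos
      have hdisj' : (F ⊔ Subgroup.zpowers a) ⊓ A₂ = ⊥ := by
        rw [eq_bot_iff]
        rintro x ⟨hxF', hxA₂⟩
        obtain ⟨f, hf, i, hfi⟩ :=
          mem_sup_zpowers (fun m hm => hcommA m (hFA hm) a (hA₁A ha)) hxF'
        have hfA₁ : f ∈ A₁ := by
          have h1 : f = x * (a ^ i)⁻¹ := by rw [hfi]; group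
          rw [h1]
          exact A₁.mul_mem (hA₂A₁ hxA₂) (A₁.inv_mem (A₁.zpow_mem ha i))
        have hf1 : f = 1 := by
          have h1 : f ∈ F ⊓ A₁ := ⟨hf, hfA₁⟩
          rw [hdisj, Subgroup.mem_bot] at h1; exact h1
        rw [hf1, one_mul] at hfi
        rw [Subgroup.mem_bot]
        by_contra hx1
        have hox : orderOf x = p := orderOf_eq_prime (hA.2 x (hA₂A hxA₂)) hx1
        have hzx : Subgroup.zpowers x = Subgroup.zpowers a := by
          refine Subgroup.eq_of_le_of_card_ge ?_ ?_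
          · rw [Subgroup.zpowers_le, hfi]; exact Subgroup.zpow_mem_zpowers a i
          · rw [Nat.card_zpowers, Nat.card_zpowers, hox, hoa]
        have h2 : a ∈ Subgroup.zpowers x := by rw [hzx]; exact Subgroup.mem_zpowers a
        exact haA₂ ((Subgroup.zpowers_le.mpr hxA₂) h2)
      have hF'card : Nat.card F * p ≤ Nat.card (F ⊔ Subgroup.zpowers a : Subgroup G) := by
        have h0 : F ⊓ Subgroup.zpowers a = ⊥ := by
          rw [eq_bot_iff, ← hdisj]; exact inf_le_inf_left _ hzaA₁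
        have h1 := card_mul_le_card_sup h0
        rwa [Nat.card_zpowers, hoa] at h1
      have hcard' : p ^ k ≤ Nat.card (F ⊔ Subgroup.zpowers a : Subgroup G) * p ^ j := by
        calc p ^ k ≤ Nat.card F * p ^ (j + 1) := hcard
          _ = Nat.card F * p * p ^ j := by ring
          _ ≤ Nat.card (F ⊔ Subgroup.zpowers a : Subgroup G) * p ^ j :=
            Nat.mul_le_mul_right _ hF'card
      have hψbal := ih (F ⊔ Subgroup.zpowers a) A₂ hF'A hA₂A hdisj' hcard' hA₂big
      have hψle : ∀ c : G, thetaF p k (F ⊔ Subgroup.zpowers a) A₂ c ≤ centralizerPPrimeCore p a := by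
        intro c
        refine iSup_le ?_
        rintro ⟨D₂, hD₂, hbig⟩
        exact inf_le_left.trans (signalizerDelta_le_core
          (le_sup_left (a := F ⊔ Subgroup.zpowers a)
            (le_sup_right (a := F) (Subgroup.mem_zpowers a))) ha1)
      have hψsf : IsSignalizerFunctor p A₂ (thetaF p k (F ⊔ Subgroup.zpowers a) A₂) := by
        refine ⟨?_, ?_, ?_, ?_⟩
        · intro c hc hc1; exact iSup_le fun D => inf_le_right
        · intro c hc hc1; exact not_dvd_of_le_core (hψle c)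
        · intro c hc hc1 e he x hx
          exact thetaF_conj_mem hA hF'A hA₂A (hA₂A hc) e (hA₂A he) x hx
        · intro c hc hc1 e he he1
          exact hψbal c hc hc1 e he he1
      have hWle : signalizerClosure A₂ (thetaF p k (F ⊔ Subgroup.zpowers a) A₂) ≤
          centralizerPPrimeCore p a := iSup_le fun c => hψle c.1
      have hsa := hsolv a (hA₁A ha) ha1
      have hWs : Group.IsSolvable
          (signalizerClosure A₂ (thetaF p k (F ⊔ Subgroup.zpowers a) A₂)) :=
        Group.isSolvable_of_isSolvable_injective (Subgroup.inclusion_injective hWle)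
      have hWp : ¬ p ∣ Nat.card (signalizerClosure A₂ (thetaF p k (F ⊔ Subgroup.zpowers a) A₂)) :=
        not_dvd_of_le_core hWle
      have hA₂3 : p ^ 3 ≤ Nat.card A₂ :=
        le_trans (Nat.pow_le_pow_right hp.pos (by omega)) hA₂big
      have hLC := signalizer_closure_complete p A₂ hA₂el hA₂3 _ hψsf hWs hWp b hbA₂ hb1
      have hi : thetaF p k F A₁ a ≤
          signalizerClosure A₂ (thetaF p k (F ⊔ Subgroup.zpowers a) A₂) := by
        refine iSup_le ?_
        rintro ⟨D, hD, hDbig⟩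
        have hFDA : F ⊔ D ≤ A := sup_le hFA (hD.trans hA₁A)
        have hXcore : signalizerDelta p (F ⊔ D) ⊓ Subgroup.centralizer {a} ≤
            centralizerPPrimeCore p a :=
          hbalW (F ⊔ D) hFDA (elemAb_of_le hA hFDA) hDbig a (hA₁A ha) ha1
        have hXp : ¬ p ∣ Nat.card (signalizerDelta p (F ⊔ D) ⊓ Subgroup.centralizer {a} :
            Subgroup G) := not_dvd_of_le_core hXcore
        have hXn : A₁ ≤ Subgroup.normalizer
            ((signalizerDelta p (F ⊔ D) ⊓ Subgroup.centralizer {a} : Subgroup G) : Set G) :=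
          Cfsg.Agent.Lib.Helper22.le_normalizer_of_conj_mem
            (fun e he x hx => gen_conj_mem hA hFDA (hA₁A ha) e (hA₁A he) x hx)
        have hA₁2 : p ^ 2 ≤ Nat.card A₁ :=
          le_trans (Nat.pow_le_pow_right hp.pos (by omega)) hA₁card
        have hgen := Cfsg.Agent.S1324.result p A₁
          (signalizerDelta p (F ⊔ D) ⊓ Subgroup.centralizer {a}) (elemAb_of_le hA hA₁A) hA₁2
          hXp hXn
        change signalizerDelta p (F ⊔ D) ⊓ Subgroup.centralizer {a} ≤ _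
        rw [hgen]
        refine iSup_le ?_
        rintro ⟨B, hBA₁, hBidx⟩
        have hD₂A₂ : B ⊓ A₂ ≤ A₂ := inf_le_right
        have hidx : (B ⊓ A₂).relIndex A₂ ≤ p := by
          rw [Subgroup.inf_relIndex_right]
          exact le_trans (Subgroup.relIndex_le_of_le_right hA₂A₁
            (Subgroup.index_ne_zero_of_finite (H := B.subgroupOf A₁))) hBidx
        have hD₂card : p ^ (j + 1) ≤ Nat.card (B ⊓ A₂ : Subgroup G) :=
          lc_pow_le_card_of_relIndex hp.pos hD₂A₂ hidx hA₂big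
        obtain ⟨c, hcD₂, hc1⟩ := lc_exists_ne_one hp
          (le_trans (Nat.pow_le_pow_right hp.pos (by omega)) hD₂card)
        have hbig' : p ^ k ≤ Nat.card (F ⊔ Subgroup.zpowers a ⊔ (B ⊓ A₂) : Subgroup G) := by
          have h0 : F ⊓ (B ⊓ A₂) = ⊥ := by
            rw [eq_bot_iff, ← hdisj]; exact inf_le_inf_left _ (inf_le_right.trans hA₂A₁)
          have h1 := card_mul_le_card_sup h0
          have h2 : Nat.card (F ⊔ (B ⊓ A₂) : Subgroup G) ≤
              Nat.card (F ⊔ Subgroup.zpowers a ⊔ (B ⊓ A₂) : Subgroup G) :=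
            Subgroup.card_le_of_le (sup_le_sup_right le_sup_left _)
          calc p ^ k ≤ Nat.card F * p ^ (j + 1) := hcard
            _ ≤ Nat.card F * Nat.card (B ⊓ A₂ : Subgroup G) := Nat.mul_le_mul_left _ hD₂card
            _ ≤ Nat.card (F ⊔ (B ⊓ A₂) : Subgroup G) := h1
            _ ≤ _ := h2
        refine le_trans ?_ (lc_theta_le_closure (A := A₂)
          (θ := thetaF p k (F ⊔ Subgroup.zpowers a) A₂) hcD₂.2 hc1)
        refine le_trans ?_ (le_iSup (fun D₂ : {D₂ : Subgroup G // D₂ ≤ A₂ ∧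
            p ^ k ≤ Nat.card (F ⊔ Subgroup.zpowers a ⊔ D₂ : Subgroup G)} =>
          signalizerDelta p (F ⊔ Subgroup.zpowers a ⊔ (D₂ : Subgroup G)) ⊓
            Subgroup.centralizer {c}) ⟨B ⊓ A₂, hD₂A₂, hbig'⟩)
        intro x hx
        have hxX : x ∈ signalizerDelta p (F ⊔ D) ⊓ Subgroup.centralizer {a} := hx.1
        have hxB : x ∈ Subgroup.centralizer (B : Set G) := hx.2
        have hxΔ : x ∈ signalizerDelta p (F ⊔ D) := hxX.1
        have hxa : x ∈ Subgroup.centralizer {a} := hxX.2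
        have h1 : F ⊔ Subgroup.zpowers a ⊔ (B ⊓ A₂) ≤ Subgroup.centralizer {x} := by
          refine sup_le (sup_le ?_ ?_) ?_
          · intro f hf
            exact Subgroup.mem_centralizer_singleton_iff.mpr
              (delta_commute hxΔ (le_sup_left (a := F) hf)).symm
          · rw [Subgroup.zpowers_le]
            exact Subgroup.mem_centralizer_singleton_iff.mpr
              (Subgroup.mem_centralizer_singleton_iff.mp hxa).symm
          · intro d hd
            rw [Subgroup.mem_centralizer_singleton_iff]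
            exact Subgroup.mem_centralizer_iff.mp hxB d hd.1
        have h2 : x ∈ Subgroup.centralizer
            ((F ⊔ Subgroup.zpowers a ⊔ (B ⊓ A₂) : Subgroup G) : Set G) := by
          rw [Subgroup.mem_centralizer_iff]
          intro h hh
          exact Subgroup.mem_centralizer_singleton_iff.mp (h1 hh)
        have h3 : x ∈ signalizerDelta p (F ⊔ Subgroup.zpowers a ⊔ (B ⊓ A₂)) :=
          signalizerDelta_inf_centralizer_le hbalW hFDA (elemAb_of_le hA hFDA) hDbig
            (sup_le hF'A (hD₂A₂.trans hA₂A)) ⟨hxΔ, h2⟩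
        have h4 : x ∈ Subgroup.centralizer {c} := by
          rw [Subgroup.mem_centralizer_singleton_iff]
          exact (Subgroup.mem_centralizer_iff.mp hxB c hcD₂.1).symm
        exact ⟨h3, h4⟩
      have hiv : thetaF p k (F ⊔ Subgroup.zpowers a) A₂ b ≤ thetaF p k F A₁ b := by
        refine iSup_le ?_
        rintro ⟨D₂, hD₂, hbig⟩
        have hsup : F ⊔ Subgroup.zpowers a ⊔ D₂ = F ⊔ (Subgroup.zpowers a ⊔ D₂) := sup_assoc _ _ _
        have hbig2 : p ^ k ≤ Nat.card (F ⊔ (Subgroup.zpowers a ⊔ D₂) : Subgroup G) := by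
          rw [← hsup]; exact hbig
        change signalizerDelta p (F ⊔ Subgroup.zpowers a ⊔ D₂) ⊓ Subgroup.centralizer {b} ≤ _
        rw [hsup]
        exact le_iSup (fun D : {D : Subgroup G // D ≤ A₁ ∧
            p ^ k ≤ Nat.card (F ⊔ D : Subgroup G)} =>
          signalizerDelta p (F ⊔ (D : Subgroup G)) ⊓ Subgroup.centralizer {b})
          ⟨Subgroup.zpowers a ⊔ D₂, sup_le hzaA₁ (hD₂.trans hA₂A₁), hbig2⟩
      exact le_trans (le_trans (inf_le_inf_right _ hi) hLC) hiv

end aux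

/-- Let G be finite and k-balanced for the prime p (k ≥ 1), A an elementary abelian p-subgroup of order at least p^(k+2) such that O_{p'}(C_G(a)) is solvable for every non-identity a ∈ A. For a ∈ A put θ a = the subgroup generated by the Δ_G(D) ∩ C_G(a) over the subgroups D ≤ A of order p^k. Then θ is an A-signalizer functor. -/
theorem result {G : Type*} [Group G] [Finite G] (p k : ℕ) [Fact p.Prime] (hk : 1 ≤ k) (hbal : Cfsg.IsKBalanced p k G) (A : Subgroup G) (hA : Cfsg.IsElementaryAbelian p A) (hAk : p ^ (k + 2) ≤ Nat.card ↥A) (hsolv : ∀ a ∈ A, a ≠ 1 → Group.IsSolvable ↥(Cfsg.centralizerPPrimeCore p a)) : Cfsg.IsSignalizerFunctor p A (fun a => ⨆ D : {D : Subgroup G // D ≤ A ∧ Nat.card ↥D = p ^ k}, Cfsg.signalizerDelta p (D : Subgroup G) ⊓ Subgroup.centralizer {a}) := by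
  classical
  have hbalW := balancedWrt_of_balanced hbal hA
  have heq : ∀ c : G, (⨆ D : {D : Subgroup G // D ≤ A ∧ Nat.card ↥D = p ^ k},
      Cfsg.signalizerDelta p (D : Subgroup G) ⊓ Subgroup.centralizer {c}) = thetaF p k ⊥ A c := by
    intro c
    apply le_antisymm
    · refine iSup_le ?_
      rintro ⟨D, hDA, hDcard⟩
      have e : (⊥ : Subgroup G) ⊔ D = D := bot_sup_eq _
      have hbig : p ^ k ≤ Nat.card ((⊥ : Subgroup G) ⊔ D : Subgroup G) := by rw [e, hDcard]
      calc signalizerDelta p D ⊓ Subgroup.centralizer {c}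
          = signalizerDelta p ((⊥ : Subgroup G) ⊔ D) ⊓ Subgroup.centralizer {c} := by rw [e]
        _ ≤ thetaF p k ⊥ A c :=
          le_iSup (fun D : {D : Subgroup G // D ≤ A ∧
              p ^ k ≤ Nat.card ((⊥ : Subgroup G) ⊔ D : Subgroup G)} =>
            signalizerDelta p ((⊥ : Subgroup G) ⊔ (D : Subgroup G)) ⊓ Subgroup.centralizer {c})
            ⟨D, hDA, hbig⟩
    · refine iSup_le ?_
      rintro ⟨D, hDA, hbig⟩
      have e : (⊥ : Subgroup G) ⊔ D = D := bot_sup_eq _
      change signalizerDelta p ((⊥ : Subgroup G) ⊔ D) ⊓ Subgroup.centralizer {c} ≤ _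
      rw [e] at hbig ⊢
      obtain ⟨D₀, hD₀D, hD₀card⟩ := exists_subgroup_card_pow (elemAb_of_le hA hDA) hbig
      refine le_trans (inf_le_inf_right _ (delta_anti hD₀D)) ?_
      exact le_iSup (fun D : {D : Subgroup G // D ≤ A ∧ Nat.card ↥D = p ^ k} =>
        signalizerDelta p (D : Subgroup G) ⊓ Subgroup.centralizer {c}) ⟨D₀, hD₀D.trans hDA, hD₀card⟩
  have hfun : (fun a => ⨆ D : {D : Subgroup G // D ≤ A ∧ Nat.card ↥D = p ^ k},
      Cfsg.signalizerDelta p (D : Subgroup G) ⊓ Subgroup.centralizer {a}) = thetaF p k ⊥ A :=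
    funext heq
  rw [hfun]
  have hcore : ∀ c ∈ A, c ≠ 1 → thetaF p k ⊥ A c ≤ centralizerPPrimeCore p c := by
    intro c hc hc1
    refine iSup_le ?_
    rintro ⟨D, hD, hbig⟩
    have hle : (⊥ : Subgroup G) ⊔ D ≤ A := sup_le bot_le hD
    exact hbalW _ hle (elemAb_of_le hA hle) hbig c hc hc1
  refine ⟨?_, ?_, ?_, ?_⟩
  · intro c hc hc1; exact iSup_le fun D => inf_le_right
  · intro c hc hc1; exact not_dvd_of_le_core (hcore c hc hc1)
  · intro c hc hc1 b hb x hx
    exact thetaF_conj_mem hA bot_le le_rfl hc b hb x hx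
  · intro a ha ha1 b hb hb1
    exact balance_aux hA hbalW hsolv k hk ⊥ A bot_le le_rfl (bot_inf_eq A)
      (by rw [Subgroup.card_bot, one_mul]) hAk a ha ha1 b hb hb1

end Cfsg.Agent.S1299
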