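import Mathlib
import Cfsg.Statements.S1300

set_option autoImplicit false
open Cfsg

namespace Cfsg.Agent.S1300

theorem cppc_le_centralizer {G : Type*} [Group G] (p : ℕ) (x : G) :
    Cfsg.centralizerPPrimeCore p x ≤ Subgroup.centralizer ({x} : Set G) := by
  unfold Cfsg.centralizerPPrimeCore
  exact Subgroup.map_subtype_le _

/-- For a finite group G, balance in the sense of commuting involutions is the same as 1-balance for the prime 2. -/
theorem result {G : Type*} [Group G] [Finite G] : Cfsg.IsBalanced G ↔ Cfsg.IsKBalanced 2 1 G := by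
  constructor
  · intro hbal A hA hcard b hb hcomm
    -- pick a nontrivial element of A
    have hnt : ∃ x ∈ A, x ≠ 1 := by
      by_contra hcon
      push Not at hcon
      have hbot : A = ⊥ := by
        rw [Subgroup.eq_bot_iff_forall]
        exact hcon
      rw [hbot] at hcard
      simp at hcard
    obtain ⟨x, hxA, hx1⟩ := hnt
    have hx2 : x ^ 2 = 1 := hA.2 x hxA
    have hox : orderOf x = 2 := orderOf_eq_prime hx2 hx1
    have hxb : x * b = b * x := hcomm x hxA
    have hle : Cfsg.signalizerDelta 2 A ≤ Cfsg.centralizerPPrimeCore 2 x := by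
      unfold Cfsg.signalizerDelta
      exact iInf_le (fun a : {a : G // a ∈ A ∧ a ≠ 1} => Cfsg.centralizerPPrimeCore 2 (a : G)) ⟨x, hxA, hx1⟩
    have h1 := hbal x b hox hb hxb
    calc Cfsg.signalizerDelta 2 A ⊓ Subgroup.centralizer {b}
        ≤ Cfsg.centralizerPPrimeCore 2 x ⊓ Subgroup.centralizer {b} := inf_le_inf_right _ hle
      _ = Cfsg.centralizerPPrimeCore 2 b ⊓ Subgroup.centralizer {x} := h1
      _ ≤ Cfsg.centralizerPPrimeCore 2 b := inf_le_left
  · intro hk
    have key : ∀ x y : G, orderOf x = 2 → orderOf y = 2 → x * y = y * x →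
        Cfsg.centralizerPPrimeCore 2 x ⊓ Subgroup.centralizer {y} ≤
          Cfsg.centralizerPPrimeCore 2 y ⊓ Subgroup.centralizer {x} := by
      intro x y hx hy hxy
      have hx2 : x ^ 2 = 1 := by rw [← hx]; exact pow_orderOf_eq_one x
      have hEA : Cfsg.IsElementaryAbelian 2 (Subgroup.zpowers x) := by
        refine ⟨inferInstance, ?_⟩
        intro a ha
        obtain ⟨k, rfl⟩ := Subgroup.mem_zpowers_iff.mp ha
        rw [← zpow_natCast, ← zpow_mul, mul_comm, zpow_mul, zpow_natCast, hx2, one_zpow]
      have hcard : Nat.card (Subgroup.zpowers x) = 2 ^ 1 := by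
        rw [Nat.card_zpowers, hx]; norm_num
      have hcomm : ∀ a ∈ Subgroup.zpowers x, a * y = y * a := by
        intro a ha
        obtain ⟨k, rfl⟩ := Subgroup.mem_zpowers_iff.mp ha
        exact ((Commute.zpow_left (show Commute x y from hxy) k)).eq
      have h1 := hk (Subgroup.zpowers x) hEA hcard y hy hcomm
      have hle : Cfsg.centralizerPPrimeCore 2 x ≤ Cfsg.signalizerDelta 2 (Subgroup.zpowers x) := by
        unfold Cfsg.signalizerDelta
        refine le_iInf ?_
        rintro ⟨a, ha, ha1⟩
        obtain ⟨k, rfl⟩ := Subgroup.mem_zpowers_iff.mp ha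
        have hax : x ^ k = x := by
          rcases Int.even_or_odd' k with ⟨m, hm | hm⟩
          · exfalso
            apply ha1
            rw [hm, zpow_mul, zpow_ofNat, hx2, one_zpow]
          · rw [hm, zpow_add, zpow_mul, zpow_ofNat, hx2, one_zpow, one_mul, zpow_one]
        show Cfsg.centralizerPPrimeCore 2 x ≤ Cfsg.centralizerPPrimeCore 2 (x ^ k)
        rw [hax]
      refine le_inf ?_ ?_
      · exact le_trans (inf_le_inf_right _ hle) h1
      · exact le_trans inf_le_left (cppc_le_centralizer 2 x)
    intro x y hx hy hxy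
    exact le_antisymm (key x y hx hy hxy) (key y x hy hx hxy.symm)

end Cfsg.Agent.S1300
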