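import Mathlib
import Cfsg.Agent.Lib.Helper22.Balance
import Cfsg.Agent.Lib.Helper22.PConstr
import Cfsg.Statements.S1303

set_option autoImplicit false
open Cfsg

namespace Cfsg.Agent.S1303

/-- The group `SL(2, 3)`. -/
abbrev XS := Matrix.SpecialLinearGroup (Fin 2) (ZMod 3)

set_option maxRecDepth 100000 in
theorem card_XS : Fintype.card XS = 24 := by decide

set_option maxRecDepth 100000 in
theorem invol_central : ∀ t : XS, t ^ 2 = 1 → t ≠ 1 → ∀ g : XS, g * t = t * g := by decide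

set_option maxRecDepth 100000 in
theorem three_elt : ∀ g : XS, g ^ 3 = 1 → g ≠ 1 → ∃ h : XS, (g * (h * g * h⁻¹)) ^ 3 ≠ 1 := by
  decide

set_option maxRecDepth 100000 in
theorem card_pow8 : (Finset.univ.filter (fun g : XS => g ^ 8 = 1)).card = 8 := by decide

set_option maxRecDepth 100000 in
theorem mul_pow8 : ∀ g h : XS, g ^ 8 = 1 → h ^ 8 = 1 → (g * h) ^ 8 = 1 := by decide

/-- The Sylow 2-subgroup of `SL(2, 3)`. -/
def QS : Subgroup XS where
  carrier := {g | g ^ 8 = 1}
  mul_mem' := fun {a b} ha hb => mul_pow8 a b ha hb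
  one_mem' := one_pow 8
  inv_mem' := fun {a} ha => by
    show a⁻¹ ^ 8 = 1
    rw [inv_pow, show a ^ 8 = 1 from ha, inv_one]

theorem mem_QS {g : XS} : g ∈ QS ↔ g ^ 8 = 1 := Iff.rfl

theorem QS_normal : (QS : Subgroup XS).Normal := ⟨fun n hn g => by
  rw [mem_QS] at hn ⊢
  rw [conj_pow, hn, mul_one, mul_inv_cancel]⟩

theorem card_QS : Nat.card QS = 8 := by
  have h0 : Nat.card QS = ((QS : Subgroup XS) : Set XS).ncard := _root_.Nat.card_coe_set_eq _
  have h1 : ((QS : Subgroup XS) : Set XS) = ↑(Finset.univ.filter (fun g : XS => g ^ 8 = 1)) := by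
    ext x
    simp only [SetLike.mem_coe, mem_QS, Finset.coe_filter, Finset.mem_univ, true_and,
      Set.mem_ofPred_eq]
  rw [h0, h1, Set.ncard_coe_finset, card_pow8]

theorem XS_solvable : Group.IsSolvable XS := by
  have hn := QS_normal
  have hp : Fact (Nat.Prime 2) := ⟨Nat.prime_two⟩
  have hQ : IsPGroup 2 QS := IsPGroup.of_card (n := 3) card_QS
  have h1 : Group.IsSolvable QS := by
    have := hQ.isNilpotent
    infer_instance
  have hcard : Nat.card (XS ⧸ QS) = 3 := by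
    have := Subgroup.card_eq_card_quotient_mul_card_subgroup QS
    rw [card_QS, Nat.card_eq_fintype_card, card_XS] at this
    omega
  have h3 : Fact (Nat.Prime 3) := ⟨Nat.prime_three⟩
  have hc : IsCyclic (XS ⧸ QS) := isCyclic_of_prime_card hcard
  have h2 : Group.IsSolvable (XS ⧸ QS) :=
    Group.isSolvable_of_comm (fun a b => (IsCyclic.isMulCommutative (α := XS ⧸ QS)).is_comm.comm a b)
  exact Group.isSolvable_of_ker_le_range QS.subtype (QuotientGroup.mk' QS) (by simp)

/-- A unipotent element of order 3. -/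
def uS : XS := ⟨!![1, 1; 0, 1], by decide⟩

theorem pow3_of_mem_pPrimeCore {g : XS} (hg : g ∈ Cfsg.pPrimeCore 2 XS) : g ^ 3 = 1 := by
  have h1 : orderOf g ∣ Nat.card (Cfsg.pPrimeCore 2 XS) := Subgroup.orderOf_dvd_natCard _ hg
  have h2 : Nat.card (Cfsg.pPrimeCore 2 XS) ∣ Nat.card XS := Subgroup.card_subgroup_dvd_card _
  have hX : Nat.card XS = 24 := by rw [Nat.card_eq_fintype_card, card_XS]
  rw [hX] at h2
  have h3 : (Nat.card (Cfsg.pPrimeCore 2 XS)).Coprime 2 :=
    Cfsg.Agent.Lib.Helper22.card_pPrimeCore_coprime 2 XS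
  have h4 : (orderOf g).Coprime 8 := by
    have : (orderOf g).Coprime 2 := Nat.Coprime.coprime_dvd_left h1 h3
    exact Nat.Coprime.pow_right 3 this
  have h5 : orderOf g ∣ 8 * 3 := dvd_trans h1 h2
  exact orderOf_dvd_iff_pow_eq_one.mp (h4.dvd_of_dvd_mul_left h5)

theorem pPrimeCore_XS : Cfsg.pPrimeCore 2 XS = ⊥ := by
  rw [eq_bot_iff]
  intro g hg
  rw [Subgroup.mem_bot]
  by_contra hne
  obtain ⟨h, hh⟩ := three_elt g (pow3_of_mem_pPrimeCore hg) hne
  have hn := Cfsg.Agent.Lib.Helper22.pPrimeCore_normal' 2 XS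
  exact hh (pow3_of_mem_pPrimeCore (Subgroup.mul_mem _ hg (hn.conj_mem g hg h)))

/-- The group X = SL(2, 3): it is 2-constrained, O_{2'}(X) = 1, its centre A = Z(X) contains every involution of X = C_X(A), and X has a subgroup of order 3 (normalized by A) not contained in O_{2'}(X). -/
theorem result : Cfsg.IsPConstrained 2 (Matrix.SpecialLinearGroup (Fin 2) (ZMod 3)) ∧ Cfsg.pPrimeCore 2 (Matrix.SpecialLinearGroup (Fin 2) (ZMod 3)) = ⊥ ∧ (∀ t : Matrix.SpecialLinearGroup (Fin 2) (ZMod 3), orderOf t = 2 → t ∈ Subgroup.center (Matrix.SpecialLinearGroup (Fin 2) (ZMod 3))) ∧ ∃ Q : Subgroup (Matrix.SpecialLinearGroup (Fin 2) (ZMod 3)), Nat.card ↥Q = 3 ∧ ¬ (Q ≤ Cfsg.pPrimeCore 2 (Matrix.SpecialLinearGroup (Fin 2) (ZMod 3))) := by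
  have hp : Fact (Nat.Prime 2) := ⟨Nat.prime_two⟩
  refine ⟨?_, pPrimeCore_XS, ?_, ?_⟩
  · exact Cfsg.Agent.Lib.Helper22.isPConstrained_iff.mpr
      (Cfsg.Agent.Lib.Helper22.pLayer_eq_bot_of_isSolvable 2 XS_solvable)
  · intro t ht
    rw [Subgroup.mem_center_iff]
    refine invol_central t ?_ ?_
    · have := pow_orderOf_eq_one t
      rwa [ht] at this
    · rintro rfl
      rw [orderOf_one] at ht
      exact absurd ht (by norm_num)
  · refine ⟨Subgroup.zpowers uS, ?_, ?_⟩
    · rw [Nat.card_zpowers]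
      exact orderOf_eq_prime (by decide) (by decide)
    · rw [pPrimeCore_XS]
      intro h
      have : uS ∈ (⊥ : Subgroup XS) := h (Subgroup.mem_zpowers uS)
      rw [Subgroup.mem_bot] at this
      exact absurd this (by decide)

end Cfsg.Agent.S1303
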