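import Mathlib
import Cfsg.Statements.S1304

set_option autoImplicit false
open Cfsg
open scoped commutatorElement

namespace Cfsg.Agent.S1304

/-- Let X be a perfect group and α an automorphism of X with α(x) x⁻¹ central for every x. Then α is the identity. -/
theorem result {X : Type*} [Group X] (hperf : commutator X = ⊤) (α : X ≃* X) (h : ∀ x : X, α x * x⁻¹ ∈ Subgroup.center X) : ∀ x : X, α x = x := by
  have key : commutator X ≤ MonoidHom.eqLocus α.toMonoidHom (MonoidHom.id X) := by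
    rw [commutator_eq_closure, Subgroup.closure_le]
    rintro x ⟨a, b, rfl⟩
    show α ⁅a, b⁆ = ⁅a, b⁆
    have ha := h a
    have hb := h b
    rw [Subgroup.mem_center_iff] at ha hb
    -- write α a = za * a and α b = zb * b with za, zb central
    have ea : α a = (α a * a⁻¹) * a := by group
    have eb : α b = (α b * b⁻¹) * b := by group
    generalize α a * a⁻¹ = za at ha ea
    generalize α b * b⁻¹ = zb at hb eb
    rw [commutatorElement_def, map_mul, map_mul, map_mul, map_inv, map_inv, ea, eb]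
    have h1 : ∀ g : X, g * za = za * g := ha
    have h2 : ∀ g : X, g * zb = zb * g := hb
    have h3 : ∀ g : X, g * za⁻¹ = za⁻¹ * g := by
      intro g
      have := h1 g
      calc g * za⁻¹ = za⁻¹ * (za * g) * za⁻¹ := by group
        _ = za⁻¹ * (g * za) * za⁻¹ := by rw [this]
        _ = za⁻¹ * g := by group
    have h4 : ∀ g : X, g * zb⁻¹ = zb⁻¹ * g := by
      intro g
      have := h2 g
      calc g * zb⁻¹ = zb⁻¹ * (zb * g) * zb⁻¹ := by group
        _ = zb⁻¹ * (g * zb) * zb⁻¹ := by rw [this]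
        _ = zb⁻¹ * g := by group
    calc za * a * (zb * b) * (za * a)⁻¹ * (zb * b)⁻¹
        = za * (a * zb) * b * (a⁻¹ * za⁻¹) * (b⁻¹ * zb⁻¹) := by group
      _ = za * (zb * a) * b * (za⁻¹ * a⁻¹) * (zb⁻¹ * b⁻¹) := by rw [h2 a, h3 a⁻¹, h4 b⁻¹]
      _ = (za * zb) * (a * b * za⁻¹) * a⁻¹ * zb⁻¹ * b⁻¹ := by group
      _ = (za * zb) * (za⁻¹ * (a * b)) * a⁻¹ * zb⁻¹ * b⁻¹ := by rw [h3 (a * b)]
      _ = za * (zb * za⁻¹) * (a * b * a⁻¹ * zb⁻¹) * b⁻¹ := by group
      _ = za * (za⁻¹ * zb) * (zb⁻¹ * (a * b * a⁻¹)) * b⁻¹ := by rw [h3 zb, h4 (a * b * a⁻¹)]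
      _ = a * b * a⁻¹ * b⁻¹ := by group
  intro x
  exact key (hperf ▸ Subgroup.mem_top x)

end Cfsg.Agent.S1304
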