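import Mathlib
import Cfsg.Statements.S1306
import Cfsg.Agent.Lib.Helper22.Conj

set_option autoImplicit false
open Cfsg

namespace Cfsg.Agent.S1306

open Cfsg.Agent.Lib.Helper22

/-- Let G be finite, x an involution and L ≤ C_G(x) a component of C_G(x). Suppose L is a component of C_G(y) for every involution y ∈ C_G(L), and ⁅L, g L g⁻¹⁆ ≠ 1 whenever g L g⁻¹ ≠ L. Then L is a standard subgroup of G. -/
theorem result {G : Type*} [Group G] [Finite G] (x : G) (hx : orderOf x = 2) (L : Subgroup G) (hLx : L ≤ Subgroup.centralizer ({x} : Set G)) (hL : Cfsg.IsComponent (L.subgroupOf (Subgroup.centralizer ({x} : Set G)))) (hne : ∀ y : G, orderOf y = 2 → y ∈ Subgroup.centralizer (L : Set G) → L ≤ Subgroup.centralizer ({y} : Set G) ∧ Cfsg.IsComponent (L.subgroupOf (Subgroup.centralizer ({y} : Set G)))) (hnc : ∀ g : G, L.map (MulAut.conj g).toMonoidHom ≠ L → ⁅L, L.map (MulAut.conj g).toMonoidHom⁆ ≠ ⊥) : Cfsg.IsStandardSubgroup L := by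
  have hQ : Cfsg.IsQuasisimple L :=
    isQuasisimple_of_mulEquiv (Subgroup.subgroupOfEquivOfLe hLx).symm hL.2
  -- key claim
  have key : ∀ g : G, Even (Nat.card ↥(Subgroup.centralizer (L : Set G) ⊓
      (Subgroup.centralizer (L : Set G)).map (MulAut.conj g).toMonoidHom)) →
      L.map (MulAut.conj g).toMonoidHom = L := by
    intro g heven
    obtain ⟨y', hy'⟩ := exists_prime_orderOf_dvd_card' 2 (even_iff_two_dvd.mp heven)
    have hy : orderOf (y' : G) = 2 := by rw [Subgroup.orderOf_coe]; exact hy'
    obtain ⟨hyC, hyCg⟩ := Subgroup.mem_inf.mp y'.2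
    generalize (y' : G) = y at hy hyC hyCg
    obtain ⟨h1, h2⟩ := hne y hy hyC
    have hcC : g⁻¹ * y * g ∈ Subgroup.centralizer (L : Set G) := mem_map_conj_iff.mp hyCg
    have hc : orderOf (g⁻¹ * y * g) = 2 := by
      have := MulEquiv.orderOf_eq (MulAut.conj g⁻¹) y
      rw [MulAut.conj_apply, inv_inv] at this
      rw [this]; exact hy
    obtain ⟨h3, h4⟩ := hne _ hc hcC
    have e : g * (g⁻¹ * y * g) * g⁻¹ = y := by group
    have h5 := isComponent_conj g h4
    rw [map_conj_centralizer_singleton, e] at h5
    have h6 : L.map (MulAut.conj g).toMonoidHom ≤ Subgroup.centralizer ({y} : Set G) := by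
      have := Subgroup.map_mono (f := (MulAut.conj g).toMonoidHom) h3
      rw [map_conj_centralizer_singleton, e] at this
      exact this
    by_contra hcon
    have hne' : L.subgroupOf (Subgroup.centralizer ({y} : Set G)) ≠
        (L.map (MulAut.conj g).toMonoidHom).subgroupOf (Subgroup.centralizer ({y} : Set G)) := by
      intro heq
      apply hcon
      exact le_antisymm (le_of_subgroupOf_le h6 heq.ge) (le_of_subgroupOf_le h1 heq.le)
    have h7 := components_commute h2 h5 hne'
    exact hnc g hcon (commutator_eq_bot_of_subgroupOf h1 h6 h7)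
  have hxC : x ∈ Subgroup.centralizer (L : Set G) := by
    rw [Subgroup.mem_centralizer_iff]
    intro l hl
    exact Subgroup.mem_centralizer_singleton_iff.mp (hLx hl)
  have heven : Even (Nat.card ↥(Subgroup.centralizer (L : Set G))) := by
    rw [even_iff_two_dvd]
    have h1 : orderOf (⟨x, hxC⟩ : Subgroup.centralizer (L : Set G)) = 2 := by
      rw [Subgroup.orderOf_mk]; exact hx
    rw [← h1]
    exact orderOf_dvd_natCard _
  have hNL : ∀ g : G, L.map (MulAut.conj g).toMonoidHom = L →
      g ∈ Subgroup.normalizer (Subgroup.centralizer (L : Set G) : Set G) := by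
    intro g hg
    apply Subgroup.mem_normalizer_iff_map_conj_eq.mpr
    have := map_conj_centralizer L g
    rw [hg] at this
    exact this
  refine ⟨hQ, ⟨heven, ?_⟩, hnc, ?_⟩
  · intro g hg
    by_contra hodd
    exact hg (hNL g (key g (Nat.not_odd_iff_even.mp hodd)))
  · apply le_antisymm
    · intro g hg
      apply hNL
      exact Subgroup.mem_normalizer_iff_map_conj_eq.mp hg
    · intro g hg
      apply Subgroup.mem_normalizer_iff_map_conj_eq.mpr
      have h1 : (Subgroup.centralizer (L : Set G)).map (MulAut.conj g).toMonoidHom =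
          Subgroup.centralizer (L : Set G) := Subgroup.mem_normalizer_iff_map_conj_eq.mp hg
      apply key
      rw [h1, inf_idem]
      exact heven

end Cfsg.Agent.S1306
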