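import Mathlib
import Cfsg.Statements.S1314

set_option autoImplicit false
open Cfsg
open scoped commutatorElement Pointwise

namespace Cfsg.Agent.S1314

theorem comm_aux {G : Type*} [Group G] (u v z w : G) (hzv : z * v = v * z) (hzw : z * w = w * z)
    (hwu : w * u = u * w) :
    ⁅u * z, v * w⁆ = ⁅u, v⁆ := by
  rw [commutatorElement_def, commutatorElement_def]
  have h1 : w * u⁻¹ = u⁻¹ * w := by
    calc w * u⁻¹ = u⁻¹ * (u * w) * u⁻¹ := by group
      _ = u⁻¹ * (w * u) * u⁻¹ := by rw [hwu]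
      _ = u⁻¹ * w := by group
  calc u * z * (v * w) * (u * z)⁻¹ * (v * w)⁻¹
      = u * (z * v) * w * z⁻¹ * u⁻¹ * w⁻¹ * v⁻¹ := by group
    _ = u * (v * z) * w * z⁻¹ * u⁻¹ * w⁻¹ * v⁻¹ := by rw [hzv]
    _ = u * v * (z * w) * z⁻¹ * u⁻¹ * w⁻¹ * v⁻¹ := by group
    _ = u * v * (w * z) * z⁻¹ * u⁻¹ * w⁻¹ * v⁻¹ := by rw [hzw]
    _ = u * v * (w * u⁻¹) * w⁻¹ * v⁻¹ := by group
    _ = u * v * (u⁻¹ * w) * w⁻¹ * v⁻¹ := by rw [h1]
    _ = u * v * u⁻¹ * v⁻¹ := by group

/-- Let x be an involution of a group G and L a perfect subgroup with ⁅L, x L x⁻¹⁆ = 1. Then l ↦ l (x l x⁻¹) is a group homomorphism π from L to G whose kernel is central in L and whose image lies in C_G(x); and the commutator subgroup of C_{L ⊔ xLx⁻¹}(x) equals the image of π. -/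
theorem result {G : Type*} [Group G] [Finite G] (x : G) (hx : orderOf x = 2) (L : Subgroup G) (hperf : ⁅L, L⁆ = L) (hcomm : ⁅L, L.map (MulAut.conj x).toMonoidHom⁆ = ⊥) : ∃ π : ↥L →* G, (∀ l : ↥L, π l = (l : G) * (x * (l : G) * x⁻¹)) ∧ π.ker ≤ Subgroup.center ↥L ∧ π.range ≤ Subgroup.centralizer ({x} : Set G) ∧ ⁅(L ⊔ L.map (MulAut.conj x).toMonoidHom) ⊓ Subgroup.centralizer ({x} : Set G), (L ⊔ L.map (MulAut.conj x).toMonoidHom) ⊓ Subgroup.centralizer ({x} : Set G)⁆ = π.range := by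
  have hx2 : x * x = 1 := by
    have := pow_orderOf_eq_one x
    rw [hx, pow_two] at this
    exact this
  have hxinv : x⁻¹ = x := inv_eq_of_mul_eq_one_left hx2
  -- membership in the conjugate
  have hmemLx : ∀ l ∈ L, x * l * x⁻¹ ∈ L.map (MulAut.conj x).toMonoidHom := by
    intro l hl
    exact Subgroup.mem_map.mpr ⟨l, hl, rfl⟩
  have hLx : ∀ b ∈ L.map (MulAut.conj x).toMonoidHom, ∃ l ∈ L, x * l * x⁻¹ = b := by
    intro b hb
    obtain ⟨l, hl, rfl⟩ := Subgroup.mem_map.mp hb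
    exact ⟨l, hl, rfl⟩
  -- L and its conjugate commute elementwise
  have hcent : L ≤ Subgroup.centralizer (L.map (MulAut.conj x).toMonoidHom : Set G) :=
    Subgroup.commutator_eq_bot_iff_le_centralizer.mp hcomm
  have hc : ∀ a ∈ L, ∀ b ∈ L.map (MulAut.conj x).toMonoidHom, a * b = b * a := by
    intro a ha b hb
    exact ((Subgroup.mem_centralizer_iff.mp (hcent ha)) b hb).symm
  have hc' : ∀ a ∈ L, ∀ l ∈ L, a * (x * l * x⁻¹) = (x * l * x⁻¹) * a :=
    fun a ha l hl => hc a ha _ (hmemLx l hl)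
  let π : ↥L →* G :=
    { toFun := fun l => (l : G) * (x * (l : G) * x⁻¹)
      map_one' := by simp
      map_mul' := by
        intro a b
        show ((a * b : L) : G) * (x * ((a * b : L) : G) * x⁻¹) =
          (a : G) * (x * (a : G) * x⁻¹) * ((b : G) * (x * (b : G) * x⁻¹))
        have h := hc' b b.2 a a.2
        rw [Subgroup.coe_mul]
        calc (a : G) * b * (x * ((a : G) * b) * x⁻¹)
            = (a : G) * ((b : G) * (x * a * x⁻¹)) * (x * b * x⁻¹) := by group
          _ = (a : G) * ((x * a * x⁻¹) * b) * (x * b * x⁻¹) := by rw [h]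
          _ = (a : G) * (x * a * x⁻¹) * ((b : G) * (x * b * x⁻¹)) := by group }
  have hπ : ∀ l : ↥L, π l = (l : G) * (x * (l : G) * x⁻¹) := fun l => rfl
  have hπcent : ∀ l : ↥L, π l * x = x * π l := by
    intro l
    rw [hπ]
    have h := hc' l l.2 l l.2
    calc (l : G) * (x * l * x⁻¹) * x = (x * l * x⁻¹) * l * x := by rw [h]
      _ = x * ((l : G) * (x * l * x⁻¹)) := by rw [hxinv]; simp only [mul_assoc]
  have hπL : ∀ l : ↥L, π l ∈ L ⊔ L.map (MulAut.conj x).toMonoidHom := by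
    intro l
    rw [hπ]
    exact Subgroup.mul_mem _ (Subgroup.mem_sup_left l.2) (Subgroup.mem_sup_right (hmemLx l l.2))
  have hπC : ∀ l : ↥L, π l ∈ (L ⊔ L.map (MulAut.conj x).toMonoidHom) ⊓ Subgroup.centralizer ({x} : Set G) := by
    intro l
    exact Subgroup.mem_inf.mpr ⟨hπL l, Subgroup.mem_centralizer_singleton_iff.mpr (hπcent l)⟩
  refine ⟨π, hπ, ?_, ?_, ?_⟩
  · -- kernel is central
    intro l hl
    rw [MonoidHom.mem_ker, hπ] at hl
    rw [Subgroup.mem_center_iff]
    intro g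
    apply Subtype.ext
    rw [Subgroup.coe_mul, Subgroup.coe_mul]
    -- l⁻¹ = x l x⁻¹ commutes with g
    have h1 : (l : G)⁻¹ = x * l * x⁻¹ := inv_eq_of_mul_eq_one_right hl
    have h2 := hc' g g.2 l l.2
    rw [← h1] at h2
    calc (g : G) * l = l * ((l : G)⁻¹ * g) * l := by group
      _ = l * ((g : G) * (l : G)⁻¹) * l := by rw [h2]
      _ = l * g := by group
  · rintro y ⟨l, rfl⟩
    exact Subgroup.mem_centralizer_singleton_iff.mpr (hπcent l)
  · apply le_antisymm
    · rw [Subgroup.commutator_le]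
      -- every element of C is π l times an element commuting with L and its conjugate
      have hdec : ∀ c ∈ (L ⊔ L.map (MulAut.conj x).toMonoidHom) ⊓ Subgroup.centralizer ({x} : Set G),
          ∃ l : ↥L, ∃ z : G, c = π l * z ∧ (∀ a ∈ L, z * a = a * z) ∧
            (∀ b ∈ L.map (MulAut.conj x).toMonoidHom, z * b = b * z) := by
        intro c hcm
        obtain ⟨hc1, hc2⟩ := Subgroup.mem_inf.mp hcm
        rw [Subgroup.mem_centralizer_singleton_iff] at hc2
        have hn : L.map (MulAut.conj x).toMonoidHom ≤ Subgroup.normalizer (L : Set G) := by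
          refine le_trans ?_ (Subgroup.centralizer_le_normalizer (L : Set G))
          intro b hb
          rw [Subgroup.mem_centralizer_iff]
          intro a ha
          exact hc a ha b hb
        have h1 : c ∈ ((L ⊔ L.map (MulAut.conj x).toMonoidHom : Subgroup G) : Set G) := hc1
        rw [Subgroup.coe_mul_of_right_le_normalizer_left L _ hn] at h1
        obtain ⟨l₁, hl₁, b, hb, rfl⟩ := Set.mem_mul.mp h1
        obtain ⟨l₂, hl₂, rfl⟩ := hLx b hb
        -- z = l₂⁻¹ l₁
        have hz : l₂⁻¹ * l₁ = x * (l₁ * l₂⁻¹) * x⁻¹ := by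
          have e1 : x * (l₁ * (x * l₂ * x⁻¹)) * x⁻¹ = l₁ * (x * l₂ * x⁻¹) := by
            rw [← hc2]; group
          have e2 : x * (l₁ * (x * l₂ * x⁻¹)) * x⁻¹ = (x * l₁ * x⁻¹) * l₂ := by
            calc x * (l₁ * (x * l₂ * x⁻¹)) * x⁻¹ = (x * l₁ * x⁻¹) * ((x * x) * l₂ * (x * x)⁻¹) := by group
              _ = (x * l₁ * x⁻¹) * l₂ := by rw [hx2]; group
          have e3 : l₁ * (x * l₂ * x⁻¹) = l₂ * (x * l₁ * x⁻¹) := by
            rw [← e1, e2, hc' l₂ hl₂ l₁ hl₁]
          calc l₂⁻¹ * l₁ = l₂⁻¹ * (l₁ * (x * l₂ * x⁻¹)) * (x * l₂ * x⁻¹)⁻¹ := by group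
            _ = l₂⁻¹ * (l₂ * (x * l₁ * x⁻¹)) * (x * l₂ * x⁻¹)⁻¹ := by rw [e3]
            _ = x * (l₁ * l₂⁻¹) * x⁻¹ := by group
        have hzL : l₂⁻¹ * l₁ ∈ L := L.mul_mem (L.inv_mem hl₂) hl₁
        have hzLx : l₂⁻¹ * l₁ ∈ L.map (MulAut.conj x).toMonoidHom := by
          rw [hz]; exact hmemLx _ (L.mul_mem hl₁ (L.inv_mem hl₂))
        refine ⟨⟨l₂, hl₂⟩, l₂⁻¹ * l₁, ?_, ?_, ?_⟩
        · rw [hπ]
          show l₁ * (x * l₂ * x⁻¹) = l₂ * (x * l₂ * x⁻¹) * (l₂⁻¹ * l₁)
          have := hc' (l₂⁻¹ * l₁) hzL l₂ hl₂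
          calc l₁ * (x * l₂ * x⁻¹) = l₂ * ((l₂⁻¹ * l₁) * (x * l₂ * x⁻¹)) := by group
            _ = l₂ * ((x * l₂ * x⁻¹) * (l₂⁻¹ * l₁)) := by rw [this]
            _ = l₂ * (x * l₂ * x⁻¹) * (l₂⁻¹ * l₁) := by group
        · intro a ha
          exact (hc a ha _ hzLx).symm
        · intro b hb
          exact hc _ hzL b hb
      intro c₁ hc₁ c₂ hc₂
      obtain ⟨l₁, z, rfl, hzL, hzLx⟩ := hdec c₁ hc₁
      obtain ⟨l₂, w, rfl, hwL, hwLx⟩ := hdec c₂ hc₂
      -- z and w commute with everything in L ⊔ Lx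
      have hzall : ∀ g ∈ L ⊔ L.map (MulAut.conj x).toMonoidHom, z * g = g * z := by
        intro g hg
        have : L ⊔ L.map (MulAut.conj x).toMonoidHom ≤ Subgroup.centralizer ({z} : Set G) := by
          refine sup_le ?_ ?_
          · intro a ha
            exact Subgroup.mem_centralizer_singleton_iff.mpr (hzL a ha).symm
          · intro b hb
            exact Subgroup.mem_centralizer_singleton_iff.mpr (hzLx b hb).symm
        exact (Subgroup.mem_centralizer_singleton_iff.mp (this hg)).symm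
      have hwall : ∀ g ∈ L ⊔ L.map (MulAut.conj x).toMonoidHom, w * g = g * w := by
        intro g hg
        have : L ⊔ L.map (MulAut.conj x).toMonoidHom ≤ Subgroup.centralizer ({w} : Set G) := by
          refine sup_le ?_ ?_
          · intro a ha
            exact Subgroup.mem_centralizer_singleton_iff.mpr (hwL a ha).symm
          · intro b hb
            exact Subgroup.mem_centralizer_singleton_iff.mpr (hwLx b hb).symm
        exact (Subgroup.mem_centralizer_singleton_iff.mp (this hg)).symm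
      have hwM : w ∈ L ⊔ L.map (MulAut.conj x).toMonoidHom := by
        have h1 := (Subgroup.mem_inf.mp hc₂).1
        have h2 := hπL l₂
        have : w = (π l₂)⁻¹ * (π l₂ * w) := by group
        rw [this]
        exact Subgroup.mul_mem _ (Subgroup.inv_mem _ h2) h1
      rw [comm_aux (π l₁) (π l₂) z w (hzall _ (hπL l₂)) (hzall _ hwM) (hwall _ (hπL l₁))]
      rw [← map_commutatorElement]
      exact ⟨_, rfl⟩
    · -- the image of a perfect group is perfect
      have hP : Group.IsPerfect L := Subgroup.isPerfect_iff.mpr hperf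
      have h1 : π.range = ⁅π.range, π.range⁆ := by
        conv_lhs => rw [MonoidHom.range_eq_map, ← hP.commutator_eq_top, commutator_def,
          Subgroup.map_commutator, ← MonoidHom.range_eq_map]
      rw [h1]
      have hle : π.range ≤ (L ⊔ L.map (MulAut.conj x).toMonoidHom) ⊓ Subgroup.centralizer ({x} : Set G) := by
        rintro y ⟨l, rfl⟩
        exact hπC l
      exact Subgroup.commutator_mono hle hle

end Cfsg.Agent.S1314
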