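import Mathlib
import Cfsg.Agent.Lib.Helper22.Fstar
import Cfsg.Statements.S1316

set_option autoImplicit false
open Cfsg
open scoped commutatorElement

namespace Cfsg.Agent.S1316

/-- For a finite group X, E(X) equals the intersection of the derived series of F*(X) (its last term). -/
theorem result {X : Type*} [Group X] [Finite X] : (⨅ n : ℕ, (derivedSeries ↥(Cfsg.generalizedFittingSubgroup X) n).map (Cfsg.generalizedFittingSubgroup X).subtype) = Cfsg.layer X := by
  classical
  have hEn : (Cfsg.layer X).Normal := Cfsg.Agent.Lib.Helper22.layer_normal' X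
  have hEF : Cfsg.layer X ≤ Cfsg.generalizedFittingSubgroup X := le_sup_left
  have hFF : Cfsg.fittingSubgroup X ≤ Cfsg.generalizedFittingSubgroup X := le_sup_right
  apply le_antisymm
  · -- the quotient of F* by E is solvable
    have hNn : ((Cfsg.layer X).subgroupOf (Cfsg.generalizedFittingSubgroup X)).Normal :=
      inferInstance
    have hnil : Group.IsNilpotent ↥(Cfsg.fittingSubgroup X) :=
      Cfsg.Agent.Lib.Helper22.fittingSubgroup_nilpotent X
    have hsolF : Group.IsSolvable ↥(Cfsg.fittingSubgroup X) := inferInstance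
    let f : ↥(Cfsg.fittingSubgroup X) →*
        ↥(Cfsg.generalizedFittingSubgroup X) ⧸
          ((Cfsg.layer X).subgroupOf (Cfsg.generalizedFittingSubgroup X)) :=
      (QuotientGroup.mk' _).comp (Subgroup.inclusion hFF)
    have hf : Function.Surjective f := by
      intro q
      obtain ⟨x, rfl⟩ := QuotientGroup.mk_surjective q
      have hx : (x : X) ∈ Cfsg.layer X ⊔ Cfsg.fittingSubgroup X := x.2
      have hx' : (x : X) ∈ ((Cfsg.layer X ⊔ Cfsg.fittingSubgroup X : Subgroup X) : Set X) := hx
      rw [Subgroup.normal_mul] at hx'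
      obtain ⟨e, he, y, hy, hxy⟩ := Set.mem_mul.mp hx'
      refine ⟨⟨y, hy⟩, ?_⟩
      show QuotientGroup.mk _ = QuotientGroup.mk x
      rw [QuotientGroup.eq]
      rw [Subgroup.mem_subgroupOf]
      have : (((Subgroup.inclusion hFF ⟨y, hy⟩)⁻¹ * x : ↥(Cfsg.generalizedFittingSubgroup X)) : X)
          = y⁻¹ * (x : X) := rfl
      rw [this, ← hxy]
      have h2 : y⁻¹ * (e * y) ∈ Cfsg.layer X := by
        have := hEn.conj_mem e he y⁻¹
        simpa [mul_assoc] using this
      exact h2
    have hsolQ : Group.IsSolvable (↥(Cfsg.generalizedFittingSubgroup X) ⧸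
          ((Cfsg.layer X).subgroupOf (Cfsg.generalizedFittingSubgroup X))) :=
      Group.isSolvable_of_surjective hf
    obtain ⟨n, hn⟩ := hsolQ.solvable
    have h1 := map_derivedSeries_le_derivedSeries
      (QuotientGroup.mk' ((Cfsg.layer X).subgroupOf (Cfsg.generalizedFittingSubgroup X))) n
    rw [hn, Subgroup.map_le_iff_le_comap] at h1
    have h2 : derivedSeries ↥(Cfsg.generalizedFittingSubgroup X) n ≤
        (Cfsg.layer X).subgroupOf (Cfsg.generalizedFittingSubgroup X) := by
      intro x hx
      have := h1 hx
      rw [Subgroup.mem_comap, Subgroup.mem_bot] at this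
      exact (QuotientGroup.eq_one_iff x).mp this
    refine le_trans (iInf_le _ n) ?_
    refine le_trans (Subgroup.map_mono h2) ?_
    rw [Subgroup.subgroupOf_map_subtype]
    exact inf_le_left
  · apply le_iInf
    intro n
    induction n with
    | zero =>
      rw [derivedSeries_zero, ← MonoidHom.range_eq_map, Subgroup.range_subtype]
      exact hEF
    | succ n ih =>
      rw [derivedSeries_succ, Subgroup.map_commutator]
      rw [← Cfsg.Agent.Lib.Helper22.layer_perfect]
      exact Subgroup.commutator_mono ih ih

end Cfsg.Agent.S1316
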