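import Mathlib
import Cfsg.Agent.Lib.Helper22.Fstar
import Cfsg.Statements.S1320

set_option autoImplicit false
open Cfsg

namespace Cfsg.Agent.S1320

/-- Let B be a normal subgroup of the finite group A. Then F*(A) ∩ B = F*(B). -/
theorem result {A : Type*} [Group A] [Finite A] (B : Subgroup A) [B.Normal] : Cfsg.generalizedFittingSubgroup A ⊓ B = (Cfsg.generalizedFittingSubgroup ↥B).map B.subtype := by
  exact Cfsg.Agent.Lib.Helper22.generalizedFittingSubgroup_subnormal
    (inferInstance : B.Normal).isSubnormal

end Cfsg.Agent.S1320
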