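import Mathlib
import Cfsg.Agent.Lib.Helper22.Fstar
import Cfsg.Agent.Lib.Helper30.Bender
import Cfsg.Statements.S1326

set_option autoImplicit false
open Cfsg

namespace Cfsg.Agent.S1326

/-- For a finite group X: the Fitting subgroup contains its centralizer if and only if the layer of X is trivial. -/
theorem result {X : Type*} [Group X] [Finite X] : Subgroup.centralizer (Cfsg.fittingSubgroup X : Set X) ≤ Cfsg.fittingSubgroup X ↔ Cfsg.layer X = ⊥ := by
  constructor
  · intro h
    rw [eq_bot_iff, Cfsg.Agent.Lib.Helper22.layer_le_iff]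
    intro K hK
    exfalso
    have hnil : Group.IsNilpotent ↥(Cfsg.fittingSubgroup X) :=
      Cfsg.Agent.Lib.Helper22.fittingSubgroup_nilpotent X
    have hsol : Group.IsSolvable ↥(Cfsg.fittingSubgroup X) := inferInstance
    have hcomm := Cfsg.Agent.Lib.Helper22.component_commute_of_solvable hK
      (Cfsg.Agent.Lib.Helper22.fittingSubgroup_normal' X).isSubnormal hsol
    rw [Subgroup.commutator_eq_bot_iff_le_centralizer] at hcomm
    exact Cfsg.Agent.Lib.Helper22.IsComponent.not_le_solvable hK hsol (hcomm.trans h)
  · intro h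
    have h1 := Cfsg.Agent.Lib.Helper30.centralizer_generalizedFittingSubgroup_le X
    have h2 : Cfsg.generalizedFittingSubgroup X = Cfsg.fittingSubgroup X := by
      unfold Cfsg.generalizedFittingSubgroup; rw [h, bot_sup_eq]
    rw [h2] at h1; exact h1

end Cfsg.Agent.S1326
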