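import Cfsg.Statements.S1335
import Mathlib

set_option autoImplicit false
open Cfsg

namespace Cfsg.Agent.S1335

theorem pRankLE_of_mulEquiv {G₁ G₂ : Type*} [Group G₁] [Group G₂] (e : G₁ ≃* G₂) (p k : ℕ)
    (h : Cfsg.PRankLE p k G₂) : Cfsg.PRankLE p k G₁ := by
  intro A hA hAp
  have h1 := h (A.map e.toMonoidHom) ?_ ?_
  · have : Nat.card (A.map e.toMonoidHom) = Nat.card A :=
      Nat.card_congr (A.equivMapOfInjective e.toMonoidHom e.injective).symm.toEquiv
    rw [this] at h1
    exact h1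
  · rw [isMulCommutative_iff]
    rintro ⟨x, hx⟩ ⟨y, hy⟩
    obtain ⟨a, ha, rfl⟩ := hx
    obtain ⟨b, hb, rfl⟩ := hy
    have hab : (⟨a, ha⟩ : A) * ⟨b, hb⟩ = ⟨b, hb⟩ * ⟨a, ha⟩ := (isMulCommutative_iff.mp hA) _ _
    have hab' : a * b = b * a := congrArg Subtype.val hab
    apply Subtype.ext
    change e.toMonoidHom a * e.toMonoidHom b = e.toMonoidHom b * e.toMonoidHom a
    rw [← map_mul, ← map_mul, hab']
  · rintro x ⟨a, ha, rfl⟩
    rw [← map_pow, hAp a ha, map_one]

/-- Let H be a subgroup of the finite group G, p a prime, k ≥ 1, P a Sylow p-subgroup of H of p-rank at least k, and suppose N_G(X) ≤ H for every subgroup X ≤ P of p-rank at least k. Then P is a Sylow p-subgroup of G. -/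
theorem result {G : Type*} [Group G] [Finite G] {p : ℕ} [Fact p.Prime] (k : ℕ) (hk : 1 ≤ k) (H : Subgroup G) (P : Sylow p ↥H) (hP : ¬ Cfsg.PRankLE p (k - 1) ↥(P : Subgroup ↥H)) (hΓ : (∀ X : Subgroup G, X ≤ (P : Subgroup ↥H).map H.subtype → ¬ Cfsg.PRankLE p (k - 1) ↥X → Subgroup.normalizer (X : Set G) ≤ H)) : ∃ Q : Sylow p G, (Q : Subgroup G) = (P : Subgroup ↥H).map H.subtype := by
  classical
  set P' : Subgroup G := (P : Subgroup ↥H).map H.subtype with hP'
  have hP'p : IsPGroup p P' := P.isPGroup'.map _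
  have hP'H : P' ≤ H := by
    rintro x ⟨y, -, rfl⟩
    exact y.2
  obtain ⟨Q, hQ⟩ := hP'p.exists_le_sylow
  refine ⟨Q, ?_⟩
  by_contra hne
  have hlt : P' < Q := lt_of_le_of_ne hQ (Ne.symm hne)
  have hrk : ¬ Cfsg.PRankLE p (k - 1) ↥P' := by
    intro h
    apply hP
    exact pRankLE_of_mulEquiv
      ((P : Subgroup ↥H).equivMapOfInjective H.subtype H.subtype_injective) p (k - 1) h
  have hN : Subgroup.normalizer (P' : Set G) ≤ H := hΓ P' le_rfl hrk
  -- normalizer condition in Q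
  have hQnil : Group.IsNilpotent (Q : Subgroup G) := Q.isPGroup'.isNilpotent
  have hnc := @Group.normalizerCondition_of_isNilpotent (Q : Subgroup G) _ hQnil
  have hsub : P'.subgroupOf (Q : Subgroup G) < ⊤ := by
    rw [lt_top_iff_ne_top]
    intro h
    rw [Subgroup.subgroupOf_eq_top] at h
    exact (not_le_of_gt hlt) h
  have h2 := hnc _ hsub
  obtain ⟨x, hxN, hxP⟩ := SetLike.exists_of_lt h2
  -- R = N_G(P') ⊓ Q
  set R : Subgroup G := Subgroup.normalizer (P' : Set G) ⊓ (Q : Subgroup G) with hR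
  have hRp : IsPGroup p R := Q.isPGroup'.to_le inf_le_right
  have hRH : R ≤ H := inf_le_left.trans hN
  have hP'R : P' ≤ R := le_inf Subgroup.le_normalizer hQ
  have hRsub : IsPGroup p (R.subgroupOf H) := by
    have := hRp.comap_of_injective H.subtype H.subtype_injective
    exact this
  have hPle : (P : Subgroup ↥H) ≤ R.subgroupOf H := by
    intro y hy
    rw [Subgroup.mem_subgroupOf]
    exact hP'R ⟨y, hy, rfl⟩
  have hEq : R.subgroupOf H = (P : Subgroup ↥H) := P.3 hRsub hPle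
  have hxR : (x : G) ∈ R := by
    refine ⟨?_, x.2⟩
    rw [Subgroup.mem_normalizer_iff] at hxN
    change (x : G) ∈ Subgroup.normalizer (P' : Set G)
    rw [Subgroup.mem_normalizer_iff]
    intro g
    constructor
    · intro hg
      have hgQ : g ∈ (Q : Subgroup G) := hQ hg
      have := (hxN ⟨g, hgQ⟩).mp (by rw [Subgroup.mem_subgroupOf]; exact hg)
      rw [Subgroup.mem_subgroupOf] at this
      exact this
    · intro hg
      have hgQ' : (x : G) * g * (x : G)⁻¹ ∈ (Q : Subgroup G) := hQ hg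
      have hgQ : g ∈ (Q : Subgroup G) := by
        have := (Q : Subgroup G).mul_mem ((Q : Subgroup G).mul_mem ((Q : Subgroup G).inv_mem x.2) hgQ') x.2
        simpa [mul_assoc] using this
      have := (hxN ⟨g, hgQ⟩).mpr (by rw [Subgroup.mem_subgroupOf]; exact hg)
      rw [Subgroup.mem_subgroupOf] at this
      exact this
  apply hxP
  rw [Subgroup.mem_subgroupOf]
  have hxH : (x : G) ∈ H := hRH hxR
  have : (⟨(x : G), hxH⟩ : ↥H) ∈ R.subgroupOf H := by
    rw [Subgroup.mem_subgroupOf]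
    exact hxR
  rw [hEq] at this
  exact ⟨⟨(x : G), hxH⟩, this, rfl⟩

end Cfsg.Agent.S1335
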