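import Cfsg.Statements.S1336
import Cfsg.Agent.Lib.Helper23.KConn

set_option autoImplicit false
open Cfsg

namespace Cfsg.Agent.S1336

open Cfsg.Agent.Lib.Helper23

theorem forward {G : Type*} [Group G] [Finite G] (p : ℕ) [Fact p.Prime] (H : Subgroup G)
    (hH : H ≠ ⊤) (hp : p ∣ Nat.card ↥H)
    (hg : ∀ g : G, g ∉ H → ¬ p ∣ Nat.card ↥(H ⊓ H.map (MulAut.conj g).toMonoidHom)) :
    ¬ Cfsg.IsKConnected p 1 G := by
  intro hconn
  rw [isKConnected_iff] at hconn
  obtain ⟨x, hx⟩ := exists_prime_orderOf_dvd_card' p hp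
  obtain ⟨g, hgH⟩ : ∃ g, g ∉ H := by
    by_contra hall
    push Not at hall
    exact hH ((Subgroup.eq_top_iff' H).mpr hall)
  have hxo : orderOf (x : G) = p := by rw [Subgroup.orderOf_coe, hx]
  have hxp : (x : G) ^ p = 1 := by rw [← hxo]; exact pow_orderOf_eq_one _
  have hE : Cfsg.IsElementaryAbelian p (Subgroup.zpowers (x : G)) := isEA_zpowers hxp
  have hEc : p ^ 1 ≤ Nat.card ↥(Subgroup.zpowers (x : G)) := by
    rw [Nat.card_zpowers, hxo, pow_one]
  have hEH : Subgroup.zpowers (x : G) ≤ H := by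
    rw [Subgroup.zpowers_le]; exact x.2
  have key : ∀ A B : Subgroup G, Relation.ReflTransGen (KRel p 1) A B → A ≤ H → B ≤ H := by
    intro A B hAB
    induction hAB with
    | refl => exact id
    | @tail b c _ hbc ih =>
      intro hA
      have hb := ih hA
      intro y hy
      by_contra hyH
      apply hg y hyH
      have hle : b ≤ H ⊓ H.map (MulAut.conj y).toMonoidHom := by
        intro z hz
        refine ⟨hb hz, ⟨z, hb hz, ?_⟩⟩
        have := hbc.2.2.2.2 z hz y hy
        change y * z * y⁻¹ = z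
        rw [← this]; group
      exact (dvd_card_of_isEA le_rfl hbc.1 hbc.2.1).trans (Subgroup.card_dvd_of_le hle)
  have hEg : Cfsg.IsElementaryAbelian p ((Subgroup.zpowers (x : G)).map (MulAut.conj g).toMonoidHom) :=
    isEA_map p _ hE
  have hEgc : p ^ 1 ≤ Nat.card ↥((Subgroup.zpowers (x : G)).map (MulAut.conj g).toMonoidHom) := by
    rw [Subgroup.card_map_of_injective (MulAut.conj g).injective]; exact hEc
  have h1 := hconn _ _ hE hEc hEg hEgc
  have h2 := key _ _ h1 hEH
  apply hg g hgH
  have hle : (Subgroup.zpowers (x : G)).map (MulAut.conj g).toMonoidHom ≤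
      H ⊓ H.map (MulAut.conj g).toMonoidHom := le_inf h2 (Subgroup.map_mono hEH)
  exact (dvd_card_of_isEA le_rfl hEg hEgc).trans (Subgroup.card_dvd_of_le hle)

theorem backward {G : Type*} [Group G] [Finite G] (p : ℕ) [Fact p.Prime]
    (h : ¬ Cfsg.IsKConnected p 1 G) :
    ∃ H : Subgroup G, H ≠ ⊤ ∧ p ∣ Nat.card ↥H ∧
      ∀ g : G, g ∉ H → ¬ p ∣ Nat.card ↥(H ⊓ H.map (MulAut.conj g).toMonoidHom) := by
  rw [isKConnected_iff] at h
  push Not at h
  obtain ⟨E, E', hE, hEc, hE', hE'c, hnot⟩ := h
  let H : Subgroup G :=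
    { carrier := {g | Relation.ReflTransGen (KRel p 1) E (E.map (MulAut.conj g).toMonoidHom)}
      one_mem' := by
        change Relation.ReflTransGen (KRel p 1) E (E.map (MulAut.conj (1 : G)).toMonoidHom)
        rw [map_conj_of_mem E E.one_mem]
      mul_mem' := by
        intro a b ha hb
        have h1 := kConn_map p 1 (MulAut.conj a) hb
        rw [Subgroup.map_map] at h1
        have h2 : (MulAut.conj a).toMonoidHom.comp (MulAut.conj b).toMonoidHom =
            (MulAut.conj (a * b)).toMonoidHom := by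
          ext x
          change a * (b * x * b⁻¹) * a⁻¹ = a * b * x * (a * b)⁻¹
          group
        rw [h2] at h1
        exact Relation.ReflTransGen.trans ha h1
      inv_mem' := by
        intro a ha
        have h1 := kConn_map p 1 (MulAut.conj a⁻¹) ha
        rw [Subgroup.map_map] at h1
        have h2 : (MulAut.conj a⁻¹).toMonoidHom.comp (MulAut.conj a).toMonoidHom =
            MonoidHom.id G := by
          ext x
          change a⁻¹ * (a * x * a⁻¹) * a⁻¹⁻¹ = x
          group
        rw [h2, Subgroup.map_id] at h1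
        exact kConn_symm p 1 h1 }
  have hmemH : ∀ g, g ∈ H ↔
      Relation.ReflTransGen (KRel p 1) E (E.map (MulAut.conj g).toMonoidHom) := fun g => Iff.rfl
  have hEH : E ≤ H := by
    intro e he
    rw [hmemH, map_conj_of_mem E he]
  -- elements of order p of H
  have C1 : ∀ y ∈ H, orderOf y = p → Relation.ReflTransGen (KRel p 1) E (Subgroup.zpowers y) := by
    intro y hy hyo
    have hyp : y ^ p = 1 := by rw [← hyo]; exact pow_orderOf_eq_one _
    have hY : Cfsg.IsElementaryAbelian p (Subgroup.zpowers y) := isEA_zpowers hyp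
    have hYc : p ^ 1 ≤ Nat.card ↥(Subgroup.zpowers y) := by
      rw [Nat.card_zpowers, hyo, pow_one]
    obtain ⟨h, hh, P, hP, -, hAP, hBP⟩ := exists_conj_le_pGroup H E (Subgroup.zpowers y)
      (isEA_isPGroup hE) (isEA_isPGroup hY) hEH (by rw [Subgroup.zpowers_le]; exact hy)
    have h1 : Relation.ReflTransGen (KRel p 1) (E.map (MulAut.conj h).toMonoidHom)
        (Subgroup.zpowers y) :=
      kConn_one_of_le_pGroup hP (isEA_map p _ hE)
        (by rw [Subgroup.card_map_of_injective (MulAut.conj h).injective]; exact hEc) hY hYc hAP hBP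
    exact Relation.ReflTransGen.trans ((hmemH h).mp hh) h1
  refine ⟨H, ?_, ?_, ?_⟩
  · intro htop
    obtain ⟨h, -, P, hP, -, hAP, hBP⟩ := exists_conj_le_pGroup ⊤ E E'
      (isEA_isPGroup hE) (isEA_isPGroup hE') le_top le_top
    have h1 : Relation.ReflTransGen (KRel p 1) (E.map (MulAut.conj h).toMonoidHom) E' :=
      kConn_one_of_le_pGroup hP (isEA_map p _ hE)
        (by rw [Subgroup.card_map_of_injective (MulAut.conj h).injective]; exact hEc) hE' hE'c hAP hBP
    have h2 : h ∈ H := by rw [htop]; exact Subgroup.mem_top h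
    exact hnot (Relation.ReflTransGen.trans ((hmemH h).mp h2) h1)
  · exact (dvd_card_of_isEA le_rfl hE hEc).trans (Subgroup.card_dvd_of_le hEH)
  · intro g hgH hdvd
    apply hgH
    obtain ⟨x, hx⟩ := exists_prime_orderOf_dvd_card' p hdvd
    have hxo : orderOf (x : G) = p := by rw [Subgroup.orderOf_coe, hx]
    have hx1 : (x : G) ∈ H := x.2.1
    obtain ⟨x', hx'H, hx'⟩ := x.2.2
    have hx'o : orderOf x' = p := by
      rw [← hxo, ← hx']
      exact (orderOf_injective (MulAut.conj g).toMonoidHom (MulAut.conj g).injective x').symm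
    have h1 := C1 (x : G) hx1 hxo
    have h2 := kConn_map p 1 (MulAut.conj g) (C1 x' hx'H hx'o)
    rw [MonoidHom.map_zpowers, hx'] at h2
    rw [hmemH]
    exact Relation.ReflTransGen.trans h1 (kConn_symm p 1 h2)

/-- Let G be finite and p prime. Then G has a proper subgroup H with p ∣ |H| and p ∤ |H ∩ gHg⁻¹| for every g ∉ H (a strongly p-embedded subgroup) if and only if G is not 1-connected for p. -/
theorem result {G : Type*} [Group G] [Finite G] (p : ℕ) [Fact p.Prime] : (∃ H : Subgroup G, H ≠ ⊤ ∧ p ∣ Nat.card ↥H ∧ ∀ g : G, g ∉ H → ¬ p ∣ Nat.card ↥(H ⊓ H.map (MulAut.conj g).toMonoidHom)) ↔ ¬ Cfsg.IsKConnected p 1 G := by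
  constructor
  · rintro ⟨H, hH, hp, hg⟩
    exact forward p H hH hp hg
  · intro h
    exact backward p h

end Cfsg.Agent.S1336
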