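import Cfsg.Statements.S1338
import Cfsg.Agent.Lib.Helper51.EA38.Assembly
import Cfsg.Agent.Lib.Helper51.EA38.Chain
import Cfsg.Agent.Lib.Helper51.EA38.Small
import Cfsg.Agent.Lib.Helper51.EA38.Step
import Cfsg.Agent.Lib.Helper51.EA38.Cube
import Cfsg.Agent.Lib.Helper33.EA38.Claim1
import Cfsg.Agent.Lib.Helper46.EA38.Alperin
import Cfsg.Agent.Lib.Helper80.EA38.Claim2

set_option autoImplicit false
open Cfsg

namespace Cfsg.Agent.S1338

/-- A finite 3-group of 3-rank at least 4 is 2-connected for the prime 3: its commuting graph on elementary abelian subgroups of order ≥ 9 is connected. -/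
theorem result {P : Type*} [Group P] [Finite P] (hP : IsPGroup 3 P) (hrk : ¬ Cfsg.PRankLE 3 3 P) : Cfsg.IsKConnected 3 2 P := by
  exact Cfsg.Agent.Lib.Helper51.EA38.main
    (Cfsg.Agent.Lib.Helper51.EA38.lemNormal Cfsg.Agent.Lib.Helper46.EA38.lemAlperin
      Cfsg.Agent.Lib.Helper51.EA38.lemChain
      (Cfsg.Agent.Lib.Helper51.EA38.lemSmall Cfsg.Agent.Lib.Helper51.EA38.lemStep)
      (Cfsg.Agent.Lib.Helper33.EA38.lemClaim1 Cfsg.Agent.Lib.Helper51.EA38.lemStep)
      (Cfsg.Agent.Lib.Helper80.EA38.lemClaim2 Cfsg.Agent.Lib.Helper51.EA38.lemStep))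
    (Cfsg.Agent.Lib.Helper51.EA38.lemKey Cfsg.Agent.Lib.Helper51.EA38.lemCube) hP hrk

end Cfsg.Agent.S1338
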