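import Mathlib
import Cfsg.Agent.Lib.Helper22.PComp2
import Cfsg.Statements.S1344

set_option autoImplicit false
open Cfsg

namespace Cfsg.Agent.S1344

/-- Let K be a 2-component of the finite group X. Then K ≤ L*_{2'}(X) and K is normal in L*_{2'}(X). -/
theorem result {X : Type*} [Group X] [Finite X] (K : Subgroup X) (hK : Cfsg.IsPComponent 2 K) : K ≤ Cfsg.extendedTwoLayer X ∧ (K.subgroupOf (Cfsg.extendedTwoLayer X)).Normal := by
  have hK2 : Fact (Nat.Prime 2) := ⟨Nat.prime_two⟩
  have hKL : K ≤ Cfsg.pLayer 2 X := le_sSup hK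
  have hL := Cfsg.Agent.Lib.Helper22.pLayer_le_normalizer hK
  have hO := Cfsg.Agent.Lib.Helper22.pPrimeCore_le_normalizer hK
  have hP := Cfsg.Agent.Lib.Helper22.pPrimePCore_le_normalizer hK
  have hKE : K ≤ Cfsg.extendedTwoLayer X := by
    unfold Cfsg.extendedTwoLayer
    exact hKL.trans (le_sup_left.trans le_sup_left)
  refine ⟨hKE, ?_⟩
  rw [Subgroup.normal_subgroupOf_iff_le_normalizer hKE]
  unfold Cfsg.extendedTwoLayer
  refine sup_le (sup_le hL hO) (iSup_le fun T => ?_)
  refine le_trans (Subgroup.map_subtype_le _) ?_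
  exact Cfsg.Agent.Lib.Helper22.centralizer_sylow_le_normalizer hK (hKL.trans le_sup_left)
    (sup_le hL hP) T

end Cfsg.Agent.S1344
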