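import Cfsg.Statements.S1348
import Mathlib
import Cfsg.Agent.S0249
import Cfsg.Agent.Lib.Helper5.SLGen
import Cfsg.Agent.Lib.Helper90.SLStd

set_option autoImplicit false
open Cfsg

namespace Cfsg.Agent.S1348

/-- Let F be a finite field of odd order, n ≥ 7 odd, and t ∈ SL(n, F) the diagonal matrix with entries −1, …, −1, 1. Then E(C(t)) is a standard subgroup of SL(n, F). -/
theorem result {F : Type*} [Field F] [Fintype F] [DecidableEq F] (hF : Odd (Fintype.card F)) (n : ℕ) (hn : 7 ≤ n) (hodd : Odd n) (t : Matrix.SpecialLinearGroup (Fin n) F) (ht : (t : Matrix (Fin n) (Fin n) F) = Matrix.diagonal (fun i : Fin n => if (i : ℕ) + 1 = n then (1 : F) else -1)) : Cfsg.IsStandardSubgroup ((Cfsg.layer ↥(Subgroup.centralizer ({t} : Set (Matrix.SpecialLinearGroup (Fin n) F)))).map (Subgroup.centralizer ({t} : Set (Matrix.SpecialLinearGroup (Fin n) F))).subtype) := by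
  obtain ⟨m, rfl⟩ : ∃ m, n = m + 1 := ⟨n - 1, by omega⟩
  have hchar : ringChar F ≠ 2 := by
    intro hc
    have h1 := FiniteField.even_card_of_char_two hc
    rcases hF with ⟨k, hk⟩
    omega
  have h2 : (2 : F) ≠ 0 := Ring.two_ne_zero hchar
  have hme : Even m := by
    rcases hodd with ⟨k, hk⟩
    exact ⟨k, by omega⟩
  have hm3 : 3 ≤ m := by omega
  exact Cfsg.Agent.Lib.Helper90.SLStd.main h2 (by omega) hme
    ⟨⟨Cfsg.Agent.Lib.Helper5.commutator_SL_eq_top (by simpa using hm3)⟩,
      Cfsg.Agent.S0249.result m hm3⟩ t ht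

end Cfsg.Agent.S1348
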