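import Cfsg.Statements.S1386
import Cfsg.Agent.Lib.Helper23.Compl
import Mathlib

set_option autoImplicit false
open Cfsg

namespace Cfsg.Agent.S1386

open Cfsg.Agent.Lib.Helper23

theorem coprime_of_cyclic_sup {G : Type*} [Group G] [Finite G] (W₁ W₂ : Subgroup G)
    (hinf : W₁ ⊓ W₂ = ⊥) (hcomm : ∀ a ∈ W₁, ∀ b ∈ W₂, a * b = b * a)
    (hcyc : IsCyclic ↥(W₁ ⊔ W₂)) : (Nat.card W₁).Coprime (Nat.card W₂) := by
  have hcompl : Cfsg.IsComplIn W₁ W₂ (W₁ ⊔ W₂) :=
    ⟨le_sup_left, le_sup_right, hinf, fun m hm => mem_sup_of_commute W₁ W₂ hcomm hm⟩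
  have hcard := card_of_isComplIn hcompl
  have hexp : Monoid.exponent ↥(W₁ ⊔ W₂) = Nat.card ↥(W₁ ⊔ W₂) := IsCyclic.exponent_eq_card
  have hdvd : Monoid.exponent ↥(W₁ ⊔ W₂) ∣ Nat.lcm (Nat.card W₁) (Nat.card W₂) := by
    apply Monoid.exponent_dvd_of_forall_pow_eq_one
    rintro ⟨w, hw⟩
    obtain ⟨a, ha, b, hb, rfl⟩ := mem_sup_of_commute W₁ W₂ hcomm hw
    apply Subtype.ext
    change (a * b) ^ (Nat.lcm (Nat.card W₁) (Nat.card W₂)) = 1
    have hc : Commute a b := hcomm a ha b hb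
    rw [hc.mul_pow]
    have h1 : a ^ (Nat.lcm (Nat.card W₁) (Nat.card W₂)) = 1 := by
      have : (⟨a, ha⟩ : W₁) ^ (Nat.card W₁) = 1 := pow_card_eq_one'
      have h' : a ^ (Nat.card W₁) = 1 := congrArg Subtype.val this
      obtain ⟨c, hc⟩ := Nat.dvd_lcm_left (Nat.card W₁) (Nat.card W₂)
      rw [hc, pow_mul, h', one_pow]
    have h2 : b ^ (Nat.lcm (Nat.card W₁) (Nat.card W₂)) = 1 := by
      have : (⟨b, hb⟩ : W₂) ^ (Nat.card W₂) = 1 := pow_card_eq_one'
      have h' : b ^ (Nat.card W₂) = 1 := congrArg Subtype.val this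
      obtain ⟨c, hc⟩ := Nat.dvd_lcm_right (Nat.card W₁) (Nat.card W₂)
      rw [hc, pow_mul, h', one_pow]
    rw [h1, h2, one_mul]
  rw [hexp, hcard, ← Nat.gcd_mul_lcm] at hdvd
  have hpos : 0 < Nat.lcm (Nat.card W₁) (Nat.card W₂) :=
    Nat.lcm_pos Nat.card_pos Nat.card_pos
  have : Nat.gcd (Nat.card W₁) (Nat.card W₂) ∣ 1 := by
    apply Nat.dvd_of_mul_dvd_mul_right hpos
    rw [one_mul]
    exact hdvd
  exact Nat.dvd_one.mp this

/-- Let G be a finite group, W₁, W₂ subgroups forming a self-normalizing cyclic pair, S a subgroup with W₂ ≤ S and W₁ a complement to S' in S, and (W₁, U, W₂') type-P data for S. Then W₂' = W₂ (that is, C_{S'}(W₁) = W₂). -/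
theorem result {G : Type*} [Group G] [Finite G] (W₁ W₂ S U W₂' : Subgroup G) (hW : Cfsg.IsSelfNormalizingCyclic W₁ W₂)
    (hSW : Cfsg.IsComplIn ⁅S, S⁆ W₁ S) (hW₂S : W₂ ≤ S) (hP : Cfsg.IsTypePWith S W₁ U W₂') :
    W₂' = W₂ := by
  obtain ⟨hW1, hW2, hinf, hcomm, hcyc, hnorm⟩ := hW
  obtain ⟨-, hW2', hinf', hcomm', hcyc', hnorm'⟩ := hP.selfNormalizing
  obtain ⟨x, hx1⟩ := (Subgroup.ne_bot_iff_exists_ne_one).mp hW1
  obtain ⟨y, hy1⟩ := (Subgroup.ne_bot_iff_exists_ne_one).mp hW2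
  have hx : (x : G) ∈ W₁ := x.2
  have hy : (y : G) ∈ W₂ := y.2
  have hx1 : (x : G) ≠ 1 := fun h => hx1 (Subtype.ext h)
  have hy1 : (y : G) ≠ 1 := fun h => hy1 (Subtype.ext h)
  have hcop := coprime_of_cyclic_sup W₁ W₂ hinf hcomm hcyc
  -- key step: W₂ ≤ ⁅S, S⁆
  have hW2S' : W₂ ≤ ⁅S, S⁆ := by
    intro v hv
    obtain ⟨s, hs, a, ha, hva⟩ := hSW.2.2.2 v (hW₂S hv)
    have hc : Commute a v := hcomm a ha v hv
    have hs' : s = v * a⁻¹ := by rw [hva]; group
    have hpow : s ^ (Nat.card W₁) = v ^ (Nat.card W₁) := by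
      rw [hs', (hc.symm.inv_right).mul_pow]
      have : (⟨a, ha⟩ : W₁) ^ (Nat.card W₁) = 1 := pow_card_eq_one'
      have h' : a ^ (Nat.card W₁) = 1 := congrArg Subtype.val this
      rw [inv_pow, h', inv_one, mul_one]
    have hmem : v ^ (Nat.card W₁) ∈ ⁅S, S⁆ := by
      rw [← hpow]; exact Subgroup.pow_mem _ hs _
    have hord : orderOf v ∣ Nat.card W₂ := by
      have : orderOf (⟨v, hv⟩ : W₂) ∣ Nat.card W₂ := orderOf_dvd_natCard _
      rwa [Subgroup.orderOf_mk] at this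
    have hcop' : (Nat.card W₁).Coprime (orderOf v) := Nat.Coprime.coprime_dvd_right hord hcop
    obtain ⟨m, hm⟩ := exists_pow_eq_self_of_coprime hcop'
    rw [← hm]
    exact Subgroup.pow_mem _ hmem _
  have hle : W₂ ≤ W₂' := by
    intro v hv
    rw [← hP.W₂_centralizer x hx hx1]
    refine ⟨hW2S' hv, ?_⟩
    change v ∈ Subgroup.centralizer {(x : G)}
    rw [Subgroup.mem_centralizer_iff]
    intro h hh
    rw [Set.mem_singleton_iff] at hh
    rw [hh]
    exact hcomm x hx v hv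
  have hy' : (y : G) ∈ W₂' := hle hy
  -- the element w = x * y
  have hsup : W₁ ⊔ W₂ = W₁ ⊔ W₂' := by
    have h1 := hnorm {(x : G) * (y : G)} (by
      rintro w hw
      rw [Set.mem_singleton_iff] at hw
      subst hw
      refine ⟨(W₁ ⊔ W₂).mul_mem (Subgroup.mem_sup_left hx) (Subgroup.mem_sup_right hy), ?_⟩
      rintro (h | h)
      · have : (y : G) ∈ W₁ ⊓ W₂ := by
          refine ⟨?_, hy⟩
          have := W₁.mul_mem (W₁.inv_mem hx) h
          simpa using this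
        rw [hinf, Subgroup.mem_bot] at this
        exact hy1 this
      · have : (x : G) ∈ W₁ ⊓ W₂ := by
          refine ⟨hx, ?_⟩
          have := W₂.mul_mem h (W₂.inv_mem hy)
          simpa using this
        rw [hinf, Subgroup.mem_bot] at this
        exact hx1 this) (Set.singleton_nonempty _)
    have h2 := hnorm' {(x : G) * (y : G)} (by
      rintro w hw
      rw [Set.mem_singleton_iff] at hw
      subst hw
      refine ⟨(W₁ ⊔ W₂').mul_mem (Subgroup.mem_sup_left hx) (Subgroup.mem_sup_right hy'), ?_⟩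
      rintro (h | h)
      · have : (y : G) ∈ W₁ ⊓ W₂' := by
          refine ⟨?_, hy'⟩
          have := W₁.mul_mem (W₁.inv_mem hx) h
          simpa using this
        rw [hinf', Subgroup.mem_bot] at this
        exact hy1 this
      · have : (x : G) ∈ W₁ ⊓ W₂' := by
          refine ⟨hx, ?_⟩
          have := W₂'.mul_mem h (W₂'.inv_mem hy')
          simpa using this
        rw [hinf', Subgroup.mem_bot] at this
        exact hx1 this) (Set.singleton_nonempty _)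
    rw [← h1, ← h2]
  apply le_antisymm _ hle
  intro z hz
  have hz' : z ∈ W₁ ⊔ W₂ := by rw [hsup]; exact Subgroup.mem_sup_right hz
  obtain ⟨a, ha, b, hb, hzab⟩ := mem_sup_of_commute W₁ W₂ hcomm hz'
  have : a ∈ W₁ ⊓ W₂' := by
    refine ⟨ha, ?_⟩
    have h3 : a = z * b⁻¹ := by rw [hzab]; group
    rw [h3]
    exact W₂'.mul_mem hz (W₂'.inv_mem (hle hb))
  rw [hinf', Subgroup.mem_bot] at this
  rw [hzab, this, one_mul]
  exact hb

end Cfsg.Agent.S1386
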