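import Cfsg.Statements.S1388
import Cfsg.Agent.Lib.Helper23.TypeP

set_option autoImplicit false
open Cfsg

namespace Cfsg.Agent.S1388

open Cfsg.Agent.Lib.Helper23
open scoped commutatorElement

/-- Let M be a subgroup of a finite group G with type-P data (W₁, U, W₂) and H = M_F. Then the derived subgroup of U centralizes H, and if U ≠ 1 then U does not centralize H. -/
theorem result {G : Type*} [Group G] [Finite G] (M W₁ U W₂ : Subgroup G) (hP : Cfsg.IsTypePWith M W₁ U W₂) :
    ⁅U, U⁆ ≤ Subgroup.centralizer (Cfsg.fittingHallOf M : Set G) ∧ (U ≠ ⊥ → ¬ U ≤ Subgroup.centralizer (Cfsg.fittingHallOf M : Set G)) := by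
  classical
  have hUM' : U ≤ ⁅M, M⁆ := hP.U_compl.2.1
  have hUM : U ≤ M := hUM'.trans (commutator_self_le M)
  have hHU : Cfsg.fittingHallOf M ⊓ U = ⊥ := hP.U_compl.2.2.1
  have hcop := typeP_coprime_H_U M W₁ U W₂ hP
  constructor
  · intro x hx
    have hxU : x ∈ U := commutator_self_le U hx
    have hx2 : x ∈ ⁅⁅M, M⁆, ⁅M, M⁆⁆ := Subgroup.commutator_mono hUM' hUM' hx
    have hx3 : x ∈ Cfsg.fittingHallOf M ⊔
        (U ⊓ Subgroup.centralizer (Cfsg.fittingHallOf M : Set G)) := by
      rw [← typeP_fittingOf_eq M W₁ U W₂ hP, ← hP.fitting_eq]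
      exact hP.derived_two_le hx2
    obtain ⟨h, hh, v, hv, hxv⟩ := mem_sup_of_commute (Cfsg.fittingHallOf M)
      (U ⊓ Subgroup.centralizer (Cfsg.fittingHallOf M : Set G))
      (fun a ha b hb => (Subgroup.mem_centralizer_iff.mp hb.2) a ha) hx3
    have hmem : h ∈ Cfsg.fittingHallOf M ⊓ U := by
      refine ⟨hh, ?_⟩
      have h3 : h = x * v⁻¹ := by rw [hxv]; group
      rw [h3]
      exact U.mul_mem hxU (U.inv_mem hv.1)
    rw [hHU, Subgroup.mem_bot] at hmem
    rw [hxv, hmem, one_mul]
    exact hv.2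
  · intro hU1 hUC
    apply hU1
    -- cardinalities
    have hcardM' := card_of_isComplIn hP.U_compl
    have hcardM := card_of_isComplIn hP.W₁_compl
    have hW₁M : W₁ ≤ M := hP.W₁_compl.2.1
    have hrelW : W₁.relIndex M = Nat.card (Cfsg.fittingHallOf M) * Nat.card U := by
      have h1 := card_mul_relIndex hW₁M
      rw [hcardM, hcardM', mul_comm] at h1
      exact Nat.eq_of_mul_eq_mul_right Nat.card_pos h1
    have hrelU : U.relIndex M = Nat.card (Cfsg.fittingHallOf M) * Nat.card W₁ := by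
      have h1 := card_mul_relIndex hUM
      rw [hcardM, hcardM'] at h1
      have h2 : Nat.card U * U.relIndex M =
          Nat.card U * (Nat.card (Cfsg.fittingHallOf M) * Nat.card W₁) := by
        rw [h1]; ring
      exact Nat.eq_of_mul_eq_mul_left Nat.card_pos h2
    have hcopW : (Nat.card U).Coprime (Nat.card W₁) := by
      have h1 := hP.W₁_hall
      rw [hrelW] at h1
      exact (Nat.Coprime.coprime_mul_left_right h1).symm
    -- normality of U in M
    have hnorm : (U.subgroupOf M).Normal := by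
      refine ⟨fun n hn g => ?_⟩
      rw [Subgroup.mem_subgroupOf] at hn ⊢
      change (g : G) * (n : G) * (g : G)⁻¹ ∈ U
      have ht : (g : G) * (n : G) * (g : G)⁻¹ ∈ ⁅M, M⁆ := by
        have h1 : ⁅(g : G), (n : G)⁆ ∈ ⁅M, M⁆ := Subgroup.commutator_mem_commutator g.2 n.2
        have h2 : (g : G) * (n : G) * (g : G)⁻¹ = ⁅(g : G), (n : G)⁆ * (n : G) := by
          rw [commutatorElement_def]; group
        rw [h2]
        exact Subgroup.mul_mem _ h1 (hUM' hn)
      obtain ⟨h, hh, u', hu', htu⟩ := hP.U_compl.2.2.2 _ ht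
      have hc : Commute h u' := (Subgroup.mem_centralizer_iff.mp (hUC hu')) h hh
      have hpow1 : ((g : G) * (n : G) * (g : G)⁻¹) ^ (Nat.card U) = 1 := by
        rw [conj_pow]
        have : (n : G) ^ (Nat.card U) = 1 :=
          orderOf_dvd_iff_pow_eq_one.mp (orderOf_dvd_card_of_mem hn)
        rw [this]; group
      have hpow2 : u' ^ (Nat.card U) = 1 :=
        orderOf_dvd_iff_pow_eq_one.mp (orderOf_dvd_card_of_mem hu')
      rw [htu, hc.mul_pow, hpow2, mul_one] at hpow1
      have hd1 : orderOf h ∣ Nat.card U := orderOf_dvd_iff_pow_eq_one.mpr hpow1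
      have hd2 : orderOf h ∣ Nat.card (Cfsg.fittingHallOf M) := orderOf_dvd_card_of_mem hh
      have hd3 : orderOf h ∣ 1 := by
        have := Nat.dvd_gcd hd2 hd1
        rwa [Nat.Coprime.gcd_eq_one hcop] at this
      have hh1 : h = 1 := orderOf_eq_one_iff.mp (Nat.dvd_one.mp hd3)
      rw [htu, hh1, one_mul]
      exact hu'
    have hnil : Group.IsNilpotent ↥(U.subgroupOf M) :=
      (Group.isNilpotent_congr (Subgroup.subgroupOfEquivOfLe hUM)).mpr hP.U_nilpotent
    have hhall : (Nat.card ↥(U.subgroupOf M)).Coprime (U.subgroupOf M).index := by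
      have h1 : Nat.card ↥(U.subgroupOf M) = Nat.card U :=
        Nat.card_congr (Subgroup.subgroupOfEquivOfLe hUM).toEquiv
      have h2 : (U.subgroupOf M).index = U.relIndex M := rfl
      rw [h1, h2, hrelU]
      exact Nat.Coprime.mul_right hcop.symm hcopW
    have hle : U.subgroupOf M ≤ Cfsg.fittingHall M := by
      unfold Cfsg.fittingHall
      exact le_sSup ⟨hnorm, hnil, hhall⟩
    rw [eq_bot_iff, ← hHU]
    intro u hu
    refine ⟨?_, hu⟩
    have : (⟨u, hUM hu⟩ : M) ∈ Cfsg.fittingHall M := hle (by rw [Subgroup.mem_subgroupOf]; exact hu)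
    exact ⟨⟨u, hUM hu⟩, this, rfl⟩

end Cfsg.Agent.S1388
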