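import Mathlib
import Cfsg.Statements.S1441

set_option autoImplicit false
open Cfsg

namespace Cfsg.Agent.S1441

/-- power trick: if `z = ⁅h, s⁆` commutes with `s`, then `h s^k h⁻¹ = z^k s^k`. -/
theorem conj_pow_eq {G : Type*} [Group G] (h s : G) (hz : Commute (h * s * h⁻¹ * s⁻¹) s) (k : ℕ) :
    h * s ^ k * h⁻¹ = (h * s * h⁻¹ * s⁻¹) ^ k * s ^ k := by
  have h1 : h * s * h⁻¹ = (h * s * h⁻¹ * s⁻¹) * s := by group
  have h2 : h * s ^ k * h⁻¹ = (h * s * h⁻¹) ^ k := by
    rw [conj_pow]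
  rw [h2, h1, hz.mul_pow]
  congr 1
  congr 1
  group

/-- a `p`-element stabilizing the series centralizes every term when `p ∤ |H|`. -/
theorem centralizes {G : Type*} [Group G] [Finite G] (H A : Subgroup G)
    (n : ℕ) (c : Fin (n + 1) → Subgroup G) (hc0 : c 0 = H) (hcn : c (Fin.last n) = ⊥) (hanti : Antitone c)
    (htriv : ∀ i : Fin n, ⁅c i.castSucc, A⁆ ≤ c i.succ)
    (p : ℕ) (hp : p.Prime) (hpH : ¬ p ∣ Nat.card H) (s : G) (hsA : s ∈ A) (m : ℕ) (hs : s ^ (p ^ m) = 1) :
    ∀ i : Fin (n + 1), ∀ h ∈ c i, h * s = s * h := by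
  intro i
  induction i using Fin.reverseInduction with
  | last =>
    intro h hh
    rw [hcn] at hh
    rw [Subgroup.mem_bot] at hh
    subst hh
    simp
  | cast i ih =>
    intro h hh
    have hz : h * s * h⁻¹ * s⁻¹ ∈ c i.succ := by
      apply htriv i
      have := Subgroup.commutator_mem_commutator hh hsA
      rwa [commutatorElement_def] at this
    have hcomm : Commute (h * s * h⁻¹ * s⁻¹) s := ih _ hz
    have hpow := conj_pow_eq h s hcomm (p ^ m)
    rw [hs] at hpow
    simp only [mul_one, mul_inv_cancel] at hpow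
    have hzH : h * s * h⁻¹ * s⁻¹ ∈ H := by
      rw [← hc0]
      exact hanti (Fin.zero_le _) hz
    have hord1 : orderOf (h * s * h⁻¹ * s⁻¹) ∣ p ^ m := orderOf_dvd_of_pow_eq_one hpow.symm
    have hord2 : orderOf (h * s * h⁻¹ * s⁻¹) ∣ Nat.card H := by
      have := Subgroup.orderOf_dvd_natCard H hzH
      exact this
    have hcop : Nat.Coprime (p ^ m) (Nat.card H) :=
      Nat.Coprime.pow_left m ((Nat.Prime.coprime_iff_not_dvd hp).mpr hpH)
    have h1 : orderOf (h * s * h⁻¹ * s⁻¹) = 1 :=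
      Nat.eq_one_of_dvd_coprimes hcop hord1 hord2
    rw [orderOf_eq_one_iff] at h1
    have : h * s = (h * s * h⁻¹ * s⁻¹) * (s * h) := by group
    rw [this, h1, one_mul]

/-- Let G be a finite group, H a solvable subgroup and A a subgroup normalizing H. Suppose there is a chain H = H₀ ≥ H₁ ≥ ⋯ ≥ H_n = 1 of subgroups normal in H and normalized by A such that A acts trivially on each factor H_{i-1}/H_i (that is, [H_{i-1}, A] ≤ H_i). Then every prime dividing the index of C_A(H) in A divides the order of H. -/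
theorem result {G : Type*} [Group G] [Finite G] (H A : Subgroup G) (hH : Group.IsSolvable H) (hA : (A ≤ Subgroup.normalizer (H : Set G)))
    (n : ℕ) (c : Fin (n + 1) → Subgroup G) (hc0 : c 0 = H) (hcn : c (Fin.last n) = ⊥) (hanti : Antitone c)
    (hcN : ∀ i, H ≤ Subgroup.normalizer ((c i : Subgroup G) : Set G)) (hcA : ∀ i, A ≤ Subgroup.normalizer ((c i : Subgroup G) : Set G))
    (htriv : ∀ i : Fin n, ⁅c i.castSucc, A⁆ ≤ c i.succ) :
    ∀ p : ℕ, p.Prime → p ∣ (A ⊓ Subgroup.centralizer (H : Set G)).relIndex A → p ∣ Nat.card H := by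
  intro p hp hdvd
  by_contra hpH
  have : Fact p.Prime := ⟨hp⟩
  obtain ⟨S⟩ : Nonempty (Sylow p A) := inferInstance
  have hS : (S : Subgroup A) ≤ (A ⊓ Subgroup.centralizer (H : Set G)).subgroupOf A := by
    intro s hs
    rw [Subgroup.mem_subgroupOf]
    refine Subgroup.mem_inf.mpr ⟨s.2, ?_⟩
    rw [Subgroup.mem_centralizer_iff]
    intro h hh
    obtain ⟨m, hm⟩ := (IsPGroup.iff_orderOf.mp S.isPGroup') ⟨s, hs⟩
    have hsm : (s : G) ^ (p ^ m) = 1 := by
      have h1 : (⟨s, hs⟩ : (S : Subgroup A)) ^ (p ^ m) = 1 := by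
        rw [← hm]; exact pow_orderOf_eq_one _
      have h2 := congrArg (fun x : (S : Subgroup A) => ((x : A) : G)) h1
      simpa using h2
    have := centralizes H A n c hc0 hcn hanti htriv p hp hpH (s : G) s.2 m hsm 0 h (by rw [hc0]; exact hh)
    exact this
  have h1 : ((A ⊓ Subgroup.centralizer (H : Set G)).subgroupOf A).index ∣ (S : Subgroup A).index :=
    Subgroup.index_dvd_of_le hS
  have h2 : ¬ p ∣ (S : Subgroup A).index := S.not_dvd_index
  exact h2 (dvd_trans hdvd h1)

end Cfsg.Agent.S1441
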