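import Mathlib
import Cfsg.Statements.S1442

set_option autoImplicit false
open Cfsg

namespace Cfsg.Agent.S1442

/-- power trick: if `z = h s h⁻¹ s⁻¹` commutes with `s`, then `h s^k h⁻¹ = z^k s^k`. -/
theorem conj_pow_eq {G : Type*} [Group G] (h s : G) (hz : Commute (h * s * h⁻¹ * s⁻¹) s) (k : ℕ) :
    h * s ^ k * h⁻¹ = (h * s * h⁻¹ * s⁻¹) ^ k * s ^ k := by
  have h1 : h * s * h⁻¹ = (h * s * h⁻¹ * s⁻¹) * s := by group
  have h2 : h * s ^ k * h⁻¹ = (h * s * h⁻¹) ^ k := by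
    rw [conj_pow]
  rw [h2, h1, hz.mul_pow]
  congr 1
  congr 1
  group

/-- an element of `H` normalizing `C = C_H(A)` is centralized by `A`. -/
theorem key {G : Type*} [Group G] [Finite G] (H A : Subgroup G)
    (hA : (A ≤ Subgroup.normalizer (H : Set G))) (hcop : (Nat.card A).Coprime (Nat.card H))
    (hC : H ⊓ Subgroup.centralizer (((H ⊓ Subgroup.centralizer (A : Set G)) : Subgroup G) : Set G) ≤ (H ⊓ Subgroup.centralizer (A : Set G)))
    (n : G) (hn : n ∈ H)
    (hnorm : ∀ c ∈ H ⊓ Subgroup.centralizer (A : Set G), n⁻¹ * c * n ∈ H ⊓ Subgroup.centralizer (A : Set G))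
    (a : G) (ha : a ∈ A) : a * n = n * a := by
  -- z = n a n⁻¹ a⁻¹
  have hanH : a * n⁻¹ * a⁻¹ ∈ H := by
    have := (Subgroup.mem_normalizer_iff.mp (hA ha)) n⁻¹
    exact this.mp (H.inv_mem hn)
  have hzH : n * a * n⁻¹ * a⁻¹ ∈ H := by
    have : n * a * n⁻¹ * a⁻¹ = n * (a * n⁻¹ * a⁻¹) := by group
    rw [this]
    exact H.mul_mem hn hanH
  have hzC : n * a * n⁻¹ * a⁻¹ ∈ Subgroup.centralizer (((H ⊓ Subgroup.centralizer (A : Set G)) : Subgroup G) : Set G) := by
    rw [Subgroup.mem_centralizer_iff]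
    intro c hc
    have hc' : c ∈ H ⊓ Subgroup.centralizer (A : Set G) := hc
    have h1 := hnorm c hc'
    have h2 : a * (n⁻¹ * c * n) = (n⁻¹ * c * n) * a :=
      (Subgroup.mem_centralizer_iff.mp (Subgroup.mem_inf.mp h1).2) a ha
    have h3 : a * c = c * a :=
      (Subgroup.mem_centralizer_iff.mp (Subgroup.mem_inf.mp hc').2) a ha
    -- c * z = z * c
    have h3' : a⁻¹ * c = c * a⁻¹ := (Commute.inv_left (show Commute a c from h3)).eq
    have e1 : c * (n * a * n⁻¹ * a⁻¹) = n * ((n⁻¹ * c * n) * a) * n⁻¹ * a⁻¹ := by group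
    have e2 : n * a * n⁻¹ * a⁻¹ * c = n * a * n⁻¹ * (a⁻¹ * c) := by group
    have e3 : n * a * n⁻¹ * (c * a⁻¹) = n * (a * (n⁻¹ * c * n)) * n⁻¹ * a⁻¹ := by group
    rw [e1, e2, h3', e3, h2]
  have hz : n * a * n⁻¹ * a⁻¹ ∈ H ⊓ Subgroup.centralizer (A : Set G) :=
    hC (Subgroup.mem_inf.mpr ⟨hzH, hzC⟩)
  have hcomm : Commute (n * a * n⁻¹ * a⁻¹) a :=
    ((Subgroup.mem_centralizer_iff.mp (Subgroup.mem_inf.mp hz).2) a ha).symm
  have hpow := conj_pow_eq n a hcomm (orderOf a)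
  rw [pow_orderOf_eq_one] at hpow
  simp only [mul_one, mul_inv_cancel] at hpow
  have hord1 : orderOf (n * a * n⁻¹ * a⁻¹) ∣ orderOf a := orderOf_dvd_of_pow_eq_one hpow.symm
  have hord1' : orderOf (n * a * n⁻¹ * a⁻¹) ∣ Nat.card A :=
    dvd_trans hord1 (Subgroup.orderOf_dvd_natCard A ha)
  have hord2 : orderOf (n * a * n⁻¹ * a⁻¹) ∣ Nat.card H := Subgroup.orderOf_dvd_natCard H hzH
  have h1 : orderOf (n * a * n⁻¹ * a⁻¹) = 1 :=
    Nat.eq_one_of_dvd_coprimes hcop hord1' hord2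
  rw [orderOf_eq_one_iff] at h1
  have : n * a = (n * a * n⁻¹ * a⁻¹) * (a * n) := by group
  rw [this, h1, one_mul]

/-- Let G be a finite group, H a nilpotent subgroup and A a subgroup normalizing H with the orders of A and H coprime. Put C = H ∩ C_G(A). If H ∩ C_G(C) ≤ C then A centralizes H. -/
theorem result {G : Type*} [Group G] [Finite G] (H A : Subgroup G) (hH : Group.IsNilpotent H) (hA : (A ≤ Subgroup.normalizer (H : Set G))) (hcop : (Nat.card A).Coprime (Nat.card H))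
    (hC : H ⊓ Subgroup.centralizer (((H ⊓ Subgroup.centralizer (A : Set G)) : Subgroup G) : Set G) ≤ (H ⊓ Subgroup.centralizer (A : Set G))) :
    A ≤ Subgroup.centralizer (H : Set G) := by
  have hnc : NormalizerCondition H := Group.normalizerCondition_of_isNilpotent
  rw [normalizerCondition_iff_only_full_group_self_normalizing] at hnc
  have htop : (H ⊓ Subgroup.centralizer (A : Set G)).subgroupOf H = ⊤ := by
    apply hnc
    apply le_antisymm _ Subgroup.le_normalizer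
    intro n hn
    rw [Subgroup.mem_subgroupOf]
    refine Subgroup.mem_inf.mpr ⟨n.2, ?_⟩
    rw [Subgroup.mem_centralizer_iff]
    intro a ha
    apply key H A hA hcop hC (n : G) n.2 _ a ha
    intro c hc
    have hcH : c ∈ H := (Subgroup.mem_inf.mp hc).1
    have hn' : n⁻¹ ∈ Subgroup.normalizer (((H ⊓ Subgroup.centralizer (A : Set G)).subgroupOf H : Subgroup H) : Set H) :=
      Subgroup.inv_mem _ hn
    have := (Subgroup.mem_normalizer_iff.mp hn') ⟨c, hcH⟩
    have h2 := this.mp (by rw [Subgroup.mem_subgroupOf]; exact hc)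
    rw [Subgroup.mem_subgroupOf] at h2
    simpa using h2
  intro a ha
  rw [Subgroup.mem_centralizer_iff]
  intro h hh
  have hmem : (⟨h, hh⟩ : H) ∈ (H ⊓ Subgroup.centralizer (A : Set G)).subgroupOf H := by
    rw [htop]; exact Subgroup.mem_top _
  rw [Subgroup.mem_subgroupOf] at hmem
  exact ((Subgroup.mem_centralizer_iff.mp (Subgroup.mem_inf.mp hmem).2) a ha).symm

end Cfsg.Agent.S1442
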