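import Cfsg.Statements.S1459
import Cfsg.Agent.Lib.Helper2.Transfer
import Cfsg.Agent.Lib.Helper73.NilpotentCoprime
import Cfsg.Agent.Lib.Helper90.Frattini

set_option autoImplicit false
open Cfsg

namespace Cfsg.Agent.S1459

open Cfsg.Agent.Lib
open scoped commutatorElement

section Aux

variable {G : Type*} [Group G]

theorem exists_mul_of_sup (H K : Subgroup G) [hH : H.Normal] (hsup : H ⊔ K = ⊤) (g : G) :
    ∃ h ∈ H, ∃ k ∈ K, g = h * k := by
  have hg : g ∈ H ⊔ K := hsup ▸ Subgroup.mem_top g
  rw [← SetLike.mem_coe, Subgroup.normal_mul] at hg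
  obtain ⟨h, hh, k, hk, hhk⟩ := hg
  exact ⟨h, hh, k, hk, hhk.symm⟩

theorem conj_comm (g h k : G) : g * ⁅h, k⁆ * g⁻¹ = ⁅g * h, k⁆ * ⁅g, k⁆⁻¹ := by
  simp only [commutatorElement_def]; group

theorem conj_comm' (g h k : G) : g * ⁅h, k⁆ * g⁻¹ = ⁅g * h * g⁻¹, g * k * g⁻¹⁆ := by
  simp only [commutatorElement_def]; group

/-- `⁅H, K⁆` is normal when `H` is normal and `H ⊔ K = ⊤`. -/
theorem comm_normal (H K : Subgroup G) [hH : H.Normal] (hsup : H ⊔ K = ⊤) : (⁅H, K⁆).Normal := by
  have h1 : ∀ g ∈ H, ∀ x ∈ ⁅H, K⁆, g * x * g⁻¹ ∈ ⁅H, K⁆ := by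
    intro g hg x hx
    have hle : ⁅H, K⁆ ≤ (⁅H, K⁆).comap (MulAut.conj g).toMonoidHom := by
      rw [Subgroup.commutator_le]
      intro h hh k hk
      rw [Subgroup.mem_comap]
      show g * ⁅h, k⁆ * g⁻¹ ∈ _
      rw [conj_comm]
      exact Subgroup.mul_mem _ (Subgroup.commutator_mem_commutator (H.mul_mem hg hh) hk)
        (Subgroup.inv_mem _ (Subgroup.commutator_mem_commutator hg hk))
    exact hle hx
  have h2 : ∀ g ∈ K, ∀ x ∈ ⁅H, K⁆, g * x * g⁻¹ ∈ ⁅H, K⁆ := by
    intro g hg x hx
    have hle : ⁅H, K⁆ ≤ (⁅H, K⁆).comap (MulAut.conj g).toMonoidHom := by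
      rw [Subgroup.commutator_le]
      intro h hh k hk
      rw [Subgroup.mem_comap]
      show g * ⁅h, k⁆ * g⁻¹ ∈ _
      rw [conj_comm']
      exact Subgroup.commutator_mem_commutator (hH.conj_mem h hh g)
        (K.mul_mem (K.mul_mem hg hk) (K.inv_mem hg))
    exact hle hx
  constructor
  intro x hx g
  obtain ⟨h, hh, k, hk, rfl⟩ := exists_mul_of_sup H K hsup g
  have h3 := h1 h hh _ (h2 k hk x hx)
  have h4 : h * k * x * (h * k)⁻¹ = h * (k * x * k⁻¹) * h⁻¹ := by group
  rw [h4]
  exact h3

/-- Part (a), first half. -/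
theorem part_a1 [Finite G] [Group.IsSolvable G] (H K : Subgroup G) [hH : H.Normal]
    (hc : Subgroup.IsComplement' H K) (hHG : H ≤ commutator G) : H = ⁅H, K⁆ := by
  have hsup : H ⊔ K = ⊤ := Subgroup.IsComplement'.sup_eq_top hc
  have hinf : H ⊓ K = ⊥ := (Subgroup.IsComplement'.disjoint hc).eq_bot
  haveI hL : (⁅H, K⁆).Normal := comm_normal H K hsup
  have hLH : ⁅H, K⁆ ≤ H := Subgroup.commutator_le_left H K
  have hNC : Subgroup.normalClosure (K : Set G) = ⊤ := by
    by_contra hne
    haveI : Nontrivial (G ⧸ Subgroup.normalClosure (K : Set G)) :=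
      QuotientGroup.nontrivial_iff.mpr hne
    have hlt := Group.IsSolvable.commutator_lt_top_of_nontrivial
      (G ⧸ Subgroup.normalClosure (K : Set G))
    apply hlt.ne
    rw [eq_top_iff]
    intro q _
    obtain ⟨g, rfl⟩ := QuotientGroup.mk_surjective q
    obtain ⟨h, hh, k, hk, rfl⟩ := exists_mul_of_sup H K hsup g
    have hk1 : ((k : G) : G ⧸ Subgroup.normalClosure (K : Set G)) = 1 :=
      (QuotientGroup.eq_one_iff k).mpr (Subgroup.subset_normalClosure hk)
    have hhk : ((h * k : G) : G ⧸ Subgroup.normalClosure (K : Set G)) =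
        (h : G ⧸ Subgroup.normalClosure (K : Set G)) := by
      rw [QuotientGroup.mk_mul, hk1, mul_one]
    rw [hhk]
    have h3 : h ∈ commutator G := hHG hh
    have h4 : (commutator G).map (QuotientGroup.mk' (Subgroup.normalClosure (K : Set G))) ≤
        commutator (G ⧸ Subgroup.normalClosure (K : Set G)) := by
      rw [commutator_def, commutator_def, Subgroup.map_commutator]
      exact Subgroup.commutator_mono le_top le_top
    exact h4 (Subgroup.mem_map_of_mem _ h3)
  have hM : Subgroup.normalClosure (K : Set G) ≤ ⁅H, K⁆ ⊔ K := by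
    apply (Subgroup.closure_le _).mpr
    intro x hx
    rw [Group.mem_conjugatesOfSet_iff] at hx
    obtain ⟨k, hk, hconj⟩ := hx
    rw [isConj_iff] at hconj
    obtain ⟨g, rfl⟩ := hconj
    obtain ⟨h, hh, k', hk', rfl⟩ := exists_mul_of_sup H K hsup g
    have h5 : h * k' * k * (h * k')⁻¹ = ⁅h, k' * k * k'⁻¹⁆ * (k' * k * k'⁻¹) := by
      simp only [commutatorElement_def]; group
    rw [SetLike.mem_coe, h5]
    have hk2 : k' * k * k'⁻¹ ∈ K := K.mul_mem (K.mul_mem hk' hk) (K.inv_mem hk')
    exact Subgroup.mul_mem _ (Subgroup.mem_sup_left (Subgroup.commutator_mem_commutator hh hk2))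
      (Subgroup.mem_sup_right hk2)
  apply le_antisymm _ hLH
  intro h hh
  have h6 : h ∈ ⁅H, K⁆ ⊔ K := hM (hNC ▸ Subgroup.mem_top h)
  rw [← SetLike.mem_coe, Subgroup.normal_mul] at h6
  obtain ⟨l, hl, k, hk, hlk⟩ := h6
  have hlk' : l * k = h := hlk
  have hkH : k ∈ H := by
    have : k = l⁻¹ * h := by rw [← hlk']; group
    rw [this]
    exact H.mul_mem (H.inv_mem (hLH hl)) hh
  have hk1 : k ∈ H ⊓ K := ⟨hkH, hk⟩
  rw [hinf, Subgroup.mem_bot] at hk1
  rw [← hlk', hk1, mul_one]
  exact hl

/-- Part (a), second half. -/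
theorem part_a2 [Finite G] (H K : Subgroup G) [hH : H.Normal]
    (hcop : (Nat.card H).Coprime (Nat.card K)) (hHL : H = ⁅H, K⁆) :
    H ⊓ Subgroup.centralizer (K : Set G) ≤ ⁅H, H⁆ := by
  classical
  haveI : Fintype K := Fintype.ofFinite K
  let θ : ↥H →* Abelianization ↥H := Abelianization.of
  let T : ↥H →* Abelianization ↥H :=
    ∏ k : K, θ.comp (MulAut.conjNormal (k : G) : ↥H ≃* ↥H).toMonoidHom
  have hT : ∀ x : ↥H, T x = ∏ k : K, θ (MulAut.conjNormal (k : G) x) := by
    intro x
    simp [T]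
  have hinv : ∀ (k' : K) (x : ↥H), T (MulAut.conjNormal (k' : G) x) = T x := by
    intro k' x
    rw [hT, hT]
    apply Fintype.prod_equiv (Equiv.mulRight k')
    intro k
    simp [map_mul]
  have hle : ⁅H, K⁆ ≤ (T.ker).map H.subtype := by
    rw [Subgroup.commutator_le]
    intro h hh k hk
    have hmem : ⁅h, k⁆ ∈ H := by
      rw [hHL]; exact Subgroup.commutator_mem_commutator (hHL ▸ hh) hk
    refine ⟨⟨⁅h, k⁆, hmem⟩, ?_, rfl⟩
    rw [SetLike.mem_coe, MonoidHom.mem_ker]
    have heq : (⟨⁅h, k⁆, hmem⟩ : ↥H) = ⟨h, hh⟩ * (MulAut.conjNormal k ⟨h, hh⟩)⁻¹ := by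
      apply Subtype.ext
      simp only [Subgroup.coe_mul, Subgroup.coe_inv, MulAut.conjNormal_apply,
        commutatorElement_def]
      group
    rw [heq, map_mul, map_inv, hinv ⟨k, hk⟩, mul_inv_cancel]
  have hker : ∀ x : ↥H, T x = 1 := by
    intro x
    have hx : (x : G) ∈ ⁅H, K⁆ := hHL ▸ x.2
    obtain ⟨y, hy, hyx⟩ := hle hx
    have : y = x := Subtype.ext hyx
    rw [← this]; exact hy
  rintro h ⟨hH', hC⟩
  have h1 : T ⟨h, hH'⟩ = θ ⟨h, hH'⟩ ^ (Nat.card K) := by
    rw [hT]
    have hfix : ∀ k : K, θ (MulAut.conjNormal (k : G) ⟨h, hH'⟩) = θ ⟨h, hH'⟩ := by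
      intro k
      congr 1
      apply Subtype.ext
      rw [MulAut.conjNormal_apply]
      have := Subgroup.mem_centralizer_iff.mp hC k k.2
      show (k : G) * h * (k : G)⁻¹ = h
      rw [this]; group
    simp [hfix, Nat.card_eq_fintype_card]
  have h2 : θ ⟨h, hH'⟩ ^ (Nat.card K) = 1 := by rw [← h1]; exact hker _
  have h3 : θ ⟨h, hH'⟩ ^ (Nat.card H) = 1 := by
    rw [← map_pow]
    have : (⟨h, hH'⟩ : ↥H) ^ Nat.card H = 1 := pow_card_eq_one'
    rw [this, map_one]
  have h4 : θ ⟨h, hH'⟩ = 1 := by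
    have ha := orderOf_dvd_of_pow_eq_one h2
    have hb := orderOf_dvd_of_pow_eq_one h3
    have hd : orderOf (θ ⟨h, hH'⟩) ∣ Nat.gcd (Nat.card H) (Nat.card K) := Nat.dvd_gcd hb ha
    have hg : Nat.gcd (Nat.card H) (Nat.card K) = 1 := hcop
    rw [hg] at hd
    exact orderOf_eq_one_iff.mp (Nat.dvd_one.mp hd)
  have h5 : (⟨h, hH'⟩ : ↥H) ∈ commutator ↥H := by
    rw [← Abelianization.ker_of]
    exact h4
  rw [← Subgroup.map_subtype_commutator H]
  exact ⟨_, h5, rfl⟩

/-- A finite nilpotent group whose commutator subgroup has index dividing a prime is abelian. -/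
theorem comm_eq_bot_of_nilpotent_of_index {P : Type*} [Group P] [Finite P] [Group.IsNilpotent P]
    {q : ℕ} (hq : q.Prime) (h : (commutator P).index ∣ q) : commutator P = ⊥ := by
  have hΦ : commutator P ≤ frattini P := Helper90.commutator_le_frattini_of_isNilpotent
  rcases (Nat.dvd_prime hq).mp h with h1 | h1
  · have htop : commutator P = ⊤ := Subgroup.index_eq_one.mp h1
    have hb : (⊥ : Subgroup P) = ⊤ :=
      frattini_nongenerating (by rw [bot_sup_eq]; exact top_le_iff.mp (htop ▸ hΦ))
    rw [htop, ← hb]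
  · have hne : commutator P ≠ ⊤ := by
      intro htop; rw [htop, Subgroup.index_top] at h1; exact hq.one_lt.ne h1
    obtain ⟨x, hx⟩ : ∃ x : P, x ∉ commutator P := by
      by_contra hcon; push Not at hcon
      exact hne (eq_top_iff.mpr fun y _ => hcon y)
    have hsup : Subgroup.zpowers x ⊔ commutator P = ⊤ := by
      by_contra hne2
      have hle : commutator P ≤ Subgroup.zpowers x ⊔ commutator P := le_sup_right
      have hmul := Subgroup.relIndex_mul_index hle
      rw [h1] at hmul
      rcases (Nat.dvd_prime hq).mp (Dvd.intro_left _ hmul) with hK | hK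
      · exact hne2 (Subgroup.index_eq_one.mp hK)
      · rw [hK] at hmul
        have hrel : (commutator P).relIndex (Subgroup.zpowers x ⊔ commutator P) = 1 := by
          have := hq.pos
          nlinarith
        have hle2 : Subgroup.zpowers x ⊔ commutator P ≤ commutator P :=
          Subgroup.relIndex_eq_one.mp hrel
        exact hx (hle2 (Subgroup.mem_sup_left (Subgroup.mem_zpowers x)))
    have hz : Subgroup.zpowers x = ⊤ :=
      frattini_nongenerating (top_le_iff.mp (hsup ▸ sup_le_sup_left hΦ _))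
    rw [commutator_def, Subgroup.commutator_eq_bot_iff_le_centralizer]
    intro a _
    rw [Subgroup.mem_centralizer_iff]
    intro b _
    obtain ⟨m, rfl⟩ := Subgroup.mem_zpowers_iff.mp (hz ▸ Subgroup.mem_top a)
    obtain ⟨n, rfl⟩ := Subgroup.mem_zpowers_iff.mp (hz ▸ Subgroup.mem_top b)
    exact ((Commute.refl x).zpow_zpow n m).eq

/-- Part (b), first half. -/
theorem part_b1 [Finite G] (hnil : Group.IsNilpotent ↥(commutator G))
    (hq : (commutator G).index.Prime) :
    (Nat.card ↥(commutator G)).Coprime (commutator G).index := by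
  obtain ⟨q, hqdef⟩ : ∃ q, q = (commutator G).index := ⟨_, rfl⟩
  rw [← hqdef] at hq ⊢
  haveI : Fact q.Prime := ⟨hq⟩
  by_contra hcon
  have hdvd : q ∣ Nat.card ↥(commutator G) := by
    by_contra h
    exact hcon ((Nat.Prime.coprime_iff_not_dvd hq).mpr h).symm
  haveI hDn : (Cfsg.pResidual q G).Normal := Helper2.pResidual_normal q
  have hPG : IsPGroup q (G ⧸ Cfsg.pResidual q G) :=
    Helper2.isPGroup_quotient_of_pResidual_le q _ le_rfl
  haveI : Group.IsNilpotent (G ⧸ Cfsg.pResidual q G) := hPG.isNilpotent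
  have hmap : (commutator G).map (QuotientGroup.mk' (Cfsg.pResidual q G)) =
      commutator (G ⧸ Cfsg.pResidual q G) := by
    rw [commutator_def, commutator_def, Subgroup.map_commutator, ← MonoidHom.range_eq_map,
      (MonoidHom.range_eq_top).mpr (QuotientGroup.mk'_surjective _)]
  have hcomm : commutator (G ⧸ Cfsg.pResidual q G) = ⊥ := by
    apply comm_eq_bot_of_nilpotent_of_index hq
    rw [← hmap]
    have hd := Subgroup.index_map_dvd (commutator G) (QuotientGroup.mk'_surjective (Cfsg.pResidual q G))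
    rw [← hqdef] at hd
    exact hd
  have hCD : commutator G ≤ Cfsg.pResidual q G := by
    intro c hc
    have h1 : (QuotientGroup.mk' (Cfsg.pResidual q G) c) ∈ commutator (G ⧸ Cfsg.pResidual q G) := by
      rw [← hmap]; exact Subgroup.mem_map_of_mem _ hc
    rw [hcomm, Subgroup.mem_bot] at h1
    exact (QuotientGroup.eq_one_iff c).mp h1
  -- the `q'`-elements of `G` lie in the commutator subgroup
  have hqC : ∀ g : G, Nat.Coprime (orderOf g) q → g ∈ commutator G := by
    intro g hg
    have h1 : orderOf (QuotientGroup.mk' (commutator G) g) ∣ orderOf g := orderOf_map_dvd _ g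
    have h2 : orderOf (QuotientGroup.mk' (commutator G) g) ∣ q := by
      rw [hqdef, Subgroup.index_eq_card]
      exact orderOf_dvd_natCard _
    have h3 : orderOf (QuotientGroup.mk' (commutator G) g) = 1 :=
      Nat.eq_one_of_dvd_coprimes hg h1 h2
    exact (QuotientGroup.eq_one_iff g).mp (orderOf_eq_one_iff.mp h3)
  -- the commutator subgroup is generated by its `q'`-elements
  have hgen : Subgroup.closure {x : ↥(commutator G) | Nat.Coprime (orderOf x) q} = ⊤ := by
    rw [eq_top_iff]
    intro y _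
    have h1 : Cfsg.pResidual q G ≤
        (Subgroup.closure {x : ↥(commutator G) | Nat.Coprime (orderOf x) q}).map
          (commutator G).subtype := by
      unfold Cfsg.pResidual
      rw [Subgroup.closure_le]
      intro g hg
      refine ⟨⟨g, hqC g hg⟩, Subgroup.subset_closure ?_, rfl⟩
      show Nat.Coprime (orderOf (⟨g, hqC g hg⟩ : ↥(commutator G))) q
      rw [Subgroup.orderOf_mk]; exact hg
    obtain ⟨y', hy', hyy⟩ := h1 (hCD y.2)
    have : y' = y := Subtype.ext hyy
    rw [← this]; exact hy'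
  obtain ⟨Q⟩ : Nonempty (Sylow q ↥(commutator G)) := inferInstance
  have hQne := Q.ne_bot_of_dvd_card hdvd
  haveI := hnil
  -- `Q` is central
  have hcent : Subgroup.centralizer ((Q : Subgroup ↥(commutator G)) : Set ↥(commutator G)) = ⊤ := by
    rw [eq_top_iff, ← hgen, Subgroup.closure_le]
    intro x hx
    rw [SetLike.mem_coe, Subgroup.mem_centralizer_iff]
    intro y hy
    obtain ⟨k, hk⟩ := Q.isPGroup' ⟨y, hy⟩
    have hyk : y ^ q ^ k = 1 := by
      have := congrArg Subtype.val hk
      simpa using this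
    have hcop : Nat.Coprime (orderOf y) (orderOf x) := by
      have h1 : orderOf y ∣ q ^ k := orderOf_dvd_of_pow_eq_one hyk
      have hx' : Nat.Coprime (orderOf x) q := hx
      exact Nat.Coprime.coprime_dvd_left h1 (Nat.Coprime.pow_left k hx'.symm)
    exact Helper73.commute_of_coprime_orderOf y x hcop
  have hP : Subgroup.normalizer ((Q : Subgroup ↥(commutator G)) : Set ↥(commutator G)) ≤
      Subgroup.centralizer ((Q : Subgroup ↥(commutator G)) : Set ↥(commutator G)) := by
    rw [hcent]; exact le_top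
  have hker : (MonoidHom.transferSylow Q hP).ker = ⊤ := by
    rw [eq_top_iff, ← hgen, Subgroup.closure_le]
    intro x hx
    rw [SetLike.mem_coe, MonoidHom.mem_ker]
    obtain ⟨k, hk⟩ := Q.isPGroup' (MonoidHom.transferSylow Q hP x)
    have h1 : orderOf (MonoidHom.transferSylow Q hP x) ∣ q ^ k := orderOf_dvd_of_pow_eq_one hk
    have h2 : orderOf (MonoidHom.transferSylow Q hP x) ∣ orderOf x := orderOf_map_dvd _ x
    have hx' : Nat.Coprime (orderOf x) q := hx
    have h3 : orderOf (MonoidHom.transferSylow Q hP x) = 1 :=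
      Nat.eq_one_of_dvd_coprimes (Nat.Coprime.pow_right k hx') h2 h1
    exact orderOf_eq_one_iff.mp h3
  have hcompl := MonoidHom.ker_transferSylow_isComplement' Q hP
  have hdisj := (Subgroup.IsComplement'.disjoint hcompl).eq_bot
  rw [hker, top_inf_eq] at hdisj
  exact hQne hdisj

end Aux

/-- Let G be a finite solvable group. (a) If H is a normal subgroup of order coprime to its index, K is a complement to H, and H ≤ G', then H = [H, K] and H ∩ C_G(K) ≤ [H, H]. (b) If G' is nilpotent and has prime index in G, then the order of G' is coprime to its index and G' = [G, K] (the subgroup generated by commutators of elements of G with elements of K) for every complement K of G'. -/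
theorem result {G : Type*} [Group G] [Finite G] [Group.IsSolvable G] :
    (∀ (H K : Subgroup G), H.Normal → (Nat.card H).Coprime H.index → Subgroup.IsComplement' H K → H ≤ commutator G →
        H = ⁅H, K⁆ ∧ H ⊓ Subgroup.centralizer (K : Set G) ≤ ⁅H, H⁆) ∧
      (Group.IsNilpotent ↥(commutator G) → (commutator G).index.Prime →
        (Nat.card ↥(commutator G)).Coprime (commutator G).index ∧
        ∀ K : Subgroup G, Subgroup.IsComplement' (commutator G) K → commutator G = ⁅(⊤ : Subgroup G), K⁆) := by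
  refine ⟨?_, ?_⟩
  · intro H K hH hcop hc hHG
    haveI := hH
    have h1 : H = ⁅H, K⁆ := part_a1 H K hc hHG
    refine ⟨h1, ?_⟩
    apply part_a2 H K _ h1
    rw [← Subgroup.IsComplement'.index_eq_card (Subgroup.IsComplement'.symm hc)]
    exact hcop
  · intro hnil hq
    refine ⟨part_b1 hnil hq, ?_⟩
    intro K hc
    have h1 : commutator G = ⁅commutator G, K⁆ := part_a1 (commutator G) K hc le_rfl
    apply le_antisymm
    · rw [h1]
      exact Subgroup.commutator_mono (h1 ▸ le_top) le_rfl
    · rw [commutator_def]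
      exact Subgroup.commutator_mono le_rfl le_top

end Cfsg.Agent.S1459
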