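import Mathlib
import Cfsg.Agent.Lib.Helper1.SZInternal
import Cfsg.Statements.S1460

namespace Cfsg.Agent.S1460

open Pointwise in
open Cfsg.Agent.Lib.Helper1 in
/-- Part (c): if `g H g⁻¹ ≤ U` then `g = u * c` with `u ∈ U` and `c ∈ C_K(H)`. -/
theorem part_c {G : Type*} [Group G] [Finite G] [Group.IsSolvable G] (K U H : Subgroup G)
    [K.Normal] (hKU : K ⊔ U = ⊤) (hH : H ≤ U) (hcop : (Nat.card H).Coprime (Nat.card K))
    (g : G) (hg : H.map (MulAut.conj g).toMonoidHom ≤ U) :
    ∃ u ∈ U, ∃ c ∈ K ⊓ Subgroup.centralizer (H : Set G), g = u * c := by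
  -- write g = u * k
  have hgmem : g ∈ ((K ⊔ U : Subgroup G) : Set G) := by rw [hKU]; trivial
  rw [Subgroup.normal_mul] at hgmem
  obtain ⟨k₀, hk₀, u, hu, hgk⟩ := hgmem
  have hgk' : g = k₀ * u := hgk.symm
  subst hgk'
  set k : G := u⁻¹ * k₀ * u with hk
  have hkK : k ∈ K := by
    have := Subgroup.Normal.conj_mem (inferInstance : K.Normal) k₀ hk₀ u⁻¹
    simpa [hk] using this
  have hg' : k₀ * u = u * k := by rw [hk]; group
  rw [hg'] at hg ⊢
  have hkH : ∀ h ∈ H, k * h * k⁻¹ ∈ U := by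
    intro h hh
    have h1 : (u * k) * h * (u * k)⁻¹ ∈ U := hg ⟨h, hh, rfl⟩
    have h2 : k * h * k⁻¹ = u⁻¹ * ((u * k) * h * (u * k)⁻¹) * u := by group
    rw [h2]
    exact U.mul_mem (U.mul_mem (U.inv_mem hu) h1) hu
  have hHN : H ≤ Subgroup.normalizer ((K ⊓ U : Subgroup G) : Set G) := by
    rw [Subgroup.le_normalizer_iff]
    intro h hh x hx
    exact ⟨Subgroup.Normal.conj_mem inferInstance x hx.1 h,
      U.mul_mem (U.mul_mem (hH hh) hx.2) (U.inv_mem (hH hh))⟩
  have hcopN : (Nat.card H).Coprime (Nat.card (K ⊓ U : Subgroup G)) :=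
    hcop.coprime_dvd_right (Subgroup.card_dvd_of_le inf_le_left)
  have hA₁ : MulAut.conj k • H ≤ (K ⊓ U) ⊔ H := by
    intro x hx
    rw [mem_conj_smul] at hx
    have hxe : x = (k * (k⁻¹ * x * k) * k⁻¹ * (k⁻¹ * x * k)⁻¹) * (k⁻¹ * x * k) := by group
    rw [hxe]
    refine Subgroup.mul_mem_sup ⟨?_, ?_⟩ hx
    · have h1 : (k⁻¹ * x * k) * k⁻¹ * (k⁻¹ * x * k)⁻¹ ∈ K :=
        Subgroup.Normal.conj_mem inferInstance _ (K.inv_mem hkK) _
      have h2 : k * (k⁻¹ * x * k) * k⁻¹ * (k⁻¹ * x * k)⁻¹ =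
          k * ((k⁻¹ * x * k) * k⁻¹ * (k⁻¹ * x * k)⁻¹) := by group
      rw [h2]
      exact K.mul_mem hkK h1
    · exact U.mul_mem (hkH _ hx) (U.inv_mem (hH hx))
  obtain ⟨n, hn, hconj⟩ := sz_conj_internal (K ⊓ U) H (MulAut.conj k • H) hHN hcopN
    (Or.inl inferInstance) hA₁ (card_conj_smul H k)
  have hcK : n * k ∈ K := K.mul_mem hn.1 hkK
  have hcH : ∀ h ∈ H, (n * k) * h * (n * k)⁻¹ ∈ H := by
    intro h hh
    rw [← hconj, mem_conj_smul, mem_conj_smul]
    have : k⁻¹ * (n⁻¹ * (n * k * h * (n * k)⁻¹) * n) * k = h := by group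
    rw [this]; exact hh
  refine ⟨u * n⁻¹, U.mul_mem hu (U.inv_mem hn.2), n * k, Subgroup.mem_inf.mpr ⟨hcK, ?_⟩,
    by group⟩
  rw [Subgroup.mem_centralizer_iff]
  intro h hh
  have h1 : (n * k) * h * (n * k)⁻¹ * h⁻¹ ∈ H := H.mul_mem (hcH h hh) (H.inv_mem hh)
  have h2 : (n * k) * h * (n * k)⁻¹ * h⁻¹ ∈ K := by
    have h3 : h * (n * k)⁻¹ * h⁻¹ ∈ K :=
      Subgroup.Normal.conj_mem inferInstance _ (K.inv_mem hcK) h
    have h4 : (n * k) * h * (n * k)⁻¹ * h⁻¹ = (n * k) * (h * (n * k)⁻¹ * h⁻¹) := by group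
    rw [h4]
    exact K.mul_mem hcK h3
  have h5 : (n * k) * h * (n * k)⁻¹ * h⁻¹ = 1 := eq_one_of_mem_of_coprime hcop h1 h2
  have h6 : h * (n * k) = ((n * k) * h * (n * k)⁻¹ * h⁻¹)⁻¹ * ((n * k) * h) := by group
  rw [h6, h5]; group

theorem result {G : Type*} [Group G] [Finite G] [Group.IsSolvable G] (K U H : Subgroup G) [K.Normal] (hKU : K ⊔ U = ⊤) (hH : H ≤ U) (hcop : (Nat.card H).Coprime (Nat.card K)) :
    H ⊓ commutator G = H ⊓ ⁅U, U⁆ ∧
      Subgroup.normalizer (H : Set G) = (K ⊓ Subgroup.centralizer (H : Set G)) ⊔ (U ⊓ Subgroup.normalizer (H : Set G)) ∧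
      ∀ g : G, H.map (MulAut.conj g).toMonoidHom ≤ U → ∃ u ∈ U, ∃ c ∈ K ⊓ Subgroup.centralizer (H : Set G), g = u * c := by
  have hc := part_c K U H hKU hH hcop
  refine ⟨?_, ?_, hc⟩
  · -- part (a)
    apply le_antisymm
    · -- commutator G ≤ K ⊔ ⁅U, U⁆
      have hGle : commutator G ≤ ⁅U, U⁆ ⊔ K := by
        have h1 : (commutator G).map (QuotientGroup.mk' K) =
            (⁅U, U⁆).map (QuotientGroup.mk' K) := by
          rw [commutator_def, Subgroup.map_commutator, Subgroup.map_commutator, ← hKU,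
            Subgroup.map_sup]
          have : K.map (QuotientGroup.mk' K) = ⊥ := by
            rw [Subgroup.map_eq_bot_iff, QuotientGroup.ker_mk']
          rw [this, bot_sup_eq]
        have h2 : commutator G ≤ ((commutator G).map (QuotientGroup.mk' K)).comap
            (QuotientGroup.mk' K) := Subgroup.le_comap_map _ _
        rw [h1, Subgroup.comap_map_eq, QuotientGroup.ker_mk'] at h2
        exact h2
      rintro h ⟨hhH, hhG⟩
      refine ⟨hhH, ?_⟩
      have hmem : h ∈ ((⁅U, U⁆ ⊔ K : Subgroup G) : Set G) := hGle hhG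
      rw [Subgroup.mul_normal] at hmem
      obtain ⟨d, hd, k, hk, hdk⟩ := hmem
      have hUU : ⁅U, U⁆ ≤ U := Subgroup.commutator_le_self U
      have hdU : d ∈ U := hUU hd
      have hkU : k ∈ U := by
        have : k = d⁻¹ * h := by rw [← hdk]; group
        rw [this]
        exact U.mul_mem (U.inv_mem hdU) (hH hhH)
      -- pass to the abelianization of U
      have hd' : (⟨d, hdU⟩ : U) ∈ commutator U := by
        have : d ∈ (commutator U).map U.subtype := by
          rw [Subgroup.map_subtype_commutator]; exact hd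
        obtain ⟨d', hd', hde⟩ := this
        have : d' = ⟨d, hdU⟩ := Subtype.ext hde
        rw [← this]; exact hd'
      have e1 : (Abelianization.of (⟨d, hdU⟩ : U)) = 1 := by
        rw [← MonoidHom.mem_ker, Abelianization.ker_of]; exact hd'
      have e2 : Abelianization.of (⟨h, hH hhH⟩ : U) = Abelianization.of (⟨k, hkU⟩ : U) := by
        have : (⟨h, hH hhH⟩ : U) = ⟨d, hdU⟩ * ⟨k, hkU⟩ := Subtype.ext hdk.symm
        rw [this, map_mul, e1, one_mul]
      have e3 : (Abelianization.of (⟨h, hH hhH⟩ : U)) ^ Nat.card H = 1 := by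
        rw [← map_pow]
        have : (⟨h, hH hhH⟩ : U) ^ Nat.card H = 1 := by
          apply Subtype.ext
          have h7 : ((⟨h, hhH⟩ : H) ^ Nat.card H : H) = 1 := pow_card_eq_one'
          have h8 := congrArg Subtype.val h7
          rw [Subgroup.coe_pow, Subgroup.coe_one] at h8
          rw [Subgroup.coe_pow, Subgroup.coe_one]
          exact h8
        rw [this, map_one]
      have e4 : (Abelianization.of (⟨h, hH hhH⟩ : U)) ^ Nat.card K = 1 := by
        rw [e2, ← map_pow]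
        have : (⟨k, hkU⟩ : U) ^ Nat.card K = 1 := by
          apply Subtype.ext
          have h7 : ((⟨k, hk⟩ : K) ^ Nat.card K : K) = 1 := pow_card_eq_one'
          have h8 := congrArg Subtype.val h7
          rw [Subgroup.coe_pow, Subgroup.coe_one] at h8
          rw [Subgroup.coe_pow, Subgroup.coe_one]
          exact h8
        rw [this, map_one]
      have e5 : Abelianization.of (⟨h, hH hhH⟩ : U) = 1 := by
        have h1 := orderOf_dvd_of_pow_eq_one e3
        have h2 := orderOf_dvd_of_pow_eq_one e4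
        have h3 : orderOf (Abelianization.of (⟨h, hH hhH⟩ : U)) = 1 :=
          Nat.eq_one_of_dvd_coprimes hcop h1 h2
        exact orderOf_eq_one_iff.mp h3
      have e6 : (⟨h, hH hhH⟩ : U) ∈ commutator U := by
        rw [← Abelianization.ker_of, MonoidHom.mem_ker]; exact e5
      rw [← Subgroup.map_subtype_commutator]
      exact ⟨_, e6, rfl⟩
    · refine inf_le_inf_left _ ?_
      rw [commutator_def]
      exact Subgroup.commutator_mono le_top le_top
  · -- part (b)
    apply le_antisymm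
    · intro g hg
      have hgU : H.map (MulAut.conj g).toMonoidHom ≤ U := by
        rintro _ ⟨h, hh, rfl⟩
        exact hH ((Subgroup.mem_normalizer_iff.mp hg h).1 hh)
      obtain ⟨u, hu, c, hcm, rfl⟩ := hc g hgU
      have hcN : c ∈ Subgroup.normalizer (H : Set G) :=
        Subgroup.centralizer_le_normalizer _ hcm.2
      have huN : u ∈ Subgroup.normalizer (H : Set G) := by
        have : u = (u * c) * c⁻¹ := by group
        rw [this]
        exact Subgroup.mul_mem _ hg (Subgroup.inv_mem _ hcN)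
      exact Subgroup.mul_mem _ (Subgroup.mem_sup_right ⟨hu, huN⟩) (Subgroup.mem_sup_left hcm)
    · exact sup_le (inf_le_right.trans (Subgroup.centralizer_le_normalizer _)) inf_le_right

end Cfsg.Agent.S1460
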