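import Cfsg.Statements.S1462
import Cfsg.Agent.Lib.Helper23.TransHyp
import Cfsg.Agent.Lib.Helper23.PGroupEA

set_option autoImplicit false
open Cfsg

namespace Cfsg.Agent.S1462

/-- Let G be a finite solvable group, p an odd prime with G = O_{p',p,p'}(G), E an elementary abelian p-subgroup contained in no larger elementary abelian p-subgroup of G, and L a subgroup of order coprime to p normalized by E. Then L ≤ O_{p'}(G). -/
theorem result {G : Type*} [Group G] [Finite G] [Group.IsSolvable G] (p : ℕ) [Fact p.Prime] (hp : p ≠ 2) (hpl : Cfsg.PLengthLE p 1 G) (E L : Subgroup G) (hE : Cfsg.IsElementaryAbelian p E)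
    (hEmax : ∀ B : Subgroup G, Cfsg.IsElementaryAbelian p B → E ≤ B → B = E) (hL : (Nat.card L).Coprime p) (hEL : E ≤ Subgroup.normalizer (L : Set G)) :
    L ≤ Cfsg.pPrimeCore p G := by
  have hEp : IsPGroup p E := by
    intro x
    refine ⟨1, Subtype.ext ?_⟩
    rw [pow_one]
    exact hE.2 x x.2
  apply Cfsg.Agent.Lib.Helper23.le_pPrimeCore_of_full_omega hp
    (Cfsg.Agent.Lib.Helper23.isPConstrained_of_isSolvable p) E L hEp _ hL hEL
  intro x hx hxo
  have hxp : x ^ p = 1 := by rw [← hxo]; exact pow_orderOf_eq_one x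
  have h1 : Cfsg.IsElementaryAbelian p (E ⊔ Subgroup.zpowers x) := by
    apply Cfsg.Agent.Lib.Helper23.isEA_sup hE (Cfsg.Agent.Lib.Helper23.isEA_zpowers hxp)
    intro a ha b hb
    obtain ⟨m, rfl⟩ := Subgroup.mem_zpowers_iff.mp hb
    rw [Subgroup.mem_centralizer_iff] at hx
    have hc : Commute a x := hx a ha
    exact hc.zpow_right m
  have h2 := hEmax _ h1 le_sup_left
  rw [← h2]
  exact Subgroup.mem_sup_right (Subgroup.mem_zpowers x)

end Cfsg.Agent.S1462
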