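import Cfsg.Statements.S1463
import Cfsg.Agent.Lib.Helper41.SL2OddOrder

set_option autoImplicit false
open Cfsg

namespace Cfsg.Agent.S1463

open Cfsg.Agent.Lib.Helper41 Matrix

/-- the kernel of a nonzero two by two matrix is at most a line -/
theorem ker_span {F : Type*} [Field F] {N : Matrix (Fin 2) (Fin 2) F} (hN : N ≠ 0)
    {v w : Fin 2 → F} (hv : v ≠ 0) (hNv : N.mulVec v = 0) (hNw : N.mulVec w = 0) :
    w ∈ Submodule.span F {v} := by
  have h0 := congrFun hNv 0
  have h1 := congrFun hNv 1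
  have h0' := congrFun hNw 0
  have h1' := congrFun hNw 1
  simp only [Matrix.mulVec, dotProduct, Fin.sum_univ_two, Pi.zero_apply] at h0 h1 h0' h1'
  have hdet : v 0 * w 1 - v 1 * w 0 = 0 := by
    by_contra hne
    apply hN
    ext i j
    fin_cases i <;> fin_cases j <;> simp only [Fin.zero_eta, Fin.mk_one, Matrix.zero_apply]
    · have : N 0 0 * (v 0 * w 1 - v 1 * w 0) = 0 := by linear_combination w 1 * h0 - v 1 * h0'
      exact (mul_eq_zero.mp this).resolve_right hne
    · have : N 0 1 * (v 0 * w 1 - v 1 * w 0) = 0 := by linear_combination -w 0 * h0 + v 0 * h0'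
      exact (mul_eq_zero.mp this).resolve_right hne
    · have : N 1 0 * (v 0 * w 1 - v 1 * w 0) = 0 := by linear_combination w 1 * h1 - v 1 * h1'
      exact (mul_eq_zero.mp this).resolve_right hne
    · have : N 1 1 * (v 0 * w 1 - v 1 * w 0) = 0 := by linear_combination -w 0 * h1 + v 0 * h1'
      exact (mul_eq_zero.mp this).resolve_right hne
  rw [Submodule.mem_span_singleton]
  by_cases hv0 : v 0 = 0
  · have hv1 : v 1 ≠ 0 := by
      intro h
      apply hv
      ext i
      fin_cases i <;> simp [hv0, h]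
    have hw0 : w 0 = 0 := by
      rw [hv0] at hdet
      have : v 1 * w 0 = 0 := by linear_combination -hdet
      exact (mul_eq_zero.mp this).resolve_left hv1
    refine ⟨w 1 / v 1, ?_⟩
    ext i
    fin_cases i
    · simp [hv0, hw0]
    · simp
      field_simp
  · refine ⟨w 0 / v 0, ?_⟩
    ext i
    fin_cases i
    · simp
      field_simp
    · simp
      field_simp
      linear_combination -hdet

/-- unipotent elements of `SL₂`: `(s - 1)² = 0` -/
theorem unipotent_sq {F : Type*} [Field F] (s : Matrix.SpecialLinearGroup (Fin 2) F)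
    (ht : s.1.trace = 2) : (s.1 - 1) * (s.1 - 1) = 0 := by
  have hc := cayley2_det_one s.det_coe
  rw [Matrix.sub_mul, Matrix.mul_sub, Matrix.mul_sub, hc, ht]
  simp only [Matrix.one_mul, Matrix.mul_one]
  rw [two_smul]
  abel

theorem unipotent_det {F : Type*} [Field F] (s : Matrix.SpecialLinearGroup (Fin 2) F)
    (ht : s.1.trace = 2) : (s.1 - 1).det = 0 := by
  have h := congrArg Matrix.det (unipotent_sq s ht)
  rw [Matrix.det_mul, Matrix.det_zero] at h
  exact mul_self_eq_zero.mp h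

/-- an element of `GL₂` of order dividing `p` lifts to a trace two element of `SL₂` -/
theorem lift_unipotent {F : Type*} [Field F] (p : ℕ) [Fact p.Prime] [CharP F p]
    (w : GL (Fin 2) F) (hw : w ^ p = 1) :
    ∃ s : Matrix.SpecialLinearGroup (Fin 2) F, Matrix.SpecialLinearGroup.toGL s = w ∧
      s.1.trace = 2 := by
  have hW : (w : Matrix (Fin 2) (Fin 2) F) ^ p = 1 := by
    rw [← Units.val_pow_eq_pow_val, hw, Units.val_one]
  have htr : (w : Matrix (Fin 2) (Fin 2) F).trace = 2 :=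
    trace_of_pow_char_pow p (k := 1) (by rwa [pow_one])
  have hdet : (w : Matrix (Fin 2) (Fin 2) F).det = 1 := by
    have h1 : (w : Matrix (Fin 2) (Fin 2) F).det ^ p = 1 := by
      rw [← Matrix.det_pow, hW, Matrix.det_one]
    have h3 : ((w : Matrix (Fin 2) (Fin 2) F).det - 1) ^ p = 0 := by
      rw [sub_pow_char, h1, one_pow, sub_self]
    have h4 := pow_eq_zero_iff (Fact.out : p.Prime).ne_zero |>.mp h3
    linear_combination h4
  exact ⟨⟨_, hdet⟩, Units.ext rfl, htr⟩

/-- Let F be a field of odd characteristic p and H a finite subgroup of odd order of GL(2, F) that leaves no 1-dimensional subspace of F² invariant. Then p does not divide the order of H. -/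
theorem result {F : Type*} [Field F] (p : ℕ) [Fact p.Prime] [CharP F p] (hp : p ≠ 2)
    (H : Subgroup (GL (Fin 2) F)) [Finite H] (hodd : Odd (Nat.card H))
    (hirr : ∀ v : Fin 2 → F, v ≠ 0 → ∃ g ∈ H, (g : Matrix (Fin 2) (Fin 2) F).mulVec v ∉ Submodule.span F {v}) :
    ¬ p ∣ Nat.card H := by
  intro hdiv
  have hpp : p.Prime := Fact.out
  obtain ⟨u₀, hu₀⟩ := exists_prime_orderOf_dvd_card' p hdiv
  obtain ⟨u, hu⟩ : ∃ u : GL (Fin 2) F, u = (u₀ : GL (Fin 2) F) := ⟨_, rfl⟩
  have huH : u ∈ H := by rw [hu]; exact u₀.2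
  have hup : u ^ p = 1 := by
    have h1 : u₀ ^ p = 1 := by
      rw [← hu₀]
      exact pow_orderOf_eq_one u₀
    rw [hu, ← Subgroup.coe_pow, h1, Subgroup.coe_one]
  have hu1 : u ≠ 1 := by
    intro h
    have h1 : u₀ = 1 := Subtype.ext (by rw [← hu, h]; rfl)
    rw [h1, orderOf_one] at hu₀
    exact hpp.one_lt.ne hu₀
  obtain ⟨G, hG⟩ : ∃ G : Subgroup (Matrix.SpecialLinearGroup (Fin 2) F),
      G = H.comap Matrix.SpecialLinearGroup.toGL := ⟨_, rfl⟩
  have hmemG : ∀ s : Matrix.SpecialLinearGroup (Fin 2) F,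
      s ∈ G ↔ Matrix.SpecialLinearGroup.toGL s ∈ H := by
    intro s
    rw [hG, Subgroup.mem_comap]
  have hfinG : Finite G := by
    apply Finite.of_injective (fun g : G => (⟨Matrix.SpecialLinearGroup.toGL g.1,
      (hmemG g.1).mp g.2⟩ : H))
    intro a b hab
    have h1 := congrArg Subtype.val hab
    exact Subtype.ext (Matrix.SpecialLinearGroup.toGL_injective h1)
  have hdvdG : Nat.card G ∣ Nat.card H := by
    rw [hG]
    exact Subgroup.card_comap_dvd_of_injective H _ Matrix.SpecialLinearGroup.toGL_injective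
  have hoddG : Odd (Nat.card G) := Odd.of_dvd_nat hodd hdvdG
  obtain ⟨s₁, hs₁, ht₁⟩ := lift_unipotent p u hup
  have hS₁ : s₁.1 = (u : Matrix (Fin 2) (Fin 2) F) := by rw [← hs₁]; rfl
  obtain ⟨v, hv, hNv⟩ := Matrix.exists_mulVec_eq_zero_iff.mpr (unipotent_det s₁ ht₁)
  obtain ⟨g, hgH, hgv⟩ := hirr v hv
  have hu₂p : (g * u * g⁻¹) ^ p = 1 := by
    rw [conj_pow, hup, mul_one, mul_inv_cancel]
  obtain ⟨s₂, hs₂, ht₂⟩ := lift_unipotent p (g * u * g⁻¹) hu₂p
  have hS₂ : s₂.1 * (g : Matrix (Fin 2) (Fin 2) F) = (g : Matrix (Fin 2) (Fin 2) F) * s₁.1 := by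
    have e1 : s₂.1 = ((g * u * g⁻¹ : GL (Fin 2) F) : Matrix (Fin 2) (Fin 2) F) := by
      rw [← hs₂]; rfl
    rw [e1, hS₁, ← Units.val_mul, ← Units.val_mul]
    congr 1
    group
  have hs₁G : s₁ ∈ G := by rw [hmemG, hs₁]; exact huH
  have hs₂G : s₂ ∈ G := by
    rw [hmemG, hs₂]
    exact H.mul_mem (H.mul_mem hgH huH) (H.inv_mem hgH)
  have hcomm := odd_order_unipotent_commute p hp (Nat.card G) G rfl hfinG hoddG s₁ hs₁G s₂ hs₂G
    ht₁ ht₂
  have hcomm' : s₁.1 * s₂.1 = s₂.1 * s₁.1 := by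
    rw [← Matrix.SpecialLinearGroup.coe_mul, hcomm, Matrix.SpecialLinearGroup.coe_mul]
  -- s₂ fixes w = g v
  have hw : (s₂.1 - 1).mulVec ((g : Matrix (Fin 2) (Fin 2) F).mulVec v) = 0 := by
    have e : (s₂.1 - 1) * (g : Matrix (Fin 2) (Fin 2) F) =
        (g : Matrix (Fin 2) (Fin 2) F) * (s₁.1 - 1) := by
      rw [Matrix.sub_mul, hS₂, Matrix.one_mul, Matrix.mul_sub, Matrix.mul_one]
    rw [Matrix.mulVec_mulVec, e, ← Matrix.mulVec_mulVec, hNv, Matrix.mulVec_zero]
  have hN1 : s₁.1 - 1 ≠ 0 := by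
    intro h
    apply hu1
    apply Units.ext
    rw [← hS₁, Units.val_one]
    exact sub_eq_zero.mp h
  -- N₁ (N₂ v) = 0
  have h12 : (s₁.1 - 1).mulVec ((s₂.1 - 1).mulVec v) = 0 := by
    have e : (s₁.1 - 1) * (s₂.1 - 1) = (s₂.1 - 1) * (s₁.1 - 1) := by
      simp only [Matrix.sub_mul, Matrix.mul_sub, Matrix.one_mul, Matrix.mul_one, hcomm']
      abel
    rw [Matrix.mulVec_mulVec, e, ← Matrix.mulVec_mulVec, hNv, Matrix.mulVec_zero]
  obtain ⟨c, hc⟩ := Submodule.mem_span_singleton.mp (ker_span hN1 hv hNv h12)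
  -- (s₂ - 1)² = 0 forces c = 0
  have hc0 : c = 0 := by
    have h1 : ((s₂.1 - 1) * (s₂.1 - 1)).mulVec v = 0 := by
      rw [unipotent_sq s₂ ht₂, Matrix.zero_mulVec]
    rw [← Matrix.mulVec_mulVec, ← hc, Matrix.mulVec_smul, ← hc, smul_smul] at h1
    rcases smul_eq_zero.mp h1 with h | h
    · exact mul_self_eq_zero.mp h
    · exact absurd h hv
  rw [hc0, zero_smul] at hc
  have hN2 : s₂.1 - 1 = 0 := by
    by_contra hne
    exact hgv (ker_span hne hv hc.symm hw)
  apply hu1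
  have h1 : g * u * g⁻¹ = 1 := by
    apply Units.ext
    have e1 : s₂.1 = ((g * u * g⁻¹ : GL (Fin 2) F) : Matrix (Fin 2) (Fin 2) F) := by
      rw [← hs₂]; rfl
    rw [← e1, Units.val_one]
    exact sub_eq_zero.mp hN2
  calc u = g⁻¹ * (g * u * g⁻¹) * g := by group
    _ = 1 := by rw [h1]; group

end Cfsg.Agent.S1463
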