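import Mathlib
import Cfsg.Statements.S1464
import Cfsg.Agent.Lib.Helper54.PStableOdd

set_option autoImplicit false
open Cfsg

namespace Cfsg.Agent.S1464

open Cfsg.Agent.Lib.Helper54
open scoped commutatorElement

theorem main {G : Type*} [Group G] [Finite G] (hodd : Odd (Nat.card G)) (p : ℕ) [Fact p.Prime]
    (hp : p ≠ 2) (P A : Subgroup G) (hP : IsPGroup p P)
    (hAN : A ≤ Subgroup.normalizer (P : Set G)) (hquad : ⁅⁅P, A⁆, A⁆ = ⊥) :
    (A.subgroupOf (Subgroup.normalizer (P : Set G))).map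
        (QuotientGroup.mk' ((Subgroup.centralizer (P : Set G)).subgroupOf
          (Subgroup.normalizer (P : Set G))))
      ≤ Cfsg.pCore p _ := by
  rintro _ ⟨a, ha, rfl⟩
  have haA : (a : G) ∈ A := Subgroup.mem_subgroupOf.mp ha
  have hq : Quad P (a : G) := by
    intro x hx
    have h1 : ⁅x, (a : G)⁆ ∈ ⁅P, A⁆ := Subgroup.commutator_mem_commutator hx haA
    have h2 : ⁅⁅x, (a : G)⁆, (a : G)⁆ ∈ ⁅⁅P, A⁆, A⁆ := Subgroup.commutator_mem_commutator h1 haA
    rw [hquad, Subgroup.mem_bot, commutatorElement_eq_one_iff_commute] at h2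
    exact h2.eq.symm
  exact quad_mem_pCore hodd p hp P hP (a : G) a.2 hq

/-- Let p be an odd prime and G a solvable group of odd order, P a p-subgroup with O_{p'}(G)P normal in G, and A a p-subgroup of N_G(P) with [[P, A], A] = 1. Then the image of A in the quotient N_G(P)/C_G(P) is contained in the p-core of that quotient. -/
theorem result {G : Type*} [Group G] [Finite G] [Group.IsSolvable G] (hodd : Odd (Nat.card G)) (p : ℕ) [Fact p.Prime] (hp : p ≠ 2) (P A : Subgroup G) (hP : IsPGroup p P) (hPn : (Cfsg.pPrimeCore p G ⊔ P).Normal)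
    (hA : IsPGroup p A) (hAN : A ≤ Subgroup.normalizer (P : Set G)) (hquad : ⁅⁅P, A⁆, A⁆ = ⊥) :
    (A.subgroupOf (Subgroup.normalizer (P : Set G))).map
        (QuotientGroup.mk' ((Subgroup.centralizer (P : Set G)).subgroupOf (Subgroup.normalizer (P : Set G))))
      ≤ Cfsg.pCore p _ := by
  exact main hodd p hp P A hP hAN hquad

end Cfsg.Agent.S1464
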