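import Mathlib
import Cfsg.Statements.S1465
import Cfsg.Agent.Lib.Helper54.PStableOdd2

set_option autoImplicit false
open Cfsg

namespace Cfsg.Agent.S1465

open Cfsg.Agent.Lib.Helper54

theorem main {G : Type*} [Group G] [Finite G] [Group.IsSolvable G] (hodd : Odd (Nat.card G))
    (p : ℕ) [Fact p.Prime] (hp : p ≠ 2) (P : Subgroup G) [P.Normal] (hP : IsPGroup p P)
    (S : Set (Subgroup G))
    (hS : ∀ B ∈ S, IsMulCommutative B ∧ IsPGroup p B ∧ P ≤ Subgroup.normalizer (B : Set G)) :
    (sSup S).map (QuotientGroup.mk' (Subgroup.centralizer (P : Set G))) ≤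
        Cfsg.pCore p (G ⧸ Subgroup.centralizer (P : Set G)) ∧
      (Cfsg.pPrimeCore p G = ⊥ → Cfsg.pCore p G ⊓ Subgroup.centralizer (P : Set G) ≤ P →
        sSup S ≤ Cfsg.pCore p G) := by
  refine ⟨?_, ?_⟩
  · rw [Subgroup.map_le_iff_le_comap]
    apply sSup_le
    intro B hB b hb
    obtain ⟨hBc, _, hPB⟩ := hS B hB
    exact quad_mk_centralizer_mem_pCore hodd p hp P hP b (quad_of_abelian_normalized hBc hPB hb)
  · intro hO hPC
    have hC := centralizer_le_of_pCore_inf_le p hO P hPC
    apply sSup_le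
    intro B hB b hb
    obtain ⟨hBc, _, hPB⟩ := hS B hB
    exact quad_mem_pCore_of_centralizer_le hodd p hp P hP hC b
      (quad_of_abelian_normalized hBc hPB hb)

/-- Let p be an odd prime, G a solvable group of odd order, P a normal p-subgroup of G, and X the subgroup generated by a family of abelian p-subgroups of G each normalized by P. Then the image of X in G/C_G(P) lies in O_p(G/C_G(P)); and if O_{p'}(G) = 1 and O_p(G) ∩ C_G(P) ≤ P then X ≤ O_p(G). -/
theorem result {G : Type*} [Group G] [Finite G] [Group.IsSolvable G] (hodd : Odd (Nat.card G)) (p : ℕ) [Fact p.Prime] (hp : p ≠ 2) (P : Subgroup G) [P.Normal] (hP : IsPGroup p P)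
    (S : Set (Subgroup G)) (hS : ∀ B ∈ S, IsMulCommutative B ∧ IsPGroup p B ∧ P ≤ Subgroup.normalizer (B : Set G)) :
    (sSup S).map (QuotientGroup.mk' (Subgroup.centralizer (P : Set G))) ≤ Cfsg.pCore p (G ⧸ Subgroup.centralizer (P : Set G)) ∧
      (Cfsg.pPrimeCore p G = ⊥ → Cfsg.pCore p G ⊓ Subgroup.centralizer (P : Set G) ≤ P → sSup S ≤ Cfsg.pCore p G) := by
  exact main hodd p hp P hP S hS

end Cfsg.Agent.S1465
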