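import Mathlib
import Cfsg.Statements.S1466
import Cfsg.Agent.Lib.Helper69.SmallClasses

set_option autoImplicit false
open Cfsg

namespace Cfsg.Agent.S1466

theorem le_puigSeq_of_normal_comm {R : Type*} [Group R] (A : Subgroup R) (hAn : A.Normal)
    (hA : ∀ a ∈ A, ∀ b ∈ A, a * b = b * a) (i : ℕ) (hi : 0 < i) : A ≤ Cfsg.puigSeq R i := by
  obtain ⟨n, rfl⟩ := Nat.exists_eq_succ_of_ne_zero hi.ne'
  show A ≤ Cfsg.puigStep (Cfsg.puigSeq R n)
  unfold Cfsg.puigStep
  apply le_sSup
  refine ⟨⟨⟨fun a b => Subtype.ext (hA a a.2 b b.2)⟩⟩, ?_⟩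
  intro x _
  rw [Subgroup.mem_set_normalizer_iff]
  intro y
  constructor
  · intro hy
    exact hAn.conj_mem y hy x
  · intro hy
    have := hAn.conj_mem _ hy x⁻¹
    simpa [mul_assoc] using this

theorem result {R : Type*} [Group R] [Finite R] (p : ℕ) [Fact p.Prime] (hR : IsPGroup p R) [Nontrivial R] :
    (∀ i : ℕ, 0 < i → Subgroup.center R ≤ Subgroup.centralizer ((Cfsg.puigSeq R i : Subgroup R) : Set R) ∧
        Subgroup.centralizer ((Cfsg.puigSeq R i : Subgroup R) : Set R) ≤ Cfsg.puigSeq R i) ∧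
      (Subgroup.center R ≤ Subgroup.centralizer ((Cfsg.puigLower R : Subgroup R) : Set R) ∧ Subgroup.centralizer ((Cfsg.puigLower R : Subgroup R) : Set R) ≤ Cfsg.puigLower R) ∧
      (Subgroup.center R ≤ Subgroup.centralizer ((Cfsg.puigSubgroup R : Subgroup R) : Set R) ∧ Subgroup.centralizer ((Cfsg.puigSubgroup R : Subgroup R) : Set R) ≤ Cfsg.puigSubgroup R) ∧
      Cfsg.puigSubgroup R ≠ ⊥ ∧ Cfsg.puigLower R ≠ ⊥ := by
  obtain ⟨A, hAn, hAcomm, hAC⟩ := Cfsg.Agent.Lib.Helper69.exists_selfCentralizing hR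
  have hZA : Subgroup.center R ≤ A := by
    rw [← hAC]
    exact Subgroup.center_le_centralizer _
  have hAbot : A ≠ ⊥ := by
    intro h
    have h1 := hR.bot_lt_center
    rw [h] at hZA
    exact absurd (le_antisymm hZA bot_le) h1.ne'
  have key : ∀ K : Subgroup R, A ≤ K →
      Subgroup.center R ≤ Subgroup.centralizer (K : Set R) ∧ Subgroup.centralizer (K : Set R) ≤ K := by
    intro K hK
    refine ⟨Subgroup.center_le_centralizer _, ?_⟩
    have h1 : Subgroup.centralizer (K : Set R) ≤ Subgroup.centralizer (A : Set R) :=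
      Subgroup.centralizer_le hK
    rw [hAC] at h1
    exact h1.trans hK
  have hseq := le_puigSeq_of_normal_comm A hAn hAcomm
  have hLow : A ≤ Cfsg.puigLower R := by
    unfold Cfsg.puigLower
    exact (hseq (2 * 1) (by norm_num)).trans (le_iSup (fun n : ℕ => Cfsg.puigSeq R (2 * n)) 1)
  have hSub : A ≤ Cfsg.puigSubgroup R := by
    unfold Cfsg.puigSubgroup
    exact le_iInf (fun n => hseq (2 * n + 1) (by omega))
  refine ⟨fun i hi => key _ (hseq i hi), key _ hLow, key _ hSub, ?_, ?_⟩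
  · intro h
    rw [h] at hSub
    exact hAbot (le_antisymm hSub bot_le)
  · intro h
    rw [h] at hLow
    exact hAbot (le_antisymm hLow bot_le)

end Cfsg.Agent.S1466
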