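import Mathlib
import Cfsg.Statements.S1468
import Cfsg.Agent.Lib.Helper54.Puig
import Cfsg.Agent.S1466
import Cfsg.Agent.S1467

set_option autoImplicit false
open Cfsg

namespace Cfsg.Agent.S1468

open Cfsg.Agent.Lib.Helper54

/-- The terms `L_k(T)`, `k > 0`, of the Puig series of `T = O_p(G)` contain their centralizers
in `T`. -/
theorem seqIn_pCore_selfCentralizing {G : Type*} [Group G] [Finite G] (p : ℕ) [Fact p.Prime]
    (hne : Cfsg.pCore p G ≠ ⊥) (k : ℕ) (hk : 0 < k) :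
    Cfsg.pCore p G ⊓ Subgroup.centralizer (seqIn (Cfsg.pCore p G) k : Set G) ≤
      seqIn (Cfsg.pCore p G) k := by
  set T : Subgroup G := Cfsg.pCore p G with hT
  haveI : Nontrivial T := (Subgroup.nontrivial_iff_ne_bot T).mpr hne
  have hTp : IsPGroup p T := Cfsg.Agent.Lib.Helper55.pCore_isPGroup p G
  have h1 := ((Cfsg.Agent.S1466.result p hTp).1 k hk).2
  rintro x ⟨hxT, hxC⟩
  have h2 : (⟨x, hxT⟩ : T) ∈ Subgroup.centralizer ((Cfsg.puigSeq T k : Subgroup T) : Set T) := by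
    rw [Subgroup.mem_centralizer_iff]
    intro y hy
    have hy' : (y : G) ∈ seqIn T k := by
      rw [← map_puigSeq]
      exact ⟨y, hy, rfl⟩
    exact Subtype.ext (Subgroup.mem_centralizer_iff.mp hxC _ hy')
  have h3 := h1 h2
  rw [← map_puigSeq]
  exact ⟨⟨x, hxT⟩, h3, rfl⟩

/-- In a solvable group of odd order with `O_{p'}(G) = 1`, an abelian subgroup normalized by
`L_k(O_p(G))`, `k > 0`, lies in `O_p(G)`. -/
theorem le_pCore_of_normalized {G : Type*} [Group G] [Finite G] [Group.IsSolvable G]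
    (hodd : Odd (Nat.card G)) (p : ℕ) [Fact p.Prime] (hp : p ≠ 2)
    (hO : Cfsg.pPrimeCore p G = ⊥) (hne : Cfsg.pCore p G ≠ ⊥) (k : ℕ) (hk : 0 < k)
    (A : Subgroup G) (hA : IsMulCommutative A)
    (hN : seqIn (Cfsg.pCore p G) k ≤ Subgroup.normalizer (A : Set G)) :
    A ≤ Cfsg.pCore p G := by
  haveI := seqIn_normal (Cfsg.pCore p G) k
  have hPp : IsPGroup p (seqIn (Cfsg.pCore p G) k) :=
    (Cfsg.Agent.Lib.Helper55.pCore_isPGroup p G).to_le (seqIn_le _ k)
  have hC := centralizer_le_of_pCore_inf_le p hO (seqIn (Cfsg.pCore p G) k)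
    (seqIn_pCore_selfCentralizing p hne k hk)
  intro a ha
  exact quad_mem_pCore_of_centralizer_le hodd p hp _ hPp hC a (quad_of_abelian_normalized hA hN ha)

theorem chain {G : Type*} [Group G] [Finite G] [Group.IsSolvable G]
    (hodd : Odd (Nat.card G)) (p : ℕ) [Fact p.Prime] (hp : p ≠ 2)
    (hO : Cfsg.pPrimeCore p G = ⊥) (hne : Cfsg.pCore p G ≠ ⊥) (S : Sylow p G) (n : ℕ) :
    seqIn (S : Subgroup G) (2 * n) ≤ seqIn (Cfsg.pCore p G) (2 * n) ∧
      seqIn (Cfsg.pCore p G) (2 * n + 1) ≤ seqIn (S : Subgroup G) (2 * n + 1) := by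
  have hTS : Cfsg.pCore p G ≤ (S : Subgroup G) := Cfsg.Agent.Lib.Helper55.pCore_le_sylow S
  induction n with
  | zero =>
    refine ⟨bot_le, ?_⟩
    show stepIn _ _ ≤ stepIn _ _
    apply sSup_le
    rintro A ⟨hAT, hAc, hXA⟩
    exact le_stepIn (hAT.trans hTS) hAc hXA
  | succ n ih =>
    have h1 : seqIn (S : Subgroup G) (2 * n + 2) ≤ seqIn (Cfsg.pCore p G) (2 * n + 2) := by
      show stepIn _ _ ≤ stepIn _ _
      apply sSup_le
      rintro A ⟨_, hAc, hXA⟩
      have hN : seqIn (Cfsg.pCore p G) (2 * n + 1) ≤ Subgroup.normalizer (A : Set G) :=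
        ih.2.trans hXA
      exact le_stepIn (le_pCore_of_normalized hodd p hp hO hne (2 * n + 1) (Nat.succ_pos _) A
        hAc hN) hAc hN
    refine ⟨h1, ?_⟩
    show stepIn _ _ ≤ stepIn _ _
    apply sSup_le
    rintro A ⟨hAT, hAc, hXA⟩
    exact le_stepIn (hAT.trans hTS) hAc (h1.trans hXA)

theorem main {G : Type*} [Group G] [Finite G] [Group.IsSolvable G] (hodd : Odd (Nat.card G))
    (p : ℕ) [Fact p.Prime] (hp : p ≠ 2) (hO : Cfsg.pPrimeCore p G = ⊥) (S : Sylow p G) :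
    (Cfsg.puigLower ↥(S : Subgroup G)).map (S : Subgroup G).subtype ≤
        (Cfsg.puigLower ↥(Cfsg.pCore p G)).map (Cfsg.pCore p G).subtype ∧
      (Cfsg.puigLower ↥(Cfsg.pCore p G)).map (Cfsg.pCore p G).subtype ≤
        (Cfsg.puigSubgroup ↥(Cfsg.pCore p G)).map (Cfsg.pCore p G).subtype ∧
      (Cfsg.puigSubgroup ↥(Cfsg.pCore p G)).map (Cfsg.pCore p G).subtype ≤
        (Cfsg.puigSubgroup ↥(S : Subgroup G)).map (S : Subgroup G).subtype := by
  by_cases hne : Cfsg.pCore p G = ⊥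
  · -- then `G` is trivial
    have hC := centralizer_le_of_pCore_inf_le p hO (Cfsg.pCore p G) inf_le_left
    have htop : ∀ g : G, g = 1 := by
      intro g
      have : g ∈ Subgroup.centralizer (Cfsg.pCore p G : Set G) := by
        rw [Subgroup.mem_centralizer_iff]
        intro x hx
        rw [hne, SetLike.mem_coe, Subgroup.mem_bot] at hx
        rw [hx, one_mul, mul_one]
      have h2 := hC this
      rw [hne, Subgroup.mem_bot] at h2
      exact h2
    have hle : ∀ X Y : Subgroup G, X ≤ Y := by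
      intro X Y x _
      rw [htop x]
      exact Y.one_mem
    exact ⟨hle _ _, hle _ _, hle _ _⟩
  · refine ⟨?_, ?_, ?_⟩
    · rw [map_puigLower, map_puigLower]
      exact iSup_mono (fun n => (chain hodd p hp hO hne S n).1)
    · exact Subgroup.map_mono (Cfsg.Agent.S1467.result (G := ↥(Cfsg.pCore p G))).2.2.2.2.1
    · rw [map_puigSubgroup, map_puigSubgroup]
      exact iInf_mono (fun n => (chain hodd p hp hO hne S n).2)

/-- Let p be an odd prime, G a solvable group of odd order with O_{p'}(G) = 1, S a Sylow p-subgroup and T = O_p(G). Then, viewing the Puig subgroups of S and of T inside G, L_*(S) ≤ L_*(T) ≤ L(T) ≤ L(S). -/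
theorem result {G : Type*} [Group G] [Finite G] [Group.IsSolvable G] (hodd : Odd (Nat.card G)) (p : ℕ) [Fact p.Prime] (hp : p ≠ 2) (hO : Cfsg.pPrimeCore p G = ⊥) (S : Sylow p G) :
    (Cfsg.puigLower ↥(S : Subgroup G)).map (S : Subgroup G).subtype ≤ (Cfsg.puigLower ↥(Cfsg.pCore p G)).map (Cfsg.pCore p G).subtype ∧
      (Cfsg.puigLower ↥(Cfsg.pCore p G)).map (Cfsg.pCore p G).subtype ≤ (Cfsg.puigSubgroup ↥(Cfsg.pCore p G)).map (Cfsg.pCore p G).subtype ∧
      (Cfsg.puigSubgroup ↥(Cfsg.pCore p G)).map (Cfsg.pCore p G).subtype ≤ (Cfsg.puigSubgroup ↥(S : Subgroup G)).map (S : Subgroup G).subtype := by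
  exact main hodd p hp hO S

end Cfsg.Agent.S1468
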