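import Mathlib
import Cfsg.Statements.S1483
import Cfsg.Agent.Lib.Helper4.CNBasic

set_option autoImplicit false
open Cfsg

namespace Cfsg.Agent.S1483

open Cfsg.Agent.Lib.Helper4.CN

theorem key2 {G : Type*} [Group G] [Finite G] (hCN : Cfsg.IsCNGroup G)
    (p q r : ℕ) (hp : p.Prime) (hq : q.Prime) (hr : r.Prime) (x y y' z : G)
    (hx1 : x ≠ 1) (hy1 : y ≠ 1) (hy'1 : y' ≠ 1) (hz1 : z ≠ 1)
    (hx : IsPGroup p (Subgroup.zpowers x)) (hy : IsPGroup q (Subgroup.zpowers y))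
    (hy' : IsPGroup q (Subgroup.zpowers y')) (hz : IsPGroup r (Subgroup.zpowers z))
    (hxy : x * y = y * x) (hyz : y' * z = z * y') :
    ∃ x' z' : G, x' ≠ 1 ∧ z' ≠ 1 ∧ IsPGroup p (Subgroup.zpowers x') ∧
      IsPGroup r (Subgroup.zpowers z') ∧ x' * z' = z' * x' := by
  haveI : Fact p.Prime := ⟨hp⟩
  haveI : Fact q.Prime := ⟨hq⟩
  haveI : Fact r.Prime := ⟨hr⟩
  by_cases hpr : p = r
  · subst hpr
    exact ⟨x, x, hx1, hx1, hx, hx, rfl⟩
  obtain ⟨H₁, hC₁, hH₁⟩ := exists_maxNilp_ge (hCN y hy1)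
  obtain ⟨H₂, hC₂, hH₂⟩ := exists_maxNilp_ge (hCN y' hy'1)
  have hxH : x ∈ H₁ := hC₁ (Subgroup.mem_centralizer_singleton_iff.2 hxy)
  have hyH : y ∈ H₁ := hC₁ (Subgroup.mem_centralizer_singleton_iff.2 rfl)
  have hy'H : y' ∈ H₂ := hC₂ (Subgroup.mem_centralizer_singleton_iff.2 rfl)
  have hzH : z ∈ H₂ := hC₂ (Subgroup.mem_centralizer_singleton_iff.2 hyz.symm)
  have hqdvd : ∀ (H : Subgroup G) (u : G), u ∈ H → u ≠ 1 → IsPGroup q (Subgroup.zpowers u) →
      q ∣ Nat.card H := by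
    intro H u hu hu1 hup
    obtain ⟨k, hk⟩ := isPGroup_zpowers_iff.1 hup
    have hk0 : k ≠ 0 := by
      rintro rfl
      rw [pow_zero, orderOf_eq_one_iff] at hk
      exact hu1 hk
    have h1 : orderOf u ∣ Nat.card H := by
      have := orderOf_dvd_natCard (⟨u, hu⟩ : H)
      rwa [Subgroup.orderOf_mk] at this
    rw [hk] at h1
    exact (dvd_pow_self q hk0).trans h1
  rcases maxNilp_conj_or_coprime hCN hH₁ hH₂ with ⟨g, hg⟩ | hcop
  · have hxg : g * x * g⁻¹ ∈ H₂ := by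
      rw [hg]
      exact ⟨x, hxH, by simp⟩
    have hord : orderOf (g * x * g⁻¹) = orderOf x := Cfsg.Agent.S1477.orderOf_conj' g x
    obtain ⟨a, ha⟩ := isPGroup_zpowers_iff.1 hx
    obtain ⟨b, hb⟩ := isPGroup_zpowers_iff.1 hz
    refine ⟨g * x * g⁻¹, z, ?_, hz1, ?_, hz, ?_⟩
    · intro h
      apply hx1
      have : x = g⁻¹ * (g * x * g⁻¹) * g := by group
      rw [this, h]; group
    · rw [isPGroup_zpowers_iff]
      exact ⟨a, by rw [hord, ha]⟩
    · apply Cfsg.Agent.S1477.comm_of_coprime hH₂.1 hxg hzH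
      rw [hord, ha, hb]
      exact Nat.Coprime.pow _ _ ((Nat.coprime_primes hp hr).2 hpr)
  · exfalso
    have h1 := hqdvd H₁ y hyH hy1 hy
    have h2 := hqdvd H₂ y' hy'H hy'1 hy'
    exact hq.one_lt.ne' (Nat.eq_one_of_dvd_coprimes hcop h1 h2)

/-- Let G be a minimal simple group of odd order in which every non-identity element has nilpotent centralizer. Then any two nilpotent subgroups each contained in no larger nilpotent subgroup are either conjugate or of coprime orders; and for primes p, q, r: if some elements x, y ≠ 1 of p-power and q-power order commute, and some elements y', z ≠ 1 of q-power and r-power order commute, then some elements of p-power and r-power order, both ≠ 1, commute. -/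
theorem result {G : Type*} [Group G] [Finite G] (hG : Cfsg.IsMinSimpleOddOrder G) (hCN : Cfsg.IsCNGroup G) :
    (∀ H₁ H₂ : Subgroup G, (Group.IsNilpotent ↥H₁ ∧ ∀ L : Subgroup G, Group.IsNilpotent L → H₁ ≤ L → L = H₁) → (Group.IsNilpotent ↥H₂ ∧ ∀ L : Subgroup G, Group.IsNilpotent L → H₂ ≤ L → L = H₂) → (∃ g : G, H₂ = H₁.map (MulAut.conj g).toMonoidHom) ∨ (Nat.card H₁).Coprime (Nat.card H₂)) ∧
      ∀ (p q r : ℕ), p.Prime → q.Prime → r.Prime → ∀ (x y y' z : G), x ≠ 1 → y ≠ 1 → y' ≠ 1 → z ≠ 1 →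
        IsPGroup p (Subgroup.zpowers x) → IsPGroup q (Subgroup.zpowers y) → IsPGroup q (Subgroup.zpowers y') → IsPGroup r (Subgroup.zpowers z) →
        x * y = y * x → y' * z = z * y' →
        ∃ x' z' : G, x' ≠ 1 ∧ z' ≠ 1 ∧ IsPGroup p (Subgroup.zpowers x') ∧ IsPGroup r (Subgroup.zpowers z') ∧ x' * z' = z' * x' := by
  refine ⟨fun H₁ H₂ h₁ h₂ => maxNilp_conj_or_coprime hCN h₁ h₂, ?_⟩
  intro p q r hp hq hr x y y' z hx1 hy1 hy'1 hz1 hx hy hy' hz hxy hyz
  exact key2 hCN p q r hp hq hr x y y' z hx1 hy1 hy'1 hz1 hx hy hy' hz hxy hyz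

end Cfsg.Agent.S1483
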