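import Mathlib
import Cfsg.Statements.S1485
import Cfsg.Agent.Lib.Helper25.IndFun

set_option autoImplicit false
open Cfsg

namespace Cfsg.Agent.S1485

open Cfsg.Agent.Lib.Helper25

/-- Let H be a normal subgroup of the finite group G and θ an irreducible character of H. On H, the function induced from θ equals r times the sum of the distinct G-conjugates of θ, where r is the number of elements of G fixing θ under conjugation divided by the order of H (the index of H in the inertia group). -/
theorem result {G : Type*} [Group G] [Fintype G] (H : Subgroup G) [hN : H.Normal] (θ : H → ℂ) (hθ : Cfsg.IsIrrCharacter H θ) : (fun h : H => Cfsg.indFun H θ h) = ((Nat.card {g : G // ∀ h : H, θ ⟨g * h * g⁻¹, hN.conj_mem h h.2 g⟩ = θ h} : ℂ) / (Nat.card H : ℂ)) • ∑ᶠ ψ ∈ {ψ : H → ℂ | ∃ g : G, ψ = fun h : H => θ ⟨g * h * g⁻¹, hN.conj_mem h h.2 g⟩}, ψ := by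
  classical
  -- the conjugate of θ by g
  set c : G → (H → ℂ) := fun g => fun h : H => θ ⟨g * h * g⁻¹, hN.conj_mem h h.2 g⟩ with hc
  have hcmul : ∀ x y : G, c (x * y) = fun h : H => c x ⟨y * h * y⁻¹, hN.conj_mem h h.2 y⟩ := by
    intro x y
    funext h
    simp only [hc]
    congr 1
    apply Subtype.ext
    simp only [mul_inv_rev]
    group
  have hc1 : c 1 = θ := by
    funext h
    simp only [hc]
    congr 1
    apply Subtype.ext
    simp
  -- the set in the statement is the range of c
  have hset : {ψ : H → ℂ | ∃ g : G, ψ = fun h : H => θ ⟨g * h * g⁻¹, hN.conj_mem h h.2 g⟩} =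
      ((Finset.univ.image c : Finset (H → ℂ)) : Set (H → ℂ)) := by
    ext ψ
    simp only [Set.mem_setOf_eq, Finset.coe_image, Finset.coe_univ, Set.image_univ, Set.mem_range]
    constructor
    · rintro ⟨g, rfl⟩; exact ⟨g, rfl⟩
    · rintro ⟨g, rfl⟩; exact ⟨g, rfl⟩
  rw [hset, finsum_mem_coe_finset]
  -- fibres
  have hfib : ∀ ψ ∈ Finset.univ.image c,
      (Finset.univ.filter (fun a : G => c a = ψ)).card =
        Nat.card {g : G // ∀ h : H, θ ⟨g * h * g⁻¹, hN.conj_mem h h.2 g⟩ = θ h} := by
    intro ψ hψ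
    obtain ⟨g₀, -, rfl⟩ := Finset.mem_image.mp hψ
    rw [← Nat.card_eq_finsetCard]
    apply Nat.card_congr
    refine
      { toFun := fun a => ⟨a.1 * g₀⁻¹, ?_⟩
        invFun := fun t => ⟨t.1 * g₀, ?_⟩
        left_inv := ?_
        right_inv := ?_ }
    · have ha : c a.1 = c g₀ := (Finset.mem_filter.mp a.2).2
      have h1 : c (a.1 * g₀⁻¹) = θ := by
        rw [hcmul, ha]
        funext h
        have := congrFun (hcmul g₀ g₀⁻¹) h
        rw [mul_inv_cancel, hc1] at this
        exact this.symm
      intro h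
      exact congrFun h1 h
    · have ht : c t.1 = θ := funext t.2
      apply Finset.mem_filter.mpr
      refine ⟨Finset.mem_univ _, ?_⟩
      rw [hcmul, ht]
    · intro a
      apply Subtype.ext
      simp
    · intro t
      apply Subtype.ext
      simp
  have hsum : ∑ x : G, c x = (Nat.card {g : G // ∀ h : H, θ ⟨g * h * g⁻¹, hN.conj_mem h h.2 g⟩ = θ h}) •
      ∑ ψ ∈ Finset.univ.image c, ψ := by
    have := Finset.sum_comp (s := (Finset.univ : Finset G)) (fun ψ : H → ℂ => ψ) c
    rw [this, Finset.smul_sum]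
    exact Finset.sum_congr rfl (fun ψ hψ => by rw [hfib ψ hψ])
  funext h
  have hind : Cfsg.indFun H θ h = (Nat.card H : ℂ)⁻¹ * ∑ x : G, c x h := by
    unfold Cfsg.indFun
    congr 1
    refine Fintype.sum_equiv (Equiv.inv G) _ _ (fun x => ?_)
    have hx : x⁻¹ * (h : G) * x ∈ H := by
      have := hN.conj_mem h h.2 x⁻¹
      rwa [inv_inv] at this
    rw [extendByZero_of_mem H θ hx]
    simp only [hc, Equiv.inv_apply]
    congr 1
    apply Subtype.ext
    simp
  rw [hind, ← Finset.sum_apply, hsum]
  simp only [Pi.smul_apply, Finset.sum_apply, nsmul_eq_mul, smul_eq_mul]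
  ring

end Cfsg.Agent.S1485
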