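import Mathlib
import Cfsg.Statements.S1486
import Cfsg.Agent.Lib.Helper25.IrrComp
import Cfsg.Agent.Lib.Helper80.Orthogonality

set_option autoImplicit false
open Cfsg

namespace Cfsg.Agent.S1486

open Cfsg.Agent.Lib.Helper25 Cfsg.Agent.Lib.Helper80

open scoped ComplexConjugate

/-- Let H be a normal subgroup of the finite group G and θ, φ irreducible characters of H. If φ is a G-conjugate of θ then the functions induced from θ and φ coincide; if φ is not a G-conjugate of θ then the induced functions are orthogonal. -/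
theorem result {G : Type*} [Group G] [Fintype G] (H : Subgroup G) [hN : H.Normal] (θ φ : H → ℂ) (hθ : Cfsg.IsIrrCharacter H θ) (hφ : Cfsg.IsIrrCharacter H φ) : ((∃ g : G, φ = fun h : H => θ ⟨g * h * g⁻¹, hN.conj_mem h h.2 g⟩) → Cfsg.indFun H φ = Cfsg.indFun H θ) ∧ ((¬ ∃ g : G, φ = fun h : H => θ ⟨g * h * g⁻¹, hN.conj_mem h h.2 g⟩) → Cfsg.classInner (Cfsg.indFun H φ) (Cfsg.indFun H θ) = 0) := by
  classical
  letI : Fintype H := Fintype.ofFinite H
  set c : G → (H → ℂ) := fun g => fun h : H => θ ⟨g * h * g⁻¹, hN.conj_mem h h.2 g⟩ with hc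
  constructor
  · rintro ⟨g, rfl⟩
    have hext : ∀ z : G, Cfsg.extendByZero H (c g) z = Cfsg.extendByZero H θ (g * z * g⁻¹) := by
      intro z
      by_cases hz : z ∈ H
      · rw [extendByZero_of_mem H _ hz, extendByZero_of_mem H θ (hN.conj_mem z hz g)]
      · have hz' : g * z * g⁻¹ ∉ H := by
          intro h
          apply hz
          have := hN.conj_mem _ h g⁻¹
          simpa [mul_assoc] using this
        rw [extendByZero_of_not_mem H _ hz, extendByZero_of_not_mem H θ hz']
    funext y
    unfold Cfsg.indFun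
    congr 1
    refine Fintype.sum_equiv (Equiv.mulRight g⁻¹) _ _ (fun x => ?_)
    rw [hext]
    congr 1
    simp only [Equiv.coe_mulRight, mul_inv_rev, inv_inv]
    group
  · intro hne
    rw [classInner_indFun_left H φ (Cfsg.indFun H θ) (isClassFunction_indFun H θ),
      sum_extendByZero_mul]
    have hind : ∀ h : H, Cfsg.indFun H θ h = (Nat.card H : ℂ)⁻¹ * ∑ x : G, c x h := by
      intro h
      unfold Cfsg.indFun
      congr 1
      refine Fintype.sum_equiv (Equiv.inv G) _ _ (fun x => ?_)
      have hx : x⁻¹ * (h : G) * x ∈ H := by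
        have := hN.conj_mem h h.2 x⁻¹
        rwa [inv_inv] at this
      rw [extendByZero_of_mem H θ hx]
      simp only [hc, Equiv.inv_apply]
      congr 1
      apply Subtype.ext
      simp
    have horth : ∀ x : G, ∑ h : H, φ h * conj (c x h) = 0 := by
      intro x
      have hcx : Cfsg.IsIrrCharacter H (c x) := isIrrCharacter_conj_normal H hθ x
      have h1 := classInner_irr_fun hφ hcx
      have hne' : φ ≠ c x := fun h => hne ⟨x, h⟩
      rw [if_neg hne'] at h1
      unfold Cfsg.classInner at h1
      have hcard : (Nat.card H : ℂ)⁻¹ ≠ 0 := by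
        apply inv_ne_zero
        exact_mod_cast (Nat.card_pos (α := H)).ne'
      exact (mul_eq_zero.mp h1).resolve_left hcard
    have h2 : ∑ h : H, φ h * conj (Cfsg.indFun H θ h) =
        (Nat.card H : ℂ)⁻¹ * ∑ x : G, ∑ h : H, φ h * conj (c x h) := by
      rw [Finset.sum_comm, Finset.mul_sum]
      refine Finset.sum_congr rfl (fun h _ => ?_)
      rw [hind h, map_mul, map_inv₀, Complex.conj_natCast, map_sum, Finset.mul_sum, Finset.mul_sum,
        Finset.mul_sum]
      refine Finset.sum_congr rfl (fun x _ => ?_)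
      ring
    rw [h2]
    simp only [horth, Finset.sum_const_zero, mul_zero]

end Cfsg.Agent.S1486
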