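import Mathlib
import Cfsg.Statements.S1487
import Cfsg.Agent.Lib.Helper25.IndFun
import Cfsg.Agent.Lib.Helper80.CharKer

set_option autoImplicit false
open Cfsg

namespace Cfsg.Agent.S1487

open Cfsg.Agent.Lib.Helper25

/-- A complex number of norm at most `n` whose real part is `n` equals `n`. -/
theorem eq_of_re_eq_of_norm_le (t : ℂ) (n : ℝ) (hre : t.re = n) (hn : ‖t‖ ≤ n) : t = (n : ℂ) := by
  have hn0 : 0 ≤ n := le_trans (norm_nonneg t) hn
  have h1 : ‖t‖ ^ 2 ≤ n ^ 2 := pow_le_pow_left₀ (norm_nonneg t) hn 2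
  rw [Complex.sq_norm, Complex.normSq_apply, hre] at h1
  have him : t.im = 0 := by nlinarith [sq_nonneg t.im]
  apply Complex.ext
  · simpa using hre
  · simpa using him

/-- Let A ≤ H be normal subgroups of the finite group G and θ an irreducible character of H. Then θ takes the value θ 1 on all of A if and only if the function induced from θ to G takes its value at 1 on all of A. -/
theorem result {G : Type*} [Group G] [Fintype G] (A H : Subgroup G) [A.Normal] [H.Normal] (hAH : A ≤ H) (θ : H → ℂ) (hθ : Cfsg.IsIrrCharacter H θ) : (∀ a : H, (a : G) ∈ A → θ a = θ 1) ↔ (∀ a : G, a ∈ A → Cfsg.indFun H θ a = Cfsg.indFun H θ 1) := by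
  classical
  have hchar : Cfsg.IsCharacter H θ := Cfsg.Agent.Lib.Helper80.isCharacter_of_isIrrCharacter hθ
  have hdeg : θ 1 = (Cfsg.charDegree θ : ℂ) := Cfsg.Agent.Lib.Helper80.char_one_eq_charDegree hchar
  have hH0 : (Nat.card H : ℂ)⁻¹ ≠ 0 := inv_ne_zero (Nat.cast_ne_zero.mpr Nat.card_pos.ne')
  -- value of the induced function at 1
  have hind1 : Cfsg.indFun H θ 1 = (Nat.card H : ℂ)⁻¹ * ∑ _x : G, θ 1 := by
    unfold Cfsg.indFun
    congr 1
    refine Finset.sum_congr rfl (fun x _ => ?_)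
    have : x⁻¹ * 1 * x = (1 : G) := by group
    rw [this, extendByZero_of_mem H θ (one_mem H)]
    rfl
  -- value at a ∈ A
  have hmem : ∀ a : G, a ∈ A → ∀ x : G, x⁻¹ * a * x ∈ H := by
    intro a ha x
    have h1 : x⁻¹ * a * x⁻¹⁻¹ ∈ A := Subgroup.Normal.conj_mem inferInstance a ha x⁻¹
    rw [inv_inv] at h1
    exact hAH h1
  have hindA : ∀ a : G, ∀ ha : a ∈ A, Cfsg.indFun H θ a =
      (Nat.card H : ℂ)⁻¹ * ∑ x : G, θ ⟨x⁻¹ * a * x, hmem a ha x⟩ := by
    intro a ha
    unfold Cfsg.indFun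
    congr 1
    refine Finset.sum_congr rfl (fun x _ => ?_)
    rw [extendByZero_of_mem H θ (hmem a ha x)]
  constructor
  · intro h a ha
    rw [hindA a ha, hind1]
    congr 1
    refine Finset.sum_congr rfl (fun x _ => ?_)
    have h1 : x⁻¹ * a * x⁻¹⁻¹ ∈ A := Subgroup.Normal.conj_mem inferInstance a ha x⁻¹
    rw [inv_inv] at h1
    exact h ⟨x⁻¹ * a * x, hmem a ha x⟩ h1
  · intro h a ha
    have h2 := h (a : G) ha
    rw [hindA (a : G) ha, hind1] at h2
    have h3 := mul_left_cancel₀ hH0 h2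
    -- real parts
    have hle : ∀ x : G, (θ ⟨x⁻¹ * (a : G) * x, hmem (a : G) ha x⟩).re ≤ (Cfsg.charDegree θ : ℝ) := by
      intro x
      exact (Complex.re_le_norm _).trans
        (Cfsg.Agent.Lib.Helper80.norm_char_le_charDegree hchar _)
    have h4 : ∑ x : G, ((Cfsg.charDegree θ : ℝ) - (θ ⟨x⁻¹ * (a : G) * x, hmem (a : G) ha x⟩).re) = 0 := by
      rw [Finset.sum_sub_distrib, sub_eq_zero]
      have := congrArg Complex.re h3
      rw [Complex.re_sum, Complex.re_sum] at this
      rw [this]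
      refine Finset.sum_congr rfl (fun x _ => ?_)
      rw [hdeg]
      simp
    have h5 := (Finset.sum_eq_zero_iff_of_nonneg (fun x _ => sub_nonneg.mpr (hle x))).mp h4 1
      (Finset.mem_univ 1)
    have h6 : (θ ⟨(1 : G)⁻¹ * (a : G) * 1, hmem (a : G) ha 1⟩).re = (Cfsg.charDegree θ : ℝ) := by
      linarith
    have h7 : (⟨(1 : G)⁻¹ * (a : G) * 1, hmem (a : G) ha 1⟩ : H) = a := by
      apply Subtype.ext
      simp
    rw [h7] at h6
    rw [hdeg]
    have := eq_of_re_eq_of_norm_le (θ a) (Cfsg.charDegree θ : ℝ) h6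
      (Cfsg.Agent.Lib.Helper80.norm_char_le_charDegree hchar a)
    rw [this]
    simp

end Cfsg.Agent.S1487
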