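import Mathlib
import Cfsg.Statements.S1488
import Cfsg.Agent.Lib.Helper25.IndFun

set_option autoImplicit false
open Cfsg

namespace Cfsg.Agent.S1488

open Cfsg.Agent.Lib.Helper25

theorem card_subtype_eq_sum {α : Type*} [Fintype α] (p : α → Prop) [DecidablePred p] :
    (Nat.card {x // p x} : ℂ) = ∑ x : α, if p x then (1 : ℂ) else 0 := by
  rw [Finset.sum_boole, Nat.card_eq_fintype_card, Fintype.card_subtype]

/-- Summing a function of the coset over the group counts each coset `Nat.card A` times. -/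
theorem sum_comp_mk {G : Type*} [Group G] [Fintype G] (A : Subgroup G) [A.Normal]
    [Fintype (G ⧸ A)] (F : G ⧸ A → ℂ) :
    ∑ x : G, F (QuotientGroup.mk' A x) = (Nat.card A : ℂ) * ∑ q : G ⧸ A, F q := by
  classical
  have h1 := Finset.sum_comp (s := (Finset.univ : Finset G)) F (fun x : G => QuotientGroup.mk' A x)
  rw [h1]
  have himg : (Finset.univ : Finset G).image (fun x : G => QuotientGroup.mk' A x) = Finset.univ := by
    apply Finset.eq_univ_iff_forall.mpr
    intro q
    obtain ⟨x, rfl⟩ := QuotientGroup.mk'_surjective A q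
    exact Finset.mem_image_of_mem _ (Finset.mem_univ x)
  rw [himg, Finset.mul_sum]
  refine Finset.sum_congr rfl (fun q _ => ?_)
  obtain ⟨x₀, rfl⟩ := QuotientGroup.mk'_surjective A q
  have hcard : (Finset.univ.filter (fun a : G => QuotientGroup.mk' A a = QuotientGroup.mk' A x₀)).card
      = Nat.card A := by
    rw [← Nat.card_eq_finsetCard]
    apply Nat.card_congr
    refine
      { toFun := fun a => ⟨x₀⁻¹ * a.1, ?_⟩
        invFun := fun t => ⟨x₀ * t.1, ?_⟩
        left_inv := ?_
        right_inv := ?_ }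
    · have ha := (Finset.mem_filter.mp a.2).2
      have : (QuotientGroup.mk' A) (x₀⁻¹ * a.1) = 1 := by
        rw [map_mul, map_inv, ha, inv_mul_cancel]
      rw [← MonoidHom.mem_ker, QuotientGroup.ker_mk'] at this
      exact this
    · apply Finset.mem_filter.mpr
      refine ⟨Finset.mem_univ _, ?_⟩
      have : (QuotientGroup.mk' A) t.1 = 1 := by
        rw [← MonoidHom.mem_ker, QuotientGroup.ker_mk']; exact t.2
      rw [map_mul, this, mul_one]
    · intro a
      apply Subtype.ext
      simp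
    · intro t
      apply Subtype.ext
      simp
  rw [hcard, nsmul_eq_mul]

/-- Let A be a normal subgroup of the finite group G contained in the subgroup H, let θ be a function on H and θ₁ a function on the image of H in G ⧸ A whose composite with the projection is θ. Then the function induced from θ₁ to G ⧸ A, composed with the projection G → G ⧸ A, equals the function induced from θ to G. -/
theorem result {G : Type*} [Group G] [Fintype G] (A H : Subgroup G) [A.Normal] (hAH : A ≤ H) [Fintype (G ⧸ A)] [Fintype ↥(H.map (QuotientGroup.mk' A))] (θ : H → ℂ) (θ₁ : ↥(H.map (QuotientGroup.mk' A)) → ℂ) (hθ : ∀ x : H, θ₁ ⟨QuotientGroup.mk' A x, Subgroup.mem_map_of_mem _ x.2⟩ = θ x) (g : G) : Cfsg.indFun (H.map (QuotientGroup.mk' A)) θ₁ (QuotientGroup.mk' A g) = Cfsg.indFun H θ g := by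
  classical
  have hmemiff : ∀ y : G, QuotientGroup.mk' A y ∈ H.map (QuotientGroup.mk' A) ↔ y ∈ H := by
    intro y
    constructor
    · rintro ⟨h, hh, hhy⟩
      have : (QuotientGroup.mk' A) (h⁻¹ * y) = 1 := by
        rw [map_mul, map_inv, hhy, inv_mul_cancel]
      rw [← MonoidHom.mem_ker, QuotientGroup.ker_mk'] at this
      have h2 : y = h * (h⁻¹ * y) := by group
      rw [h2]
      exact mul_mem hh (hAH this)
    · intro hy
      exact Subgroup.mem_map_of_mem _ hy
  -- the two extensions by zero agree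
  have hext : ∀ y : G, Cfsg.extendByZero H θ y =
      Cfsg.extendByZero (H.map (QuotientGroup.mk' A)) θ₁ (QuotientGroup.mk' A y) := by
    intro y
    by_cases hy : y ∈ H
    · rw [extendByZero_of_mem H θ hy, extendByZero_of_mem _ θ₁ ((hmemiff y).mpr hy)]
      exact (hθ ⟨y, hy⟩).symm
    · rw [extendByZero_of_not_mem H θ hy,
        extendByZero_of_not_mem _ θ₁ (fun h => hy ((hmemiff y).mp h))]
  -- cardinalities
  have hcardA : (Nat.card A : ℂ) ≠ 0 := Nat.cast_ne_zero.mpr Nat.card_pos.ne'
  have hcard : (Nat.card H : ℂ) = (Nat.card A : ℂ) * (Nat.card ↥(H.map (QuotientGroup.mk' A)) : ℂ) := by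
    have h1 : (Nat.card H : ℂ) = ∑ x : G, (if x ∈ H then (1 : ℂ) else 0) :=
      card_subtype_eq_sum (fun x : G => x ∈ H)
    have h2 : (Nat.card ↥(H.map (QuotientGroup.mk' A)) : ℂ) =
        ∑ q : G ⧸ A, (if q ∈ H.map (QuotientGroup.mk' A) then (1 : ℂ) else 0) :=
      card_subtype_eq_sum (fun q : G ⧸ A => q ∈ H.map (QuotientGroup.mk' A))
    rw [h1, h2, ← sum_comp_mk A (fun q : G ⧸ A => if q ∈ H.map (QuotientGroup.mk' A) then (1 : ℂ) else 0)]
    refine Finset.sum_congr rfl (fun x _ => ?_)
    by_cases hx : x ∈ H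
    · rw [if_pos hx, if_pos ((hmemiff x).mpr hx)]
    · rw [if_neg hx, if_neg (fun h => hx ((hmemiff x).mp h))]
  unfold Cfsg.indFun
  have hsum : ∑ x : G, Cfsg.extendByZero H θ (x⁻¹ * g * x) =
      (Nat.card A : ℂ) * ∑ q : G ⧸ A, Cfsg.extendByZero (H.map (QuotientGroup.mk' A)) θ₁
        (q⁻¹ * QuotientGroup.mk' A g * q) := by
    rw [← sum_comp_mk A (fun q : G ⧸ A => Cfsg.extendByZero (H.map (QuotientGroup.mk' A)) θ₁
        (q⁻¹ * QuotientGroup.mk' A g * q))]
    refine Finset.sum_congr rfl (fun x _ => ?_)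
    rw [hext, map_mul, map_mul, map_inv]
  rw [hsum, hcard]
  have hH : (Nat.card ↥(H.map (QuotientGroup.mk' A)) : ℂ) ≠ 0 := Nat.cast_ne_zero.mpr Nat.card_pos.ne'
  field_simp

end Cfsg.Agent.S1488
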