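import Cfsg.Statements.S1490
import Cfsg.Agent.Lib.Helper82.AbelianInertia
import Cfsg.Agent.Lib.Helper82.CliffordInd
import Cfsg.Agent.Lib.Helper3.IndTrans

set_option autoImplicit false
open Cfsg

namespace Cfsg.Agent.S1490

open Cfsg.Agent.Lib Cfsg.Agent.Lib.Helper3 Cfsg.Agent.Lib.Helper75 Cfsg.Agent.Lib.Helper82 in
/-- Let H be a normal subgroup of the finite group G, θ an irreducible character of H with inertia group T, and suppose the commutator of any two elements of T lies in H (T/H abelian). Then there are a positive integer e and a finite set C of irreducible characters of G with e ^ 2 * |C| * |H| = |T|, such that the function induced from θ is e times the sum of the members of C and every member of C has degree [G:T] * e * θ(1). -/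
theorem result {G : Type*} [Group G] [Fintype G] (H T : Subgroup G) [hN : H.Normal] (θ : H → ℂ) (hθ : Cfsg.IsIrrCharacter H θ) (hT : ∀ g : G, g ∈ T ↔ ∀ h : H, θ ⟨g * h * g⁻¹, hN.conj_mem h h.2 g⟩ = θ h) (hab : ∀ x ∈ T, ∀ y ∈ T, x * y * x⁻¹ * y⁻¹ ∈ H) : ∃ (e : ℕ) (C : Finset (G → ℂ)), 0 < e ∧ (∀ χ ∈ C, Cfsg.IsIrrCharacter G χ) ∧ e ^ 2 * C.card * Nat.card H = Nat.card T ∧ Cfsg.indFun H θ = (e : ℂ) • ∑ χ ∈ C, χ ∧ ∀ χ ∈ C, χ 1 = (T.index : ℂ) * e * θ 1 := by
  classical
  have : Fintype H := Fintype.ofFinite H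
  have : Fintype T := Fintype.ofFinite T
  have hθcf := isClassFunction_of_isCharacter (isCharacter_of_irr hθ)
  have hT' : ∀ g : G, g ∈ T ↔ conjChar H θ g = θ := by
    intro g
    rw [hT g, ← mem_inertia_iff, mem_inertia_iff']
  have hHT : H ≤ T := by
    intro g hg
    rw [hT']
    exact conjChar_of_mem H hθcf hg
  have : Fintype (H.subgroupOf T) := Fintype.ofFinite _
  -- the character of `H.subgroupOf T`
  have hθ' : Cfsg.IsIrrCharacter (H.subgroupOf T)
      (fun n' : H.subgroupOf T => θ (Subgroup.subgroupOfEquivOfLe hHT n')) :=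
    Helper80.isIrrCharacter_comp_mulEquiv (Subgroup.subgroupOfEquivOfLe hHT) hθ
  have hinv' : ∀ t : T, conjChar (H.subgroupOf T)
      (fun n' : H.subgroupOf T => θ (Subgroup.subgroupOfEquivOfLe hHT n')) t =
      (fun n' : H.subgroupOf T => θ (Subgroup.subgroupOfEquivOfLe hHT n')) := by
    intro t
    rw [conjChar_subgroupOf H T hHT, (hT' t).1 t.2]
  have hab' : ∀ x y : T, x * y * x⁻¹ * y⁻¹ ∈ H.subgroupOf T := by
    intro x y
    rw [Subgroup.mem_subgroupOf]
    exact hab x x.2 y y.2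
  obtain ⟨e, C', he, hC', hcard, hind⟩ := ind_invariant_of_comm (H.subgroupOf T) hθ' hinv' hab'
  have heC : (e : ℂ) ≠ 0 := by exact_mod_cast he.ne'
  -- members of `C'` lie over `θ`
  have hres : ∀ ψ ∈ C', (fun n : H => ψ ⟨n, hHT n.2⟩) = (e : ℂ) • θ := by
    intro ψ hψ
    funext n
    have := congrFun (hC' ψ hψ).2 ((Subgroup.subgroupOfEquivOfLe hHT).symm n)
    simp only [Pi.smul_apply, smul_eq_mul, MulEquiv.apply_symm_apply] at this
    rw [Pi.smul_apply, smul_eq_mul, ← this]
    rfl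
  have hover : ∀ ψ ∈ C', Cfsg.classInner (fun n : H => ψ ⟨n, hHT n.2⟩) θ ≠ 0 := by
    intro ψ hψ
    rw [hres ψ hψ, classInner_smul_left, Helper80.classInner_self hθ, mul_one]
    exact heC
  have hinj : Set.InjOn (Cfsg.indFun T) (C' : Set (T → ℂ)) := by
    intro ψ hψ ψ' hψ' h
    exact clifford_induced_inj H T hHT hθ hT' (hC' ψ hψ).1 (hC' ψ' hψ').1
      (hover ψ hψ) (hover ψ' hψ') h
  refine ⟨e, C'.image (Cfsg.indFun T), he, ?_, ?_, ?_, ?_⟩
  · intro χ hχ
    obtain ⟨ψ, hψ, rfl⟩ := Finset.mem_image.1 hχ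
    exact clifford_induced_irr H T hHT hθ hT' (hC' ψ hψ).1 (hover ψ hψ)
  · rw [Finset.card_image_of_injOn hinj, hcard]
    rw [← Nat.card_congr (Subgroup.subgroupOfEquivOfLe hHT).toEquiv, mul_comm]
    exact Subgroup.card_mul_index _
  · rw [← indFun_trans H T hHT θ]
    have h1 : (fun x : H.subgroupOf T => θ ⟨(x : T), Subgroup.mem_subgroupOf.mp x.2⟩) =
        (fun n' : H.subgroupOf T => θ (Subgroup.subgroupOfEquivOfLe hHT n')) := rfl
    rw [h1, hind, Helper80.indFun_smul, Finset.sum_image hinj]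
    congr 1
    have hsum : ∀ s : Finset (T → ℂ), Cfsg.indFun T (∑ ψ ∈ s, ψ) = ∑ ψ ∈ s, Cfsg.indFun T ψ := by
      intro s
      induction s using Finset.induction_on with
      | empty =>
        rw [Finset.sum_empty, Finset.sum_empty]
        have := Helper80.indFun_smul T (0 : ℂ) (0 : T → ℂ)
        simpa using this
      | insert a s ha ih =>
        rw [Finset.sum_insert ha, Finset.sum_insert ha, Helper80.indFun_add, ih]
    exact hsum C'
  · intro χ hχ
    obtain ⟨ψ, hψ, rfl⟩ := Finset.mem_image.1 hχ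
    rw [indFun_one]
    have := congrFun (hres ψ hψ) 1
    simp only [Pi.smul_apply, smul_eq_mul] at this
    have h2 : ψ 1 = (e : ℂ) * θ 1 := this
    rw [h2]
    ring

end Cfsg.Agent.S1490
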