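import Mathlib
import Cfsg.Statements.S1495

set_option autoImplicit false
open Cfsg

namespace Cfsg.Agent.S1495

open Polynomial in
theorem prod_one_sub_primitiveRoots (p : ℕ) (hp : p.Prime) :
    ∏ μ ∈ primitiveRoots p ℂ, (1 - μ) = (p : ℂ) := by
  have : Fact p.Prime := ⟨hp⟩
  have h1 : IsPrimitiveRoot (Complex.exp (2 * Real.pi * Complex.I / p)) p :=
    Complex.isPrimitiveRoot_exp p hp.ne_zero
  have h2 := Polynomial.cyclotomic_eq_prod_X_sub_primitiveRoots h1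
  have h3 : (cyclotomic p ℂ).eval 1 = (p : ℂ) := eval_one_cyclotomic_prime
  rw [h2, eval_prod] at h3
  simpa using h3

/-- Let p be a prime, ε = exp(2πi/p), and n an integer such that n = (1 − ε) * ω for some algebraic integer ω. Then p divides n. -/
theorem result (p : ℕ) (hp : p.Prime) (n : ℤ) (ω : ℂ) (hω : IsIntegral ℤ ω) (h : (n : ℂ) = (1 - Complex.exp (2 * Real.pi * Complex.I / p)) * ω) : (p : ℤ) ∣ n := by
  classical
  have : NeZero p := ⟨hp.ne_zero⟩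
  set ε := Complex.exp (2 * Real.pi * Complex.I / p) with hε
  have hprim : IsPrimitiveRoot ε p := Complex.isPrimitiveRoot_exp p hp.ne_zero
  -- for each primitive root μ, n = (1 - μ) * c with c integral
  have hex : ∀ μ : ℂ, ∃ c : ℂ, μ ∈ primitiveRoots p ℂ → IsIntegral ℤ c ∧ (n : ℂ) = (1 - μ) * c := by
    intro μ
    by_cases hμ : μ ∈ primitiveRoots p ℂ
    · have hμ' : IsPrimitiveRoot μ p := (mem_primitiveRoots hp.pos).mp hμ
      obtain ⟨j, -, hj⟩ := hμ'.eq_pow_of_pow_eq_one hprim.pow_eq_one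
      have hμint : IsIntegral ℤ μ := hμ'.isIntegral hp.pos
      refine ⟨(∑ i ∈ Finset.range j, μ ^ i) * ω, fun _ => ⟨?_, ?_⟩⟩
      · exact (IsIntegral.sum _ (fun i _ => hμint.pow i)).mul hω
      · rw [h, ← hj, ← mul_assoc, mul_neg_geom_sum]
    · exact ⟨0, fun h' => absurd h' hμ⟩
  choose c hc using hex
  have hprod : (n : ℂ) ^ (p - 1) = (p : ℂ) * ∏ μ ∈ primitiveRoots p ℂ, c μ := by
    have hcard : (primitiveRoots p ℂ).card = p - 1 := by
      rw [Complex.card_primitiveRoots, Nat.totient_prime hp]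
    rw [← prod_one_sub_primitiveRoots p hp, ← Finset.prod_mul_distrib, ← hcard,
      ← Finset.prod_const]
    exact Finset.prod_congr rfl (fun μ hμ => (hc μ hμ).2)
  have hint : IsIntegral ℤ (∏ μ ∈ primitiveRoots p ℂ, c μ) :=
    IsIntegral.prod _ (fun μ hμ => (hc μ hμ).1)
  have hp0 : (p : ℂ) ≠ 0 := Nat.cast_ne_zero.mpr hp.ne_zero
  have hθ : ∏ μ ∈ primitiveRoots p ℂ, c μ = algebraMap ℚ ℂ ((n : ℚ) ^ (p - 1) / (p : ℚ)) := by
    have e : ∏ μ ∈ primitiveRoots p ℂ, c μ = (n : ℂ) ^ (p - 1) / (p : ℂ) := by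
      rw [eq_div_iff hp0, mul_comm]; exact hprod.symm
    rw [e]
    simp
  rw [hθ] at hint
  have hint' : IsIntegral ℤ ((n : ℚ) ^ (p - 1) / (p : ℚ)) :=
    (isIntegral_algebraMap_iff (algebraMap ℚ ℂ).injective).mp hint
  obtain ⟨m, hm⟩ := IsIntegrallyClosed.isIntegral_iff.mp hint'
  have hpq : (p : ℚ) ≠ 0 := Nat.cast_ne_zero.mpr hp.ne_zero
  have hmZ : n ^ (p - 1) = (p : ℤ) * m := by
    have : ((n ^ (p - 1) : ℤ) : ℚ) = (((p : ℤ) * m : ℤ) : ℚ) := by
      push_cast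
      have hm' : (m : ℚ) = (n : ℚ) ^ (p - 1) / (p : ℚ) := by simpa using hm
      rw [hm']; field_simp
    exact_mod_cast this
  have hdvd : (p : ℤ) ∣ n ^ (p - 1) := ⟨m, hmZ⟩
  exact (Nat.prime_iff_prime_int.mp hp).dvd_of_dvd_pow hdvd

end Cfsg.Agent.S1495
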