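import Mathlib
import Cfsg.Statements.S1496
import Cfsg.Agent.Lib.Helper1.SZInternal

set_option autoImplicit false
open Cfsg

namespace Cfsg.Agent.S1496

open Cfsg.Agent.Lib.Helper1

open scoped Pointwise

theorem pow_mul_inv_mem {G : Type*} [Group G] (H : Subgroup G) (g : G)
    (hg : g ∈ Subgroup.normalizer (H : Set G)) (h : G) (hh : h ∈ H) (k : ℕ) :
    (h * g) ^ k * (g ^ k)⁻¹ ∈ H := by
  induction k with
  | zero => simp
  | succ k ih =>
    have hgk : g ^ k ∈ Subgroup.normalizer (H : Set G) := Subgroup.pow_mem _ hg k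
    have h1 : g ^ k * h * (g ^ k)⁻¹ ∈ H := (Subgroup.mem_set_normalizer_iff.mp hgk h).mp hh
    have h2 : (h * g) ^ (k + 1) * (g ^ (k + 1))⁻¹ =
        ((h * g) ^ k * (g ^ k)⁻¹) * (g ^ k * h * (g ^ k)⁻¹) := by
      rw [pow_succ, pow_succ]
      group
    rw [h2]
    exact H.mul_mem ih h1

theorem result {G : Type*} [Group G] [Finite G] (H : Subgroup G) (g : G) (hg : g ∈ Subgroup.normalizer (H : Set G)) (hcop : Nat.Coprime (orderOf g) (Nat.card H)) (h : G) (hh : h ∈ H) : ∃ x ∈ H, ∃ c ∈ H, c * g = g * c ∧ x * (h * g) * x⁻¹ = c * g := by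
  have key := pow_mul_inv_mem H g hg
  have hym : (h * g) ^ orderOf g ∈ H := by
    have h1 := key h hh (orderOf g)
    rw [pow_orderOf_eq_one, inv_one, mul_one] at h1
    exact h1
  have hymn : (h * g) ^ (orderOf g * Nat.card H) = 1 := by
    rw [pow_mul]
    exact orderOf_dvd_iff_pow_eq_one.mp (Subgroup.orderOf_dvd_natCard H hym)
  obtain ⟨a, ha1, ha0⟩ := Nat.chineseRemainder hcop 1 0
  obtain ⟨b, hb0, hb1⟩ := Nat.chineseRemainder hcop 0 1
  have hab : a + b ≡ 1 [MOD orderOf g * Nat.card H] := by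
    rw [← Nat.modEq_and_modEq_iff_modEq_mul hcop]
    exact ⟨by simpa using ha1.add hb0, by simpa using ha0.add hb1⟩
  have hordy : orderOf (h * g) ∣ orderOf g * Nat.card H := orderOf_dvd_of_pow_eq_one hymn
  have hy12 : (h * g) ^ b * (h * g) ^ a = h * g := by
    rw [← pow_add, add_comm]
    have h1 := (pow_eq_pow_iff_modEq (x := h * g)).mpr (hab.of_dvd hordy)
    rwa [pow_one] at h1
  have hy₂H : (h * g) ^ b ∈ H := by
    obtain ⟨b', hb'⟩ := (Nat.modEq_zero_iff_dvd.mp hb0)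
    rw [hb', pow_mul]
    exact H.pow_mem hym b'
  have hga : g ^ a = g := by
    have h1 := (pow_eq_pow_iff_modEq (x := g)).mpr ha1
    rwa [pow_one] at h1
  have hy₁g : (h * g) ^ a * g⁻¹ ∈ H := by
    have h1 := key h hh a
    rwa [hga] at h1
  have hy₁m : ((h * g) ^ a) ^ orderOf g = 1 := by
    obtain ⟨a', ha'⟩ := (Nat.modEq_zero_iff_dvd.mp ha0)
    rw [← pow_mul, ha']
    have h1 : Nat.card H * a' * orderOf g = orderOf g * Nat.card H * a' := by ring
    rw [h1, pow_mul, hymn, one_pow]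
  have hcop' : (Nat.card (Subgroup.zpowers g)).Coprime (Nat.card H) := by
    rw [Nat.card_zpowers]
    exact hcop
  have hdisj : ∀ x : G, x ∈ Subgroup.zpowers g → x ∈ H → x = 1 := by
    intro x hx hxH
    exact eq_one_of_mem_of_coprime hcop' hx hxH
  have hord₁ : orderOf ((h * g) ^ a) = orderOf g := by
    apply Nat.dvd_antisymm (orderOf_dvd_of_pow_eq_one hy₁m)
    have h2 := key ((h * g) ^ a * g⁻¹) hy₁g (orderOf ((h * g) ^ a))
    rw [inv_mul_cancel_right, pow_orderOf_eq_one, one_mul] at h2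
    have h3 : g ^ orderOf ((h * g) ^ a) = 1 :=
      hdisj _ (Subgroup.pow_mem _ (Subgroup.mem_zpowers g) _) (by simpa using H.inv_mem h2)
    exact orderOf_dvd_of_pow_eq_one h3
  have hsolv : Group.IsSolvable (Subgroup.zpowers g) := by
    apply Group.isSolvable_of_comm
    intro u v
    exact mul_comm' u v
  obtain ⟨x, hxH, hconj⟩ := sz_conj_internal H (Subgroup.zpowers g) (Subgroup.zpowers ((h * g) ^ a))
    ((Subgroup.zpowers_le).mpr hg) hcop' (Or.inl hsolv)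
    ((Subgroup.zpowers_le).mpr
      (Subgroup.pow_mem _ (Subgroup.mul_mem_sup hh (Subgroup.mem_zpowers g)) a))
    (by rw [Nat.card_zpowers, Nat.card_zpowers, hord₁])
  have hxy₁ : x * (h * g) ^ a * x⁻¹ ∈ Subgroup.zpowers g := by
    rw [← hconj, mem_conj_smul]
    have h1 : x⁻¹ * (x * (h * g) ^ a * x⁻¹) * x = (h * g) ^ a := by group
    rw [h1]
    exact Subgroup.mem_zpowers _
  have hxy₁g : x * (h * g) ^ a * x⁻¹ = g := by
    have h1 : x * (h * g) ^ a * x⁻¹ * g⁻¹ ∈ Subgroup.zpowers g :=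
      Subgroup.mul_mem _ hxy₁ (Subgroup.inv_mem _ (Subgroup.mem_zpowers g))
    have h2 : x * (h * g) ^ a * x⁻¹ * g⁻¹ ∈ H := by
      have h3 : g * x⁻¹ * g⁻¹ ∈ H :=
        (Subgroup.mem_set_normalizer_iff.mp hg x⁻¹).mp (H.inv_mem hxH)
      have h4 : x * (h * g) ^ a * x⁻¹ * g⁻¹ = x * ((h * g) ^ a * g⁻¹) * (g * x⁻¹ * g⁻¹) := by
        group
      rw [h4]
      exact H.mul_mem (H.mul_mem hxH hy₁g) h3
    exact mul_inv_eq_one.mp (hdisj _ h1 h2)
  have hcomm : (h * g) ^ b * (h * g) ^ a = (h * g) ^ a * (h * g) ^ b := by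
    rw [← pow_add, ← pow_add, add_comm]
  refine ⟨x, hxH, x * (h * g) ^ b * x⁻¹, H.mul_mem (H.mul_mem hxH hy₂H) (H.inv_mem hxH), ?_, ?_⟩
  · calc x * (h * g) ^ b * x⁻¹ * g
        = x * (h * g) ^ b * x⁻¹ * (x * (h * g) ^ a * x⁻¹) := by rw [hxy₁g]
      _ = x * ((h * g) ^ b * (h * g) ^ a) * x⁻¹ := by group
      _ = x * ((h * g) ^ a * (h * g) ^ b) * x⁻¹ := by rw [hcomm]
      _ = x * (h * g) ^ a * x⁻¹ * (x * (h * g) ^ b * x⁻¹) := by group
      _ = g * (x * (h * g) ^ b * x⁻¹) := by rw [hxy₁g]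
  · calc x * (h * g) * x⁻¹ = x * ((h * g) ^ b * (h * g) ^ a) * x⁻¹ := by rw [hy12]
      _ = x * (h * g) ^ b * x⁻¹ * (x * (h * g) ^ a * x⁻¹) := by group
      _ = x * (h * g) ^ b * x⁻¹ * g := by rw [hxy₁g]

end Cfsg.Agent.S1496
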