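import Mathlib
import Cfsg.Statements.S1499

set_option autoImplicit false
open Cfsg

namespace Cfsg.Agent.S1499

theorem ord_conj {G : Type*} [Group G] (g a : G) : orderOf (g * a * g⁻¹) = orderOf a := by
  have h : SemiconjBy g a (g * a * g⁻¹) := by unfold SemiconjBy; group
  exact h.orderOf_eq.symm

/-- Uniqueness of the coprime-order part of a commuting product. -/
theorem piPart_eq {G : Type*} [Group G] (a₁ u₁ b v : G) (hau : Commute a₁ u₁) (hbv : Commute b v)
    (hfa : IsOfFinOrder a₁) (hfb : IsOfFinOrder b) (hfu : IsOfFinOrder u₁) (hfv : IsOfFinOrder v)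
    (h1 : (orderOf u₁).Coprime (orderOf a₁)) (h2 : (orderOf v).Coprime (orderOf a₁))
    (h3 : (orderOf u₁).Coprime (orderOf b)) (h4 : (orderOf v).Coprime (orderOf b))
    (h : a₁ * u₁ = b * v) : a₁ = b := by
  set N := orderOf u₁ * orderOf v with hN
  set M := orderOf a₁ * orderOf b with hM
  have hMpos : 0 < M := Nat.mul_pos hfa.orderOf_pos hfb.orderOf_pos
  have hcop : N.Coprime M := by
    apply Nat.Coprime.mul_left
    · exact Nat.Coprime.mul_right h1 h3
    · exact Nat.Coprime.mul_right h2 h4
  have hpow : a₁ ^ N = b ^ N := by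
    have e1 : (a₁ * u₁) ^ N = a₁ ^ N := by
      rw [hau.mul_pow]
      have : u₁ ^ N = 1 := by
        rw [hN, pow_mul, pow_orderOf_eq_one, one_pow]
      rw [this, mul_one]
    have e2 : (b * v) ^ N = b ^ N := by
      rw [hbv.mul_pow]
      have : v ^ N = 1 := by
        rw [hN, mul_comm, pow_mul, pow_orderOf_eq_one, one_pow]
      rw [this, mul_one]
    rw [← e1, ← e2, h]
  -- choose k with k * N ≡ 1 mod M
  obtain ⟨k, hk⟩ : ∃ k, N * k ≡ 1 [MOD M] := by
    by_cases hM1 : M = 1
    · exact ⟨0, by rw [hM1]; exact Nat.modEq_one⟩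
    · have hM1' : 1 < M := by omega
      obtain ⟨k, -, hk⟩ := Nat.exists_mul_mod_eq_one_of_coprime hcop hM1'
      exact ⟨k, by rw [Nat.ModEq, hk, Nat.mod_eq_of_lt hM1']⟩
  have ha : a₁ ^ (N * k) = a₁ := by
    have : N * k ≡ 1 [MOD orderOf a₁] := hk.of_dvd (Dvd.intro _ rfl)
    rw [pow_eq_pow_iff_modEq.mpr this, pow_one]
  have hb : b ^ (N * k) = b := by
    have : N * k ≡ 1 [MOD orderOf b] := hk.of_dvd (Dvd.intro_left _ rfl)
    rw [pow_eq_pow_iff_modEq.mpr this, pow_one]
  calc a₁ = a₁ ^ (N * k) := ha.symm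
    _ = (a₁ ^ N) ^ k := pow_mul _ _ _
    _ = (b ^ N) ^ k := by rw [hpow]
    _ = b ^ (N * k) := (pow_mul _ _ _).symm
    _ = b := hb

/-- Under the Dade hypothesis for (A, L, H), let a, b ∈ A. If an element of the coset a·H(a) is conjugate in G to an element of b·H(b), then a and b are conjugate by an element of L. Moreover the set normaliser of the coset a·H(a) is the centraliser of a. -/
theorem result {G : Type*} [Group G] [Finite G] (A : Set G) (L : Subgroup G) (H : G → Subgroup G) (hD : Cfsg.DadeHypothesis A L H) (a b : G) (ha : a ∈ A) (hb : b ∈ A) : ((∃ u ∈ H a, ∃ v ∈ H b, ∃ g : G, g * (a * u) * g⁻¹ = b * v) → ∃ x ∈ L, x * a * x⁻¹ = b) ∧ Subgroup.normalizer ((fun u : G => a * u) '' (H a : Set G)) = Subgroup.centralizer ({a} : Set G) := by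
  have hfin : ∀ x : G, IsOfFinOrder x := fun x => isOfFinOrder_of_finite x
  -- order facts
  have hordA : ∀ c ∈ A, orderOf c ∣ Nat.card ↥(L ⊓ Subgroup.centralizer ({c} : Set G)) := by
    intro c hc
    have hmem : c ∈ L ⊓ Subgroup.centralizer ({c} : Set G) := by
      refine Subgroup.mem_inf.mpr ⟨hD.subset hc, ?_⟩
      rw [Subgroup.mem_centralizer_iff]
      intro h hh
      rw [Set.mem_singleton_iff] at hh
      rw [hh]
    exact Subgroup.orderOf_dvd_natCard _ hmem
  have hordH : ∀ c : G, ∀ u ∈ H c, orderOf u ∣ Nat.card ↥(H c) := by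
    intro c u hu
    exact Subgroup.orderOf_dvd_natCard _ hu
  have hcop : ∀ c ∈ A, ∀ d ∈ A, ∀ u ∈ H c, (orderOf u).Coprime (orderOf d) := by
    intro c hc d hd u hu
    exact Nat.Coprime.of_dvd (hordH c u hu) (hordA d hd) (hD.coprime c hc d hd)
  have hcomm : ∀ c ∈ A, ∀ u ∈ H c, Commute c u := by
    intro c hc u hu
    have := hD.le_centralizer c hc hu
    rw [Subgroup.mem_centralizer_iff] at this
    exact this c (Set.mem_singleton c)
  refine ⟨?_, ?_⟩
  · rintro ⟨u, hu, v, hv, g, hg⟩
    have key : g * a * g⁻¹ = b := by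
      apply piPart_eq (g * a * g⁻¹) (g * u * g⁻¹) b v
      · have := hcomm a ha u hu
        show (g * a * g⁻¹) * (g * u * g⁻¹) = (g * u * g⁻¹) * (g * a * g⁻¹)
        have h2 : a * u = u * a := this
        calc (g * a * g⁻¹) * (g * u * g⁻¹) = g * (a * u) * g⁻¹ := by group
          _ = g * (u * a) * g⁻¹ := by rw [h2]
          _ = (g * u * g⁻¹) * (g * a * g⁻¹) := by group
      · exact hcomm b hb v hv
      · exact hfin _
      · exact hfin _
      · exact hfin _
      · exact hfin _
      · rw [ord_conj, ord_conj]; exact hcop a ha a ha u hu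
      · rw [ord_conj]; exact hcop b hb a ha v hv
      · rw [ord_conj]; exact hcop a ha b hb u hu
      · exact hcop b hb b hb v hv
      · rw [← hg]; group
    obtain ⟨x, hx, hxa⟩ := hD.fusion a ha g (by rw [key]; exact hb)
    exact ⟨x, hx, by rw [hxa, key]⟩
  · ext g
    rw [Subgroup.mem_set_normalizer_iff, Subgroup.mem_centralizer_iff]
    constructor
    · intro hg h hh
      rw [Set.mem_singleton_iff] at hh
      subst hh
      -- g h g⁻¹ ∈ h * H h
      have h1 : h ∈ (fun u : G => h * u) '' (H h : Set G) := ⟨1, (H h).one_mem, mul_one h⟩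
      obtain ⟨v, hv, hveq⟩ := (hg h).mp h1
      have hveq' : h * v = g * h * g⁻¹ := hveq
      have key : g * h * g⁻¹ = h := by
        apply piPart_eq (g * h * g⁻¹) 1 h v
        · exact Commute.one_right _
        · exact hcomm h ha v hv
        · exact hfin _
        · exact hfin _
        · exact hfin _
        · exact hfin _
        · rw [orderOf_one]; exact Nat.coprime_one_left _
        · rw [ord_conj]; exact hcop h ha h ha v hv
        · rw [orderOf_one]; exact Nat.coprime_one_left _
        · exact hcop h ha h ha v hv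
        · rw [mul_one, hveq']
      calc h * g = (g * h * g⁻¹) * g := by rw [key]
        _ = g * h := by group
    · intro hg n
      have hga : a * g = g * a := hg a (Set.mem_singleton a)
      have hgc : g ∈ Subgroup.centralizer ({a} : Set G) := by
        rw [Subgroup.mem_centralizer_iff]; intro h hh
        rw [Set.mem_singleton_iff] at hh; rw [hh]; exact hga
      have hgc' : g⁻¹ ∈ Subgroup.centralizer ({a} : Set G) := inv_mem hgc
      constructor
      · rintro ⟨u, hu, rfl⟩
        refine ⟨g * u * g⁻¹, hD.conj_mem_H a ha g hgc u hu, ?_⟩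
        show a * (g * u * g⁻¹) = g * (a * u) * g⁻¹
        calc a * (g * u * g⁻¹) = (a * g) * u * g⁻¹ := by group
          _ = (g * a) * u * g⁻¹ := by rw [hga]
          _ = g * (a * u) * g⁻¹ := by group
      · rintro ⟨u, hu, hueq⟩
        have hueq' : a * u = g * n * g⁻¹ := hueq
        refine ⟨g⁻¹ * u * g, ?_, ?_⟩
        · have := hD.conj_mem_H a ha g⁻¹ hgc' u hu
          simpa using this
        · show a * (g⁻¹ * u * g) = n
          have hga' : a * g⁻¹ = g⁻¹ * a := by
            calc a * g⁻¹ = g⁻¹ * (g * a) * g⁻¹ := by group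
              _ = g⁻¹ * (a * g) * g⁻¹ := by rw [hga]
              _ = g⁻¹ * a := by group
          calc a * (g⁻¹ * u * g) = (a * g⁻¹) * u * g := by group
            _ = (g⁻¹ * a) * u * g := by rw [hga']
            _ = g⁻¹ * (a * u) * g := by group
            _ = g⁻¹ * (g * n * g⁻¹) * g := by rw [hueq']
            _ = n := by group

end Cfsg.Agent.S1499
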