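import Mathlib
import Cfsg.Statements.S1503
import Cfsg.Agent.Lib.Helper25.IndFun2
import Cfsg.Agent.Lib.Helper25.Annih
import Cfsg.Agent.Lib.Helper80.Orthogonality
import Cfsg.Agent.Lib.Helper80.CharKer

set_option autoImplicit false
open Cfsg

namespace Cfsg.Agent.S1503

open Cfsg.Agent.Lib.Helper25 Cfsg.Agent.Lib.Helper80

open scoped ComplexConjugate


/-- Let W₁, W₂ ≤ G with W = W₁ ⊔ W₂ and let χ an orthonormal family of irreducible characters of G up to sign, indexed by the linear characters ω of W, with χ_1 = 1, χ_ω = ω on W outside W₁ ∪ W₂, and the induction identity for (1 − φ)(1 − ψ). If θ is an irreducible character of G orthogonal to χ ω for every linear character ω of W, then θ vanishes at every element of W lying outside W₁ ∪ W₂. -/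
theorem result {G : Type*} [Group G] [Fintype G] (W₁ W₂ : Subgroup G) (hW : Cfsg.IsSelfNormalizingCyclic W₁ W₂) (χ : (↥(W₁ ⊔ W₂) →* ℂˣ) → (G → ℂ)) (hχ : Cfsg.IsCyclicTIFamily W₁ W₂ χ) (θ : G → ℂ) (hθ : Cfsg.IsIrrCharacter G θ) (horth : ∀ ω, Cfsg.classInner θ (χ ω) = 0) (w : ↥(W₁ ⊔ W₂)) (hw₁ : (w : G) ∉ W₁) (hw₂ : (w : G) ∉ W₂) : θ w = 0 := by
  classical
  let _ : Fintype ↥(W₁ ⊔ W₂) := Fintype.ofFinite _
  obtain ⟨-, -, hdisj, hcomm, hcyc, -⟩ := hW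
  have hc : ∀ a b : ↥(W₁ ⊔ W₂), a * b = b * a := fun a b => mul_comm' a b
  have hθc : Cfsg.IsClassFunction G θ :=
    isClassFunction_of_isCharacter (isCharacter_of_isIrrCharacter hθ)
  set N₁ : Subgroup ↥(W₁ ⊔ W₂) := W₁.subgroupOf (W₁ ⊔ W₂) with hN₁
  set N₂ : Subgroup ↥(W₁ ⊔ W₂) := W₂.subgroupOf (W₁ ⊔ W₂) with hN₂
  have hfin : Finite (↥(W₁ ⊔ W₂) →* ℂˣ) := finite_linChar _
  let _ : Fintype (annih N₁) := Fintype.ofFinite _
  let _ : Fintype (annih N₂) := Fintype.ofFinite _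
  have hI : ∀ (φ : annih N₂) (ψ : annih N₁), ∑ v : ↥(W₁ ⊔ W₂), θ v *
      conj (1 - ((φ.1 v : ℂˣ) : ℂ) - ((ψ.1 v : ℂˣ) : ℂ) + ((φ.1 v : ℂˣ) : ℂ) * ((ψ.1 v : ℂˣ) : ℂ)) = 0 := by
    rintro ⟨φ, hφ⟩ ⟨ψ, hψ⟩
    have hφ₂ : ∀ v : ↥(W₁ ⊔ W₂), (v : G) ∈ W₂ → φ v = 1 :=
      fun v hv => hφ v (Subgroup.mem_subgroupOf.mpr hv)
    have hψ₁ : ∀ v : ↥(W₁ ⊔ W₂), (v : G) ∈ W₁ → ψ v = 1 :=
      fun v hv => hψ v (Subgroup.mem_subgroupOf.mpr hv)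
    by_cases hφ1 : φ = 1
    · subst hφ1
      simp
    by_cases hψ1 : ψ = 1
    · subst hψ1
      simp
    have hind := hχ.induced_eq φ ψ hφ1 hψ1 hφ₂ hψ₁
    have h0 : Cfsg.classInner θ (Cfsg.indFun (W₁ ⊔ W₂)
        (fun w => 1 - (φ w : ℂ) - (ψ w : ℂ) + (φ w : ℂ) * (ψ w : ℂ))) = 0 := by
      rw [hind]
      have h1 : χ 1 = fun _ => 1 := hχ.map_one
      have e : (fun g => 1 - χ φ g - χ ψ g + χ (φ * ψ) g) =
          χ 1 + (-1 : ℂ) • χ φ + (-1 : ℂ) • χ ψ + χ (φ * ψ) := by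
        funext g
        rw [h1]
        simp only [Pi.add_apply, Pi.smul_apply, smul_eq_mul]
        ring
      rw [e, classInner_add_right, classInner_add_right, classInner_add_right,
        classInner_smul_right, classInner_smul_right, horth, horth, horth, horth]
      simp
    rw [classInner_indFun_right _ _ θ hθc, sum_mul_conj_extendByZero] at h0
    have hcardne : (Nat.card ↥(W₁ ⊔ W₂) : ℂ)⁻¹ ≠ 0 := by
      apply inv_ne_zero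
      exact_mod_cast (Nat.card_pos (α := ↥(W₁ ⊔ W₂))).ne'
    exact (mul_eq_zero.mp h0).resolve_left hcardne
  have hA₂ := sum_annih hc N₂
  have hA₁ := sum_annih hc N₁
  have hwN₁ : w ∉ N₁ := fun h => hw₁ (Subgroup.mem_subgroupOf.mp h)
  have hwN₂ : w ∉ N₂ := fun h => hw₂ (Subgroup.mem_subgroupOf.mp h)
  have hK : ∀ v : ↥(W₁ ⊔ W₂), ∑ φ : annih N₂, ∑ ψ : annih N₁,
      ((φ.1 w : ℂˣ) : ℂ) * ((ψ.1 w : ℂˣ) : ℂ) *
        conj (1 - ((φ.1 v : ℂˣ) : ℂ) - ((ψ.1 v : ℂˣ) : ℂ) + ((φ.1 v : ℂˣ) : ℂ) * ((ψ.1 v : ℂˣ) : ℂ)) =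
      if v = w then (Fintype.card (annih N₂) : ℂ) * (Fintype.card (annih N₁) : ℂ) else 0 := by
    intro v
    have e1 : ∀ (φ : annih N₂) (ψ : annih N₁), ((φ.1 w : ℂˣ) : ℂ) * ((ψ.1 w : ℂˣ) : ℂ) *
        conj (1 - ((φ.1 v : ℂˣ) : ℂ) - ((ψ.1 v : ℂˣ) : ℂ) + ((φ.1 v : ℂˣ) : ℂ) * ((ψ.1 v : ℂˣ) : ℂ)) =
        (((φ.1 w : ℂˣ) : ℂ) - ((φ.1 (w * v⁻¹) : ℂˣ) : ℂ)) *
          (((ψ.1 w : ℂˣ) : ℂ) - ((ψ.1 (w * v⁻¹) : ℂˣ) : ℂ)) := by
      intro φ ψ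
      rw [map_add, map_sub, map_sub, map_mul, map_one, conj_linChar, conj_linChar, map_mul, map_mul,
        map_inv, map_inv, Units.val_mul, Units.val_mul]
      ring
    simp_rw [e1]
    rw [← Finset.sum_mul_sum, Finset.sum_sub_distrib, Finset.sum_sub_distrib, hA₂ w,
      hA₂ (w * v⁻¹), hA₁ w, hA₁ (w * v⁻¹), if_neg hwN₂, if_neg hwN₁, zero_sub, zero_sub]
    by_cases hv : v = w
    · rw [hv, mul_inv_cancel, if_pos N₂.one_mem, if_pos N₁.one_mem, if_pos rfl]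
      ring
    · rw [if_neg hv]
      by_cases h2 : w * v⁻¹ ∈ N₂
      · have h1 : w * v⁻¹ ∉ N₁ := by
          intro h1
          apply hv
          have h3 : ((w * v⁻¹ : ↥(W₁ ⊔ W₂)) : G) ∈ W₁ ⊓ W₂ :=
            ⟨Subgroup.mem_subgroupOf.mp h1, Subgroup.mem_subgroupOf.mp h2⟩
          rw [hdisj, Subgroup.mem_bot] at h3
          have h4 : w * v⁻¹ = 1 := Subtype.ext h3
          exact (mul_inv_eq_one.mp h4).symm
        rw [if_neg h1]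
        ring
      · rw [if_neg h2]
        ring
  have hzero : ∑ φ : annih N₂, ∑ ψ : annih N₁, ((φ.1 w : ℂˣ) : ℂ) * ((ψ.1 w : ℂˣ) : ℂ) *
      ∑ v : ↥(W₁ ⊔ W₂), θ v *
        conj (1 - ((φ.1 v : ℂˣ) : ℂ) - ((ψ.1 v : ℂˣ) : ℂ) + ((φ.1 v : ℂˣ) : ℂ) * ((ψ.1 v : ℂˣ) : ℂ)) = 0 := by
    apply Finset.sum_eq_zero
    intro φ _
    apply Finset.sum_eq_zero
    intro ψ _
    rw [hI φ ψ, mul_zero]
  have hfinal : ∑ v : ↥(W₁ ⊔ W₂), θ v *
      (if v = w then (Fintype.card (annih N₂) : ℂ) * (Fintype.card (annih N₁) : ℂ) else 0) = 0 := by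
    refine Eq.trans ?_ hzero
    simp_rw [← hK, Finset.mul_sum]
    rw [Finset.sum_comm]
    refine Finset.sum_congr rfl (fun φ _ => ?_)
    rw [Finset.sum_comm]
    refine Finset.sum_congr rfl (fun ψ _ => ?_)
    refine Finset.sum_congr rfl (fun v _ => ?_)
    ring
  simp only [mul_ite, mul_zero, Finset.sum_ite_eq', Finset.mem_univ, if_true] at hfinal
  have hc2 : (Fintype.card (annih N₂) : ℂ) ≠ 0 := Nat.cast_ne_zero.mpr Fintype.card_ne_zero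
  have hc1 : (Fintype.card (annih N₁) : ℂ) ≠ 0 := Nat.cast_ne_zero.mpr Fintype.card_ne_zero
  exact (mul_eq_zero.mp hfinal).resolve_right (mul_ne_zero hc2 hc1)

end Cfsg.Agent.S1503
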