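import Mathlib
import Cfsg.Statements.S1504
import Cfsg.Agent.Lib.Helper25.Basic

set_option autoImplicit false
open Cfsg

namespace Cfsg.Agent.S1504

open Cfsg.Agent.Lib.Helper25

theorem hom_ext_sup {G : Type*} [Group G] (W₁ W₂ : Subgroup G)
    (hcomm : ∀ a ∈ W₁, ∀ b ∈ W₂, a * b = b * a) (ω ω' : ↥(W₁ ⊔ W₂) →* ℂˣ)
    (h1 : ∀ w : ↥(W₁ ⊔ W₂), (w : G) ∈ W₁ → ω w = ω' w)
    (h2 : ∀ w : ↥(W₁ ⊔ W₂), (w : G) ∈ W₂ → ω w = ω' w) : ω = ω' := by
  apply MonoidHom.ext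
  rintro ⟨x, hx⟩
  obtain ⟨a, ha, b, hb, rfl⟩ := (mem_sup_of_commute hcomm).mp hx
  have e : (⟨a * b, hx⟩ : ↥(W₁ ⊔ W₂)) =
      ⟨a, Subgroup.mem_sup_left ha⟩ * ⟨b, Subgroup.mem_sup_right hb⟩ := rfl
  rw [e, map_mul, map_mul, h1 _ ha, h2 _ hb]

/-- Let W₁, W₂ be subgroups of a finite group with W₁ ⊓ W₂ = ⊥ whose elements commute, and W = W₁ ⊔ W₂. For linear characters φ, ψ of W with φ trivial on W₂ and ψ trivial on W₁, the function (1 − φ)(1 − ψ) vanishes on W₁ ∪ W₂; and the family of these functions, indexed by pairs (φ, ψ) with φ ≠ 1 ≠ ψ, is linearly independent over ℂ. -/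
theorem result {G : Type*} [Group G] [Finite G] (W₁ W₂ : Subgroup G) (hdisj : W₁ ⊓ W₂ = ⊥) (hcomm : ∀ a ∈ W₁, ∀ b ∈ W₂, a * b = b * a) : (∀ φ ψ : ↥(W₁ ⊔ W₂) →* ℂˣ, (∀ w : ↥(W₁ ⊔ W₂), (w : G) ∈ W₂ → φ w = 1) → (∀ w : ↥(W₁ ⊔ W₂), (w : G) ∈ W₁ → ψ w = 1) → ∀ w : ↥(W₁ ⊔ W₂), ((w : G) ∈ W₁ ∨ (w : G) ∈ W₂) → (1 - (φ w : ℂ) - (ψ w : ℂ) + (φ w : ℂ) * (ψ w : ℂ)) = 0) ∧ LinearIndependent ℂ (fun p : {p : (↥(W₁ ⊔ W₂) →* ℂˣ) × (↥(W₁ ⊔ W₂) →* ℂˣ) // p.1 ≠ 1 ∧ p.2 ≠ 1 ∧ (∀ w : ↥(W₁ ⊔ W₂), (w : G) ∈ W₂ → p.1 w = 1) ∧ (∀ w : ↥(W₁ ⊔ W₂), (w : G) ∈ W₁ → p.2 w = 1)} => fun w : ↥(W₁ ⊔ W₂) => 1 - (p.1.1 w : ℂ) - (p.1.2 w : ℂ) + (p.1.1 w : ℂ) * (p.1.2 w : ℂ)) := by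
  classical
  refine ⟨?_, ?_⟩
  · intro φ ψ hφ hψ w hw
    rcases hw with hw | hw
    · rw [hψ w hw]; simp
    · rw [hφ w hw]; simp
  · -- independence of the linear characters
    have hE : LinearIndependent ℂ
        (fun ω : ↥(W₁ ⊔ W₂) →* ℂˣ => fun w : ↥(W₁ ⊔ W₂) => (ω w : ℂ)) := by
      have h := linearIndependent_monoidHom ↥(W₁ ⊔ W₂) ℂ
      have hinj : Function.Injective
          (fun ω : ↥(W₁ ⊔ W₂) →* ℂˣ => (Units.coeHom ℂ).comp ω) := by
        intro ω ω' hh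
        apply MonoidHom.ext
        intro w
        have := congrArg (fun f : ↥(W₁ ⊔ W₂) →* ℂ => f w) hh
        exact Units.ext this
      have h2 : LinearIndependent ℂ
          ((fun f : ↥(W₁ ⊔ W₂) →* ℂ => (f : ↥(W₁ ⊔ W₂) → ℂ)) ∘
            (fun ω : ↥(W₁ ⊔ W₂) →* ℂˣ => (Units.coeHom ℂ).comp ω)) := h.comp _ hinj
      exact h2
    have : Finite (↥(W₁ ⊔ W₂) →* ℂˣ) := hE.finite_of_isNoetherian
    have : Fintype (↥(W₁ ⊔ W₂) →* ℂˣ) := Fintype.ofFinite _
    have : Fintype {p : (↥(W₁ ⊔ W₂) →* ℂˣ) × (↥(W₁ ⊔ W₂) →* ℂˣ) // p.1 ≠ 1 ∧ p.2 ≠ 1 ∧ (∀ w : ↥(W₁ ⊔ W₂), (w : G) ∈ W₂ → p.1 w = 1) ∧ (∀ w : ↥(W₁ ⊔ W₂), (w : G) ∈ W₁ → p.2 w = 1)} := Fintype.ofFinite _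
    rw [Fintype.linearIndependent_iff]
    intro g hg p₀
    let Gc : (↥(W₁ ⊔ W₂) →* ℂˣ) → ℂ := fun ω => ∑ p : {p : (↥(W₁ ⊔ W₂) →* ℂˣ) × (↥(W₁ ⊔ W₂) →* ℂˣ) // p.1 ≠ 1 ∧ p.2 ≠ 1 ∧ (∀ w : ↥(W₁ ⊔ W₂), (w : G) ∈ W₂ → p.1 w = 1) ∧ (∀ w : ↥(W₁ ⊔ W₂), (w : G) ∈ W₁ → p.2 w = 1)},
      g p * ((if ω = 1 then 1 else 0) - (if ω = p.1.1 then 1 else 0) - (if ω = p.1.2 then 1 else 0)
        + (if ω = p.1.1 * p.1.2 then 1 else 0))
    have hG : ∑ ω : ↥(W₁ ⊔ W₂) →* ℂˣ, Gc ω • (fun w : ↥(W₁ ⊔ W₂) => (ω w : ℂ)) = 0 := by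
      rw [← hg]
      simp only [Gc, Finset.sum_smul]
      rw [Finset.sum_comm]
      refine Finset.sum_congr rfl (fun p _ => ?_)
      simp only [mul_smul]
      rw [← Finset.smul_sum]
      congr 1
      simp only [add_smul, sub_smul, ite_smul, one_smul, zero_smul, Finset.sum_add_distrib,
        Finset.sum_sub_distrib, Finset.sum_ite_eq', Finset.mem_univ, if_true]
      ext w
      simp
    have hG0 := (Fintype.linearIndependent_iff.mp hE) Gc hG (p₀.1.1 * p₀.1.2)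
    -- evaluate the coefficient
    have hval : Gc (p₀.1.1 * p₀.1.2) = g p₀ := by
      simp only [Gc]
      rw [Finset.sum_eq_single p₀]
      · have h1 : p₀.1.1 * p₀.1.2 ≠ 1 := by
          intro h
          apply p₀.2.1
          apply hom_ext_sup W₁ W₂ hcomm
          · intro w hw
            have := congrArg (fun f : ↥(W₁ ⊔ W₂) →* ℂˣ => f w) h
            simp only [MonoidHom.mul_apply, MonoidHom.one_apply] at this
            rw [p₀.2.2.2.2 w hw, mul_one] at this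
            rw [this, MonoidHom.one_apply]
          · intro w hw
            rw [p₀.2.2.2.1 w hw, MonoidHom.one_apply]
        have h2 : p₀.1.1 * p₀.1.2 ≠ p₀.1.1 := by
          intro h
          apply p₀.2.2.1
          exact mul_left_cancel (h.trans (mul_one p₀.1.1).symm)
        have h3 : p₀.1.1 * p₀.1.2 ≠ p₀.1.2 := by
          intro h
          apply p₀.2.1
          exact mul_right_cancel (h.trans (one_mul p₀.1.2).symm)
        rw [if_neg h1, if_neg h2, if_neg h3, if_pos rfl]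
        ring
      · intro p _ hp
        have h1 : p₀.1.1 * p₀.1.2 ≠ 1 := by
          intro h
          apply p₀.2.1
          apply hom_ext_sup W₁ W₂ hcomm
          · intro w hw
            have := congrArg (fun f : ↥(W₁ ⊔ W₂) →* ℂˣ => f w) h
            simp only [MonoidHom.mul_apply, MonoidHom.one_apply] at this
            rw [p₀.2.2.2.2 w hw, mul_one] at this
            rw [this, MonoidHom.one_apply]
          · intro w hw
            rw [p₀.2.2.2.1 w hw, MonoidHom.one_apply]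
        have h2 : p₀.1.1 * p₀.1.2 ≠ p.1.1 := by
          intro h
          apply p₀.2.2.1
          apply hom_ext_sup W₁ W₂ hcomm
          · intro w hw
            rw [p₀.2.2.2.2 w hw, MonoidHom.one_apply]
          · intro w hw
            have := congrArg (fun f : ↥(W₁ ⊔ W₂) →* ℂˣ => f w) h
            simp only [MonoidHom.mul_apply] at this
            rw [p₀.2.2.2.1 w hw, one_mul, p.2.2.2.1 w hw] at this
            rw [this, MonoidHom.one_apply]
        have h3 : p₀.1.1 * p₀.1.2 ≠ p.1.2 := by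
          intro h
          apply p₀.2.1
          apply hom_ext_sup W₁ W₂ hcomm
          · intro w hw
            have := congrArg (fun f : ↥(W₁ ⊔ W₂) →* ℂˣ => f w) h
            simp only [MonoidHom.mul_apply] at this
            rw [p₀.2.2.2.2 w hw, mul_one, p.2.2.2.2 w hw] at this
            rw [this, MonoidHom.one_apply]
          · intro w hw
            rw [p₀.2.2.2.1 w hw, MonoidHom.one_apply]
        have h4 : p₀.1.1 * p₀.1.2 ≠ p.1.1 * p.1.2 := by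
          intro h
          apply hp
          have e1 : p.1.1 = p₀.1.1 := by
            apply hom_ext_sup W₁ W₂ hcomm
            · intro w hw
              have := congrArg (fun f : ↥(W₁ ⊔ W₂) →* ℂˣ => f w) h
              simp only [MonoidHom.mul_apply] at this
              rw [p₀.2.2.2.2 w hw, mul_one, p.2.2.2.2 w hw, mul_one] at this
              exact this.symm
            · intro w hw
              rw [p₀.2.2.2.1 w hw, p.2.2.2.1 w hw]
          have e2 : p.1.2 = p₀.1.2 := by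
            apply hom_ext_sup W₁ W₂ hcomm
            · intro w hw
              rw [p₀.2.2.2.2 w hw, p.2.2.2.2 w hw]
            · intro w hw
              have := congrArg (fun f : ↥(W₁ ⊔ W₂) →* ℂˣ => f w) h
              simp only [MonoidHom.mul_apply] at this
              rw [p₀.2.2.2.1 w hw, one_mul, p.2.2.2.1 w hw, one_mul] at this
              exact this.symm
          exact Subtype.ext (Prod.ext e1 e2)
        rw [if_neg h1, if_neg h2, if_neg h3, if_neg h4]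
        ring
      · intro h
        exact absurd (Finset.mem_univ p₀) h
    rw [← hval]
    exact hG0

end Cfsg.Agent.S1504
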