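import Mathlib
import Cfsg.Statements.S1506
import Cfsg.Agent.Lib.Helper25.IndFun

set_option autoImplicit false
open Cfsg

namespace Cfsg.Agent.S1506

open Cfsg.Agent.Lib.Helper25
open scoped ComplexConjugate

/-- The basic relation: `a(φψ) = a(φ) + a(ψ) - a(1)`. -/
theorem key {G : Type*} [Group G] [Fintype G] (W₁ W₂ : Subgroup G)
    (χ : (↥(W₁ ⊔ W₂) →* ℂˣ) → (G → ℂ)) (hχ : Cfsg.IsCyclicTIFamily W₁ W₂ χ) (θ : G → ℂ)
    (hθ : Cfsg.IsClassFunction G θ)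
    (hθV : ∀ w : ↥(W₁ ⊔ W₂), (w : G) ∉ W₁ → (w : G) ∉ W₂ → θ w = 0)
    (φ ψ : ↥(W₁ ⊔ W₂) →* ℂˣ) (hφ₂ : ∀ w : ↥(W₁ ⊔ W₂), (w : G) ∈ W₂ → φ w = 1)
    (hψ₁ : ∀ w : ↥(W₁ ⊔ W₂), (w : G) ∈ W₁ → ψ w = 1) :
    Cfsg.classInner θ (χ (φ * ψ)) =
      Cfsg.classInner θ (χ φ) + Cfsg.classInner θ (χ ψ) - Cfsg.classInner θ (χ 1) := by
  by_cases hφ : φ = 1
  · have e : φ * ψ = ψ := by rw [hφ]; exact one_mul ψ
    rw [e, hφ]; ring
  by_cases hψ : ψ = 1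
  · have e : φ * ψ = φ := by rw [hψ]; exact mul_one φ
    rw [e, hψ]; ring
  have hind := hχ.induced_eq φ ψ hφ hψ hφ₂ hψ₁
  have h0 : Cfsg.classInner θ (Cfsg.indFun (W₁ ⊔ W₂)
      (fun w => 1 - (φ w : ℂ) - (ψ w : ℂ) + (φ w : ℂ) * (ψ w : ℂ))) = 0 := by
    rw [classInner_indFun_right _ _ θ hθ]
    apply mul_eq_zero_of_right
    apply Finset.sum_eq_zero
    intro g _
    by_cases hg : g ∈ W₁ ⊔ W₂
    · rw [extendByZero_of_mem _ _ hg]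
      by_cases hg1 : g ∈ W₁
      · have := hψ₁ ⟨g, hg⟩ hg1
        simp [this]
      · by_cases hg2 : g ∈ W₂
        · have := hφ₂ ⟨g, hg⟩ hg2
          simp [this]
        · have := hθV ⟨g, hg⟩ hg1 hg2
          simp only at this
          rw [this, zero_mul]
    · rw [extendByZero_of_not_mem _ _ hg, map_zero, mul_zero]
  rw [hind] at h0
  have h1 : χ 1 = fun _ => 1 := hχ.map_one
  unfold Cfsg.classInner at h0 ⊢
  rw [h1]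
  have hsum : ∑ g : G, θ g * conj (1 - χ φ g - χ ψ g + χ (φ * ψ) g) =
      ∑ g : G, θ g * conj (1 : ℂ) - ∑ g : G, θ g * conj (χ φ g) - ∑ g : G, θ g * conj (χ ψ g) +
        ∑ g : G, θ g * conj (χ (φ * ψ) g) := by
    rw [← Finset.sum_sub_distrib, ← Finset.sum_sub_distrib, ← Finset.sum_add_distrib]
    refine Finset.sum_congr rfl (fun g _ => ?_)
    rw [map_add, map_sub, map_sub]
    ring
  rw [hsum] at h0
  have hc : (Nat.card G : ℂ)⁻¹ ≠ 0 := by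
    rw [Nat.card_eq_fintype_card]
    exact inv_ne_zero card_ne_zero_complex
  have h2 := (mul_eq_zero.mp h0).resolve_left hc
  beta_reduce
  have h3 : ∑ g : G, θ g * conj (χ (φ * ψ) g) =
      ∑ g : G, θ g * conj (χ φ g) + ∑ g : G, θ g * conj (χ ψ g) - ∑ g : G, θ g * conj (1 : ℂ) := by
    linear_combination h2
  rw [h3]
  ring

/-- Let W₁, W₂ ≤ G form a self-normalising cyclic subgroup W = W₁ ⊔ W₂ and χ an orthonormal family of irreducible characters of G up to sign, indexed by the linear characters ω of W, with χ_1 = 1, χ_ω = ω on W outside W₁ ∪ W₂, and the induction identity for (1 − φ)(1 − ψ). Let θ be a class function of G vanishing at every element of W outside W₁ ∪ W₂. For linear characters φ, φ' of W trivial on W₂ and ψ, ψ' trivial on W₁, the inner products a(ω) = ⟨θ, χ ω⟩ satisfy a(φψ) + a(φ'ψ') = a(φψ') + a(φ'ψ). -/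
theorem result {G : Type*} [Group G] [Fintype G] (W₁ W₂ : Subgroup G) (hW : Cfsg.IsSelfNormalizingCyclic W₁ W₂) (χ : (↥(W₁ ⊔ W₂) →* ℂˣ) → (G → ℂ)) (hχ : Cfsg.IsCyclicTIFamily W₁ W₂ χ) (θ : G → ℂ) (hθ : Cfsg.IsClassFunction G θ) (hθV : ∀ w : ↥(W₁ ⊔ W₂), (w : G) ∉ W₁ → (w : G) ∉ W₂ → θ w = 0) (φ φ' ψ ψ' : ↥(W₁ ⊔ W₂) →* ℂˣ) (hφ₂ : ∀ w : ↥(W₁ ⊔ W₂), (w : G) ∈ W₂ → φ w = 1 ∧ φ' w = 1) (hψ₁ : ∀ w : ↥(W₁ ⊔ W₂), (w : G) ∈ W₁ → ψ w = 1 ∧ ψ' w = 1) : Cfsg.classInner θ (χ (φ * ψ)) + Cfsg.classInner θ (χ (φ' * ψ')) = Cfsg.classInner θ (χ (φ * ψ')) + Cfsg.classInner θ (χ (φ' * ψ)) := by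
  have a1 := fun w h => (hφ₂ w h).1
  have a2 := fun w h => (hφ₂ w h).2
  have b1 := fun w h => (hψ₁ w h).1
  have b2 := fun w h => (hψ₁ w h).2
  rw [key W₁ W₂ χ hχ θ hθ hθV φ ψ a1 b1, key W₁ W₂ χ hχ θ hθ hθV φ' ψ' a2 b2,
    key W₁ W₂ χ hχ θ hθ hθV φ ψ' a1 b2, key W₁ W₂ χ hχ θ hθ hθV φ' ψ a2 b1]
  ring

end Cfsg.Agent.S1506
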