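import Mathlib
import Cfsg.Statements.S1507
import Cfsg.Agent.S1506
import Cfsg.Agent.Lib.Helper25.AnnihCard
import Cfsg.Agent.Lib.Helper25.MatrixCount

set_option autoImplicit false
open Cfsg

namespace Cfsg.Agent.S1507

open Cfsg.Agent.Lib.Helper25


open Classical in
/-- Let W₁, W₂ ≤ G form a self-normalising cyclic subgroup W = W₁ ⊔ W₂ of odd order with Nat.card W₁ < Nat.card W₂, and χ an orthonormal family of irreducible characters of G up to sign, indexed by the linear characters ω of W, with χ_1 = 1, χ_ω = ω on W outside W₁ ∪ W₂, and the induction identity for (1 − φ)(1 − ψ). Let θ be a class function of G vanishing on W outside W₁ ∪ W₂, and suppose fewer than 2 · Nat.card W₁ linear characters ω of W have ⟨θ, χ ω⟩ ≠ 0. Then one of: all ⟨θ, χ ω⟩ vanish; or there are ψ₀ and a with ⟨θ, χ ω⟩ = a when ω ψ₀⁻¹ is trivial on W₂ and 0 otherwise; or there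 are φ₀ and a with ⟨θ, χ ω⟩ = a when ω φ₀⁻¹ is trivial on W₁ and 0 otherwise. -/
theorem result {G : Type*} [Group G] [Fintype G] (W₁ W₂ : Subgroup G) (hW : Cfsg.IsSelfNormalizingCyclic W₁ W₂) (hodd : Odd (Nat.card ↥(W₁ ⊔ W₂))) (χ : (↥(W₁ ⊔ W₂) →* ℂˣ) → (G → ℂ)) (hχ : Cfsg.IsCyclicTIFamily W₁ W₂ χ) (hlt : Nat.card W₁ < Nat.card W₂) (θ : G → ℂ) (hθ : Cfsg.IsClassFunction G θ) (hθV : ∀ w : ↥(W₁ ⊔ W₂), (w : G) ∉ W₁ → (w : G) ∉ W₂ → θ w = 0) (hfew : Nat.card {ω : ↥(W₁ ⊔ W₂) →* ℂˣ // Cfsg.classInner θ (χ ω) ≠ 0} < 2 * Nat.card W₁) : (∀ ω, Cfsg.classInner θ (χ ω) = 0) ∨ (∃ (ψ₀ : ↥(W₁ ⊔ W₂) →* ℂˣ) (a : ℂ), ∀ ω, Cfsg.classInner θ (χ ω) = if (∀ w : ↥(W₁ ⊔ W₂), (w : G) ∈ W₂ → (ω * ψ₀⁻¹) w = 1) then a else 0) ∨ (∃ (φ₀ : ↥(W₁ ⊔ W₂) →* ℂˣ) (a : ℂ), ∀ ω, Cfsg.classInner θ (χ ω) = if (∀ w : ↥(W₁ ⊔ W₂), (w : G) ∈ W₁ → (ω * φ₀⁻¹) w = 1) then a else 0) := by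
  classical
  let _ : Fintype ↥(W₁ ⊔ W₂) := Fintype.ofFinite _
  obtain ⟨hne1, hne2, hdisj, hcomm, hcyc, -⟩ := hW
  have hc : ∀ a b : ↥(W₁ ⊔ W₂), a * b = b * a := fun a b => mul_comm' a b
  have hfin : Finite (↥(W₁ ⊔ W₂) →* ℂˣ) := finite_linChar _
  let _ : Fintype (annih (W₁.subgroupOf (W₁ ⊔ W₂))) := Fintype.ofFinite _
  let _ : Fintype (annih (W₂.subgroupOf (W₁ ⊔ W₂))) := Fintype.ofFinite _
  have hcardΦ : Fintype.card (annih (W₂.subgroupOf (W₁ ⊔ W₂))) = Nat.card W₁ := by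
    rw [← Nat.card_eq_fintype_card]
    exact card_annih_right W₁ W₂ hdisj hcomm hcyc
  have hcardΨ : Fintype.card (annih (W₁.subgroupOf (W₁ ⊔ W₂))) = Nat.card W₂ := by
    rw [← Nat.card_eq_fintype_card]
    exact card_annih_left W₁ W₂ hdisj hcomm hcyc
  have hcardW := card_sup_of_isCyclic W₁ W₂ hdisj hcomm hcyc
  have hodd1 : Odd (Nat.card W₁) := by
    rw [hcardW] at hodd
    exact (Nat.odd_mul.mp hodd).1
  have hodd2 : Odd (Nat.card W₂) := by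
    rw [hcardW] at hodd
    exact (Nat.odd_mul.mp hodd).2
  have hW₁3 : 3 ≤ Nat.card W₁ := by
    have h1 : Nat.card W₁ ≠ 1 := fun h => hne1 (Subgroup.card_eq_one.mp h)
    have h2 : 0 < Nat.card W₁ := Nat.card_pos
    obtain ⟨k, hk⟩ := hodd1
    omega
  have hW₂ : Nat.card W₁ + 2 ≤ Nat.card W₂ := by
    obtain ⟨k, hk⟩ := hodd1
    obtain ⟨l, hl⟩ := hodd2
    omega
  have hP : ∀ φ : annih (W₂.subgroupOf (W₁ ⊔ W₂)), ∀ w : ↥(W₁ ⊔ W₂), (w : G) ∈ W₂ →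
      φ.1 w = 1 := fun φ w hw => φ.2 w (Subgroup.mem_subgroupOf.mpr hw)
  have hQ : ∀ ψ : annih (W₁.subgroupOf (W₁ ⊔ W₂)), ∀ w : ↥(W₁ ⊔ W₂), (w : G) ∈ W₁ →
      ψ.1 w = 1 := fun ψ w hw => ψ.2 w (Subgroup.mem_subgroupOf.mpr hw)
  have hkey : ∀ (φ : annih (W₂.subgroupOf (W₁ ⊔ W₂))) (ψ : annih (W₁.subgroupOf (W₁ ⊔ W₂))),
      Cfsg.classInner θ (χ (φ.1 * ψ.1)) = Cfsg.classInner θ (χ φ.1) +
        (Cfsg.classInner θ (χ ψ.1) - Cfsg.classInner θ (χ 1)) := by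
    intro φ ψ
    rw [Cfsg.Agent.S1506.key W₁ W₂ χ hχ θ hθ hθV φ.1 ψ.1 (hP φ) (hQ ψ)]
    ring
  have hZ : (Finset.univ.filter (fun x : annih (W₂.subgroupOf (W₁ ⊔ W₂)) ×
      annih (W₁.subgroupOf (W₁ ⊔ W₂)) => Cfsg.classInner θ (χ x.1.1) +
        (Cfsg.classInner θ (χ x.2.1) - Cfsg.classInner θ (χ 1)) ≠ 0)).card <
      2 * Fintype.card (annih (W₂.subgroupOf (W₁ ⊔ W₂))) := by
    rw [hcardΦ]
    refine lt_of_le_of_lt ?_ hfew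
    rw [← Nat.card_eq_finsetCard]
    refine Nat.card_le_card_of_injective
      (fun x => (⟨x.1.1.1 * x.1.2.1, by
        have h1 := (Finset.mem_filter.mp x.2).2
        rw [hkey]
        exact h1⟩ : {ω : ↥(W₁ ⊔ W₂) →* ℂˣ // Cfsg.classInner θ (χ ω) ≠ 0})) ?_
    intro x y hxy
    have h1 : x.1.1.1 * x.1.2.1 = y.1.1.1 * y.1.2.1 := congrArg Subtype.val hxy
    have h2 := (linChar_mul_eq_mul_iff W₁ W₂ hcomm x.1.1.1 y.1.1.1 x.1.2.1 y.1.2.1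
      (hP x.1.1) (hP y.1.1) (hQ x.1.2) (hQ y.1.2)).mp h1
    exact Subtype.ext (Prod.ext (Subtype.ext h2.1) (Subtype.ext h2.2))
  rcases sum_matrix_structure
      (fun φ : annih (W₂.subgroupOf (W₁ ⊔ W₂)) => Cfsg.classInner θ (χ φ.1))
      (fun ψ : annih (W₁.subgroupOf (W₁ ⊔ W₂)) =>
        Cfsg.classInner θ (χ ψ.1) - Cfsg.classInner θ (χ 1))
      (by rw [hcardΦ]; exact hW₁3) (by rw [hcardΦ, hcardΨ]; exact hW₂) hZ with
    ⟨ψ₀, b, h⟩ | ⟨φ₀, b, h⟩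
  · right
    left
    refine ⟨ψ₀.1, b, ?_⟩
    intro ω
    obtain ⟨φ, ψ, hφ, hψ, rfl⟩ := exists_linChar_decomp W₁ W₂ hdisj hcomm hcyc ω
    have hφm : φ ∈ annih (W₂.subgroupOf (W₁ ⊔ W₂)) :=
      (mem_annih _ φ).mpr (fun w hw => hφ w (Subgroup.mem_subgroupOf.mp hw))
    have hψm : ψ ∈ annih (W₁.subgroupOf (W₁ ⊔ W₂)) :=
      (mem_annih _ ψ).mpr (fun w hw => hψ w (Subgroup.mem_subgroupOf.mp hw))
    have e := h ⟨φ, hφm⟩ ⟨ψ, hψm⟩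
    have e2 := hkey ⟨φ, hφm⟩ ⟨ψ, hψm⟩
    simp only at e e2
    rw [e2, e]
    by_cases hψeq : ψ = ψ₀.1
    · have hcond : ∀ w : ↥(W₁ ⊔ W₂), (w : G) ∈ W₂ → (φ * ψ * ψ₀.1⁻¹) w = 1 := by
        intro w hw
        rw [MonoidHom.mul_apply, MonoidHom.mul_apply, MonoidHom.inv_apply, hφ w hw, one_mul,
          hψeq, mul_inv_cancel]
      rw [if_pos hcond, if_pos (Subtype.ext hψeq)]
    · have hcond : ¬ ∀ w : ↥(W₁ ⊔ W₂), (w : G) ∈ W₂ → (φ * ψ * ψ₀.1⁻¹) w = 1 := by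
        intro hcon
        apply hψeq
        apply linChar_ext_sup W₁ W₂ hcomm
        · intro w hw
          rw [hψ w hw, hQ ψ₀ w hw]
        · intro w hw
          have h1 := hcon w hw
          rw [MonoidHom.mul_apply, MonoidHom.mul_apply, MonoidHom.inv_apply, hφ w hw,
            one_mul] at h1
          exact mul_inv_eq_one.mp h1
      rw [if_neg hcond, if_neg (fun h => hψeq (congrArg Subtype.val h))]
  · right
    right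
    refine ⟨φ₀.1, b, ?_⟩
    intro ω
    obtain ⟨φ, ψ, hφ, hψ, rfl⟩ := exists_linChar_decomp W₁ W₂ hdisj hcomm hcyc ω
    have hφm : φ ∈ annih (W₂.subgroupOf (W₁ ⊔ W₂)) :=
      (mem_annih _ φ).mpr (fun w hw => hφ w (Subgroup.mem_subgroupOf.mp hw))
    have hψm : ψ ∈ annih (W₁.subgroupOf (W₁ ⊔ W₂)) :=
      (mem_annih _ ψ).mpr (fun w hw => hψ w (Subgroup.mem_subgroupOf.mp hw))
    have e := h ⟨φ, hφm⟩ ⟨ψ, hψm⟩
    have e2 := hkey ⟨φ, hφm⟩ ⟨ψ, hψm⟩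
    simp only at e e2
    rw [e2, e]
    by_cases hφeq : φ = φ₀.1
    · have hcond : ∀ w : ↥(W₁ ⊔ W₂), (w : G) ∈ W₁ → (φ * ψ * φ₀.1⁻¹) w = 1 := by
        intro w hw
        rw [MonoidHom.mul_apply, MonoidHom.mul_apply, MonoidHom.inv_apply, hψ w hw, mul_one,
          hφeq, mul_inv_cancel]
      rw [if_pos hcond, if_pos (Subtype.ext hφeq)]
    · have hcond : ¬ ∀ w : ↥(W₁ ⊔ W₂), (w : G) ∈ W₁ → (φ * ψ * φ₀.1⁻¹) w = 1 := by
        intro hcon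
        apply hφeq
        apply linChar_ext_sup W₁ W₂ hcomm
        · intro w hw
          have h1 := hcon w hw
          rw [MonoidHom.mul_apply, MonoidHom.mul_apply, MonoidHom.inv_apply, hψ w hw,
            mul_one] at h1
          exact mul_inv_eq_one.mp h1
        · intro w hw
          rw [hφ w hw, hP φ₀ w hw]
      rw [if_neg hcond, if_neg (fun h => hφeq (congrArg Subtype.val h))]

end Cfsg.Agent.S1507
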