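import Mathlib
import Cfsg.Statements.S1508
import Cfsg.Agent.Lib.Helper25.GalFamily
import Cfsg.Agent.Lib.Helper25.RatChar
import Cfsg.Agent.Lib.Helper75.GaloisAut

set_option autoImplicit false
open Cfsg

namespace Cfsg.Agent.S1508

open Cfsg.Agent.Lib.Helper25 Cfsg.Agent.Lib.Helper80


/-- Let W₁, W₂ ≤ G form a self-normalising cyclic subgroup W = W₁ ⊔ W₂ of odd order and χ an orthonormal family of irreducible characters of G up to sign, indexed by the linear characters ω of W, with χ_1 = 1, χ_ω = ω on W outside W₁ ∪ W₂, and the induction identity for (1 − φ)(1 − ψ). Let ω be a linear character of W and g an element of G whose order is coprime to the order of ω. Then χ ω g is an integer. -/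
theorem result {G : Type*} [Group G] [Fintype G] (W₁ W₂ : Subgroup G) (hW : Cfsg.IsSelfNormalizingCyclic W₁ W₂) (hodd : Odd (Nat.card ↥(W₁ ⊔ W₂))) (χ : (↥(W₁ ⊔ W₂) →* ℂˣ) → (G → ℂ)) (hχ : Cfsg.IsCyclicTIFamily W₁ W₂ χ) (ω : ↥(W₁ ⊔ W₂) →* ℂˣ) (g : G) (hg : Nat.Coprime (orderOf g) (orderOf ω)) : ∃ n : ℤ, χ ω g = n := by
  classical
  have hinv : ∀ m : ℕ, m.Coprime (orderOf g) → χ ω (g ^ m) = χ ω g := by
    intro m hm
    have hdpos : 0 < orderOf ω := by
      have h1 : orderOf ω ∣ Nat.card ↥(W₁ ⊔ W₂) :=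
        orderOf_dvd_of_pow_eq_one (linChar_pow_card ω)
      exact Nat.pos_of_dvd_of_pos h1 Nat.card_pos
    have hepos : 0 < orderOf g := orderOf_pos g
    obtain ⟨r, hr1, hr2⟩ := Nat.chineseRemainder hg m 1
    have hre : Nat.Coprime r (orderOf g) := by
      unfold Nat.Coprime
      rw [hr1.gcd_eq]
      exact hm
    have hrd : Nat.Coprime r (orderOf ω) := by
      unfold Nat.Coprime
      rw [hr2.gcd_eq]
      exact Nat.gcd_one_left _
    obtain ⟨σ, hσ⟩ := Cfsg.Agent.Lib.Helper75.exists_ringEquiv_pow (orderOf g * orderOf ω) r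
      (Nat.mul_pos hepos hdpos) (Nat.Coprime.mul_right hre hrd)
    have hfixω : galLin σ ω = ω := by
      apply MonoidHom.ext
      intro w
      apply Units.ext
      rw [galLin_apply]
      have h1 : ((ω w : ℂˣ) : ℂ) ^ (orderOf g * orderOf ω) = 1 := by
        rw [mul_comm, pow_mul, ← Units.val_pow_eq_pow_val, ← MonoidHom.pow_apply,
          pow_orderOf_eq_one, MonoidHom.one_apply, Units.val_one, one_pow]
      rw [hσ _ h1, ← Units.val_pow_eq_pow_val, linChar_apply_pow_eq_self ω r hr2 w]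
    have hfam := galois_family W₁ W₂ hW hodd χ hχ σ ω
    rw [hfixω] at hfam
    have h1 : σ (χ ω g) = χ ω g := congrFun hfam g
    have hgr : g ^ r = g ^ m := pow_eq_pow_iff_modEq.mpr hr1
    have hσe : ∀ ζ : ℂ, ζ ^ orderOf g = 1 → σ ζ = ζ ^ r := by
      intro ζ hζ
      apply hσ
      rw [pow_mul, hζ, one_pow]
    rcases hχ.irr_or_neg ω with hi | hi
    · have h2 := char_galois_pow_of_orderOf (isCharacter_of_isIrrCharacter hi) g σ r hσe
      rw [← hgr, ← h2, h1]
    · have h2 := char_galois_pow_of_orderOf (isCharacter_of_isIrrCharacter hi) g σ r hσe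
      simp only [Pi.neg_apply, map_neg] at h2
      have h3 := neg_injective h2
      rw [← hgr, ← h3, h1]
  rcases hχ.irr_or_neg ω with hi | hi
  · obtain ⟨z, hz⟩ := char_int_of_pow_invariant (isCharacter_of_isIrrCharacter hi) g hinv
    exact ⟨z, hz⟩
  · have hinv' : ∀ m : ℕ, m.Coprime (orderOf g) → (-χ ω) (g ^ m) = (-χ ω) g := by
      intro m hm
      simp only [Pi.neg_apply]
      rw [hinv m hm]
    obtain ⟨z, hz⟩ := char_int_of_pow_invariant (isCharacter_of_isIrrCharacter hi) g hinv'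
    refine ⟨-z, ?_⟩
    simp only [Pi.neg_apply] at hz
    rw [Int.cast_neg, ← hz, neg_neg]

end Cfsg.Agent.S1508
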