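import Mathlib
import Cfsg.Statements.S1509
import Cfsg.Agent.Lib.Helper80.Orthogonality

set_option autoImplicit false
open Cfsg

namespace Cfsg.Agent.S1509

open Cfsg.Agent.Lib.Helper80
open scoped ComplexConjugate

theorem signed {X : Type*} [Group X] (a : X → ℂ)
    (h : Cfsg.IsIrrCharacter X a ∨ Cfsg.IsIrrCharacter X (-a)) :
    ∃ (ε : ℂ) (a₀ : X → ℂ), (ε = 1 ∨ ε = -1) ∧ Cfsg.IsIrrCharacter X a₀ ∧ a = ε • a₀ := by
  rcases h with h | h
  · exact ⟨1, a, Or.inl rfl, h, by simp⟩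
  · exact ⟨-1, -a, Or.inr rfl, h, by simp⟩

theorem classInner_sub_right' {X : Type*} [Group X] [Fintype X] (f ψ₁ ψ₂ : X → ℂ) :
    Cfsg.classInner f (ψ₁ - ψ₂) = Cfsg.classInner f ψ₁ - Cfsg.classInner f ψ₂ := by
  unfold Cfsg.classInner
  simp only [Pi.sub_apply, map_sub, mul_sub, Finset.sum_sub_distrib]

open Classical in
theorem inner_signed {X : Type*} [Group X] [Fintype X] (s t : ℂ) (a b : X → ℂ)
    (ha : Cfsg.IsIrrCharacter X a) (hb : Cfsg.IsIrrCharacter X b) :
    Cfsg.classInner (s • a) (t • b) = s * conj t * (if a = b then 1 else 0) := by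
  rw [classInner_smul_left, classInner_smul_right, classInner_irr_fun ha hb]
  ring

theorem sign_ne_zero {ε : ℂ} (h : ε = 1 ∨ ε = -1) : ε ≠ 0 := by
  rcases h with rfl | rfl <;> norm_num

theorem sign_sq {ε : ℂ} (h : ε = 1 ∨ ε = -1) : ε * ε = 1 := by
  rcases h with rfl | rfl <;> norm_num

theorem sign_conj {ε : ℂ} (h : ε = 1 ∨ ε = -1) : conj ε = ε := by
  rcases h with rfl | rfl <;> simp

/-- Let α, β, γ, δ be functions on a finite group X each of which is an irreducible character or the negative of one, and u, v nonzero real numbers. Suppose ⟨α, β⟩ = ⟨γ, δ⟩ = 0, ⟨α − β, uγ − vδ⟩ = 0, α 1 = β 1 and u γ 1 = v δ 1. Then also ⟨α, γ⟩ = ⟨α, δ⟩ = ⟨β, γ⟩ = ⟨β, δ⟩ = 0. -/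
theorem result {X : Type*} [Group X] [Fintype X] (α β γ δ : X → ℂ) (hα : Cfsg.IsIrrCharacter X α ∨ Cfsg.IsIrrCharacter X (-α)) (hβ : Cfsg.IsIrrCharacter X β ∨ Cfsg.IsIrrCharacter X (-β)) (hγ : Cfsg.IsIrrCharacter X γ ∨ Cfsg.IsIrrCharacter X (-γ)) (hδ : Cfsg.IsIrrCharacter X δ ∨ Cfsg.IsIrrCharacter X (-δ)) (u v : ℝ) (hu : u ≠ 0) (hv : v ≠ 0) (hab : Cfsg.classInner α β = 0) (hcd : Cfsg.classInner γ δ = 0) (hmix : Cfsg.classInner (α - β) ((u : ℂ) • γ - (v : ℂ) • δ) = 0) (h1 : α 1 = β 1) (h2 : (u : ℂ) * γ 1 = (v : ℂ) * δ 1) : Cfsg.classInner α γ = 0 ∧ Cfsg.classInner α δ = 0 ∧ Cfsg.classInner β γ = 0 ∧ Cfsg.classInner β δ = 0 := by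
  classical
  obtain ⟨εa, a, hεa, ha, rfl⟩ := signed α hα
  obtain ⟨εb, b, hεb, hb, rfl⟩ := signed β hβ
  obtain ⟨εc, c, hεc, hc, rfl⟩ := signed γ hγ
  obtain ⟨εd, d, hεd, hd, rfl⟩ := signed δ hδ
  have hu' : (u : ℂ) ≠ 0 := Complex.ofReal_ne_zero.mpr hu
  have hv' : (v : ℂ) ≠ 0 := Complex.ofReal_ne_zero.mpr hv
  have na := sign_ne_zero hεa
  have nb := sign_ne_zero hεb
  have nc := sign_ne_zero hεc
  have nd := sign_ne_zero hεd
  have sa := sign_sq hεa
  have sb := sign_sq hεb
  have sc := sign_sq hεc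
  have sd := sign_sq hεd
  have hC : c 1 ≠ 0 := char_one_ne_zero hc
  have hD : d 1 ≠ 0 := char_one_ne_zero hd
  -- a ≠ b, c ≠ d
  have hab' : a ≠ b := by
    intro h
    rw [inner_signed εa εb a b ha hb, if_pos h, sign_conj hεb] at hab
    simp [na, nb] at hab
  have hcd' : c ≠ d := by
    intro h
    rw [inner_signed εc εd c d hc hd, if_pos h, sign_conj hεd] at hcd
    simp [nc, nd] at hcd
  -- expand the mixed relation
  have hmix' : (u : ℂ) * (εa * εc * (if a = c then 1 else 0)) - (v : ℂ) * (εa * εd * (if a = d then 1 else 0))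
      - (u : ℂ) * (εb * εc * (if b = c then 1 else 0)) + (v : ℂ) * (εb * εd * (if b = d then 1 else 0)) = 0 := by
    rw [classInner_sub_left, classInner_sub_right', classInner_sub_right', smul_smul, smul_smul,
      inner_signed _ _ a c ha hc, inner_signed _ _ a d ha hd, inner_signed _ _ b c hb hc,
      inner_signed _ _ b d hb hd] at hmix
    simp only [map_mul, Complex.conj_ofReal, sign_conj hεc, sign_conj hεd] at hmix
    linear_combination hmix
  have h1' : εa * a 1 = εb * b 1 := by simpa using h1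
  have h2' : (u : ℂ) * (εc * c 1) = (v : ℂ) * (εd * d 1) := by simpa using h2
  -- the four facts
  have hac : a ≠ c := by
    intro hac
    have had : a ≠ d := fun h => hcd' (hac.symm.trans h)
    have hbc : b ≠ c := fun h => hab' (hac.trans h.symm)
    rw [if_pos hac, if_neg had, if_neg hbc] at hmix'
    by_cases hbd : b = d
    · rw [if_pos hbd] at hmix'
      rw [hac, hbd] at h1'
      have : 2 * ((v : ℂ) * εd * d 1) = 0 := by
        linear_combination (εb * d 1) * hmix' - h2' + ((u : ℂ) * εc * εa) * h1'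
          - ((u : ℂ) * εc * c 1) * sa - ((v : ℂ) * εd * d 1) * sb
      simp [hv', nd, hD] at this
    · rw [if_neg hbd] at hmix'
      have : (u : ℂ) * (εa * εc) = 0 := by linear_combination hmix'
      simp [hu', na, nc] at this
  have hbd : b ≠ d := by
    intro hbd
    have had : a ≠ d := fun h => hab' (h.trans hbd.symm)
    have hbc : b ≠ c := fun h => hcd' (h.symm.trans hbd)
    rw [if_neg hac, if_neg had, if_neg hbc, if_pos hbd] at hmix'
    have : (v : ℂ) * (εb * εd) = 0 := by linear_combination hmix'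
    simp [hv', nb, nd] at this
  have had : a ≠ d := by
    intro had
    rw [if_neg hac, if_pos had, if_neg hbd] at hmix'
    by_cases hbc : b = c
    · rw [if_pos hbc] at hmix'
      rw [had, hbc] at h1'
      have : 2 * ((u : ℂ) * εc * c 1) = 0 := by
        linear_combination h2' + ((v : ℂ) * εd * εa) * h1' - (εb * c 1) * hmix'
          - ((u : ℂ) * εc * c 1) * sb - ((v : ℂ) * εd * d 1) * sa
      simp [hu', nc, hC] at this
    · rw [if_neg hbc] at hmix'
      have : (v : ℂ) * (εa * εd) = 0 := by linear_combination -hmix'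
      simp [hv', na, nd] at this
  have hbc : b ≠ c := by
    intro hbc
    rw [if_neg hac, if_neg had, if_pos hbc, if_neg hbd] at hmix'
    have : (u : ℂ) * (εb * εc) = 0 := by linear_combination -hmix'
    simp [hu', nb, nc] at this
  refine ⟨?_, ?_, ?_, ?_⟩
  · rw [inner_signed _ _ a c ha hc, if_neg hac, mul_zero]
  · rw [inner_signed _ _ a d ha hd, if_neg had, mul_zero]
  · rw [inner_signed _ _ b c hb hc, if_neg hbc, mul_zero]
  · rw [inner_signed _ _ b d hb hd, if_neg hbd, mul_zero]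

end Cfsg.Agent.S1509
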