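import Mathlib
import Cfsg.Statements.S1510
import Cfsg.Agent.Lib.Helper25.Basic

set_option autoImplicit false
open Cfsg

namespace Cfsg.Agent.S1510

open Cfsg.Agent.Lib.Helper25
open scoped Pointwise

/-- Let L be a finite group with a normal subgroup K and a nontrivial cyclic subgroup W₁ of order coprime to its index, K ⊓ W₁ = ⊥ and K ⊔ W₁ = ⊤; let W₂ ≠ ⊥ be a cyclic subgroup of K with K ⊓ C_L(x) = W₂ for every non-identity x ∈ W₁, and suppose W₁ ⊔ W₂ has odd order. Then (W₁, W₂) is a self-normalising cyclic pair in L. -/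
theorem result {L : Type*} [Group L] [Fintype L] (K W₁ W₂ : Subgroup L) [hK : K.Normal] (hKW₁ : K ⊓ W₁ = ⊥) (hKW₁' : K ⊔ W₁ = ⊤) (hW₁ : W₁ ≠ ⊥) (hW₁c : IsCyclic W₁) (hHall : Nat.Coprime (Nat.card W₁) W₁.index) (hW₂ : W₂ ≠ ⊥) (hW₂c : IsCyclic W₂) (hW₂K : W₂ ≤ K) (hC : ∀ x ∈ W₁, x ≠ 1 → K ⊓ Subgroup.centralizer ({x} : Set L) = W₂) (hodd : Odd (Nat.card ↥(W₁ ⊔ W₂))) : Cfsg.IsSelfNormalizingCyclic W₁ W₂ := by
  classical
  -- W₁ and W₂ commute elementwise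
  have hcomm : ∀ a ∈ W₁, ∀ b ∈ W₂, a * b = b * a := by
    intro a ha b hb
    by_cases ha1 : a = 1
    · rw [ha1, one_mul, mul_one]
    · rw [← hC a ha ha1] at hb
      have := (Subgroup.mem_inf.mp hb).2
      rw [Subgroup.mem_centralizer_iff] at this
      exact this a (Set.mem_singleton a)
  have hdisj : W₁ ⊓ W₂ = ⊥ := by
    rw [eq_bot_iff, ← hKW₁]
    exact le_inf (inf_le_right.trans hW₂K) inf_le_left
  -- K is a complement of W₁
  have hcompl : Subgroup.IsComplement' K W₁ := by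
    apply Subgroup.isComplement'_of_disjoint_and_mul_eq_univ
    · exact disjoint_iff.mpr hKW₁
    · rw [← Subgroup.normal_mul, hKW₁']; rfl
  have hidx : W₁.index = Nat.card K := hcompl.index_eq_card
  have hcop : (Nat.card W₁).Coprime (Nat.card W₂) := by
    apply Nat.Coprime.coprime_dvd_right (Subgroup.card_dvd_of_le hW₂K)
    rw [← hidx]; exact hHall
  -- commutativity inside W₁
  have hW₁comm : ∀ a ∈ W₁, ∀ b ∈ W₁, a * b = b * a := by
    intro a ha b hb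
    have := (IsCyclic.isMulCommutative (α := W₁)).is_comm.comm ⟨a, ha⟩ ⟨b, hb⟩
    exact congrArg Subtype.val this
  have hW₂comm : ∀ a ∈ W₂, ∀ b ∈ W₂, a * b = b * a := by
    intro a ha b hb
    have := (IsCyclic.isMulCommutative (α := W₂)).is_comm.comm ⟨a, ha⟩ ⟨b, hb⟩
    exact congrArg Subtype.val this
  -- commutativity inside W₁ ⊔ W₂
  have hWcomm : ∀ x ∈ W₁ ⊔ W₂, ∀ y ∈ W₁ ⊔ W₂, x * y = y * x := by
    intro x hx y hy
    obtain ⟨a, ha, b, hb, rfl⟩ := (mem_sup_of_commute hcomm).mp hx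
    obtain ⟨c, hc, d, hd, rfl⟩ := (mem_sup_of_commute hcomm).mp hy
    calc a * b * (c * d) = a * (b * c) * d := by group
      _ = a * (c * b) * d := by rw [hcomm c hc b hb]
      _ = (a * c) * (b * d) := by group
      _ = (c * a) * (d * b) := by rw [hW₁comm a ha c hc, hW₂comm b hb d hd]
      _ = c * (a * d) * b := by group
      _ = c * (d * a) * b := by rw [hcomm a ha d hd]
      _ = c * d * (a * b) := by group
  -- cyclicity
  have hcyc : IsCyclic ↥(W₁ ⊔ W₂) := by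
    obtain ⟨g₁, hg₁⟩ := IsCyclic.exists_generator (α := W₁)
    obtain ⟨g₂, hg₂⟩ := IsCyclic.exists_generator (α := W₂)
    have ho₁ : orderOf (g₁ : L) = Nat.card W₁ := by
      rw [Subgroup.orderOf_coe]; exact orderOf_eq_card_of_forall_mem_zpowers hg₁
    have ho₂ : orderOf (g₂ : L) = Nat.card W₂ := by
      rw [Subgroup.orderOf_coe]; exact orderOf_eq_card_of_forall_mem_zpowers hg₂
    have hc : Commute (g₁ : L) (g₂ : L) := hcomm _ g₁.2 _ g₂.2
    have ho : orderOf ((g₁ : L) * (g₂ : L)) = Nat.card W₁ * Nat.card W₂ := by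
      rw [hc.orderOf_mul_eq_mul_orderOf_of_coprime (by rw [ho₁, ho₂]; exact hcop), ho₁, ho₂]
    have hmem : (g₁ : L) * (g₂ : L) ∈ W₁ ⊔ W₂ := Subgroup.mul_mem_sup g₁.2 g₂.2
    have hle : Nat.card ↥(W₁ ⊔ W₂) ≤ Nat.card W₁ * Nat.card W₂ := by
      rw [← Nat.card_prod]
      let f : W₁ × W₂ → ↥(W₁ ⊔ W₂) := fun ab => ⟨(ab.1 : L) * (ab.2 : L), Subgroup.mul_mem_sup ab.1.2 ab.2.2⟩
      apply Nat.card_le_card_of_surjective f
      rintro ⟨x, hx⟩
      obtain ⟨a, ha, b, hb, rfl⟩ := (mem_sup_of_commute hcomm).mp hx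
      exact ⟨(⟨a, ha⟩, ⟨b, hb⟩), rfl⟩
    apply isCyclic_of_orderOf_eq_card (⟨(g₁ : L) * (g₂ : L), hmem⟩ : ↥(W₁ ⊔ W₂))
    apply le_antisymm
    · exact orderOf_le_card
    · rw [← Subgroup.orderOf_coe]
      show Nat.card ↥(W₁ ⊔ W₂) ≤ orderOf ((g₁ : L) * (g₂ : L))
      rw [ho]; exact hle
  refine ⟨hW₁, hW₂, hdisj, hcomm, hcyc, ?_⟩
  intro X hX hXne
  apply le_antisymm
  · intro g hg
    obtain ⟨n, hn⟩ := hXne
    have hnW := (hX hn).1
    have hn1 : n ∉ W₁ := fun h => (hX hn).2 (Or.inl h)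
    have hn2 : n ∉ W₂ := fun h => (hX hn).2 (Or.inr h)
    have hgn : g * n * g⁻¹ ∈ X := (Subgroup.mem_set_normalizer_iff.mp hg n).mp hn
    have hgnW := (hX hgn).1
    obtain ⟨w₁, hw₁, w₂, hw₂, hnw⟩ := (mem_sup_of_commute hcomm).mp hnW
    obtain ⟨w₁', hw₁', w₂', hw₂', hnw'⟩ := (mem_sup_of_commute hcomm).mp hgnW
    have hw₁1 : w₁ ≠ 1 := by
      intro h
      apply hn2
      rw [hnw, h, one_mul]; exact hw₂
    have hfin : ∀ z : L, IsOfFinOrder z := fun z => isOfFinOrder_of_finite z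
    have hord1 : ∀ z ∈ W₁, orderOf z ∣ Nat.card W₁ := fun z hz => Subgroup.orderOf_dvd_natCard _ hz
    have hord2 : ∀ z ∈ W₂, orderOf z ∣ Nat.card W₂ := fun z hz => Subgroup.orderOf_dvd_natCard _ hz
    have hcop' : ∀ z ∈ W₂, ∀ z' ∈ W₁, (orderOf z).Coprime (orderOf z') := fun z hz z' hz' =>
      Nat.Coprime.of_dvd (hord2 z hz) (hord1 z' hz') hcop.symm
    have key : g * w₁ * g⁻¹ = w₁' := by
      apply piPart_eq (g * w₁ * g⁻¹) (g * w₂ * g⁻¹) w₁' w₂'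
      · show (g * w₁ * g⁻¹) * (g * w₂ * g⁻¹) = (g * w₂ * g⁻¹) * (g * w₁ * g⁻¹)
        calc (g * w₁ * g⁻¹) * (g * w₂ * g⁻¹) = g * (w₁ * w₂) * g⁻¹ := by group
          _ = g * (w₂ * w₁) * g⁻¹ := by rw [hcomm w₁ hw₁ w₂ hw₂]
          _ = (g * w₂ * g⁻¹) * (g * w₁ * g⁻¹) := by group
      · exact hcomm w₁' hw₁' w₂' hw₂'
      · exact hfin _
      · exact hfin _
      · rw [ord_conj, ord_conj]; exact hcop' w₂ hw₂ w₁ hw₁
      · rw [ord_conj]; exact hcop' w₂' hw₂' w₁ hw₁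
      · rw [ord_conj]; exact hcop' w₂ hw₂ w₁' hw₁'
      · exact hcop' w₂' hw₂' w₁' hw₁'
      · rw [← hnw', hnw]; group
    -- write g = k * u
    have hgtop : g ∈ ((K ⊔ W₁ : Subgroup L) : Set L) := by rw [hKW₁']; trivial
    rw [Subgroup.normal_mul] at hgtop
    obtain ⟨k, hk, u, hu, hku⟩ := hgtop
    have hk' : k ∈ K := hk
    have hu' : u ∈ W₁ := hu
    have hku' : k * u = g := hku
    have key2 : k * w₁ * k⁻¹ = w₁' := by
      rw [← key, ← hku']
      have : u * w₁ = w₁ * u := hW₁comm u hu' w₁ hw₁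
      calc k * w₁ * k⁻¹ = k * (w₁ * u) * u⁻¹ * k⁻¹ := by group
        _ = k * (u * w₁) * u⁻¹ * k⁻¹ := by rw [this]
        _ = k * u * w₁ * (k * u)⁻¹ := by group
    have hin : k * w₁ * k⁻¹ * w₁⁻¹ ∈ K ⊓ W₁ := by
      refine Subgroup.mem_inf.mpr ⟨?_, ?_⟩
      · have h1 : w₁ * k⁻¹ * w₁⁻¹ ∈ K := hK.conj_mem _ (inv_mem hk') w₁
        have : k * w₁ * k⁻¹ * w₁⁻¹ = k * (w₁ * k⁻¹ * w₁⁻¹) := by group
        rw [this]; exact mul_mem hk' h1
      · rw [key2]; exact mul_mem hw₁' (inv_mem hw₁)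
    rw [hKW₁, Subgroup.mem_bot] at hin
    have hkc : k ∈ K ⊓ Subgroup.centralizer ({w₁} : Set L) := by
      refine Subgroup.mem_inf.mpr ⟨hk', ?_⟩
      rw [Subgroup.mem_centralizer_iff]
      intro h hh
      rw [Set.mem_singleton_iff] at hh
      rw [hh]
      calc w₁ * k = (k * w₁ * k⁻¹ * w₁⁻¹)⁻¹ * (k * w₁) := by group
        _ = k * w₁ := by rw [hin, inv_one, one_mul]
    rw [hC w₁ hw₁ hw₁1] at hkc
    rw [← hku']
    have h3 : k * u ∈ W₂ ⊔ W₁ := Subgroup.mul_mem_sup hkc hu'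
    rw [sup_comm] at h3
    exact h3
  · intro w hw
    rw [Subgroup.mem_set_normalizer_iff]
    intro n
    constructor
    · intro hn
      have hnW := (hX hn).1
      have : w * n * w⁻¹ = n := by rw [hWcomm w hw n hnW]; group
      rw [this]; exact hn
    · intro hn
      have hnW := (hX hn).1
      have hnW' : n ∈ W₁ ⊔ W₂ := by
        have : n = w⁻¹ * (w * n * w⁻¹) * w := by group
        rw [this]
        exact mul_mem (mul_mem (inv_mem hw) hnW) hw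
      have : w * n * w⁻¹ = n := by rw [hWcomm w hw n hnW']; group
      rw [← this]; exact hn

end Cfsg.Agent.S1510
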