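import Mathlib
import Cfsg.Statements.S1512

set_option autoImplicit false
open Cfsg

namespace Cfsg.Agent.S1512

theorem card_carrier_dvd {K : Type*} [Group K] [Finite K] (C : ConjClasses K) :
    Nat.card C.carrier ∣ Nat.card K := by
  obtain ⟨g, rfl⟩ := ConjClasses.mk_surjective C
  rw [← ConjAct.orbit_eq_carrier_conjClasses]
  have h1 : Nat.card (MulAction.orbit (ConjAct K) g) =
      (MulAction.stabilizer (ConjAct K) g).index := by
    rw [Subgroup.index, Nat.card_congr (MulAction.orbitEquivQuotientStabilizer (ConjAct K) g)]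
  rw [h1]
  have h2 : Nat.card (ConjAct K) = Nat.card K := Nat.card_congr ConjAct.ofConjAct.toEquiv
  rw [← h2]
  exact Subgroup.index_dvd_card _

/-- Let K be a normal subgroup of the finite group L and x a non-identity element whose order is coprime to the order of K, such that K ⊓ C_L(y) = W₂ for every non-identity element y of the cyclic group generated by x. Then the number of conjugacy classes of K mapped to themselves by conjugation by x is at most Nat.card W₂. -/
theorem result {L : Type*} [Group L] [Finite L] (K W₂ : Subgroup L) [hK : K.Normal] (x : L) (hx1 : x ≠ 1) (hx : Nat.Coprime (orderOf x) (Nat.card K)) (hC : ∀ y ∈ Subgroup.zpowers x, y ≠ 1 → K ⊓ Subgroup.centralizer ({y} : Set L) = W₂) : Nat.card {C : ConjClasses K // ConjClasses.map (MulEquiv.toMonoidHom ((MulAut.conjNormal x : MulAut K))) C = C} ≤ Nat.card W₂ := by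
  classical
  have hm1 : orderOf x ≠ 1 := fun h => hx1 (orderOf_eq_one_iff.mp h)
  have hm0 : orderOf x ≠ 0 := (isOfFinOrder_of_finite x).orderOf_pos.ne'
  obtain ⟨p, hp, hpm⟩ := Nat.exists_prime_and_dvd hm1
  have : Fact p.Prime := ⟨hp⟩
  set y := x ^ (orderOf x / p) with hy
  have hyord : orderOf y = p := orderOf_pow_orderOf_div hm0 hpm
  have hy1 : y ≠ 1 := by
    intro h
    rw [h, orderOf_one] at hyord
    exact hp.one_lt.ne hyord
  have hymem : y ∈ Subgroup.zpowers x := Subgroup.npow_mem_zpowers x _
  have hyp : y ^ p = 1 := by rw [← hyord]; exact pow_orderOf_eq_one y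
  have hpK : ¬ p ∣ Nat.card K := by
    intro h
    have := Nat.eq_one_of_dvd_coprimes hx hpm h
    exact hp.one_lt.ne' this
  -- every invariant class meets W₂
  have hex : ∀ C : {C : ConjClasses K // ConjClasses.map (MulEquiv.toMonoidHom ((MulAut.conjNormal x : MulAut K))) C = C},
      ∃ k : K, k ∈ C.1.carrier ∧ (k : L) ∈ W₂ := by
    rintro ⟨C, hCinv⟩
    -- stability under powers of x
    have hstab : ∀ n : ℕ, ∀ k : K, k ∈ C.carrier → (MulAut.conjNormal (x ^ n) : MulAut K) k ∈ C.carrier := by
      intro n
      induction n with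
      | zero => intro k hk; simpa using hk
      | succ n ih =>
        intro k hk
        have h1 := ih k hk
        rw [ConjClasses.mem_carrier_iff_mk_eq] at h1 ⊢
        rw [pow_succ', map_mul]
        have : ConjClasses.mk ((MulAut.conjNormal x : MulAut K) ((MulAut.conjNormal (x ^ n) : MulAut K) k)) =
            ConjClasses.map (MulEquiv.toMonoidHom ((MulAut.conjNormal x : MulAut K)))
              (ConjClasses.mk ((MulAut.conjNormal (x ^ n) : MulAut K) k)) := rfl
        rw [MulAut.mul_apply, this, h1, hCinv]
    have hinvy : ∀ k : K, k ∈ C.carrier ↔ (MulAut.conjNormal y : MulAut K) k ∈ C.carrier := by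
      intro k
      constructor
      · intro hk
        exact hstab _ k hk
      · intro hk
        have h2 := hstab ((orderOf x / p) * (p - 1)) _ hk
        have e : x ^ ((orderOf x / p) * (p - 1)) = y ^ (p - 1) := by rw [hy, pow_mul]
        rw [e] at h2
        have e2 : (MulAut.conjNormal (y ^ (p - 1)) : MulAut K) ((MulAut.conjNormal y : MulAut K) k) = k := by
          rw [← MulAut.mul_apply, ← map_mul, ← pow_succ, Nat.sub_add_cancel hp.one_lt.le, hyp, map_one]
          rfl
        rw [e2] at h2
        exact h2
    let σ : Equiv.Perm C.carrier := (MulAut.conjNormal y : MulAut K).toEquiv.subtypeEquiv hinvy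
    have hσpow : ∀ n : ℕ, ∀ k : C.carrier, ((σ ^ n) k : K) = (MulAut.conjNormal (y ^ n) : MulAut K) k := by
      intro n
      induction n with
      | zero => intro k; simp
      | succ n ih =>
        intro k
        rw [pow_succ', Equiv.Perm.mul_apply, pow_succ', map_mul, MulAut.mul_apply, ← ih k]
        rfl
    have hσ : σ ^ p ^ 1 = 1 := by
      ext k
      rw [pow_one, hσpow p k, hyp, map_one]
      rfl
    haveI : Fintype C.carrier := Fintype.ofFinite _
    have hcard : ¬ p ∣ Fintype.card C.carrier := by
      rw [← Nat.card_eq_fintype_card]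
      intro h
      exact hpK (h.trans (card_carrier_dvd C))
    obtain ⟨k, hk⟩ := Equiv.Perm.exists_fixed_point_of_prime hcard hσ
    refine ⟨k.1, k.2, ?_⟩
    have hk' : ((MulAut.conjNormal y : MulAut K) k.1 : L) = (k.1 : L) := by
      have := congrArg (fun z : C.carrier => ((z : K) : L)) hk
      exact this
    rw [MulAut.conjNormal_apply] at hk'
    rw [← hC y hymem hy1]
    refine Subgroup.mem_inf.mpr ⟨k.1.2, ?_⟩
    rw [Subgroup.mem_centralizer_iff]
    intro h hh
    rw [Set.mem_singleton_iff] at hh
    rw [hh]
    calc y * (k.1 : L) = (y * (k.1 : L) * y⁻¹) * y := by group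
      _ = (k.1 : L) * y := by rw [hk']
  choose f hf1 hf2 using hex
  have hinj : Function.Injective (fun C => (⟨(f C : L), hf2 C⟩ : W₂)) := by
    intro C C' h
    have h' : (f C : L) = (f C' : L) := Subtype.mk.inj h
    have h'' : f C = f C' := Subtype.ext h'
    have e1 := ConjClasses.mem_carrier_iff_mk_eq.mp (hf1 C)
    have e2 := ConjClasses.mem_carrier_iff_mk_eq.mp (hf1 C')
    apply Subtype.ext
    rw [← e1, ← e2, h'']
  exact Nat.card_le_card_of_injective _ hinj

end Cfsg.Agent.S1512
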