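import Mathlib
import Cfsg.Statements.S1513
import Cfsg.Agent.Lib.Helper75.Glaub4
import Cfsg.Agent.Lib.Helper75.CoprimeAb
import Cfsg.Agent.Lib.Helper75.CliffordCorr
import Cfsg.Agent.Lib.Helper82.CharCount

set_option autoImplicit false
open Cfsg

namespace Cfsg.Agent.S1513

open Cfsg.Agent.Lib.Helper75

theorem inv_iff {L : Type*} [Group L] (K : Subgroup L) [hK : K.Normal] (θ : K → ℂ) (x : L) :
    ((fun k : K => θ ⟨x * k * x⁻¹, hK.conj_mem (k : L) k.2 x⟩) = θ) ↔ x ∈ inertia K θ := by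
  rw [mem_inertia_iff', funext_iff]

theorem card_conj_comm {A : Type*} [Group A] (hc : ∀ a b : A, a * b = b * a) :
    Nat.card (ConjClasses A) = Nat.card A := by
  symm
  apply Nat.card_eq_of_bijective (ConjClasses.mk : A → ConjClasses A)
  refine ⟨?_, ConjClasses.mk_surjective⟩
  intro a b h
  have h1 : IsConj a b := ConjClasses.mk_eq_mk_iff_isConj.1 h
  obtain ⟨c, hc'⟩ := isConj_iff.1 h1
  rw [← hc', hc c a, mul_inv_cancel_right]

open scoped Pointwise in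
theorem compl_facts {L : Type*} [Group L] (K W₁ : Subgroup L) [hK : K.Normal]
    (hKW₁ : K ⊓ W₁ = ⊥) (hKW₁' : K ⊔ W₁ = ⊤) :
    W₁.index = Nat.card K ∧ K.index = Nat.card W₁ ∧ ∀ g : L, ∃ k ∈ K, ∃ w ∈ W₁, g = k * w := by
  have hmul : (K : Set L) * (W₁ : Set L) = Set.univ := by
    rw [← Subgroup.normal_mul, hKW₁', Subgroup.coe_top]
  have hcomp : Subgroup.IsComplement' K W₁ :=
    Subgroup.isComplement'_of_disjoint_and_mul_eq_univ (disjoint_iff.2 hKW₁) hmul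
  refine ⟨hcomp.index_eq_card, hcomp.symm.index_eq_card, fun g => ?_⟩
  have hg : g ∈ (K : Set L) * (W₁ : Set L) := by rw [hmul]; exact Set.mem_univ g
  obtain ⟨k, hk, w, hw, rfl⟩ := Set.mem_mul.1 hg
  exact ⟨k, hk, w, hw, rfl⟩

theorem comm_mem' {L : Type*} [Group L] (K W₁ : Subgroup L) [hK : K.Normal]
    (hdec : ∀ g : L, ∃ k ∈ K, ∃ w ∈ W₁, g = k * w)
    (hcomm : ∀ a ∈ W₁, ∀ b ∈ W₁, a * b = b * a) (x y : L) : x * y * x⁻¹ * y⁻¹ ∈ K := by
  obtain ⟨k₁, hk₁, w₁, hw₁, rfl⟩ := hdec x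
  obtain ⟨k₂, hk₂, w₂, hw₂, rfl⟩ := hdec y
  have e01 : (QuotientGroup.mk' K) k₁ = 1 := (QuotientGroup.eq_one_iff k₁).2 hk₁
  have e02 : (QuotientGroup.mk' K) k₂ = 1 := (QuotientGroup.eq_one_iff k₂).2 hk₂
  have h : (QuotientGroup.mk' K) ((k₁ * w₁) * (k₂ * w₂) * (k₁ * w₁)⁻¹ * (k₂ * w₂)⁻¹) = 1 := by
    simp only [map_mul, map_inv, e01, e02, one_mul]
    rw [← map_mul, hcomm w₁ hw₁ w₂ hw₂, map_mul]
    group
  exact (QuotientGroup.eq_one_iff _).1 h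

theorem card_inv {L : Type*} [Group L] [Fintype L] (K W₁ W₂ : Subgroup L) [hK : K.Normal]
    (hKW₁ : K ⊓ W₁ = ⊥) (hKW₁' : K ⊔ W₁ = ⊤)
    (hHall : Nat.Coprime (Nat.card W₁) W₁.index) (hW₂c : IsCyclic W₂)
    (hC : ∀ x ∈ W₁, x ≠ 1 → K ⊓ Subgroup.centralizer ({x} : Set L) = W₂)
    (s : L) (hs : s ∈ W₁) (hs1 : s ≠ 1) :
    Nat.card {χ : Cfsg.IrrCharacter K // s ∈ inertia K (χ : K → ℂ)} = Nat.card W₂ := by
  obtain ⟨hidx, -, -⟩ := compl_facts K W₁ hKW₁ hKW₁'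
  have hcop : (Nat.card K).Coprime (orderOf s) := by
    rw [← hidx]
    exact (Nat.Coprime.coprime_dvd_left (Subgroup.orderOf_dvd_natCard W₁ hs) hHall).symm
  have hC' : ∀ c : L, c ∈ W₂ ↔ c ∈ K ∧ c * s = s * c := by
    intro c
    rw [← hC s hs hs1, Subgroup.mem_inf, Subgroup.mem_centralizer_singleton_iff]
  have h1 := card_inv_irr_eq K s hcop W₂ hC'
  have h2 : Nat.card (Cfsg.IrrCharacter W₂) = Nat.card W₂ := by
    rw [Cfsg.Agent.Lib.Helper82.card_irr_eq_card_conjClasses]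
    apply card_conj_comm
    intro a b
    letI : CommGroup W₂ := IsCyclic.commGroup
    exact mul_comm a b
  rw [← h2, ← h1]
  apply Nat.card_congr
  apply Equiv.subtypeEquivRight
  intro χ
  rw [mem_inertia_iff']
  constructor
  · intro h g
    rw [← h g]
    congr 1
  · intro h g
    rw [← h g]
    congr 1

theorem inertia_key {L : Type*} [Group L] [Fintype L] (K W₁ W₂ : Subgroup L) [hK : K.Normal]
    (hKW₁ : K ⊓ W₁ = ⊥) (hKW₁' : K ⊔ W₁ = ⊤) (hW₁ : W₁ ≠ ⊥) (hW₁c : IsCyclic W₁)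
    (hHall : Nat.Coprime (Nat.card W₁) W₁.index) (hW₂c : IsCyclic W₂)
    (hC : ∀ x ∈ W₁, x ≠ 1 → K ⊓ Subgroup.centralizer ({x} : Set L) = W₂) :
    (∃ x₀ ∈ W₁, x₀ ≠ 1 ∧ (∀ T : Subgroup L, x₀ ∈ T → W₁ ≤ T) ∧
      ∀ (θ : Cfsg.IrrCharacter K) (w : L), w ∈ W₁ → w ≠ 1 → w ∈ inertia K (θ : K → ℂ) →
        x₀ ∈ inertia K (θ : K → ℂ)) := by
  obtain ⟨g, hg⟩ := hW₁c.exists_generator
  have hgen : ∀ T : Subgroup L, (g : L) ∈ T → W₁ ≤ T := by
    intro T hT x hx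
    obtain ⟨n, hn⟩ := Subgroup.mem_zpowers_iff.1 (hg ⟨x, hx⟩)
    have h1 : x = (g : L) ^ n := by
      have := congrArg Subtype.val hn
      rw [Subgroup.coe_zpow] at this
      exact this.symm
    rw [h1]
    exact T.zpow_mem hT n
  have hg1 : (g : L) ≠ 1 := by
    intro h
    apply hW₁
    rw [eq_bot_iff]
    have := hgen ⊥ (by rw [h]; exact Subgroup.one_mem _)
    exact this
  refine ⟨g, g.2, hg1, hgen, ?_⟩
  intro θ w hw hw1 hwθ
  have hA := card_inv K W₁ W₂ hKW₁ hKW₁' hHall hW₂c hC (g : L) g.2 hg1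
  have hB := card_inv K W₁ W₂ hKW₁ hKW₁' hHall hW₂c hC w hw hw1
  haveI : Finite (Cfsg.IrrCharacter K) := Cfsg.Agent.Lib.Helper3.irr_finite
  have hsub : {χ : Cfsg.IrrCharacter K | (g : L) ∈ inertia K (χ : K → ℂ)} ⊆
      {χ : Cfsg.IrrCharacter K | w ∈ inertia K (χ : K → ℂ)} := by
    intro χ hχ
    exact hgen (inertia K (χ : K → ℂ)) hχ hw
  have hAn : Set.ncard {χ : Cfsg.IrrCharacter K | (g : L) ∈ inertia K (χ : K → ℂ)} = Nat.card W₂ := by
    rw [← hA, ← Nat.card_coe_set_eq]; rfl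
  have hBn : Set.ncard {χ : Cfsg.IrrCharacter K | w ∈ inertia K (χ : K → ℂ)} = Nat.card W₂ := by
    rw [← hB, ← Nat.card_coe_set_eq]; rfl
  have heq := Set.eq_of_subset_of_ncard_le hsub (by rw [hAn, hBn]) (Set.toFinite _)
  have : θ ∈ {χ : Cfsg.IrrCharacter K | w ∈ inertia K (χ : K → ℂ)} := hwθ
  rw [← heq] at this
  exact this

/-- Let L be a finite group with K normal with complement W₁ ≠ 1 a cyclic Hall subgroup, and W₂ ≠ 1 a cyclic subgroup of K equal to C_K(x) for every non-identity x ∈ W₁, with W₁W₂ of odd order. For an irreducible character θ of K: if θ is not fixed under conjugation by some element of W₁, then the function induced from θ to L is an irreducible character of L; and the irreducible characters of K fixed by all of W₁ are exactly Nat.card W₂ in number, each inducing to the sum of Nat.card W₁ pairwise distinct irreducible characters of L. -/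
theorem result {L : Type*} [Group L] [Fintype L] (K W₁ W₂ : Subgroup L) [hK : K.Normal] (hKW₁ : K ⊓ W₁ = ⊥) (hKW₁' : K ⊔ W₁ = ⊤) (hW₁ : W₁ ≠ ⊥) (hW₁c : IsCyclic W₁) (hHall : Nat.Coprime (Nat.card W₁) W₁.index) (hW₂ : W₂ ≠ ⊥) (hW₂c : IsCyclic W₂) (hW₂K : W₂ ≤ K) (hC : ∀ x ∈ W₁, x ≠ 1 → K ⊓ Subgroup.centralizer ({x} : Set L) = W₂) (hodd : Odd (Nat.card ↥(W₁ ⊔ W₂))) : (∀ θ : K → ℂ, Cfsg.IsIrrCharacter K θ → (∃ x ∈ W₁, (fun k : K => θ ⟨x * k * x⁻¹, hK.conj_mem (k : L) k.2 x⟩) ≠ θ) → Cfsg.IsIrrCharacter L (Cfsg.indFun K θ)) ∧ Nat.card {θ : Cfsg.IrrCharacter K // ∀ x ∈ W₁, (fun k : K => (θ : K → ℂ) ⟨x * k * x⁻¹, hK.conj_mem (k : L) k.2 x⟩) = θ} = Nat.card W₂ ∧ (∀ θ : K → ℂ, Cfsg.IsIrrCharacter K θ → (∀ x ∈ W₁, (fun k : K => θ ⟨x * k * x⁻¹, hK.conj_mem (k : L) k.2 x⟩) = θ) → ∃ C : Finset (L → ℂ), C.card = Nat.card W₁ ∧ (∀ μ ∈ C, Cfsg.IsIrrCharacter L μ) ∧ Cfsg.indFun K θ = ∑ μ ∈ C, μ) := by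
  obtain ⟨hidx, hidxK, hdec⟩ := compl_facts K W₁ hKW₁ hKW₁'
  obtain ⟨x₀, hx₀, hx₀1, hgen, hkey⟩ := inertia_key K W₁ W₂ hKW₁ hKW₁' hW₁ hW₁c hHall hW₂c hC
  have hcommW : ∀ a ∈ W₁, ∀ b ∈ W₁, a * b = b * a := by
    intro a ha b hb
    letI : CommGroup W₁ := IsCyclic.commGroup
    have := mul_comm (⟨a, ha⟩ : W₁) ⟨b, hb⟩
    exact congrArg Subtype.val this
  refine ⟨?_, ?_, ?_⟩
  · intro θ hθ hx
    obtain ⟨x, hxW, hxθ⟩ := hx
    rw [Ne, inv_iff] at hxθ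
    have hθcf := Cfsg.Agent.Lib.Helper3.isClassFunction_of_isCharacter
      (Cfsg.Agent.Lib.Helper3.isCharacter_of_irr hθ)
    have hKT : K ≤ inertia K θ := le_inertia K hθcf
    have hTK : inertia K θ ≤ K := by
      intro g hg
      obtain ⟨k, hk, w, hw, rfl⟩ := hdec g
      have hwT : w ∈ inertia K θ := by
        have : w = k⁻¹ * (k * w) := by group
        rw [this]
        exact Subgroup.mul_mem _ (Subgroup.inv_mem _ (hKT hk)) hg
      by_cases hw1 : w = 1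
      · rw [hw1, mul_one]; exact hk
      · exfalso
        apply hxθ
        exact hgen _ (hkey ⟨θ, hθ⟩ w hw hw1 hwT) hxW
    have hT : inertia K θ = K := le_antisymm hTK hKT
    obtain ⟨C, hCirr, hCcard, hsum, -⟩ := ind_eq_sum_of_coprime_abelian K (inertia K θ) θ hθ
      (fun g => mem_inertia_iff' K θ g)
      (fun x hx y hy => by
        rw [hT] at hx hy
        exact K.mul_mem (K.mul_mem (K.mul_mem hx hy) (K.inv_mem hx)) (K.inv_mem hy))
      (by rw [hT, Subgroup.relIndex_self]; exact Nat.coprime_one_right _)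
    rw [hT, Subgroup.relIndex_self] at hCcard
    obtain ⟨χ, rfl⟩ := Finset.card_eq_one.1 hCcard
    rw [hsum, Finset.sum_singleton]
    exact hCirr χ (Finset.mem_singleton_self χ)
  · rw [← card_inv K W₁ W₂ hKW₁ hKW₁' hHall hW₂c hC x₀ hx₀ hx₀1]
    apply Nat.card_congr
    apply Equiv.subtypeEquivRight
    intro θ
    constructor
    · intro h
      exact (inv_iff K _ x₀).1 (h x₀ hx₀)
    · intro h x hx
      exact (inv_iff K _ x).2 (hgen _ h hx)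
  · intro θ hθ hinv
    have hθcf := Cfsg.Agent.Lib.Helper3.isClassFunction_of_isCharacter
      (Cfsg.Agent.Lib.Helper3.isCharacter_of_irr hθ)
    have hKT : K ≤ inertia K θ := le_inertia K hθcf
    have hWT : W₁ ≤ inertia K θ := fun x hx => (inv_iff K θ x).1 (hinv x hx)
    have hT : inertia K θ = ⊤ := by
      rw [eq_top_iff, ← hKW₁']
      exact sup_le hKT hWT
    obtain ⟨C, hCirr, hCcard, hsum, -⟩ := ind_eq_sum_of_coprime_abelian K (inertia K θ) θ hθ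
      (fun g => mem_inertia_iff' K θ g)
      (fun x _ y _ => comm_mem' K W₁ hdec hcommW x y)
      (by
        rw [hT, Subgroup.relIndex_top_right, hidxK, ← hidx]
        exact hHall.symm)
    rw [hT, Subgroup.relIndex_top_right, hidxK] at hCcard
    exact ⟨C, hCcard, hCirr, hsum⟩

end Cfsg.Agent.S1513
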