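import Mathlib
import Cfsg.Statements.S1515
import Cfsg.Agent.Lib.Helper26.Coh

set_option autoImplicit false
open Cfsg

namespace Cfsg.Agent.S1515

open Cfsg.Agent.Lib.Helper26 in
theorem int_sq_ge (k : ℤ) : k ≤ k ^ 2 := by nlinarith [sq_nonneg (k - 1), sq_nonneg k, sq_nonneg (2 * k - 1)]

/-- Let (S, τ, R) be a coherence system from L to G, χ ∈ S, and ψ an integer combination of S with ⟨χ, ψ⟩ = ⟨conj χ, ψ⟩ = 0. Let τ₁ be a linear isometry on the integer combinations of χ − ψ and χ − conj χ, with virtual-character values, agreeing with τ on integer multiples of χ − conj χ. Then the sum over α ∈ R χ of the squared absolute values of ⟨τ₁(χ − ψ), α⟩ is at least ⟨χ, χ⟩; and if ⟨τ₁(χ − ψ), τ₁(χ − ψ)⟩ minus that sum is at least ⟨ψ, ψ⟩, then the sum equals ⟨χ, χ⟩ and every ⟨τ₁(χ − ψ), α⟩ with α ∈ R χ is 0 or 1. -/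
theorem result {L : Type*} [Group L] [Fintype L] {G : Type*} [Group G] [Fintype G] (S : Set (L → ℂ)) (τ : (L → ℂ) → (G → ℂ)) (R : (L → ℂ) → Finset (G → ℂ)) (hS : Cfsg.IsCoherenceSystem S τ R) (χ : L → ℂ) (hχ : χ ∈ S) (ψ : L → ℂ) (hψ : ψ ∈ Cfsg.zspan S) (h1 : Cfsg.classInner χ ψ = 0) (h2 : Cfsg.classInner (Cfsg.conjFun χ) ψ = 0) (τ₁ : (L → ℂ) → (G → ℂ)) (hτ₁ : Cfsg.IsLinearIsometryOn (Cfsg.zspan {χ - ψ, χ - Cfsg.conjFun χ}) τ₁) (hagree : ∀ n : ℤ, τ₁ (n • (χ - Cfsg.conjFun χ)) = τ (n • (χ - Cfsg.conjFun χ))) : (Cfsg.classInner χ χ).re ≤ ∑ α ∈ R χ, ‖Cfsg.classInner (τ₁ (χ - ψ)) α‖ ^ 2 ∧ ((Cfsg.classInner ψ ψ).re ≤ (Cfsg.classInner (τ₁ (χ - ψ)) (τ₁ (χ - ψ))).re - ∑ α ∈ R χ, ‖Cfsg.classInner (τ₁ (χ - ψ)) α‖ ^ 2 → (∑ α ∈ R χ, ‖Cfsg.classInner (τ₁ (χ - ψ)) α‖ ^ 2 = (Cfsg.classInner χ χ).re ∧ ∀ α ∈ R χ, Cfsg.classInner (τ₁ (χ - ψ)) α = 0 ∨ Cfsg.classInner (τ₁ (χ - ψ)) α = 1)) := by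
  classical
  have hfin : Fintype (IrrCharacter G) := Fintype.ofFinite _
  set X : G → ℂ := τ₁ (χ - ψ) with hXdef
  have hmem1 : χ - ψ ∈ Cfsg.zspan {χ - ψ, χ - Cfsg.conjFun χ} :=
    Submodule.subset_span (by simp)
  have hmem2 : χ - Cfsg.conjFun χ ∈ Cfsg.zspan {χ - ψ, χ - Cfsg.conjFun χ} :=
    Submodule.subset_span (by simp)
  have hX : Cfsg.IsGeneralizedCharacter G X := hτ₁.2.2.2 _ hmem1
  have hint : ∀ α ∈ R χ, ∃ k : ℤ, Cfsg.classInner X α = k := fun α hα =>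
    Cfsg.Agent.Lib.Helper26.classInner_gen_int hX (hS.virtual χ hχ α hα)
  choose! k hk using hint
  -- orthogonality facts
  have hχc : Cfsg.classInner χ (Cfsg.conjFun χ) = 0 :=
    hS.orthogonal χ hχ _ (hS.conj_mem χ hχ) (fun h => hS.conj_ne χ hχ h.symm)
  have hψχ : Cfsg.classInner ψ χ = 0 := by
    rw [← Cfsg.Agent.Lib.Helper26.classInner_conj_symm, h1, map_zero]
  have hψχc : Cfsg.classInner ψ (Cfsg.conjFun χ) = 0 := by
    rw [← Cfsg.Agent.Lib.Helper26.classInner_conj_symm, h2, map_zero]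
  have hagree1 : τ₁ (χ - Cfsg.conjFun χ) = τ (χ - Cfsg.conjFun χ) := by
    have := hagree 1
    simpa using this
  have hsum : ∑ α ∈ R χ, Cfsg.classInner X α = Cfsg.classInner χ χ := by
    rw [← Cfsg.Agent.Lib.Helper26.classInner_sum_right, ← hS.sum_eq χ hχ, ← hagree1,
      hXdef, hτ₁.2.2.1 _ hmem1 _ hmem2,
      Cfsg.Agent.Lib.Helper26.classInner_sub_left, Cfsg.Agent.Lib.Helper26.classInner_sub_right,
      Cfsg.Agent.Lib.Helper26.classInner_sub_right, hχc, hψχ, hψχc]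
    ring
  have hXX : Cfsg.classInner X X = Cfsg.classInner χ χ + Cfsg.classInner ψ ψ := by
    rw [hXdef, hτ₁.2.2.1 _ hmem1 _ hmem1,
      Cfsg.Agent.Lib.Helper26.classInner_sub_left, Cfsg.Agent.Lib.Helper26.classInner_sub_right,
      Cfsg.Agent.Lib.Helper26.classInner_sub_right, h1, hψχ]
    ring
  have hre : (Cfsg.classInner χ χ).re = ∑ α ∈ R χ, (k α : ℝ) := by
    rw [← hsum, Complex.re_sum]
    apply Finset.sum_congr rfl
    intro α hα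
    rw [hk α hα]
    simp
  have hnorm : ∑ α ∈ R χ, ‖Cfsg.classInner X α‖ ^ 2 = ∑ α ∈ R χ, ((k α : ℝ)) ^ 2 := by
    apply Finset.sum_congr rfl
    intro α hα
    rw [hk α hα]
    have : ‖((k α : ℤ) : ℂ)‖ = |(k α : ℝ)| := by
      rw [← Complex.ofReal_intCast, Complex.norm_real, Real.norm_eq_abs]
    rw [this, sq_abs]
  have hterm : ∀ α ∈ R χ, (k α : ℝ) ≤ ((k α : ℝ)) ^ 2 := by
    intro α _
    exact_mod_cast int_sq_ge (k α)
  refine ⟨?_, ?_⟩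
  · rw [hre, hnorm]
    exact Finset.sum_le_sum hterm
  · intro hle
    rw [hXX, Complex.add_re, hnorm, hre] at hle
    have hle' : ∑ α ∈ R χ, ((k α : ℝ)) ^ 2 ≤ ∑ α ∈ R χ, (k α : ℝ) := by linarith
    have heq : ∑ α ∈ R χ, (k α : ℝ) = ∑ α ∈ R χ, ((k α : ℝ)) ^ 2 :=
      le_antisymm (Finset.sum_le_sum hterm) hle'
    refine ⟨?_, ?_⟩
    · rw [hnorm, hre, heq]
    · intro α hα
      have h3 := (Finset.sum_eq_sum_iff_of_le hterm).mp heq α hα
      have h4 : (k α : ℤ) = (k α) ^ 2 := by exact_mod_cast h3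
      rw [hk α hα]
      have h5 : k α * (k α - 1) = 0 := by ring_nf; ring_nf at h4; omega
      rcases mul_eq_zero.mp h5 with h6 | h6
      · left; rw [h6]; simp
      · right
        have : k α = 1 := by omega
        rw [this]; simp

end Cfsg.Agent.S1515
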