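import Mathlib
import Cfsg.Statements.S1546

set_option autoImplicit false
open Cfsg

namespace Cfsg.Agent.S1546

theorem geom_modEq (p m : ℕ) (h : p ≡ 1 [MOD m]) (n : ℕ) :
    (∑ i ∈ Finset.range n, p ^ i) ≡ n [MOD m] := by
  induction n with
  | zero => simp [Nat.ModEq]
  | succ n ih =>
    rw [Finset.sum_range_succ]
    have h1 : p ^ n ≡ 1 [MOD m] := by
      simpa using h.pow n
    exact ih.add h1

theorem mod_eq_one_of_dvd_pred (q r : ℕ) (hq : 2 ≤ q) (hr : 1 ≤ r) (h : q ∣ r - 1) : r % q = 1 := by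
  obtain ⟨k, hk⟩ := h
  have : r = q * k + 1 := by omega
  rw [this, Nat.mul_add_mod, Nat.mod_eq_of_lt (by omega)]

/-- Let p and q be odd primes and N = (p ^ q − 1) / (p − 1) = 1 + p + ⋯ + p^(q−1). Then N is odd; if p ≡ 1 (mod q) then q ∣ N; and if p is not ≡ 1 (mod q) then N is coprime to p − 1 and every divisor of N is ≡ 1 (mod q). -/
theorem result (p q : ℕ) (hp : p.Prime) (hq : q.Prime) (hp2 : p ≠ 2) (hq2 : q ≠ 2) : Odd ((p ^ q - 1) / (p - 1)) ∧ (p % q = 1 → q ∣ (p ^ q - 1) / (p - 1)) ∧ (p % q ≠ 1 → Nat.Coprime ((p ^ q - 1) / (p - 1)) (p - 1) ∧ ∀ x : ℕ, x ∣ (p ^ q - 1) / (p - 1) → x % q = 1) := by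
  have hp2' : 2 ≤ p := hp.two_le
  have hq2' : 2 ≤ q := hq.two_le
  have hN : ∑ i ∈ Finset.range q, p ^ i = (p ^ q - 1) / (p - 1) := Nat.geomSum_eq hp2' q
  rw [← hN]
  set N := ∑ i ∈ Finset.range q, p ^ i with hNdef
  have hpodd : Odd p := hp.odd_of_ne_two hp2
  have hqodd : Odd q := hq.odd_of_ne_two hq2
  have hNodd : Odd N := by
    have h1 : p ≡ 1 [MOD 2] := by
      rcases hpodd with ⟨k, hk⟩
      rw [hk]; simp [Nat.ModEq, Nat.add_mod]
    have h2 := geom_modEq p 2 h1 q
    rw [Nat.odd_iff]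
    rw [Nat.ModEq] at h2
    rw [h2]
    exact Nat.odd_iff.mp hqodd
  have hmul : (p - 1) * N = p ^ q - 1 := by
    rw [hN]
    have := Nat.sub_one_dvd_pow_sub_one p q
    exact Nat.mul_div_cancel' this
  refine ⟨hNodd, ?_, ?_⟩
  · intro hpq
    have h1 : p ≡ 1 [MOD q] := by
      rw [Nat.ModEq, hpq, Nat.mod_eq_of_lt (by omega)]
    have h2 := geom_modEq p q h1 q
    rw [Nat.ModEq, Nat.mod_self] at h2
    exact Nat.dvd_of_mod_eq_zero h2
  · intro hpq
    have hcop : Nat.Coprime N (p - 1) := by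
      have h1 : p ≡ 1 [MOD (p - 1)] := by
        have : p = (p - 1) + 1 := by omega
        conv_lhs => rw [this]
        simp [Nat.ModEq]
      have h2 := geom_modEq p (p - 1) h1 q
      have h3 : Nat.gcd N (p - 1) = Nat.gcd q (p - 1) := h2.gcd_eq
      rw [Nat.Coprime, h3]
      rcases Nat.coprime_or_dvd_of_prime hq (p - 1) with h | h
      · exact h
      · exact absurd (mod_eq_one_of_dvd_pred q p hq2' (by omega) h) hpq
    refine ⟨hcop, ?_⟩
    have hprime : ∀ r : ℕ, r.Prime → r ∣ N → r % q = 1 := by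
      intro r hr hrN
      have : Fact r.Prime := ⟨hr⟩
      have hrpq : r ∣ p ^ q - 1 := by
        rw [← hmul]; exact Dvd.dvd.mul_left hrN _
      have hpow : ((p : ZMod r)) ^ q = 1 := by
        have h1 : 1 ≤ p ^ q := Nat.one_le_pow _ _ (by omega)
        have h2 : ((p ^ q - 1 : ℕ) : ZMod r) = 0 := (ZMod.natCast_eq_zero_iff _ _).mpr hrpq
        rw [Nat.cast_sub h1] at h2
        push_cast at h2
        exact sub_eq_zero.mp h2
      have hne : (p : ZMod r) ≠ 0 := by
        intro h0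
        rw [h0, zero_pow (by omega)] at hpow
        exact zero_ne_one hpow
      have hord : orderOf (p : ZMod r) ∣ q := orderOf_dvd_of_pow_eq_one hpow
      rcases (Nat.dvd_prime hq).mp hord with h1 | h1
      · exfalso
        have hp1 : (p : ZMod r) = 1 := orderOf_eq_one_iff.mp h1
        have hr1 : r ∣ p - 1 := by
          rw [← ZMod.natCast_eq_zero_iff, Nat.cast_sub (by omega), hp1]
          simp
        have := Nat.dvd_gcd hrN hr1
        rw [hcop] at this
        exact hr.one_lt.ne' (Nat.dvd_one.mp this)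
      · have h2 : orderOf (p : ZMod r) ∣ r - 1 := ZMod.orderOf_dvd_card_sub_one hne
        rw [h1] at h2
        exact mod_eq_one_of_dvd_pred q r hq2' hr.one_lt.le h2
    intro x
    induction x using Nat.recOnMul with
    | zero =>
      intro h0
      exfalso
      have : N = 0 := Nat.eq_zero_of_zero_dvd h0
      rw [this] at hNodd
      exact absurd hNodd (by decide)
    | one => intro _; exact Nat.mod_eq_of_lt (by omega)
    | prime r hr => exact hprime r hr
    | mul a b ha hb =>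
      intro hab
      have h1 := ha (Dvd.dvd.trans (Dvd.intro b rfl) hab)
      have h2 := hb (Dvd.dvd.trans (Dvd.intro_left a rfl) hab)
      rw [Nat.mul_mod, h1, h2]
      exact Nat.mod_eq_of_lt (by omega)

end Cfsg.Agent.S1546
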