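import Cfsg.Statements.S1550
import Cfsg.Agent.Lib.Helper93.Sextets

set_option autoImplicit false
open scoped Pointwise
open Cfsg

namespace Cfsg.Agent.S1550

/-- Every 4-element set of the 24 points is a tetrad of exactly one sextet, and the sextets number 1771. -/
theorem result : (∀ t : Finset Cfsg.GolayPt, t.card = 4 → ∃! S : Finset (Finset Cfsg.GolayPt), S ∈ Cfsg.sextets ∧ t ∈ S) ∧ Cfsg.sextets.ncard = 1771 := by
  exact ⟨fun t ht => Cfsg.Agent.Lib.Helper93.existsUnique_sextet ht,
    Cfsg.Agent.Lib.Helper93.ncard_sextets⟩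

end Cfsg.Agent.S1550
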