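import Cfsg.Statements.S1551
import Cfsg.Agent.Lib.Helper26.SxStrBase
-- import your own Cfsg.Agent.* helpers here

set_option autoImplicit false
open scoped Pointwise
open Cfsg

namespace Cfsg.Agent.S1551

open Cfsg.Agent.Lib.Helper26

/-- Every permutation of the tetrads of a sextet is induced by an element of its stabiliser. -/
theorem induce_all {S : Finset (Finset Cfsg.GolayPt)} (hS : S ∈ Cfsg.sextets)
    (e : Equiv.Perm ↥S) : ∃ g ∈ MulAction.stabilizer Cfsg.M24 S, ∀ t : ↥S,
      (g : Equiv.Perm Cfsg.GolayPt) • (t : Finset Cfsg.GolayPt)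
        = ((e t : ↥S) : Finset Cfsg.GolayPt) := by
  classical
  induction e using Equiv.Perm.swap_induction_on with
  | one => exact ⟨1, Subgroup.one_mem _, fun t => one_smul _ _⟩
  | swap_mul f x y hxy ih =>
    obtain ⟨g, hg, hgf⟩ := ih
    obtain ⟨h, hh, hxy', hyx', hfix⟩ := swapProp_sextet hS x x.2 y y.2
    have hst : (⟨h, hh⟩ : ↥Cfsg.M24) ∈ MulAction.stabilizer Cfsg.M24 S :=
      smul_eq_of_swap x.2 y.2 hxy' hyx' hfix
    refine ⟨⟨h, hh⟩ * g, Subgroup.mul_mem _ hst hg, fun t => ?_⟩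
    show (h * (g : Equiv.Perm Cfsg.GolayPt)) • (t : Finset Cfsg.GolayPt) = _
    rw [mul_smul, hgf t, Equiv.Perm.mul_apply]
    by_cases h1 : f t = x
    · rw [h1, Equiv.swap_apply_left]
      exact hxy'
    · by_cases h2 : f t = y
      · rw [h2, Equiv.swap_apply_right]
        exact hyx'
      · rw [Equiv.swap_apply_of_ne_of_ne h1 h2]
        exact hfix _ (f t).2 (fun h => h1 (Subtype.ext h)) (fun h => h2 (Subtype.ext h))

/-- The action of the stabiliser of a sextet on its tetrads. -/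
noncomputable abbrev tetAct (S : Finset (Finset Cfsg.GolayPt)) :
    MulAction ↥(MulAction.stabilizer (↥Cfsg.M24) S) ↥S where
  smul g t := ⟨(g : ↥Cfsg.M24) • (t : Finset Cfsg.GolayPt), by
    have h := g.2
    rw [MulAction.mem_stabilizer_iff] at h
    have h1 := Finset.smul_mem_smul_finset (a := (g : ↥Cfsg.M24)) t.2
    rwa [h] at h1⟩
  one_smul t := Subtype.ext (one_smul _ _)
  mul_smul g h t := Subtype.ext (mul_smul _ _ _)

/-- The homomorphism from the stabiliser of a sextet to the permutations of its tetrads. -/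
noncomputable def tetHom (S : Finset (Finset Cfsg.GolayPt)) :
    ↥(MulAction.stabilizer (↥Cfsg.M24) S) →* Equiv.Perm ↥S :=
  @MulAction.toPermHom _ ↥S _ (tetAct S)

theorem tetHom_apply (S : Finset (Finset Cfsg.GolayPt))
    (g : ↥(MulAction.stabilizer (↥Cfsg.M24) S)) (t : ↥S) :
    ((tetHom S g t : ↥S) : Finset Cfsg.GolayPt)
      = ((g : ↥Cfsg.M24) : Equiv.Perm Cfsg.GolayPt) • (t : Finset Cfsg.GolayPt) := rfl

theorem card_stab {S : Finset (Finset Cfsg.GolayPt)} (hS : S ∈ Cfsg.sextets) :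
    Nat.card ↥(MulAction.stabilizer (↥Cfsg.M24) S) = 138240 := by
  obtain ⟨c, h⟩ := subOrb_sextet hS
  have h1 := h.card_stab
  rw [Cfsg.Agent.Lib.Helper7.card_M24] at h1
  have h2 : ∑ i ∈ Finset.range 4, nSx i = 1771 := by decide
  rw [h2] at h1
  omega

theorem card_kernel {S : Finset (Finset Cfsg.GolayPt)} (hS : S ∈ Cfsg.sextets) :
    Nat.card {g : ↥(MulAction.stabilizer Cfsg.M24 S) //
      ∀ t ∈ S, ((g : Cfsg.M24) : Equiv.Perm Cfsg.GolayPt) • t = t} = 192 := by
  classical
  have hsurj : Function.Surjective (tetHom S) := by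
    intro e
    obtain ⟨g, hg, hge⟩ := induce_all hS e
    refine ⟨⟨g, hg⟩, ?_⟩
    refine Equiv.ext fun t => Subtype.ext ?_
    rw [tetHom_apply]
    exact hge t
  have hker : ∀ g : ↥(MulAction.stabilizer Cfsg.M24 S),
      (∀ t ∈ S, ((g : Cfsg.M24) : Equiv.Perm Cfsg.GolayPt) • t = t) ↔ g ∈ (tetHom S).ker := by
    intro g
    rw [MonoidHom.mem_ker]
    constructor
    · intro h
      refine Equiv.ext fun t => Subtype.ext ?_
      rw [tetHom_apply]
      exact h t t.2
    · intro h t ht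
      have h1 := tetHom_apply S g ⟨t, ht⟩
      rw [h] at h1
      exact h1.symm
  rw [Nat.card_congr (Equiv.subtypeEquivRight hker)]
  have h1 := Subgroup.card_mul_index (tetHom S).ker
  have h6 : Nat.card ↥S = 6 := by rw [Nat.card_eq_fintype_card, Fintype.card_coe, hS.1]
  rw [Subgroup.index_ker, card_stab hS, MonoidHom.range_eq_top.mpr hsurj, Subgroup.card_top,
    Nat.card_perm, h6] at h1
  have h2 : Nat.factorial 6 = 720 := by decide
  rw [h2] at h1
  have h3 : Nat.card ↥(tetHom S).ker = Nat.card {g // g ∈ (tetHom S).ker} := rfl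
  omega

/-- The subgroup of the stabiliser of a sextet acting on each tetrad as a translation. -/
def NSub {S : Finset (Finset Cfsg.GolayPt)} (hS : S ∈ Cfsg.sextets) :
    Subgroup ↥(MulAction.stabilizer (↥Cfsg.M24) S) where
  carrier := {g | InN S ((g : ↥Cfsg.M24) : Equiv.Perm Cfsg.GolayPt)}
  mul_mem' := fun ha hb => InN.mul hS.2.1 ha hb
  one_mem' := InN.one S
  inv_mem' := fun ha => InN.inv hS ha

theorem NSub_normal {S : Finset (Finset Cfsg.GolayPt)} (hS : S ∈ Cfsg.sextets) :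
    (NSub hS).Normal := by
  refine ⟨fun n hn g => ?_⟩
  have h1 : InN (((g : ↥Cfsg.M24) : Equiv.Perm Cfsg.GolayPt) • S) _ :=
    InN.conj hn ((g : ↥Cfsg.M24) : Equiv.Perm Cfsg.GolayPt)
  have h2 : ((g : ↥Cfsg.M24) : Equiv.Perm Cfsg.GolayPt) • S = S := g.2
  rw [h2] at h1
  exact h1

/-- Structure of a sextet stabiliser: it induces every permutation of the six tetrads, the subgroup fixing each tetrad setwise has order 192, and there is a normal subgroup of order 64 consisting of elements squaring to the identity. -/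
theorem result (S : Finset (Finset Cfsg.GolayPt)) (hS : S ∈ Cfsg.sextets) : (∀ e : Equiv.Perm ↥S, ∃ g ∈ MulAction.stabilizer Cfsg.M24 S, ∀ t : ↥S, (g : Equiv.Perm Cfsg.GolayPt) • (t : Finset Cfsg.GolayPt) = ((e t : ↥S) : Finset Cfsg.GolayPt)) ∧ Nat.card {g : ↥(MulAction.stabilizer Cfsg.M24 S) // ∀ t ∈ S, ((g : Cfsg.M24) : Equiv.Perm Cfsg.GolayPt) • t = t} = 192 ∧ ∃ N : Subgroup ↥(MulAction.stabilizer Cfsg.M24 S), N.Normal ∧ Nat.card N = 64 ∧ ∀ x ∈ N, x * x = 1 := by
  refine ⟨induce_all hS, card_kernel hS, NSub hS, NSub_normal hS, ?_, ?_⟩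
  · exact card_of_NTrans hS (nTrans_sextet hS) (NSub hS) (fun g => Iff.rfl)
  · intro x hx
    exact Subtype.ext (Subtype.ext (InN.sq hS hx))

end Cfsg.Agent.S1551
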