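import Mathlib
import Cfsg.Statements.S1552
import Cfsg.Agent.Lib.Helper26.SextetOrb
import Cfsg.Agent.Lib.Helper7.GolayM24

set_option autoImplicit false
open scoped Pointwise
open Cfsg

namespace Cfsg.Agent.S1552

open Cfsg.Agent.Lib.Helper7 Cfsg.Agent.Lib.Helper26

theorem div_coatom : ∀ I ∈ (Finset.range 4).powerset, 0 ∈ I →
    (∑ i ∈ I, nSx i) ∣ (∑ i ∈ Finset.range 4, nSx i) → I = {0} ∨ I = Finset.range 4 := by
  decide +kernel

theorem div_orb : ∀ j ∈ ({1, 2, 3} : Finset ℕ), ∀ I ∈ (Finset.range 4).powerset, j ∈ I →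
    (∑ i ∈ I, nSx i) ∣ 138240 → I = {j} := by
  decide +kernel

/-- A sextet stabiliser has four orbits on the 1771 sextets, of sizes 1, 90, 240, 1440; and the stabiliser is a maximal proper subgroup. -/
theorem result (S : Finset (Finset Cfsg.GolayPt)) (hS : S ∈ Cfsg.sextets) : ∃ X₁ ∈ Cfsg.sextets, ∃ X₂ ∈ Cfsg.sextets, ∃ X₃ ∈ Cfsg.sextets, (MulAction.orbit ↥(MulAction.stabilizer Cfsg.M24 S) X₁).ncard = 90 ∧ (MulAction.orbit ↥(MulAction.stabilizer Cfsg.M24 S) X₂).ncard = 240 ∧ (MulAction.orbit ↥(MulAction.stabilizer Cfsg.M24 S) X₃).ncard = 1440 ∧ Cfsg.sextets = {S} ∪ MulAction.orbit ↥(MulAction.stabilizer Cfsg.M24 S) X₁ ∪ MulAction.orbit ↥(MulAction.stabilizer Cfsg.M24 S) X₂ ∪ MulAction.orbit ↥(MulAction.stabilizer Cfsg.M24 S) X₃ ∧ IsCoatom (MulAction.stabilizer Cfsg.M24 S) := by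
  obtain ⟨c, h⟩ := subOrb_sextet hS
  have hsum : ∑ i ∈ Finset.range 4, nSx i = 1771 := by decide
  have hcard : Nat.card (MulAction.stabilizer (↥Cfsg.M24) S) = 138240 := by
    have h1 := h.card_stab
    rw [card_M24, hsum] at h1
    omega
  have hcS : c S = 0 := by
    have h1 := h.level_self
    have h2 := h.card (c S) (h.mem S h.self_mem)
    rw [h1, Set.ncard_singleton] at h2
    have h3 := h.mem S h.self_mem
    rw [Finset.mem_range] at h3
    generalize c S = k at h2 h3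
    interval_cases k
    · rfl
    · exact absurd h2 (by decide)
    · exact absurd h2 (by decide)
    · exact absurd h2 (by decide)
  obtain ⟨X₁, hX₁, ho₁, hn₁⟩ := h.exists_rep (i := 1) (by simp) (by decide)
    (fun I hI h1 hd => div_orb 1 (by simp) I (Finset.mem_powerset.mpr hI) h1 (by rwa [hcard] at hd))
  obtain ⟨X₂, hX₂, ho₂, hn₂⟩ := h.exists_rep (i := 2) (by simp) (by decide)
    (fun I hI h1 hd => div_orb 2 (by simp) I (Finset.mem_powerset.mpr hI) h1 (by rwa [hcard] at hd))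
  obtain ⟨X₃, hX₃, ho₃, hn₃⟩ := h.exists_rep (i := 3) (by simp) (by decide)
    (fun I hI h1 hd => div_orb 3 (by simp) I (Finset.mem_powerset.mpr hI) h1 (by rwa [hcard] at hd))
  refine ⟨X₁, hX₁, X₂, hX₂, X₃, hX₃, hn₁, hn₂, hn₃, ?_, ?_⟩
  · have e₁ : MulAction.orbit ↥(MulAction.stabilizer Cfsg.M24 S) X₁
        = {z | z ∈ Cfsg.sextets ∧ c z = 1} := ho₁
    have e₂ : MulAction.orbit ↥(MulAction.stabilizer Cfsg.M24 S) X₂
        = {z | z ∈ Cfsg.sextets ∧ c z = 2} := ho₂
    have e₃ : MulAction.orbit ↥(MulAction.stabilizer Cfsg.M24 S) X₃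
        = {z | z ∈ Cfsg.sextets ∧ c z = 3} := ho₃
    rw [e₁, e₂, e₃]
    ext y
    simp only [Set.mem_union, Set.mem_singleton_iff, Set.mem_ofPred_eq]
    constructor
    · intro hy
      have h3 := h.mem y hy
      rw [Finset.mem_range] at h3
      have h4 : c y = 0 ∨ c y = 1 ∨ c y = 2 ∨ c y = 3 := by omega
      rcases h4 with h0 | h1 | h2 | h3
      · left; left; left
        have h5 : y ∈ {z | z ∈ Cfsg.sextets ∧ c z = c S} := ⟨hy, by rw [h0, hcS]⟩
        rw [h.level_self] at h5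
        exact h5
      · left; left; right
        exact ⟨hy, h1⟩
      · left; right
        exact ⟨hy, h2⟩
      · right
        exact ⟨hy, h3⟩
    · rintro (((rfl | h1) | h1) | h1)
      · exact h.self_mem
      · exact h1.1
      · exact h1.1
      · exact h1.1
  · exact h.isCoatom (fun I hI h0 hd => by
      rw [hcS] at h0 ⊢
      exact div_coatom I (Finset.mem_powerset.mpr hI) h0 hd) ⟨1, by simp, by rw [hcS]; decide, by decide⟩

end Cfsg.Agent.S1552
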