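import Mathlib
import Cfsg.Statements.S1555
import Cfsg.Agent.Lib.Helper26.OctOrb
import Cfsg.Agent.Lib.Helper26.M24Trans

set_option autoImplicit false
open scoped Pointwise
open Cfsg

namespace Cfsg.Agent.S1555

open Cfsg.Agent.Lib.Helper7 Cfsg.Agent.Lib.Helper26

theorem count_base (m : ℕ) (hm : m < 2 ^ 24) :
    {o' | o' ∈ Cfsg.octads ∧ baseOct ∩ o' = Cfsg.Agent.Lib.Helper7.setOf m}.ncard
      = cntL (fun k => popc (enc k) == 8 && (8536111 &&& enc k == m)) 4096 :=
  ncard_words_filter 8 (fun o' => baseOct ∩ o' = Cfsg.Agent.Lib.Helper7.setOf m)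
    (fun k => 8536111 &&& enc k == m) (fun k hk h8 => by
      rw [baseOct, setOf_inter, beq_iff_eq]
      constructor
      · intro h
        exact setOf_injective (Nat.and_lt_two_pow _ (enc_lt k)) hm h
      · intro h
        rw [h])

set_option maxRecDepth 100000 in
theorem count2 : cntL (fun k => popc (enc k) == 8 && (8536111 &&& enc k == 3)) 4096 = 16 := by
  decide +kernel

set_option maxRecDepth 100000 in
theorem count4 : cntL (fun k => popc (enc k) == 8 && (8536111 &&& enc k == 15)) 4096 = 4 := by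
  decide +kernel

theorem transport_count {o s : Finset Cfsg.GolayPt} (ho : o ∈ Cfsg.octads) (hs : s ⊆ o) (m : ℕ)
    (hm : Cfsg.Agent.Lib.Helper7.setOf m ⊆ baseOct)
    (hc : (Cfsg.Agent.Lib.Helper7.setOf m).card = s.card) (h5 : s.card ≤ 5) :
    {o' | o' ∈ Cfsg.octads ∧ o ∩ o' = s}.ncard
      = {o' | o' ∈ Cfsg.octads ∧ baseOct ∩ o' = Cfsg.Agent.Lib.Helper7.setOf m}.ncard := by
  obtain ⟨g, hg, hgo, hgs⟩ := M24_transport setOf_octMask_mem ho hm hs hc (by rw [hc]; exact h5)
  have hset : {o' | o' ∈ Cfsg.octads ∧ o ∩ o' = s} = (fun o' => g • o') ''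
      {o' | o' ∈ Cfsg.octads ∧ baseOct ∩ o' = Cfsg.Agent.Lib.Helper7.setOf m} := by
    ext o'
    constructor
    · rintro ⟨h1, h2⟩
      refine ⟨g⁻¹ • o', ⟨smul_mem_octads (Cfsg.M24.inv_mem hg) h1, ?_⟩, smul_inv_smul g o'⟩
      apply (smul_left_cancel_iff g).mp
      rw [Finset.smul_finset_inter, smul_inv_smul, hgs]
      rw [← h2, ← hgo]
    · rintro ⟨o'', ⟨h1, h2⟩, rfl⟩
      refine ⟨smul_mem_octads hg h1, ?_⟩
      rw [← hgo, ← hgs, ← h2, Finset.smul_finset_inter]
  rw [hset, Set.ncard_image_of_injective _ (MulAction.injective g)]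

theorem sub_base (m : ℕ) (h : 8536111 &&& m = m) :
    Cfsg.Agent.Lib.Helper7.setOf m ⊆ baseOct := by
  apply Finset.inter_eq_right.mp
  rw [baseOct, setOf_inter, h]

/-- Bottom row of the Leech triangle: an octad is met in a prescribed pair of its points by exactly 16 octads and in a prescribed 4-subset by exactly 4 octads. -/
theorem result (o : Finset Cfsg.GolayPt) (ho : o ∈ Cfsg.octads) (s : Finset Cfsg.GolayPt) (hs : s ⊆ o) : (s.card = 2 → {o' : Finset Cfsg.GolayPt | o' ∈ Cfsg.octads ∧ o ∩ o' = s}.ncard = 16) ∧ (s.card = 4 → {o' : Finset Cfsg.GolayPt | o' ∈ Cfsg.octads ∧ o ∩ o' = s}.ncard = 4) := by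
  constructor
  · intro h2
    rw [transport_count ho hs 3 (sub_base 3 (by decide)) (by rw [card_setOf, h2]; decide)
      (by omega), count_base 3 (by norm_num), count2]
  · intro h4
    rw [transport_count ho hs 15 (sub_base 15 (by decide)) (by rw [card_setOf, h4]; decide)
      (by omega), count_base 15 (by norm_num), count4]

end Cfsg.Agent.S1555
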