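import Cfsg.Statements.S1558
import Cfsg.Agent.Lib.Helper26.TrStrBase
import Cfsg.Agent.S1551
-- import your own Cfsg.Agent.* helpers here

set_option autoImplicit false
open scoped Pointwise
open Cfsg

namespace Cfsg.Agent.S1558

open Cfsg.Agent.Lib.Helper26

theorem card_stab {T : Finset (Finset Cfsg.GolayPt)} (hT : T ∈ Cfsg.trios) :
    Nat.card ↥(MulAction.stabilizer (↥Cfsg.M24) T) = 64512 := by
  obtain ⟨c, h⟩ := subOrb_trio hT
  have h1 := h.card_stab
  rw [Cfsg.Agent.Lib.Helper7.card_M24] at h1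
  have h2 : ∑ i ∈ Finset.range 5, nTr i = 3795 := by decide
  rw [h2] at h1
  omega

/-- Structure of a trio stabiliser: every permutation of the three octads is induced, and there is a normal subgroup of order 64 of elements squaring to the identity whose quotient is isomorphic to the product of GL(3, 2) with the symmetric group of degree 3. -/
theorem result (T : Finset (Finset Cfsg.GolayPt)) (hT : T ∈ Cfsg.trios) : (∀ e : Equiv.Perm ↥T, ∃ g ∈ MulAction.stabilizer Cfsg.M24 T, ∀ o : ↥T, (g : Equiv.Perm Cfsg.GolayPt) • (o : Finset Cfsg.GolayPt) = ((e o : ↥T) : Finset Cfsg.GolayPt)) ∧ ∃ (N : Subgroup ↥(MulAction.stabilizer Cfsg.M24 T)) (_ : N.Normal), Nat.card N = 64 ∧ (∀ x ∈ N, x * x = 1) ∧ Nonempty (↥(MulAction.stabilizer Cfsg.M24 T) ⧸ N ≃* GL (Fin 3) (ZMod 2) × Equiv.Perm (Fin 3)) := by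
  refine ⟨induce_of_swap (swapProp_trio hT), ?_⟩
  obtain ⟨sx, hF⟩ := fano_trio hT
  let φ : ↥(MulAction.stabilizer (↥Cfsg.M24) T) →* Equiv.Perm (Fin 3) :=
    (Equiv.permCongrHom (Finset.equivFinOfCardEq hT.1)).toMonoidHom.comp
      (Cfsg.Agent.S1551.tetHom T)
  refine trio_structure hF hT (card_stab hT) φ ?_
  intro g hg o ho
  have h1 : Cfsg.Agent.S1551.tetHom T g = 1 :=
    (Equiv.permCongrHom (Finset.equivFinOfCardEq hT.1)).injective
      (hg.trans (map_one _).symm)
  have h2 := Cfsg.Agent.S1551.tetHom_apply T g ⟨o, ho⟩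
  rw [h1] at h2
  exact h2.symm

end Cfsg.Agent.S1558
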