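import Mathlib
import Cfsg.Statements.S1559
import Cfsg.Agent.Lib.Helper26.TrioOrb
import Cfsg.Agent.Lib.Helper7.GolayM24

set_option autoImplicit false
open scoped Pointwise
open Cfsg

namespace Cfsg.Agent.S1559

open Cfsg.Agent.Lib.Helper7 Cfsg.Agent.Lib.Helper26

theorem div_coatom : ∀ I ∈ (Finset.range 5).powerset, 0 ∈ I →
    (∑ i ∈ I, nTr i) ∣ (∑ i ∈ Finset.range 5, nTr i) → I = {0} ∨ I = Finset.range 5 := by
  decide +kernel

theorem div_orb : ∀ j ∈ ({1, 2, 3, 4} : Finset ℕ), ∀ I ∈ (Finset.range 5).powerset, j ∈ I →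
    (∑ i ∈ I, nTr i) ∣ 64512 → I = {j} := by
  decide +kernel

/-- A trio stabiliser has five orbits on the 3795 trios, of sizes 1, 42, 56, 1008, 2688; and the stabiliser is a maximal proper subgroup. -/
theorem result (T : Finset (Finset Cfsg.GolayPt)) (hT : T ∈ Cfsg.trios) : ∃ X₁ ∈ Cfsg.trios, ∃ X₂ ∈ Cfsg.trios, ∃ X₃ ∈ Cfsg.trios, ∃ X₄ ∈ Cfsg.trios, (MulAction.orbit ↥(MulAction.stabilizer Cfsg.M24 T) X₁).ncard = 42 ∧ (MulAction.orbit ↥(MulAction.stabilizer Cfsg.M24 T) X₂).ncard = 56 ∧ (MulAction.orbit ↥(MulAction.stabilizer Cfsg.M24 T) X₃).ncard = 1008 ∧ (MulAction.orbit ↥(MulAction.stabilizer Cfsg.M24 T) X₄).ncard = 2688 ∧ Cfsg.trios = {T} ∪ MulAction.orbit ↥(MulAction.stabilizer Cfsg.M24 T) X₁ ∪ MulAction.orbit ↥(MulAction.stabilizer Cfsg.M24 T) X₂ ∪ MulAction.orbit ↥(MulAction.stabilizer Cfsg.M24 T) X₃ ∪ MulAction.orbit ↥(MulAction.stabilizer Cfsg.M24 T) X₄ ∧ IsCoatom (MulAction.stabilizer Cfsg.M24 T) := by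
  obtain ⟨c, h⟩ := subOrb_trio hT
  have hsum : ∑ i ∈ Finset.range 5, nTr i = 3795 := by decide
  have hcard : Nat.card (MulAction.stabilizer (↥Cfsg.M24) T) = 64512 := by
    have h1 := h.card_stab
    rw [card_M24, hsum] at h1
    omega
  have hcT : c T = 0 := by
    have h1 := h.level_self
    have h2 := h.card (c T) (h.mem T h.self_mem)
    rw [h1, Set.ncard_singleton] at h2
    have h3 := h.mem T h.self_mem
    rw [Finset.mem_range] at h3
    generalize c T = k at h2 h3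
    interval_cases k
    · rfl
    · exact absurd h2 (by decide)
    · exact absurd h2 (by decide)
    · exact absurd h2 (by decide)
    · exact absurd h2 (by decide)
  obtain ⟨X₁, hX₁, ho₁, hn₁⟩ := h.exists_rep (i := 1) (by simp) (by decide)
    (fun I hI h1 hd => div_orb 1 (by simp) I (Finset.mem_powerset.mpr hI) h1 (by rwa [hcard] at hd))
  obtain ⟨X₂, hX₂, ho₂, hn₂⟩ := h.exists_rep (i := 2) (by simp) (by decide)
    (fun I hI h1 hd => div_orb 2 (by simp) I (Finset.mem_powerset.mpr hI) h1 (by rwa [hcard] at hd))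
  obtain ⟨X₃, hX₃, ho₃, hn₃⟩ := h.exists_rep (i := 3) (by simp) (by decide)
    (fun I hI h1 hd => div_orb 3 (by simp) I (Finset.mem_powerset.mpr hI) h1 (by rwa [hcard] at hd))
  obtain ⟨X₄, hX₄, ho₄, hn₄⟩ := h.exists_rep (i := 4) (by simp) (by decide)
    (fun I hI h1 hd => div_orb 4 (by simp) I (Finset.mem_powerset.mpr hI) h1 (by rwa [hcard] at hd))
  refine ⟨X₁, hX₁, X₂, hX₂, X₃, hX₃, X₄, hX₄, hn₁, hn₂, hn₃, hn₄, ?_, ?_⟩
  · have e₁ : MulAction.orbit ↥(MulAction.stabilizer Cfsg.M24 T) X₁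
        = {z | z ∈ Cfsg.trios ∧ c z = 1} := ho₁
    have e₂ : MulAction.orbit ↥(MulAction.stabilizer Cfsg.M24 T) X₂
        = {z | z ∈ Cfsg.trios ∧ c z = 2} := ho₂
    have e₃ : MulAction.orbit ↥(MulAction.stabilizer Cfsg.M24 T) X₃
        = {z | z ∈ Cfsg.trios ∧ c z = 3} := ho₃
    have e₄ : MulAction.orbit ↥(MulAction.stabilizer Cfsg.M24 T) X₄
        = {z | z ∈ Cfsg.trios ∧ c z = 4} := ho₄
    rw [e₁, e₂, e₃, e₄]
    ext y
    simp only [Set.mem_union, Set.mem_singleton_iff, Set.mem_ofPred_eq]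
    constructor
    · intro hy
      have h3 := h.mem y hy
      rw [Finset.mem_range] at h3
      have h4 : c y = 0 ∨ c y = 1 ∨ c y = 2 ∨ c y = 3 ∨ c y = 4 := by omega
      rcases h4 with h0 | h1 | h2 | h3 | h4
      · left; left; left; left
        have h5 : y ∈ {z | z ∈ Cfsg.trios ∧ c z = c T} := ⟨hy, by rw [h0, hcT]⟩
        rw [h.level_self] at h5
        exact h5
      · left; left; left; right
        exact ⟨hy, h1⟩
      · left; left; right
        exact ⟨hy, h2⟩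
      · left; right
        exact ⟨hy, h3⟩
      · right
        exact ⟨hy, h4⟩
    · rintro ((((rfl | h1) | h1) | h1) | h1)
      · exact h.self_mem
      · exact h1.1
      · exact h1.1
      · exact h1.1
      · exact h1.1
  · exact h.isCoatom (fun I hI h0 hd => by
      rw [hcT] at h0 ⊢
      exact div_coatom I (Finset.mem_powerset.mpr hI) h0 hd) ⟨1, by simp, by rw [hcT]; decide, by decide⟩

end Cfsg.Agent.S1559
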