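import Mathlib
import Cfsg.Statements.S1563
import Cfsg.Agent.Lib.Helper26.SetTrans
import Cfsg.Agent.Lib.Helper26.Coatom

set_option autoImplicit false
open scoped Pointwise
open Cfsg

namespace Cfsg.Agent.S1563

open Cfsg.Agent.Lib.Helper7 Cfsg.Agent.Lib.Helper26

/-- Sizes of the orbits of a duad stabiliser on duads, by the size of the intersection. -/
def nDuad (i : ℕ) : ℕ := if i = 0 then 231 else if i = 1 then 44 else if i = 2 then 1 else 0

theorem div_duad : ∀ I ∈ ({0, 1, 2} : Finset ℕ).powerset, 2 ∈ I →
    (∑ i ∈ I, nDuad i) ∣ (∑ i ∈ ({0, 1, 2} : Finset ℕ), nDuad i) →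
      I = {2} ∨ I = ({0, 1, 2} : Finset ℕ) := by
  decide +kernel

/-- The stabiliser of a pair of points (setwise) is a maximal proper subgroup of the group of the length-24 code. -/
theorem result (s : Finset Cfsg.GolayPt) (hs : s.card = 2) : IsCoatom (MulAction.stabilizer Cfsg.M24 s) := by
  have hc : (s ∩ s).card = 2 := by
    rw [Finset.inter_self]
    exact hs
  refine isCoatom_stabilizer_of_suborbits (G := ↥Cfsg.M24) s {y | y.card = 2} ?_
    (fun y => (s ∩ y).card) {0, 1, 2} nDuad ?_ ?_ ?_ ?_ ?_
  · ext y
    constructor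
    · rintro ⟨g, rfl⟩
      show ((g : Equiv.Perm Cfsg.GolayPt) • s).card = 2
      rw [Finset.card_smul_finset]
      exact hs
    · intro hy
      have hy' : y.card = 2 := hy
      obtain ⟨g, hg, -, hgy⟩ := M24_pair_transport (s := ∅) (y := s) (z := y)
        (hs.trans hy'.symm) (by simp) (by simp [hs])
      exact ⟨⟨g, hg⟩, hgy⟩
  · intro y hy z hz hyz
    have hy' : y.card = 2 := hy
    have hz' : z.card = 2 := hz
    obtain ⟨g, hg, hgs, hgy⟩ := M24_pair_transport (s := s) (hy'.trans hz'.symm) hyz
      (by have := Finset.card_union_le s y; omega)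
    exact ⟨⟨g, hg⟩, hgs, hgy⟩
  · intro y hy
    have h2 : (s ∩ y).card ≤ 2 := (Finset.card_le_card Finset.inter_subset_left).trans hs.le
    simp only [Finset.mem_insert, Finset.mem_singleton]
    omega
  · intro i hi
    have h := ncard_inter_eq s 2 i (by
      simp only [Finset.mem_insert, Finset.mem_singleton] at hi
      omega)
    rw [hs] at h
    simp only [Finset.mem_insert, Finset.mem_singleton] at hi
    rcases hi with rfl | rfl | rfl <;> exact h.trans (by decide)
  · intro I hI
    simp only [hc]
    exact div_duad I (Finset.mem_powerset.mpr hI)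
  · refine ⟨0, by simp, ?_, by decide⟩
    simp only [hc]
    decide

end Cfsg.Agent.S1563
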