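import Mathlib
import Cfsg.Statements.S1564
import Cfsg.Agent.Lib.Helper26.Triad
import Cfsg.Agent.Lib.Helper26.Coatom

set_option autoImplicit false
open scoped Pointwise
open Cfsg

namespace Cfsg.Agent.S1564

open Cfsg.Agent.Lib.Helper7 Cfsg.Agent.Lib.Helper26

/-- Sizes of the orbits of a triad stabiliser on triads. -/
def nTri (i : ℕ) : ℕ :=
  if i = 0 then 1120 else if i = 1 then 630 else if i = 2 then 63 else if i = 3 then 1
  else if i = 4 then 210 else 0

open Classical in
/-- An invariant separating the orbits of a triad stabiliser on triads. -/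
noncomputable def cTri (s y : Finset Cfsg.GolayPt) : ℕ :=
  if (s ∩ y).card = 0 then (if ∃ o ∈ Cfsg.octads, s ∪ y ⊆ o then 4 else 0) else (s ∩ y).card

theorem div_tri : ∀ I ∈ ({0, 1, 2, 3, 4} : Finset ℕ).powerset, 3 ∈ I →
    (∑ i ∈ I, nTri i) ∣ (∑ i ∈ ({0, 1, 2, 3, 4} : Finset ℕ), nTri i) →
      I = {3} ∨ I = ({0, 1, 2, 3, 4} : Finset ℕ) := by
  decide +kernel

theorem cTri_pos {s y : Finset Cfsg.GolayPt} (h : (s ∩ y).card ≠ 0) :
    cTri s y = (s ∩ y).card := by
  unfold cTri
  rw [if_neg h]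

theorem cTri_zero {s y : Finset Cfsg.GolayPt} (h : (s ∩ y).card = 0) :
    (cTri s y = 4 ∧ ∃ o ∈ Cfsg.octads, s ∪ y ⊆ o) ∨
      (cTri s y = 0 ∧ ¬ ∃ o ∈ Cfsg.octads, s ∪ y ⊆ o) := by
  unfold cTri
  rw [if_pos h]
  by_cases hex : ∃ o ∈ Cfsg.octads, s ∪ y ⊆ o
  · rw [if_pos hex]
    exact Or.inl ⟨rfl, hex⟩
  · rw [if_neg hex]
    exact Or.inr ⟨rfl, hex⟩

/-- The stabiliser of a set of three points (setwise) is a maximal proper subgroup of the group of the length-24 code. -/
theorem result (s : Finset Cfsg.GolayPt) (hs : s.card = 3) : IsCoatom (MulAction.stabilizer Cfsg.M24 s) := by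
  have hss : (s ∩ s).card = 3 := by
    rw [Finset.inter_self]
    exact hs
  have hc : cTri s s = 3 := by rw [cTri_pos (by omega), hss]
  have hle : ∀ y : Finset Cfsg.GolayPt, (s ∩ y).card ≤ 3 := fun y =>
    (Finset.card_le_card Finset.inter_subset_left).trans hs.le
  refine isCoatom_stabilizer_of_suborbits (G := ↥Cfsg.M24) s {y | y.card = 3} ?_
    (fun y => cTri s y) {0, 1, 2, 3, 4} nTri ?_ ?_ ?_ ?_ ?_
  · ext y
    constructor
    · rintro ⟨g, rfl⟩
      show ((g : Equiv.Perm Cfsg.GolayPt) • s).card = 3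
      rw [Finset.card_smul_finset]
      exact hs
    · intro hy
      have hy' : y.card = 3 := hy
      obtain ⟨g, hg, -, hgy⟩ := M24_pair_transport (s := ∅) (y := s) (z := y)
        (hs.trans hy'.symm) (by simp) (by simp [hs])
      exact ⟨⟨g, hg⟩, hgy⟩
  · intro y hy z hz hyz
    have hy' : y.card = 3 := hy
    have hz' : z.card = 3 := hz
    have hyz' : cTri s y = cTri s z := hyz
    by_cases hy0 : (s ∩ y).card = 0
    · have hz0 : (s ∩ z).card = 0 := by
        by_contra hz0
        rw [cTri_pos hz0] at hyz'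
        have := hle z
        rcases cTri_zero hy0 with ⟨h, -⟩ | ⟨h, -⟩ <;> omega
      have hdy : Disjoint s y := by
        rwa [Finset.card_eq_zero, ← Finset.disjoint_iff_inter_eq_empty] at hy0
      have hdz : Disjoint s z := by
        rwa [Finset.card_eq_zero, ← Finset.disjoint_iff_inter_eq_empty] at hz0
      have hiff : (∃ o ∈ Cfsg.octads, s ∪ y ⊆ o) ↔ (∃ o ∈ Cfsg.octads, s ∪ z ⊆ o) := by
        rcases cTri_zero hy0 with ⟨h, hex⟩ | ⟨h, hex⟩ <;>
          rcases cTri_zero hz0 with ⟨h', hex'⟩ | ⟨h', hex'⟩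
        · exact ⟨fun _ => hex', fun _ => hex⟩
        · omega
        · omega
        · exact ⟨fun h => absurd h hex, fun h => absurd h hex'⟩
      obtain ⟨g, hg, hgs, hgy⟩ := triad_trans hs hy' hz' hdy hdz hiff
      exact ⟨⟨g, hg⟩, hgs, hgy⟩
    · have hz0 : (s ∩ z).card ≠ 0 := by
        intro hz0
        rw [cTri_pos hy0] at hyz'
        have := hle y
        rcases cTri_zero hz0 with ⟨h, -⟩ | ⟨h, -⟩ <;> omega
      rw [cTri_pos hy0, cTri_pos hz0] at hyz'
      obtain ⟨g, hg, hgs, hgy⟩ := M24_pair_transport (s := s) (hy'.trans hz'.symm) hyz'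
        (by have := Finset.card_union_add_card_inter s y; omega)
      exact ⟨⟨g, hg⟩, hgs, hgy⟩
  · intro y hy
    show cTri s y ∈ ({0, 1, 2, 3, 4} : Finset ℕ)
    simp only [Finset.mem_insert, Finset.mem_singleton]
    by_cases hy0 : (s ∩ y).card = 0
    · rcases cTri_zero hy0 with ⟨h, -⟩ | ⟨h, -⟩ <;> omega
    · rw [cTri_pos hy0]
      have := hle y
      omega
  · intro i hi
    simp only [Finset.mem_insert, Finset.mem_singleton] at hi
    have hpos : ∀ j, j ≠ 0 → j ≠ 4 → {y : Finset Cfsg.GolayPt | y ∈ {y | y.card = 3} ∧ cTri s y = j}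
        = {y : Finset Cfsg.GolayPt | y.card = 3 ∧ (s ∩ y).card = j} := by
      intro j hj0 hj4
      ext y
      simp only [Set.mem_ofPred_eq]
      constructor
      · rintro ⟨hy, hcy⟩
        refine ⟨hy, ?_⟩
        by_cases hy0 : (s ∩ y).card = 0
        · rcases cTri_zero hy0 with ⟨h, -⟩ | ⟨h, -⟩ <;> omega
        · rwa [cTri_pos hy0] at hcy
      · rintro ⟨hy, hcy⟩
        exact ⟨hy, by rw [cTri_pos (by omega), hcy]⟩
    have hcnt := fun j (hj : j ≤ 3) => ncard_inter_eq s 3 j hj
    rw [hs] at hcnt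
    rcases hi with rfl | rfl | rfl | rfl | rfl
    · have : {y : Finset Cfsg.GolayPt | y ∈ {y | y.card = 3} ∧ cTri s y = 0}
          = {U : Finset Cfsg.GolayPt | U.card = 3 ∧ Disjoint s U ∧
              ¬ (∃ o ∈ Cfsg.octads, s ∪ U ⊆ o)} := by
        ext y
        simp only [Set.mem_ofPred_eq]
        constructor
        · rintro ⟨hy, hcy⟩
          have hy0 : (s ∩ y).card = 0 := by
            by_contra hy0
            rw [cTri_pos hy0] at hcy
            exact hy0 hcy
          refine ⟨hy, by rwa [Finset.card_eq_zero, ← Finset.disjoint_iff_inter_eq_empty] at hy0, ?_⟩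
          rcases cTri_zero hy0 with ⟨h, -⟩ | ⟨-, h⟩
          · omega
          · exact h
        · rintro ⟨hy, hd, hex⟩
          have hy0 : (s ∩ y).card = 0 := by
            rwa [Finset.card_eq_zero, ← Finset.disjoint_iff_inter_eq_empty]
          refine ⟨hy, ?_⟩
          rcases cTri_zero hy0 with ⟨-, h⟩ | ⟨h, -⟩
          · exact absurd h hex
          · exact h
      rw [this, triad_count_non s hs]
      rfl
    · rw [hpos 1 (by omega) (by omega), hcnt 1 (by omega)]
      decide
    · rw [hpos 2 (by omega) (by omega), hcnt 2 (by omega)]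
      decide
    · rw [hpos 3 (by omega) (by omega), hcnt 3 (by omega)]
      decide
    · have : {y : Finset Cfsg.GolayPt | y ∈ {y | y.card = 3} ∧ cTri s y = 4}
          = {U : Finset Cfsg.GolayPt | U.card = 3 ∧ Disjoint s U ∧
              (∃ o ∈ Cfsg.octads, s ∪ U ⊆ o)} := by
        ext y
        simp only [Set.mem_ofPred_eq]
        constructor
        · rintro ⟨hy, hcy⟩
          have hy0 : (s ∩ y).card = 0 := by
            by_contra hy0
            rw [cTri_pos hy0] at hcy
            have := hle y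
            omega
          refine ⟨hy, by rwa [Finset.card_eq_zero, ← Finset.disjoint_iff_inter_eq_empty] at hy0, ?_⟩
          rcases cTri_zero hy0 with ⟨-, h⟩ | ⟨h, -⟩
          · exact h
          · omega
        · rintro ⟨hy, hd, hex⟩
          have hy0 : (s ∩ y).card = 0 := by
            rwa [Finset.card_eq_zero, ← Finset.disjoint_iff_inter_eq_empty]
          refine ⟨hy, ?_⟩
          rcases cTri_zero hy0 with ⟨h, -⟩ | ⟨-, h⟩
          · exact h
          · exact absurd hex h
      rw [this, triad_count_oct s hs]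
      rfl
  · intro I hI
    simp only [hc]
    exact div_tri I (Finset.mem_powerset.mpr hI)
  · refine ⟨0, by simp, ?_, by decide⟩
    simp only [hc]
    decide

end Cfsg.Agent.S1564
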