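import Mathlib
import Cfsg.Statements.S1565
import Cfsg.Agent.Lib.Helper26.OctOrb
import Cfsg.Agent.Lib.Helper26.Coatom

set_option autoImplicit false
open scoped Pointwise
open Cfsg

namespace Cfsg.Agent.S1565

open Cfsg.Agent.Lib.Helper7 Cfsg.Agent.Lib.Helper26

/-- Sizes of the orbits of an octad stabiliser on octads, by the size of the intersection. -/
def nOct (i : ℕ) : ℕ :=
  if i = 0 then 30 else if i = 2 then 448 else if i = 4 then 280 else if i = 8 then 1 else 0

theorem orbit_baseOct : MulAction.orbit (↥Cfsg.M24) baseOct = Cfsg.octads := by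
  ext o
  constructor
  · rintro ⟨g, rfl⟩
    exact smul_mem_octads g.2 setOf_octMask_mem
  · intro ho
    obtain ⟨g, hg, hgo⟩ := octad_transitive setOf_octMask_mem ho
    exact ⟨⟨g, hg⟩, hgo⟩

theorem count_oct (i : ℕ) : {y | y ∈ Cfsg.octads ∧ (baseOct ∩ y).card = i}.ncard
    = cntL (fun k => popc (enc k) == 8 && popc (8536111 &&& enc k) == i) 4096 :=
  ncard_words_filter 8 (fun y => (baseOct ∩ y).card = i)
    (fun k => popc (8536111 &&& enc k) == i)
    (fun k hk h8 => by rw [card_baseOct_inter, beq_iff_eq])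

set_option maxRecDepth 100000 in
theorem count_all : ∀ i ∈ ({0, 2, 4, 8} : Finset ℕ),
    cntL (fun k => popc (enc k) == 8 && popc (8536111 &&& enc k) == i) 4096 = nOct i := by
  decide +kernel

theorem div_oct : ∀ I ∈ ({0, 2, 4, 8} : Finset ℕ).powerset, 8 ∈ I →
    (∑ i ∈ I, nOct i) ∣ (∑ i ∈ ({0, 2, 4, 8} : Finset ℕ), nOct i) →
      I = {8} ∨ I = ({0, 2, 4, 8} : Finset ℕ) := by
  decide +kernel

theorem coatom_base : IsCoatom (MulAction.stabilizer (↥Cfsg.M24) baseOct) := by
  have hc8 : (baseOct ∩ baseOct).card = 8 := by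
    rw [Finset.inter_self]
    exact setOf_octMask_mem.2
  refine isCoatom_stabilizer_of_suborbits (G := ↥Cfsg.M24) baseOct Cfsg.octads orbit_baseOct
    (fun y => (baseOct ∩ y).card) {0, 2, 4, 8} nOct ?_ ?_ ?_ ?_ ?_
  · intro y hy z hz hyz
    obtain ⟨u, ⟨hu1, hu2⟩, hu3⟩ := base_orbit hy hz hyz
    exact ⟨⟨u, hu1⟩, hu2, hu3⟩
  · intro y hy
    obtain ⟨k, hk, h8, rfl⟩ := (mem_octads_iff_enc y).mp hy
    have h1 := mem_octList hk h8
    show (baseOct ∩ Cfsg.Agent.Lib.Helper7.setOf (enc k)).card ∈ ({0, 2, 4, 8} : Finset ℕ)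
    rw [card_baseOct_inter]
    generalize popc (8536111 &&& enc k) = j at h1
    unfold octList at h1
    split_ifs at h1 with h0 h2 h4 h8
    · simp [h0]
    · simp [h2]
    · simp [h4]
    · simp [h8]
    · simp at h1
  · intro i hi
    rw [← count_all i hi]
    exact count_oct i
  · intro I hI
    rw [hc8]
    exact div_oct I (Finset.mem_powerset.mpr hI)
  · refine ⟨0, by simp, ?_, by decide⟩
    rw [hc8]
    decide

/-- The stabiliser of an octad is a maximal proper subgroup of the group of the length-24 code. -/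
theorem result (o : Finset Cfsg.GolayPt) (ho : o ∈ Cfsg.octads) : IsCoatom (MulAction.stabilizer Cfsg.M24 o) := by
  obtain ⟨g, hg, rfl⟩ := octad_transitive setOf_octMask_mem ho
  exact isCoatom_stabilizer_smul (⟨g, hg⟩ : ↥Cfsg.M24) baseOct coatom_base

end Cfsg.Agent.S1565
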