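import Mathlib
import Cfsg.Statements.S1566
import Cfsg.Agent.Lib.Helper6.M12Orb
import Cfsg.Agent.Lib.Helper7.GolayWeights
import Cfsg.Agent.Lib.Helper26.Coatom
import Cfsg.Agent.Lib.Helper26.Count

set_option autoImplicit false
open scoped Pointwise
open Cfsg

namespace Cfsg.Agent.S1566

open Cfsg.Agent.Lib.Helper26 Cfsg.Agent.Lib.Helper6.M12

/-- A set of points together with its complement. -/
def pairOf (e : Finset Cfsg.GolayPt) : Finset (Finset Cfsg.GolayPt) := {e, eᶜ}

/-- Sizes of the orbits of the stabiliser of a complementary pair of dodecads on such pairs. -/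
def nP (i : ℕ) : ℕ := if i = 6 then 792 else if i = 8 then 495 else if i = 12 then 1 else 0

/-- The largest intersection of a given set with a member of a family. -/
def cP (d : Finset Cfsg.GolayPt) (X : Finset (Finset Cfsg.GolayPt)) : ℕ :=
  X.sup (fun e => (d ∩ e).card)

theorem div_P : ∀ I ∈ ({6, 8, 12} : Finset ℕ).powerset, 12 ∈ I →
    (∑ i ∈ I, nP i) ∣ (∑ i ∈ ({6, 8, 12} : Finset ℕ), nP i) →
      I = {12} ∨ I = ({6, 8, 12} : Finset ℕ) := by
  decide +kernel

theorem smul_compl (g : ↥Cfsg.M24) (e : Finset Cfsg.GolayPt) : g • eᶜ = (g • e)ᶜ := by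
  ext p
  rw [Finset.mem_compl, ← Finset.inv_smul_mem_iff, ← Finset.inv_smul_mem_iff, Finset.mem_compl]

theorem smul_pairOf (g : ↥Cfsg.M24) (e : Finset Cfsg.GolayPt) :
    g • pairOf e = pairOf (g • e) := by
  unfold pairOf
  rw [Finset.smul_finset_insert, Finset.smul_finset_singleton, smul_compl]

theorem pairOf_compl (e : Finset Cfsg.GolayPt) : pairOf eᶜ = pairOf e := by
  unfold pairOf
  rw [compl_compl, Finset.pair_comm]

theorem cP_pairOf (d e : Finset Cfsg.GolayPt) :
    cP d (pairOf e) = max (d ∩ e).card (d ∩ eᶜ).card := by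
  unfold cP pairOf
  rw [Finset.sup_insert, Finset.sup_singleton]

theorem card_inter_compl {d : Finset Cfsg.GolayPt} (hd : d ∈ Cfsg.dodecads)
    (e : Finset Cfsg.GolayPt) : (d ∩ eᶜ).card + (d ∩ e).card = 12 := by
  have h := Finset.card_sdiff_add_card_inter d e
  rw [hd.2] at h
  have h2 : d ∩ eᶜ = d \ e := by
    ext p
    simp [Finset.mem_sdiff]
  rw [h2]
  exact h

theorem compl_mem_dodecads {e : Finset Cfsg.GolayPt} (he : e ∈ Cfsg.dodecads) :
    eᶜ ∈ Cfsg.dodecads := by
  refine ⟨Cfsg.Agent.Lib.Helper7.compl_mem_golaySupports he.1, ?_⟩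
  rw [Finset.card_compl, he.2, Fintype.card_option, ZMod.card]

theorem eq_of_card_inter {d e : Finset Cfsg.GolayPt} (hd : d ∈ Cfsg.dodecads)
    (he : e ∈ Cfsg.dodecads) (h : (d ∩ e).card = 12) : e = d := by
  have h1 : d ∩ e = d := Finset.eq_of_subset_of_card_le Finset.inter_subset_left (by rw [h, hd.2])
  have h2 : d ⊆ e := Finset.inter_eq_left.mp h1
  exact (Finset.eq_of_subset_of_card_le h2 (by rw [he.2, hd.2])).symm

theorem compl_ne (e : Finset Cfsg.GolayPt) : eᶜ ≠ e := by
  intro h
  have h1 : (none : Cfsg.GolayPt) ∈ eᶜ ↔ (none : Cfsg.GolayPt) ∈ e := by rw [h]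
  rw [Finset.mem_compl] at h1
  tauto

/-- The setwise stabiliser of a dodecad together with its complement is a maximal proper subgroup of the group of the length-24 code. -/
theorem result (d : Finset Cfsg.GolayPt) (hd : d ∈ Cfsg.dodecads) : IsCoatom (MulAction.stabilizer Cfsg.M24 ({d, dᶜ} : Finset (Finset Cfsg.GolayPt))) := by
  classical
  have hdd : (d ∩ d).card = 12 := by
    rw [Finset.inter_self]
    exact hd.2
  have hcx : cP d (pairOf d) = 12 := by
    rw [cP_pairOf]
    have := card_inter_compl hd d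
    omega
  have hcase : ∀ e ∈ Cfsg.dodecads, (d ∩ e).card = 12 ∨ (d ∩ e).card = 0 ∨ (d ∩ e).card = 4 ∨
      (d ∩ e).card = 6 ∨ (d ∩ e).card = 8 := by
    intro e he
    by_cases hed : e = d
    · left
      rw [hed]
      exact hdd
    · right
      exact dodecad_inter_cases hd he hed
  show IsCoatom (MulAction.stabilizer (↥Cfsg.M24) (pairOf d))
  refine isCoatom_stabilizer_of_suborbits (G := ↥Cfsg.M24) (pairOf d)
    {X | ∃ e ∈ Cfsg.dodecads, X = pairOf e} ?_ (cP d) {6, 8, 12} nP ?_ ?_ ?_ ?_ ?_
  · ext X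
    constructor
    · rintro ⟨g, rfl⟩
      exact ⟨g • d, smul_mem_dodecads g.2 hd, smul_pairOf g d⟩
    · rintro ⟨e, he, rfl⟩
      obtain ⟨g, hg⟩ := dodecad_transitive hd he
      exact ⟨g, by
        show g • pairOf d = pairOf e
        rw [smul_pairOf, hg]⟩
  · rintro Y ⟨e, he, rfl⟩ Z ⟨e', he', rfl⟩ hYZ
    rw [cP_pairOf, cP_pairOf] at hYZ
    have h1 := card_inter_compl hd e
    have h2 := card_inter_compl hd e'
    have key : ∀ e'' ∈ Cfsg.dodecads, (d ∩ e).card = (d ∩ e'').card →
        ∃ h ∈ MulAction.stabilizer (↥Cfsg.M24) (pairOf d), h • pairOf e = pairOf e'' := by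
      intro e'' he'' hk
      obtain ⟨g, hg, hgd, hge⟩ := dodecad_pair_transitive hd he he'' hk
      refine ⟨⟨g, hg⟩, ?_, ?_⟩
      · show (⟨g, hg⟩ : ↥Cfsg.M24) • pairOf d = pairOf d
        rw [smul_pairOf]
        exact congrArg pairOf hgd
      · rw [smul_pairOf]
        exact congrArg pairOf hge
    by_cases hk : (d ∩ e).card = (d ∩ e').card
    · exact key e' he' hk
    · have := key e'ᶜ (compl_mem_dodecads he') (by omega)
      rwa [pairOf_compl] at this
  · rintro X ⟨e, he, rfl⟩
    rw [cP_pairOf]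
    have h1 := card_inter_compl hd e
    simp only [Finset.mem_insert, Finset.mem_singleton]
    rcases hcase e he with h | h | h | h | h <;> omega
  · intro i hi
    simp only [Finset.mem_insert, Finset.mem_singleton] at hi
    obtain ⟨-, h6, -⟩ := ncard_dodecad_inter hd
    obtain ⟨h4, -, -⟩ := ncard_dodecad_inter hd
    rcases hi with rfl | rfl | rfl
    · -- pairs meeting in 6 + 6
      have hset : {X | X ∈ {X | ∃ e ∈ Cfsg.dodecads, X = pairOf e} ∧ cP d X = 6}
          = pairOf '' {e | e ∈ Cfsg.dodecads ∧ (d ∩ e).card = 6} := by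
        ext X
        constructor
        · rintro ⟨⟨e, he, rfl⟩, hc⟩
          rw [cP_pairOf] at hc
          have h1 := card_inter_compl hd e
          exact ⟨e, ⟨he, by omega⟩, rfl⟩
        · rintro ⟨e, ⟨he, hk⟩, rfl⟩
          refine ⟨⟨e, he, rfl⟩, ?_⟩
          rw [cP_pairOf]
          have h1 := card_inter_compl hd e
          omega
      have h2 := ncard_image_two_to_one pairOf {e | e ∈ Cfsg.dodecads ∧ (d ∩ e).card = 6}
        (Set.toFinite _) (fun e => eᶜ) (by
          rintro a ⟨ha, hk⟩
          have h1 := card_inter_compl hd a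
          exact ⟨⟨compl_mem_dodecads ha, by omega⟩, compl_ne a, pairOf_compl a⟩) (by
          rintro a - b - hab
          have hb : b ∈ pairOf a := by
            rw [hab]
            exact Finset.mem_insert_self _ _
          unfold pairOf at hb
          rw [Finset.mem_insert, Finset.mem_singleton] at hb
          exact hb)
      rw [hset]
      rw [h6] at h2
      show _ = 792
      omega
    · -- pairs meeting in 4 + 8
      have hset : {X | X ∈ {X | ∃ e ∈ Cfsg.dodecads, X = pairOf e} ∧ cP d X = 8}
          = pairOf '' {e | e ∈ Cfsg.dodecads ∧ (d ∩ e).card = 4} := by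
        ext X
        constructor
        · rintro ⟨⟨e, he, rfl⟩, hc⟩
          rw [cP_pairOf] at hc
          have h1 := card_inter_compl hd e
          by_cases hk : (d ∩ e).card = 4
          · exact ⟨e, ⟨he, hk⟩, rfl⟩
          · exact ⟨eᶜ, ⟨compl_mem_dodecads he, by omega⟩, pairOf_compl e⟩
        · rintro ⟨e, ⟨he, hk⟩, rfl⟩
          refine ⟨⟨e, he, rfl⟩, ?_⟩
          rw [cP_pairOf]
          have h1 := card_inter_compl hd e
          omega
      rw [hset, Set.InjOn.ncard_image, h4]
      · rfl
      · rintro a ⟨ha, hka⟩ b ⟨hb, hkb⟩ hab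
        have hb' : b ∈ pairOf a := by
          rw [hab]
          exact Finset.mem_insert_self _ _
        unfold pairOf at hb'
        rw [Finset.mem_insert, Finset.mem_singleton] at hb'
        rcases hb' with rfl | rfl
        · rfl
        · have h1 := card_inter_compl hd a
          omega
    · -- the pair itself
      have hset : {X | X ∈ {X | ∃ e ∈ Cfsg.dodecads, X = pairOf e} ∧ cP d X = 12}
          = {pairOf d} := by
        ext X
        rw [Set.mem_singleton_iff]
        constructor
        · rintro ⟨⟨e, he, rfl⟩, hc⟩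
          rw [cP_pairOf] at hc
          have h1 := card_inter_compl hd e
          by_cases hk : (d ∩ e).card = 12
          · rw [eq_of_card_inter hd he hk]
          · rw [← pairOf_compl e, eq_of_card_inter hd (compl_mem_dodecads he) (by omega)]
        · rintro rfl
          exact ⟨⟨d, hd, rfl⟩, hcx⟩
      rw [hset, Set.ncard_singleton]
      rfl
  · intro I hI
    rw [hcx]
    exact div_P I (Finset.mem_powerset.mpr hI)
  · refine ⟨6, by simp, ?_, by decide⟩
    rw [hcx]
    decide

end Cfsg.Agent.S1566
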