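import Cfsg.Statements.S1579
import Cfsg.Agent.Lib.Helper92.LeechPairs

set_option autoImplicit false
open Cfsg

namespace Cfsg.Agent.S1579

/-- The stabiliser of a vector of customary norm 6 is transitive on the 552 minimal vectors that complete it to a sum of two minimal vectors. -/
theorem result (u v v' : ↥Cfsg.leechLattice) (hu : Cfsg.sqNorm (u : Cfsg.GolayPt → ℤ) = 48) (hv : Cfsg.sqNorm (v : Cfsg.GolayPt → ℤ) = 32 ∧ Cfsg.sqNorm ((u - v) : Cfsg.GolayPt → ℤ) = 32) (hv' : Cfsg.sqNorm (v' : Cfsg.GolayPt → ℤ) = 32 ∧ Cfsg.sqNorm ((u - v') : Cfsg.GolayPt → ℤ) = 32) : ∃ g : ↥Cfsg.Co0, g • u = u ∧ g • v = v' := by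
  have key : ∀ x : Cfsg.leechLattice, Cfsg.sqNorm (x : Cfsg.GolayPt → ℤ) = 32 →
      Cfsg.sqNorm ((u : Cfsg.GolayPt → ℤ) - (x : Cfsg.GolayPt → ℤ)) = 32 →
      Cfsg.dotInt (x : Cfsg.GolayPt → ℤ) ((u - x : Cfsg.leechLattice) : Cfsg.GolayPt → ℤ) = -8 := by
    intro x h1 h2
    have h3 : Cfsg.sqNorm ((x : Cfsg.GolayPt → ℤ) +
        ((u - x : Cfsg.leechLattice) : Cfsg.GolayPt → ℤ)) = 48 := by
      rw [AddSubgroup.coe_sub, add_sub_cancel]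
      exact hu
    have h4 : Cfsg.sqNorm ((u - x : Cfsg.leechLattice) : Cfsg.GolayPt → ℤ) = 32 := h2
    have := Cfsg.Agent.Lib.Helper92.dot_of_norms h1 h4 h3
    omega
  obtain ⟨g, hg1, hg2⟩ := Cfsg.Agent.Lib.Helper92.pair_transfer Cfsg.Agent.Lib.Helper92.trans8
    v (u - v) v' (u - v') hv.1 hv.2 hv'.1 hv'.2 (key v hv.1 hv.2) (key v' hv'.1 hv'.2)
  refine ⟨g, ?_, hg1⟩
  have e : u = v + (u - v) := by abel
  rw [e, Cfsg.Agent.Lib.Helper92.co0_smul_add, hg1, hg2]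
  abel

end Cfsg.Agent.S1579
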