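import Cfsg.Statements.S1588
import Cfsg.Agent.Lib.Helper27.EvenLattice

set_option autoImplicit false
open Matrix
open Cfsg

namespace Cfsg.Agent.S1588

open Cfsg.Agent.Lib.Helper27

/-- Second step of the characterisation: under the vector counts of the rank-24 lattice, the norm-8 vectors fall into congruence classes of exactly 48 modulo twice the lattice. -/
theorem result (B : Matrix (Fin 24) (Fin 24) ℤ) (hsymm : B.IsSymm) (hpos : ∀ x : Fin 24 → ℤ, x ≠ 0 → 0 < x ⬝ᵥ (B *ᵥ x)) (heven : ∀ x : Fin 24 → ℤ, (2 : ℤ) ∣ x ⬝ᵥ (B *ᵥ x)) (h2 : ∀ x : Fin 24 → ℤ, x ⬝ᵥ (B *ᵥ x) ≠ 2) (h4 : {x : Fin 24 → ℤ | x ⬝ᵥ (B *ᵥ x) = 4}.ncard = 196560) (h6 : {x : Fin 24 → ℤ | x ⬝ᵥ (B *ᵥ x) = 6}.ncard = 16773120) (h8 : {x : Fin 24 → ℤ | x ⬝ᵥ (B *ᵥ x) = 8}.ncard = 398034000) (x : Fin 24 → ℤ) (hx : x ⬝ᵥ (B *ᵥ x) = 8) : {y : Fin 24 → ℤ | y ⬝ᵥ (B *ᵥ y) = 8 ∧ ∀ i, (2 : ℤ) ∣ (x - y) i}.ncard = 48 := by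
  classical
  have fin4 : {x : Fin 24 → ℤ | x ⬝ᵥ (B *ᵥ x) = 4}.Finite :=
    Set.finite_of_ncard_ne_zero (by rw [h4]; norm_num)
  have fin6 : {x : Fin 24 → ℤ | x ⬝ᵥ (B *ᵥ x) = 6}.Finite :=
    Set.finite_of_ncard_ne_zero (by rw [h6]; norm_num)
  have fin8 : {x : Fin 24 → ℤ | x ⬝ᵥ (B *ᵥ x) = 8}.Finite :=
    Set.finite_of_ncard_ne_zero (by rw [h8]; norm_num)
  have c4 : fin4.toFinset.card = 196560 := by rw [← Set.ncard_eq_toFinset_card _ fin4, h4]
  have c6 : fin6.toFinset.card = 16773120 := by rw [← Set.ncard_eq_toFinset_card _ fin6, h6]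
  have c8 : fin8.toFinset.card = 398034000 := by rw [← Set.ncard_eq_toFinset_card _ fin8, h8]
  have m4 : ∀ v, v ∈ fin4.toFinset ↔ v ⬝ᵥ (B *ᵥ v) = 4 := fun v => by
    rw [Set.Finite.mem_toFinset]; rfl
  have m6 : ∀ v, v ∈ fin6.toFinset ↔ v ⬝ᵥ (B *ᵥ v) = 6 := fun v => by
    rw [Set.Finite.mem_toFinset]; rfl
  have m8 : ∀ v, v ∈ fin8.toFinset ↔ v ⬝ᵥ (B *ᵥ v) = 8 := fun v => by
    rw [Set.Finite.mem_toFinset]; rfl
  have q0 : (0 : Fin 24 → ℤ) ⬝ᵥ (B *ᵥ 0) = 0 := by simp
  have qne : ∀ v : Fin 24 → ℤ, v ⬝ᵥ (B *ᵥ v) ≠ 0 → v ≠ 0 := by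
    intro v hv h0; rw [h0] at hv; exact hv q0
  -- the weight function
  let val : (Fin 24 → ℤ) → ℕ := fun v => if v = 0 then 48 else if v ⬝ᵥ (B *ᵥ v) = 8 then 1 else 24
  let T : Finset (Fin 24 → ℤ) := (({0} ∪ fin4.toFinset) ∪ fin6.toFinset) ∪ fin8.toFinset
  have mT : ∀ v, v ∈ T ↔ (v = 0 ∨ v ⬝ᵥ (B *ᵥ v) = 4 ∨ v ⬝ᵥ (B *ᵥ v) = 6 ∨ v ⬝ᵥ (B *ᵥ v) = 8) := by
    intro v
    simp only [T, Finset.mem_union, Finset.mem_singleton, m4, m6, m8]
    tauto
  have leT : ∀ v ∈ T, v ⬝ᵥ (B *ᵥ v) ≤ 8 := by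
    intro v hv
    rcases (mT v).mp hv with h | h | h | h
    · rw [h, q0]; norm_num
    · rw [h]; norm_num
    · rw [h]; norm_num
    · rw [h]
  -- total weight
  have d1 : Disjoint ({0} : Finset (Fin 24 → ℤ)) fin4.toFinset := by
    rw [Finset.disjoint_left]; intro v hv hv4
    rw [Finset.mem_singleton] at hv; rw [m4, hv, q0] at hv4; norm_num at hv4
  have d2 : Disjoint (({0} : Finset (Fin 24 → ℤ)) ∪ fin4.toFinset) fin6.toFinset := by
    rw [Finset.disjoint_left]; intro v hv hv6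
    rw [m6] at hv6
    rcases Finset.mem_union.mp hv with hv | hv
    · rw [Finset.mem_singleton] at hv; rw [hv, q0] at hv6; norm_num at hv6
    · rw [m4, hv6] at hv; norm_num at hv
  have d3 : Disjoint ((({0} : Finset (Fin 24 → ℤ)) ∪ fin4.toFinset) ∪ fin6.toFinset) fin8.toFinset := by
    rw [Finset.disjoint_left]; intro v hv hv8
    rw [m8] at hv8
    rcases Finset.mem_union.mp hv with hv | hv
    · rcases Finset.mem_union.mp hv with hv | hv
      · rw [Finset.mem_singleton] at hv; rw [hv, q0] at hv8; norm_num at hv8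
      · rw [m4, hv8] at hv; norm_num at hv
    · rw [m6, hv8] at hv; norm_num at hv
  have total : ∑ v ∈ T, val v = 48 * 2 ^ 24 := by
    have s0 : ∑ v ∈ ({0} : Finset (Fin 24 → ℤ)), val v = 48 := by
      simp [val]
    have s4 : ∑ v ∈ fin4.toFinset, val v = 24 * 196560 := by
      rw [Finset.sum_congr rfl (g := fun _ => 24), Finset.sum_const, c4, smul_eq_mul, mul_comm]
      intro v hv
      rw [m4] at hv
      have hv0 : v ≠ 0 := qne v (by rw [hv]; norm_num)
      simp only [val, if_neg hv0, hv]; norm_num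
    have s6 : ∑ v ∈ fin6.toFinset, val v = 24 * 16773120 := by
      rw [Finset.sum_congr rfl (g := fun _ => 24), Finset.sum_const, c6, smul_eq_mul, mul_comm]
      intro v hv
      rw [m6] at hv
      have hv0 : v ≠ 0 := qne v (by rw [hv]; norm_num)
      simp only [val, if_neg hv0, hv]; norm_num
    have s8 : ∑ v ∈ fin8.toFinset, val v = 398034000 := by
      rw [Finset.sum_congr rfl (g := fun _ => 1), Finset.sum_const, c8, smul_eq_mul, mul_one]
      intro v hv
      rw [m8] at hv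
      have hv0 : v ≠ 0 := qne v (by rw [hv]; norm_num)
      simp only [val, if_neg hv0, hv]; norm_num
    rw [Finset.sum_union d3, Finset.sum_union d2, Finset.sum_union d1, s0, s4, s6, s8]
    norm_num
  -- the projection modulo 2
  let π : (Fin 24 → ℤ) → (Fin 24 → ZMod 2) := fun v i => ((v i : ℤ) : ZMod 2)
  have hπ : ∀ v w, π v = π w ↔ ∀ i, (2 : ℤ) ∣ (v - w) i := by
    intro v w
    constructor
    · intro h i
      have := congrFun h i
      simp only [π] at this
      rw [ZMod.intCast_eq_intCast_iff_dvd_sub] at this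
      have h2 : (2 : ℤ) ∣ -(w i - v i) := (dvd_neg).mpr (by exact_mod_cast this)
      simpa using h2
    · intro h
      funext i
      simp only [π]
      rw [ZMod.intCast_eq_intCast_iff_dvd_sub]
      have h2 : (2 : ℤ) ∣ -(v i - w i) := (dvd_neg).mpr (by simpa using h i)
      simpa using h2
  -- pairs in a fibre
  have pair : ∀ v ∈ T, ∀ w ∈ T, π v = π w → w = v ∨ w = -v ∨
      (v ⬝ᵥ (B *ᵥ v) = 8 ∧ w ⬝ᵥ (B *ᵥ w) = 8 ∧ v ⬝ᵥ (B *ᵥ w) = 0) := by
    intro v hv w hw h
    exact congr_cases B hsymm hpos heven h2 v w (leT v hv) (leT w hw) ((hπ v w).mp h)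
  -- each fibre weighs at most 48
  have fib : ∀ c : Fin 24 → ZMod 2, ∑ v ∈ T.filter (fun v => π v = c), val v ≤ 48 := by
    intro c
    by_cases hemp : T.filter (fun v => π v = c) = ∅
    · rw [hemp]; simp
    obtain ⟨v, hv⟩ := Finset.nonempty_iff_ne_empty.mpr hemp
    obtain ⟨hvT, hvc⟩ := Finset.mem_filter.mp hv
    by_cases hv8 : v ⬝ᵥ (B *ᵥ v) = 8
    · -- all members have norm 8
      have all8 : ∀ w ∈ T.filter (fun v => π v = c), w ⬝ᵥ (B *ᵥ w) = 8 := by
        intro w hw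
        obtain ⟨hwT, hwc⟩ := Finset.mem_filter.mp hw
        rcases pair v hvT w hwT (hvc.trans hwc.symm) with h | h | h
        · rw [h]; exact hv8
        · rw [h, q_neg]; exact hv8
        · exact h.2.1
      have hval : ∀ w ∈ T.filter (fun v => π v = c), val w = 1 := by
        intro w hw
        have hw8 := all8 w hw
        have hw0 : w ≠ 0 := qne w (by rw [hw8]; norm_num)
        simp only [val, if_neg hw0, hw8]; norm_num
      rw [Finset.sum_congr rfl hval, Finset.sum_const, smul_eq_mul, mul_one]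
      have := frame_card_le B hsymm (T.filter (fun v => π v = c))
        (fun r hr => by rw [all8 r hr]; norm_num)
        (fun a ha b hb => by
          obtain ⟨haT, hac⟩ := Finset.mem_filter.mp ha
          obtain ⟨hbT, hbc⟩ := Finset.mem_filter.mp hb
          rcases pair a haT b hbT (hac.trans hbc.symm) with h | h | h
          · exact Or.inl h
          · exact Or.inr (Or.inl h)
          · exact Or.inr (Or.inr h.2.2))
      simpa using this
    · -- the fibre is inside {v, -v}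
      have hsub : T.filter (fun v => π v = c) ⊆ {v, -v} := by
        intro w hw
        obtain ⟨hwT, hwc⟩ := Finset.mem_filter.mp hw
        rcases pair v hvT w hwT (hvc.trans hwc.symm) with h | h | h
        · rw [h]; simp
        · rw [h]; simp
        · exact absurd h.1 hv8
      by_cases hv0 : v = 0
      · have hsub' : T.filter (fun v => π v = c) ⊆ {0} := by
          intro w hw
          have := hsub hw
          rw [hv0] at this
          simpa using this
        calc ∑ w ∈ T.filter (fun v => π v = c), val w ≤ ∑ w ∈ ({0} : Finset (Fin 24 → ℤ)), val w :=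
              Finset.sum_le_sum_of_subset hsub'
          _ = 48 := by simp [val]
      · have hnv0 : -v ≠ 0 := by simpa using hv0
        have hnv8 : ¬ (-v) ⬝ᵥ (B *ᵥ (-v)) = 8 := by rw [q_neg]; exact hv8
        have hne : v ≠ -v := by
          intro h
          apply hv0
          funext i
          have := congrFun h i
          simp only [Pi.neg_apply, Pi.zero_apply] at this ⊢
          omega
        calc ∑ w ∈ T.filter (fun v => π v = c), val w ≤ ∑ w ∈ ({v, -v} : Finset (Fin 24 → ℤ)), val w :=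
              Finset.sum_le_sum_of_subset hsub
          _ = val v + val (-v) := Finset.sum_pair hne
          _ = 48 := by simp only [val, if_neg hv0, if_neg hv8, if_neg hnv0, if_neg hnv8]
  -- hence each fibre weighs exactly 48
  have hsum : ∑ c : Fin 24 → ZMod 2, ∑ v ∈ T.filter (fun v => π v = c), val v
      = ∑ _c : Fin 24 → ZMod 2, 48 := by
    rw [Finset.sum_fiberwise, total, Finset.sum_const, Finset.card_univ]
    simp
  have each := (Finset.sum_eq_sum_iff_of_le (fun c _ => fib c)).mp hsum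
  have hx48 := each (π x) (Finset.mem_univ _)
  -- the fibre of x
  have hxT : x ∈ T := (mT x).mpr (Or.inr (Or.inr (Or.inr hx)))
  have all8 : ∀ w ∈ T.filter (fun v => π v = π x), w ⬝ᵥ (B *ᵥ w) = 8 := by
    intro w hw
    obtain ⟨hwT, hwc⟩ := Finset.mem_filter.mp hw
    rcases pair x hxT w hwT hwc.symm with h | h | h
    · rw [h]; exact hx
    · rw [h, q_neg]; exact hx
    · exact h.2.1
  have hval : ∀ w ∈ T.filter (fun v => π v = π x), val w = 1 := by
    intro w hw
    have hw8 := all8 w hw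
    have hw0 : w ≠ 0 := qne w (by rw [hw8]; norm_num)
    simp only [val, if_neg hw0, hw8]; norm_num
  rw [Finset.sum_congr rfl hval, Finset.sum_const, smul_eq_mul, mul_one] at hx48
  have hset : {y : Fin 24 → ℤ | y ⬝ᵥ (B *ᵥ y) = 8 ∧ ∀ i, (2 : ℤ) ∣ (x - y) i}
      = ((T.filter (fun v => π v = π x) : Finset (Fin 24 → ℤ)) : Set (Fin 24 → ℤ)) := by
    ext y
    simp only [Set.mem_ofPred_eq, Finset.coe_filter]
    constructor
    · rintro ⟨hy8, hyc⟩
      exact ⟨(mT y).mpr (Or.inr (Or.inr (Or.inr hy8))), ((hπ x y).mpr hyc).symm⟩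
    · rintro ⟨hyT, hyc⟩
      refine ⟨all8 y (Finset.mem_filter.mpr ⟨hyT, hyc⟩), (hπ x y).mp hyc.symm⟩
  rw [hset, Set.ncard_coe_finset]
  exact hx48

end Cfsg.Agent.S1588
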