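import Cfsg.Statements.S1589
import Cfsg.Agent.Lib.Helper26.M24Sext
import Cfsg.Agent.Lib.Helper26.OctStab
import Cfsg.Agent.Lib.Helper26.SextetOrb
import Cfsg.Agent.Lib.Helper93.Sextets

set_option autoImplicit false
open scoped Pointwise
open Cfsg

namespace Cfsg.Agent.S1589

open Cfsg.Agent.Lib Cfsg.Agent.Lib.Helper26 in
/-- Subgroups of the group of the length-24 code of index 759, 276 and 1771 are exactly the octad, duad and sextet stabilisers, and no subgroup has index 253. -/
theorem result : (∀ H : Subgroup ↥Cfsg.M24, H.index = 759 → ∃ o ∈ Cfsg.octads, H = MulAction.stabilizer Cfsg.M24 o) ∧ (∀ H : Subgroup ↥Cfsg.M24, H.index = 276 → ∃ s : Finset Cfsg.GolayPt, s.card = 2 ∧ H = MulAction.stabilizer Cfsg.M24 s) ∧ (∀ H : Subgroup ↥Cfsg.M24, H.index = 1771 → ∃ S ∈ Cfsg.sextets, H = MulAction.stabilizer Cfsg.M24 S) ∧ ∀ H : Subgroup ↥Cfsg.M24, H.index ≠ 253 := by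
  have hcard := Helper7.card_M24
  have key : ∀ (H : Subgroup ↥M24) (n m : ℕ), H.index = n → m * n = 244823040 → 0 < n →
      Nat.card H = m ∧ ∃ K : Subgroup (Equiv.Perm GolayPt), K ≤ M24 ∧ Nat.card K = m ∧
        ∀ h ∈ H, (h : Equiv.Perm GolayPt) ∈ K := by
    intro H n m hH hnm hn
    have hcH : Nat.card H = m := by
      have h1 := H.card_mul_index
      rw [hH, hcard, ← hnm] at h1
      exact Nat.eq_of_mul_eq_mul_right hn h1
    refine ⟨hcH, H.map M24.subtype, ?_, ?_, ?_⟩
    · rintro _ ⟨h, _, rfl⟩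
      exact h.2
    · rw [Subgroup.card_map_of_injective (Subgroup.subtype_injective _), hcH]
    · intro h hh
      exact ⟨h, hh, rfl⟩
  refine ⟨?_, ?_, ?_, ?_⟩
  · intro H hH
    obtain ⟨hcH, K, hKM, hcK, hHK⟩ := key H 759 322560 hH (by norm_num) (by norm_num)
    obtain ⟨o, ho, hinv⟩ := inv_octad_of_card hKM hcK
    refine ⟨o, ho, Subgroup.eq_of_le_of_card_ge ?_ ?_⟩
    · intro h hh
      rw [MulAction.mem_stabilizer_iff]
      exact hinv.smul_eq (hHK h hh)
    · rw [card_stabilizer_octad o ho, hcH]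
  · intro H hH
    obtain ⟨hcH, K, hKM, hcK, hHK⟩ := key H 276 887040 hH (by norm_num) (by norm_num)
    obtain ⟨s, hs, hinv⟩ := inv_duad_of_card hKM hcK
    refine ⟨s, hs, Subgroup.eq_of_le_of_card_ge ?_ ?_⟩
    · intro h hh
      rw [MulAction.mem_stabilizer_iff]
      exact hinv.smul_eq (hHK h hh)
    · have h1 : Nat.card ↥((MulAction.stabilizer (↥M24) s).map M24.subtype) =
          Nat.card ↥(MulAction.stabilizer (↥M24) s) :=
        Subgroup.card_map_of_injective (Subgroup.subtype_injective _)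
      rw [hcH, ← h1]
      apply card_le_of_inv_duad (K := (MulAction.stabilizer (↥M24) s).map M24.subtype) ?_ s hs
      · apply invSet_of_smul_eq
        rintro _ ⟨h, hh, rfl⟩
        exact MulAction.mem_stabilizer_iff.1 hh
      · rintro _ ⟨h, _, rfl⟩
        exact h.2
  · intro H hH
    obtain ⟨hcH, K, hKM, hcK, hHK⟩ := key H 1771 138240 hH (by norm_num) (by norm_num)
    obtain ⟨S, hS, hinv⟩ := inv_sextet_of_card hKM hcK
    refine ⟨S, hS, Subgroup.eq_of_le_of_card_ge ?_ ?_⟩
    · intro h hh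
      rw [MulAction.mem_stabilizer_iff]
      exact hinv _ (hHK h hh)
    · have h1 := MulAction.index_stabilizer (↥M24) S
      have h2 : MulAction.orbit (↥M24) S = sextets := by
        have hS' := hS
        rw [← orbit_baseSx] at hS' ⊢
        exact MulAction.orbit_eq_iff.2 hS'
      rw [h2, Helper93.ncard_sextets] at h1
      have h3 := Subgroup.card_mul_index (MulAction.stabilizer (↥M24) S)
      rw [h1, hcard] at h3
      rw [hcH]
      omega
  · intro H hH
    obtain ⟨hcH, K, hKM, hcK, hHK⟩ := key H 253 967680 hH (by norm_num) (by norm_num)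
    exact no_card_967680 hKM hcK

end Cfsg.Agent.S1589
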