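import Cfsg.Statements.S1590
import Cfsg.Agent.Lib.Helper27.TernaryGolay

set_option autoImplicit false
open Cfsg

namespace Cfsg.Agent.S1590

open Cfsg.Agent.Lib.Helper27.TG

theorem count6 : (Finset.univ.filter (fun m : P6 => (ternarySupport (wordP m)).card = 6)).card = 264 := by
  decide +kernel

theorem count9 : (Finset.univ.filter (fun m : P6 => (ternarySupport (wordP m)).card = 9)).card = 440 := by
  decide +kernel

theorem count12 : (Finset.univ.filter (fun m : P6 => (ternarySupport (wordP m)).card = 12)).card = 24 := by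
  decide +kernel

theorem countAll : (Finset.univ.filter (fun _m : P6 => True)).card = 729 := by
  decide +kernel

/-- The length-12 ternary code has 729 words with weight distribution 0^1 6^264 9^440 12^24. -/
theorem result : Nat.card ↥Cfsg.ternaryGolayCode = 729 ∧ (∀ x ∈ Cfsg.ternaryGolayCode, x ≠ 0 → (Cfsg.ternarySupport x).card = 6 ∨ (Cfsg.ternarySupport x).card = 9 ∨ (Cfsg.ternarySupport x).card = 12) ∧ {x : Cfsg.ArrayPt → ZMod 3 | x ∈ Cfsg.ternaryGolayCode ∧ (Cfsg.ternarySupport x).card = 6}.ncard = 264 ∧ {x : Cfsg.ArrayPt → ZMod 3 | x ∈ Cfsg.ternaryGolayCode ∧ (Cfsg.ternarySupport x).card = 9}.ncard = 440 ∧ {x : Cfsg.ArrayPt → ZMod 3 | x ∈ Cfsg.ternaryGolayCode ∧ (Cfsg.ternarySupport x).card = 12}.ncard = 24 := by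
  refine ⟨?_, ?_, ?_, ?_, ?_⟩
  · have h := ncard_mem_and (fun _ => True)
    have hs : {x : ArrayPt → ZMod 3 | x ∈ ternaryGolayCode ∧ True}
        = (ternaryGolayCode : Set (ArrayPt → ZMod 3)) := by
      ext x; simp
    rw [hs, countAll] at h
    exact (Nat.card_coe_set_eq (ternaryGolayCode : Set (ArrayPt → ZMod 3))).trans h
  · intro x hx hx0
    obtain ⟨a, b, c, d, e, f, rfl⟩ := (mem_iff x).mp hx
    exact weights_word a b c d e f hx0
  · rw [ncard_mem_and]; exact count6
  · rw [ncard_mem_and]; exact count9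
  · rw [ncard_mem_and]; exact count12

end Cfsg.Agent.S1590
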