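import Cfsg.Statements.S1591
import Cfsg.Agent.Lib.Helper27.TernaryGolay

set_option autoImplicit false
open Cfsg

namespace Cfsg.Agent.S1591

open Cfsg.Agent.Lib.Helper27.TG
open Matrix

theorem bb00 : B0 ⬝ᵥ B0 = 0 := by decide
theorem bb01 : B0 ⬝ᵥ B1 = 0 := by decide
theorem bb02 : B0 ⬝ᵥ B2 = 0 := by decide
theorem bb03 : B0 ⬝ᵥ B3 = 0 := by decide
theorem bb04 : B0 ⬝ᵥ B4 = 0 := by decide
theorem bb05 : B0 ⬝ᵥ B5 = 0 := by decide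
theorem bb10 : B1 ⬝ᵥ B0 = 0 := by decide
theorem bb11 : B1 ⬝ᵥ B1 = 0 := by decide
theorem bb12 : B1 ⬝ᵥ B2 = 0 := by decide
theorem bb13 : B1 ⬝ᵥ B3 = 0 := by decide
theorem bb14 : B1 ⬝ᵥ B4 = 0 := by decide
theorem bb15 : B1 ⬝ᵥ B5 = 0 := by decide
theorem bb20 : B2 ⬝ᵥ B0 = 0 := by decide
theorem bb21 : B2 ⬝ᵥ B1 = 0 := by decide
theorem bb22 : B2 ⬝ᵥ B2 = 0 := by decide
theorem bb23 : B2 ⬝ᵥ B3 = 0 := by decide
theorem bb24 : B2 ⬝ᵥ B4 = 0 := by decide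
theorem bb25 : B2 ⬝ᵥ B5 = 0 := by decide
theorem bb30 : B3 ⬝ᵥ B0 = 0 := by decide
theorem bb31 : B3 ⬝ᵥ B1 = 0 := by decide
theorem bb32 : B3 ⬝ᵥ B2 = 0 := by decide
theorem bb33 : B3 ⬝ᵥ B3 = 0 := by decide
theorem bb34 : B3 ⬝ᵥ B4 = 0 := by decide
theorem bb35 : B3 ⬝ᵥ B5 = 0 := by decide
theorem bb40 : B4 ⬝ᵥ B0 = 0 := by decide
theorem bb41 : B4 ⬝ᵥ B1 = 0 := by decide
theorem bb42 : B4 ⬝ᵥ B2 = 0 := by decide
theorem bb43 : B4 ⬝ᵥ B3 = 0 := by decide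
theorem bb44 : B4 ⬝ᵥ B4 = 0 := by decide
theorem bb45 : B4 ⬝ᵥ B5 = 0 := by decide
theorem bb50 : B5 ⬝ᵥ B0 = 0 := by decide
theorem bb51 : B5 ⬝ᵥ B1 = 0 := by decide
theorem bb52 : B5 ⬝ᵥ B2 = 0 := by decide
theorem bb53 : B5 ⬝ᵥ B3 = 0 := by decide
theorem bb54 : B5 ⬝ᵥ B4 = 0 := by decide
theorem bb55 : B5 ⬝ᵥ B5 = 0 := by decide

/-- Any two words of the length-12 ternary code have dot product zero. -/
theorem result (x y : Cfsg.ArrayPt → ZMod 3) (hx : x ∈ Cfsg.ternaryGolayCode) (hy : y ∈ Cfsg.ternaryGolayCode) : ∑ p, x p * y p = 0 := by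
  obtain ⟨a, b, c, d, e, f, rfl⟩ := (mem_iff x).mp hx
  obtain ⟨a', b', c', d', e', f', rfl⟩ := (mem_iff y).mp hy
  show word a b c d e f ⬝ᵥ word a' b' c' d' e' f' = 0
  rw [word_eq, word_eq]
  simp only [add_dotProduct, smul_dotProduct, dotProduct_add, dotProduct_smul,
    bb00, bb01, bb02, bb03, bb04, bb05, bb10, bb11, bb12, bb13, bb14, bb15, bb20, bb21, bb22, bb23, bb24, bb25, bb30, bb31, bb32, bb33, bb34, bb35, bb40, bb41, bb42, bb43, bb44, bb45, bb50, bb51, bb52, bb53, bb54, bb55,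
    smul_zero, add_zero]

end Cfsg.Agent.S1591
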