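import Cfsg.Statements.S1595
import Cfsg.Agent.Lib.Helper93.Steiner12

set_option autoImplicit false
open Cfsg

namespace Cfsg.Agent.S1595

/-- Leech triangle of S(5, 6, 12): blocks meet in 0, 2, 3 or 4 points, and a block is met exactly in a given 2-, 3- or 4-subset by 3, 2, 3 blocks respectively. -/
theorem result {α : Type*} [Fintype α] [DecidableEq α] (hα : Fintype.card α = 12) {B : Set (Finset α)} (hB : Cfsg.IsSteinerSystem 5 6 B) (b : Finset α) (hb : b ∈ B) : (∀ c ∈ B, c ≠ b → (b ∩ c).card = 0 ∨ (b ∩ c).card = 2 ∨ (b ∩ c).card = 3 ∨ (b ∩ c).card = 4) ∧ ∀ s ⊆ b, (s.card = 2 → {c : Finset α | c ∈ B ∧ b ∩ c = s}.ncard = 3) ∧ (s.card = 3 → {c : Finset α | c ∈ B ∧ b ∩ c = s}.ncard = 2) ∧ (s.card = 4 → {c : Finset α | c ∈ B ∧ b ∩ c = s}.ncard = 3) := by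
  classical
  set Bf : Finset (Finset α) := Finset.univ.filter (· ∈ B) with hBfdef
  have hBf : ∀ b, b ∈ Bf ↔ b ∈ B := by intro b; simp [hBfdef]
  obtain ⟨-, h1, -, -, -, h5, h6⟩ := Cfsg.Agent.Lib.Helper93.s5612_counts hα hB Bf hBf hb
  have hb6 : b.card = 6 := hB.1 b hb
  have part1 : ∀ c ∈ B, c ≠ b → (b ∩ c).card = 0 ∨ (b ∩ c).card = 2 ∨ (b ∩ c).card = 3 ∨
      (b ∩ c).card = 4 := by
    intro c hc hcb
    have hc6 : c.card = 6 := hB.1 c hc
    have hle : (c ∩ b).card ≤ 6 := (Finset.card_le_card Finset.inter_subset_left).trans hc6.le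
    have hmem : ∀ i, (c ∩ b).card = i → c ∈ Bf.filter (fun c => (c ∩ b).card = i) :=
      fun i hi => by simp [hBf, hc, hi]
    rw [Finset.inter_comm]
    have key : ∀ i, (Bf.filter (fun c => (c ∩ b).card = i)).card = 0 → (c ∩ b).card ≠ i := by
      intro i h0 hi
      have h := hmem i hi
      rw [Finset.card_eq_zero] at h0
      rw [h0] at h
      simp at h
    have k6 : (c ∩ b).card ≠ 6 := by
      intro hi
      have h1' := hmem 6 hi
      have hb' : b ∈ Bf.filter (fun c => (c ∩ b).card = 6) := by simp [hBf, hb, hb6]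
      rw [Finset.card_eq_one] at h6
      obtain ⟨x, hx⟩ := h6
      rw [hx] at h1' hb'
      simp only [Finset.mem_singleton] at h1' hb'
      exact hcb (h1'.trans hb'.symm)
    have k1 := key 1 h1
    have k5 := key 5 h5
    omega
  have N6 : ∀ W : Finset α, W ⊆ b → W.card = 6 → (Bf.filter (fun c => c ∩ b = W)).card = 1 := by
    intro W hWb hW
    have hWeq : W = b := Finset.eq_of_subset_of_card_le hWb (by omega)
    rw [hWeq, Finset.card_eq_one]
    refine ⟨b, ?_⟩
    ext c
    simp only [Finset.mem_filter, Finset.mem_singleton, hBf]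
    constructor
    · rintro ⟨hc, h⟩
      have hbc : b ⊆ c := by rw [← h]; exact Finset.inter_subset_left
      exact (Finset.eq_of_subset_of_card_le hbc (by rw [hB.1 c hc, hb6])).symm
    · rintro rfl; exact ⟨hb, Finset.inter_self _⟩
  have N5 : ∀ W : Finset α, W ⊆ b → W.card = 5 → (Bf.filter (fun c => c ∩ b = W)).card = 0 := by
    intro W hWb hW
    rw [Finset.card_eq_zero]
    have h5' := Finset.card_eq_zero.mp h5
    apply Finset.eq_empty_of_forall_notMem
    intro c hc
    have hc' : c ∈ Bf.filter (fun c => (c ∩ b).card = 5) := by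
      rw [Finset.mem_filter] at hc ⊢
      exact ⟨hc.1, by rw [hc.2, hW]⟩
    rw [h5'] at hc'
    simp at hc'
  have lam : ∀ W : Finset α, (W.card = 4 → (Bf.filter (fun c => W ⊆ c)).card = 4) ∧
      (W.card = 3 → (Bf.filter (fun c => W ⊆ c)).card = 12) ∧
      (W.card = 2 → (Bf.filter (fun c => W ⊆ c)).card = 30) := by
    intro W
    have h := Cfsg.Agent.Lib.Helper93.steiner_lambda hB Bf hBf W
    rw [hα] at h
    refine ⟨fun h4 => ?_, fun h3 => ?_, fun h2 => ?_⟩
    · have h' := h (by omega)
      rw [h4] at h'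
      norm_num [Nat.choose] at h'
      omega
    · have h' := h (by omega)
      rw [h3] at h'
      norm_num [Nat.choose] at h'
      omega
    · have h' := h (by omega)
      rw [h2] at h'
      norm_num [Nat.choose] at h'
      omega
  have N4 : ∀ W : Finset α, W ⊆ b → W.card = 4 → (Bf.filter (fun c => c ∩ b = W)).card = 3 := by
    intro W hWb hW
    have hrec := Cfsg.Agent.Lib.Helper93.exact_inter_rec Bf b W hWb
      (fun i => if i = 6 then 1 else 0) (by
        intro W' hW'b hlt
        have hle : W'.card ≤ 6 := hb6 ▸ Finset.card_le_card hW'b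
        rw [hW] at hlt
        by_cases h6' : W'.card = 6
        · rw [if_pos h6']; exact N6 W' hW'b h6'
        · rw [if_neg h6']; exact N5 W' hW'b (by omega))
    rw [(lam W).1 hW, hW, hb6] at hrec
    have hI : Finset.Ioc 4 6 = {5, 6} := by decide
    rw [hI] at hrec
    simp [Nat.choose] at hrec
    omega
  have N3 : ∀ W : Finset α, W ⊆ b → W.card = 3 → (Bf.filter (fun c => c ∩ b = W)).card = 2 := by
    intro W hWb hW
    have hrec := Cfsg.Agent.Lib.Helper93.exact_inter_rec Bf b W hWb
      (fun i => if i = 6 then 1 else if i = 5 then 0 else 3) (by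
        intro W' hW'b hlt
        have hle : W'.card ≤ 6 := hb6 ▸ Finset.card_le_card hW'b
        rw [hW] at hlt
        by_cases h6' : W'.card = 6
        · rw [if_pos h6']; exact N6 W' hW'b h6'
        · rw [if_neg h6']
          by_cases h5' : W'.card = 5
          · rw [if_pos h5']; exact N5 W' hW'b h5'
          · rw [if_neg h5']; exact N4 W' hW'b (by omega))
    rw [(lam W).2.1 hW, hW, hb6] at hrec
    have hI : Finset.Ioc 3 6 = {4, 5, 6} := by decide
    rw [hI] at hrec
    simp [Nat.choose] at hrec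
    omega
  have N2 : ∀ W : Finset α, W ⊆ b → W.card = 2 → (Bf.filter (fun c => c ∩ b = W)).card = 3 := by
    intro W hWb hW
    have hrec := Cfsg.Agent.Lib.Helper93.exact_inter_rec Bf b W hWb
      (fun i => if i = 6 then 1 else if i = 5 then 0 else if i = 4 then 3 else 2) (by
        intro W' hW'b hlt
        have hle : W'.card ≤ 6 := hb6 ▸ Finset.card_le_card hW'b
        rw [hW] at hlt
        by_cases h6' : W'.card = 6
        · rw [if_pos h6']; exact N6 W' hW'b h6'
        · rw [if_neg h6']
          by_cases h5' : W'.card = 5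
          · rw [if_pos h5']; exact N5 W' hW'b h5'
          · rw [if_neg h5']
            by_cases h4' : W'.card = 4
            · rw [if_pos h4']; exact N4 W' hW'b h4'
            · rw [if_neg h4']; exact N3 W' hW'b (by omega))
    rw [(lam W).2.2 hW, hW, hb6] at hrec
    have hI : Finset.Ioc 2 6 = {3, 4, 5, 6} := by decide
    rw [hI] at hrec
    simp [Nat.choose] at hrec
    omega
  have hset : ∀ s : Finset α, {c : Finset α | c ∈ B ∧ b ∩ c = s}.ncard
      = (Bf.filter (fun c => c ∩ b = s)).card := by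
    intro s
    rw [← Set.ncard_coe_finset]
    congr 1
    ext c
    simp [hBf, Finset.inter_comm]
  refine ⟨part1, fun s hsb => ⟨fun h2 => ?_, fun h3 => ?_, fun h4 => ?_⟩⟩
  · rw [hset]; exact N2 s hsb h2
  · rw [hset]; exact N3 s hsb h3
  · rw [hset]; exact N4 s hsb h4

end Cfsg.Agent.S1595
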