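import Cfsg.Statements.S1596
import Cfsg.Agent.Lib.Helper26.QuartBase
-- import your own Cfsg.Agent.* helpers here

set_option autoImplicit false
open scoped Pointwise
open Cfsg

namespace Cfsg.Agent.S1596

open Cfsg.Agent.Lib.Helper26

/-- A quartet of a dodecad is determined by any two of its triples: two disjoint triples uniting to a hexad extend to exactly one quartet. -/
theorem result (d : Finset Cfsg.GolayPt) (hd : d ∈ Cfsg.dodecads) (t u : Finset Cfsg.GolayPt) (ht : t.card = 3) (hu : u.card = 3) (htu : Disjoint t u) (hh : t ∪ u ∈ Cfsg.hexadsOn d) : ∃! Q : Finset (Finset Cfsg.GolayPt), Q ∈ Cfsg.quartets d ∧ t ∈ Q ∧ u ∈ Q := by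
  obtain ⟨g, hg, rfl⟩ := exists_base_dod hd
  have hh' : g⁻¹ • t ∪ g⁻¹ • u ∈ Cfsg.hexadsOn baseDod := by
    have h1 := hexadsOn_smul (Cfsg.M24.inv_mem hg) hh
    rwa [inv_smul_smul, Finset.smul_finset_union] at h1
  obtain ⟨q, hq, htq, huq, huniq⟩ := base_pair (t := g⁻¹ • t) (u := g⁻¹ • u)
    (by rw [Finset.card_smul_finset, ht]) (disjoint_smul g⁻¹ htu) hh'
  refine ⟨g • denQ (qObj q), ⟨?_, ?_, ?_⟩, ?_⟩
  · exact quartets_smul hg (qObj_mem hq)
  · have h1 := Finset.smul_mem_smul_finset (a := g) htq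
    rwa [smul_inv_smul] at h1
  · have h1 := Finset.smul_mem_smul_finset (a := g) huq
    rwa [smul_inv_smul] at h1
  · rintro Q ⟨hQ, htQ, huQ⟩
    have h1 := huniq (g⁻¹ • Q) ((quartets_smul_iff hg _ _).mp hQ)
      (Finset.smul_mem_smul_finset htQ) (Finset.smul_mem_smul_finset huQ)
    rw [← h1, smul_inv_smul]


end Cfsg.Agent.S1596
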