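import Cfsg.Statements.S1597
import Cfsg.Agent.Lib.Helper26.QuartBase
-- import your own Cfsg.Agent.* helpers here

set_option autoImplicit false
open scoped Pointwise
open Cfsg

namespace Cfsg.Agent.S1597

open Cfsg.Agent.Lib.Helper26

/-- A dodecad has 220 quartets and its stabiliser is transitive on them. -/
theorem result (d : Finset Cfsg.GolayPt) (hd : d ∈ Cfsg.dodecads) : (Cfsg.quartets d).ncard = 220 ∧ ∀ Q ∈ Cfsg.quartets d, ∀ Q' ∈ Cfsg.quartets d, ∃ g : Equiv.Perm Cfsg.GolayPt, g ∈ Cfsg.M24 ∧ g • d = d ∧ g • Q = Q' := by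
  obtain ⟨g, hg, rfl⟩ := exists_base_dod hd
  constructor
  · have hset : Cfsg.quartets (g • baseDod) = (fun Q => g • Q) '' Cfsg.quartets baseDod := by
      ext Q
      rw [quartets_smul_iff hg]
      constructor
      · intro h
        exact ⟨g⁻¹ • Q, h, smul_inv_smul g Q⟩
      · rintro ⟨Q', hQ', rfl⟩
        show g⁻¹ • g • Q' ∈ Cfsg.quartets baseDod
        rw [inv_smul_smul]
        exact hQ'
    rw [hset, Set.ncard_image_of_injective _ (MulAction.injective g), ncard_quartets_base]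
  · intro Q hQ Q' hQ'
    obtain ⟨i, hi, hQi⟩ := (quartets_base_iff _).mp ((quartets_smul_iff hg _ _).mp hQ)
    obtain ⟨j, hj, hQj⟩ := (quartets_base_iff _).mp ((quartets_smul_iff hg _ _).mp hQ')
    obtain ⟨u, hu, hu2⟩ := quartet_trans_base i hi j hj
    have hu3 : u • baseDod = baseDod := hu.2
    refine ⟨g * u * g⁻¹, Cfsg.M24.mul_mem (Cfsg.M24.mul_mem hg hu.1) (Cfsg.M24.inv_mem hg), ?_, ?_⟩
    · rw [mul_smul, mul_smul, inv_smul_smul, hu3]
    · rw [mul_smul, mul_smul, hQi, hu2, ← hQj, smul_inv_smul]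


end Cfsg.Agent.S1597
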