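import Mathlib
import Cfsg.Statements.S1599
import Cfsg.Agent.Lib.Helper26.QuartOrb

set_option autoImplicit false
open scoped Pointwise
open Cfsg

namespace Cfsg.Agent.S1599

open Cfsg.Agent.Lib.Helper7 Cfsg.Agent.Lib.Helper26

theorem div_q : ∀ j ∈ Finset.range 5, ∀ I ∈ (Finset.range 5).powerset, j ∈ I →
    (∑ i ∈ I, qN i) ∣ 432 → I = {j} := by
  decide +kernel

/-- A quartet stabiliser has five orbits on the quartets of its dodecad, of sizes 1, 12, 27, 72, 108. -/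
theorem result (d : Finset Cfsg.GolayPt) (hd : d ∈ Cfsg.dodecads) (Q : Finset (Finset Cfsg.GolayPt)) (hQ : Q ∈ Cfsg.quartets d) : ∃ X₁ ∈ Cfsg.quartets d, ∃ X₂ ∈ Cfsg.quartets d, ∃ X₃ ∈ Cfsg.quartets d, ∃ X₄ ∈ Cfsg.quartets d, (MulAction.orbit ↥(MulAction.stabilizer Cfsg.M24 d ⊓ MulAction.stabilizer Cfsg.M24 Q) X₁).ncard = 12 ∧ (MulAction.orbit ↥(MulAction.stabilizer Cfsg.M24 d ⊓ MulAction.stabilizer Cfsg.M24 Q) X₂).ncard = 27 ∧ (MulAction.orbit ↥(MulAction.stabilizer Cfsg.M24 d ⊓ MulAction.stabilizer Cfsg.M24 Q) X₃).ncard = 72 ∧ (MulAction.orbit ↥(MulAction.stabilizer Cfsg.M24 d ⊓ MulAction.stabilizer Cfsg.M24 Q) X₄).ncard = 108 ∧ Cfsg.quartets d = {Q} ∪ MulAction.orbit ↥(MulAction.stabilizer Cfsg.M24 d ⊓ MulAction.stabilizer Cfsg.M24 Q) X₁ ∪ MulAction.orbit ↥(MulAction.stabilizer Cfsg.M24 d ⊓ MulAction.stabilizer Cfsg.M24 Q) X₂ ∪ MulAction.orbit ↥(MulAction.stabilizer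 Cfsg.M24 d ⊓ MulAction.stabilizer Cfsg.M24 Q) X₃ ∪ MulAction.orbit ↥(MulAction.stabilizer Cfsg.M24 d ⊓ MulAction.stabilizer Cfsg.M24 Q) X₄ := by
  obtain ⟨c, h⟩ := orbLev_quartet hd hQ
  have hcard := card_stab_quartet hd hQ
  have hdiv : ∀ j ∈ Finset.range 5, ∀ I ⊆ Finset.range 5, j ∈ I →
      (∑ i ∈ I, qN i) ∣ Nat.card ↥(MulAction.stabilizer (↥Cfsg.M24) d ⊓
        MulAction.stabilizer (↥Cfsg.M24) Q) → I = {j} :=
    fun j hj I hI hjI hdv =>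
      div_q j hj I (Finset.mem_powerset.mpr hI) hjI (by rwa [hcard] at hdv)
  -- the orbit of `Q` is `{Q}`
  have hQorb : MulAction.orbit ↥(MulAction.stabilizer (↥Cfsg.M24) d ⊓
      MulAction.stabilizer (↥Cfsg.M24) Q) Q = {Q} := by
    ext y
    constructor
    · rintro ⟨k, rfl⟩
      exact k.2.2
    · intro hy
      rw [Set.mem_singleton_iff] at hy
      rw [hy]
      exact MulAction.mem_orbit_self Q
  have hcQ := h.mem Q hQ
  have hQlev := h.orbit_eq hQ (hdiv (c Q) hcQ)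
  have hcQ0 : c Q = 0 := by
    have h1 := h.card (c Q) hcQ
    rw [← hQlev, hQorb, Set.ncard_singleton] at h1
    rw [Finset.mem_range] at hcQ
    have h5 : c Q = 0 ∨ c Q = 1 ∨ c Q = 2 ∨ c Q = 3 ∨ c Q = 4 := by omega
    rcases h5 with h5 | h5 | h5 | h5 | h5
    · exact h5
    · rw [h5] at h1; exact absurd h1 (by decide)
    · rw [h5] at h1; exact absurd h1 (by decide)
    · rw [h5] at h1; exact absurd h1 (by decide)
    · rw [h5] at h1; exact absurd h1 (by decide)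
  rw [hcQ0, hQorb] at hQlev
  obtain ⟨X₁, hX₁, ho₁, hn₁⟩ := h.exists_rep (i := 1) (by simp) (by decide) (hdiv 1 (by simp))
  obtain ⟨X₂, hX₂, ho₂, hn₂⟩ := h.exists_rep (i := 2) (by simp) (by decide) (hdiv 2 (by simp))
  obtain ⟨X₃, hX₃, ho₃, hn₃⟩ := h.exists_rep (i := 3) (by simp) (by decide) (hdiv 3 (by simp))
  obtain ⟨X₄, hX₄, ho₄, hn₄⟩ := h.exists_rep (i := 4) (by simp) (by decide) (hdiv 4 (by simp))
  refine ⟨X₁, hX₁, X₂, hX₂, X₃, hX₃, X₄, hX₄, hn₁, hn₂, hn₃, hn₄, ?_⟩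
  rw [ho₁, ho₂, ho₃, ho₄, hQlev]
  ext y
  simp only [Set.mem_union, Set.mem_ofPred_eq]
  constructor
  · intro hy
    have h3 := h.mem y hy
    rw [Finset.mem_range] at h3
    have h4 : c y = 0 ∨ c y = 1 ∨ c y = 2 ∨ c y = 3 ∨ c y = 4 := by omega
    rcases h4 with h4 | h4 | h4 | h4 | h4
    · exact Or.inl (Or.inl (Or.inl (Or.inl ⟨hy, h4⟩)))
    · exact Or.inl (Or.inl (Or.inl (Or.inr ⟨hy, h4⟩)))
    · exact Or.inl (Or.inl (Or.inr ⟨hy, h4⟩))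
    · exact Or.inl (Or.inr ⟨hy, h4⟩)
    · exact Or.inr ⟨hy, h4⟩
  · rintro ((((h1 | h1) | h1) | h1) | h1) <;> exact h1.1

end Cfsg.Agent.S1599
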