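import Cfsg.Statements.S1604
import Cfsg.Agent.Lib.Helper27.OctData1604

set_option autoImplicit false
open scoped Pointwise
open Cfsg

namespace Cfsg.Agent.S1604

open Cfsg.Agent.Lib.Helper7 Cfsg.Agent.Lib.Helper27.OO Cfsg.Agent.Lib.Helper27.D1604 in
/-- A hexad stabiliser in the two-point stabiliser has orbits of sizes 1, 16, 60 on the 77 hexads: the 16 hexads disjoint from it and the 60 meeting it in two points. -/
theorem result (p q : Cfsg.GolayPt) (hpq : p ≠ q) (o o' o'' : Finset Cfsg.GolayPt) (ho : o ∈ Cfsg.octads) (ho' : o' ∈ Cfsg.octads) (ho'' : o'' ∈ Cfsg.octads) (hp : p ∈ o ∧ p ∈ o' ∧ p ∈ o'') (hq : q ∈ o ∧ q ∈ o' ∧ q ∈ o'') (h : (o ∩ o').card = (o ∩ o'').card) : {x : Finset Cfsg.GolayPt | x ∈ Cfsg.octads ∧ p ∈ x ∧ q ∈ x ∧ (o ∩ x).card = 2}.ncard = 16 ∧ {x : Finset Cfsg.GolayPt | x ∈ Cfsg.octads ∧ p ∈ x ∧ q ∈ x ∧ (o ∩ x).card = 4}.ncard = 60 ∧ ∃ g : Equiv.Perm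 Cfsg.GolayPt, g ∈ Cfsg.M24 ∧ g p = p ∧ g q = q ∧ g • o = o ∧ g • o' = o'' := by
  have h230 : pt 23 ≠ pt 0 := by decide
  obtain ⟨g1, hg1, hg1p, hg1q⟩ := exists_map2 hpq h230
  have hi1 : Inc (g1 • o) := by
    show pt 23 ∈ g1 • o ∧ pt 0 ∈ g1 • o
    rw [← hg1p, ← hg1q, apply_mem_smul_iff, apply_mem_smul_iff]
    exact ⟨hp.1, hq.1⟩
  obtain ⟨u, hu, huo⟩ := lvl1 (smul_mem_octads hg1 ho) hi1
  have hu23 : u (pt 23) = pt 23 := fixSub_apply hu (by norm_num) (by decide)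
  have hu0 : u (pt 0) = pt 0 := fixSub_apply hu (by norm_num) (by decide)
  have hg : u * g1 ∈ Cfsg.M24 := Cfsg.M24.mul_mem hu.1 hg1
  have hgp : (u * g1) p = pt 23 := by
    rw [Equiv.Perm.mul_apply, hg1p, hu23]
  have hgq : (u * g1) q = pt 0 := by
    rw [Equiv.Perm.mul_apply, hg1q, hu0]
  have hgo : (u * g1) • o = setOf R := by
    rw [mul_smul, huo]
  generalize u * g1 = g at hg hgp hgq hgo
  have htr : ∀ (c : ℕ) (x : Finset Cfsg.GolayPt),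
      (x ∈ Cfsg.octads ∧ p ∈ x ∧ q ∈ x ∧ (o ∩ x).card = c) ↔
        (g • x ∈ Cfsg.octads ∧ Inc (g • x) ∧ (setOf R ∩ g • x).card = c) := by
    intro c x
    rw [smul_mem_octads_iff hg, ← hgo, card_smul_inter, Inc, ← hgp, ← hgq, apply_mem_smul_iff,
      apply_mem_smul_iff]
    tauto
  refine ⟨?_, ?_, ?_⟩
  · rw [ncard_transport g _ (fun o'' => o'' ∈ Cfsg.octads ∧ Inc o'' ∧ (setOf R ∩ o'').card = 2) (htr 2)]
    exact cnt2
  · rw [ncard_transport g _ (fun o'' => o'' ∈ Cfsg.octads ∧ Inc o'' ∧ (setOf R ∩ o'').card = 4) (htr 4)]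
    exact cnt4
  · have h' := (htr _ o').mp ⟨ho', hp.2.1, hq.2.1, rfl⟩
    have h'' := (htr _ o'').mp ⟨ho'', hp.2.2, hq.2.2, rfl⟩
    obtain ⟨u2, hu2, hu2o⟩ := lvl2 h'.1 h''.1 h'.2.1 h''.2.1 (h'.2.2.trans (h.trans h''.2.2.symm))
    have hu2F := (Subgroup.mem_inf.mp hu2).1
    have hu2R : u2 • setOf R = setOf R := MulAction.mem_stabilizer_iff.mp (Subgroup.mem_inf.mp hu2).2
    refine ⟨g⁻¹ * u2 * g, Cfsg.M24.mul_mem (Cfsg.M24.mul_mem (Cfsg.M24.inv_mem hg) hu2F.1) hg,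
      ?_, ?_, ?_, ?_⟩
    · exact conj_apply g u2 p (by rw [hgp]; exact fixSub_apply hu2F (by norm_num) (by decide))
    · exact conj_apply g u2 q (by rw [hgq]; exact fixSub_apply hu2F (by norm_num) (by decide))
    · exact conj_smul g u2 o o (by rw [hgo, hu2R])
    · exact conj_smul g u2 o' o'' hu2o

end Cfsg.Agent.S1604
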