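import Cfsg.Statements.S1605
import Cfsg.Agent.Lib.Helper27.OctData1605

set_option autoImplicit false
open scoped Pointwise
open Cfsg

namespace Cfsg.Agent.S1605

open Cfsg.Agent.Lib.Helper7 Cfsg.Agent.Lib.Helper27.OO Cfsg.Agent.Lib.Helper27.D1605 in
/-- The two-point stabiliser acts on the 176 octads through the first point avoiding the second with rank 3 and subdegrees 1, 70, 105 (intersections 8, 2, 4). -/
theorem result (p q : Cfsg.GolayPt) (hpq : p ≠ q) : {x : Finset Cfsg.GolayPt | (x ∈ Cfsg.octads ∧ p ∈ x ∧ q ∉ x)}.ncard = 176 ∧ (∀ o o' : Finset Cfsg.GolayPt, (o ∈ Cfsg.octads ∧ p ∈ o ∧ q ∉ o) → (o' ∈ Cfsg.octads ∧ p ∈ o' ∧ q ∉ o') → ∃ g : Equiv.Perm Cfsg.GolayPt, g ∈ Cfsg.M24 ∧ g p = p ∧ g q = q ∧ g • o = o') ∧ ∀ o : Finset Cfsg.GolayPt, (o ∈ Cfsg.octads ∧ p ∈ o ∧ q ∉ o) → {x : Finset Cfsg.GolayPt | (x ∈ Cfsg.octads ∧ p ∈ x ∧ q ∉ x) ∧ (o ∩ x).card = 2}.ncard = 70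 ∧ {x : Finset Cfsg.GolayPt | (x ∈ Cfsg.octads ∧ p ∈ x ∧ q ∉ x) ∧ (o ∩ x).card = 4}.ncard = 105 ∧ ∀ o' o'' : Finset Cfsg.GolayPt, (o' ∈ Cfsg.octads ∧ p ∈ o' ∧ q ∉ o') → (o'' ∈ Cfsg.octads ∧ p ∈ o'' ∧ q ∉ o'') → (o ∩ o').card = (o ∩ o'').card → ∃ g : Equiv.Perm Cfsg.GolayPt, g ∈ Cfsg.M24 ∧ g p = p ∧ g q = q ∧ g • o = o ∧ g • o' = o'' := by
  have h230 : pt 23 ≠ pt 0 := by decide
  obtain ⟨g1, hg1, hg1p, hg1q⟩ := exists_map2 hpq h230
  have tr1 : ∀ o : Finset Cfsg.GolayPt, (o ∈ Cfsg.octads ∧ p ∈ o ∧ q ∉ o) ↔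
      (g1 • o ∈ Cfsg.octads ∧ Inc (g1 • o)) := by
    intro o
    rw [smul_mem_octads_iff hg1, Inc, ← hg1p, ← hg1q, apply_mem_smul_iff, apply_mem_smul_iff]
  refine ⟨?_, ?_, ?_⟩
  · rw [ncard_transport g1 _ (fun o'' => o'' ∈ Cfsg.octads ∧ Inc o'') tr1]
    exact cntAll
  · intro o o' ho ho'
    have h := (tr1 o).mp ho
    have h' := (tr1 o').mp ho'
    obtain ⟨u, hu, huo⟩ := lvl1 h.1 h.2
    obtain ⟨u', hu', huo'⟩ := lvl1 h'.1 h'.2
    have hv : u'⁻¹ * u ∈ fixSub F := (fixSub F).mul_mem ((fixSub F).inv_mem hu') hu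
    refine ⟨g1⁻¹ * (u'⁻¹ * u) * g1,
      Cfsg.M24.mul_mem (Cfsg.M24.mul_mem (Cfsg.M24.inv_mem hg1) hv.1) hg1, ?_, ?_, ?_⟩
    · exact conj_apply g1 _ p (by rw [hg1p]; exact fixSub_apply hv (by norm_num) (by decide))
    · exact conj_apply g1 _ q (by rw [hg1q]; exact fixSub_apply hv (by norm_num) (by decide))
    · exact conj_smul g1 _ o o' (by rw [mul_smul, huo, ← huo', inv_smul_smul])
  · intro o ho
    have h := (tr1 o).mp ho
    obtain ⟨u, hu, huo⟩ := lvl1 h.1 h.2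
    have hu23 : u (pt 23) = pt 23 := fixSub_apply hu (by norm_num) (by decide)
    have hu0 : u (pt 0) = pt 0 := fixSub_apply hu (by norm_num) (by decide)
    have hg : u * g1 ∈ Cfsg.M24 := Cfsg.M24.mul_mem hu.1 hg1
    have hgp : (u * g1) p = pt 23 := by
      rw [Equiv.Perm.mul_apply, hg1p, hu23]
    have hgq : (u * g1) q = pt 0 := by
      rw [Equiv.Perm.mul_apply, hg1q, hu0]
    have hgo : (u * g1) • o = setOf R := by
      rw [mul_smul, huo]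
    generalize u * g1 = g at hg hgp hgq hgo
    have htr : ∀ (c : ℕ) (o' : Finset Cfsg.GolayPt),
        ((o' ∈ Cfsg.octads ∧ p ∈ o' ∧ q ∉ o') ∧ (o ∩ o').card = c) ↔
          (g • o' ∈ Cfsg.octads ∧ Inc (g • o') ∧ (setOf R ∩ g • o').card = c) := by
      intro c o'
      rw [smul_mem_octads_iff hg, ← hgo, card_smul_inter, Inc, ← hgp, ← hgq, apply_mem_smul_iff,
        apply_mem_smul_iff]
      tauto
    refine ⟨?_, ?_, ?_⟩
    · rw [ncard_transport g _ (fun o'' => o'' ∈ Cfsg.octads ∧ Inc o'' ∧ (setOf R ∩ o'').card = 2) (htr 2)]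
      exact cnt2
    · rw [ncard_transport g _ (fun o'' => o'' ∈ Cfsg.octads ∧ Inc o'' ∧ (setOf R ∩ o'').card = 4) (htr 4)]
      exact cnt4
    · intro o' o'' ho' ho'' hc
      have h' := (htr _ o').mp ⟨ho', rfl⟩
      have h'' := (htr _ o'').mp ⟨ho'', rfl⟩
      obtain ⟨u2, hu2, hu2o⟩ := lvl2 h'.1 h''.1 h'.2.1 h''.2.1 (h'.2.2.trans (hc.trans h''.2.2.symm))
      have hu2F := (Subgroup.mem_inf.mp hu2).1
      have hu2R : u2 • setOf R = setOf R := MulAction.mem_stabilizer_iff.mp (Subgroup.mem_inf.mp hu2).2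
      refine ⟨g⁻¹ * u2 * g, Cfsg.M24.mul_mem (Cfsg.M24.mul_mem (Cfsg.M24.inv_mem hg) hu2F.1) hg,
        ?_, ?_, ?_, ?_⟩
      · exact conj_apply g u2 p (by rw [hgp]; exact fixSub_apply hu2F (by norm_num) (by decide))
      · exact conj_apply g u2 q (by rw [hgq]; exact fixSub_apply hu2F (by norm_num) (by decide))
      · exact conj_smul g u2 o o (by rw [hgo, hu2R])
      · exact conj_smul g u2 o' o'' hu2o

end Cfsg.Agent.S1605
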