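import Cfsg.Statements.S1606
import Cfsg.Agent.Lib.Helper26.M22Rank

set_option autoImplicit false
open scoped Pointwise
open Cfsg

namespace Cfsg.Agent.S1606

open Cfsg.Agent.Lib Cfsg.Agent.Lib.Helper26 in
/-- The stabiliser of two points in the group of the length-24 code has no subgroups of index 56 or 210. -/
theorem result (p q : Cfsg.GolayPt) (hpq : p ≠ q) (H : Subgroup ↥(MulAction.stabilizer Cfsg.M24 p ⊓ MulAction.stabilizer Cfsg.M24 q)) : H.index ≠ 56 ∧ H.index ≠ 210 := by
  have hcG := card_stab2 hpq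
  have hci := H.card_mul_index
  rw [hcG] at hci
  obtain ⟨K', hK'⟩ : ∃ K' : Subgroup ↥M24, K' = H.map
      (MulAction.stabilizer Cfsg.M24 p ⊓ MulAction.stabilizer Cfsg.M24 q).subtype := ⟨_, rfl⟩
  have hcK' : Nat.card K' = Nat.card H := by
    rw [hK', Subgroup.card_map_of_injective (Subgroup.subtype_injective _)]
  constructor
  · intro h56
    rw [h56] at hci
    have hcH : Nat.card H = 7920 := by omega
    obtain ⟨K, hKdef⟩ : ∃ K : Subgroup (Equiv.Perm GolayPt), K = K'.map M24.subtype :=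
      ⟨_, rfl⟩
    have hcK : Nat.card K = 7920 := by
      rw [hKdef, Subgroup.card_map_of_injective (Subgroup.subtype_injective _), hcK', hcH]
    have hmemK : ∀ k ∈ K, ∃ g : ↥(MulAction.stabilizer Cfsg.M24 p ⊓
        MulAction.stabilizer Cfsg.M24 q), g ∈ H ∧ (g.1.1 : Equiv.Perm GolayPt) = k := by
      intro k hk
      rw [hKdef, hK'] at hk
      obtain ⟨a, ⟨g, hg, rfl⟩, rfl⟩ := hk
      exact ⟨g, hg, rfl⟩
    apply no_card_7920 (p := p) (q := q) (K := K)
    refine ⟨hpq, ?_, ?_, ?_, hcK⟩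
    · intro k hk
      obtain ⟨g, _, rfl⟩ := hmemK k hk
      exact g.1.2
    · intro k hk
      obtain ⟨g, _, rfl⟩ := hmemK k hk
      have h1 := g.2
      rw [Subgroup.mem_inf, MulAction.mem_stabilizer_iff, MulAction.mem_stabilizer_iff] at h1
      exact h1.1
    · intro k hk
      obtain ⟨g, _, rfl⟩ := hmemK k hk
      have h1 := g.2
      rw [Subgroup.mem_inf, MulAction.mem_stabilizer_iff, MulAction.mem_stabilizer_iff] at h1
      exact h1.2
  · intro h210
    rw [h210] at hci
    exact no_card_2112 K' (by rw [hcK']; omega)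

end Cfsg.Agent.S1606
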