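import Cfsg.Statements.S1608
import Cfsg.Agent.Lib.Helper27.OctData1608

set_option autoImplicit false
open scoped Pointwise
open Cfsg

namespace Cfsg.Agent.S1608

open Cfsg.Agent.Lib.Helper7 Cfsg.Agent.Lib.Helper27.OO Cfsg.Agent.Lib.Helper27.D1608 in
/-- The point stabiliser acts on the 506 octads avoiding the point with rank 4 and subdegrees 1, 15, 210, 280, the suborbits being given by intersection size with the fixed octad. -/
theorem result (x : Cfsg.GolayPt) (o : Finset Cfsg.GolayPt) (ho : o ∈ Cfsg.octads) (hx : x ∉ o) : {o' : Finset Cfsg.GolayPt | o' ∈ Cfsg.octads ∧ x ∉ o' ∧ (o ∩ o').card = 0}.ncard = 15 ∧ {o' : Finset Cfsg.GolayPt | o' ∈ Cfsg.octads ∧ x ∉ o' ∧ (o ∩ o').card = 4}.ncard = 210 ∧ {o' : Finset Cfsg.GolayPt | o' ∈ Cfsg.octads ∧ x ∉ o' ∧ (o ∩ o').card = 2}.ncard = 280 ∧ ∀ o' o'' : Finset Cfsg.GolayPt, o' ∈ Cfsg.octads → o'' ∈ Cfsg.octads → x ∉ o' → x ∉ o'' → (o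 ∩ o').card = (o ∩ o'').card → ∃ g : Equiv.Perm Cfsg.GolayPt, g ∈ Cfsg.M24 ∧ g x = x ∧ g • o = o ∧ g • o' = o'' := by
  obtain ⟨g1, hg1, hg1x⟩ := exists_map1 x (pt 23)
  have hi1 : Inc (g1 • o) := by
    show pt 23 ∉ g1 • o
    rw [← hg1x]
    exact fun h => hx ((apply_mem_smul_iff g1 x o).mp h)
  obtain ⟨u, hu, huo⟩ := lvl1 (smul_mem_octads hg1 ho) hi1
  have hu23 : u (pt 23) = pt 23 := fixSub_apply hu (by norm_num) (by decide)
  have hg : u * g1 ∈ Cfsg.M24 := Cfsg.M24.mul_mem hu.1 hg1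
  have hgx : (u * g1) x = pt 23 := by
    rw [Equiv.Perm.mul_apply, hg1x, hu23]
  have hgo : (u * g1) • o = setOf R := by
    rw [mul_smul, huo]
  generalize u * g1 = g at hg hgx hgo
  have htr : ∀ (c : ℕ) (o' : Finset Cfsg.GolayPt),
      (o' ∈ Cfsg.octads ∧ x ∉ o' ∧ (o ∩ o').card = c) ↔
        (g • o' ∈ Cfsg.octads ∧ Inc (g • o') ∧ (setOf R ∩ g • o').card = c) := by
    intro c o'
    rw [smul_mem_octads_iff hg, ← hgo, card_smul_inter, Inc, ← hgx, apply_mem_smul_iff]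
  refine ⟨?_, ?_, ?_, ?_⟩
  · rw [ncard_transport g _ (fun o'' => o'' ∈ Cfsg.octads ∧ Inc o'' ∧ (setOf R ∩ o'').card = 0) (htr 0)]
    exact cnt0
  · rw [ncard_transport g _ (fun o'' => o'' ∈ Cfsg.octads ∧ Inc o'' ∧ (setOf R ∩ o'').card = 4) (htr 4)]
    exact cnt4
  · rw [ncard_transport g _ (fun o'' => o'' ∈ Cfsg.octads ∧ Inc o'' ∧ (setOf R ∩ o'').card = 2) (htr 2)]
    exact cnt2
  · intro o' o'' ho' ho'' hx' hx'' hc
    have h' := (htr _ o').mp ⟨ho', hx', rfl⟩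
    have h'' := (htr _ o'').mp ⟨ho'', hx'', rfl⟩
    obtain ⟨u2, hu2, hu2o⟩ := lvl2 h'.1 h''.1 h'.2.1 h''.2.1 (h'.2.2.trans (hc.trans h''.2.2.symm))
    have hu2F := (Subgroup.mem_inf.mp hu2).1
    have hu2R : u2 • setOf R = setOf R := MulAction.mem_stabilizer_iff.mp (Subgroup.mem_inf.mp hu2).2
    have hu23' : u2 (pt 23) = pt 23 := fixSub_apply hu2F (by norm_num) (by decide)
    refine ⟨g⁻¹ * u2 * g, Cfsg.M24.mul_mem (Cfsg.M24.mul_mem (Cfsg.M24.inv_mem hg) hu2F.1) hg,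
      ?_, ?_, ?_⟩
    · exact conj_apply g u2 x (by rw [hgx, hu23'])
    · exact conj_smul g u2 o o (by rw [hgo, hu2R])
    · exact conj_smul g u2 o' o'' hu2o

end Cfsg.Agent.S1608
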