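import Cfsg.Statements.S1609
import Cfsg.Agent.Lib.Helper26.M23Idx
import Cfsg.Agent.Lib.Helper7.GolayTrans
import Cfsg.Agent.Lib.Helper6.Golay

set_option autoImplicit false
open scoped Pointwise
open Cfsg

namespace Cfsg.Agent.S1609

open Cfsg.Agent.Lib Cfsg.Agent.Lib.Helper26 in
/-- Subgroups of index 253 in the Mathieu group of degree 23 are exactly the duad stabilisers and the heptad stabilisers. -/
theorem result (x : Cfsg.GolayPt) (H : Subgroup ↥(MulAction.stabilizer Cfsg.M24 x)) (hH : H.index = 253) : (∃ s : Finset Cfsg.GolayPt, s.card = 2 ∧ x ∉ s ∧ H = (MulAction.stabilizer Cfsg.M24 s).subgroupOf (MulAction.stabilizer Cfsg.M24 x)) ∨ ∃ o ∈ Cfsg.octads, x ∈ o ∧ H = (MulAction.stabilizer Cfsg.M24 o).subgroupOf (MulAction.stabilizer Cfsg.M24 x) := by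
  have hcardG : Nat.card ↥(MulAction.stabilizer Cfsg.M24 x) = 10200960 :=
    Helper7.card_stabilizer_M24 x
  have hcH : Nat.card H = 40320 := by
    have h1 := H.card_mul_index
    rw [hH, hcardG] at h1
    omega
  obtain ⟨K, hKdef⟩ : ∃ K : Subgroup (Equiv.Perm GolayPt),
      K = (H.map (MulAction.stabilizer Cfsg.M24 x).subtype).map Cfsg.M24.subtype := ⟨_, rfl⟩
  have hcK : Nat.card K = 40320 := by
    rw [hKdef, Subgroup.card_map_of_injective (Subgroup.subtype_injective _),
      Subgroup.card_map_of_injective (Subgroup.subtype_injective _), hcH]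
  have hmemK : ∀ k ∈ K, ∃ h : ↥(MulAction.stabilizer Cfsg.M24 x),
      h ∈ H ∧ (h.1.1 : Equiv.Perm GolayPt) = k := by
    intro k hk
    rw [hKdef] at hk
    obtain ⟨a, ⟨h, hh, rfl⟩, rfl⟩ := hk
    exact ⟨h, hh, rfl⟩
  have hKM : K ≤ M24 := by
    intro k hk
    obtain ⟨h, _, rfl⟩ := hmemK k hk
    exact h.1.2
  have hKx : ∀ k ∈ K, k x = x := by
    intro k hk
    obtain ⟨h, _, rfl⟩ := hmemK k hk
    exact h.2
  have hHK : ∀ h ∈ H, (h.1.1 : Equiv.Perm GolayPt) ∈ K := by
    intro h hh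
    rw [hKdef]
    exact ⟨h.1, ⟨h, hh, rfl⟩, rfl⟩
  have hfin : ∀ T : Finset GolayPt, InvSet K T → ((T.card = 2 ∧ x ∉ T) ∨ T.card = 8) →
      H = (MulAction.stabilizer Cfsg.M24 T).subgroupOf (MulAction.stabilizer Cfsg.M24 x) := by
    intro T hT hcT
    obtain ⟨D, hD⟩ : ∃ D, D = (MulAction.stabilizer Cfsg.M24 T).subgroupOf
      (MulAction.stabilizer Cfsg.M24 x) := ⟨_, rfl⟩
    rw [← hD]
    have hHD : H ≤ D := by
      intro h hh
      rw [hD, Subgroup.mem_subgroupOf, MulAction.mem_stabilizer_iff]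
      exact hT.smul_eq (hHK h hh)
    have hdvd : D.index ∣ 253 := hH ▸ Subgroup.index_dvd_of_le hHD
    have hDc := D.card_mul_index
    rw [hcardG] at hDc
    have hno : ∀ p, (p = 11 ∨ p = 23) → ¬ p ∣ Nat.card D := by
      intro p hp hpd
      have hpp : p.Prime := by
        rcases hp with rfl | rfl <;> norm_num
      have : Fact p.Prime := ⟨hpp⟩
      obtain ⟨d, hd⟩ := exists_prime_orderOf_dvd_card' (G := ↥D) p hpd
      obtain ⟨e, he, hoe⟩ : ∃ e : ↥(MulAction.stabilizer Cfsg.M24 x), e ∈ D ∧ orderOf e = p :=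
        ⟨d.1, d.2, by rw [Subgroup.orderOf_coe]; exact hd⟩
      have ho : orderOf (e.1.1 : Equiv.Perm GolayPt) = p := by
        rw [Subgroup.orderOf_coe, Subgroup.orderOf_coe]
        exact hoe
      have hdT : (e.1.1 : Equiv.Perm GolayPt) • T = T := by
        rw [hD, Subgroup.mem_subgroupOf, MulAction.mem_stabilizer_iff] at he
        exact he
      refine no_big_prime e.1.2 hp ho (x := x) e.2 T (fun i hi => ?_) hcT
      have h2 : (e.1.1 : Equiv.Perm GolayPt) • i ∈ (e.1.1 : Equiv.Perm GolayPt) • T :=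
        Finset.smul_mem_smul_finset hi
      rw [hdT] at h2
      exact h2
    have hidx : D.index = 253 := by
      have h253 : D.index = 1 ∨ D.index = 11 ∨ D.index = 23 ∨ D.index = 253 := by
        have h1 : D.index ∈ Nat.divisors 253 := Nat.mem_divisors.2 ⟨hdvd, by norm_num⟩
        have hdiv : Nat.divisors 253 = {1, 11, 23, 253} := by decide
        rw [hdiv] at h1
        simpa using h1
      rcases h253 with h | h | h | h
      · exfalso
        rw [h] at hDc
        exact hno 11 (Or.inl rfl) ⟨927360, by omega⟩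
      · exfalso
        rw [h] at hDc
        exact hno 23 (Or.inr rfl) ⟨40320, by omega⟩
      · exfalso
        rw [h] at hDc
        exact hno 11 (Or.inl rfl) ⟨40320, by omega⟩
      · exact h
    apply Subgroup.eq_of_le_of_card_ge hHD
    rw [hidx] at hDc
    omega
  rcases idx253_perm hKM hKx hcK with ⟨s, hs2, hxs, hsinv⟩ | ⟨o, ho, hxo, hoinv⟩
  · left
    exact ⟨s, hs2, hxs, hfin s hsinv (Or.inl ⟨hs2, hxs⟩)⟩
  · right
    exact ⟨o, ho, hxo, hfin o hoinv (Or.inr (Helper6.Golay.card_of_mem_octads ho))⟩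

end Cfsg.Agent.S1609
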