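import Cfsg.Statements.S1610
import Cfsg.Agent.Lib.Helper27.Hexacode

set_option autoImplicit false
open Cfsg

namespace Cfsg.Agent.S1610

open Cfsg.Agent.Lib.Helper27.Hex

theorem countAll : (Finset.univ.filter (fun _m : P3 => True)).card = 64 := by
  decide +kernel

theorem count4 : (Finset.univ.filter (fun m : P3 => wtT (encT m.1 m.2.1 m.2.2) = 4)).card = 45 := by
  decide +kernel

theorem count6 : (Finset.univ.filter (fun m : P3 => wtT (encT m.1 m.2.1 m.2.2) = 6)).card = 18 := by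
  decide +kernel

theorem weights : ∀ m : P3, encT m.1 m.2.1 m.2.2 ≠ 0 →
    wtT (encT m.1 m.2.1 m.2.2) = 4 ∨ wtT (encT m.1 m.2.1 m.2.2) = 6 := by
  decide +kernel

/-- The hexacode has 64 words, minimum weight 4, and weight distribution 0^1 4^45 6^18. -/
theorem result (F : Type*) [Field F] [Fintype F] [DecidableEq F] (hF : Fintype.card F = 4) (ω : F) (hω : ω ^ 2 + ω + 1 = 0) : Nat.card ↥(Cfsg.hexacode F ω) = 64 ∧ (∀ x ∈ Cfsg.hexacode F ω, x ≠ 0 → (Finset.univ.filter fun i => x i ≠ 0).card = 4 ∨ (Finset.univ.filter fun i => x i ≠ 0).card = 6) ∧ {x : Fin 6 → F | x ∈ Cfsg.hexacode F ω ∧ (Finset.univ.filter fun i => x i ≠ 0).card = 4}.ncard = 45 ∧ {x : Fin 6 → F | x ∈ Cfsg.hexacode F ω ∧ (Finset.univ.filter fun i => x i ≠ 0).card = 6}.ncard = 18 := by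
  refine ⟨?_, ?_, ?_, ?_⟩
  · have h := ncard_mem_and ω hF hω (fun _ => True)
    have hs : {x : Fin 6 → F | x ∈ hexacode F ω ∧ True} = (hexacode F ω : Set (Fin 6 → F)) := by
      ext x; simp
    rw [hs, countAll] at h
    exact (Nat.card_coe_set_eq (hexacode F ω : Set (Fin 6 → F))).trans h
  · intro x hx hx0
    obtain ⟨m, rfl⟩ := (mem_hex' ω hF hω x).mp hx
    rw [wt_wordF ω hF hω]
    exact weights m (fun h => hx0 ((wordF_eq_zero ω hF hω m).mpr h))
  · exact (ncard_mem_and ω hF hω (fun n => n = 4)).trans count4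
  · exact (ncard_mem_and ω hF hω (fun n => n = 6)).trans count6

end Cfsg.Agent.S1610
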