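import Cfsg.Statements.S1611
import Cfsg.Agent.Lib.Helper27.Hexacode

set_option autoImplicit false
open Cfsg

namespace Cfsg.Agent.S1611

open Cfsg.Agent.Lib.Helper27.Hex

/-! ### Table side -/

/-- membership test for the hexacode in codes, via three parity checks -/
def isHexW (y : Fin 6 → Fin 4) : Prop :=
  addT (addT (addT (y 0) (y 1)) (y 2)) (y 3) = 0 ∧
  addT (addT (addT (mulT 3 (y 0)) (mulT 2 (y 1))) (y 2)) (y 4) = 0 ∧
  addT (addT (addT (mulT 2 (y 0)) (mulT 3 (y 1))) (y 2)) (y 5) = 0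

instance (y : Fin 6 → Fin 4) : Decidable (isHexW y) := by unfold isHexW; infer_instance

/-- the three generators, in codes -/
def VV : Fin 3 → Fin 6 → Fin 4 := ![V1, V2, V3]

/-- preservation of the code by the monomial map with permutation values `t` and scalars `u` -/
def presT (t : Fin 6 → Fin 6) (u : Fin 6 → Fin 4) : Prop :=
  ∀ k : Fin 3, isHexW (fun i => mulT (u i) (VV k (t i)))

instance (t : Fin 6 → Fin 6) (u : Fin 6 → Fin 4) : Decidable (presT t u) := by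
  unfold presT; infer_instance

def code : Fin 3 → Fin 4 := ![1, 2, 3]

abbrev Q5 : Type := Fin 3 × Fin 3 × Fin 3 × Fin 3 × Fin 3

/-- normalised scalar vector: first entry 1 -/
def ext5 (u : Q5) : Fin 6 → Fin 4 :=
  ![1, code u.1, code u.2.1, code u.2.2.1, code u.2.2.2.1, code u.2.2.2.2]

/-- the three groups of parity checks -/
def chk0 (t : Fin 6 → Fin 6) (a0 a1 a2 a3 : Fin 4) : Prop :=
  ∀ k : Fin 3, addT (addT (addT (mulT a0 (VV k (t 0))) (mulT a1 (VV k (t 1))))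
    (mulT a2 (VV k (t 2)))) (mulT a3 (VV k (t 3))) = 0
def chk1 (t : Fin 6 → Fin 6) (a0 a1 a2 a4 : Fin 4) : Prop :=
  ∀ k : Fin 3, addT (addT (addT (mulT 3 (mulT a0 (VV k (t 0)))) (mulT 2 (mulT a1 (VV k (t 1)))))
    (mulT a2 (VV k (t 2)))) (mulT a4 (VV k (t 4))) = 0
def chk2 (t : Fin 6 → Fin 6) (a0 a1 a2 a5 : Fin 4) : Prop :=
  ∀ k : Fin 3, addT (addT (addT (mulT 2 (mulT a0 (VV k (t 0)))) (mulT 3 (mulT a1 (VV k (t 1)))))
    (mulT a2 (VV k (t 2)))) (mulT a5 (VV k (t 5))) = 0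

instance (t : Fin 6 → Fin 6) (a0 a1 a2 a3 : Fin 4) : Decidable (chk0 t a0 a1 a2 a3) := by
  unfold chk0; infer_instance
instance (t : Fin 6 → Fin 6) (a0 a1 a2 a3 : Fin 4) : Decidable (chk1 t a0 a1 a2 a3) := by
  unfold chk1; infer_instance
instance (t : Fin 6 → Fin 6) (a0 a1 a2 a3 : Fin 4) : Decidable (chk2 t a0 a1 a2 a3) := by
  unfold chk2; infer_instance

theorem presT_iff (t : Fin 6 → Fin 6) (a0 a1 a2 a3 a4 a5 : Fin 4) :
    presT t ![a0, a1, a2, a3, a4, a5] ↔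
      chk0 t a0 a1 a2 a3 ∧ chk1 t a0 a1 a2 a4 ∧ chk2 t a0 a1 a2 a5 := by
  unfold presT isHexW chk0 chk1 chk2
  constructor
  · intro h
    exact ⟨fun k => (h k).1, fun k => (h k).2.1, fun k => (h k).2.2⟩
  · rintro ⟨h0, h1, h2⟩ k
    exact ⟨h0 k, h1 k, h2 k⟩

/-- fast existence test for normalised scalars -/
def fastEx (t : Fin 6 → Fin 6) : Prop :=
  ∃ u1 u2 : Fin 3, (∃ u3 : Fin 3, chk0 t 1 (code u1) (code u2) (code u3)) ∧
    (∃ u4 : Fin 3, chk1 t 1 (code u1) (code u2) (code u4)) ∧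
    (∃ u5 : Fin 3, chk2 t 1 (code u1) (code u2) (code u5))

instance (t : Fin 6 → Fin 6) : Decidable (fastEx t) := by unfold fastEx; infer_instance

theorem fastEx_iff (t : Fin 6 → Fin 6) : fastEx t ↔ ∃ u : Q5, presT t (ext5 u) := by
  constructor
  · rintro ⟨u1, u2, ⟨u3, h3⟩, ⟨u4, h4⟩, ⟨u5, h5⟩⟩
    exact ⟨(u1, u2, u3, u4, u5), (presT_iff t _ _ _ _ _ _).mpr ⟨h3, h4, h5⟩⟩
  · rintro ⟨⟨u1, u2, u3, u4, u5⟩, h⟩
    obtain ⟨h3, h4, h5⟩ := (presT_iff t _ _ _ _ _ _).mp h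
    exact ⟨u1, u2, ⟨u3, h3⟩, ⟨u4, h4⟩, ⟨u5, h5⟩⟩

/-- encoding of the inverse of a permutation as a number -/
def encP (σ : Equiv.Perm (Fin 6)) : ℕ :=
  (σ.symm 0).val + 6 * (σ.symm 1).val + 36 * (σ.symm 2).val + 216 * (σ.symm 3).val
    + 1296 * (σ.symm 4).val + 7776 * (σ.symm 5).val

/-- base 6 digits -/
def digits (n : ℕ) : Fin 6 → Fin 6 := fun i => ⟨n / 6 ^ i.val % 6, Nat.mod_lt _ (by norm_num)⟩

theorem eta6 {α : Type*} (f : Fin 6 → α) : f = ![f 0, f 1, f 2, f 3, f 4, f 5] := by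
  funext i
  fin_cases i <;> rfl

theorem digits_encP (σ : Equiv.Perm (Fin 6)) : digits (encP σ) = fun i => σ.symm i := by
  have key : ∀ a b c d e f : ℕ, a < 6 → b < 6 → c < 6 → d < 6 → e < 6 → f < 6 →
      (a + 6 * b + 36 * c + 216 * d + 1296 * e + 7776 * f) / 1 % 6 = a ∧
      (a + 6 * b + 36 * c + 216 * d + 1296 * e + 7776 * f) / 6 % 6 = b ∧
      (a + 6 * b + 36 * c + 216 * d + 1296 * e + 7776 * f) / 36 % 6 = c ∧
      (a + 6 * b + 36 * c + 216 * d + 1296 * e + 7776 * f) / 216 % 6 = d ∧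
      (a + 6 * b + 36 * c + 216 * d + 1296 * e + 7776 * f) / 1296 % 6 = e ∧
      (a + 6 * b + 36 * c + 216 * d + 1296 * e + 7776 * f) / 7776 % 6 = f := by
    intro a b c d e f ha hb hc hd he hf
    refine ⟨?_, ?_, ?_, ?_, ?_, ?_⟩ <;> omega
  obtain ⟨k0, k1, k2, k3, k4, k5⟩ := key _ _ _ _ _ _ (σ.symm 0).isLt (σ.symm 1).isLt
    (σ.symm 2).isLt (σ.symm 3).isLt (σ.symm 4).isLt (σ.symm 5).isLt
  rw [eta6 (digits (encP σ)), eta6 (fun i => σ.symm i)]
  have e0 : digits (encP σ) 0 = σ.symm 0 := Fin.ext k0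
  have e1 : digits (encP σ) 1 = σ.symm 1 := Fin.ext k1
  have e2 : digits (encP σ) 2 = σ.symm 2 := Fin.ext k2
  have e3 : digits (encP σ) 3 = σ.symm 3 := Fin.ext k3
  have e4 : digits (encP σ) 4 = σ.symm 4 := Fin.ext k4
  have e5 : digits (encP σ) 5 = σ.symm 5 := Fin.ext k5
  rw [e0, e1, e2, e3, e4, e5]

/-- evaluate the argument once, then continue -/
def forceNat (n : ℕ) (k : ℕ → Bool) : Bool :=
  match n with
  | 0 => k 0
  | m + 1 => k (m + 1)

theorem forceNat_eq (n : ℕ) (k : ℕ → Bool) : forceNat n k = k n := by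
  cases n <;> rfl

def fastB (n : ℕ) : Bool := decide (fastEx (digits n))

theorem T1 : ∀ m : P3, isHexW (encT m.1 m.2.1 m.2.2) := by decide +kernel

theorem T2 : ∀ y0 y1 y2 y3 y4 y5 : Fin 4, isHexW ![y0, y1, y2, y3, y4, y5] →
    ∃ m : P3, encT m.1 m.2.1 m.2.2 = ![y0, y1, y2, y3, y4, y5] := by decide +kernel

theorem T3 : ∀ σ : Equiv.Perm (Fin 6),
    forceNat (encP σ) fastB = true ↔ Equiv.Perm.sign σ = 1 := by
  decide +kernel

theorem D2 : ∀ u0 u1 u2 u3 u4 u5 : Fin 3,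
    presT (fun i => i) (fun i => code ((![u0, u1, u2, u3, u4, u5] : Fin 6 → Fin 3) i)) →
    ∀ i j : Fin 6, (![u0, u1, u2, u3, u4, u5] : Fin 6 → Fin 3) i = ![u0, u1, u2, u3, u4, u5] j := by
  decide +kernel

theorem code_ne_zero : ∀ k : Fin 3, code k ≠ 0 := by decide

theorem code_inj : ∀ k k' : Fin 3, code k = code k' → k = k' := by decide

theorem code_surj : ∀ i : Fin 4, i ≠ 0 → ∃ k : Fin 3, code k = i := by decide

theorem ext5_ne : ∀ u : Q5, ∀ i : Fin 6, ext5 u i ≠ 0 := by decide +kernel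

/-! ### Field side -/

set_option linter.unusedSectionVars false

section
variable {F : Type*} [Field F] [Fintype F] (ω : F)

/-- the monomial map given by `σ` and `c` preserves the hexacode -/
def Pres (σ : Equiv.Perm (Fin 6)) (c : Fin 6 → Fˣ) : Prop :=
  ∀ x ∈ hexacode F ω, monomialMap σ c x ∈ hexacode F ω

theorem mm_add (σ : Equiv.Perm (Fin 6)) (c : Fin 6 → Fˣ) (x y : Fin 6 → F) :
    monomialMap σ c (x + y) = monomialMap σ c x + monomialMap σ c y := by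
  funext i
  simp [monomialMap, mul_add]

theorem mm_smul (σ : Equiv.Perm (Fin 6)) (c : Fin 6 → Fˣ) (a : F) (x : Fin 6 → F) :
    monomialMap σ c (a • x) = a • monomialMap σ c x := by
  funext i
  simp [monomialMap, mul_left_comm]

theorem mm_zero (σ : Equiv.Perm (Fin 6)) (c : Fin 6 → Fˣ) :
    monomialMap σ c (0 : Fin 6 → F) = 0 := by
  funext i
  simp [monomialMap]

theorem mm_inj (σ : Equiv.Perm (Fin 6)) (c : Fin 6 → Fˣ) :
    Function.Injective (monomialMap σ c : (Fin 6 → F) → (Fin 6 → F)) := by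
  intro x y h
  funext j
  have h1 := congrFun h (σ j)
  simp only [monomialMap, Equiv.symm_apply_apply] at h1
  exact mul_left_cancel₀ (Units.ne_zero _) h1

theorem pres_smul (σ : Equiv.Perm (Fin 6)) (c : Fin 6 → Fˣ) (s : Fˣ) (h : Pres ω σ c) :
    Pres ω σ (fun i => s * c i) := by
  intro x hx
  have h1 : monomialMap σ (fun i => s * c i) x = (s : F) • monomialMap σ c x := by
    funext i
    simp [monomialMap, mul_assoc]
  rw [h1]
  exact Submodule.smul_mem _ _ (h x hx)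

theorem pres_onto (σ : Equiv.Perm (Fin 6)) (c : Fin 6 → Fˣ) (h : Pres ω σ c) :
    ∀ y ∈ hexacode F ω, ∃ x ∈ hexacode F ω, monomialMap σ c x = y := by
  let φ : ↥(hexacode F ω) → ↥(hexacode F ω) := fun x => ⟨monomialMap σ c x, h x x.2⟩
  have hinj : Function.Injective φ := fun x y hxy =>
    Subtype.ext (mm_inj σ c (congrArg Subtype.val hxy))
  have hsurj := Finite.surjective_of_injective hinj
  intro y hy
  obtain ⟨x, hx⟩ := hsurj ⟨y, hy⟩
  exact ⟨x, x.2, congrArg Subtype.val hx⟩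

theorem pres_ratio (σ : Equiv.Perm (Fin 6)) (c c' : Fin 6 → Fˣ) (h : Pres ω σ c)
    (h' : Pres ω σ c') : Pres ω 1 (fun i => c' i * (c i)⁻¹) := by
  intro y hy
  obtain ⟨x, hx, rfl⟩ := pres_onto ω σ c h y hy
  have h1 : monomialMap 1 (fun i => c' i * (c i)⁻¹) (monomialMap σ c x) = monomialMap σ c' x := by
    funext i
    have e1 : (1 : Equiv.Perm (Fin 6)).symm i = i := rfl
    simp only [monomialMap, e1, Units.val_mul]
    rw [mul_assoc, ← mul_assoc (((c i)⁻¹ : Fˣ) : F), Units.inv_mul, one_mul]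
  rw [h1]
  exact h' x hx

variable (hF : Fintype.card F = 4) (hω : ω ^ 2 + ω + 1 = 0)
include hF hω

theorem gen1 : (![ω, ω ^ 2, ω ^ 2, ω, ω ^ 2, ω] : Fin 6 → F) = fun t => g ω (VV 0 t) := by
  have q3 : g ω 3 = ω ^ 2 := by rw [omega_sq ω hF hω]; rfl
  funext t
  fin_cases t
  · rfl
  · exact q3.symm
  · exact q3.symm
  · rfl
  · exact q3.symm
  · rfl

theorem gen2 : (![ω ^ 2, ω, ω, ω ^ 2, ω ^ 2, ω] : Fin 6 → F) = fun t => g ω (VV 1 t) := by
  have q3 : g ω 3 = ω ^ 2 := by rw [omega_sq ω hF hω]; rfl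
  funext t
  fin_cases t
  · exact q3.symm
  · rfl
  · rfl
  · exact q3.symm
  · exact q3.symm
  · rfl

theorem gen3 : (![ω ^ 2, ω, ω ^ 2, ω, ω, ω ^ 2] : Fin 6 → F) = fun t => g ω (VV 2 t) := by
  have q3 : g ω 3 = ω ^ 2 := by rw [omega_sq ω hF hω]; rfl
  funext t
  fin_cases t
  · exact q3.symm
  · rfl
  · exact q3.symm
  · rfl
  · rfl
  · exact q3.symm

theorem pres_iff_gens (σ : Equiv.Perm (Fin 6)) (c : Fin 6 → Fˣ) :
    Pres ω σ c ↔ ∀ k : Fin 3, monomialMap σ c (fun t => g ω (VV k t)) ∈ hexacode F ω := by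
  constructor
  · intro h k
    apply h
    unfold hexacode
    fin_cases k
    · rw [show (fun t => g ω (VV ((fun i => i) ⟨0, by norm_num⟩) t)) = (fun t => g ω (VV 0 t)) from rfl,
        ← gen1 ω hF hω]
      exact Submodule.subset_span (by simp)
    · rw [show (fun t => g ω (VV ((fun i => i) ⟨1, by norm_num⟩) t)) = (fun t => g ω (VV 1 t)) from rfl,
        ← gen2 ω hF hω]
      exact Submodule.subset_span (by simp)
    · rw [show (fun t => g ω (VV ((fun i => i) ⟨2, by norm_num⟩) t)) = (fun t => g ω (VV 2 t)) from rfl,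
        ← gen3 ω hF hω]
      exact Submodule.subset_span (by simp)
  · intro h x hx
    unfold hexacode at hx
    induction hx using Submodule.span_induction with
    | mem x hx =>
      simp only [Set.mem_insert_iff, Set.mem_singleton_iff] at hx
      rcases hx with rfl | rfl | rfl
      · rw [gen1 ω hF hω]; exact h 0
      · rw [gen2 ω hF hω]; exact h 1
      · rw [gen3 ω hF hω]; exact h 2
    | zero => rw [mm_zero]; exact Submodule.zero_mem _
    | add x y _ _ hx hy => rw [mm_add]; exact Submodule.add_mem _ hx hy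
    | smul a x _ hx => rw [mm_smul]; exact Submodule.smul_mem _ _ hx

theorem mm_code (σ : Equiv.Perm (Fin 6)) (c : Fin 6 → Fˣ) (u : Fin 6 → Fin 4)
    (hu : ∀ i, (c i : F) = g ω (u i)) (y : Fin 6 → Fin 4) :
    monomialMap σ c (fun t => g ω (y t)) = fun i => g ω (mulT (u i) (y (σ.symm i))) := by
  funext i
  simp only [monomialMap]
  rw [g_mul ω hF hω, hu]

theorem code_mem_iff (y : Fin 6 → Fin 4) : (fun t => g ω (y t)) ∈ hexacode F ω ↔ isHexW y := by
  constructor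
  · intro h
    obtain ⟨m, hm⟩ := (mem_hex' ω hF hω _).mp h
    have : encT m.1 m.2.1 m.2.2 = y := by
      funext t
      exact g_inj ω hF hω (congrFun hm t)
    rw [← this]
    exact T1 m
  · intro h
    rw [eta6 y] at h
    obtain ⟨m, hm⟩ := T2 _ _ _ _ _ _ h
    rw [← eta6 y] at hm
    exact (mem_hex' ω hF hω _).mpr ⟨m, by rw [← hm]; rfl⟩

theorem pres_iff_presT (σ : Equiv.Perm (Fin 6)) (c : Fin 6 → Fˣ) (u : Fin 6 → Fin 4)
    (hu : ∀ i, (c i : F) = g ω (u i)) : Pres ω σ c ↔ presT (fun i => σ.symm i) u := by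
  rw [pres_iff_gens ω hF hω]
  unfold presT
  apply forall_congr'
  intro k
  rw [mm_code ω hF hω σ c u hu, code_mem_iff ω hF hω]

/-- the three nonzero scalars -/
def gU (k : Fin 3) : Fˣ :=
  Units.mk0 (g ω (code k)) (fun h => code_ne_zero k ((g_eq_zero ω hF hω _).mp h))

theorem gU_surj (s : Fˣ) : ∃ k, gU ω hF hω k = s := by
  obtain ⟨i, hi⟩ := g_surj ω hF hω (s : F)
  have hi0 : i ≠ 0 := by
    rintro rfl
    exact s.ne_zero (by rw [← hi]; exact (g_eq_zero ω hF hω _).mpr rfl)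
  obtain ⟨k, rfl⟩ := code_surj i hi0
  exact ⟨k, Units.ext hi⟩

theorem gU_inj (k k' : Fin 3) (h : gU ω hF hω k = gU ω hF hω k') : k = k' :=
  code_inj k k' (g_inj ω hF hω (congrArg Units.val h))

theorem gU_zero : gU ω hF hω 0 = 1 := Units.ext rfl

theorem exists_codes (c : Fin 6 → Fˣ) : ∃ u' : Fin 6 → Fin 3, ∀ i, c i = gU ω hF hω (u' i) := by
  choose u' hu' using fun i => gU_surj ω hF hω (c i)
  exact ⟨u', fun i => (hu' i).symm⟩

theorem diag_const (c : Fin 6 → Fˣ) (h : Pres ω 1 c) : ∀ i j, c i = c j := by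
  obtain ⟨u', hu'⟩ := exists_codes ω hF hω c
  have hu : ∀ i, (c i : F) = g ω (code (u' i)) := fun i => by rw [hu' i]; rfl
  have hp := (pres_iff_presT ω hF hω 1 c (fun i => code (u' i)) hu).mp h
  have hp' : presT (fun i => i)
      (fun i => code ((![u' 0, u' 1, u' 2, u' 3, u' 4, u' 5] : Fin 6 → Fin 3) i)) := by
    rw [← eta6 u']
    exact hp
  have hall := D2 (u' 0) (u' 1) (u' 2) (u' 3) (u' 4) (u' 5) hp'
  rw [← eta6 u'] at hall
  intro i j
  rw [hu' i, hu' j, hall i j]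

theorem exists_iff_sign (σ : Equiv.Perm (Fin 6)) :
    (∃ c : Fin 6 → Fˣ, Pres ω σ c) ↔ Equiv.Perm.sign σ = 1 := by
  rw [← T3 σ, forceNat_eq, fastB, decide_eq_true_iff, digits_encP, fastEx_iff]
  constructor
  · rintro ⟨c, hc⟩
    have hc' := pres_smul ω σ c (c 0)⁻¹ hc
    obtain ⟨u', hu'⟩ := exists_codes ω hF hω (fun i => (c 0)⁻¹ * c i)
    have h0 : u' 0 = 0 := by
      apply gU_inj ω hF hω
      rw [← hu' 0, gU_zero ω hF hω]
      simp
    have hu : ∀ i, (((c 0)⁻¹ * c i : Fˣ) : F) = g ω (code (u' i)) := fun i => by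
      rw [hu' i]; rfl
    have hp := (pres_iff_presT ω hF hω σ _ (fun i => code (u' i)) hu).mp hc'
    refine ⟨(u' 1, u' 2, u' 3, u' 4, u' 5), ?_⟩
    have he : (fun i => code (u' i)) = ext5 (u' 1, u' 2, u' 3, u' 4, u' 5) := by
      rw [eta6 (fun i => code (u' i)), h0]
      rfl
    rw [← he]
    exact hp
  · rintro ⟨u, hu⟩
    have hne : ∀ i, g ω (ext5 u i) ≠ 0 := fun i h => ext5_ne u i ((g_eq_zero ω hF hω _).mp h)
    refine ⟨fun i => Units.mk0 (g ω (ext5 u i)) (hne i), ?_⟩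
    exact (pres_iff_presT ω hF hω σ _ (ext5 u) (fun i => rfl)).mpr hu

theorem pres_unique (σ : Equiv.Perm (Fin 6)) (c c' : Fin 6 → Fˣ) (h : Pres ω σ c)
    (h' : Pres ω σ c') (h0 : c 0 = c' 0) : c = c' := by
  have hr := diag_const ω hF hω _ (pres_ratio ω σ c c' h h')
  funext i
  have h1 := hr i 0
  rw [h0, mul_inv_cancel] at h1
  exact (mul_inv_eq_one.mp h1).symm

theorem card_aut :
    Nat.card {f : Equiv.Perm (Fin 6) × (Fin 6 → Fˣ) // Pres ω f.1 f.2} = 1080 := by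
  let e : {f : Equiv.Perm (Fin 6) × (Fin 6 → Fˣ) // Pres ω f.1 f.2} →
      (alternatingGroup (Fin 6)) × Fˣ := fun f =>
    (⟨f.1.1, Equiv.Perm.mem_alternatingGroup.mpr
      ((exists_iff_sign ω hF hω f.1.1).mp ⟨f.1.2, f.2⟩)⟩, f.1.2 0)
  have hbij : Function.Bijective e := by
    constructor
    · rintro ⟨⟨σ, c⟩, h⟩ ⟨⟨σ', c'⟩, h'⟩ heq
      simp only [e, Prod.mk.injEq, Subtype.mk.injEq] at heq
      obtain ⟨rfl, h0⟩ := heq
      have := pres_unique ω hF hω σ c c' h h' h0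
      subst this
      rfl
    · rintro ⟨⟨σ, hσ⟩, s⟩
      obtain ⟨c, hc⟩ := (exists_iff_sign ω hF hω σ).mpr (Equiv.Perm.mem_alternatingGroup.mp hσ)
      refine ⟨⟨(σ, fun i => (s * (c 0)⁻¹) * c i), pres_smul ω σ c _ hc⟩, ?_⟩
      simp [e]
  rw [Nat.card_congr (Equiv.ofBijective e hbij), Nat.card_prod, Nat.card_units,
    nat_card_alternatingGroup, Nat.card_eq_fintype_card, Nat.card_eq_fintype_card, hF]
  simp [Nat.factorial]

end

/-- The monomial automorphism group of the hexacode has order 1080: its diagonal part is the scalars and its permutation parts form the alternating group of degree 6. -/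
theorem result (F : Type*) [Field F] [Fintype F] [DecidableEq F] (hF : Fintype.card F = 4) (ω : F) (hω : ω ^ 2 + ω + 1 = 0) : Nat.card {f : Equiv.Perm (Fin 6) × (Fin 6 → Fˣ) // (∀ x ∈ Cfsg.hexacode F ω, Cfsg.monomialMap f.1 f.2 x ∈ Cfsg.hexacode F ω)} = 1080 ∧ (∀ c : Fin 6 → Fˣ, (∀ x ∈ Cfsg.hexacode F ω, Cfsg.monomialMap 1 c x ∈ Cfsg.hexacode F ω) → ∀ i j, c i = c j) ∧ {σ : Equiv.Perm (Fin 6) | ∃ c : Fin 6 → Fˣ, (∀ x ∈ Cfsg.hexacode F ω, Cfsg.monomialMap σ c x ∈ Cfsg.hexacode F ω)} = (alternatingGroup (Fin 6) : Set (Equiv.Perm (Fin 6))) := by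
  refine ⟨card_aut ω hF hω, fun c h => diag_const ω hF hω c h, ?_⟩
  ext σ
  rw [Set.mem_ofPred_eq, SetLike.mem_coe, Equiv.Perm.mem_alternatingGroup]
  exact exists_iff_sign ω hF hω σ

end Cfsg.Agent.S1611
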