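import Mathlib
import Cfsg.Statements.S1630
import Cfsg.Agent.Lib.Helper44.ThreeTransp
-- import your own Cfsg.Agent.* helpers here

set_option autoImplicit false
open scoped MatrixGroups
open Cfsg

namespace Cfsg.Agent.S1630

/-- The orthogonal transvections of the minus-type orthogonal group in dimension ≥ 6 over the field with two elements form a generating conjugacy class of 3-transpositions. -/
theorem result (m : ℕ) (hm : 2 ≤ m) : Cfsg.IsThreeTranspositionClass {g : ↥(Cfsg.isometryGroup (ZMod 2) (Cfsg.quadFormMinus m (ZMod 2) 1 1)) | (((g : GL ((Fin m ⊕ Fin m) ⊕ Fin 2) (ZMod 2)) : Matrix ((Fin m ⊕ Fin m) ⊕ Fin 2) ((Fin m ⊕ Fin m) ⊕ Fin 2) (ZMod 2)) - 1).rank = 1} := by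
  have h2 : (2 : ZMod 2) = 0 := by decide
  have hab : ∀ z₁ z₂ : ZMod 2, z₁ ^ 2 + 1 * z₁ * z₂ + 1 * z₂ ^ 2 = 0 → z₁ = 0 ∧ z₂ = 0 := by
    decide
  refine Cfsg.Agent.Lib.Helper44.isThreeTranspositionClass_refl
    (Cfsg.quadFormMinus m (ZMod 2) 1 1)
    (Cfsg.Agent.Lib.Helper14.minusQF m (ZMod 2) 1 1)
    (Cfsg.Agent.Lib.Helper14.minusQF_coe m (ZMod 2) 1 1)
    (Cfsg.Agent.Lib.Helper44.minusQF_nondegenerate_char2 m (ZMod 2) h2 1 1 hab) ?_
    ⟨Sum.inr 0⟩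
  rw [Fintype.card_sum, Fintype.card_sum, Fintype.card_fin, Fintype.card_fin]
  omega

end Cfsg.Agent.S1630
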