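import Cfsg.Statements.S1635
import Cfsg.Agent.Lib.Helper27.GolayCosets

set_option autoImplicit false
open Cfsg

namespace Cfsg.Agent.S1635

open Cfsg.Agent.Lib.Helper27.GC in
/-- Coset leaders of the length-24 code: a coset contains a unique word of weight ≤ 3, or else exactly six words of weight 4 and none lighter. -/
theorem result (w : Cfsg.GolayPt → ZMod 2) : ({v : Cfsg.GolayPt → ZMod 2 | hammingNorm v ≤ 4 ∧ w - v ∈ Cfsg.golayCode}.ncard = 1 ∧ ∃ v : Cfsg.GolayPt → ZMod 2, hammingNorm v ≤ 3 ∧ w - v ∈ Cfsg.golayCode) ∨ ({v : Cfsg.GolayPt → ZMod 2 | hammingNorm v ≤ 4 ∧ w - v ∈ Cfsg.golayCode}.ncard = 6 ∧ ∀ v : Cfsg.GolayPt → ZMod 2, w - v ∈ Cfsg.golayCode → hammingNorm v ≤ 4 → hammingNorm v = 4) := by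
  rcases coset_leaders w with ⟨v0, h0, hv0⟩ | ⟨v, hinj, hv, hcov⟩
  · left
    refine ⟨?_, v0, h0, hv0⟩
    have hS : {v : Cfsg.GolayPt → ZMod 2 | hammingNorm v ≤ 4 ∧ w - v ∈ Cfsg.golayCode} = {v0} := by
      ext v
      simp only [Set.mem_ofPred_eq, Set.mem_singleton_iff]
      constructor
      · rintro ⟨h4, hv⟩
        exact eq_of_coset hv hv0 (by omega)
      · rintro rfl
        exact ⟨by omega, hv0⟩
    rw [hS, Set.ncard_singleton]
  · right
    have hS : {u : Cfsg.GolayPt → ZMod 2 | hammingNorm u ≤ 4 ∧ w - u ∈ Cfsg.golayCode} =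
        Set.range v := by
      ext u
      simp only [Set.mem_ofPred_eq, Set.mem_range]
      constructor
      · rintro ⟨h4, hu⟩
        by_contra hne
        have hne' : ∀ i, u ≠ v i := fun i h => hne ⟨i, h.symm⟩
        have hu0 : u = 0 := by
          funext p
          by_contra hp
          obtain ⟨i, hi⟩ := hcov p
          exact hi (disjoint_of_coset hu (hv i).2 h4 (hv i).1.le (hne' i) p hp)
        have := eq_of_coset hu (hv 0).2 (by rw [hu0, hammingNorm_zero, (hv 0).1]; norm_num)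
        exact hne' 0 this
      · rintro ⟨i, rfl⟩
        exact ⟨(hv i).1.le, (hv i).2⟩
    refine ⟨?_, ?_⟩
    · rw [hS, Set.ncard_range_of_injective hinj]
      simp
    · intro u hu h4
      have hmem : u ∈ Set.range v := by
        rw [← hS]; exact ⟨h4, hu⟩
      obtain ⟨i, rfl⟩ := hmem
      exact (hv i).1

end Cfsg.Agent.S1635
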