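import Cfsg.Statements.S1638
import Cfsg.Agent.Lib.Helper27.SixPt

set_option autoImplicit false
open scoped Pointwise
open Cfsg

namespace Cfsg.Agent.S1638

open Cfsg.Agent.Lib.Helper7 Cfsg.Agent.Lib.Helper26 Cfsg.Agent.Lib.Helper27.SixPt in
/-- Fix two points p ≠ q and a pair s of two further points. Among the pairs avoiding p, q and disjoint from s, exactly 30 lie in an octad together with p, q and s and exactly 160 do not; and any two pairs other than s that meet s in equally many points and agree on that octad property are carried to one another by an element of the group of the length-24 code fixing p, q and s. -/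
theorem result (p q : Cfsg.GolayPt) (hpq : p ≠ q) (s : Finset Cfsg.GolayPt) (hs : (s.card = 2 ∧ p ∉ s ∧ q ∉ s)) : {t : Finset Cfsg.GolayPt | (t.card = 2 ∧ p ∉ t ∧ q ∉ t) ∧ Disjoint s t ∧ (∃ o ∈ Cfsg.octads, p ∈ o ∧ q ∈ o ∧ s ∪ t ⊆ o)}.ncard = 30 ∧ {t : Finset Cfsg.GolayPt | (t.card = 2 ∧ p ∉ t ∧ q ∉ t) ∧ Disjoint s t ∧ ¬ (∃ o ∈ Cfsg.octads, p ∈ o ∧ q ∈ o ∧ s ∪ t ⊆ o)}.ncard = 160 ∧ ∀ t t' : Finset Cfsg.GolayPt, (t.card = 2 ∧ p ∉ t ∧ q ∉ t) → (t'.card = 2 ∧ p ∉ t' ∧ q ∉ t') → t ≠ s → t' ≠ s → (s ∩ t).card = (s ∩ t').card → ((∃ o ∈ Cfsg.octads, p ∈ o ∧ q ∈ o ∧ s ∪ t ⊆ o) ↔ (∃ o ∈ Cfsg.octads, p ∈ o ∧ q ∈ o ∧ s ∪ t' ⊆ o)) → ∃ g : Equiv.Perm Cfsg.GolayPt, g ∈ Cfsg.M24 ∧ g p = p ∧ g q = q ∧ g • s = s ∧ g • t = t' := by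
  classical
  obtain ⟨hs2, hps, hqs⟩ := hs
  have hX : (insert p (insert q s)).card = 4 := by
    rw [Finset.card_insert_of_notMem, Finset.card_insert_of_notMem hqs, hs2]
    rw [Finset.mem_insert]
    exact fun h => h.elim hpq hps
  have hdisj : ∀ t : Finset Cfsg.GolayPt,
      Disjoint (insert p (insert q s)) t ↔ (p ∉ t ∧ q ∉ t ∧ Disjoint s t) := by
    intro t
    rw [Finset.disjoint_insert_left, Finset.disjoint_insert_left]
  have hsub : ∀ (t o : Finset Cfsg.GolayPt),
      insert p (insert q s) ∪ t ⊆ o ↔ (p ∈ o ∧ q ∈ o ∧ s ∪ t ⊆ o) := by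
    intro t o
    rw [Finset.insert_union, Finset.insert_union, Finset.insert_subset_iff,
      Finset.insert_subset_iff]
  refine ⟨?_, ?_, ?_⟩
  · rw [← pair_count_oct _ hX]
    congr 1
    ext t
    simp only [Set.mem_ofPred_eq, hdisj, hsub]
    tauto
  · rw [← pair_count_non _ hX]
    congr 1
    ext t
    simp only [Set.mem_ofPred_eq, hdisj, hsub]
    tauto
  · intro t t' ht ht' hts ht's hc hiff
    obtain ⟨ht2, hpt, hqt⟩ := ht
    obtain ⟨ht2', hpt', hqt'⟩ := ht'
    have hc1 : (s ∩ t).card ≤ 1 := by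
      by_contra hcon
      have h2 : 2 ≤ (s ∩ t).card := by omega
      have h3 : s ∩ t = s :=
        Finset.eq_of_subset_of_card_le Finset.inter_subset_left (by rw [hs2]; exact h2)
      have h4 : s ⊆ t := by
        rw [← h3]; exact Finset.inter_subset_right
      exact hts (Finset.eq_of_subset_of_card_le h4 (by rw [ht2, hs2])).symm
    rcases Nat.lt_or_ge (s ∩ t).card 1 with h0 | h1
    · -- disjoint pairs
      have hd : Disjoint s t := by
        rw [Finset.disjoint_iff_inter_eq_empty, ← Finset.card_eq_zero]; omega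
      have hd' : Disjoint s t' := by
        rw [Finset.disjoint_iff_inter_eq_empty, ← Finset.card_eq_zero]; omega
      obtain ⟨a, b, hab, rfl⟩ := Finset.card_eq_two.mp hs2
      obtain ⟨c, d, hcd, rfl⟩ := Finset.card_eq_two.mp ht2
      obtain ⟨c', d', hcd', rfl⟩ := Finset.card_eq_two.mp ht2'
      simp only [Finset.mem_insert, Finset.mem_singleton, not_or, Finset.disjoint_insert_left,
        Finset.disjoint_singleton_left] at hps hqs hpt hqt hpt' hqt' hd hd'
      have hL : ([p, q, a, b, c] ++ [d]).Nodup := by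
        simp only [List.cons_append, List.nil_append, List.nodup_cons, List.mem_cons,
          List.not_mem_nil, or_false, not_or, List.nodup_nil, and_true]
        tauto
      have hL' : ([p, q, a, b, c'] ++ [d']).Nodup := by
        simp only [List.cons_append, List.nil_append, List.nodup_cons, List.mem_cons,
          List.not_mem_nil, or_false, not_or, List.nodup_nil, and_true]
        tauto
      have hconv : ∀ (c d : Cfsg.GolayPt) (o : Finset Cfsg.GolayPt),
          ((∀ z ∈ [p, q, a, b, c], z ∈ o) ∧ d ∈ o) ↔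
            (p ∈ o ∧ q ∈ o ∧ ({a, b} : Finset Cfsg.GolayPt) ∪ {c, d} ⊆ o) := by
        intro c d o
        simp only [List.mem_cons, List.not_mem_nil, or_false, forall_eq_or_imp, forall_eq,
          Finset.union_subset_iff, Finset.insert_subset_iff, Finset.singleton_subset_iff]
        tauto
      have hiff' : (∃ o ∈ Cfsg.octads, (∀ z ∈ [p, q, a, b, c], z ∈ o) ∧ d ∈ o) ↔
          (∃ o ∈ Cfsg.octads, (∀ z ∈ [p, q, a, b, c'], z ∈ o) ∧ d' ∈ o) := by
        simp only [hconv]
        exact hiff
      obtain ⟨g, hg, hmap, hgd⟩ := six_trans hL hL' rfl rfl hiff'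
      simp only [List.map_cons, List.map_nil, List.cons.injEq, and_true] at hmap
      obtain ⟨hgp, hgq, hga, hgb, hgc⟩ := hmap
      refine ⟨g, hg, hgp, hgq, ?_, ?_⟩
      · rw [smul_pair, hga, hgb]
      · rw [smul_pair, hgc, hgd]
    · -- pairs meeting in one point
      have h1' : (s ∩ t).card = 1 := by omega
      have h1'' : (s ∩ t').card = 1 := by omega
      obtain ⟨a, ha⟩ := Finset.card_eq_one.mp h1'
      obtain ⟨a', ha'⟩ := Finset.card_eq_one.mp h1''
      have has : a ∈ s ∧ a ∈ t := by
        rw [← Finset.mem_inter, ha]; exact Finset.mem_singleton_self a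
      have has' : a' ∈ s ∧ a' ∈ t' := by
        rw [← Finset.mem_inter, ha']; exact Finset.mem_singleton_self a'
      obtain ⟨b, hb⟩ := Finset.card_eq_one.mp
        (show (s.erase a).card = 1 by rw [Finset.card_erase_of_mem has.1, hs2])
      obtain ⟨c, hc⟩ := Finset.card_eq_one.mp
        (show (t.erase a).card = 1 by rw [Finset.card_erase_of_mem has.2, ht2])
      obtain ⟨b', hb'⟩ := Finset.card_eq_one.mp
        (show (s.erase a').card = 1 by rw [Finset.card_erase_of_mem has'.1, hs2])
      obtain ⟨c', hc'⟩ := Finset.card_eq_one.mp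
        (show (t'.erase a').card = 1 by rw [Finset.card_erase_of_mem has'.2, ht2'])
      have hs_eq : s = {a, b} := by rw [← Finset.insert_erase has.1, hb]
      have ht_eq : t = {a, c} := by rw [← Finset.insert_erase has.2, hc]
      have hs_eq' : s = {a', b'} := by rw [← Finset.insert_erase has'.1, hb']
      have ht_eq' : t' = {a', c'} := by rw [← Finset.insert_erase has'.2, hc']
      have hba : b ≠ a ∧ b ∈ s := by
        rw [← Finset.mem_erase, hb]; exact Finset.mem_singleton_self b
      have hca : c ≠ a ∧ c ∈ t := by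
        rw [← Finset.mem_erase, hc]; exact Finset.mem_singleton_self c
      have hba' : b' ≠ a' ∧ b' ∈ s := by
        rw [← Finset.mem_erase, hb']; exact Finset.mem_singleton_self b'
      have hca' : c' ≠ a' ∧ c' ∈ t' := by
        rw [← Finset.mem_erase, hc']; exact Finset.mem_singleton_self c'
      have hcs : c ∉ s := fun h =>
        hca.1 (Finset.mem_singleton.mp (ha ▸ Finset.mem_inter.mpr ⟨h, hca.2⟩))
      have hcs' : c' ∉ s := fun h =>
        hca'.1 (Finset.mem_singleton.mp (ha' ▸ Finset.mem_inter.mpr ⟨h, hca'.2⟩))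
      have hL : [p, q, a, b, c].Nodup := by
        simp only [List.nodup_cons, List.mem_cons, List.not_mem_nil, or_false, not_or,
          List.nodup_nil, and_true]
        refine ⟨⟨hpq, ?_, ?_, ?_⟩, ⟨?_, ?_, ?_⟩, ⟨?_, ?_⟩, ?_, not_false⟩
        · rintro rfl; exact hps has.1
        · rintro rfl; exact hps hba.2
        · rintro rfl; exact hpt hca.2
        · rintro rfl; exact hqs has.1
        · rintro rfl; exact hqs hba.2
        · rintro rfl; exact hqt hca.2
        · exact hba.1.symm
        · exact hca.1.symm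
        · rintro rfl; exact hcs hba.2
      have hL' : [p, q, a', b', c'].Nodup := by
        simp only [List.nodup_cons, List.mem_cons, List.not_mem_nil, or_false, not_or,
          List.nodup_nil, and_true]
        refine ⟨⟨hpq, ?_, ?_, ?_⟩, ⟨?_, ?_, ?_⟩, ⟨?_, ?_⟩, ?_, not_false⟩
        · rintro rfl; exact hps has'.1
        · rintro rfl; exact hps hba'.2
        · rintro rfl; exact hpt' hca'.2
        · rintro rfl; exact hqs has'.1
        · rintro rfl; exact hqs hba'.2
        · rintro rfl; exact hqt' hca'.2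
        · exact hba'.1.symm
        · exact hca'.1.symm
        · rintro rfl; exact hcs' hba'.2
      obtain ⟨g, hg, hmap⟩ := M24_lists_map hL hL' rfl (by simp)
      simp only [List.map_cons, List.map_nil, List.cons.injEq, and_true] at hmap
      obtain ⟨hgp, hgq, hga, hgb, hgc⟩ := hmap
      refine ⟨g, hg, hgp, hgq, ?_, ?_⟩
      · conv_lhs => rw [hs_eq, smul_pair, hga, hgb]
        exact hs_eq'.symm
      · conv_lhs => rw [ht_eq, smul_pair, hga, hgc]
        exact ht_eq'.symm

end Cfsg.Agent.S1638
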