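import Mathlib
import Cfsg.Statements.S1643
import Cfsg.Agent.Lib.Helper26.L23Max

set_option autoImplicit false
open scoped Pointwise
open Cfsg

namespace Cfsg.Agent.S1643

open Cfsg.Agent.Lib.Helper7 Cfsg.Agent.Lib.Helper26

theorem coatom_L : IsCoatom (L23.subgroupOf Cfsg.M24) := by
  constructor
  · intro h
    rw [Subgroup.subgroupOf_eq_top] at h
    have h1 := Subgroup.card_le_of_le h
    rw [card_M24, card_L23] at h1
    omega
  · intro K' hK'
    have hL : L23 ≤ K'.map Cfsg.M24.subtype := by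
      intro g hg
      exact Subgroup.mem_map.mpr ⟨⟨g, L23_le_M24 hg⟩,
        hK'.le (Subgroup.mem_subgroupOf.mpr hg), rfl⟩
    have hM : K'.map Cfsg.M24.subtype ≤ Cfsg.M24 := by
      rintro g ⟨y, -, rfl⟩
      exact y.2
    rcases M24_max _ hL hM with h | h
    · exfalso
      apply hK'.not_ge
      intro x hx
      rw [Subgroup.mem_subgroupOf, ← h]
      exact Subgroup.mem_map_of_mem _ hx
    · rw [eq_top_iff]
      intro x _
      have hx : (x : Equiv.Perm Cfsg.GolayPt) ∈ K'.map Cfsg.M24.subtype := by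
        rw [h]
        exact x.2
      obtain ⟨y, hy, hyx⟩ := Subgroup.mem_map.mp hx
      have e : y = x := Subtype.ext hyx
      rwa [← e]

theorem coatom_F : IsCoatom ((F23.subgroupOf Cfsg.M24).subgroupOf
    (MulAction.stabilizer Cfsg.M24 (none : Cfsg.GolayPt))) := by
  constructor
  · intro h
    have hle : M23P ≤ F23 := by
      intro g hg
      have h1 : (⟨⟨g, hg.1⟩, hg.2⟩ : ↥(MulAction.stabilizer Cfsg.M24 (none : Cfsg.GolayPt))) ∈
          (F23.subgroupOf Cfsg.M24).subgroupOf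
            (MulAction.stabilizer Cfsg.M24 (none : Cfsg.GolayPt)) := by
        rw [h]
        exact Subgroup.mem_top _
      exact h1
    have h1 := Subgroup.card_le_of_le hle
    rw [card_M23P, card_F23] at h1
    omega
  · intro K' hK'
    have hF : F23 ≤ (K'.map (MulAction.stabilizer Cfsg.M24 (none : Cfsg.GolayPt)).subtype).map
        Cfsg.M24.subtype := by
      intro g hg
      have hgM := F23_le_M23P hg
      refine Subgroup.mem_map.mpr ⟨⟨g, hgM.1⟩, Subgroup.mem_map.mpr ⟨⟨⟨g, hgM.1⟩, hgM.2⟩, ?_, rfl⟩,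
        rfl⟩
      exact hK'.le hg
    have hM : (K'.map (MulAction.stabilizer Cfsg.M24 (none : Cfsg.GolayPt)).subtype).map
        Cfsg.M24.subtype ≤ M23P := by
      rintro g ⟨y, hy, rfl⟩
      obtain ⟨z, -, rfl⟩ := Subgroup.mem_map.mp hy
      exact ⟨z.1.2, z.2⟩
    rcases M23_max _ hF hM with h | h
    · exfalso
      apply hK'.not_ge
      intro x hx
      show ((x : ↥Cfsg.M24) : Equiv.Perm Cfsg.GolayPt) ∈ F23
      rw [← h]
      exact Subgroup.mem_map_of_mem _ (Subgroup.mem_map_of_mem _ hx)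
    · rw [eq_top_iff]
      intro x _
      have hx : ((x : ↥Cfsg.M24) : Equiv.Perm Cfsg.GolayPt) ∈
          (K'.map (MulAction.stabilizer Cfsg.M24 (none : Cfsg.GolayPt)).subtype).map
            Cfsg.M24.subtype := by
        rw [h]
        exact ⟨x.1.2, x.2⟩
      obtain ⟨y, hy, hyx⟩ := Subgroup.mem_map.mp hx
      obtain ⟨z, hz, hzy⟩ := Subgroup.mem_map.mp hy
      have e : z = x := Subtype.ext (Subtype.ext (by rw [← hyx, ← hzy]; rfl))
      rwa [← e]

/-- PSL(2, 23) = ⟨t ↦ t+1, t ↦ u t (u square), t ↦ −1/t⟩ is maximal of order 6072 in the group of the length-24 code, and its point stabiliser 23:11 (order 253) is maximal in the Mathieu group of degree 23. -/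
theorem result : (Subgroup.closure ({Equiv.optionCongr (Equiv.addRight (1 : ZMod 23)), Cfsg.projInv} ∪ {g : Equiv.Perm Cfsg.GolayPt | ∃ u : (ZMod 23)ˣ, IsSquare u ∧ g = Equiv.optionCongr (Units.mulLeft u)}) ≤ Cfsg.M24 ∧ Nat.card ↥(Subgroup.closure ({Equiv.optionCongr (Equiv.addRight (1 : ZMod 23)), Cfsg.projInv} ∪ {g : Equiv.Perm Cfsg.GolayPt | ∃ u : (ZMod 23)ˣ, IsSquare u ∧ g = Equiv.optionCongr (Units.mulLeft u)})) = 6072 ∧ IsCoatom ((Subgroup.closure ({Equiv.optionCongr (Equiv.addRight (1 : ZMod 23)), Cfsg.projInv} ∪ {g : Equiv.Perm Cfsg.GolayPt | ∃ u : (ZMod 23)ˣ, IsSquare u ∧ g = Equiv.optionCongr (Units.mulLeft u)})).subgroupOf Cfsg.M24)) ∧ (Subgroup.closure ({Equiv.optionCongr (Equiv.addRight (1 : ZMod 23))} ∪ {g : Equiv.Perm Cfsg.GolayPt | ∃ u : (ZMod 23)ˣ, IsSquare u ∧ g = Equiv.optionCongr (Units.mulLeft u)}) ≤ Cfsg.M24 ⊓ MulAction.stabilizer (Equiv.Perm Cfsg.GolayPt) (none : Cfsg.GolayPt) ∧ Nat.card ↥(Subgroup.closure ({Equiv.optionCongr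 (Equiv.addRight (1 : ZMod 23))} ∪ {g : Equiv.Perm Cfsg.GolayPt | ∃ u : (ZMod 23)ˣ, IsSquare u ∧ g = Equiv.optionCongr (Units.mulLeft u)})) = 253 ∧ IsCoatom (((Subgroup.closure ({Equiv.optionCongr (Equiv.addRight (1 : ZMod 23))} ∪ {g : Equiv.Perm Cfsg.GolayPt | ∃ u : (ZMod 23)ˣ, IsSquare u ∧ g = Equiv.optionCongr (Units.mulLeft u)})).subgroupOf Cfsg.M24).subgroupOf (MulAction.stabilizer Cfsg.M24 (none : Cfsg.GolayPt)))) := by
  rw [closure_L_eq, closure_F_eq]
  exact ⟨⟨L23_le_M24, card_L23, coatom_L⟩, ⟨F23_le_M23P, card_F23, coatom_F⟩⟩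

end Cfsg.Agent.S1643
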