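import Cfsg.Statements.S1666
import Cfsg.Agent.Lib.Helper26.HSRank3
import Cfsg.Agent.Lib.Helper26.HSLeech

set_option autoImplicit false
open Cfsg

namespace Cfsg.Agent.S1666

open Cfsg.Agent.Lib Cfsg.Agent.Lib.Helper26 in
/-- Recognition of the Higman–Sims group as a rank 3 permutation group: a transitive permutation group on 100 points in which the stabiliser of a point is isomorphic to the Mathieu group M₂₂ and has two further orbits, of sizes 22 and 77, is isomorphic to the Higman–Sims group. -/
theorem result {Ω : Type*} [Fintype Ω] [DecidableEq Ω] (hΩ : Fintype.card Ω = 100) (G : Subgroup (Equiv.Perm Ω)) [MulAction.IsPretransitive G Ω] (a : Ω)  (e : MulAction.stabilizer G a ≃* Cfsg.Spor.M22) (b c : Ω) (hb : (MulAction.orbit (MulAction.stabilizer G a) b).ncard = 22) (hc : (MulAction.orbit (MulAction.stabilizer G a) c).ncard = 77) : Cfsg.Spor.IsoHS G := by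
  classical
  have htr : ∀ x y : Ω, ∃ g ∈ G, g x = y := by
    intro x y
    obtain ⟨g, hg⟩ := MulAction.exists_smul_eq (↥G) x y
    exact ⟨g.1, g.2, hg⟩
  have hb' : (orbF (stabP G a) b).card = 22 := by
    rw [card_orbF_stabP_eq, hb]
  have hc' : (orbF (stabP G a) c).card = 77 := by
    rw [card_orbF_stabP_eq, hc]
  have hR := rank3_R3 hΩ G htr a e b c hb' hc'
  refine isoHS_of_srg (orbGraph G htr) hR.isSRG (fun g x y => hR.inv' g x y) ?_ ?_
  · intro g hg
    apply Subtype.ext
    apply Equiv.ext
    exact hg
  · have h1 := card_stabP_of_trans G htr a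
    rw [hΩ, card_stabP_m22 G a e] at h1
    omega

end Cfsg.Agent.S1666
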