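import Mathlib
import Cfsg.Statements.S1681
import Cfsg.Agent.Lib.Helper56.TCCox
import Cfsg.Agent.Lib.Helper56.Suz22880.Cert
-- import your own Cfsg.Agent.* helpers here

set_option autoImplicit false
open Cfsg

namespace Cfsg.Agent.S1681

open Cfsg.Agent.Lib.Helper56.TC Cfsg.Agent.Lib.Helper56.Suz22880 in
/-- In the presented sporadic Suzuki group (generators a, …, g), the subgroup generated by the images of a, b, c, d, f, g has index 22880. -/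
theorem result : (((Subgroup.closure ({Cfsg.Spor.Suz.a, Cfsg.Spor.Suz.b, Cfsg.Spor.Suz.c, Cfsg.Spor.Suz.d, Cfsg.Spor.Suz.f, Cfsg.Spor.Suz.g} : Set (FreeGroup Cfsg.Spor.Suz.Gen))).map (PresentedGroup.mk (Cfsg.Spor.coxRelators Cfsg.Spor.Suz.edges ∪ {r | r ∈ Cfsg.Spor.Suz.extra})))).index = 22880 := by
  have hS : (({Cfsg.Spor.Suz.a, Cfsg.Spor.Suz.b, Cfsg.Spor.Suz.c, Cfsg.Spor.Suz.d, Cfsg.Spor.Suz.f, Cfsg.Spor.Suz.g} : Set (FreeGroup Cfsg.Spor.Suz.Gen))) = {r | r ∈ [Cfsg.Spor.Suz.a, Cfsg.Spor.Suz.b, Cfsg.Spor.Suz.c, Cfsg.Spor.Suz.d, Cfsg.Spor.Suz.f, Cfsg.Spor.Suz.g]} := by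
    ext r; simp
  rw [hS]
  obtain ⟨h1, h2⟩ := cox_main Cfsg.Spor.Suz.edges Cfsg.Spor.Suz.extra T [Cfsg.Spor.Suz.Gen.a, Cfsg.Spor.Suz.Gen.b, Cfsg.Spor.Suz.Gen.c, Cfsg.Spor.Suz.Gen.d, Cfsg.Spor.Suz.Gen.e, Cfsg.Spor.Suz.Gen.f, Cfsg.Spor.Suz.Gen.g] [Cfsg.Spor.Suz.a, Cfsg.Spor.Suz.b, Cfsg.Spor.Suz.c, Cfsg.Spor.Suz.d, Cfsg.Spor.Suz.f, Cfsg.Spor.Suz.g] cert
    (by decide +kernel) (by decide) (by intro x; cases x <;> decide) (by decide)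
    (fun l _ => rfl) (by decide +kernel) (by decide +kernel)
  exact h1

end Cfsg.Agent.S1681
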