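import Cfsg.Statements.S1717
import Mathlib
-- import your own Cfsg.Agent.* helpers here

set_option autoImplicit false
open Cfsg

namespace Cfsg.Agent.S1717

open Matrix

/-- Index embedding of the lower right 3 by 3 block. -/
def up (i : Fin 3) : Fin 5 := ⟨i.val + 2, by omega⟩

theorem up_injective : Function.Injective up := by
  intro i j h
  simp only [up, Fin.mk.injEq] at h
  exact Fin.ext (by omega)

theorem up_ne_zero (i : Fin 3) : up i ≠ 0 := by
  intro h
  have := congrArg Fin.val h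
  simp [up] at this

theorem up_ne_one (i : Fin 3) : up i ≠ 1 := by
  intro h
  have := congrArg Fin.val h
  simp [up] at this

/-- Consequences of commuting with a transvection. -/
theorem comm_transvection {R : Type*} [CommRing R] (X : Matrix (Fin 5) (Fin 5) R) (i j : Fin 5)
    (h : X * transvection i j 1 = transvection i j 1 * X) :
    (∀ b, b ≠ j → X j b = 0) ∧ (∀ a, a ≠ i → X a i = 0) ∧ X i i = X j j := by
  refine ⟨?_, ?_, ?_⟩
  · intro b hb
    have h1 := congrFun (congrFun h i) b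
    rw [mul_transvection_apply_of_ne _ _ _ _ hb, transvection_mul_apply_same, one_mul] at h1
    exact left_eq_add.mp h1
  · intro a ha
    have h1 := congrFun (congrFun h a) j
    rw [mul_transvection_apply_same, transvection_mul_apply_of_ne _ _ _ _ ha, one_mul] at h1
    exact add_eq_left.mp h1
  · have h1 := congrFun (congrFun h i) j
    rw [mul_transvection_apply_same, transvection_mul_apply_same, one_mul, one_mul] at h1
    exact add_left_cancel h1

/-- The matrix of an element commuting with `s` commutes with the transvection. -/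
theorem mat_comm (s : Matrix.SpecialLinearGroup (Fin 5) (ZMod 2))
    (hs : (s : Matrix (Fin 5) (Fin 5) (ZMod 2)) = Matrix.transvection 0 1 1)
    (g : Matrix.SpecialLinearGroup (Fin 5) (ZMod 2))
    (hg : g ∈ Subgroup.centralizer ({s} : Set (Matrix.SpecialLinearGroup (Fin 5) (ZMod 2)))) :
    (g : Matrix (Fin 5) (Fin 5) (ZMod 2)) * transvection 0 1 1 =
      transvection 0 1 1 * (g : Matrix (Fin 5) (Fin 5) (ZMod 2)) := by
  have h := Subgroup.mem_centralizer_iff.mp hg s (Set.mem_singleton s)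
  have h' := congrArg (fun a : Matrix.SpecialLinearGroup (Fin 5) (ZMod 2) =>
    (a : Matrix (Fin 5) (Fin 5) (ZMod 2))) h
  simp only [Matrix.SpecialLinearGroup.coe_mul, hs] at h'
  exact h'.symm

/-- Shape of the matrices centralizing `s`. -/
theorem cent_facts (s : Matrix.SpecialLinearGroup (Fin 5) (ZMod 2))
    (hs : (s : Matrix (Fin 5) (Fin 5) (ZMod 2)) = Matrix.transvection 0 1 1)
    (g : Matrix.SpecialLinearGroup (Fin 5) (ZMod 2))
    (hg : g ∈ Subgroup.centralizer ({s} : Set (Matrix.SpecialLinearGroup (Fin 5) (ZMod 2)))) :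
    (∀ b, b ≠ 1 → (g : Matrix (Fin 5) (Fin 5) (ZMod 2)) 1 b = 0) ∧
    (∀ a, a ≠ 0 → (g : Matrix (Fin 5) (Fin 5) (ZMod 2)) a 0 = 0) ∧
    (g : Matrix (Fin 5) (Fin 5) (ZMod 2)) 0 0 = 1 ∧
    (g : Matrix (Fin 5) (Fin 5) (ZMod 2)) 1 1 = 1 := by
  obtain ⟨h1, h2, h3⟩ := comm_transvection _ 0 1 (mat_comm s hs g hg)
  have h00 : (g : Matrix (Fin 5) (Fin 5) (ZMod 2)) 0 0 = 1 := by
    by_contra hne
    have h0 : (g : Matrix (Fin 5) (Fin 5) (ZMod 2)) 0 0 = 0 := by
      have hz : ∀ a : ZMod 2, a ≠ 1 → a = 0 := by decide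
      exact hz _ hne
    have hdet : det (g : Matrix (Fin 5) (Fin 5) (ZMod 2)) = 0 := by
      apply det_eq_zero_of_column_eq_zero 0
      intro i
      by_cases hi : i = 0
      · rw [hi]
        exact h0
      · exact h2 i hi
    rw [g.det_coe] at hdet
    exact one_ne_zero hdet
  exact ⟨h1, h2, h00, h3 ▸ h00⟩

/-- The lower right 3 by 3 block, as a monoid homomorphism on the centralizer of `s`. -/
def blockHom (s : Matrix.SpecialLinearGroup (Fin 5) (ZMod 2))
    (hs : (s : Matrix (Fin 5) (Fin 5) (ZMod 2)) = Matrix.transvection 0 1 1) :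
    ↥(Subgroup.centralizer ({s} : Set (Matrix.SpecialLinearGroup (Fin 5) (ZMod 2)))) →*
      Matrix (Fin 3) (Fin 3) (ZMod 2) where
  toFun g := ((g : Matrix.SpecialLinearGroup (Fin 5) (ZMod 2)) :
    Matrix (Fin 5) (Fin 5) (ZMod 2)).submatrix up up
  map_one' := by
    rw [Subgroup.coe_one, Matrix.SpecialLinearGroup.coe_one]
    exact Matrix.submatrix_one up up_injective
  map_mul' g h := by
    ext i j
    have hg0 := (cent_facts s hs g g.2).2.1 (up i) (up_ne_zero i)
    have hh1 := (cent_facts s hs h h.2).1 (up j) (up_ne_one j)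
    rw [Subgroup.coe_mul, Matrix.SpecialLinearGroup.coe_mul, submatrix_apply, mul_apply,
      mul_apply, Fin.sum_univ_five, Fin.sum_univ_three, hg0, hh1]
    simp only [submatrix_apply, zero_mul, mul_zero, zero_add]
    rfl

theorem blockHom_apply (s : Matrix.SpecialLinearGroup (Fin 5) (ZMod 2))
    (hs : (s : Matrix (Fin 5) (Fin 5) (ZMod 2)) = Matrix.transvection 0 1 1)
    (g : ↥(Subgroup.centralizer ({s} : Set (Matrix.SpecialLinearGroup (Fin 5) (ZMod 2))))) :
    blockHom s hs g = ((g : Matrix.SpecialLinearGroup (Fin 5) (ZMod 2)) :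
      Matrix (Fin 5) (Fin 5) (ZMod 2)).submatrix up up := rfl

theorem sq_shape : ∀ a1 a2 a3 a4 b2 b3 b4 : ZMod 2,
    (!![1, a1, a2, a3, a4; 0, 1, 0, 0, 0; 0, b2, 1, 0, 0; 0, b3, 0, 1, 0; 0, b4, 0, 0, 1] :
      Matrix (Fin 5) (Fin 5) (ZMod 2)) *
    (!![1, a1, a2, a3, a4; 0, 1, 0, 0, 0; 0, b2, 1, 0, 0; 0, b3, 0, 1, 0; 0, b4, 0, 0, 1] :
      Matrix (Fin 5) (Fin 5) (ZMod 2)) =
    !![1, a2 * b2 + a3 * b3 + a4 * b4, 0, 0, 0; 0, 1, 0, 0, 0; 0, 0, 1, 0, 0; 0, 0, 0, 1, 0;
      0, 0, 0, 0, 1] := by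
  decide

theorem sq_shape' : ∀ c : ZMod 2,
    (!![1, c, 0, 0, 0; 0, 1, 0, 0, 0; 0, 0, 1, 0, 0; 0, 0, 0, 1, 0; 0, 0, 0, 0, 1] :
      Matrix (Fin 5) (Fin 5) (ZMod 2)) *
    (!![1, c, 0, 0, 0; 0, 1, 0, 0, 0; 0, 0, 1, 0, 0; 0, 0, 0, 1, 0; 0, 0, 0, 0, 1] :
      Matrix (Fin 5) (Fin 5) (ZMod 2)) = 1 := by
  decide

/-- A matrix of the shape of the kernel of the block map has fourth power 1. -/
theorem mat_pow_four (X : Matrix (Fin 5) (Fin 5) (ZMod 2))
    (r1 : ∀ b, b ≠ 1 → X 1 b = 0) (c0 : ∀ a, a ≠ 0 → X a 0 = 0) (h00 : X 0 0 = 1)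
    (h11 : X 1 1 = 1)
    (hb : ∀ i j : Fin 3, X (up i) (up j) = (1 : Matrix (Fin 3) (Fin 3) (ZMod 2)) i j) :
    X ^ 4 = 1 := by
  have hmat : ∃ a1 a2 a3 a4 b2 b3 b4 : ZMod 2, X =
      !![1, a1, a2, a3, a4; 0, 1, 0, 0, 0; 0, b2, 1, 0, 0; 0, b3, 0, 1, 0; 0, b4, 0, 0, 1] := by
    refine ⟨X 0 1, X 0 2, X 0 3, X 0 4, X 2 1, X 3 1, X 4 1, ?_⟩
    have e10 : X 1 0 = 0 := c0 1 (by decide)
    have e20 : X 2 0 = 0 := c0 2 (by decide)
    have e30 : X 3 0 = 0 := c0 3 (by decide)
    have e40 : X 4 0 = 0 := c0 4 (by decide)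
    have e12 : X 1 2 = 0 := r1 2 (by decide)
    have e13 : X 1 3 = 0 := r1 3 (by decide)
    have e14 : X 1 4 = 0 := r1 4 (by decide)
    have e22 : X 2 2 = 1 := hb 0 0
    have e23 : X 2 3 = 0 := hb 0 1
    have e24 : X 2 4 = 0 := hb 0 2
    have e32 : X 3 2 = 0 := hb 1 0
    have e33 : X 3 3 = 1 := hb 1 1
    have e34 : X 3 4 = 0 := hb 1 2
    have e42 : X 4 2 = 0 := hb 2 0
    have e43 : X 4 3 = 0 := hb 2 1
    have e44 : X 4 4 = 1 := hb 2 2
    ext i j
    fin_cases i <;> fin_cases j <;>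
      simp [h00, h11, e10, e20, e30, e40, e12, e13, e14, e22, e23, e24, e32, e33, e34, e42,
        e43, e44]
  obtain ⟨a1, a2, a3, a4, b2, b3, b4, hX⟩ := hmat
  have h4 : X ^ 4 = (X * X) * (X * X) := by
    simp only [pow_succ, pow_zero, one_mul, mul_assoc]
  rw [h4, hX, sq_shape, sq_shape']

/-- Elements of the kernel of the block map have fourth power 1. -/
theorem ker_pow_four (s : Matrix.SpecialLinearGroup (Fin 5) (ZMod 2))
    (hs : (s : Matrix (Fin 5) (Fin 5) (ZMod 2)) = Matrix.transvection 0 1 1)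
    (g : ↥(Subgroup.centralizer ({s} : Set (Matrix.SpecialLinearGroup (Fin 5) (ZMod 2)))))
    (hg : g ∈ (blockHom s hs).ker) : g ^ 4 = 1 := by
  obtain ⟨r1, c0, h00, h11⟩ := cent_facts s hs g g.2
  rw [MonoidHom.mem_ker, blockHom_apply] at hg
  have hb : ∀ i j : Fin 3, ((g : Matrix.SpecialLinearGroup (Fin 5) (ZMod 2)) :
      Matrix (Fin 5) (Fin 5) (ZMod 2)) (up i) (up j) = (1 : Matrix (Fin 3) (Fin 3) (ZMod 2)) i j :=
    fun i j => congrFun (congrFun hg i) j
  have h4 := mat_pow_four _ r1 c0 h00 h11 hb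
  apply Subtype.ext
  apply Subtype.ext
  rw [Subgroup.coe_pow, Matrix.SpecialLinearGroup.coe_pow, h4]
  rfl

/-- A transvection as an element of the special linear group. -/
def tvSL (i j : Fin 5) (hij : i ≠ j) : Matrix.SpecialLinearGroup (Fin 5) (ZMod 2) :=
  ⟨transvection i j 1, det_transvection_of_ne i j hij 1⟩

theorem tvSL_coe (i j : Fin 5) (hij : i ≠ j) :
    (tvSL i j hij : Matrix (Fin 5) (Fin 5) (ZMod 2)) = transvection i j 1 := rfl

/-- Commutation with the kernel of the block map gives commutation with transvections. -/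
theorem comm_of_ker (s : Matrix.SpecialLinearGroup (Fin 5) (ZMod 2))
    (hs : (s : Matrix (Fin 5) (Fin 5) (ZMod 2)) = Matrix.transvection 0 1 1)
    (x : ↥(Subgroup.centralizer ({s} : Set (Matrix.SpecialLinearGroup (Fin 5) (ZMod 2)))))
    (hx : ∀ r ∈ (blockHom s hs).ker, x * r = r * x) (i j : Fin 5) (hij : i ≠ j)
    (hc : transvection i j (1 : ZMod 2) * transvection 0 1 1 =
      transvection 0 1 1 * transvection i j 1)
    (hb : (transvection i j (1 : ZMod 2)).submatrix up up = 1) :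
    ((x : Matrix.SpecialLinearGroup (Fin 5) (ZMod 2)) : Matrix (Fin 5) (Fin 5) (ZMod 2)) *
        transvection i j 1 =
      transvection i j 1 *
        ((x : Matrix.SpecialLinearGroup (Fin 5) (ZMod 2)) : Matrix (Fin 5) (Fin 5) (ZMod 2)) := by
  have ht : tvSL i j hij ∈
      Subgroup.centralizer ({s} : Set (Matrix.SpecialLinearGroup (Fin 5) (ZMod 2))) := by
    rw [Subgroup.mem_centralizer_iff]
    intro y hy
    rw [Set.mem_singleton_iff] at hy
    subst hy
    apply Subtype.ext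
    rw [Matrix.SpecialLinearGroup.coe_mul, Matrix.SpecialLinearGroup.coe_mul, hs, tvSL_coe]
    exact hc.symm
  have hker : (⟨tvSL i j hij, ht⟩ :
      ↥(Subgroup.centralizer ({s} : Set (Matrix.SpecialLinearGroup (Fin 5) (ZMod 2))))) ∈
      (blockHom s hs).ker := by
    rw [MonoidHom.mem_ker, blockHom_apply]
    exact hb
  have h := hx _ hker
  have h' := congrArg (fun a :
      ↥(Subgroup.centralizer ({s} : Set (Matrix.SpecialLinearGroup (Fin 5) (ZMod 2)))) =>
    ((a : Matrix.SpecialLinearGroup (Fin 5) (ZMod 2)) : Matrix (Fin 5) (Fin 5) (ZMod 2))) h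
  exact h'

theorem tv_entries : (transvection 0 1 1 : Matrix (Fin 5) (Fin 5) (ZMod 2)) =
    !![1, 1, 0, 0, 0; 0, 1, 0, 0, 0; 0, 0, 1, 0, 0; 0, 0, 0, 1, 0; 0, 0, 0, 0, 1] := by
  decide

theorem tv01_block :
    (transvection 0 1 1 : Matrix (Fin 5) (Fin 5) (ZMod 2)).submatrix up up = 1 := by
  decide

/-- An element of the centralizer of `s` commuting with the kernel of the block map is `1` or
`s`. -/
theorem centralizer_ker (s : Matrix.SpecialLinearGroup (Fin 5) (ZMod 2))
    (hs : (s : Matrix (Fin 5) (Fin 5) (ZMod 2)) = Matrix.transvection 0 1 1)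
    (x : ↥(Subgroup.centralizer ({s} : Set (Matrix.SpecialLinearGroup (Fin 5) (ZMod 2)))))
    (hx : ∀ r ∈ (blockHom s hs).ker, x * r = r * x) :
    x = 1 ∨ (x : Matrix.SpecialLinearGroup (Fin 5) (ZMod 2)) = s := by
  obtain ⟨r1, c0, h00, h11⟩ := cent_facts s hs x x.2
  obtain ⟨r2, -, d2⟩ := comm_transvection _ 0 2
    (comm_of_ker s hs x hx 0 2 (by decide) (by decide) (by decide))
  obtain ⟨r3, -, d3⟩ := comm_transvection _ 0 3
    (comm_of_ker s hs x hx 0 3 (by decide) (by decide) (by decide))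
  obtain ⟨r4, -, d4⟩ := comm_transvection _ 0 4
    (comm_of_ker s hs x hx 0 4 (by decide) (by decide) (by decide))
  obtain ⟨-, c2, -⟩ := comm_transvection _ 2 1
    (comm_of_ker s hs x hx 2 1 (by decide) (by decide) (by decide))
  obtain ⟨-, c3, -⟩ := comm_transvection _ 3 1
    (comm_of_ker s hs x hx 3 1 (by decide) (by decide) (by decide))
  obtain ⟨-, c4, -⟩ := comm_transvection _ 4 1
    (comm_of_ker s hs x hx 4 1 (by decide) (by decide) (by decide))
  generalize hXdef : ((x : Matrix.SpecialLinearGroup (Fin 5) (ZMod 2)) :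
      Matrix (Fin 5) (Fin 5) (ZMod 2)) = X at r1 c0 h00 h11 r2 d2 r3 d3 r4 d4 c2 c3 c4
  have e02 : X 0 2 = 0 := c2 0 (by decide)
  have e03 : X 0 3 = 0 := c3 0 (by decide)
  have e04 : X 0 4 = 0 := c4 0 (by decide)
  have e10 : X 1 0 = 0 := r1 0 (by decide)
  have e12 : X 1 2 = 0 := r1 2 (by decide)
  have e13 : X 1 3 = 0 := r1 3 (by decide)
  have e14 : X 1 4 = 0 := r1 4 (by decide)
  have e20 : X 2 0 = 0 := r2 0 (by decide)
  have e21 : X 2 1 = 0 := r2 1 (by decide)
  have e22 : X 2 2 = 1 := d2 ▸ h00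
  have e23 : X 2 3 = 0 := r2 3 (by decide)
  have e24 : X 2 4 = 0 := r2 4 (by decide)
  have e30 : X 3 0 = 0 := r3 0 (by decide)
  have e31 : X 3 1 = 0 := r3 1 (by decide)
  have e32 : X 3 2 = 0 := r3 2 (by decide)
  have e33 : X 3 3 = 1 := d3 ▸ h00
  have e34 : X 3 4 = 0 := r3 4 (by decide)
  have e40 : X 4 0 = 0 := r4 0 (by decide)
  have e41 : X 4 1 = 0 := r4 1 (by decide)
  have e42 : X 4 2 = 0 := r4 2 (by decide)
  have e43 : X 4 3 = 0 := r4 3 (by decide)
  have e44 : X 4 4 = 1 := d4 ▸ h00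
  have hcases : X 0 1 = 0 ∨ X 0 1 = 1 := by
    have hz : ∀ a : ZMod 2, a = 0 ∨ a = 1 := by decide
    exact hz _
  rcases hcases with h01 | h01
  · left
    apply Subtype.ext
    apply Subtype.ext
    rw [hXdef, Subgroup.coe_one, Matrix.SpecialLinearGroup.coe_one]
    ext i j
    fin_cases i <;> fin_cases j <;>
      simp [h00, h11, h01, e02, e03, e04, e10, e12, e13, e14, e20, e21, e22, e23, e24, e30, e31,
        e32, e33, e34, e40, e41, e42, e43, e44]
  · right
    apply Subtype.ext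
    rw [hXdef, hs, tv_entries]
    ext i j
    fin_cases i <;> fin_cases j <;>
      simp [h00, h11, h01, e02, e03, e04, e10, e12, e13, e14, e20, e21, e22, e23, e24, e30, e31,
        e32, e33, e34, e40, e41, e42, e43, e44]

/-- Let G be a finite group with an involution z whose centraliser C is isomorphic to the centraliser of a transvection of SL(5, 2). Then a Sylow 2-subgroup of C, viewed in G, is a Sylow 2-subgroup of G (its index in G is odd). -/
theorem result {G : Type*} [Group G] [Finite G] (s : Matrix.SpecialLinearGroup (Fin 5) (ZMod 2)) (hs : (s : Matrix (Fin 5) (Fin 5) (ZMod 2)) = Matrix.transvection 0 1 1) (z : G) (hz : orderOf z = 2) (e : (Subgroup.centralizer ({z} : Set G)) ≃* Subgroup.centralizer ({s} : Set (Matrix.SpecialLinearGroup (Fin 5) (ZMod 2)))) (T : Sylow 2 (Subgroup.centralizer ({z} : Set G))) : ¬ 2 ∣ ((T : Subgroup (Subgroup.centralizer ({z} : Set G))).map (Subgroup.subtype (Subgroup.centralizer ({z} : Set G)))).index := by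
  classical
  have hp2 : Fact (Nat.Prime 2) := ⟨Nat.prime_two⟩
  have hzC : z ∈ Subgroup.centralizer ({z} : Set G) :=
    Subgroup.mem_centralizer_iff.mpr (by
      intro x hx
      rw [Set.mem_singleton_iff] at hx
      rw [hx])
  have hzcen : ∀ c : ↥(Subgroup.centralizer ({z} : Set G)),
      (⟨z, hzC⟩ : ↥(Subgroup.centralizer ({z} : Set G))) * c = c * ⟨z, hzC⟩ := by
    intro c
    apply Subtype.ext
    exact Subgroup.mem_centralizer_iff.mp c.2 z (Set.mem_singleton z)
  have hz1 : (⟨z, hzC⟩ : ↥(Subgroup.centralizer ({z} : Set G))) ≠ 1 := by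
    intro h
    have h' : z = 1 := congrArg Subtype.val h
    rw [h', orderOf_one] at hz
    omega
  -- the preimage of the kernel of the block map: a normal 2-subgroup of the centralizer
  have hRp : IsPGroup 2 ↥(((blockHom s hs).ker).comap e.toMonoidHom) := by
    intro r
    refine ⟨2, ?_⟩
    apply Subtype.ext
    apply e.injective
    have h4 := ker_pow_four s hs (e r.1) r.2
    rw [Subgroup.coe_pow, map_pow, Subgroup.coe_one, map_one]
    exact h4
  have hRT : ((blockHom s hs).ker).comap e.toMonoidHom ≤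
      (T : Subgroup ↥(Subgroup.centralizer ({z} : Set G))) :=
    hRp.le_sylow_of_normal T
  have key : ∀ x : ↥(Subgroup.centralizer ({z} : Set G)), x ≠ 1 →
      (∀ y ∈ ((blockHom s hs).ker).comap e.toMonoidHom, x * y = y * x) →
      ((e x : ↥(Subgroup.centralizer ({s} : Set (Matrix.SpecialLinearGroup (Fin 5) (ZMod 2))))) :
        Matrix.SpecialLinearGroup (Fin 5) (ZMod 2)) = s := by
    intro x hx1 hxc
    have h0 := centralizer_ker s hs (e x) (by
      intro r hr
      have h1 : e.symm r ∈ ((blockHom s hs).ker).comap e.toMonoidHom := by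
        rw [Subgroup.mem_comap]
        change e (e.symm r) ∈ (blockHom s hs).ker
        rw [MulEquiv.apply_symm_apply]
        exact hr
      have h2 := hxc _ h1
      have h3 := congrArg e h2
      rw [map_mul, map_mul, MulEquiv.apply_symm_apply] at h3
      exact h3)
    rcases h0 with h | h
    · exfalso
      apply hx1
      apply e.injective
      rw [h, map_one]
    · exact h
  have hezs := key ⟨z, hzC⟩ hz1 (fun y _ => hzcen y)
  have hstar : ∀ x : ↥(Subgroup.centralizer ({z} : Set G)), x ≠ 1 →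
      (∀ y ∈ (T : Subgroup ↥(Subgroup.centralizer ({z} : Set G))), x * y = y * x) →
      x = ⟨z, hzC⟩ := by
    intro x hx1 hxT
    have h1 := key x hx1 (fun y hy => hxT y (hRT hy))
    apply e.injective
    apply Subtype.ext
    rw [h1, hezs]
  -- z lies in T
  have hzT : (⟨z, hzC⟩ : ↥(Subgroup.centralizer ({z} : Set G))) ∈
      (T : Subgroup ↥(Subgroup.centralizer ({z} : Set G))) := by
    apply hRT
    rw [Subgroup.mem_comap]
    change e ⟨z, hzC⟩ ∈ (blockHom s hs).ker
    rw [MonoidHom.mem_ker, blockHom_apply, hezs, hs]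
    exact tv01_block
  -- a Sylow 2-subgroup of G containing the image of T
  have hT'p : IsPGroup 2 ↥((T : Subgroup ↥(Subgroup.centralizer ({z} : Set G))).map
      (Subgroup.subtype (Subgroup.centralizer ({z} : Set G)))) :=
    T.isPGroup'.map _
  obtain ⟨S, hTS⟩ := hT'p.exists_le_sylow
  have hSC : (S : Subgroup G).subgroupOf (Subgroup.centralizer ({z} : Set G)) =
      (T : Subgroup ↥(Subgroup.centralizer ({z} : Set G))) := by
    apply T.is_maximal' (S.isPGroup'.comap_subtype)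
    intro x hx
    change (x : G) ∈ (S : Subgroup G)
    exact hTS ⟨x, hx, rfl⟩
  by_cases hEq : (T : Subgroup ↥(Subgroup.centralizer ({z} : Set G))).map
      (Subgroup.subtype (Subgroup.centralizer ({z} : Set G))) = (S : Subgroup G)
  · rw [hEq]
    exact S.not_dvd_index
  exfalso
  have hnil : Group.IsNilpotent ↥(S : Subgroup G) := S.isPGroup'.isNilpotent
  have hNC : NormalizerCondition ↥(S : Subgroup G) := Group.normalizerCondition_of_isNilpotent
  have hlt' : ((T : Subgroup ↥(Subgroup.centralizer ({z} : Set G))).map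
      (Subgroup.subtype (Subgroup.centralizer ({z} : Set G)))).subgroupOf (S : Subgroup G) < ⊤ := by
    rw [lt_top_iff_ne_top, Ne, Subgroup.subgroupOf_eq_top]
    intro hle
    exact hEq (le_antisymm hTS hle)
  obtain ⟨g, hgN, hgT⟩ := SetLike.exists_of_lt (hNC _ hlt')
  rw [Subgroup.mem_normalizer_iff] at hgN
  have hgT' : (g : G) ∉ (T : Subgroup ↥(Subgroup.centralizer ({z} : Set G))).map
      (Subgroup.subtype (Subgroup.centralizer ({z} : Set G))) :=
    fun h => hgT (Subgroup.mem_subgroupOf.mpr h)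
  have hconj1 : ∀ y ∈ (T : Subgroup ↥(Subgroup.centralizer ({z} : Set G))).map
      (Subgroup.subtype (Subgroup.centralizer ({z} : Set G))),
      (g : G) * y * (g : G)⁻¹ ∈ (T : Subgroup ↥(Subgroup.centralizer ({z} : Set G))).map
      (Subgroup.subtype (Subgroup.centralizer ({z} : Set G))) := by
    intro y hy
    have h1 := (hgN ⟨y, hTS hy⟩).mp (Subgroup.mem_subgroupOf.mpr hy)
    exact Subgroup.mem_subgroupOf.mp h1
  have hconj2 : ∀ y ∈ (T : Subgroup ↥(Subgroup.centralizer ({z} : Set G))).map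
      (Subgroup.subtype (Subgroup.centralizer ({z} : Set G))),
      (g : G)⁻¹ * y * (g : G) ∈ (T : Subgroup ↥(Subgroup.centralizer ({z} : Set G))).map
      (Subgroup.subtype (Subgroup.centralizer ({z} : Set G))) := by
    intro y hy
    have hmem : (g : G)⁻¹ * y * (g : G) ∈ (S : Subgroup G) :=
      Subgroup.mul_mem _ (Subgroup.mul_mem _ (Subgroup.inv_mem _ g.2) (hTS hy)) g.2
    have h1 := (hgN ⟨(g : G)⁻¹ * y * (g : G), hmem⟩).mpr (by
      rw [Subgroup.mem_subgroupOf]
      have h2 : ((g * ⟨(g : G)⁻¹ * y * (g : G), hmem⟩ * g⁻¹ : ↥(S : Subgroup G)) : G) = y := by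
        change (g : G) * ((g : G)⁻¹ * y * (g : G)) * (g : G)⁻¹ = y
        group
      rw [h2]
      exact hy)
    exact Subgroup.mem_subgroupOf.mp h1
  -- the conjugate of z by g
  have hzT' : z ∈ (T : Subgroup ↥(Subgroup.centralizer ({z} : Set G))).map
      (Subgroup.subtype (Subgroup.centralizer ({z} : Set G))) := ⟨⟨z, hzC⟩, hzT, rfl⟩
  obtain ⟨w, hwT, hw⟩ := hconj1 z hzT'
  have hw' : (w : G) = (g : G) * z * (g : G)⁻¹ := hw
  have hw1 : w ≠ 1 := by
    intro h
    rw [h] at hw'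
    have h2 : z = 1 := by
      have h3 : (g : G) * z * (g : G)⁻¹ = 1 := hw'.symm
      have h4 := congrArg (fun a => (g : G)⁻¹ * a * (g : G)) h3
      simpa [mul_assoc] using h4
    rw [h2, orderOf_one] at hz
    omega
  have hwcomm : ∀ y ∈ (T : Subgroup ↥(Subgroup.centralizer ({z} : Set G))), w * y = y * w := by
    intro y hy
    apply Subtype.ext
    rw [Subgroup.coe_mul, Subgroup.coe_mul, hw']
    obtain ⟨y', hy'T, hy'⟩ := hconj2 (y : G) ⟨y, hy, rfl⟩
    have hy'' : (y' : G) = (g : G)⁻¹ * (y : G) * (g : G) := hy'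
    have hzy : z * ((g : G)⁻¹ * (y : G) * (g : G)) = ((g : G)⁻¹ * (y : G) * (g : G)) * z := by
      rw [← hy'']
      exact Subgroup.mem_centralizer_iff.mp y'.2 z (Set.mem_singleton z)
    calc (g : G) * z * (g : G)⁻¹ * (y : G)
        = (g : G) * (z * ((g : G)⁻¹ * (y : G) * (g : G))) * (g : G)⁻¹ := by group
      _ = (g : G) * (((g : G)⁻¹ * (y : G) * (g : G)) * z) * (g : G)⁻¹ := by rw [hzy]
      _ = (y : G) * ((g : G) * z * (g : G)⁻¹) := by group
  have hwz := hstar w hw1 hwcomm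
  have hgz : (g : G) * z * (g : G)⁻¹ = z := by
    rw [← hw', hwz]
  have hgC : (g : G) ∈ Subgroup.centralizer ({z} : Set G) := by
    rw [Subgroup.mem_centralizer_iff]
    intro x hx
    rw [Set.mem_singleton_iff] at hx
    subst hx
    have h4 := congrArg (fun a => a * (g : G)) hgz
    simpa [mul_assoc] using h4.symm
  have hgSC : (⟨(g : G), hgC⟩ : ↥(Subgroup.centralizer ({z} : Set G))) ∈
      (S : Subgroup G).subgroupOf (Subgroup.centralizer ({z} : Set G)) := by
    rw [Subgroup.mem_subgroupOf]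
    exact g.2
  rw [hSC] at hgSC
  exact hgT' ⟨⟨(g : G), hgC⟩, hgSC, rfl⟩

end Cfsg.Agent.S1717
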