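import Cfsg.Statements.S1753
import Mathlib
-- import your own Cfsg.Agent.* helpers here

set_option autoImplicit false
universe u
open Cfsg

namespace Cfsg.Agent.S1753

/-- Let K be any property of groups. (1) If G is a minimal counterexample relative to K — a finite non-abelian simple group not satisfying K such that every finite non-abelian simple group of smaller order satisfies K — then every proper subgroup of G is a K-group (all its non-abelian simple sections satisfy K), since such sections have smaller order than G. (2) Consequently (induction on the order), if every finite non-abelian simple group all of whose proper subgroups are K-groups satisfies K, then every finite non-abelian simple group satisfies K. -/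
theorem result (K : ∀ (X : Type u) [Group X], Prop) :
    (∀ (G : Type u) [Group G], Cfsg.IsMinCounterexampleWith K G → Cfsg.IsKProperWith K G) ∧
      ((∀ (X : Type u) [Group X] [Finite X], IsSimpleGroup X → ¬ IsMulCommutative X → Cfsg.IsKProperWith K X → K X) →
        ∀ (G : Type u) [Group G] [Finite G], IsSimpleGroup G → ¬ IsMulCommutative G → K G) := by
  have part1 : ∀ (G : Type u) [Group G], Cfsg.IsMinCounterexampleWith K G → Cfsg.IsKProperWith K G := by
    intro G _ hmin H hH H' N _ hs hna
    obtain ⟨hfin, -, -, -, hmin'⟩ := hmin
    haveI := hfin
    apply hmin' (↥H' ⧸ N) hs hna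
    calc Nat.card (↥H' ⧸ N) ≤ Nat.card ↥H' :=
          Nat.card_le_card_of_surjective _ (QuotientGroup.mk_surjective)
      _ ≤ Nat.card ↥H := Subgroup.card_le_card_group H'
      _ < Nat.card G := by
          refine lt_of_le_of_ne (Subgroup.card_le_card_group H) ?_
          intro h
          exact hH (Subgroup.eq_top_of_card_eq H h)
  refine ⟨part1, ?_⟩
  intro hyp
  have main : ∀ n : ℕ, ∀ (G : Type u) [Group G] [Finite G], Nat.card G = n → IsSimpleGroup G →
      ¬ IsMulCommutative G → K G := by
    intro n
    induction n using Nat.strong_induction_on with
    | _ n ih =>
      intro G _ _ hn hs hna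
      by_contra hK
      apply hK
      apply hyp G hs hna
      apply part1 G
      refine ⟨inferInstance, hs, hna, hK, ?_⟩
      intro X _ _ hXs hXna hlt
      exact ih (Nat.card X) (hn ▸ hlt) X rfl hXs hXna
  intro G _ _ hs hna
  exact main _ G rfl hs hna

end Cfsg.Agent.S1753
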