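import Cfsg.Statements.S1754
import Mathlib
-- import your own Cfsg.Agent.* helpers here

set_option autoImplicit false
open Cfsg

namespace Cfsg.Agent.S1754

/-- Quasisimplicity is invariant under group isomorphism. -/
theorem isQuasisimple_of_mulEquiv {H₁ H₂ : Type*} [Group H₁] [Group H₂] (e : H₁ ≃* H₂)
    (h : Cfsg.IsQuasisimple H₂) : Cfsg.IsQuasisimple H₁ := by
  obtain ⟨hp, hs⟩ := h
  refine ⟨?_, ?_⟩
  · exact Group.IsPerfect.ofSurjective (f := e.symm.toMonoidHom) e.symm.surjective
  · have hc : (Subgroup.center H₁).map (e : H₁ →* H₂) = Subgroup.center H₂ := by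
      ext x
      constructor
      · rintro ⟨y, hy, rfl⟩
        have hy' : ∀ g, g * y = y * g := Subgroup.mem_center_iff.mp hy
        rw [Subgroup.mem_center_iff]
        intro g
        have := congrArg e (hy' (e.symm g))
        simpa using this
      · intro hx
        rw [Subgroup.mem_center_iff] at hx
        refine ⟨e.symm x, Subgroup.mem_center_iff.mpr ?_, by simp⟩
        intro g
        have := congrArg e.symm (hx (e g))
        simpa using this
    exact (QuotientGroup.congr (Subgroup.center H₁) (Subgroup.center H₂) e hc).isSimpleGroup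

/-- Let A be a standard subgroup of the finite group G (A quasisimple, C_G(A) tightly embedded of even order, A commuting elementwise with no other conjugate of itself, and N_G(A) = N_G(C_G(A))), and let t be an involution of G centralizing A. Then the centralizer of t lies in the normalizer of A; in particular A, viewed inside C_G(t), is a component of C_G(t). -/
theorem result {G : Type*} [Group G] [Finite G]
    (A : Subgroup G) (hA : Cfsg.IsStandardSubgroup A) (t : G) (ht : orderOf t = 2) (htA : t ∈ Subgroup.centralizer (A : Set G)) :
    Subgroup.centralizer ({t} : Set G) ≤ Subgroup.normalizer (A : Set G) ∧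
      Cfsg.IsComponent (A.subgroupOf (Subgroup.centralizer ({t} : Set G))) := by
  obtain ⟨hq, hte, -, hnorm⟩ := hA
  have h1 : Subgroup.centralizer ({t} : Set G) ≤ Subgroup.normalizer (A : Set G) := by
    intro g hg
    rw [hnorm]
    by_contra hgN
    have hodd := hte.2 g hgN
    have hgt : g * t = t * g := by
      have := Subgroup.mem_centralizer_iff.mp hg t (Set.mem_singleton t)
      exact this.symm
    have htmem : t ∈ Subgroup.centralizer (A : Set G) ⊓
        (Subgroup.centralizer (A : Set G)).map (MulAut.conj g).toMonoidHom := by
      refine ⟨htA, ⟨t, htA, ?_⟩⟩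
      change g * t * g⁻¹ = t
      rw [hgt, mul_inv_cancel_right]
    have hdvd : 2 ∣ Nat.card ↥(Subgroup.centralizer (A : Set G) ⊓
        (Subgroup.centralizer (A : Set G)).map (MulAut.conj g).toMonoidHom) := by
      have := Subgroup.orderOf_dvd_natCard _ htmem
      rwa [ht] at this
    exact (Nat.not_even_iff_odd.mpr hodd) (even_iff_two_dvd.mpr hdvd)
  have hle : A ≤ Subgroup.centralizer ({t} : Set G) := by
    intro a ha
    rw [Subgroup.mem_centralizer_iff]
    intro x hx
    rw [Set.mem_singleton_iff] at hx
    subst hx
    exact (Subgroup.mem_centralizer_iff.mp htA a ha).symm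
  refine ⟨h1, ?_, ?_⟩
  · apply Subgroup.Normal.isSubnormal
    exact (Subgroup.normal_subgroupOf_iff_le_normalizer hle).mpr h1
  · exact isQuasisimple_of_mulEquiv (Subgroup.subgroupOfEquivOfLe hle) hq

end Cfsg.Agent.S1754
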