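import Cfsg.Statements.S1756
import Mathlib
-- import your own Cfsg.Agent.* helpers here

set_option autoImplicit false
open Cfsg

namespace Cfsg.Agent.S1756

universe u v

/-- Homomorphisms between finite groups form a finite type. -/
theorem finite_monoidHom (E : Type u) (C : Type v) [Group E] [Group C] [Finite E] [Finite C] :
    Finite (E →* C) := DFunLike.finite _

/-- A finite group has at most as many homomorphisms to a group of order 2 as it has elements. -/
theorem card_monoidHom_le {C : Type v} [Group C] (hC : Nat.card C = 2) :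
    ∀ (n : ℕ) (E : Type u) [Group E] [Finite E], Nat.card E = n →
      Nat.card (E →* C) ≤ Nat.card E := by
  have hCfin : Finite C := Nat.finite_of_card_ne_zero (by rw [hC]; norm_num)
  intro n
  induction n using Nat.strong_induction_on with
  | _ n ih =>
    intro E _ _ hn
    have hfinE : Finite (E →* C) := finite_monoidHom E C
    by_cases htriv : ∀ μ : E →* C, μ = 1
    · have hsub : Subsingleton (E →* C) := ⟨fun a b => by rw [htriv a, htriv b]⟩
      calc Nat.card (E →* C) ≤ 1 := Finite.card_le_one_iff_subsingleton.mpr hsub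
        _ ≤ Nat.card E := Nat.card_pos
    · push Not at htriv
      obtain ⟨lam, hlam⟩ := htriv
      have hidx : lam.ker.index = 2 := by
        rw [Subgroup.index_ker]
        have hdvd : Nat.card lam.range ∣ 2 := hC ▸ Subgroup.card_subgroup_dvd_card lam.range
        have hne1 : Nat.card lam.range ≠ 1 := by
          intro h1
          apply hlam
          exact MonoidHom.range_eq_bot_iff.mp (Subgroup.eq_bot_of_card_eq _ h1)
        rcases (Nat.dvd_prime Nat.prime_two).mp hdvd with h | h
        · exact absurd h hne1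
        · exact h
      have hNcard : Nat.card lam.ker * 2 = Nat.card E := by
        rw [← hidx]
        exact Subgroup.card_mul_index lam.ker
      have hNlt : Nat.card lam.ker < n := by
        have : 0 < Nat.card lam.ker := Nat.card_pos
        omega
      have hx0 : ∃ x₀ : E, x₀ ∉ lam.ker := by
        by_contra hall
        push Not at hall
        apply hlam
        ext q
        exact (MonoidHom.mem_ker).mp (hall q)
      obtain ⟨x₀, hx₀⟩ := hx0
      let r : (E →* C) → (lam.ker →* C) × C := fun μ => (μ.comp lam.ker.subtype, μ x₀)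
      have hr : Function.Injective r := by
        intro μ μ' h
        have h1 : μ.comp lam.ker.subtype = μ'.comp lam.ker.subtype := congrArg Prod.fst h
        have h2 : μ x₀ = μ' x₀ := congrArg Prod.snd h
        have hN : ∀ q ∈ lam.ker, μ q = μ' q := fun q hq => DFunLike.congr_fun h1 ⟨q, hq⟩
        ext q
        by_cases hq : q ∈ lam.ker
        · exact hN q hq
        · have hmem : x₀⁻¹ * q ∈ lam.ker := by
            rw [Subgroup.mul_mem_iff_of_index_two hidx]
            constructor
            · intro h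
              exact absurd ((Subgroup.inv_mem_iff _).mp h) hx₀
            · intro h
              exact absurd h hq
          calc μ q = μ (x₀ * (x₀⁻¹ * q)) := by rw [mul_inv_cancel_left]
            _ = μ x₀ * μ (x₀⁻¹ * q) := map_mul _ _ _
            _ = μ' x₀ * μ' (x₀⁻¹ * q) := by rw [h2, hN _ hmem]
            _ = μ' (x₀ * (x₀⁻¹ * q)) := (map_mul _ _ _).symm
            _ = μ' q := by rw [mul_inv_cancel_left]
      have hfinN : Finite (lam.ker →* C) := finite_monoidHom _ C
      calc Nat.card (E →* C) ≤ Nat.card ((lam.ker →* C) × C) :=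
            Nat.card_le_card_of_injective r hr
        _ = Nat.card (lam.ker →* C) * Nat.card C := Nat.card_prod _ _
        _ ≤ Nat.card lam.ker * 2 := by
            rw [hC]
            exact Nat.mul_le_mul_right 2 (ih _ hNlt lam.ker rfl)
        _ = Nat.card E := hNcard

/-- In a finite group whose commutator subgroup equals its centre, of order 2, every homomorphism
to the centre is of the form `q ↦ y * q * y⁻¹ * q⁻¹`. -/
theorem exists_inner_of_hom {Q : Type u} [Group Q] [Finite Q]
    (hcomm : commutator Q = Subgroup.center Q) (hcard : Nat.card (Subgroup.center Q) = 2)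
    (lam : Q →* Subgroup.center Q) : ∃ y : Q, ∀ q : Q, y * q * y⁻¹ * q⁻¹ = (lam q : Q) := by
  classical
  have hmem : ∀ y q : Q, y * q * y⁻¹ * q⁻¹ ∈ Subgroup.center Q := by
    intro y q
    rw [← hcomm, commutator_def]
    exact Subgroup.commutator_mem_commutator (Subgroup.mem_top y) (Subgroup.mem_top q)
  let ι : Q → (Q →* Subgroup.center Q) := fun y =>
    MonoidHom.mk' (fun q => ⟨y * q * y⁻¹ * q⁻¹, hmem y q⟩) (by
      intro q q'
      apply Subtype.ext
      have hc : q⁻¹ * (y * q' * y⁻¹ * q'⁻¹) = (y * q' * y⁻¹ * q'⁻¹) * q⁻¹ :=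
        (Subgroup.mem_center_iff.mp (hmem y q')) q⁻¹
      change y * (q * q') * y⁻¹ * (q * q')⁻¹ = (y * q * y⁻¹ * q⁻¹) * (y * q' * y⁻¹ * q'⁻¹)
      calc y * (q * q') * y⁻¹ * (q * q')⁻¹
          = y * q * y⁻¹ * ((y * q' * y⁻¹ * q'⁻¹) * q⁻¹) := by group
        _ = y * q * y⁻¹ * (q⁻¹ * (y * q' * y⁻¹ * q'⁻¹)) := by rw [hc]
        _ = (y * q * y⁻¹ * q⁻¹) * (y * q' * y⁻¹ * q'⁻¹) := by group)
  have hι : ∀ y q : Q, ((ι y q : Subgroup.center Q) : Q) = y * q * y⁻¹ * q⁻¹ := fun y q => rfl
  have hker : ∀ μ : Q →* Subgroup.center Q, Subgroup.center Q ≤ μ.ker := by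
    intro μ
    have h1 : commutator Q ≤ μ.ker := by
      rw [commutator_def, Subgroup.commutator_le]
      intro a _ b _
      rw [MonoidHom.mem_ker, map_commutatorElement, commutatorElement_eq_one_iff_commute]
      exact Subtype.ext (Subgroup.mem_center_iff.mp (μ b).2 (μ a))
    exact hcomm.symm.le.trans h1
  let f : (Q →* Subgroup.center Q) → (Q ⧸ Subgroup.center Q →* Subgroup.center Q) :=
    fun μ => QuotientGroup.lift (Subgroup.center Q) μ (hker μ)
  have hf : Function.Injective f := by
    intro μ μ' h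
    ext q
    have := DFunLike.congr_fun h (QuotientGroup.mk q)
    exact congrArg Subtype.val this
  have hCfin : Finite (Subgroup.center Q) := inferInstance
  have hfin1 : Finite (Q →* Subgroup.center Q) := finite_monoidHom _ _
  have hfin2 : Finite (Q ⧸ Subgroup.center Q →* Subgroup.center Q) := finite_monoidHom _ _
  have hcard1 : Nat.card (Q →* Subgroup.center Q) ≤ Nat.card (Q ⧸ Subgroup.center Q) :=
    (Nat.card_le_card_of_injective f hf).trans (card_monoidHom_le hcard _ _ rfl)
  have hwell : ∀ a b : Q, a⁻¹ * b ∈ Subgroup.center Q → ι a = ι b := by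
    intro a b hab
    ext q
    rw [hι, hι]
    have hz := Subgroup.mem_center_iff.mp hab q
    have hb : b * q * b⁻¹ = a * q * a⁻¹ := by
      calc b * q * b⁻¹ = a * ((a⁻¹ * b) * q) * b⁻¹ := by group
        _ = a * (q * (a⁻¹ * b)) * b⁻¹ := by rw [hz]
        _ = a * q * a⁻¹ := by group
    rw [hb]
  let ι' : Q ⧸ Subgroup.center Q → (Q →* Subgroup.center Q) :=
    Quotient.lift ι (fun a b hab => hwell a b (QuotientGroup.leftRel_apply.mp hab))
  have hι' : Function.Injective ι' := by
    intro x x'
    induction x using QuotientGroup.induction_on with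
    | _ a =>
      induction x' using QuotientGroup.induction_on with
      | _ b =>
        intro h
        have h' : ι a = ι b := h
        apply QuotientGroup.eq.mpr
        rw [Subgroup.mem_center_iff]
        intro q
        have hq : a * q * a⁻¹ * q⁻¹ = b * q * b⁻¹ * q⁻¹ :=
          congrArg Subtype.val (DFunLike.congr_fun h' q)
        have hq' : a * q * a⁻¹ = b * q * b⁻¹ := mul_right_cancel hq
        calc q * (a⁻¹ * b) = a⁻¹ * (a * q * a⁻¹) * b := by group
          _ = a⁻¹ * (b * q * b⁻¹) * b := by rw [hq']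
          _ = a⁻¹ * b * q := by group
  have hbij : Function.Bijective ι' := by
    rw [Nat.bijective_iff_injective_and_card]
    exact ⟨hι', le_antisymm (Nat.card_le_card_of_injective ι' hι') hcard1⟩
  obtain ⟨x, hx⟩ := hbij.2 lam
  obtain ⟨y, rfl⟩ := QuotientGroup.mk_surjective x
  refine ⟨y, fun q => ?_⟩
  have hx' : ι y = lam := hx
  rw [← hx', hι]

/-- Let Q be an extraspecial 2-subgroup of the finite group G (special with centre of order 2) and t an involution of G normalizing Q such that the centralizer of t in Q has index at most 2 in Q. Then t lies in the product of Q with the centralizer of Q. -/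
theorem result {G : Type*} [Group G] [Finite G] (Q : Subgroup G)
    (hQ : Cfsg.IsExtraspecial 2 ↥Q) (t : G) (ht : orderOf t = 2) (htN : t ∈ Subgroup.normalizer (Q : Set G))
    (hi : (Subgroup.centralizer ({t} : Set G) ⊓ Q).relIndex Q ≤ 2) :
    t ∈ Q ⊔ Subgroup.centralizer (Q : Set G) := by
  obtain ⟨⟨hp, hfrat, hcomm⟩, hcard⟩ := hQ
  have htt : t * t = 1 := by
    have := pow_orderOf_eq_one t
    rw [ht, pow_two] at this
    exact this
  have htinv : t⁻¹ = t := inv_eq_of_mul_eq_one_left htt
  have hconj : ∀ q : G, q ∈ Q → t * q * t⁻¹ ∈ Q := fun q hq =>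
    (Subgroup.mem_normalizer_iff.mp htN q).mp hq
  have hMmem : ∀ q : ↥Q, q ∈ (Subgroup.centralizer ({t} : Set G) ⊓ Q).subgroupOf Q ↔
      t * (q : G) = (q : G) * t := by
    intro q
    rw [Subgroup.mem_subgroupOf, Subgroup.mem_inf, Subgroup.mem_centralizer_iff]
    constructor
    · rintro ⟨h, -⟩
      exact h t (Set.mem_singleton t)
    · intro h
      refine ⟨?_, q.2⟩
      intro x hx
      rw [Set.mem_singleton_iff] at hx
      subst hx
      exact h
  have hidx : ((Subgroup.centralizer ({t} : Set G) ⊓ Q).subgroupOf Q).index ≤ 2 := hi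
  have hidx0 : ((Subgroup.centralizer ({t} : Set G) ⊓ Q).subgroupOf Q).index ≠ 0 :=
    Subgroup.index_ne_zero_of_finite
  generalize (Subgroup.centralizer ({t} : Set G) ⊓ Q).subgroupOf Q = M at hMmem hidx hidx0
  -- conjugation by t as a map of Q
  let a : ↥Q → ↥Q := fun q => ⟨t * q * t⁻¹, hconj q q.2⟩
  have ha_val : ∀ q : ↥Q, ((a q : ↥Q) : G) = t * q * t⁻¹ := fun q => rfl
  have ha_mul : ∀ q r : ↥Q, a (q * r) = a q * a r := by
    intro q r
    apply Subtype.ext
    rw [Subgroup.coe_mul, ha_val, ha_val, ha_val, Subgroup.coe_mul]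
    group
  have ha_inv : ∀ q : ↥Q, a q⁻¹ = (a q)⁻¹ := by
    intro q
    apply Subtype.ext
    rw [Subgroup.coe_inv, ha_val, ha_val, Subgroup.coe_inv]
    group
  have ha_a : ∀ q : ↥Q, a (a q) = q := by
    intro q
    apply Subtype.ext
    rw [ha_val, ha_val, htinv]
    calc t * (t * (q : G) * t) * t = (t * t) * q * (t * t) := by group
      _ = q := by rw [htt, one_mul, mul_one]
  have ha_fix : ∀ q : ↥Q, q ∈ M ↔ a q = q := by
    intro q
    rw [hMmem]
    constructor
    · intro h
      apply Subtype.ext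
      rw [ha_val, h, mul_inv_cancel_right]
    · intro h
      have h' : t * (q : G) * t⁻¹ = q := congrArg Subtype.val h
      calc t * (q : G) = t * q * t⁻¹ * t := by group
        _ = q * t := by rw [h']
  -- the commutator of q with t is central in Q
  have hcentral : ∀ q : ↥Q, q⁻¹ * a q ∈ Subgroup.center ↥Q := by
    intro q
    by_cases hqM : q ∈ M
    · rw [(ha_fix q).mp hqM, inv_mul_cancel]
      exact Subgroup.one_mem _
    · have hidx2 : M.index = 2 := by
        have : M.index ≠ 1 := by
          intro h1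
          rw [Subgroup.index_eq_one] at h1
          exact hqM (h1 ▸ Subgroup.mem_top q)
        omega
      have hMn : M.Normal := Subgroup.normal_of_index_eq_two hidx2
      have hmm := fun x y : ↥Q => Subgroup.mul_mem_iff_of_index_two hidx2 (a := x) (b := y)
      have haq : a q ∉ M := by
        rw [ha_fix, ha_a]
        intro h
        exact hqM ((ha_fix q).mpr h.symm)
      have hqinv : q⁻¹ ∉ M := fun h => hqM ((Subgroup.inv_mem_iff M).mp h)
      have hcM : q⁻¹ * a q ∈ M := by
        rw [hmm]
        exact ⟨fun h => absurd h hqinv, fun h => absurd h haq⟩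
      have hac : a (q⁻¹ * a q) = (q⁻¹ * a q)⁻¹ := by
        rw [ha_mul, ha_inv, ha_a]
        group
      have hcc : (q⁻¹ * a q)⁻¹ = q⁻¹ * a q := by
        rw [← hac]
        exact (ha_fix _).mp hcM
      have hi1 : ∀ m ∈ M, (q⁻¹ * a q) * m = m * (q⁻¹ * a q) := by
        intro m hm
        have h1 : q * m * q⁻¹ ∈ M := hMn.conj_mem m hm q
        have h2 := (ha_fix _).mp h1
        rw [ha_mul, ha_mul, ha_inv, (ha_fix m).mp hm] at h2
        calc q⁻¹ * a q * m = q⁻¹ * (a q * m * (a q)⁻¹) * a q := by group
          _ = q⁻¹ * (q * m * q⁻¹) * a q := by rw [h2]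
          _ = m * (q⁻¹ * a q) := by group
      have hqq : q * q ∈ M := by
        rw [hmm]
      have h5 : a q * a q = q * q := by
        rw [← ha_mul]
        exact (ha_fix _).mp hqq
      have hcq : (q⁻¹ * a q) * q = q * (q⁻¹ * a q) := by
        have h6 : (q⁻¹ * a q) * q * (q⁻¹ * a q) = q := by
          calc (q⁻¹ * a q) * q * (q⁻¹ * a q) = q⁻¹ * (a q * a q) := by group
            _ = q⁻¹ * (q * q) := by rw [h5]
            _ = q := by group
        calc (q⁻¹ * a q) * q = (q⁻¹ * a q) * q * (q⁻¹ * a q) * (q⁻¹ * a q)⁻¹ := by group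
          _ = q * (q⁻¹ * a q)⁻¹ := by rw [h6]
          _ = q * (q⁻¹ * a q) := by rw [hcc]
      rw [Subgroup.mem_center_iff]
      intro r
      by_cases hr : r ∈ M
      · exact (hi1 r hr).symm
      · have hqr : q⁻¹ * r ∈ M := by
          rw [hmm]
          exact ⟨fun h => absurd h hqinv, fun h => absurd h hr⟩
        have h7 := hi1 _ hqr
        calc r * (q⁻¹ * a q) = q * ((q⁻¹ * r) * (q⁻¹ * a q)) := by group
          _ = q * ((q⁻¹ * a q) * (q⁻¹ * r)) := by rw [h7]
          _ = (q * (q⁻¹ * a q)) * (q⁻¹ * r) := by group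
          _ = ((q⁻¹ * a q) * q) * (q⁻¹ * r) := by rw [hcq]
          _ = (q⁻¹ * a q) * r := by group
  -- the homomorphism q ↦ q⁻¹ * a q into the centre
  let lam : ↥Q →* Subgroup.center ↥Q := MonoidHom.mk' (fun q => ⟨q⁻¹ * a q, hcentral q⟩) (by
    intro q r
    apply Subtype.ext
    change (q * r)⁻¹ * a (q * r) = (q⁻¹ * a q) * (r⁻¹ * a r)
    rw [ha_mul]
    have hz := Subgroup.mem_center_iff.mp (hcentral q) r⁻¹
    calc (q * r)⁻¹ * (a q * a r) = r⁻¹ * (q⁻¹ * a q) * a r := by group
      _ = (q⁻¹ * a q) * r⁻¹ * a r := by rw [hz]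
      _ = (q⁻¹ * a q) * (r⁻¹ * a r) := by group)
  obtain ⟨y, hy⟩ := exists_inner_of_hom hcomm hcard lam
  have hyq : ∀ q : ↥Q, (y : G) * q * (y : G)⁻¹ = t * q * t⁻¹ := by
    intro q
    have h1 : y * q * y⁻¹ * q⁻¹ = q⁻¹ * a q := hy q
    have hz := Subgroup.mem_center_iff.mp (hcentral q) q
    have h2 : y * q * y⁻¹ = a q := by
      calc y * q * y⁻¹ = (y * q * y⁻¹ * q⁻¹) * q := by group
        _ = (q⁻¹ * a q) * q := by rw [h1]
        _ = q * (q⁻¹ * a q) := hz.symm
        _ = a q := by group
    exact congrArg Subtype.val h2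
  have hcent : (y : G)⁻¹ * t ∈ Subgroup.centralizer (Q : Set G) := by
    rw [Subgroup.mem_centralizer_iff]
    intro q hq
    have h1 : (y : G) * q * (y : G)⁻¹ = t * q * t⁻¹ := hyq ⟨q, hq⟩
    calc q * ((y : G)⁻¹ * t) = (y : G)⁻¹ * ((y : G) * q * (y : G)⁻¹) * t := by group
      _ = (y : G)⁻¹ * (t * q * t⁻¹) * t := by rw [h1]
      _ = (y : G)⁻¹ * t * q := by group
  have hteq : t = (y : G) * ((y : G)⁻¹ * t) := by group
  rw [hteq]
  exact Subgroup.mul_mem_sup y.2 hcent

end Cfsg.Agent.S1756
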