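import Cfsg.Statements.S1757
import Mathlib
-- import your own Cfsg.Agent.* helpers here

set_option autoImplicit false
open Cfsg

namespace Cfsg.Agent.S1757

/-- Let p be a prime and A, B p-subgroups of the finite group G, each of which meets every conjugate of itself other than itself trivially. Suppose the order of A is at most that of B, A and B intersect trivially, and B normalizes A. Then A and B commute elementwise. -/
theorem result {G : Type*} [Group G] [Finite G] (p : ℕ) [Fact p.Prime] (A B : Subgroup G)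
    (hA : IsPGroup p ↥A) (hB : IsPGroup p ↥B)
    (hAti : ∀ g : G, A.map (MulAut.conj g).toMonoidHom = A ∨ A.map (MulAut.conj g).toMonoidHom ⊓ A = ⊥)
    (hBti : ∀ g : G, B.map (MulAut.conj g).toMonoidHom = B ∨ B.map (MulAut.conj g).toMonoidHom ⊓ B = ⊥)
    (hle : Nat.card ↥A ≤ Nat.card ↥B) (hAB : A ⊓ B = ⊥) (hN : B ≤ Subgroup.normalizer (A : Set G)) : ⁅A, B⁆ = ⊥ := by
  rw [Subgroup.commutator_eq_bot_iff_le_centralizer]
  intro a ha
  rw [Subgroup.mem_centralizer_iff]
  by_contra hcon
  push Not at hcon
  obtain ⟨b₀, hb₀, hne⟩ := hcon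
  -- a nontrivial element of B commuting with a forces a to centralize B
  have key : ∀ b ∈ B, b * a = a * b → b = 1 := by
    intro b hb hba
    by_contra hb1
    apply hne
    have h1 : B.map (MulAut.conj a).toMonoidHom = B := by
      rcases hBti a with h | h
      · exact h
      · exfalso
        apply hb1
        have hmem : b ∈ B.map (MulAut.conj a).toMonoidHom ⊓ B := by
          refine ⟨⟨b, hb, ?_⟩, hb⟩
          change a * b * a⁻¹ = b
          rw [← hba, mul_inv_cancel_right]
        rw [h] at hmem
        exact hmem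
    have h2 : a * b₀ * a⁻¹ ∈ B := by
      have : a * b₀ * a⁻¹ ∈ B.map (MulAut.conj a).toMonoidHom := ⟨b₀, hb₀, rfl⟩
      rwa [h1] at this
    have h3 : a * b₀ * a⁻¹ * b₀⁻¹ ∈ A ⊓ B := by
      refine ⟨?_, B.mul_mem h2 (B.inv_mem hb₀)⟩
      have h4 : b₀ * a⁻¹ * b₀⁻¹ ∈ A :=
        (Subgroup.mem_normalizer_iff.mp (hN hb₀) a⁻¹).mp (A.inv_mem ha)
      have h5 : a * (b₀ * a⁻¹ * b₀⁻¹) ∈ A := A.mul_mem ha h4
      simpa [mul_assoc] using h5
    rw [hAB, Subgroup.mem_bot] at h3
    have h6 : a * b₀ = b₀ * a := by
      have := congrArg (fun x => x * b₀ * a) h3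
      simpa [mul_assoc] using this
    exact h6.symm
  -- the orbit map of a under B
  have hmemA : ∀ b : B, (b : G) * a * (b : G)⁻¹ ∈ A := fun b =>
    (Subgroup.mem_normalizer_iff.mp (hN b.2) a).mp ha
  let f : B → A := fun b => ⟨(b : G) * a * (b : G)⁻¹, hmemA b⟩
  have hinj : Function.Injective f := by
    intro b c hbc
    have h1 : (b : G) * a * (b : G)⁻¹ = (c : G) * a * (c : G)⁻¹ := congrArg Subtype.val hbc
    have h2 : ((c : G)⁻¹ * (b : G)) * a = a * ((c : G)⁻¹ * (b : G)) := by
      have := congrArg (fun x => (c : G)⁻¹ * x * (b : G)) h1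
      simpa [mul_assoc] using this
    have h3 := key _ (B.mul_mem (B.inv_mem c.2) b.2) h2
    have h4 : (b : G) = (c : G) := by
      have := congrArg (fun x => (c : G) * x) h3
      simpa using this
    exact Subtype.ext h4
  have hsurj : Function.Surjective f := by
    have hfin : Finite A := inferInstance
    have hbij : Function.Bijective f := by
      rw [Nat.bijective_iff_injective_and_card]
      refine ⟨hinj, le_antisymm (Nat.card_le_card_of_injective f hinj) hle⟩
    exact hbij.2
  obtain ⟨b, hb⟩ := hsurj 1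
  have h1 : (b : G) * a * (b : G)⁻¹ = 1 := congrArg Subtype.val hb
  have h2 : a = 1 := by
    have := congrArg (fun x => (b : G)⁻¹ * x * (b : G)) h1
    simpa [mul_assoc] using this
  apply hne
  rw [h2, mul_one, one_mul]

end Cfsg.Agent.S1757
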