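import Cfsg.Statements.S1781
import Cfsg.Agent.Lib.Helper30.TwoAut

set_option autoImplicit false
open Cfsg

namespace Cfsg.Agent.S1781

private theorem ti_step {G : Type*} [Group G] (A B : Subgroup G)
    (commB : ∀ x ∈ B, ∀ y ∈ B, x * y = y * x)
    (twoB : ∀ b ∈ B, ∃ n : ℕ, b ^ 2 ^ n = 1)
    (twoA : ∀ a ∈ A, ∃ n : ℕ, a ^ 2 ^ n = 1)
    (TIA : ∀ x : G, ∀ a ∈ A, a ≠ 1 → x * a * x⁻¹ ∈ A → ∀ y ∈ A, x * y * x⁻¹ ∈ A)
    (hAB : ∀ x, x ∈ A → x ∈ B → x = 1)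
    (d : G) (hdA : d ∈ A) (hd2 : d ^ 2 ≠ 1) (hdN : ∀ y ∈ B, d * y * d⁻¹ ∈ B) :
    ∀ b ∈ B, ∀ y ∈ A, b * y * b⁻¹ ∈ A := by
  have hd1 : d ≠ 1 := by rintro rfl; exact hd2 (one_pow 2)
  have key : ∀ b ∈ B, MulAut.conj d b = b := by
    obtain ⟨k, hk⟩ := twoA d hdA
    refine Cfsg.Agent.Lib.Helper30.twoAut_main B (MulAut.conj d) ?_ commB twoB ?_ k ?_
    · intro b hb; simpa using hdN b hb
    · intro b hb h
      simp only [MulAut.conj_apply] at h ⊢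
      have h0 : d ^ 2 * b = b * d ^ 2 := by
        calc d ^ 2 * b = d * (d * b * d⁻¹) * d⁻¹ * d ^ 2 := by rw [pow_two]; group
          _ = b * d ^ 2 := by rw [h]
      have h1 : b * d ^ 2 * b⁻¹ = d ^ 2 := by rw [← h0, mul_inv_cancel_right]
      have hN : ∀ y ∈ A, b * y * b⁻¹ ∈ A :=
        TIA b (d ^ 2) (A.pow_mem hdA 2) hd2 (by rw [h1]; exact A.pow_mem hdA 2)
      have h2 : d * b * d⁻¹ * b⁻¹ = 1 := by
        apply hAB
        · have h4 := hN d⁻¹ (A.inv_mem hdA)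
          have h3 : d * b * d⁻¹ * b⁻¹ = d * (b * d⁻¹ * b⁻¹) := by group
          rw [h3]; exact A.mul_mem hdA h4
        · exact B.mul_mem (hdN b hb) (B.inv_mem hb)
      calc d * b * d⁻¹ = d * b * d⁻¹ * b⁻¹ * b := by group
        _ = b := by rw [h2, one_mul]
    · intro b hb
      rw [← map_pow, hk, map_one, MulAut.one_apply]
  intro b hb
  have hb' : d * b * d⁻¹ = b := by simpa using key b hb
  have h0 : d * b = b * d := by
    calc d * b = d * b * d⁻¹ * d := by group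
      _ = b * d := by rw [hb']
  have h1 : b * d * b⁻¹ = d := by rw [← h0, mul_inv_cancel_right]
  exact TIA b d hdA hd1 (by rw [h1]; exact hdA)

/-- Let A be an abelian 2-subgroup of the finite group G such that every conjugate of A equals A or meets A trivially, and let g ∈ G with g A g⁻¹ ≠ A. Then either the subgroup of those elements of A that normalize g A g⁻¹ is an elementary abelian 2-group, or A and g A g⁻¹ commute elementwise. -/
theorem result {G : Type*} [Group G] [Finite G] (A : Subgroup G)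
    (hA2 : IsPGroup 2 ↥A) (hAa : IsMulCommutative ↥A)
    (hti : ∀ h : G, A.map (MulAut.conj h).toMonoidHom = A ∨ A.map (MulAut.conj h).toMonoidHom ⊓ A = ⊥)
    (g : G) (hg : A.map (MulAut.conj g).toMonoidHom ≠ A) :
    Cfsg.IsElementaryAbelian 2 (A ⊓ Subgroup.normalizer ((A.map (MulAut.conj g).toMonoidHom : Subgroup G) : Set G)) ∨
      ⁅A, A.map (MulAut.conj g).toMonoidHom⁆ = ⊥ := by
  classical
  have hconj : ∀ x y : G, y = x⁻¹ * (x * y * x⁻¹) * x := fun x y => by group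
  set B := A.map (MulAut.conj g).toMonoidHom with hB
  have memB : ∀ y, y ∈ B ↔ ∃ a ∈ A, g * a * g⁻¹ = y := by
    intro y; simp [hB, Subgroup.mem_map]
  have commA : ∀ x ∈ A, ∀ y ∈ A, x * y = y * x :=
    fun x hx y hy => setLike_mul_comm hx hy
  have twoA : ∀ a ∈ A, ∃ n : ℕ, a ^ 2 ^ n = 1 := by
    intro a ha
    obtain ⟨n, hn⟩ := hA2 ⟨a, ha⟩
    exact ⟨n, by simpa using congrArg Subtype.val hn⟩
  have commB : ∀ x ∈ B, ∀ y ∈ B, x * y = y * x := by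
    intro x hx y hy
    obtain ⟨a, ha, rfl⟩ := (memB x).1 hx
    obtain ⟨a', ha', rfl⟩ := (memB y).1 hy
    have h1 := commA a ha a' ha'
    calc g * a * g⁻¹ * (g * a' * g⁻¹) = g * (a * a') * g⁻¹ := by group
      _ = g * (a' * a) * g⁻¹ := by rw [h1]
      _ = g * a' * g⁻¹ * (g * a * g⁻¹) := by group
  have twoB : ∀ b ∈ B, ∃ n : ℕ, b ^ 2 ^ n = 1 := by
    intro b hb
    obtain ⟨a, ha, rfl⟩ := (memB b).1 hb
    obtain ⟨n, hn⟩ := twoA a ha
    exact ⟨n, by rw [conj_pow, hn]; simp⟩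
  have TIA : ∀ x : G, ∀ a ∈ A, a ≠ 1 → x * a * x⁻¹ ∈ A → ∀ y ∈ A, x * y * x⁻¹ ∈ A := by
    intro x a ha ha1 hxa y hy
    rcases hti x with h | h
    · have h1 : x * y * x⁻¹ ∈ A.map (MulAut.conj x).toMonoidHom :=
        Subgroup.mem_map.2 ⟨y, hy, by simp⟩
      rwa [h] at h1
    · exfalso
      have h1 : x * a * x⁻¹ ∈ A.map (MulAut.conj x).toMonoidHom ⊓ A :=
        ⟨Subgroup.mem_map.2 ⟨a, ha, by simp⟩, hxa⟩
      rw [h, Subgroup.mem_bot] at h1
      apply ha1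
      rw [hconj x a, h1]; group
  have hABbot : B ⊓ A = ⊥ := (hti g).resolve_left hg
  have hAB : ∀ x, x ∈ A → x ∈ B → x = 1 := by
    intro x hxA hxB
    have h1 : x ∈ B ⊓ A := ⟨hxB, hxA⟩
    rwa [hABbot, Subgroup.mem_bot] at h1
  have TIB : ∀ x : G, ∀ b ∈ B, b ≠ 1 → x * b * x⁻¹ ∈ B → ∀ y ∈ B, x * y * x⁻¹ ∈ B := by
    intro x b hb hb1 hxb y hy
    obtain ⟨a, ha, rfl⟩ := (memB b).1 hb
    obtain ⟨a', ha', h'⟩ := (memB _).1 hxb
    obtain ⟨c, hc, rfl⟩ := (memB y).1 hy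
    have ha1 : a ≠ 1 := by rintro rfl; apply hb1; group
    have h1 : (g⁻¹ * x * g) * a * (g⁻¹ * x * g)⁻¹ ∈ A := by
      have h2 : (g⁻¹ * x * g) * a * (g⁻¹ * x * g)⁻¹ = a' := by
        rw [hconj g a', h']; group
      rw [h2]; exact ha'
    have h3 := TIA (g⁻¹ * x * g) a ha ha1 h1 c hc
    refine (memB _).2 ⟨_, h3, ?_⟩
    group
  by_cases hel : ∀ d ∈ A ⊓ Subgroup.normalizer (B : Set G), d ^ 2 = 1
  · left
    refine ⟨isMulCommutative_iff.mpr ?_, hel⟩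
    intro a b
    exact Subtype.ext (commA a.1 a.2.1 b.1 b.2.1)
  · right
    push Not at hel
    obtain ⟨d, ⟨hdA, hdN⟩, hd2⟩ := hel
    have hdN' : ∀ y ∈ B, d * y * d⁻¹ ∈ B :=
      fun y hy => (Subgroup.mem_normalizer_iff.1 hdN y).1 hy
    have hBA : ∀ b ∈ B, ∀ y ∈ A, b * y * b⁻¹ ∈ A :=
      ti_step A B commB twoB twoA TIA hAB d hdA hd2 hdN'
    have hb0 : g * d * g⁻¹ ∈ B := (memB _).2 ⟨d, hdA, rfl⟩
    have hb02 : (g * d * g⁻¹) ^ 2 ≠ 1 := by
      intro h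
      apply hd2
      rw [conj_pow] at h
      rw [hconj g (d ^ 2), h]; group
    have hAB' : ∀ a ∈ A, ∀ y ∈ B, a * y * a⁻¹ ∈ B :=
      ti_step B A commA twoA twoB TIB (fun x hxB hxA => hAB x hxA hxB) (g * d * g⁻¹) hb0 hb02
        (hBA _ hb0)
    rw [Subgroup.commutator_eq_bot_iff_le_centralizer]
    intro a ha
    rw [Subgroup.mem_centralizer_iff]
    intro b hb
    have h1 : a * b * a⁻¹ * b⁻¹ = 1 := by
      apply hAB
      · have h4 := hBA b hb a⁻¹ (A.inv_mem ha)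
        have h3 : a * b * a⁻¹ * b⁻¹ = a * (b * a⁻¹ * b⁻¹) := by group
        rw [h3]; exact A.mul_mem ha h4
      · exact B.mul_mem (hAB' a ha b hb) (B.inv_mem hb)
    calc b * a = (a * b * a⁻¹ * b⁻¹)⁻¹ * (a * b) := by group
      _ = a * b := by rw [h1, inv_one, one_mul]

end Cfsg.Agent.S1781
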