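import Cfsg.Statements.S1782
import Cfsg.Agent.Lib.Helper30.TIFamily

set_option autoImplicit false
open Cfsg

namespace Cfsg.Agent.S1782

/-- Let S be a finite 2-group and Δ a set of subgroups of S closed under conjugation by S, all of the same order, each with nontrivial Frattini subgroup, and such that two distinct members of Δ meet trivially. Then any two distinct members of Δ commute elementwise. -/
theorem result {S : Type*} [Group S] [Finite S] (hS : IsPGroup 2 S)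
    (Δ : Set (Subgroup S)) (hinv : ∀ s : S, ∀ R ∈ Δ, R.map (MulAut.conj s).toMonoidHom ∈ Δ)
    (hΦ : ∀ R ∈ Δ, frattini ↥R ≠ ⊥) (hord : ∀ R ∈ Δ, ∀ T ∈ Δ, Nat.card ↥R = Nat.card ↥T)
    (hti : ∀ R ∈ Δ, ∀ T ∈ Δ, R = T ∨ R ⊓ T = ⊥) :
    ∀ R ∈ Δ, ∀ T ∈ Δ, R ≠ T → ⁅R, T⁆ = ⊥ := by
  have hsq : ∀ R ∈ Δ, ∃ u ∈ R, u ^ 2 ≠ 1 := by
    intro R hR
    obtain ⟨u, hu⟩ := Cfsg.Agent.Lib.Helper30.exists_sq_ne_one_of_frattini_ne_bot (hΦ R hR)
    refine ⟨u, u.2, ?_⟩
    intro h
    exact hu (Subtype.ext (by simpa using h))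
  have key := Cfsg.Agent.Lib.Helper30.tiFamily_commute hS Δ hinv hsq hord hti
  intro R hR T hT hne
  rw [Subgroup.commutator_eq_bot_iff_le_centralizer]
  intro x hx
  rw [Subgroup.mem_centralizer_iff]
  intro y hy
  exact (key R hR T hT hne x hx y hy).symm

end Cfsg.Agent.S1782
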