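import Cfsg.Statements.S1783
import Cfsg.Agent.Lib.Helper30.TIFamily2
import Cfsg.Agent.Lib.Helper30.Bender

set_option autoImplicit false
open Cfsg

namespace Cfsg.Agent.S1783

/-- Let X be a finite group whose generalized Fitting subgroup equals its largest normal 2-subgroup Q, and let A be an abelian 2-subgroup of X such that every conjugate of A equals A or meets A trivially. Let B be the subgroup generated by the squares of the elements of A. Then B lies in Q, and if B is not an elementary abelian 2-group then the normal closure of B in X is commutative. -/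
theorem result {X : Type*} [Group X] [Finite X]
    (hX : Cfsg.generalizedFittingSubgroup X = Cfsg.pCore 2 X) (A : Subgroup X) (hA2 : IsPGroup 2 ↥A) (hAa : IsMulCommutative ↥A)
    (hti : ∀ h : X, A.map (MulAut.conj h).toMonoidHom = A ∨ A.map (MulAut.conj h).toMonoidHom ⊓ A = ⊥) :
    Subgroup.closure ((fun a : X => a ^ 2) '' (A : Set X)) ≤ Cfsg.pCore 2 X ∧
      (¬ Cfsg.IsElementaryAbelian 2 (Subgroup.closure ((fun a : X => a ^ 2) '' (A : Set X))) →
        IsMulCommutative ↥(Subgroup.normalClosure ((fun a : X => a ^ 2) '' (A : Set X)))) := by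
  classical
  have hp2 : Fact (Nat.Prime 2) := ⟨Nat.prime_two⟩
  have hQn : (Cfsg.pCore 2 X).Normal := Cfsg.Agent.Lib.Helper30.pCore_normal' 2 X
  have hQp : IsPGroup 2 (Cfsg.pCore 2 X) := Cfsg.Agent.Lib.Helper30.pCore_isPGroup' 2 X
  have hCQ : Subgroup.centralizer (Cfsg.pCore 2 X : Set X) ≤ Cfsg.pCore 2 X := by
    have h := Cfsg.Agent.Lib.Helper30.centralizer_generalizedFittingSubgroup_le X
    rwa [hX] at h
  have hcardconj : ∀ (R : Subgroup X) (g : X),
      Nat.card (R.map (MulAut.conj g).toMonoidHom) = Nat.card R := by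
    intro R g
    exact Nat.card_congr (R.equivMapOfInjective _ (MulAut.conj g).injective).symm.toEquiv
  have hsqconj : ∀ (g u : X), u ^ 2 ≠ 1 → (g * u * g⁻¹) ^ 2 ≠ 1 := by
    intro g u hu h
    rw [conj_pow] at h
    apply hu
    have h1 : u ^ 2 = g⁻¹ * (g * u ^ 2 * g⁻¹) * g := by group
    rw [h1, h]; group
  -- part 1
  have part1 : Subgroup.closure ((fun a : X => a ^ 2) '' (A : Set X)) ≤ Cfsg.pCore 2 X := by
    by_cases hA : ∀ a ∈ A, a ^ 2 = 1
    · rw [Subgroup.closure_le]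
      rintro _ ⟨a, ha, rfl⟩
      show a ^ 2 ∈ Cfsg.pCore 2 X
      rw [hA a ha]; exact Subgroup.one_mem _
    · push Not at hA
      obtain ⟨u, huA, hu2⟩ := hA
      have hPp : IsPGroup 2 (A ⊔ Cfsg.pCore 2 X : Subgroup X) := hA2.to_sup_of_normal_right hQp
      have hcomm := Cfsg.Agent.Lib.Helper30.tiFamily_commute' (A ⊔ Cfsg.pCore 2 X) hPp
        {R | ∃ g ∈ A ⊔ Cfsg.pCore 2 X, R = A.map (MulAut.conj g).toMonoidHom} ?_ ?_ ?_ ?_ ?_
      · have key1 : ∀ a ∈ A, ∀ q ∈ Cfsg.pCore 2 X, (q * a * q⁻¹) * a = a * (q * a * q⁻¹) := by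
          intro a ha q hq
          by_cases hc : A.map (MulAut.conj q).toMonoidHom = A
          · have h1 : q * a * q⁻¹ ∈ A := by
              have h2 := Cfsg.Agent.Lib.Helper30.conj_mem_map_conj (s := q) ha
              rwa [hc] at h2
            exact setLike_mul_comm h1 ha
          · exact hcomm _ ⟨q, Subgroup.mem_sup_right hq, rfl⟩ A
              ⟨1, Subgroup.one_mem _, (Cfsg.Agent.Lib.Helper30.map_conj_one A).symm⟩ hc _
              (Cfsg.Agent.Lib.Helper30.conj_mem_map_conj ha) a ha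
        have hQ2n : (Subgroup.closure ((fun a : X => a ^ 2) '' (Cfsg.pCore 2 X : Set X))).Normal := by
          constructor
          intro n hn g
          exact Cfsg.Agent.Lib.Helper30.closure_sq_conj _ g (fun q hq => hQn.conj_mem q hq g) n hn
        obtain ⟨K, hKn, hK⟩ := Cfsg.Agent.Lib.Helper30.exists_kernel_mod (Cfsg.pCore 2 X)
          (Subgroup.closure ((fun a : X => a ^ 2) '' (Cfsg.pCore 2 X : Set X))) hQn hQ2n
        have hK2 : IsPGroup 2 K := by
          apply Cfsg.Agent.Lib.Helper30.isPGroup_two_of_odd_trivial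
          intro x r hr hr2 hxr
          have hxr' : (x : X) ^ r = 1 := by
            have := congrArg Subtype.val hxr
            simpa using this
          have hcent := Cfsg.Agent.Lib.Helper30.centralizes_of_commutator_mem_sq (Cfsg.pCore 2 X) hQp
            (x : X) r hr hr2 hxr' ((hK x).1 x.2)
          have hxQ : (x : X) ∈ Cfsg.pCore 2 X := by
            apply hCQ
            rw [Subgroup.mem_centralizer_iff]
            intro q hq
            exact hcent q hq
          obtain ⟨k, hk⟩ := hQp ⟨x, hxQ⟩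
          have hk' : (x : X) ^ 2 ^ k = 1 := by
            have := congrArg Subtype.val hk
            simpa using this
          have h1 : orderOf (x : X) ∣ 2 ^ k := orderOf_dvd_of_pow_eq_one hk'
          have h2 : orderOf (x : X) ∣ r := orderOf_dvd_of_pow_eq_one hxr'
          have hcop : Nat.gcd (2 ^ k) r = 1 :=
            Nat.Coprime.pow_left k ((Nat.coprime_primes Nat.prime_two hr).2 (Ne.symm hr2))
          have h3 : orderOf (x : X) ∣ 1 := by
            rw [← hcop]; exact Nat.dvd_gcd h1 h2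
          have h4 : (x : X) = 1 := orderOf_eq_one_iff.1 (Nat.dvd_one.1 h3)
          exact Subtype.ext h4
        have hKQ : K ≤ Cfsg.pCore 2 X := Cfsg.Agent.Lib.Helper30.le_pCore' 2 K hKn hK2
        refine le_trans ?_ hKQ
        rw [Subgroup.closure_le]
        rintro _ ⟨a, ha, rfl⟩
        show a ^ 2 ∈ K
        rw [hK]
        intro q hq
        have hb := key1 a ha q hq
        have hcm : Commute (q * a * q⁻¹) a⁻¹ := (show Commute (q * a * q⁻¹) a from hb).inv_right
        have h1 : q * a ^ 2 * q⁻¹ * (a ^ 2)⁻¹ = (q * a * q⁻¹ * a⁻¹) ^ 2 := by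
          rw [hcm.mul_pow 2, conj_pow, inv_pow]
        rw [h1]
        apply Subgroup.subset_closure
        refine ⟨q * a * q⁻¹ * a⁻¹, ?_, rfl⟩
        have h2 : q * a * q⁻¹ * a⁻¹ = q * (a * q⁻¹ * a⁻¹) := by group
        rw [h2]
        exact Subgroup.mul_mem _ hq (hQn.conj_mem q⁻¹ (Subgroup.inv_mem _ hq) a)
      · rintro R ⟨g, hg, rfl⟩ x hx
        rw [Cfsg.Agent.Lib.Helper30.mem_map_conj] at hx
        have h1 : x = g * (g⁻¹ * x * g) * g⁻¹ := by group
        rw [h1]
        exact Subgroup.mul_mem _ (Subgroup.mul_mem _ hg (Subgroup.mem_sup_left hx))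
          (Subgroup.inv_mem _ hg)
      · rintro s hs R ⟨g, hg, rfl⟩
        exact ⟨s * g, Subgroup.mul_mem _ hs hg, Cfsg.Agent.Lib.Helper30.map_conj_map_conj A s g⟩
      · rintro R ⟨g, hg, rfl⟩
        exact ⟨g * u * g⁻¹, Cfsg.Agent.Lib.Helper30.conj_mem_map_conj huA, hsqconj g u hu2⟩
      · rintro R ⟨g, hg, rfl⟩ T ⟨h, hh, rfl⟩
        rw [hcardconj, hcardconj]
      · rintro R ⟨g, hg, rfl⟩ T ⟨h, hh, rfl⟩
        exact Cfsg.Agent.Lib.Helper30.ti_conj A A le_rfl hti (fun _ h => h) g h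
  refine ⟨part1, fun hnel => ?_⟩
  have hBA : Subgroup.closure ((fun a : X => a ^ 2) '' (A : Set X)) ≤ A := by
    rw [Subgroup.closure_le]
    rintro _ ⟨a, ha, rfl⟩
    exact A.pow_mem ha 2
  have hBc : ∀ x ∈ Subgroup.closure ((fun a : X => a ^ 2) '' (A : Set X)),
      ∀ y ∈ Subgroup.closure ((fun a : X => a ^ 2) '' (A : Set X)), x * y = y * x :=
    fun x hx y hy => setLike_mul_comm (hBA hx) (hBA hy)
  have hBcomm : IsMulCommutative ↥(Subgroup.closure ((fun a : X => a ^ 2) '' (A : Set X))) :=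
    ⟨⟨fun x y => Subtype.ext (hBc x x.2 y y.2)⟩⟩
  have hex : ∃ b ∈ Subgroup.closure ((fun a : X => a ^ 2) '' (A : Set X)), b ^ 2 ≠ 1 := by
    by_contra h
    push Not at h
    exact hnel ⟨hBcomm, h⟩
  obtain ⟨b, hbB, hb2⟩ := hex
  have hBinv : ∀ h : X, A.map (MulAut.conj h).toMonoidHom = A →
      (Subgroup.closure ((fun a : X => a ^ 2) '' (A : Set X))).map (MulAut.conj h).toMonoidHom =
        Subgroup.closure ((fun a : X => a ^ 2) '' (A : Set X)) := by
    intro h hh
    rw [MonoidHom.map_closure]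
    congr 1
    have h1 : ((MulAut.conj h).toMonoidHom : X → X) '' ((fun a : X => a ^ 2) '' (A : Set X)) =
        (fun a : X => a ^ 2) '' (((MulAut.conj h).toMonoidHom : X → X) '' (A : Set X)) := by
      rw [Set.image_image, Set.image_image]
      apply Set.image_congr
      intro a _
      exact map_pow _ a 2
    rw [h1, ← Subgroup.coe_map, hh]
  have hcomm2 := Cfsg.Agent.Lib.Helper30.tiFamily_commute' (Cfsg.pCore 2 X) hQp
    {R | ∃ g : X, R = (Subgroup.closure ((fun a : X => a ^ 2) '' (A : Set X))).map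
      (MulAut.conj g).toMonoidHom} ?_ ?_ ?_ ?_ ?_
  · unfold Subgroup.normalClosure
    apply Subgroup.isMulCommutative_closure
    intro x hx y hy
    rw [Group.mem_conjugatesOfSet_iff] at hx hy
    obtain ⟨_, ⟨a, ha, rfl⟩, hconj⟩ := hx
    obtain ⟨_, ⟨a', ha', rfl⟩, hconj'⟩ := hy
    rw [isConj_iff] at hconj hconj'
    obtain ⟨c, rfl⟩ := hconj
    obtain ⟨d, rfl⟩ := hconj'
    have hxm : c * a ^ 2 * c⁻¹ ∈ (Subgroup.closure ((fun a : X => a ^ 2) '' (A : Set X))).map
        (MulAut.conj c).toMonoidHom :=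
      Cfsg.Agent.Lib.Helper30.conj_mem_map_conj (Subgroup.subset_closure ⟨a, ha, rfl⟩)
    have hym : d * a' ^ 2 * d⁻¹ ∈ (Subgroup.closure ((fun a : X => a ^ 2) '' (A : Set X))).map
        (MulAut.conj d).toMonoidHom :=
      Cfsg.Agent.Lib.Helper30.conj_mem_map_conj (Subgroup.subset_closure ⟨a', ha', rfl⟩)
    by_cases hcd : (Subgroup.closure ((fun a : X => a ^ 2) '' (A : Set X))).map
        (MulAut.conj c).toMonoidHom = (Subgroup.closure ((fun a : X => a ^ 2) '' (A : Set X))).map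
        (MulAut.conj d).toMonoidHom
    · rw [← hcd, Cfsg.Agent.Lib.Helper30.mem_map_conj] at hym
      have h1 := hBc _ (Subgroup.subset_closure ⟨a, ha, rfl⟩) _ hym
      show c * a ^ 2 * c⁻¹ * (d * a' ^ 2 * d⁻¹) = d * a' ^ 2 * d⁻¹ * (c * a ^ 2 * c⁻¹)
      calc c * a ^ 2 * c⁻¹ * (d * a' ^ 2 * d⁻¹)
          = c * (a ^ 2 * (c⁻¹ * (d * a' ^ 2 * d⁻¹) * c)) * c⁻¹ := by group
        _ = c * ((c⁻¹ * (d * a' ^ 2 * d⁻¹) * c) * a ^ 2) * c⁻¹ := by rw [h1]
        _ = d * a' ^ 2 * d⁻¹ * (c * a ^ 2 * c⁻¹) := by group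
    · exact hcomm2 _ ⟨c, rfl⟩ _ ⟨d, rfl⟩ hcd _ hxm _ hym
  · rintro R ⟨g, rfl⟩ x hx
    rw [Cfsg.Agent.Lib.Helper30.mem_map_conj] at hx
    have h1 : x = g * (g⁻¹ * x * g) * g⁻¹ := by group
    rw [h1]
    exact hQn.conj_mem _ (part1 hx) g
  · rintro s hs R ⟨g, rfl⟩
    exact ⟨s * g, Cfsg.Agent.Lib.Helper30.map_conj_map_conj _ s g⟩
  · rintro R ⟨g, rfl⟩
    exact ⟨g * b * g⁻¹, Cfsg.Agent.Lib.Helper30.conj_mem_map_conj hbB, hsqconj g b hb2⟩
  · rintro R ⟨g, rfl⟩ T ⟨h, rfl⟩
    rw [hcardconj, hcardconj]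
  · rintro R ⟨g, rfl⟩ T ⟨h, rfl⟩
    exact Cfsg.Agent.Lib.Helper30.ti_conj A _ hBA hti hBinv g h

end Cfsg.Agent.S1783
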