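import Cfsg.Statements.S1784
import Cfsg.Agent.Lib.Helper30.Extraspecial3
import Cfsg.Agent.Lib.Helper30.Bender

set_option autoImplicit false
open Cfsg

namespace Cfsg.Agent.S1784

/-- Let G be a finite group and let z be an involution of G such that Q, the generalized Fitting subgroup of the centralizer C of z, is a 2-group of symplectic type (every characteristic abelian subgroup of Q is cyclic); suppose Q is extraspecial, and view Q inside G. Let α be an involution of C that is not in Q, and let Q₀ be the subgroup of those q ∈ Q whose commutator with α lies in the subgroup generated by z. Then (a) the subgroup generated by the commutators α q α⁻¹ q⁻¹, q ∈ Q, equals the centre of Q₀; and (b) if Q₀ is not contained in the product of the centralizer of α in Q with the subgroup generated by z, then some element of Q conjugates α to α z. -/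
theorem result {G : Type*} [Group G] [Finite G] (z : G) (hz : orderOf z = 2) (hQ : Cfsg.IsOfSymplecticType ↥(Cfsg.generalizedFittingSubgroup ↥(Subgroup.centralizer ({z} : Set G)))) (hE : Cfsg.IsExtraspecial 2 ↥(Cfsg.generalizedFittingSubgroup ↥(Subgroup.centralizer ({z} : Set G))))
    (α : G) (hα : orderOf α = 2) (hαC : α ∈ Subgroup.centralizer ({z} : Set G)) (hαQ : α ∉ (Cfsg.generalizedFittingSubgroup ↥(Subgroup.centralizer ({z} : Set G))).map (Subgroup.centralizer ({z} : Set G)).subtype)
    (Q₀ : Subgroup G) (hQ₀ : ∀ q : G, q ∈ Q₀ ↔ (q ∈ (Cfsg.generalizedFittingSubgroup ↥(Subgroup.centralizer ({z} : Set G))).map (Subgroup.centralizer ({z} : Set G)).subtype ∧ α * q * α⁻¹ * q⁻¹ ∈ Subgroup.zpowers z)) :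
    Subgroup.closure ((fun q : G => α * q * α⁻¹ * q⁻¹) '' ((Cfsg.generalizedFittingSubgroup ↥(Subgroup.centralizer ({z} : Set G))).map (Subgroup.centralizer ({z} : Set G)).subtype : Set G)) = (Subgroup.center ↥Q₀).map Q₀.subtype ∧
      (¬ Q₀ ≤ ((Cfsg.generalizedFittingSubgroup ↥(Subgroup.centralizer ({z} : Set G))).map (Subgroup.centralizer ({z} : Set G)).subtype ⊓ Subgroup.centralizer ({α} : Set G)) ⊔ Subgroup.zpowers z →
        ∃ q ∈ (Cfsg.generalizedFittingSubgroup ↥(Subgroup.centralizer ({z} : Set G))).map (Subgroup.centralizer ({z} : Set G)).subtype, q * α * q⁻¹ = α * z) := by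
  classical
  have hzz : z * z = 1 := by
    rw [← pow_two, ← hz]; exact pow_orderOf_eq_one z
  have hz1 : z ≠ 1 := by
    intro h
    rw [h, orderOf_one] at hz
    omega
  have hαα : α * α = 1 := by
    rw [← pow_two, ← hα]; exact pow_orderOf_eq_one α
  have hzC : z ∈ Subgroup.centralizer ({z} : Set G) := by
    rw [Subgroup.mem_centralizer_iff]
    intro h hh
    rw [Set.mem_singleton_iff] at hh
    rw [hh]
  have hzc : ∀ c ∈ Subgroup.centralizer ({z} : Set G), z * c = c * z := by
    intro c hc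
    exact Subgroup.mem_centralizer_iff.1 hc z rfl
  have hB := Cfsg.Agent.Lib.Helper30.centralizer_generalizedFittingSubgroup_le
    ↥(Subgroup.centralizer ({z} : Set G))
  have hFn := Cfsg.Agent.Lib.Helper29.generalizedFittingSubgroup_normal
    ↥(Subgroup.centralizer ({z} : Set G))
  have d := Cfsg.Agent.Lib.Helper30.classTwoData_of_extraspecial (Subgroup.centralizer ({z} : Set G))
    (Cfsg.generalizedFittingSubgroup ↥(Subgroup.centralizer ({z} : Set G))) hE hB z hzC hzc hz1 hzz
  have hαz : α * z = z * α := (hzc α hαC).symm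
  have hαQ' : ∀ q ∈ (Cfsg.generalizedFittingSubgroup ↥(Subgroup.centralizer ({z} : Set G))).map
      (Subgroup.centralizer ({z} : Set G)).subtype,
      α * q * α⁻¹ ∈ (Cfsg.generalizedFittingSubgroup ↥(Subgroup.centralizer ({z} : Set G))).map
        (Subgroup.centralizer ({z} : Set G)).subtype := by
    rintro _ ⟨q, hq, rfl⟩
    exact ⟨⟨α, hαC⟩ * q * ⟨α, hαC⟩⁻¹, hFn.conj_mem q hq ⟨α, hαC⟩, rfl⟩
  have hαn : ∃ q ∈ (Cfsg.generalizedFittingSubgroup ↥(Subgroup.centralizer ({z} : Set G))).map
      (Subgroup.centralizer ({z} : Set G)).subtype, α * q ≠ q * α := by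
    by_contra hcon
    push Not at hcon
    apply hαQ
    have h1 : (⟨α, hαC⟩ : ↥(Subgroup.centralizer ({z} : Set G))) ∈
        Cfsg.generalizedFittingSubgroup ↥(Subgroup.centralizer ({z} : Set G)) := by
      apply hB
      rw [Subgroup.mem_centralizer_iff]
      intro h hh
      apply Subtype.ext
      exact (hcon (h : G) ⟨h, hh, rfl⟩).symm
    exact ⟨⟨α, hαC⟩, h1, rfl⟩
  have hQ₀' : ∀ q : G, q ∈ Q₀ ↔
      (q ∈ (Cfsg.generalizedFittingSubgroup ↥(Subgroup.centralizer ({z} : Set G))).map
        (Subgroup.centralizer ({z} : Set G)).subtype ∧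
        (α * q * α⁻¹ * q⁻¹ = 1 ∨ α * q * α⁻¹ * q⁻¹ = z)) := by
    intro q
    rw [hQ₀ q, Cfsg.Agent.Lib.Helper30.mem_zpowers_of_sq hzz]
  refine ⟨d.closure_comm_eq_center α hαα hαz hαQ' hαn Q₀ hQ₀', ?_⟩
  intro hnot
  obtain ⟨q, hqQ₀, hqn⟩ : ∃ q, q ∈ Q₀ ∧ q ∉
      ((Cfsg.generalizedFittingSubgroup ↥(Subgroup.centralizer ({z} : Set G))).map
        (Subgroup.centralizer ({z} : Set G)).subtype ⊓ Subgroup.centralizer ({α} : Set G)) ⊔
        Subgroup.zpowers z := by
    by_contra hcon
    push Not at hcon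
    exact hnot hcon
  obtain ⟨hqQ, hθ⟩ := (hQ₀' q).1 hqQ₀
  refine ⟨q, hqQ, ?_⟩
  rcases hθ with h | h
  · exfalso
    apply hqn
    apply Subgroup.mem_sup_left
    refine Subgroup.mem_inf.2 ⟨hqQ, ?_⟩
    rw [Subgroup.mem_centralizer_iff]
    intro y hy
    rw [Set.mem_singleton_iff] at hy
    rw [hy]
    calc α * q = (α * q * α⁻¹ * q⁻¹) * (q * α) := by group
      _ = q * α := by rw [h, one_mul]
  · have hzinv : z⁻¹ = z := inv_eq_of_mul_eq_one_left hzz
    calc q * α * q⁻¹ = (α * q * α⁻¹ * q⁻¹)⁻¹ * α := by group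
      _ = z⁻¹ * α := by rw [h]
      _ = z * α := by rw [hzinv]
      _ = α * z := hαz.symm

end Cfsg.Agent.S1784
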