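import Cfsg.Statements.S1785
import Cfsg.Agent.Lib.Helper30.ElemAb

set_option autoImplicit false
open Cfsg

namespace Cfsg.Agent.S1785

/-- Let X be a finite 2-group having a normal elementary abelian subgroup of order at least 32. Then (a) for any two elementary abelian subgroups A, B of X of order 8 there is a chain A = A₁, A₂, …, Aₙ = B of elementary abelian subgroups of order 8 in which consecutive members commute elementwise; and (b) every elementary abelian subgroup of X of order 4 is contained in an elementary abelian subgroup of order 8. -/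
theorem result {X : Type*} [Group X] [Finite X]
    (hX : IsPGroup 2 X) (E : Subgroup X) [E.Normal] (hE : Cfsg.IsElementaryAbelian 2 E) (hE32 : 32 ≤ Nat.card ↥E) :
    (∀ A B : Subgroup X, Cfsg.IsElementaryAbelian 2 A → Nat.card ↥A = 8 → Cfsg.IsElementaryAbelian 2 B → Nat.card ↥B = 8 →
        Relation.ReflTransGen
          (fun C D : Subgroup X => Cfsg.IsElementaryAbelian 2 C ∧ Nat.card ↥C = 8 ∧ Cfsg.IsElementaryAbelian 2 D ∧ Nat.card ↥D = 8 ∧ ⁅C, D⁆ = ⊥)
          A B) ∧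
      (∀ V : Subgroup X, Cfsg.IsElementaryAbelian 2 V → Nat.card ↥V = 4 →
        ∃ A : Subgroup X, V ≤ A ∧ Cfsg.IsElementaryAbelian 2 A ∧ Nat.card ↥A = 8) := by
  classical
  obtain ⟨hEcI, hE2⟩ := hE
  have hEn : E.Normal := inferInstance
  have hEc : ∀ x ∈ E, ∀ y ∈ E, x * y = y * x := fun x hx y hy => setLike_mul_comm hx hy
  have toElAb : ∀ A : Subgroup X, (∀ x ∈ A, ∀ y ∈ A, x * y = y * x) → (∀ x ∈ A, x ^ 2 = 1) →
      Cfsg.IsElementaryAbelian 2 A :=
    fun A h1 h2 => ⟨⟨⟨fun x y => Subtype.ext (h1 x x.2 y y.2)⟩⟩, h2⟩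
  have ofElAb : ∀ A : Subgroup X, Cfsg.IsElementaryAbelian 2 A →
      (∀ x ∈ A, ∀ y ∈ A, x * y = y * x) := by
    intro A h x hx y hy
    have := h.1
    exact setLike_mul_comm hx hy
  have partb : ∀ V : Subgroup X, Cfsg.IsElementaryAbelian 2 V → Nat.card ↥V = 4 →
      ∃ A : Subgroup X, V ≤ A ∧ Cfsg.IsElementaryAbelian 2 A ∧ Nat.card ↥A = 8 := by
    intro V hV hV4
    obtain ⟨e, heE, hec, heV⟩ := Cfsg.Agent.Lib.Helper30.exists_centralizing_not_mem E hEn hEc hE2
      hE32 V (ofElAb V hV) hV.2 (by rw [hV4]; norm_num)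
    obtain ⟨A, hVA, heA, hAc, hA2, hAcard, -⟩ := Cfsg.Agent.Lib.Helper30.exists_elab_extension V
      (ofElAb V hV) hV.2 e (hE2 e heE) hec heV
    exact ⟨A, hVA, toElAb A hAc hA2, by rw [hAcard, hV4]⟩
  refine ⟨?_, partb⟩
  have step : ∀ A : Subgroup X, Cfsg.IsElementaryAbelian 2 A → Nat.card ↥A = 8 → ¬ A ≤ E →
      ∃ A' : Subgroup X, Cfsg.IsElementaryAbelian 2 A' ∧ Nat.card ↥A' = 8 ∧ ⁅A, A'⁆ = ⊥ ∧
        Nat.card ↥(A ⊓ E) < Nat.card ↥(A' ⊓ E) := by
    intro A hA hA8 hAE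
    have hAc := ofElAb A hA
    obtain ⟨e, heE, hec, heA⟩ := Cfsg.Agent.Lib.Helper30.exists_centralizing_not_mem E hEn hEc hE2
      hE32 A hAc hA.2 (by rw [hA8])
    have hlt : A ⊓ E < A := lt_of_le_of_ne inf_le_left (fun h => hAE (inf_eq_left.1 h))
    have hAp : IsPGroup 2 A := hX.to_subgroup A
    obtain ⟨V, hCV, hVA, hidx⟩ := Cfsg.Agent.Lib.Helper30.exists_index_two_of_lt hAp hlt
    have hV4 : Nat.card V = 4 := by
      have h1 := Subgroup.card_mul_index (V.subgroupOf A)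
      have h2 : Nat.card (V.subgroupOf A) = Nat.card V :=
        Nat.card_congr (Subgroup.subgroupOfEquivOfLe hVA).toEquiv
      rw [h2, hidx, hA8] at h1
      omega
    have hVc : ∀ x ∈ V, ∀ y ∈ V, x * y = y * x := fun x hx y hy => hAc x (hVA hx) y (hVA hy)
    have hV2 : ∀ x ∈ V, x ^ 2 = 1 := fun x hx => hA.2 x (hVA hx)
    obtain ⟨A', hVA', heA', hA'c, hA'2, hA'card, hA'dec⟩ :=
      Cfsg.Agent.Lib.Helper30.exists_elab_extension V hVc hV2 e (hE2 e heE)
        (fun x hx => hec x (hVA hx)) (fun h => heA (hVA h))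
    refine ⟨A', toElAb A' hA'c hA'2, by rw [hA'card, hV4], ?_, ?_⟩
    · rw [Subgroup.commutator_eq_bot_iff_le_centralizer]
      intro x hx
      rw [Subgroup.mem_centralizer_iff]
      intro y hy
      rcases hA'dec y hy with h | h
      · exact hAc y (hVA h) x hx
      · have h1 := hAc (y * e) (hVA h) x hx
        have h2 := hec x hx
        have h3 : e⁻¹ * x = x * e⁻¹ := by
          calc e⁻¹ * x = e⁻¹ * (x * e) * e⁻¹ := by group
            _ = e⁻¹ * (e * x) * e⁻¹ := by rw [h2]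
            _ = x * e⁻¹ := by group
        calc y * x = (y * e) * (e⁻¹ * x) := by group
          _ = (y * e) * (x * e⁻¹) := by rw [h3]
          _ = ((y * e) * x) * e⁻¹ := by group
          _ = (x * (y * e)) * e⁻¹ := by rw [h1]
          _ = x * y := by group
    · have hsub : A ⊓ E ≤ A' ⊓ E := le_inf (hCV.trans hVA') inf_le_right
      by_contra hnot
      push Not at hnot
      have heq : A ⊓ E = A' ⊓ E := Subgroup.eq_of_le_of_card_ge hsub hnot
      have h1 : e ∈ A' ⊓ E := Subgroup.mem_inf.2 ⟨heA', heE⟩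
      rw [← heq] at h1
      exact heA h1.1
  have reach : ∀ n : ℕ, ∀ A : Subgroup X, Cfsg.IsElementaryAbelian 2 A → Nat.card ↥A = 8 →
      8 - Nat.card ↥(A ⊓ E) ≤ n →
      ∃ A'' : Subgroup X, Cfsg.IsElementaryAbelian 2 A'' ∧ Nat.card ↥A'' = 8 ∧ A'' ≤ E ∧
        Relation.ReflTransGen
          (fun C D : Subgroup X => Cfsg.IsElementaryAbelian 2 C ∧ Nat.card ↥C = 8 ∧
            Cfsg.IsElementaryAbelian 2 D ∧ Nat.card ↥D = 8 ∧ ⁅C, D⁆ = ⊥) A A'' := by
    intro n
    induction n with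
    | zero =>
      intro A hA hA8 hn
      have hle : Nat.card A ≤ Nat.card ↥(A ⊓ E) := by omega
      have h1 : A ⊓ E = A := Subgroup.eq_of_le_of_card_ge inf_le_left hle
      exact ⟨A, hA, hA8, inf_eq_left.1 h1, Relation.ReflTransGen.refl⟩
    | succ n ih =>
      intro A hA hA8 hn
      by_cases hAE : A ≤ E
      · exact ⟨A, hA, hA8, hAE, Relation.ReflTransGen.refl⟩
      · obtain ⟨A', hA', hA'8, hcomm, hlt⟩ := step A hA hA8 hAE
        obtain ⟨A'', h1, h2, h3, h4⟩ := ih A' hA' hA'8 (by omega)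
        exact ⟨A'', h1, h2, h3, Relation.ReflTransGen.head ⟨hA, hA8, hA', hA'8, hcomm⟩ h4⟩
  have hsymm : ∀ C D : Subgroup X,
      Relation.ReflTransGen
        (fun C D : Subgroup X => Cfsg.IsElementaryAbelian 2 C ∧ Nat.card ↥C = 8 ∧
          Cfsg.IsElementaryAbelian 2 D ∧ Nat.card ↥D = 8 ∧ ⁅C, D⁆ = ⊥) C D →
      Relation.ReflTransGen
        (fun C D : Subgroup X => Cfsg.IsElementaryAbelian 2 C ∧ Nat.card ↥C = 8 ∧
          Cfsg.IsElementaryAbelian 2 D ∧ Nat.card ↥D = 8 ∧ ⁅C, D⁆ = ⊥) D C := by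
    intro C D h
    induction h with
    | refl => exact Relation.ReflTransGen.refl
    | tail _ hbc ih =>
      obtain ⟨h1, h2, h3, h4, h5⟩ := hbc
      exact Relation.ReflTransGen.head ⟨h3, h4, h1, h2, by rw [Subgroup.commutator_comm]; exact h5⟩ ih
  intro A B hA hA8 hB hB8
  obtain ⟨A'', hA''1, hA''2, hA''3, hA''4⟩ := reach 8 A hA hA8 (by omega)
  obtain ⟨B'', hB''1, hB''2, hB''3, hB''4⟩ := reach 8 B hB hB8 (by omega)
  have hmid : ⁅A'', B''⁆ = ⊥ := by
    rw [Subgroup.commutator_eq_bot_iff_le_centralizer]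
    intro x hx
    rw [Subgroup.mem_centralizer_iff]
    intro y hy
    exact hEc y (hB''3 hy) x (hA''3 hx)
  exact (hA''4.trans (Relation.ReflTransGen.single ⟨hA''1, hA''2, hB''1, hB''2, hmid⟩)).trans
    (hsymm B B'' hB''4)

end Cfsg.Agent.S1785
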