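import Cfsg.Statements.S1850
import Cfsg.Agent.Lib.Helper31.EvenChar

set_option autoImplicit false
open Cfsg

namespace Cfsg.Agent.S1850

/-- Let G be a non-abelian finite simple QTKE-group and T a Sylow 2-subgroup of G. If U is a nontrivial 2-subgroup of G with U ∩ Z(T) ≠ 1, then F*(N_G(U)) = O₂(N_G(U)). -/
theorem result {G : Type*} [Group G] [Finite G] [IsSimpleGroup G]
    (hG : ¬ IsMulCommutative G) (hQ : Cfsg.IsQTKE G) (T : Sylow 2 G) (U : Subgroup G)
    (hU : IsPGroup 2 ↥U) (hZ : U ⊓ ((T : Subgroup G) ⊓ Subgroup.centralizer ((T : Subgroup G) : Set G)) ≠ ⊥) :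
    Subgroup.normalizer (U : Set G) ∈ Cfsg.calHe G := by
  classical
  obtain ⟨⟨z, hzU, hzT, hzC⟩, hz1⟩ := (Subgroup.ne_bot_iff_exists_ne_one).mp hZ
  have hz1' : z ≠ 1 := fun h => hz1 (Subtype.ext h)
  set Z : Subgroup G := Subgroup.zpowers z with hZdef
  set M : Subgroup G := Subgroup.normalizer (Z : Set G) with hMdef
  have hZT : Z ≤ (T : Subgroup G) := (Subgroup.zpowers_le).mpr hzT
  have hZp : IsPGroup 2 Z := T.isPGroup'.to_le hZT
  have hZne : Z ≠ ⊥ := (Subgroup.zpowers_ne_bot).mpr hz1'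
  have hZC : Z ≤ Subgroup.centralizer ((T : Subgroup G) : Set G) := (Subgroup.zpowers_le).mpr hzC
  have hTM : (T : Subgroup G) ≤ M :=
    le_trans (Subgroup.le_centralizer_iff.mp hZC) (Subgroup.centralizer_le_normalizer _)
  have hMchar : IsOfCharacteristicTwo ↥M := hQ.2.2 M ⟨Z, hZp, hZne, rfl⟩ ⟨T, hTM⟩
  have hmain := Cfsg.Agent.Lib.Helper31.charp_normalizer_of_centralizer_le (p := 2) M Z U hMchar
    (Subgroup.centralizer_le_normalizer _) ((Subgroup.zpowers_le).mpr hzU) Subgroup.le_normalizer hU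
  show generalizedFittingSubgroup ↥(Subgroup.normalizer (U : Set G)) =
    pCore 2 ↥(Subgroup.normalizer (U : Set G))
  exact Cfsg.Agent.Lib.Helper31.generalizedFittingSubgroup_eq_pCore hmain

end Cfsg.Agent.S1850
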