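import Cfsg.Statements.S1966

set_option autoImplicit false
open Cfsg

namespace Cfsg.Agent.S1966

/-- Let p be a prime, G a finite group with Sylow p-subgroup S and 𝓕 a conjugation family for S in G. Then the members of 𝓕 containing O_p(G) still form a conjugation family for S in G. -/
theorem result {G : Type*} [Group G] [Finite G] {p : ℕ} [Fact p.Prime] (S : Sylow p G) (𝓕 : Set (Subgroup G)) (h : Cfsg.IsConjugationFamily 𝓕 (S : Subgroup G)) : Cfsg.IsConjugationFamily {T : Subgroup G | T ∈ 𝓕 ∧ Cfsg.pCore p G ≤ T} (S : Subgroup G) := by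
  have hN : (pCore p G).Normal := Subgroup.sSup_normal _ (fun N hN => hN.1)
  have hle : pCore p G ≤ (S : Subgroup G) := by
    apply sSup_le
    rintro N ⟨hN1, hN2⟩
    haveI := hN1
    exact hN2.le_sylow_of_normal S
  refine ⟨fun T hT => h.1 T hT.1, ?_⟩
  intro A g hne hA hg
  have hA' : A ∪ (pCore p G : Set G) ⊆ (S : Subgroup G) := Set.union_subset hA hle
  have hg' : (fun a => g⁻¹ * a * g) '' (A ∪ (pCore p G : Set G)) ⊆ (S : Subgroup G) := by
    rw [Set.image_union]
    apply Set.union_subset hg
    rintro _ ⟨a, ha, rfl⟩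
    apply hle
    have := hN.conj_mem a ha g⁻¹
    simpa using this
  obtain ⟨n, T, x, hprod, hT, hx, h0, hstep⟩ := h.2 _ g (hne.mono Set.subset_union_left) hA' hg'
  refine ⟨n, T, x, hprod, ?_, hx, ?_, ?_⟩
  · intro i
    refine ⟨hT i, ?_⟩
    obtain ⟨i, hi⟩ := i
    cases i with
    | zero => exact fun y hy => h0 hi (Or.inr hy)
    | succ j =>
      intro y hy
      have := hstep ⟨j, by omega⟩ hi
      apply this
      refine ⟨((List.ofFn x).take (j + 1)).prod * y * (((List.ofFn x).take (j + 1)).prod)⁻¹,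
        Or.inr (hN.conj_mem y hy _), ?_⟩
      show (((List.ofFn x).take (j + 1)).prod)⁻¹ * (((List.ofFn x).take (j + 1)).prod * y *
        (((List.ofFn x).take (j + 1)).prod)⁻¹) * ((List.ofFn x).take (j + 1)).prod = y
      group
  · intro h; exact Set.subset_union_left.trans (h0 h)
  · intro i hi; exact (Set.image_mono Set.subset_union_left).trans (hstep i hi)

end Cfsg.Agent.S1966
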