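import Cfsg.Statements.S1981
import Cfsg.Agent.Lib.Helper33.KSeq

set_option autoImplicit false
open Cfsg

namespace Cfsg.Agent.S1981

/-- Let P be a finite p-group generated by its abelian normal subgroups. Then both K-infinity subgroups of P equal P. -/
theorem result {P : Type*} [Group P] [Finite P] {p : ℕ} [Fact p.Prime] (hP : IsPGroup p P) (hgen : ⨆ A ∈ {A : Subgroup P | A.Normal ∧ IsMulCommutative ↥A}, A = ⊤) : Cfsg.kInfLower P = ⊤ ∧ Cfsg.kInfUpper P = ⊤ := by
  have key : ∀ A : Subgroup P, A.Normal → IsMulCommutative ↥A →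
      A ≤ Cfsg.kInfLower P ∧ A ≤ Cfsg.kInfUpper P := by
    intro A hAn hA
    obtain ⟨-, h2, h3⟩ := Cfsg.Agent.Lib.Helper33.normal_abelian_mem_families A hA
    refine ⟨?_, ?_⟩
    · exact (le_sSup (h2 (Cfsg.kSeqOdd P 0))).trans (Cfsg.Agent.Lib.Helper33.kSeqEven_le_kInfLower 0)
    · refine le_iInf fun n => ?_
      cases n with
      | zero => rw [Cfsg.Agent.Lib.Helper33.kSeqOdd_zero]; exact le_top
      | succ n =>
        rw [Cfsg.Agent.Lib.Helper33.kSeqOdd_succ]
        exact le_sSup (h3 _)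
  constructor
  · rw [eq_top_iff, ← hgen]
    exact iSup₂_le fun A hA => (key A hA.1 hA.2).1
  · rw [eq_top_iff, ← hgen]
    exact iSup₂_le fun A hA => (key A hA.1 hA.2).2

end Cfsg.Agent.S1981
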