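import Cfsg.Statements.S1985
import Cfsg.Agent.Lib.Helper33.K6

set_option autoImplicit false
universe u
open Cfsg

namespace Cfsg.Agent.S1985

/-- Let p be an odd prime and G a finite group. Then the lower K-infinity subgroup controls weak closure of elements in G: the lower K-infinity subgroup of every p-subgroup P of G contains Z(P), and for some (equivalently, every) Sylow p-subgroup S of G, with K the lower K-infinity subgroup of S, every element of S commuting with all of N_G(K) is weakly closed in S with respect to G (every G-conjugate of it lying in S equals it). -/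
theorem result {G : Type u} [Group G] [Finite G] {p : ℕ} [Fact p.Prime] (hp : p ≠ 2) : Cfsg.ControlsWeakClosureOfElementsIn p (Cfsg.inducedFunctor (G := G) Cfsg.kInfLower) ⊤ := by
  have hW := Cfsg.Agent.Lib.Helper33.isCharPFunctor_kInfLower.{u} p
  have hcf := Cfsg.Agent.Lib.Helper33.isConjugacyFunctor_induced hW G
  have hWZ : ∀ P : Subgroup G, IsPGroup p ↥P → P ⊓ Subgroup.centralizer (P : Set G) ≤
      Cfsg.inducedFunctor (G := G) Cfsg.kInfLower P :=
    fun P hP => (Cfsg.Agent.Lib.Helper33.center_le_inducedFunctor_kInf P hP).1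
  have hp3 : 2 ≤ p - 1 := by
    have h2 : 2 ≤ p := (Fact.out : p.Prime).two_le
    omega
  obtain ⟨S⟩ : Nonempty (Sylow p G) := inferInstance
  refine ⟨hWZ, (S : Subgroup G), le_top, S.2, ?_, ?_⟩
  · rw [Subgroup.relIndex_top_right]; exact S.not_dvd_index
  · refine Cfsg.Agent.Lib.Helper33.weakClosure_all _ hcf hWZ ?_ _ ⊤ rfl S
      (Cfsg.Agent.Lib.Helper33.sylIn_top S)
    intro H T hTH hTp hrel hnn
    obtain ⟨g, hgT, hgQ, hquad⟩ := Cfsg.Agent.Lib.Helper33.kInf_local_quadratic hW
      (fun Γ _ _ S h => h.1) H T hTH hTp hrel hnn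
    refine ⟨g, hgT, hgQ, fun U V hUV hU => ?_⟩
    rw [Cfsg.Agent.Lib.Helper33.iterCommutator_eq_bot_of_le hp3 (hquad U hU)]
    exact bot_le

end Cfsg.Agent.S1985
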