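import Cfsg.Statements.S1986
import Cfsg.Agent.Lib.Helper33.Wc3

set_option autoImplicit false
universe u
open Cfsg

namespace Cfsg.Agent.S1986

/-- Let p be a prime, G a finite group with Sylow p-subgroup S, K the lower K-infinity subgroup of S, and Z the subgroup of p-th powers of elements of Z(S). Then every element of Z commuting with all of N_G(K) is weakly closed in S with respect to G, and every subgroup of Z that is normal in N_G(K) is weakly closed in S with respect to G. -/
theorem result {G : Type u} [Group G] [Finite G] {p : ℕ} [Fact p.Prime] (S : Sylow p G) (Z : Subgroup G) (hZ : Z = Subgroup.closure ((fun z : G => z ^ p) '' (((S : Subgroup G) ⊓ Subgroup.centralizer (((S : Subgroup G) : Subgroup G) : Set G) : Subgroup G) : Set G))) : (∀ x ∈ Z ⊓ Subgroup.centralizer ((Subgroup.normalizer ((Cfsg.inducedFunctor Cfsg.kInfLower (S : Subgroup G) : Subgroup G) : Set G) : Subgroup G) : Set G), ∀ g : G, g * x * g⁻¹ ∈ (S : Subgroup G) → g * x * g⁻¹ = x) ∧ ∀ A : Subgroup G,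 A ≤ Z → Subgroup.normalizer ((Cfsg.inducedFunctor Cfsg.kInfLower (S : Subgroup G) : Subgroup G) : Set G) ≤ Subgroup.normalizer ((A : Subgroup G) : Set G) → Cfsg.IsWeaklyClosed A (S : Subgroup G) := by
  have hW := Cfsg.Agent.Lib.Helper33.isCharPFunctor_kInfLower.{u} p
  have hcf := Cfsg.Agent.Lib.Helper33.isConjugacyFunctor_induced hW G
  have hWZ : ∀ P : Subgroup G, IsPGroup p ↥P → P ⊓ Subgroup.centralizer (P : Set G) ≤
      Cfsg.inducedFunctor (G := G) Cfsg.kInfLower P :=
    fun P hP => (Cfsg.Agent.Lib.Helper33.center_le_inducedFunctor_kInf P hP).1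
  refine Cfsg.Agent.Lib.Helper33.weakClosure_pth_powers S _ hcf hWZ ?_ Z hZ
  intro H T hTH hTp hrel hnn
  obtain ⟨g, hgT, hgQ, hquad⟩ := Cfsg.Agent.Lib.Helper33.kInf_local_quadratic hW
      (fun Γ _ _ S h => h.1) H T hTH hTp hrel hnn
  refine ⟨g, hgT, hgQ, ?_⟩
  have h1 := hquad (Cfsg.pCore p ↥H ⊓ Subgroup.centralizer ((Cfsg.pCore p ↥H : Subgroup ↥H) : Set ↥H))
    (le_of_eq (Cfsg.Agent.Lib.Helper33.map_inf_centralizer H _))
  rw [Cfsg.Agent.Lib.Helper33.map_inf_centralizer] at h1
  exact h1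

end Cfsg.Agent.S1986
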