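import Cfsg.Statements.S2008
import Cfsg.Agent.Lib.Helper34.KleinInv

set_option autoImplicit false
open Cfsg

namespace Cfsg.Agent.S2008

/-- Let H be a finite group and z an involution such that every proper normal subgroup of H meets the centralizer of z trivially, and suppose z lies in a Klein four-subgroup E of H all three of whose involutions are conjugate to z in H. Then H has no non-trivial abelian normal subgroup. -/
theorem result {H : Type*} [Group H] [Finite H] (z : H) (hz : orderOf z = 2) (hN : ∀ N : Subgroup H, N.Normal → N ≠ ⊤ → N ⊓ Subgroup.centralizer ({z} : Set H) = ⊥) (E : Subgroup H) (hE : IsKleinFour ↥E) (hzE : z ∈ E) (hc : ∀ e ∈ E, e ≠ 1 → IsConj z e) (N : Subgroup H) [N.Normal] (hab : IsMulCommutative ↥N) : N = ⊥ := by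
  have hzconj : ∀ e ∈ E, e ≠ 1 → ∀ M : Subgroup H, M.Normal → M ≠ ⊤ →
      M ⊓ Subgroup.centralizer ({e} : Set H) = ⊥ :=
    Cfsg.Agent.Lib.Helper34.conj_fixedPointFree z hN E hc
  by_cases hNtop : N = ⊤
  · -- then H is commutative, so all conjugates of z equal z; E has two distinct nonidentity elements
    exfalso
    have hcomm : ∀ x y : H, x * y = y * x := by
      intro x y
      have hx : x ∈ N := by rw [hNtop]; exact Subgroup.mem_top x
      have hy : y ∈ N := by rw [hNtop]; exact Subgroup.mem_top y
      have := hab.is_comm.comm (⟨x, hx⟩ : N) ⟨y, hy⟩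
      exact congrArg Subtype.val this
    have hall : ∀ e ∈ E, e ≠ 1 → e = z := by
      intro e he he1
      obtain ⟨g, hg⟩ := hc e he he1
      have h1 : (g : H) * z = e * (g : H) := hg
      rw [hcomm (g : H) z] at h1
      exact (mul_right_cancel h1).symm
    have hcard : Nat.card E = 4 := hE.card_four
    have hle : Nat.card E ≤ 2 := by
      classical
      have : Finite E := Nat.finite_of_card_ne_zero (by rw [hcard]; norm_num)
      let _ : Fintype E := Fintype.ofFinite E
      have hsub : (Finset.univ : Finset E) ⊆ {1, ⟨z, hzE⟩} := by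
        intro x _
        by_cases hx : x = 1
        · simp [hx]
        · have hx' : (x : H) ≠ 1 := fun h => hx (Subtype.ext h)
          have := hall x x.2 hx'
          have hxz : x = ⟨z, hzE⟩ := Subtype.ext this
          simp [hxz]
      have h1 := Finset.card_le_card hsub
      have h2 : ({1, ⟨z, hzE⟩} : Finset E).card ≤ 2 := Finset.card_le_two
      rw [Finset.card_univ] at h1
      rw [Nat.card_eq_fintype_card]
      omega
    omega
  · exact Cfsg.Agent.Lib.Helper34.eq_bot_of_kleinFour_fixedPointFree N E hE
      (fun e he he1 => hzconj e he he1 N inferInstance hNtop)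

end Cfsg.Agent.S2008
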