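import Cfsg.Statements.S2037
import Cfsg.Agent.Lib.Helper7.M23Schur

set_option autoImplicit false
open Cfsg

namespace Cfsg.Agent.S2037

/-- The Schur multiplier of the Mathieu group M₂₃ (the stabiliser of a point in the automorphism group of the length-24 binary code) is trivial; here the Schur multiplier is described through stem extensions, as in the definitions: surjective homomorphisms onto the group from a finite group, whose kernel is central in that finite group and contained in that finite group's commutator subgroup. -/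
theorem result : Cfsg.HasCyclicSchurMultiplier ↥Cfsg.Spor.M23 1 := by
  have hc : Cfsg.projInv ∈ Cfsg.M24 := Cfsg.Agent.Lib.Helper7.projInv_mem
  have h1 : Cfsg.projInv (none : GolayPt) = some 0 := by decide
  have h2 : Cfsg.projInv (some 0 : GolayPt) = none := by decide
  have hi1 : Cfsg.projInv⁻¹ (none : GolayPt) = some 0 := by decide
  have hi2 : Cfsg.projInv⁻¹ (some 0 : GolayPt) = none := by decide
  have hto : ∀ x ∈ Cfsg.Agent.Lib.Helper7.M23P.G0,
      Cfsg.projInv * x * Cfsg.projInv⁻¹ ∈ Cfsg.Spor.M23 := by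
    intro x hx
    obtain ⟨hx1, hx2⟩ := Cfsg.Agent.Lib.Helper7.M23P.mem_G0.mp hx
    refine Subgroup.mem_inf.mpr ⟨Cfsg.M24.mul_mem (Cfsg.M24.mul_mem hc hx1) (Cfsg.M24.inv_mem hc),
      ?_⟩
    show (Cfsg.projInv * x * Cfsg.projInv⁻¹) none = none
    rw [Equiv.Perm.mul_apply, Equiv.Perm.mul_apply, hi1, hx2, h2]
  have hfrom : ∀ y ∈ Cfsg.Spor.M23,
      Cfsg.projInv⁻¹ * y * Cfsg.projInv ∈ Cfsg.Agent.Lib.Helper7.M23P.G0 := by
    intro y hy
    obtain ⟨hy1, hy2⟩ := Subgroup.mem_inf.mp hy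
    have hy3 : y none = none := hy2
    refine Cfsg.Agent.Lib.Helper7.M23P.mem_G0.mpr
      ⟨Cfsg.M24.mul_mem (Cfsg.M24.mul_mem (Cfsg.M24.inv_mem hc) hy1) hc, ?_⟩
    rw [Equiv.Perm.mul_apply, Equiv.Perm.mul_apply, h2, hy3, hi1]
  let e : ↥Cfsg.Agent.Lib.Helper7.M23P.G0 ≃* ↥Cfsg.Spor.M23 :=
    { toFun := fun x => ⟨Cfsg.projInv * x * Cfsg.projInv⁻¹, hto x x.2⟩
      invFun := fun y => ⟨Cfsg.projInv⁻¹ * y * Cfsg.projInv, hfrom y y.2⟩
      left_inv := fun x => Subtype.ext (by
        show Cfsg.projInv⁻¹ * (Cfsg.projInv * (x : Equiv.Perm GolayPt) * Cfsg.projInv⁻¹)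
          * Cfsg.projInv = x
        group)
      right_inv := fun y => Subtype.ext (by
        show Cfsg.projInv * (Cfsg.projInv⁻¹ * (y : Equiv.Perm GolayPt) * Cfsg.projInv)
          * Cfsg.projInv⁻¹ = y
        group)
      map_mul' := fun x y => Subtype.ext (by
        show Cfsg.projInv * ((x : Equiv.Perm GolayPt) * y) * Cfsg.projInv⁻¹
          = Cfsg.projInv * x * Cfsg.projInv⁻¹ * (Cfsg.projInv * y * Cfsg.projInv⁻¹)
        group) }
  exact Cfsg.Agent.Lib.Helper7.M23S.mult_one_of_mulEquiv e Cfsg.Agent.Lib.Helper7.M23S.mult_G0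

end Cfsg.Agent.S2037
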