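import Cfsg.Statements.S2038
import Cfsg.Agent.Lib.Helper7.M23Schur
import Cfsg.Agent.Lib.Helper7.ThreeTrans
import Cfsg.Agent.Lib.Helper7.GolaySimpleThms

set_option autoImplicit false
open Cfsg

namespace Cfsg.Agent.S2038

/-- The Schur multiplier of the Mathieu group M₂₄ (the automorphism group of the length-24 binary code) is trivial; here the Schur multiplier is described through stem extensions, as in the definitions: surjective homomorphisms onto the group from a finite group, whose kernel is central in that finite group and contained in that finite group's commutator subgroup. -/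
theorem result : Cfsg.HasCyclicSchurMultiplier ↥Cfsg.M24 1 := by
  apply Cfsg.Agent.Lib.Helper35.hasCyclicSchurMultiplier_one_of
  intro Y _ _ τ hτ
  rw [eq_bot_iff]
  intro z hz
  rw [Subgroup.mem_bot]
  have htr := Cfsg.Agent.Lib.Helper7.M24_pretransitive
  -- the point stabilisers have trivial multiplier
  have hmult : ∀ a : GolayPt,
      Cfsg.HasCyclicSchurMultiplier ↥(MulAction.stabilizer ↥Cfsg.M24 a) 1 := by
    intro a
    obtain ⟨g, hg⟩ := MulAction.exists_smul_eq ↥Cfsg.M24 (some 0 : GolayPt) a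
    let e₁ : ↥Cfsg.Agent.Lib.Helper7.M23P.G0 ≃*
        ↥(MulAction.stabilizer ↥Cfsg.M24 (some 0 : GolayPt)) :=
      { toFun := fun x => ⟨⟨x.1, (Cfsg.Agent.Lib.Helper7.M23P.mem_G0.mp x.2).1⟩,
          MulAction.mem_stabilizer_iff.mpr (Cfsg.Agent.Lib.Helper7.M23P.mem_G0.mp x.2).2⟩
        invFun := fun y => ⟨y.1.1, Cfsg.Agent.Lib.Helper7.M23P.mem_G0.mpr
          ⟨y.1.2, MulAction.mem_stabilizer_iff.mp y.2⟩⟩
        left_inv := fun _ => rfl
        right_inv := fun _ => rfl
        map_mul' := fun _ _ => rfl }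
    exact Cfsg.Agent.Lib.Helper7.M23S.mult_one_of_mulEquiv
      (e₁.trans (MulAction.stabilizerEquivStabilizer hg.symm))
      Cfsg.Agent.Lib.Helper7.M23S.mult_G0
  refine Cfsg.Agent.Lib.Helper7.TT.eq_one_of_three_trans (Ω := GolayPt) τ hτ.1 hτ.2.1
    ?_ ?_ ?_ ?_ ?_ (some 0 : GolayPt) (some 1 : GolayPt) (some 2 : GolayPt) (none : GolayPt)
    (by decide) (by decide) (by decide) (by decide) (by decide) (by decide) z hz (hτ.2.2 hz)
  · intro a s hs h1
    exact Cfsg.Agent.Lib.Helper7.M23S.comm_comap_inf_ker (MulAction.stabilizer ↥Cfsg.M24 a)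
      (hmult a) τ (fun g _ => MonoidHom.mem_range.mpr (hτ.1 g)) hτ.2.1 s hs h1
  · intro a
    have hs := Cfsg.Agent.Lib.Helper7.isSimpleGroup_stabilizer a
    exact Cfsg.Agent.Lib.Helper7.TT.comm_self_of_perfect _
      (Cfsg.Agent.Lib.Helper7.TT.perfect_of_simple
        (by rw [Cfsg.Agent.Lib.Helper7.card_stabilizer_M24 a]; norm_num))
  · intro a b hab
    have hs := Cfsg.Agent.Lib.Helper7.isSimpleGroup_stabilizer_two hab
    exact Cfsg.Agent.Lib.Helper7.TT.comm_self_of_perfect _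
      (Cfsg.Agent.Lib.Helper7.TT.perfect_of_simple
        (by rw [Cfsg.Agent.Lib.Helper7.card_stabilizer_two_M24 hab]; norm_num))
  · intro x₁ x₂ y₁ y₂ hx hy
    obtain ⟨g, hg, h1, h2⟩ := Cfsg.Agent.Lib.Helper7.M24_trans2 hx hy
    exact ⟨⟨g, hg⟩, h1, h2⟩
  · intro x₁ x₂ x₃ y₁ y₂ y₃ hx12 hx13 hx23 hy12 hy13 hy23
    obtain ⟨g, hg, h1, h2, h3⟩ := Cfsg.Agent.Lib.Helper7.M24_trans3 hx12 hx13 hx23 hy12 hy13 hy23
    exact ⟨⟨g, hg⟩, h1, h2, h3⟩

end Cfsg.Agent.S2038
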