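import Mathlib
import Cfsg.Statements.S2039
import Cfsg.Agent.Lib.Helper35.J1Card
-- import your own Cfsg.Agent.* helpers here

set_option autoImplicit false
open Cfsg

namespace Cfsg.Agent.S2039

open Cfsg.Agent.Lib.Helper60.J1 Cfsg.Agent.Lib.Helper35 Cfsg.Spor


/-- The Schur multiplier of the Janko group J₁ (the group generated by two explicit 7 × 7 matrices over the integers modulo 11) is trivial; here the Schur multiplier is described through stem extensions, as in the definitions: surjective homomorphisms onto the group from a finite group, whose kernel is central in that finite group and contained in that finite group's commutator subgroup. -/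
theorem result : Cfsg.HasCyclicSchurMultiplier ↥Cfsg.Spor.J1 1 := by
  have hfin : Finite ↥Cfsg.Spor.J1 := Nat.finite_of_card_ne_zero (by rw [card_J1]; norm_num)
  apply hasCyclicSchurMultiplier_one_of
  intro Y _ _ τ hτ
  rw [eq_bot_iff]
  intro z hzk
  rw [Subgroup.mem_bot]
  -- the 2-part: a Frobenius group 2³ : 7 containing a Sylow 2-subgroup
  have e2 : z ^ 21945 = 1 :=
    stem_pow_eq_one_of_c2cube τ hτ hzk j1s_aa j1s_ne j1s_ta j1s_tb j1s_tc j1s_ab j1s_ac 21945
      (by rw [card_J1])
  -- cyclic Sylow subgroups for the odd primes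
  have hcyc : ∀ m n : ℕ, m ∈ [1, 2, 3, 5, 6, 7, 10, 11, 15, 19] → 0 < m → 175560 = m * n →
      z ^ n = 1 := by
    intro m n hm hpos hmn
    obtain ⟨g, hg⟩ := exists_orderOf m hm
    exact stem_pow_eq_one_of_orderOf τ hτ hzk g m n hpos hg (by rw [card_J1, hmn])
  have e3 : z ^ 58520 = 1 := hcyc 3 58520 (by simp) (by norm_num) (by norm_num)
  have e5 : z ^ 35112 = 1 := hcyc 5 35112 (by simp) (by norm_num) (by norm_num)
  have e7 : z ^ 25080 = 1 := hcyc 7 25080 (by simp) (by norm_num) (by norm_num)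
  have e11 : z ^ 15960 = 1 := hcyc 11 15960 (by simp) (by norm_num) (by norm_num)
  have e19 : z ^ 9240 = 1 := hcyc 19 9240 (by simp) (by norm_num) (by norm_num)
  have d1 : orderOf z ∣ 21945 := orderOf_dvd_of_pow_eq_one e2
  have d2 : orderOf z ∣ 58520 := orderOf_dvd_of_pow_eq_one e3
  have d3 : orderOf z ∣ 35112 := orderOf_dvd_of_pow_eq_one e5
  have d4 : orderOf z ∣ 25080 := orderOf_dvd_of_pow_eq_one e7
  have d5 : orderOf z ∣ 15960 := orderOf_dvd_of_pow_eq_one e11
  have d6 : orderOf z ∣ 9240 := orderOf_dvd_of_pow_eq_one e19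
  have d7 : orderOf z ∣ Nat.gcd (Nat.gcd (Nat.gcd 21945 58520) (Nat.gcd 35112 25080))
      (Nat.gcd 15960 9240) :=
    Nat.dvd_gcd (Nat.dvd_gcd (Nat.dvd_gcd d1 d2) (Nat.dvd_gcd d3 d4)) (Nat.dvd_gcd d5 d6)
  have d8 : Nat.gcd (Nat.gcd (Nat.gcd 21945 58520) (Nat.gcd 35112 25080))
      (Nat.gcd 15960 9240) = 1 := by norm_num
  rw [d8, Nat.dvd_one] at d7
  exact orderOf_eq_one_iff.mp d7

end Cfsg.Agent.S2039
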