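import Cfsg.Statements.S2049
import Cfsg.Agent.Lib.Helper28.HeMult.Main
import Cfsg.Agent.Lib.Helper28.HeMult.L0.Cert
import Cfsg.Agent.Lib.Helper28.HeMult.L1.Cert
import Cfsg.Agent.Lib.Helper28.HeMult.L2.Cert

set_option autoImplicit false
open Cfsg

namespace Cfsg.Agent.S2049

/-- The Schur multiplier of the Held group (the finitely presented group of the definitions) is trivial; here the Schur multiplier is described through stem extensions, as in the definitions: surjective homomorphisms onto the group from a finite group, whose kernel is central in that finite group and contained in that finite group's commutator subgroup. -/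
theorem result : Cfsg.HasCyclicSchurMultiplier Cfsg.Spor.He 1 :=
  Cfsg.Agent.Lib.Helper28.HeMult.he_multiplier
    Cfsg.Agent.Lib.Helper28.HeMult.L0.certC
    Cfsg.Agent.Lib.Helper28.HeMult.L1.certC
    Cfsg.Agent.Lib.Helper28.HeMult.L2.certC

end Cfsg.Agent.S2049
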