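import Cfsg.Statements.S2054
import Cfsg.Agent.Lib.Helper56.Fi23Mult
import Cfsg.Agent.Lib.Helper56.Fi23S.Main

set_option autoImplicit false
open Cfsg

namespace Cfsg.Agent.S2054

/-- The Schur multiplier of the Fischer group Fi₂₃ (the finitely presented group of the definitions) is trivial; here the Schur multiplier is described through stem extensions, as in the definitions: surjective homomorphisms onto the group from a finite group, whose kernel is central in that finite group and contained in that finite group's commutator subgroup. -/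
theorem result : Cfsg.HasCyclicSchurMultiplier Cfsg.Spor.Fi23 1 := by
  have hfin : Finite Cfsg.Spor.Fi23 := Cfsg.Agent.Lib.Helper56.Fi23S.card_le.1
  have hid : ∀ x ∈ (MonoidHom.id Cfsg.Spor.Fi23).ker, x = 1 := by
    intro x hx
    rw [MonoidHom.mem_ker, MonoidHom.id_apply] at hx
    exact hx
  have hsub : Subsingleton (MonoidHom.id Cfsg.Spor.Fi23).ker :=
    ⟨fun a b => Subtype.ext ((hid a a.2).trans (hid b b.2).symm)⟩
  have hsub2 : Subsingleton (Multiplicative (ZMod 1)) :=
    (inferInstance : Subsingleton (Fin 1))
  refine ⟨⟨Cfsg.Spor.Fi23, inferInstance, hfin, MonoidHom.id _,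
    ⟨Function.surjective_id, ?_, ?_⟩, ⟨?_⟩⟩, ?_⟩
  · intro x hx
    rw [hid x hx]
    exact Subgroup.one_mem _
  · intro x hx
    rw [hid x hx]
    exact Subgroup.one_mem _
  · exact
      { toFun := fun _ => 1
        invFun := fun _ => 1
        left_inv := fun a => Subsingleton.elim _ _
        right_inv := fun b => Subsingleton.elim _ _
        map_mul' := fun _ _ => Subsingleton.elim _ _ }
  · intro Γ _ _ σ hσ
    obtain ⟨hsurj, hc, hd⟩ := hσ
    have hker := Cfsg.Agent.Lib.Helper56.Fi23Mult.ker_trivial σ hsurj hc hd
    refine ⟨1, ?_⟩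
    intro y
    refine ⟨1, ?_⟩
    apply Subtype.ext
    have hy : (y : Γ) = 1 := Subgroup.mem_bot.mp (hker.le y.2)
    rw [hy]
    rfl

end Cfsg.Agent.S2054
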