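import Mathlib
import Cfsg.Statements.S2087
import Cfsg.Agent.Lib.Helper35.SchurPSL
import Cfsg.Agent.S0255
-- import your own Cfsg.Agent.* helpers here

set_option autoImplicit false
open Cfsg
open scoped commutatorElement

namespace Cfsg.Agent.S2087

/-- Exceptional Schur multiplier: over the field with 2 elements, PSL₃ has Schur multiplier cyclic of order 2 (here the Schur multiplier is described through stem extensions, as in the definitions). -/
theorem result {F : Type*} [Field F] [Fintype F] (hF : Fintype.card F = 2) : Cfsg.HasCyclicSchurMultiplier (Matrix.ProjectiveSpecialLinearGroup (Fin 3) F) 2 := by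
  have hp7 : Fact (Nat.Prime 7) := ⟨by norm_num⟩
  have hcard7 : Fintype.card (ULift.{u_1} (ZMod 7)) = 7 := by
    rw [Fintype.card_ulift, ZMod.card]
  have h2 : (2 : ULift.{u_1} (ZMod 7)) ≠ 0 := by
    intro h
    have h1 := congrArg (ULift.ringEquiv (R := ZMod 7)) h
    rw [map_ofNat, map_zero] at h1
    have h3 : ((2 : ℕ) : ZMod 7) = 0 := by exact_mod_cast h1
    rw [ZMod.natCast_eq_zero_iff] at h3
    norm_num at h3
  have hsq : (2 : ULift.{u_1} (ZMod 7)) ^ 2 ≠ 1 := by
    intro h
    have h1 := congrArg (ULift.ringEquiv (R := ZMod 7)) h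
    rw [map_pow, map_ofNat, map_one] at h1
    have h3 : ((3 : ℕ) : ZMod 7) = 0 := by
      have h4 : (2 : ZMod 7) ^ 2 - 1 = 0 := sub_eq_zero.mpr h1
      rw [← h4]; norm_num
    rw [ZMod.natCast_eq_zero_iff] at h3
    norm_num at h3
  have h7 := Cfsg.Agent.Lib.Helper35.hasCyclicSchurMultiplier_psl2 (F := ULift.{u_1} (ZMod 7)) h2
    (by rw [hcard7]; norm_num) h2 hsq
  obtain ⟨e⟩ := Cfsg.Agent.S0255.result (F := ULift.{u_1} (ZMod 7)) (K := F) hcard7 hF
  exact Cfsg.Agent.Lib.Helper35.hasSchurMultiplier_congr e h7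

end Cfsg.Agent.S2087
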