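import Cfsg.Statements.S2095
import Cfsg.Agent.Lib.Helper28.O73Mult.Final
import Cfsg.Agent.Lib.Helper28.O73Mult.L0.Cert
import Cfsg.Agent.Lib.Helper28.G23Mult.L0.Cert
import Cfsg.Agent.Lib.Helper28.G2Mult.L2.Cert

set_option autoImplicit false
open Cfsg

namespace Cfsg.Agent.S2095

/-- Exceptional Schur multiplier: over the field with 3 elements, PΩ₇ (for the form x₀² + Σ xᵢyᵢ) has Schur multiplier cyclic of order 6 (the product of cyclic groups of orders 3 and 2; here the Schur multiplier is described through stem extensions, as in the definitions). -/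
theorem result {F : Type*} [Field F] [Fintype F] (hF : Fintype.card F = 3) : Cfsg.HasCyclicSchurMultiplier (Cfsg.POmega F (Cfsg.quadFormOdd 3 F)) 6 := by
  exact Cfsg.Agent.Lib.Helper28.O73Mult.o7_3_multiplier Cfsg.Agent.Lib.Helper28.O73Mult.L0.certC
    Cfsg.Agent.Lib.Helper28.G23Mult.L0.certC Cfsg.Agent.Lib.Helper28.G2Mult.L2.certC hF

end Cfsg.Agent.S2095
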