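import Cfsg.Statements.S2100
import Cfsg.Agent.Lib.Helper18.StUniv
import Cfsg.Agent.Lib.Helper18.StFin

set_option autoImplicit false
open scoped MatrixGroups
open Cfsg

namespace Cfsg.Agent.S2100

open Cfsg.Lie Cfsg.Lie.ChevalleyDatum Cfsg.Agent.Lib.Helper18 Cfsg.Agent.Lib.Helper18.StAbs in
/-- for a finite field with at least five elements the group presented by (R1), (R2) of type G₂
maps isomorphically onto the Chevalley group -/
theorem cover_iso_G2 {F : Type*} [Field F] [Fintype F] :
    ∃ θ₀ : chevG2.SteinbergCover F →* ↥(chevG2.group F),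
      Function.Injective θ₀ ∧ Function.Surjective θ₀ := by
  classical
  have hD : chevG2 ∈ [chevG2, chevB2, chevD4, chevF4, chevE6, chevE7, chevE8] := by simp
  have hgen0 : ∀ (r : ℕ) (t : F), r < chevG2.nroots →
      (((PresentedGroup.toGroup (relsAB_lift (K := F) chevG2 hD))
        (XP chevG2 (chevG2.steinbergRelsAB F) r t) : GL chevG2.Idx F) :
          Matrix chevG2.Idx chevG2.Idx F) = chevG2.x F r t := by
    intro r t _
    have h1 := lift_stX (K := F) chevG2 hD r t
    have h2 := congrArg Units.val h1
    rw [coe_xU] at h2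
    exact h2
  refine ⟨PresentedGroup.toGroup (relsAB_lift (K := F) chevG2 hD), ?_, pres_surj _ hgen0⟩
  rw [injective_iff_map_eq_one]
  intro x hx
  have hcen := (pres_ker hD (fun g hg => hg) _ hgen0 x hx).2
  obtain ⟨e, -⟩ := cover_equiv (K := F) hD
  have h1 : e x ∈ Subgroup.center (chevG2.SteinbergGroup F) := by
    rw [Subgroup.mem_center_iff]
    intro g
    obtain ⟨g', rfl⟩ := e.surjective g
    rw [← map_mul, ← map_mul, Subgroup.mem_center_iff.mp hcen g']
  rw [pres_center_trivial hD _ uniChk_G2, Subgroup.mem_bot] at h1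
  exact e.injective (by rw [h1, map_one])

/-- Schur multipliers of the Chevalley groups of type G₂: over a field with q ≥ 5 elements the Schur multiplier of G₂(q) is trivial (here the Schur multiplier is described through stem extensions, as in the definitions); the cases q = 3 and q = 4 are exceptional and q = 2 gives a non-simple group. -/
theorem result {F : Type*} [Field F] [Fintype F] (hF : 5 ≤ Fintype.card F) : Cfsg.HasCyclicSchurMultiplier ↥(Cfsg.Lie.chevG2.group F) 1 := by
  classical
  have hK5 : ∃ s : Finset F, 4 < s.card := ⟨Finset.univ, by rw [Finset.card_univ]; omega⟩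
  obtain ⟨θ₀, hinj, hsurj⟩ := cover_iso_G2 (F := F)
  refine ⟨⟨↥(Cfsg.Lie.chevG2.group F), inferInstance, inferInstance, MonoidHom.id _,
    ⟨Function.surjective_id, ?_, ?_⟩, ?_⟩, ?_⟩
  · intro x hx
    rw [MonoidHom.mem_ker, MonoidHom.id_apply] at hx
    rw [hx]
    exact one_mem _
  · intro x hx
    rw [MonoidHom.mem_ker, MonoidHom.id_apply] at hx
    rw [hx]
    exact one_mem _
  · exact ⟨{ toFun := fun _ => 1
             invFun := fun _ => 1
             left_inv := fun x => Subtype.ext (by
               have := x.2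
               rw [MonoidHom.mem_ker, MonoidHom.id_apply] at this
               exact this.symm)
             right_inv := fun y => Subsingleton.elim _ _
             map_mul' := fun _ _ => (mul_one 1).symm }⟩
  · intro Γ' _ _ σ hst
    obtain ⟨hs, hc, hcomm⟩ := hst
    obtain ⟨τ, hτ, -⟩ := Cfsg.Agent.Lib.Helper18.StAbs.univ_G2 hK5 σ hs hc θ₀
    have hker := Cfsg.Agent.Lib.Helper18.CExt.stem_trivial θ₀ hinj hsurj σ hc hcomm τ hτ
    refine ⟨1, fun y => ⟨1, ?_⟩⟩
    apply Subtype.ext
    have h9 : (y : Γ') ∈ (⊥ : Subgroup Γ') := by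
      rw [← hker]
      exact y.2
    rw [Subgroup.mem_bot.mp h9]
    rfl

end Cfsg.Agent.S2100
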