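import Cfsg.Statements.S2106
import Cfsg.Agent.Lib.Helper18.StSteinE7.All
import Cfsg.Agent.Lib.Helper18.StEmbE7.All

set_option autoImplicit false
open Cfsg

namespace Cfsg.Agent.S2106

/-- Schur multipliers of the (adjoint, simple) Chevalley groups of type E₇: over a field with q elements the Schur multiplier is cyclic of order gcd(2, q − 1) (here the Schur multiplier is described through stem extensions, as in the definitions). -/
theorem result {F : Type*} [Field F] [Fintype F] {q : ℕ} (hF : Fintype.card F = q) : Cfsg.HasCyclicSchurMultiplier ↥(Cfsg.Lie.chevE7.group F) (Nat.gcd 2 (q - 1)) := by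
  classical
  have hne : Cfsg.Lie.chevE7 ∈ [Cfsg.Lie.chevB2, Cfsg.Lie.chevG2] → ∃ x : F, x ≠ 0 ∧ x ≠ 1 := by
    intro h
    exfalso
    simp only [List.mem_cons, List.mem_nil_iff, or_false] at h
    rcases h with h | h
    · exact absurd (congrArg Cfsg.Lie.ChevalleyDatum.nroots h) (by decide)
    · exact absurd (congrArg Cfsg.Lie.ChevalleyDatum.nroots h) (by decide)
  obtain ⟨e⟩ := Cfsg.Agent.Lib.Helper18.StAbs.ker_covHom_zmod
    Cfsg.Agent.Lib.Helper18.StAbs.mem_exc_E7 2 q hF Cfsg.Agent.Lib.Helper18.StAbs.ker_equiv_E7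
  refine Cfsg.Agent.Lib.Helper18.StAbs.schur_cyc Cfsg.Agent.Lib.Helper18.StAbs.mem_exc_E7
    (Cfsg.Agent.Lib.Helper18.StCov.cover_perfect _ Cfsg.Agent.Lib.Helper18.StAbs.mem_exc_E7 hne)
    ?_ _ ?_ e
  · intro Γ' _ σ hs hc
    obtain ⟨τ, hτ, -⟩ := Cfsg.Agent.Lib.Helper18.StAbs.univ_E7 σ hs hc
      (Cfsg.Agent.Lib.Helper18.StAbs.covHom Cfsg.Agent.Lib.Helper18.StAbs.mem_exc_E7)
    exact ⟨τ, hτ⟩
  · exact (Nat.gcd_pos_of_pos_left _ (by norm_num)).ne'

end Cfsg.Agent.S2106
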