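import Cfsg.Statements.S2107
import Cfsg.Agent.Lib.Helper18.StSteinE8.All
import Cfsg.Agent.Lib.Helper18.StFin

set_option autoImplicit false
open Cfsg

namespace Cfsg.Agent.S2107

open Cfsg.Lie Cfsg.Lie.ChevalleyDatum Cfsg.Agent.Lib.Helper18 Cfsg.Agent.Lib.Helper18.StAbs in
/-- for a finite field the group presented by (R1), (R2) of type E₈ maps isomorphically onto the
Chevalley group -/
theorem cover_iso_E8 {F : Type*} [Field F] [Fintype F] :
    ∃ θ₀ : chevE8.SteinbergCover F →* ↥(chevE8.group F),
      Function.Injective θ₀ ∧ Function.Surjective θ₀ := by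
  classical
  have hD : chevE8 ∈ [chevG2, chevB2, chevD4, chevF4, chevE6, chevE7, chevE8] := by simp
  have hgen0 : ∀ (r : ℕ) (t : F), r < chevE8.nroots →
      (((PresentedGroup.toGroup (relsAB_lift (K := F) chevE8 hD))
        (XP chevE8 (chevE8.steinbergRelsAB F) r t) : GL chevE8.Idx F) :
          Matrix chevE8.Idx chevE8.Idx F) = chevE8.x F r t := by
    intro r t _
    have h1 := lift_stX (K := F) chevE8 hD r t
    have h2 := congrArg Units.val h1
    rw [coe_xU] at h2
    exact h2
  refine ⟨PresentedGroup.toGroup (relsAB_lift (K := F) chevE8 hD), ?_, pres_surj _ hgen0⟩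
  rw [injective_iff_map_eq_one]
  intro x hx
  have hcen := (pres_ker hD (fun g hg => hg) _ hgen0 x hx).2
  obtain ⟨e, -⟩ := cover_equiv (K := F) hD
  have h1 : e x ∈ Subgroup.center (chevE8.SteinbergGroup F) := by
    rw [Subgroup.mem_center_iff]
    intro g
    obtain ⟨g', rfl⟩ := e.surjective g
    rw [← map_mul, ← map_mul, Subgroup.mem_center_iff.mp hcen g']
  rw [pres_center_trivial hD _ uniChk_E8, Subgroup.mem_bot] at h1
  exact e.injective (by rw [h1, map_one])

/-- Schur multipliers of the Chevalley groups of type E₈: over every finite field the Schur multiplier of E₈(q) is trivial (here the Schur multiplier is described through stem extensions, as in the definitions). -/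
theorem result {F : Type*} [Field F] [Fintype F] : Cfsg.HasCyclicSchurMultiplier ↥(Cfsg.Lie.chevE8.group F) 1 := by
  classical
  obtain ⟨θ₀, hinj, hsurj⟩ := cover_iso_E8 (F := F)
  refine ⟨⟨↥(Cfsg.Lie.chevE8.group F), inferInstance, inferInstance, MonoidHom.id _,
    ⟨Function.surjective_id, ?_, ?_⟩, ?_⟩, ?_⟩
  · intro x hx
    rw [MonoidHom.mem_ker, MonoidHom.id_apply] at hx
    rw [hx]
    exact one_mem _
  · intro x hx
    rw [MonoidHom.mem_ker, MonoidHom.id_apply] at hx
    rw [hx]
    exact one_mem _
  · exact ⟨{ toFun := fun _ => 1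
             invFun := fun _ => 1
             left_inv := fun x => Subtype.ext (by
               have := x.2
               rw [MonoidHom.mem_ker, MonoidHom.id_apply] at this
               exact this.symm)
             right_inv := fun y => Subsingleton.elim _ _
             map_mul' := fun _ _ => (mul_one 1).symm }⟩
  · intro Γ' _ _ σ hst
    obtain ⟨hs, hc, hcomm⟩ := hst
    obtain ⟨τ, hτ, -⟩ := Cfsg.Agent.Lib.Helper18.StAbs.univ_E8 σ hs hc θ₀
    have hker := Cfsg.Agent.Lib.Helper18.CExt.stem_trivial θ₀ hinj hsurj σ hc hcomm τ hτ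
    refine ⟨1, fun y => ⟨1, ?_⟩⟩
    apply Subtype.ext
    have h9 : (y : Γ') ∈ (⊥ : Subgroup Γ') := by
      rw [← hker]
      exact y.2
    rw [Subgroup.mem_bot.mp h9]
    rfl

end Cfsg.Agent.S2107
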