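import Cfsg.Statements.S2118
import Mathlib
import Cfsg.Agent.Lib.Helper35.Schur
import Cfsg.Agent.Lib.Helper35.SL2Nine
import Cfsg.Agent.Lib.Helper35.SL2NineCover
import Cfsg.Agent.S0254

set_option autoImplicit false
open Cfsg

namespace Cfsg.Agent.S2118

open Cfsg.Agent.Lib.Helper35 Cfsg.Agent.Lib.Helper35.SL2Nine

/-- For the field with 9 elements, the special linear group SL₂ has Schur multiplier cyclic of order 3 (here the Schur multiplier is described through stem extensions, as in the definitions). -/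
theorem result {F : Type*} [Field F] [Fintype F] (hF : Fintype.card F = 9) : Cfsg.HasCyclicSchurMultiplier (Matrix.SpecialLinearGroup (Fin 2) F) 3 := by
  obtain ⟨e⟩ := Cfsg.Agent.S0254.result hF
  have hM := hasSchurMultiplier_M (Q := Matrix.SpecialLinearGroup (Fin 2) F)
  obtain ⟨Γ₀, hG₀, hF₀, σ₀, hσ₀, ⟨e₀⟩⟩ := hM.1
  obtain ⟨w, hw3, hle⟩ := ker_le_zpowers hF σ₀ hσ₀
  obtain ⟨p, hp⟩ := exists_surj_of_central hM (xi e) (xi_surjective e) (ker_xi_le_center e)
  have hcard : Nat.card σ₀.ker = 3 := by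
    have h1 : Nat.card σ₀.ker ∣ 3 := by
      have h := Subgroup.card_dvd_of_le hle
      rw [Nat.card_zpowers] at h
      exact h.trans (orderOf_dvd_of_pow_eq_one hw3)
    have h2 : 3 ≤ Nat.card σ₀.ker :=
      calc 3 ≤ _ := three_le_card e (two_ne_zero_of_card hF)
        _ ≤ Nat.card (M (id : Matrix.SpecialLinearGroup (Fin 2) F →
              Matrix.SpecialLinearGroup (Fin 2) F)) := Nat.card_le_card_of_surjective p hp
        _ = Nat.card σ₀.ker := (Nat.card_congr e₀.toEquiv).symm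
    exact Nat.le_antisymm (Nat.le_of_dvd (by norm_num) h1) h2
  have hcyc : IsCyclic σ₀.ker := Subgroup.isCyclic_of_le hle
  have hcard' : Nat.card σ₀.ker = Nat.card (Multiplicative (ZMod 3)) := by
    rw [hcard, Nat.card_eq_fintype_card, Fintype.card_multiplicative, ZMod.card]
  have iso : σ₀.ker ≃* Multiplicative (ZMod 3) := mulEquivOfCyclicCardEq hcard'
  refine ⟨⟨Γ₀, hG₀, hF₀, σ₀, hσ₀, ⟨iso⟩⟩, ?_⟩
  intro Γ _ _ σ hσ
  obtain ⟨π, hπ⟩ := hM.2 Γ σ hσ
  exact ⟨π.comp (e₀.toMonoidHom.comp iso.symm.toMonoidHom),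
    hπ.comp (e₀.surjective.comp iso.symm.surjective)⟩

end Cfsg.Agent.S2118
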