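import Cfsg.Statements.S2121
import Cfsg.Agent.Lib.Helper36.ChevAutG2
import Cfsg.Agent.S1080

set_option autoImplicit false
open Cfsg

namespace Cfsg.Agent.S2121

/-- Outer automorphisms of the Chevalley groups of type G₂: over a field with q = p^f (p prime) ≥ 3 elements, the outer automorphism group of G₂(q) has order f when p ≠ 3 and 2f when p = 3 (field automorphisms, and in characteristic 3 also the exceptional graph automorphism). -/
theorem result {F : Type*} [Field F] [Fintype F] (p f : ℕ) [Fact p.Prime] [CharP F p] (hF : Fintype.card F = p ^ f) (hq : 3 ≤ p ^ f) : Nat.card (Cfsg.Out ↥(Cfsg.Lie.chevG2.group F)) = (if p = 3 then 2 * f else f) := by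
  open Cfsg.Agent.Lib.Helper36 Cfsg.Lie Cfsg.Agent.Lib.Helper18 in
  have hD : chevG2 ∈ [chevG2, chevB2, chevD4, chevF4, chevE6, chevE7, chevE8] := g2mem
  choose Ψ hΨ using fun σ : F ≃+* F => Cfsg.Agent.S1080.result (F := F) chevG2 hD σ
  have hrel : ∀ σ : F ≃+* F, FieldRel chevG2 (Ψ σ) σ := hΨ
  by_cases hp : p = 3
  · subst hp
    rw [if_pos rfl, card_out_G2_three Ψ hrel, Cfsg.Agent.Lib.Helper31.card_ringAut_of_card 3 f hF]
  · rw [if_neg hp, ← Cfsg.Agent.Lib.Helper31.card_ringAut_of_card p f hF]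
    have h3 : (3 : F) ≠ 0 := by
      intro h
      have h' : ((3 : ℕ) : F) = 0 := by exact_mod_cast h
      rw [CharP.cast_eq_zero_iff F p] at h'
      exact hp ((Nat.prime_dvd_prime_iff_eq (Fact.out : p.Prime) Nat.prime_three).mp h')
    have hq' : ∃ u₀ : F, u₀ ≠ 0 ∧ u₀ ≠ 1 := by
      classical
      by_contra hcon
      push_neg at hcon
      have hsub : (Finset.univ : Finset F) ⊆ {0, 1} := by
        intro x _
        by_cases hx : x = 0
        · simp [hx]
        · simp [hcon x hx]
      have h1 := Finset.card_le_card hsub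
      have h2 : ({0, 1} : Finset F).card ≤ 2 := Finset.card_le_two
      rw [Finset.card_univ, hF] at h1
      omega
    apply Cfsg.Agent.Lib.Helper31.card_out_of_param Ψ
    · intro θ
      obtain ⟨x, σ, h⟩ := aut_G2 p h3 hq' θ
      exact ⟨x, σ, h (Ψ σ) (hrel σ)⟩
    · intro σ τ hin
      obtain ⟨x, hx⟩ := hin
      exact field_inj_of_conj hD (by decide) (hrel σ) (hrel τ) x hx

end Cfsg.Agent.S2121
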