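import Cfsg.Statements.S2122
import Cfsg.Agent.Lib.Helper36.ChevAutF4
import Cfsg.Agent.S1080

set_option autoImplicit false
open Cfsg

namespace Cfsg.Agent.S2122

/-- Outer automorphisms of the Chevalley groups of type F₄: over a field with q = p^f (p prime) elements, the outer automorphism group of F₄(q) has order gcd(2, p) · f (field automorphisms, and in characteristic 2 also the exceptional graph automorphism). -/
theorem result {F : Type*} [Field F] [Fintype F] (p f : ℕ) [Fact p.Prime] [CharP F p] (hF : Fintype.card F = p ^ f) : Nat.card (Cfsg.Out ↥(Cfsg.Lie.chevF4.group F)) = Nat.gcd 2 p * f := by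
  open Cfsg.Agent.Lib.Helper36 Cfsg.Lie Cfsg.Agent.Lib.Helper18 in
  have hD : chevF4 ∈ [chevG2, chevB2, chevD4, chevF4, chevE6, chevE7, chevE8] := hF4
  choose Ψ hΨ using fun σ : F ≃+* F => Cfsg.Agent.S1080.result (F := F) chevF4 hD σ
  have hrel : ∀ σ : F ≃+* F, FieldRel chevF4 (Ψ σ) σ := hΨ
  by_cases hp : p = 2
  · subst hp
    rw [card_out_F4_two Ψ hrel, Cfsg.Agent.Lib.Helper31.card_ringAut_of_card 2 f hF]
    rfl
  · have hgcd : Nat.gcd 2 p = 1 :=
      (Nat.coprime_primes Nat.prime_two (Fact.out : p.Prime)).mpr (fun e => hp e.symm)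
    rw [hgcd, one_mul, ← Cfsg.Agent.Lib.Helper31.card_ringAut_of_card p f hF]
    have h2 : (2 : F) ≠ 0 := by
      intro h
      have h' : ((2 : ℕ) : F) = 0 := by exact_mod_cast h
      rw [CharP.cast_eq_zero_iff F p] at h'
      exact hp ((Nat.prime_dvd_prime_iff_eq (Fact.out : p.Prime) Nat.prime_two).mp h')
    apply Cfsg.Agent.Lib.Helper31.card_out_of_param Ψ
    · intro θ
      obtain ⟨x, σ, h⟩ := aut_F4 p h2 θ
      exact ⟨x, σ, h (Ψ σ) (hrel σ)⟩
    · intro σ τ hin
      obtain ⟨x, hx⟩ := hin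
      exact field_inj_of_conj hD (by decide) (hrel σ) (hrel τ) x hx

end Cfsg.Agent.S2122
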