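import Cfsg.Statements.S2123
import Cfsg.Agent.Lib.Helper36.ChevAutE6b
import Cfsg.Agent.S1080

set_option autoImplicit false
open Cfsg

namespace Cfsg.Agent.S2123

/-- Outer automorphisms of the (adjoint, simple) Chevalley groups of type E₆: over a field with q = p^f (p prime) elements, the outer automorphism group of E₆(q) has order 2 · gcd(3, q − 1) · f (diagonal, field and graph automorphisms). -/
theorem result {F : Type*} [Field F] [Fintype F] (p f : ℕ) [Fact p.Prime] [CharP F p] (hF : Fintype.card F = p ^ f) : Nat.card (Cfsg.Out ↥(Cfsg.Lie.chevE6.group F)) = 2 * Nat.gcd 3 (p ^ f - 1) * f := by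
  open Cfsg.Agent.Lib.Helper36 Cfsg.Lie Cfsg.Agent.Lib.Helper18 in
  have hD := hE6
  choose Ψ hΨ using fun σ : F ≃+* F => Cfsg.Agent.S1080.result (F := F) chevE6 hD σ
  have hrel : ∀ σ : F ≃+* F, FieldRel chevE6 (Ψ σ) σ := hΨ
  rw [card_out_E6 p Ψ hrel, Cfsg.Agent.Lib.Helper31.card_ringAut_of_card p f hF]
  congr 2
  have h2 : Nat.card (torusHom (F := F) chevE6).ker =
      Nat.card {c : Fin chevE6.rank → Fˣ //
        ∀ s : Fin chevE6.nroots, mono c (fun i => chevE6.cartan i s) = 1} :=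
    Nat.card_congr (Equiv.subtypeEquivRight (fun c => mem_ker_torusHom chevE6 c))
  rw [h2, card_ker_of_check chevE6 hD kerCertE6 kerCertE6_check]
  have h3 : Nat.card Fˣ = p ^ f - 1 := by
    rw [Nat.card_units, Nat.card_eq_fintype_card, hF]
  rw [h3]
  show ((p ^ f - 1).gcd 3) ^ 1 = _
  rw [pow_one, Nat.gcd_comm]

end Cfsg.Agent.S2123
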