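import Cfsg.Statements.S2124
import Cfsg.Agent.Lib.Helper36.ChevAutE7
import Cfsg.Agent.S1080

set_option autoImplicit false
open Cfsg

namespace Cfsg.Agent.S2124

/-- Outer automorphisms of the (adjoint, simple) Chevalley groups of type E₇: over a field with q = p^f (p prime) elements, the outer automorphism group of E₇(q) has order gcd(2, q − 1) · f (diagonal and field automorphisms). -/
theorem result {F : Type*} [Field F] [Fintype F] (p f : ℕ) [Fact p.Prime] [CharP F p] (hF : Fintype.card F = p ^ f) : Nat.card (Cfsg.Out ↥(Cfsg.Lie.chevE7.group F)) = Nat.gcd 2 (p ^ f - 1) * f := by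
  open Cfsg.Agent.Lib.Helper36 Cfsg.Lie Cfsg.Agent.Lib.Helper18 in
  have hD := hE7
  choose Ψ hΨ using fun σ : F ≃+* F => Cfsg.Agent.S1080.result (F := F) chevE7 hD σ
  have hrel : ∀ σ : F ≃+* F, FieldRel chevE7 (Ψ σ) σ := hΨ
  have h1 := card_out_of_diag_field chevE7 hD rcOK_E7 ⟨0, by decide⟩ Ψ hrel (fun θ => by
    obtain ⟨x, d, σ, h⟩ := aut_E7 p θ
    exact ⟨x, d, σ, h (Ψ σ) (hrel σ)⟩)
  rw [h1, Cfsg.Agent.Lib.Helper31.card_ringAut_of_card p f hF]
  congr 1
  have h2 : Nat.card (torusHom (F := F) chevE7).ker =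
      Nat.card {c : Fin chevE7.rank → Fˣ //
        ∀ s : Fin chevE7.nroots, mono c (fun i => chevE7.cartan i s) = 1} :=
    Nat.card_congr (Equiv.subtypeEquivRight (fun c => mem_ker_torusHom chevE7 c))
  rw [h2, card_ker_of_check chevE7 hD kerCertE7 kerCertE7_check]
  have h3 : Nat.card Fˣ = p ^ f - 1 := by
    rw [Nat.card_units, Nat.card_eq_fintype_card, hF]
  rw [h3]
  show ((p ^ f - 1).gcd 2) ^ 1 = _
  rw [pow_one, Nat.gcd_comm]

end Cfsg.Agent.S2124
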