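import Cfsg.Statements.S2125
import Cfsg.Agent.Lib.Helper36.ChevAutE8
import Cfsg.Agent.Lib.Helper31.OutCount
import Cfsg.Agent.S1080

set_option autoImplicit false
open Cfsg

namespace Cfsg.Agent.S2125

/-- Outer automorphisms of the Chevalley groups of type E₈: over a field with p^f elements, p prime, the outer automorphism group of E₈(p^f) has order f (field automorphisms only). -/
theorem result {F : Type*} [Field F] [Fintype F] (p f : ℕ) [Fact p.Prime] [CharP F p] (hF : Fintype.card F = p ^ f) : Nat.card (Cfsg.Out ↥(Cfsg.Lie.chevE8.group F)) = f := by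
  open Cfsg.Agent.Lib.Helper36 Cfsg.Lie Cfsg.Agent.Lib.Helper18 in
  have hD : chevE8 ∈ [chevG2, chevB2, chevD4, chevF4, chevE6, chevE7, chevE8] := by simp
  choose Ψ hΨ using fun σ : F ≃+* F => Cfsg.Agent.S1080.result (F := F) chevE8 hD σ
  have hrel : ∀ σ : F ≃+* F, FieldRel chevE8 (Ψ σ) σ := hΨ
  rw [← Cfsg.Agent.Lib.Helper31.card_ringAut_of_card p f hF]
  apply Cfsg.Agent.Lib.Helper31.card_out_of_param Ψ
  · intro θ
    obtain ⟨x, σ, h⟩ := aut_E8 p θ
    exact ⟨x, σ, h (Ψ σ) (hrel σ)⟩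
  · intro σ τ hin
    obtain ⟨x, hx⟩ := hin
    have hfix : ∀ (ρ : F ≃+* F) (s : ℕ), s < chevE8.nroots →
        Ψ ρ (xG chevE8 hD s 1) = xG chevE8 hD s 1 := by
      intro ρ s hs
      rw [fieldRel_xG hD (hrel ρ) s hs, map_one]
    have hx1 : (x : GL chevE8.Idx F) = 1 := by
      apply eq_one_of_comm_root chevE8 hD _ x.2
      intro s hs
      have h1 : MulAut.conj x (xG chevE8 hD s 1) = ((Ψ σ)⁻¹ * Ψ τ) (xG chevE8 hD s 1) := by
        rw [hx]
      have h2 : ((Ψ σ)⁻¹ * Ψ τ) (xG chevE8 hD s 1) = xG chevE8 hD s 1 := by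
        show (Ψ σ)⁻¹ (Ψ τ (xG chevE8 hD s 1)) = _
        rw [hfix τ s hs]
        have h3 : (Ψ σ)⁻¹ (Ψ σ (xG chevE8 hD s 1)) = xG chevE8 hD s 1 :=
          MulAut.inv_apply_self _ _ _
        rw [hfix σ s hs] at h3
        exact h3
      rw [h2] at h1
      have h4 : (x : GL chevE8.Idx F) * xU chevE8 hD s 1 * (x : GL chevE8.Idx F)⁻¹ =
          xU chevE8 hD s 1 := congrArg Subtype.val h1
      calc (x : GL chevE8.Idx F) * xU chevE8 hD s 1
          = (x : GL chevE8.Idx F) * xU chevE8 hD s 1 * (x : GL chevE8.Idx F)⁻¹ *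
              (x : GL chevE8.Idx F) := by group
        _ = xU chevE8 hD s 1 * (x : GL chevE8.Idx F) := by rw [h4]
    have hx2 : x = 1 := Subtype.ext hx1
    rw [hx2, map_one] at hx
    have h5 : Ψ σ = Ψ τ := inv_mul_eq_one.mp hx.symm
    have hs0 : chevE8.simple 0 < chevE8.nroots := simple_lt chevE8 hD 0 (by decide)
    ext t
    have h6 : Ψ σ (xG chevE8 hD (chevE8.simple 0) t) = Ψ τ (xG chevE8 hD (chevE8.simple 0) t) := by
      rw [h5]
    rw [fieldRel_xG hD (hrel σ) _ hs0, fieldRel_xG hD (hrel τ) _ hs0] at h6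
    exact xU_injective chevE8 hD _ hs0 _ _ (congrArg Subtype.val h6)

end Cfsg.Agent.S2125
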