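import Cfsg.Statements.S2330
import Cfsg.Agent.Lib.Helper39.GL2

set_option autoImplicit false
open Cfsg

namespace Cfsg.Agent.S2330

open Matrix Cfsg.Agent.Lib.Helper39

variable {F : Type*} [Field F]

/-- the companion matrix as an element of `GL₂`. -/
noncomputable def compGL (t : F) (d : Fˣ) : Matrix.GeneralLinearGroup (Fin 2) F :=
  Matrix.GeneralLinearGroup.mkOfDetNeZero (compMat t (d : F)) (by rw [compMat_det]; exact d.ne_zero)

/-- the scalar matrix as an element of `GL₂`. -/
noncomputable def scalGL (a : Fˣ) : Matrix.GeneralLinearGroup (Fin 2) F :=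
  Matrix.GeneralLinearGroup.mkOfDetNeZero ((a : F) • (1 : Matrix (Fin 2) (Fin 2) F))
    (by simp)

/-- the parametrisation of classes. -/
noncomputable def classMap : Fˣ ⊕ (F × Fˣ) → ConjClasses (Matrix.GeneralLinearGroup (Fin 2) F)
  | Sum.inl a => ConjClasses.mk (scalGL a)
  | Sum.inr td => ConjClasses.mk (compGL td.1 td.2)

theorem classMap_injective : Function.Injective (classMap (F := F)) := by
  rintro (a | ⟨t, d⟩) (a' | ⟨t', d'⟩) h
  · simp only [classMap, ConjClasses.mk_eq_mk_iff_isConj] at h
    have h00 := gl2_trace_eq_of_isConj h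
    have hs : ¬ NonScal ((scalGL a : Matrix.GeneralLinearGroup (Fin 2) F) : Matrix (Fin 2) (Fin 2) F) :=
      not_nonScal_smul_one _
    rw [isConj_iff] at h
    obtain ⟨c, hc⟩ := h
    have h3 : ((scalGL a' : Matrix.GeneralLinearGroup (Fin 2) F) : Matrix (Fin 2) (Fin 2) F) =
        ((scalGL a : Matrix.GeneralLinearGroup (Fin 2) F) : Matrix (Fin 2) (Fin 2) F) := by
      rw [← hc, Units.val_mul, Units.val_mul]
      change (c : Matrix (Fin 2) (Fin 2) F) * ((a : F) • (1 : Matrix (Fin 2) (Fin 2) F)) * _ = _
      rw [Matrix.mul_smul, Matrix.mul_one, Matrix.smul_mul, ← Units.val_mul, mul_inv_cancel]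
      rfl
    have h4 := congrFun (congrFun h3 0) 0
    change ((a' : F) • (1 : Matrix (Fin 2) (Fin 2) F)) 0 0 = ((a : F) • (1 : Matrix (Fin 2) (Fin 2) F)) 0 0 at h4
    simp at h4
    congr 1
    exact Units.ext h4.symm
  · exfalso
    simp only [classMap, ConjClasses.mk_eq_mk_iff_isConj] at h
    have := gl2_nonScal_of_isConj h.symm (compMat_nonScal _ _)
    exact not_nonScal_smul_one _ this
  · exfalso
    simp only [classMap, ConjClasses.mk_eq_mk_iff_isConj] at h
    have := gl2_nonScal_of_isConj h (compMat_nonScal _ _)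
    exact not_nonScal_smul_one _ this
  · simp only [classMap, ConjClasses.mk_eq_mk_iff_isConj] at h
    have h1 := gl2_trace_eq_of_isConj h
    have h2 := gl2_det_eq_of_isConj h
    change (compMat t (d : F)).trace = (compMat t' (d' : F)).trace at h1
    change (compMat t (d : F)).det = (compMat t' (d' : F)).det at h2
    rw [compMat_trace, compMat_trace] at h1
    rw [compMat_det, compMat_det] at h2
    congr 1
    exact Prod.ext h1 (Units.ext h2)

theorem classMap_surjective : Function.Surjective (classMap (F := F)) := by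
  intro C
  obtain ⟨g, rfl⟩ := ConjClasses.mk_surjective C
  by_cases hg : NonScal (g : Matrix (Fin 2) (Fin 2) F)
  · have hd : (g : Matrix (Fin 2) (Fin 2) F).det ≠ 0 := by
      have := (Matrix.isUnit_iff_isUnit_det _).mp g.isUnit
      exact this.ne_zero
    refine ⟨Sum.inr ((g : Matrix (Fin 2) (Fin 2) F).trace, Units.mk0 _ hd), ?_⟩
    simp only [classMap, ConjClasses.mk_eq_mk_iff_isConj]
    apply gl2_isConj_of_nonScal
    · exact compMat_nonScal _ _
    · exact hg
    · change (compMat _ _).trace = _
      rw [compMat_trace]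
    · change (compMat _ _).det = _
      rw [compMat_det]
      rfl
  · have h1 := eq_smul_one_of_not_nonScal hg
    have hd : (g : Matrix (Fin 2) (Fin 2) F).det ≠ 0 := by
      have := (Matrix.isUnit_iff_isUnit_det _).mp g.isUnit
      exact this.ne_zero
    have ha : (g : Matrix (Fin 2) (Fin 2) F) 0 0 ≠ 0 := by
      intro h0
      rw [h0, zero_smul] at h1
      rw [h1] at hd
      simp at hd
    refine ⟨Sum.inl (Units.mk0 _ ha), ?_⟩
    simp only [classMap]
    congr 1
    apply Units.ext
    change _ • (1 : Matrix (Fin 2) (Fin 2) F) = _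
    exact h1.symm

/-- Over a finite field with q elements, the general linear group GL₂ has exactly q² − 1 conjugacy classes. -/
theorem result {F : Type*} [Field F] [Fintype F] :
    Nat.card (ConjClasses (Matrix.GeneralLinearGroup (Fin 2) F)) = Fintype.card F ^ 2 - 1 := by
  classical
  have hbij : Function.Bijective (classMap (F := F)) := ⟨classMap_injective, classMap_surjective⟩
  rw [← Nat.card_congr (Equiv.ofBijective _ hbij), Nat.card_sum, Nat.card_prod, Nat.card_units,
    Nat.card_eq_fintype_card]
  have hq : 1 ≤ Fintype.card F := Fintype.card_pos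
  obtain ⟨k, hk⟩ : ∃ k, Fintype.card F = k + 1 := ⟨Fintype.card F - 1, by omega⟩
  rw [hk]
  simp only [Nat.add_sub_cancel]
  have : (k + 1) ^ 2 = k + (k + 1) * k + 1 := by ring
  omega

end Cfsg.Agent.S2330
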