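import Cfsg.Statements.S2298
import Cfsg.Agent.Lib.Helper39.GL2Class
import Cfsg.Agent.S2330

set_option autoImplicit false
open Cfsg

namespace Cfsg.Agent.S2298

/-- Over a finite field F with q elements, every irreducible complex character of GL₂ has degree 1, q − 1, q or q + 1; and when q ≥ 3 (so that these four numbers are distinct) there are exactly q − 1 irreducible characters of degree 1, exactly q − 1 of degree q, exactly (q − 1)(q − 2)/2 of degree q + 1 and exactly q(q − 1)/2 of degree q − 1. -/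
theorem result {F : Type*} [Field F] [Fintype F] :
    (∀ χ : Matrix.GeneralLinearGroup (Fin 2) F → ℂ, Cfsg.IsIrrCharacter (Matrix.GeneralLinearGroup (Fin 2) F) χ →
      χ 1 = 1 ∨ χ 1 = (Fintype.card F : ℂ) - 1 ∨ χ 1 = (Fintype.card F : ℂ) ∨ χ 1 = (Fintype.card F : ℂ) + 1) ∧
    (3 ≤ Fintype.card F →
      Nat.card {χ : Cfsg.IrrCharacter (Matrix.GeneralLinearGroup (Fin 2) F) // (χ : Matrix.GeneralLinearGroup (Fin 2) F → ℂ) 1 = 1} = Fintype.card F - 1 ∧
      Nat.card {χ : Cfsg.IrrCharacter (Matrix.GeneralLinearGroup (Fin 2) F) // (χ : Matrix.GeneralLinearGroup (Fin 2) F → ℂ) 1 = (Fintype.card F : ℂ)} = Fintype.card F - 1 ∧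
      Nat.card {χ : Cfsg.IrrCharacter (Matrix.GeneralLinearGroup (Fin 2) F) // (χ : Matrix.GeneralLinearGroup (Fin 2) F → ℂ) 1 = (Fintype.card F : ℂ) + 1} = (Fintype.card F - 1) * (Fintype.card F - 2) / 2 ∧
      Nat.card {χ : Cfsg.IrrCharacter (Matrix.GeneralLinearGroup (Fin 2) F) // (χ : Matrix.GeneralLinearGroup (Fin 2) F → ℂ) 1 = (Fintype.card F : ℂ) - 1} = Fintype.card F * (Fintype.card F - 1) / 2) := by
  classical
  have hfin := Cfsg.Agent.Lib.Helper3.irr_finite (G := Matrix.GeneralLinearGroup (Fin 2) F)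
  letI hft : Fintype (Cfsg.IrrCharacter (Matrix.GeneralLinearGroup (Fin 2) F)) :=
    Fintype.ofFinite _
  have hq1 := Fintype.one_lt_card (α := F)
  obtain ⟨r, hr⟩ : ∃ r, Fintype.card F = r + 1 := ⟨Fintype.card F - 1, by omega⟩
  have hr1 : 1 ≤ r := by omega
  have hχd : ∀ χ : Matrix.GeneralLinearGroup (Fin 2) F → ℂ,
      Cfsg.IsIrrCharacter (Matrix.GeneralLinearGroup (Fin 2) F) χ →
      χ 1 = (Cfsg.charDegree χ : ℂ) := fun χ hχ =>
    Cfsg.Agent.Lib.Helper80.char_one_eq_charDegree
      (Cfsg.Agent.Lib.Helper80.isCharacter_of_isIrrCharacter hχ)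
  have hqc : (Fintype.card F : ℂ) = (r : ℂ) + 1 := by
    rw [hr]
    push_cast
    ring
  have hcls := Cfsg.Agent.S2330.result (F := F)
  constructor
  · intro χ hχ
    rw [hχd χ hχ, hqc]
    by_cases hr2 : 2 ≤ r
    · obtain ⟨hdeg, -⟩ := Cfsg.Agent.Lib.Helper39.gl2_class r hr hr2 hcls
      have hd : Cfsg.charDegree χ = 1 ∨ Cfsg.charDegree χ = r ∨
          Cfsg.charDegree χ = r + 1 ∨ Cfsg.charDegree χ = r + 2 := hdeg ⟨χ, hχ⟩
      rcases hd with h | h | h | h
      · left
        rw [h]
        norm_num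
      · right; left
        rw [h]
        ring
      · right; right; left
        rw [h]
        push_cast
        ring
      · right; right; right
        rw [h]
        push_cast
        ring
    · have hr' : r = 1 := by omega
      subst hr'
      have hpos := Cfsg.Agent.Lib.Helper80.charDegree_pos hχ
      have hle : Cfsg.charDegree χ ^ 2 ≤ 6 := by
        have hsum := Cfsg.Agent.Lib.Helper80.sum_charDegree_sq
          (G := Matrix.GeneralLinearGroup (Fin 2) F)
        have hG : Nat.card (Matrix.GeneralLinearGroup (Fin 2) F) = 6 := by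
          have h := Cfsg.Agent.Lib.Helper39.card_GL2_real (F := F)
          rw [hr] at h
          rw [Nat.card_eq_fintype_card]
          have h' : ((Fintype.card (Matrix.GeneralLinearGroup (Fin 2) F) : ℕ) : ℝ) =
              ((6 : ℕ) : ℝ) := by
            rw [h]
            push_cast
            norm_num
          exact_mod_cast h'
        have h3 := Finset.single_le_sum
          (f := fun χ : Cfsg.IrrCharacter (Matrix.GeneralLinearGroup (Fin 2) F) =>
            Cfsg.charDegree χ.1 ^ 2) (fun _ _ => Nat.zero_le _)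
          (Finset.mem_univ (⟨χ, hχ⟩ :
            Cfsg.IrrCharacter (Matrix.GeneralLinearGroup (Fin 2) F)))
        rw [hsum, hG] at h3
        exact h3
      have h4 : Cfsg.charDegree χ ≤ 2 := by nlinarith
      generalize Cfsg.charDegree χ = d at hpos h4 ⊢
      interval_cases d
      · left
        norm_num
      · right; right; left
        norm_num
  · intro h3
    have hr2 : 2 ≤ r := by omega
    obtain ⟨-, c1, c2, c3, c4⟩ := Cfsg.Agent.Lib.Helper39.gl2_class r hr hr2 hcls
    have conv : ∀ (a : ℂ) (n : ℕ), a = (n : ℂ) →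
        Nat.card {χ : Cfsg.IrrCharacter (Matrix.GeneralLinearGroup (Fin 2) F) //
          (χ : Matrix.GeneralLinearGroup (Fin 2) F → ℂ) 1 = a} =
        Nat.card {χ : Cfsg.IrrCharacter (Matrix.GeneralLinearGroup (Fin 2) F) //
          Cfsg.charDegree χ.1 = n} := by
      intro a n han
      apply Nat.card_congr
      apply Equiv.subtypeEquivRight
      intro χ
      rw [hχd χ.1 χ.2, han]
      exact Nat.cast_inj
    have e1 : Fintype.card F - 1 = r := by omega
    have e2 : Fintype.card F - 2 = r - 1 := by omega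
    refine ⟨?_, ?_, ?_, ?_⟩
    · rw [conv 1 1 (by simp), c1, e1]
    · rw [conv _ (r + 1) (by rw [hr]), c2, e1]
    · rw [conv _ (r + 2) (by rw [hr]; push_cast; ring), c3, Nat.choose_two_right, e1, e2]
    · rw [conv _ r (by rw [hr]; push_cast; ring), c4, Nat.choose_two_right, e1, hr]
      simp

end Cfsg.Agent.S2298
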