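import Cfsg.Statements.S2299
import Cfsg.Agent.Lib.Helper39.SL2OddClass

set_option autoImplicit false
open Cfsg

namespace Cfsg.Agent.S2299

/-- Over a finite field F with q elements, q odd, every irreducible complex character of SL₂ has degree 1, q, q + 1, q − 1, (q + 1)/2 or (q − 1)/2; and when q ≥ 5 (so that these six numbers are distinct) there are exactly one irreducible character of degree 1, one of degree q, (q − 3)/2 of degree q + 1, (q − 1)/2 of degree q − 1, two of degree (q + 1)/2 and two of degree (q − 1)/2. -/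
theorem result {F : Type*} [Field F] [Fintype F] (hodd : Odd (Fintype.card F)) :
    (∀ χ : Matrix.SpecialLinearGroup (Fin 2) F → ℂ, Cfsg.IsIrrCharacter (Matrix.SpecialLinearGroup (Fin 2) F) χ →
      χ 1 = 1 ∨ χ 1 = (Fintype.card F : ℂ) ∨ χ 1 = (Fintype.card F : ℂ) + 1 ∨ χ 1 = (Fintype.card F : ℂ) - 1 ∨
        χ 1 = (((Fintype.card F + 1) / 2 : ℕ) : ℂ) ∨ χ 1 = (((Fintype.card F - 1) / 2 : ℕ) : ℂ)) ∧
    (5 ≤ Fintype.card F →
      Nat.card {χ : Cfsg.IrrCharacter (Matrix.SpecialLinearGroup (Fin 2) F) // (χ : Matrix.SpecialLinearGroup (Fin 2) F → ℂ) 1 = 1} = 1 ∧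
      Nat.card {χ : Cfsg.IrrCharacter (Matrix.SpecialLinearGroup (Fin 2) F) // (χ : Matrix.SpecialLinearGroup (Fin 2) F → ℂ) 1 = (Fintype.card F : ℂ)} = 1 ∧
      Nat.card {χ : Cfsg.IrrCharacter (Matrix.SpecialLinearGroup (Fin 2) F) // (χ : Matrix.SpecialLinearGroup (Fin 2) F → ℂ) 1 = (Fintype.card F : ℂ) + 1} = (Fintype.card F - 3) / 2 ∧
      Nat.card {χ : Cfsg.IrrCharacter (Matrix.SpecialLinearGroup (Fin 2) F) // (χ : Matrix.SpecialLinearGroup (Fin 2) F → ℂ) 1 = (Fintype.card F : ℂ) - 1} = (Fintype.card F - 1) / 2 ∧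
      Nat.card {χ : Cfsg.IrrCharacter (Matrix.SpecialLinearGroup (Fin 2) F) // (χ : Matrix.SpecialLinearGroup (Fin 2) F → ℂ) 1 = (((Fintype.card F + 1) / 2 : ℕ) : ℂ)} = 2 ∧
      Nat.card {χ : Cfsg.IrrCharacter (Matrix.SpecialLinearGroup (Fin 2) F) // (χ : Matrix.SpecialLinearGroup (Fin 2) F → ℂ) 1 = (((Fintype.card F - 1) / 2 : ℕ) : ℂ)} = 2) := by
  classical
  have hfin := Cfsg.Agent.Lib.Helper3.irr_finite (G := Matrix.SpecialLinearGroup (Fin 2) F)
  letI hft : Fintype (Cfsg.IrrCharacter (Matrix.SpecialLinearGroup (Fin 2) F)) :=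
    Fintype.ofFinite _
  obtain ⟨r, hr⟩ : ∃ r, Fintype.card F = 2 * r + 1 :=
    ⟨Fintype.card F / 2, by have := Nat.odd_iff.mp hodd; omega⟩
  have hq1 := Fintype.one_lt_card (α := F)
  have hr1 : 1 ≤ r := by omega
  have hχd : ∀ χ : Matrix.SpecialLinearGroup (Fin 2) F → ℂ,
      Cfsg.IsIrrCharacter (Matrix.SpecialLinearGroup (Fin 2) F) χ →
      χ 1 = (Cfsg.charDegree χ : ℂ) := fun χ hχ =>
    Cfsg.Agent.Lib.Helper80.char_one_eq_charDegree
      (Cfsg.Agent.Lib.Helper80.isCharacter_of_isIrrCharacter hχ)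
  have e1 : (Fintype.card F + 1) / 2 = r + 1 := by omega
  have e2 : (Fintype.card F - 1) / 2 = r := by omega
  have e3 : (Fintype.card F - 3) / 2 = r - 1 := by omega
  have hqc : (Fintype.card F : ℂ) = 2 * (r : ℂ) + 1 := by
    rw [hr]
    push_cast
    ring
  constructor
  · intro χ hχ
    rw [hχd χ hχ, e1, e2, hqc]
    by_cases hr2 : 2 ≤ r
    · obtain ⟨hdeg, -⟩ := Cfsg.Agent.Lib.Helper39.sl2_odd_class hodd r hr hr2
      have hd : Cfsg.charDegree χ = 1 ∨ Cfsg.charDegree χ = 2 * r + 1 ∨
          Cfsg.charDegree χ = 2 * r + 2 ∨ Cfsg.charDegree χ = 2 * r ∨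
          Cfsg.charDegree χ = r + 1 ∨ Cfsg.charDegree χ = r := hdeg ⟨χ, hχ⟩
      rcases hd with h | h | h | h | h | h
      · left
        rw [h]
        norm_num
      · right; left
        rw [h]
        push_cast
        ring
      · right; right; left
        rw [h]
        push_cast
        ring
      · right; right; right; left
        rw [h]
        push_cast
        ring
      · right; right; right; right; left
        rw [h]
      · right; right; right; right; right
        rw [h]
    · have hr' : r = 1 := by omega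
      subst hr'
      have hpos := Cfsg.Agent.Lib.Helper80.charDegree_pos hχ
      have hle : Cfsg.charDegree χ ^ 2 ≤ 24 := by
        have hsum := Cfsg.Agent.Lib.Helper80.sum_charDegree_sq
          (G := Matrix.SpecialLinearGroup (Fin 2) F)
        have hG : Nat.card (Matrix.SpecialLinearGroup (Fin 2) F) = 24 := by
          have h := Cfsg.Agent.Lib.Helper39.card_SL2_complex (F := F)
          rw [hr] at h
          rw [Nat.card_eq_fintype_card]
          have h' : ((Fintype.card (Matrix.SpecialLinearGroup (Fin 2) F) : ℕ) : ℂ) =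
              ((24 : ℕ) : ℂ) := by
            rw [h]
            push_cast
            norm_num
          exact_mod_cast h'
        have h3 := Finset.single_le_sum
          (f := fun χ : Cfsg.IrrCharacter (Matrix.SpecialLinearGroup (Fin 2) F) =>
            Cfsg.charDegree χ.1 ^ 2) (fun _ _ => Nat.zero_le _)
          (Finset.mem_univ (⟨χ, hχ⟩ :
            Cfsg.IrrCharacter (Matrix.SpecialLinearGroup (Fin 2) F)))
        rw [hsum, hG] at h3
        exact h3
      have h4 : Cfsg.charDegree χ ≤ 4 := by nlinarith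
      generalize Cfsg.charDegree χ = d at hpos h4 ⊢
      interval_cases d
      · left
        norm_num
      · right; right; right; left
        norm_num
      · right; left
        norm_num
      · right; right; left
        norm_num
  · intro h5
    have hr2 : 2 ≤ r := by omega
    obtain ⟨-, c1, c2, c3, c4, c5, c6⟩ := Cfsg.Agent.Lib.Helper39.sl2_odd_class hodd r hr hr2
    have conv : ∀ (a : ℂ) (n : ℕ), a = (n : ℂ) →
        Nat.card {χ : Cfsg.IrrCharacter (Matrix.SpecialLinearGroup (Fin 2) F) //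
          (χ : Matrix.SpecialLinearGroup (Fin 2) F → ℂ) 1 = a} =
        Nat.card {χ : Cfsg.IrrCharacter (Matrix.SpecialLinearGroup (Fin 2) F) //
          Cfsg.charDegree χ.1 = n} := by
      intro a n han
      apply Nat.card_congr
      apply Equiv.subtypeEquivRight
      intro χ
      rw [hχd χ.1 χ.2, han]
      exact Nat.cast_inj
    refine ⟨?_, ?_, ?_, ?_, ?_, ?_⟩
    · rw [conv 1 1 (by simp), c1]
    · rw [conv _ (2 * r + 1) (by rw [hr]), c2]
    · rw [conv _ (2 * r + 2) (by rw [hr]; push_cast; ring), c3, e3]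
    · rw [conv _ (2 * r) (by rw [hr]; push_cast; ring), c4, e2]
    · rw [e1, conv _ (r + 1) rfl, c5]
    · rw [e2, conv _ r rfl, c6]

end Cfsg.Agent.S2299
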