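import Cfsg.Statements.S2301
import Mathlib

set_option autoImplicit false
open Cfsg

namespace Cfsg.Agent.S2301

open Matrix

theorem nil_pow {F : Type*} [Field F] (d : ℕ) (M : Matrix (Fin d) (Fin d) F)
    (hM : IsNilpotent M) : M ^ d = 0 := by
  have h1 := Matrix.isNilpotent_charpoly_sub_pow_of_isNilpotent hM
  have h2 : M.charpoly = Polynomial.X ^ d := by
    have := h1.eq_zero
    simpa [sub_eq_zero] using this
  have h3 := Matrix.aeval_self_charpoly M
  rw [h2] at h3
  simpa using h3

section
variable {F : Type*} [Field F]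

/-- The upper unitriangular matrix with off-diagonal entry `b`. -/
def u (b : F) : SpecialLinearGroup (Fin 2) F :=
  ⟨!![1, b; 0, 1], by rw [Matrix.det_fin_two_of]; ring⟩

/-- The conjugate of `u b` by a matrix of determinant one with first column `(x, y)`. -/
def w (b x y : F) : SpecialLinearGroup (Fin 2) F :=
  ⟨!![1 - b * x * y, b * x ^ 2; -(b * y ^ 2), 1 + b * x * y], by
    rw [Matrix.det_fin_two_of]; ring⟩

theorem conj_u (A : SpecialLinearGroup (Fin 2) F) (b : F) :
    A * u b * A⁻¹ = w b ((A : Matrix (Fin 2) (Fin 2) F) 0 0) ((A : Matrix (Fin 2) (Fin 2) F) 1 0) := by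
  rw [mul_inv_eq_iff_eq_mul]
  apply Subtype.ext
  have hdet : (A : Matrix (Fin 2) (Fin 2) F) 0 0 * (A : Matrix (Fin 2) (Fin 2) F) 1 1
      - (A : Matrix (Fin 2) (Fin 2) F) 0 1 * (A : Matrix (Fin 2) (Fin 2) F) 1 0 = 1 := by
    have := A.2
    rwa [Matrix.det_fin_two] at this
  set x := (A : Matrix (Fin 2) (Fin 2) F) 0 0
  set z := (A : Matrix (Fin 2) (Fin 2) F) 0 1
  set y := (A : Matrix (Fin 2) (Fin 2) F) 1 0
  set t := (A : Matrix (Fin 2) (Fin 2) F) 1 1
  have hA : (A : Matrix (Fin 2) (Fin 2) F) = !![x, z; y, t] := Matrix.eta_fin_two _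
  change (A : Matrix (Fin 2) (Fin 2) F) * !![1, b; 0, 1]
    = !![1 - b * x * y, b * x ^ 2; -(b * y ^ 2), 1 + b * x * y] * (A : Matrix (Fin 2) (Fin 2) F)
  rw [hA, Matrix.mul_fin_two, Matrix.mul_fin_two]
  ext i j
  fin_cases i <;> fin_cases j
  · simp; ring
  · simp; linear_combination (-b * x) * hdet
  · simp; ring
  · simp; linear_combination (-b * y) * hdet

theorem isConj_u_w (b : F) {x y : F} (h : (x, y) ≠ (0, 0)) : IsConj (u b) (w b x y) := by
  obtain ⟨z, t, hzt⟩ : ∃ z t : F, x * t - z * y = 1 := by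
    by_cases hx : x = 0
    · have hy : y ≠ 0 := by
        rintro rfl; exact h (by rw [hx])
      refine ⟨-y⁻¹, 0, ?_⟩
      field_simp
      ring
    · exact ⟨0, x⁻¹, by field_simp; ring⟩
  let A : SpecialLinearGroup (Fin 2) F := ⟨!![x, z; y, t], by rw [Matrix.det_fin_two_of]; exact hzt⟩
  rw [isConj_iff]
  refine ⟨A, ?_⟩
  rw [conj_u]
  rfl

theorem isConj_u_iff {b b' : F} (hb : b ≠ 0) (hb' : b' ≠ 0) :
    IsConj (u b) (u b') ↔ IsSquare (b * b') := by
  constructor
  · intro h
    obtain ⟨A, hA⟩ := isConj_iff.mp h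
    rw [conj_u] at hA
    have hdet : (A : Matrix (Fin 2) (Fin 2) F) 0 0 * (A : Matrix (Fin 2) (Fin 2) F) 1 1
        - (A : Matrix (Fin 2) (Fin 2) F) 0 1 * (A : Matrix (Fin 2) (Fin 2) F) 1 0 = 1 := by
      have := A.2
      rwa [Matrix.det_fin_two] at this
    set x := (A : Matrix (Fin 2) (Fin 2) F) 0 0
    set y := (A : Matrix (Fin 2) (Fin 2) F) 1 0
    have h1 := congrArg (fun z : SpecialLinearGroup (Fin 2) F => (z : Matrix (Fin 2) (Fin 2) F)) hA
    have e01 := congrFun (congrFun h1 0) 1
    have e10 := congrFun (congrFun h1 1) 0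
    simp [u, w] at e01 e10
    exact ⟨b * x, by rw [← e01]; ring⟩
  · rintro ⟨r, hr⟩
    have hr0 : r ≠ 0 := by
      rintro rfl
      rw [mul_zero] at hr
      exact (mul_ne_zero hb hb') hr
    have : u b' = w b (r / b) 0 := by
      apply Subtype.ext
      ext i j
      fin_cases i <;> fin_cases j
      · simp [u, w]
      · simp [u, w]; field_simp; linear_combination hr
      · simp [u, w]
      · simp [u, w]
    rw [this]
    apply isConj_u_w
    intro h0
    have : r / b = 0 := congrArg Prod.fst h0
    exact (div_ne_zero hr0 hb) this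

theorem w_eq_iff {b x y x' y' : F} (hb : b ≠ 0) :
    w b x y = w b x' y' ↔ (x' = x ∧ y' = y) ∨ (x' = -x ∧ y' = -y) := by
  constructor
  · intro h
    have h1 := congrArg (fun z : SpecialLinearGroup (Fin 2) F => (z : Matrix (Fin 2) (Fin 2) F)) h
    have e01 : b * x ^ 2 = b * x' ^ 2 := congrFun (congrFun h1 0) 1
    have e10 : -(b * y ^ 2) = -(b * y' ^ 2) := congrFun (congrFun h1 1) 0
    have e11 : 1 + b * x * y = 1 + b * x' * y' := congrFun (congrFun h1 1) 1
    have hx : x' = x ∨ x' = -x := by
      have : b * ((x' - x) * (x' + x)) = 0 := by linear_combination -e01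
      rcases mul_eq_zero.mp this with h | h
      · exact absurd h hb
      · rcases mul_eq_zero.mp h with h | h
        · left; linear_combination h
        · right; linear_combination h
    have hy : y' = y ∨ y' = -y := by
      have : b * ((y' - y) * (y' + y)) = 0 := by linear_combination e10
      rcases mul_eq_zero.mp this with h | h
      · exact absurd h hb
      · rcases mul_eq_zero.mp h with h | h
        · left; linear_combination h
        · right; linear_combination h
    have hxy : x * y = x' * y' := by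
      have : b * (x * y - x' * y') = 0 := by linear_combination e11
      rcases mul_eq_zero.mp this with h | h
      · exact absurd h hb
      · exact sub_eq_zero.mp h
    rcases hx with hx | hx <;> rcases hy with hy | hy
    · exact Or.inl ⟨hx, hy⟩
    · -- x' = x, y' = -y, so x y = - x y
      rw [hx, hy] at hxy
      have h2 : x * y = 0 ∨ (2 : F) = 0 := by
        have : (2 : F) * (x * y) = 0 := by linear_combination hxy
        rcases mul_eq_zero.mp this with h | h
        · exact Or.inr h
        · exact Or.inl h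
      rcases h2 with h2 | h2
      · rcases mul_eq_zero.mp h2 with h3 | h3
        · right; exact ⟨by rw [hx, h3]; simp, hy⟩
        · left; exact ⟨hx, by rw [hy, h3]; simp⟩
      · left; exact ⟨hx, by rw [hy]; linear_combination (-y) * h2⟩
    · rw [hx, hy] at hxy
      have h2 : x * y = 0 ∨ (2 : F) = 0 := by
        have : (2 : F) * (x * y) = 0 := by linear_combination hxy
        rcases mul_eq_zero.mp this with h | h
        · exact Or.inr h
        · exact Or.inl h
      rcases h2 with h2 | h2
      · rcases mul_eq_zero.mp h2 with h3 | h3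
        · left; exact ⟨by rw [hx, h3]; simp, hy⟩
        · right; exact ⟨hx, by rw [hy, h3]; simp⟩
      · left; exact ⟨by rw [hx]; linear_combination (-x) * h2, hy⟩
    · exact Or.inr ⟨hx, hy⟩
  · rintro (⟨rfl, rfl⟩ | ⟨rfl, rfl⟩)
    · rfl
    · apply Subtype.ext
      ext i j
      fin_cases i <;> fin_cases j <;> simp [w]

theorem u_pow (b : F) (k : ℕ) : u b ^ k = u (k * b) := by
  induction k with
  | zero =>
    rw [pow_zero]
    apply Subtype.ext
    simp [u, Matrix.one_fin_two]
  | succ k ih =>
    rw [pow_succ, ih]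
    apply Subtype.ext
    change !![1, (k : F) * b; 0, 1] * !![1, b; 0, 1] = !![1, ((k + 1 : ℕ) : F) * b; 0, 1]
    rw [Matrix.mul_fin_two]
    ext i j
    fin_cases i <;> fin_cases j <;> simp
    ring

theorem u_ne_one {b : F} (hb : b ≠ 0) : u b ≠ 1 := by
  intro h
  have h1 := congrArg (fun z : SpecialLinearGroup (Fin 2) F => (z : Matrix (Fin 2) (Fin 2) F)) h
  have e01 := congrFun (congrFun h1 0) 1
  simp [u] at e01
  exact hb e01

theorem orderOf_u (p : ℕ) [Fact p.Prime] [CharP F p] {b : F} (hb : b ≠ 0) : orderOf (u b) = p := by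
  apply orderOf_eq_prime
  · rw [u_pow, CharP.cast_eq_zero, zero_mul]
    apply Subtype.ext
    simp [u, Matrix.one_fin_two]
  · exact u_ne_one hb

/-- Every element of order `p` is of the form `w b x y`. -/
theorem exists_eq_w (p : ℕ) [Fact p.Prime] [CharP F p] (g : SpecialLinearGroup (Fin 2) F)
    (hg : orderOf g = p) : ∃ b x y : F, b ≠ 0 ∧ (x, y) ≠ (0, 0) ∧ g = w b x y := by
  have hpp : p.Prime := Fact.out
  have hgp : g ^ p = 1 := by
    rw [← hg]; exact pow_orderOf_eq_one g
  have hg1 : g ≠ 1 := by
    intro h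
    rw [h, orderOf_one] at hg
    exact hpp.one_lt.ne hg
  set M : Matrix (Fin 2) (Fin 2) F := (g : Matrix (Fin 2) (Fin 2) F) with hM
  have hMp : M ^ p = 1 := by
    have := congrArg (fun z : SpecialLinearGroup (Fin 2) F => (z : Matrix (Fin 2) (Fin 2) F)) hgp
    simpa using this
  have hnil : IsNilpotent (M - 1) := by
    refine ⟨p, ?_⟩
    rw [sub_pow_char_of_commute p (Commute.one_right M), hMp, one_pow, sub_self]
  have hsq : (M - 1) * (M - 1) = 0 := by
    have := nil_pow 2 _ hnil
    rwa [pow_two] at this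
  have hdet : M 0 0 * M 1 1 - M 0 1 * M 1 0 = 1 := by
    have := g.2
    rwa [Matrix.det_fin_two] at this
  set a := M 0 0 with ha
  set b' := M 0 1 with hb'
  set c := M 1 0 with hc
  set d := M 1 1 with hd
  have e00 := congrFun (congrFun hsq 0) 0
  have e01 := congrFun (congrFun hsq 0) 1
  have e10 := congrFun (congrFun hsq 1) 0
  have e11 := congrFun (congrFun hsq 1) 1
  simp [Matrix.mul_apply, Fin.sum_univ_two] at e00 e01 e10 e11
  rw [← ha, ← hb', ← hc] at e00
  rw [← ha, ← hb', ← hd] at e01
  rw [← ha, ← hc, ← hd] at e10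
  rw [← hb', ← hc, ← hd] at e11
  -- trace condition
  have htr : (a - 1) + (d - 1) = 0 := by
    by_contra hs
    have hb0 : b' = 0 := by
      have : b' * ((a - 1) + (d - 1)) = 0 := by linear_combination e01
      rcases mul_eq_zero.mp this with h | h
      · exact h
      · exact absurd h hs
    have hc0 : c = 0 := by
      have : c * ((a - 1) + (d - 1)) = 0 := by linear_combination e10
      rcases mul_eq_zero.mp this with h | h
      · exact h
      · exact absurd h hs
    have ha1 : a - 1 = 0 := by
      rw [hb0] at e00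
      have : (a - 1) * (a - 1) = 0 := by linear_combination e00
      exact mul_self_eq_zero.mp this
    have hd1 : d - 1 = 0 := by
      rw [hb0] at e11
      have : (d - 1) * (d - 1) = 0 := by linear_combination e11
      exact mul_self_eq_zero.mp this
    apply hs
    rw [ha1, hd1, add_zero]
  by_cases hb0 : b' = 0
  · have ha1 : a = 1 := by
      rw [hb0] at e00
      have : (a - 1) * (a - 1) = 0 := by linear_combination e00
      exact sub_eq_zero.mp (mul_self_eq_zero.mp this)
    have hd1 : d = 1 := by linear_combination htr - ha1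
    have hc0 : c ≠ 0 := by
      intro hc0
      apply hg1
      apply Subtype.ext
      change M = 1
      rw [Matrix.eta_fin_two M, Matrix.one_fin_two, ← ha, ← hb', ← hc, ← hd, ha1, hb0, hc0, hd1]
    refine ⟨-c, 0, 1, neg_ne_zero.mpr hc0, by simp, ?_⟩
    apply Subtype.ext
    change M = _
    rw [Matrix.eta_fin_two M, ← ha, ← hb', ← hc, ← hd, ha1, hb0, hd1]
    ext i j
    fin_cases i <;> fin_cases j <;> simp [w]
  · refine ⟨b', 1, -(a - 1) / b', hb0, by simp, ?_⟩
    apply Subtype.ext
    change M = _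
    rw [Matrix.eta_fin_two M, ← ha, ← hb', ← hc, ← hd]
    ext i j
    fin_cases i <;> fin_cases j
    · simp [w]; field_simp; ring
    · simp [w]
    · simp [w]; field_simp; linear_combination e00
    · simp [w]; field_simp; linear_combination htr

end


section
variable {F : Type*} [Field F] [Fintype F]

theorem isSquare_mul_of_not_isSquare {a b : F} (ha : ¬ IsSquare a) (hb : ¬ IsSquare b) :
    IsSquare (a * b) := by
  classical
  have ha0 : a ≠ 0 := by
    rintro rfl; exact ha IsSquare.zero
  have hb0 : b ≠ 0 := by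
    rintro rfl; exact hb IsSquare.zero
  rw [← quadraticChar_one_iff_isSquare (mul_ne_zero ha0 hb0), map_mul,
    quadraticChar_neg_one_iff_not_isSquare.mpr ha, quadraticChar_neg_one_iff_not_isSquare.mpr hb]
  norm_num

theorem card_class_u (h2 : (2 : F) ≠ 0) {b : F} (hb : b ≠ 0) :
    Nat.card (ConjClasses.mk (u b)).carrier = (Fintype.card F ^ 2 - 1) / 2 := by
  classical
  have : Fintype (ConjClasses.mk (u b)).carrier := Fintype.ofFinite _
  let ψ : {v : F × F // v ≠ 0} → (ConjClasses.mk (u b)).carrier := fun v =>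
    ⟨w b v.1.1 v.1.2, by
      rw [ConjClasses.mem_carrier_iff_mk_eq, ConjClasses.mk_eq_mk_iff_isConj]
      exact (isConj_u_w b (x := v.1.1) (y := v.1.2) v.2).symm⟩
  have hfiber : ∀ k ∈ (Finset.univ : Finset (ConjClasses.mk (u b)).carrier),
      (Finset.univ.filter fun a => ψ a = k).card = 2 := by
    rintro ⟨k, hk0⟩ -
    have hk := hk0
    rw [ConjClasses.mem_carrier_iff_mk_eq, ConjClasses.mk_eq_mk_iff_isConj] at hk
    obtain ⟨A, hA⟩ := isConj_iff.mp hk.symm
    rw [conj_u] at hA
    have hdet : (A : Matrix (Fin 2) (Fin 2) F) 0 0 * (A : Matrix (Fin 2) (Fin 2) F) 1 1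
        - (A : Matrix (Fin 2) (Fin 2) F) 0 1 * (A : Matrix (Fin 2) (Fin 2) F) 1 0 = 1 := by
      have := A.2
      rwa [Matrix.det_fin_two] at this
    set x := (A : Matrix (Fin 2) (Fin 2) F) 0 0
    set y := (A : Matrix (Fin 2) (Fin 2) F) 1 0
    have hxy : (x, y) ≠ (0 : F × F) := by
      intro h0
      have hx0 : x = 0 := congrArg Prod.fst h0
      have hy0 : y = 0 := congrArg Prod.snd h0
      rw [hx0, hy0] at hdet
      simp at hdet
    have hxy' : (-x, -y) ≠ (0 : F × F) := by
      intro h0
      have hx0 : -x = 0 := congrArg Prod.fst h0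
      have hy0 : -y = 0 := congrArg Prod.snd h0
      exact hxy (by rw [neg_eq_zero.mp hx0, neg_eq_zero.mp hy0]; rfl)
    rw [Finset.card_eq_two]
    refine ⟨⟨(x, y), hxy⟩, ⟨(-x, -y), hxy'⟩, ?_, ?_⟩
    · intro h
      have h1 : (x, y) = (-x, -y) := congrArg Subtype.val h
      have hx1 : x = -x := congrArg Prod.fst h1
      have hy1 : y = -y := congrArg Prod.snd h1
      have hx0 : x = 0 := by
        have : (2 : F) * x = 0 := by linear_combination hx1
        rcases mul_eq_zero.mp this with h | h
        · exact absurd h h2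
        · exact h
      have hy0 : y = 0 := by
        have : (2 : F) * y = 0 := by linear_combination hy1
        rcases mul_eq_zero.mp this with h | h
        · exact absurd h h2
        · exact h
      exact hxy (by rw [hx0, hy0]; rfl)
    · ext ⟨⟨x', y'⟩, hv⟩
      simp only [Finset.mem_filter, Finset.mem_univ, true_and, Finset.mem_insert,
        Finset.mem_singleton]
      have : ψ ⟨(x', y'), hv⟩ = ⟨k, hk0⟩ ↔ w b x y = w b x' y' := by
        constructor
        · intro h
          have := congrArg Subtype.val h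
          rw [hA]; exact this.symm
        · intro h
          apply Subtype.ext
          change w b x' y' = k
          rw [← hA]; exact h.symm
      rw [this, w_eq_iff hb]
      constructor
      · rintro (⟨rfl, rfl⟩ | ⟨rfl, rfl⟩)
        · left; rfl
        · right; rfl
      · rintro (h | h)
        · have h1 : (x', y') = (x, y) := congrArg Subtype.val h
          left; exact ⟨congrArg Prod.fst h1, congrArg Prod.snd h1⟩
        · have h1 : (x', y') = (-x, -y) := congrArg Subtype.val h
          right; exact ⟨congrArg Prod.fst h1, congrArg Prod.snd h1⟩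
  have hsum := Finset.card_eq_sum_card_fiberwise (f := ψ) (s := Finset.univ) (t := Finset.univ)
    (fun x _ => Finset.mem_univ _)
  rw [Finset.sum_const_nat hfiber, Finset.card_univ, Finset.card_univ] at hsum
  have hc : Fintype.card {p : F × F // p ≠ 0} = Fintype.card (F × F) - 1 := by
    rw [Fintype.card_subtype_compl, Fintype.card_subtype_eq]
  rw [hc, Fintype.card_prod, ← sq] at hsum
  rw [Nat.card_eq_fintype_card, hsum]
  simp

/-- Over a finite field with q elements of odd characteristic p, the elements of order p of SL₂ (the non-identity unipotent elements) fall into exactly two conjugacy classes, each of size (q² − 1)/2; two upper unitriangular matrices with non-zero off-diagonal entries b and b′ are conjugate exactly when bb′ is a square. -/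
theorem result {F : Type*} [Field F] [Fintype F] (p : ℕ) [Fact p.Prime] [CharP F p] (hp : p ≠ 2) :
    Nat.card {C : ConjClasses (Matrix.SpecialLinearGroup (Fin 2) F) // ∃ g : Matrix.SpecialLinearGroup (Fin 2) F, orderOf g = p ∧ ConjClasses.mk g = C} = 2 ∧
    (∀ g : Matrix.SpecialLinearGroup (Fin 2) F, orderOf g = p → Nat.card (ConjClasses.mk g).carrier = (Fintype.card F ^ 2 - 1) / 2) ∧
    ∀ g h : Matrix.SpecialLinearGroup (Fin 2) F, (g : Matrix (Fin 2) (Fin 2) F) 0 0 = 1 → (g : Matrix (Fin 2) (Fin 2) F) 1 1 = 1 → (g : Matrix (Fin 2) (Fin 2) F) 1 0 = 0 → (g : Matrix (Fin 2) (Fin 2) F) 0 1 ≠ 0 →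
      (h : Matrix (Fin 2) (Fin 2) F) 0 0 = 1 → (h : Matrix (Fin 2) (Fin 2) F) 1 1 = 1 → (h : Matrix (Fin 2) (Fin 2) F) 1 0 = 0 → (h : Matrix (Fin 2) (Fin 2) F) 0 1 ≠ 0 →
      (IsConj g h ↔ IsSquare ((g : Matrix (Fin 2) (Fin 2) F) 0 1 * (h : Matrix (Fin 2) (Fin 2) F) 0 1)) := by
  have hpp : p.Prime := Fact.out
  have hchar : ringChar F ≠ 2 := by
    rw [ringChar.eq F p]; exact hp
  have h2 : (2 : F) ≠ 0 := by
    intro h
    have h' : ((2 : ℕ) : F) = 0 := by exact_mod_cast h
    rw [CharP.cast_eq_zero_iff F p 2] at h'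
    exact hp ((Nat.prime_dvd_prime_iff_eq hpp Nat.prime_two).mp h')
  obtain ⟨δ, hδ⟩ := FiniteField.exists_nonsquare hchar
  have hδ0 : δ ≠ 0 := by
    rintro rfl; exact hδ IsSquare.zero
  refine ⟨?_, ?_, ?_⟩
  · rw [Nat.card_eq_two_iff]
    refine ⟨⟨ConjClasses.mk (u 1), u 1, orderOf_u p one_ne_zero, rfl⟩,
      ⟨ConjClasses.mk (u δ), u δ, orderOf_u p hδ0, rfl⟩, ?_, ?_⟩
    · intro h
      have h1 : ConjClasses.mk (u (1 : F)) = ConjClasses.mk (u δ) := congrArg Subtype.val h
      rw [ConjClasses.mk_eq_mk_iff_isConj, isConj_u_iff one_ne_zero hδ0, one_mul] at h1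
      exact hδ h1
    · rw [Set.eq_univ_iff_forall]
      rintro ⟨C, g, hg, rfl⟩
      obtain ⟨b, x, y, hb, hxy, rfl⟩ := exists_eq_w p g hg
      have hcb : ConjClasses.mk (w b x y) = ConjClasses.mk (u b) := by
        rw [ConjClasses.mk_eq_mk_iff_isConj]
        exact (isConj_u_w b hxy).symm
      by_cases hsq : IsSquare b
      · left
        apply Subtype.ext
        change ConjClasses.mk (w b x y) = ConjClasses.mk (u 1)
        rw [hcb, ConjClasses.mk_eq_mk_iff_isConj, isConj_u_iff hb one_ne_zero, mul_one]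
        exact hsq
      · right
        apply Subtype.ext
        change ConjClasses.mk (w b x y) = ConjClasses.mk (u δ)
        rw [hcb, ConjClasses.mk_eq_mk_iff_isConj, isConj_u_iff hb hδ0]
        exact isSquare_mul_of_not_isSquare hsq hδ
  · intro g hg
    obtain ⟨b, x, y, hb, hxy, rfl⟩ := exists_eq_w p g hg
    have hcb : ConjClasses.mk (w b x y) = ConjClasses.mk (u b) := by
      rw [ConjClasses.mk_eq_mk_iff_isConj]
      exact (isConj_u_w b hxy).symm
    rw [hcb]
    exact card_class_u h2 hb
  · intro g h g00 g11 g10 g01 h00 h11 h10 h01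
    have hgu : g = u ((g : Matrix (Fin 2) (Fin 2) F) 0 1) := by
      apply Subtype.ext
      change (g : Matrix (Fin 2) (Fin 2) F) = !![1, (g : Matrix (Fin 2) (Fin 2) F) 0 1; 0, 1]
      conv_lhs => rw [Matrix.eta_fin_two (g : Matrix (Fin 2) (Fin 2) F), g00, g11, g10]
    have hhu : h = u ((h : Matrix (Fin 2) (Fin 2) F) 0 1) := by
      apply Subtype.ext
      change (h : Matrix (Fin 2) (Fin 2) F) = !![1, (h : Matrix (Fin 2) (Fin 2) F) 0 1; 0, 1]
      conv_lhs => rw [Matrix.eta_fin_two (h : Matrix (Fin 2) (Fin 2) F), h00, h11, h10]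
    conv_lhs => rw [hgu, hhu]
    exact isConj_u_iff g01 h01

end

end Cfsg.Agent.S2301
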