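import Cfsg.Statements.S2302
import Mathlib

set_option autoImplicit false
open Cfsg

namespace Cfsg.Agent.S2302

open Matrix

section
variable {F : Type*} [Field F] [CharP F 2]

theorem two_eq_zero' : (2 : F) = 0 := CharTwo.two_eq_zero

theorem sq_inj {a b : F} (h : a ^ 2 = b ^ 2) : a = b := by
  have h2 : (2 : F) = 0 := two_eq_zero'
  have : (a - b) ^ 2 = 0 := by
    linear_combination h - a * b * h2 + b ^ 2 * h2
  exact sub_eq_zero.mp (pow_eq_zero_iff (two_ne_zero) |>.mp this)

/-- The involution `1 + N` with `N = [[xy, x²], [y², xy]]`. -/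
def inv2 (x y : F) : SpecialLinearGroup (Fin 2) F :=
  ⟨!![1 + x * y, x ^ 2; y ^ 2, 1 + x * y], by
    have h2 : (2 : F) = 0 := two_eq_zero'
    rw [Matrix.det_fin_two_of]
    linear_combination x * y * h2⟩

theorem inv2_inj {x y x' y' : F} (h : inv2 x y = inv2 x' y') : x = x' ∧ y = y' := by
  have h1 := congrArg (fun z : SpecialLinearGroup (Fin 2) F => (z : Matrix (Fin 2) (Fin 2) F)) h
  have e01 := congrFun (congrFun h1 0) 1
  have e10 := congrFun (congrFun h1 1) 0
  simp [inv2] at e01 e10
  exact ⟨sq_inj e01, sq_inj e10⟩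

theorem inv2_ne_one {x y : F} (h : (x, y) ≠ (0, 0)) : inv2 x y ≠ 1 := by
  intro h1
  have h2 := congrArg (fun z : SpecialLinearGroup (Fin 2) F => (z : Matrix (Fin 2) (Fin 2) F)) h1
  have e01 := congrFun (congrFun h2 0) 1
  have e10 := congrFun (congrFun h2 1) 0
  simp [inv2] at e01 e10
  exact h (by rw [e01, e10])

/-- All the involutions `inv2 x y` are conjugate to `inv2 1 0`. -/
theorem isConj_inv2 {x y : F} (h : (x, y) ≠ (0, 0)) : IsConj (inv2 (1 : F) 0) (inv2 x y) := by
  have h2 : (2 : F) = 0 := two_eq_zero'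
  obtain ⟨z, w, hzw⟩ : ∃ z w : F, x * w - z * y = 1 := by
    by_cases hx : x = 0
    · have hy : y ≠ 0 := by
        rintro rfl; exact h (by rw [hx])
      refine ⟨-y⁻¹, 0, ?_⟩
      field_simp
      ring
    · exact ⟨0, x⁻¹, by field_simp; ring⟩
  let A : SpecialLinearGroup (Fin 2) F := ⟨!![x, z; y, w], by rw [Matrix.det_fin_two_of]; exact hzw⟩
  rw [isConj_iff]
  refine ⟨A, ?_⟩
  rw [mul_inv_eq_iff_eq_mul]
  apply Subtype.ext
  change !![x, z; y, w] * !![1 + 1 * 0, 1 ^ 2; 0 ^ 2, 1 + 1 * 0]
    = !![1 + x * y, x ^ 2; y ^ 2, 1 + x * y] * !![x, z; y, w]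
  rw [Matrix.mul_fin_two, Matrix.mul_fin_two]
  ext i j
  fin_cases i <;> fin_cases j
  · simp
    linear_combination (-x ^ 2 * y) * h2
  · simp
    linear_combination (-x) * hzw - x * y * z * h2
  · simp
    linear_combination (-x * y ^ 2) * h2
  · simp
    linear_combination (-y) * hzw - y ^ 2 * z * h2

end

section
variable {F : Type*} [Field F] [Fintype F] [CharP F 2]

/-- Every involution of `SL₂(F)` is of the form `inv2 x y`. -/
theorem exists_eq_inv2 (g : SpecialLinearGroup (Fin 2) F) (hg : orderOf g = 2) :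
    ∃ x y : F, (x, y) ≠ (0, 0) ∧ g = inv2 x y := by
  have h2 : (2 : F) = 0 := two_eq_zero'
  have hchar : ringChar F = 2 := (ringChar.eq F 2)
  have hg2 : g * g = 1 := by
    have := pow_orderOf_eq_one g
    rwa [hg, pow_two] at this
  have hg1 : g ≠ 1 := by
    intro h
    rw [h, orderOf_one] at hg
    norm_num at hg
  set a := (g : Matrix (Fin 2) (Fin 2) F) 0 0 with ha
  set b := (g : Matrix (Fin 2) (Fin 2) F) 0 1 with hb
  set c := (g : Matrix (Fin 2) (Fin 2) F) 1 0 with hc
  set d := (g : Matrix (Fin 2) (Fin 2) F) 1 1 with hd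
  have hM := congrArg (fun z : SpecialLinearGroup (Fin 2) F => (z : Matrix (Fin 2) (Fin 2) F)) hg2
  have e00 := congrFun (congrFun hM 0) 0
  have e01 := congrFun (congrFun hM 0) 1
  have e10 := congrFun (congrFun hM 1) 0
  have e11 := congrFun (congrFun hM 1) 1
  simp [Matrix.mul_apply, Fin.sum_univ_two] at e00 e01 e10 e11
  rw [← ha, ← hb, ← hc] at e00
  rw [← ha, ← hb, ← hd] at e01
  rw [← ha, ← hc, ← hd] at e10
  rw [← hb, ← hc, ← hd] at e11
  -- a = d
  have had : a = d := by
    by_cases hs : a + d = 0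
    · linear_combination hs - d * h2
    · have hb0 : b = 0 := by
        have : b * (a + d) = 0 := by linear_combination e01
        rcases mul_eq_zero.mp this with h | h
        · exact h
        · exact absurd h hs
      have hc0 : c = 0 := by
        have : c * (a + d) = 0 := by linear_combination e10
        rcases mul_eq_zero.mp this with h | h
        · exact h
        · exact absurd h hs
      have ha1 : a = 1 := by
        apply sq_inj
        rw [hb0] at e00
        linear_combination e00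
      have hd1 : d = 1 := by
        apply sq_inj
        rw [hb0] at e11
        linear_combination e11
      rw [ha1, hd1]
  obtain ⟨x, hx⟩ := FiniteField.isSquare_of_char_two hchar b
  obtain ⟨y, hy⟩ := FiniteField.isSquare_of_char_two hchar c
  have hxy : x * y = 1 + a := by
    apply sq_inj
    rw [mul_pow, pow_two x, pow_two y, ← hx, ← hy]
    linear_combination e00 - (a + a ^ 2) * h2
  refine ⟨x, y, ?_, ?_⟩
  · intro h0
    have hx0 : x = 0 := congrArg Prod.fst h0
    have hy0 : y = 0 := congrArg Prod.snd h0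
    apply hg1
    apply Subtype.ext
    ext i j
    have ha1 : a = 1 := by
      rw [hx0] at hxy
      linear_combination (-1 : F) * hxy - h2
    fin_cases i <;> fin_cases j
    · simpa using ha1
    · simp; rw [← hb, hx, hx0]; ring
    · simp; rw [← hc, hy, hy0]; ring
    · simp; rw [← hd, ← had]; exact ha1
  · apply Subtype.ext
    ext i j
    fin_cases i <;> fin_cases j
    · simp [inv2]; rw [← ha, hxy]; linear_combination (-1 : F) * h2
    · simp [inv2]; rw [← hb, hx]; ring
    · simp [inv2]; rw [← hc, hy]; ring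
    · simp [inv2]; rw [← hd, hxy, ← had]; linear_combination (-1 : F) * h2

/-- Over a finite field with q elements of characteristic 2, the involutions of SL₂ (the non-identity unipotent elements) form a single conjugacy class, of size q² − 1. -/
theorem result {F : Type*} [Field F] [Fintype F] [CharP F 2] (g h : Matrix.SpecialLinearGroup (Fin 2) F) (hg : orderOf g = 2) (hh : orderOf h = 2) :
    IsConj g h ∧ Nat.card (ConjClasses.mk g).carrier = Fintype.card F ^ 2 - 1 := by
  classical
  obtain ⟨x, y, hxy, rfl⟩ := exists_eq_inv2 g hg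
  obtain ⟨x', y', hxy', rfl⟩ := exists_eq_inv2 h hh
  have hc1 := isConj_inv2 hxy
  have hc2 := isConj_inv2 hxy'
  refine ⟨hc1.symm.trans hc2, ?_⟩
  let ψ : {p : F × F // p ≠ 0} → (ConjClasses.mk (inv2 x y)).carrier := fun p =>
    ⟨inv2 p.1.1 p.1.2, by
      rw [ConjClasses.mem_carrier_iff_mk_eq, ConjClasses.mk_eq_mk_iff_isConj]
      exact (isConj_inv2 (x := p.1.1) (y := p.1.2) p.2).symm.trans hc1⟩
  have hinj : Function.Injective ψ := by
    rintro ⟨⟨a, b⟩, hp⟩ ⟨⟨a', b'⟩, hp'⟩ h
    have h1 : inv2 a b = inv2 a' b' := congrArg Subtype.val h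
    obtain ⟨rfl, rfl⟩ := inv2_inj h1
    rfl
  have hsurj : Function.Surjective ψ := by
    rintro ⟨k, hk⟩
    rw [ConjClasses.mem_carrier_iff_mk_eq, ConjClasses.mk_eq_mk_iff_isConj] at hk
    obtain ⟨c, hc⟩ := hk
    have hord : orderOf k = 2 := by
      rw [hc.orderOf_eq]; exact hg
    obtain ⟨a, b, hab, rfl⟩ := exists_eq_inv2 k hord
    exact ⟨⟨(a, b), hab⟩, rfl⟩
  rw [← Nat.card_eq_of_bijective ψ ⟨hinj, hsurj⟩, Nat.card_eq_fintype_card]
  have hc : Fintype.card {p : F × F // p ≠ 0} = Fintype.card (F × F) - 1 := by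
    rw [Fintype.card_subtype_compl, Fintype.card_subtype_eq]
  rw [hc, Fintype.card_prod, sq]

end

end Cfsg.Agent.S2302
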