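import Cfsg.Statements.S2303
import Mathlib

set_option autoImplicit false
open Cfsg

namespace Cfsg.Agent.S2303

open Matrix

theorem part1 {F : Type*} [Field F] [Fintype F] (g : GL (Fin 2) F)
    (h01 : (g : Matrix (Fin 2) (Fin 2) F) 0 1 = 0) (h10 : (g : Matrix (Fin 2) (Fin 2) F) 1 0 = 0)
    (hne : (g : Matrix (Fin 2) (Fin 2) F) 0 0 ≠ (g : Matrix (Fin 2) (Fin 2) F) 1 1) :
    Nat.card (Subgroup.centralizer ({g} : Set (GL (Fin 2) F))) = (Fintype.card F - 1) ^ 2 := by
  classical
  have hcomm : ∀ u v : Fˣ, GeneralLinearGroup.mkOfDetNeZero !![(u : F), 0; 0, (v : F)]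
      (by simp [Matrix.det_fin_two]) ∈ Subgroup.centralizer ({g} : Set (GL (Fin 2) F)) := by
    intro u v
    rw [Subgroup.mem_centralizer_singleton_iff]
    apply Units.ext
    ext i j
    fin_cases i <;> fin_cases j <;>
      simp [Matrix.mul_apply, Fin.sum_univ_two, GeneralLinearGroup.mkOfDetNeZero, h01, h10, mul_comm]
  let φ : Fˣ × Fˣ → Subgroup.centralizer ({g} : Set (GL (Fin 2) F)) := fun uv =>
    ⟨_, hcomm uv.1 uv.2⟩
  have hinj : Function.Injective φ := by
    rintro ⟨u, v⟩ ⟨u', v'⟩ h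
    have h1 := congrArg (fun z : Subgroup.centralizer ({g} : Set (GL (Fin 2) F)) =>
      ((z : GL (Fin 2) F) : Matrix (Fin 2) (Fin 2) F)) h
    have h00 := congrFun (congrFun h1 0) 0
    have h11 := congrFun (congrFun h1 1) 1
    simp [φ, GeneralLinearGroup.mkOfDetNeZero] at h00 h11
    exact Prod.ext (Units.ext h00) (Units.ext h11)
  have hsurj : Function.Surjective φ := by
    rintro ⟨h, hh⟩
    rw [Subgroup.mem_centralizer_singleton_iff] at hh
    have hm : (g : Matrix (Fin 2) (Fin 2) F) * (h : Matrix (Fin 2) (Fin 2) F)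
        = (h : Matrix (Fin 2) (Fin 2) F) * (g : Matrix (Fin 2) (Fin 2) F) := by
      have := congrArg (fun z : GL (Fin 2) F => (z : Matrix (Fin 2) (Fin 2) F)) hh.symm
      simpa using this
    have e01 := congrFun (congrFun hm 0) 1
    have e10 := congrFun (congrFun hm 1) 0
    simp [Matrix.mul_apply, Fin.sum_univ_two, h01, h10] at e01 e10
    have hH01 : (h : Matrix (Fin 2) (Fin 2) F) 0 1 = 0 := by
      have : ((g : Matrix (Fin 2) (Fin 2) F) 0 0 - (g : Matrix (Fin 2) (Fin 2) F) 1 1) *
          (h : Matrix (Fin 2) (Fin 2) F) 0 1 = 0 := by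
        linear_combination e01
      rcases mul_eq_zero.mp this with h' | h'
      · exact absurd (sub_eq_zero.mp h') hne
      · exact h'
    have hH10 : (h : Matrix (Fin 2) (Fin 2) F) 1 0 = 0 := by
      have : ((g : Matrix (Fin 2) (Fin 2) F) 0 0 - (g : Matrix (Fin 2) (Fin 2) F) 1 1) *
          (h : Matrix (Fin 2) (Fin 2) F) 1 0 = 0 := by
        linear_combination -e10
      rcases mul_eq_zero.mp this with h' | h'
      · exact absurd (sub_eq_zero.mp h') hne
      · exact h'
    have hdet : (h : Matrix (Fin 2) (Fin 2) F).det ≠ 0 := by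
      have := (GeneralLinearGroup.det h).ne_zero
      simpa using this
    rw [Matrix.det_fin_two, hH01, hH10] at hdet
    simp at hdet
    refine ⟨(Units.mk0 _ hdet.1, Units.mk0 _ hdet.2), ?_⟩
    apply Subtype.ext
    apply Units.ext
    ext i j
    fin_cases i <;> fin_cases j <;> simp [φ, GeneralLinearGroup.mkOfDetNeZero, hH01, hH10]
  rw [← Nat.card_eq_of_bijective φ ⟨hinj, hsurj⟩, Nat.card_prod, Nat.card_units,
    Nat.card_eq_fintype_card, sq]


theorem part2 {F : Type*} [Field F] [Fintype F] (g : GL (Fin 2) F)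
    (hev : ∀ (c : F) (v : Fin 2 → F), v ≠ 0 → (g : Matrix (Fin 2) (Fin 2) F).mulVec v ≠ c • v) :
    Nat.card (Subgroup.centralizer ({g} : Set (GL (Fin 2) F))) = Fintype.card F ^ 2 - 1 := by
  classical
  set G : Matrix (Fin 2) (Fin 2) F := (g : Matrix (Fin 2) (Fin 2) F) with hG
  have hg10 : G 1 0 ≠ 0 := by
    intro h
    apply hev (G 0 0) ![1, 0] (by simp)
    ext i
    fin_cases i <;> simp [Matrix.mulVec, dotProduct, Fin.sum_univ_two, h]
  have hdet : ∀ p : F × F, p ≠ 0 → (p.1 • (1 : Matrix (Fin 2) (Fin 2) F) + p.2 • G).det ≠ 0 := by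
    rintro ⟨a, b⟩ hab hd
    obtain ⟨v, hv, hv0⟩ := Matrix.exists_mulVec_eq_zero_iff.mpr hd
    have hv1 : a • v + b • (G *ᵥ v) = 0 := by
      rw [← hv0]
      simp [Matrix.add_mulVec, Matrix.smul_mulVec]
    by_cases hb : b = 0
    · subst hb
      have ha : a ≠ 0 := by
        rintro rfl; exact hab rfl
      simp only [zero_smul, add_zero] at hv1
      rcases smul_eq_zero.mp hv1 with h | h
      · exact ha h
      · exact hv h
    · apply hev (-a / b) v hv
      have h2 : b • (G *ᵥ v) = -(a • v) := eq_neg_of_add_eq_zero_right hv1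
      have h3 : G *ᵥ v = b⁻¹ • (b • (G *ᵥ v)) := by
        rw [smul_smul, inv_mul_cancel₀ hb, one_smul]
      rw [h3, h2, smul_neg, smul_smul, ← neg_smul]
      congr 1
      field_simp
  have hcomm : ∀ (p : F × F) (hp : p ≠ 0),
      GeneralLinearGroup.mkOfDetNeZero (p.1 • (1 : Matrix (Fin 2) (Fin 2) F) + p.2 • G) (hdet p hp)
        ∈ Subgroup.centralizer ({g} : Set (GL (Fin 2) F)) := by
    intro p hp
    rw [Subgroup.mem_centralizer_singleton_iff]
    apply Units.ext
    change (p.1 • (1 : Matrix (Fin 2) (Fin 2) F) + p.2 • G) * G = G * (p.1 • (1 : Matrix (Fin 2) (Fin 2) F) + p.2 • G)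
    simp [add_mul, mul_add]
  let ψ : {p : F × F // p ≠ 0} → Subgroup.centralizer ({g} : Set (GL (Fin 2) F)) := fun p =>
    ⟨_, hcomm p.1 p.2⟩
  have hψ : ∀ p : {p : F × F // p ≠ 0}, (((ψ p : Subgroup.centralizer ({g} : Set (GL (Fin 2) F))) : GL (Fin 2) F) :
      Matrix (Fin 2) (Fin 2) F) = p.1.1 • (1 : Matrix (Fin 2) (Fin 2) F) + p.1.2 • G := fun p => rfl
  have hinj : Function.Injective ψ := by
    rintro ⟨⟨a, b⟩, hp⟩ ⟨⟨a', b'⟩, hp'⟩ h
    have h1 : a • (1 : Matrix (Fin 2) (Fin 2) F) + b • G = a' • (1 : Matrix (Fin 2) (Fin 2) F) + b' • G := by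
      have := congrArg (fun z : Subgroup.centralizer ({g} : Set (GL (Fin 2) F)) =>
        ((z : GL (Fin 2) F) : Matrix (Fin 2) (Fin 2) F)) h
      simpa [hψ] using this
    have e10 := congrFun (congrFun h1 1) 0
    have e00 := congrFun (congrFun h1 0) 0
    simp at e10 e00
    have hb : b = b' := by
      rcases e10 with h | h
      · exact h
      · exact absurd h hg10
    subst hb
    have ha : a = a' := by simpa using e00
    subst ha
    rfl
  have hsurj : Function.Surjective ψ := by
    rintro ⟨h, hh⟩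
    rw [Subgroup.mem_centralizer_singleton_iff] at hh
    set H : Matrix (Fin 2) (Fin 2) F := (h : Matrix (Fin 2) (Fin 2) F) with hH
    have hm : H * G = G * H := by
      have := congrArg (fun z : GL (Fin 2) F => (z : Matrix (Fin 2) (Fin 2) F)) hh
      simpa using this
    have e00 := congrFun (congrFun hm 0) 0
    have e10 := congrFun (congrFun hm 1) 0
    simp [Matrix.mul_apply, Fin.sum_univ_two] at e00 e10
    set b : F := H 1 0 / G 1 0 with hb
    set a : F := H 0 0 - b * G 0 0 with ha
    have hbG : b * G 1 0 = H 1 0 := by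
      rw [hb]; field_simp
    have hHeq : H = a • (1 : Matrix (Fin 2) (Fin 2) F) + b • G := by
      ext i j
      fin_cases i <;> fin_cases j
      · simp [ha]
      · simp
        have : H 0 1 * G 1 0 = (b * G 0 1) * G 1 0 := by
          rw [mul_right_comm, hbG]; linear_combination e00
        exact mul_right_cancel₀ hg10 this
      · simp [hbG]
      · simp
        have : H 1 1 * G 1 0 = (a + b * G 1 1) * G 1 0 := by
          rw [ha, add_mul, sub_mul]
          have h1 : b * G 0 0 * G 1 0 = H 1 0 * G 0 0 := by rw [mul_right_comm, hbG]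
          have h2 : b * G 1 1 * G 1 0 = H 1 0 * G 1 1 := by rw [mul_right_comm, hbG]
          rw [h1, h2]
          linear_combination e10
        exact mul_right_cancel₀ hg10 this
    have hab : (a, b) ≠ (0 : F × F) := by
      intro h0
      have ha0 : a = 0 := congrArg Prod.fst h0
      have hb0 : b = 0 := congrArg Prod.snd h0
      have hdetH : H.det ≠ 0 := by
        have := (GeneralLinearGroup.det h).ne_zero
        simpa using this
      apply hdetH
      rw [hHeq, ha0, hb0]
      simp
    refine ⟨⟨(a, b), hab⟩, ?_⟩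
    apply Subtype.ext
    apply Units.ext
    rw [hψ]
    exact hHeq.symm
  rw [← Nat.card_eq_of_bijective ψ ⟨hinj, hsurj⟩, Nat.card_eq_fintype_card]
  have hc : Fintype.card {p : F × F // p ≠ 0} = Fintype.card (F × F) - 1 := by
    rw [Fintype.card_subtype_compl, Fintype.card_subtype_eq]
  rw [hc, Fintype.card_prod, sq]

/-- Over a finite field with q elements: a diagonal element of GL₂ with two distinct diagonal entries has centralizer of order (q − 1)² (so q(q + 1) conjugates), and an element of GL₂ with no eigenvector in F² has centralizer of order q² − 1 (so q(q − 1) conjugates). -/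
theorem result {F : Type*} [Field F] [Fintype F] (g : Matrix.GeneralLinearGroup (Fin 2) F) :
    ((g : Matrix (Fin 2) (Fin 2) F) 0 1 = 0 → (g : Matrix (Fin 2) (Fin 2) F) 1 0 = 0 → (g : Matrix (Fin 2) (Fin 2) F) 0 0 ≠ (g : Matrix (Fin 2) (Fin 2) F) 1 1 →
      Nat.card (Subgroup.centralizer ({g} : Set (Matrix.GeneralLinearGroup (Fin 2) F))) = (Fintype.card F - 1) ^ 2) ∧
    ((∀ (c : F) (v : Fin 2 → F), v ≠ 0 → (g : Matrix (Fin 2) (Fin 2) F).mulVec v ≠ c • v) →
      Nat.card (Subgroup.centralizer ({g} : Set (Matrix.GeneralLinearGroup (Fin 2) F))) = Fintype.card F ^ 2 - 1) :=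
  ⟨part1 g, part2 g⟩

end Cfsg.Agent.S2303
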