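import Cfsg.Statements.S2306
import Cfsg.Agent.Lib.Helper39.SL2Mackey

set_option autoImplicit false
open Cfsg

namespace Cfsg.Agent.S2306

/-- Over a finite field F, for a multiplicative character α of F, the function induced to SL₂ from the linear character b ↦ α(b₁₁) of the upper triangular subgroup is an irreducible character if and only if α² ≠ 1. -/
theorem result {F : Type*} [Field F] [Fintype F] [DecidableEq F] (α : MulChar F ℂ) :
    Cfsg.IsIrrCharacter (Matrix.SpecialLinearGroup (Fin 2) F) (Cfsg.indFun ((Cfsg.upperTriangularGL 2 F).comap Matrix.SpecialLinearGroup.toGL) (fun b => α (((b : Matrix.SpecialLinearGroup (Fin 2) F) : Matrix (Fin 2) (Fin 2) F) 0 0))) ↔ α ^ 2 ≠ 1 := by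
  classical
  have hfin := Cfsg.Agent.Lib.Helper3.irr_finite (G := Matrix.SpecialLinearGroup (Fin 2) F)
  have hft : Fintype (Cfsg.IrrCharacter (Matrix.SpecialLinearGroup (Fin 2) F)) := Fintype.ofFinite _
  have key := Cfsg.Agent.Lib.Helper39.classInner_indFun_lamS α
  constructor
  · intro h hα
    have h1 := Cfsg.Agent.Lib.Helper3.classInner_irr_self h
    rw [if_pos hα] at key
    have h2 : (2 : ℂ) = 1 := key.symm.trans h1
    norm_num at h2
  · intro hα
    rw [if_neg hα] at key
    exact Cfsg.Agent.Lib.Helper75.isIrrCharacter_of_classInner_self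
      (Cfsg.Agent.Lib.Helper39.isCharacter_indFun_lamS α) key

end Cfsg.Agent.S2306
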