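import Cfsg.Statements.S2307
import Cfsg.Agent.Lib.Helper39.SL2Split

set_option autoImplicit false
open Cfsg

namespace Cfsg.Agent.S2307

/-- Over a finite field F with q elements, q odd, let α be the multiplicative character of F of order 2. The character of SL₂ induced from the linear character b ↦ α(b₁₁) of the upper triangular subgroup is the sum of two distinct irreducible characters, each of degree (q + 1)/2, which are conjugate under GL₂: some fixed element of GL₂ conjugates the one into the other. -/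
theorem result {F : Type*} [Field F] [Fintype F] [DecidableEq F] (hodd : Odd (Fintype.card F)) (α : MulChar F ℂ)
    (hα : α ^ 2 = 1) (hα1 : α ≠ 1) :
    ∃ χ₁ χ₂ : Matrix.SpecialLinearGroup (Fin 2) F → ℂ, Cfsg.IsIrrCharacter (Matrix.SpecialLinearGroup (Fin 2) F) χ₁ ∧ Cfsg.IsIrrCharacter (Matrix.SpecialLinearGroup (Fin 2) F) χ₂ ∧ χ₁ ≠ χ₂ ∧
      Cfsg.indFun ((Cfsg.upperTriangularGL 2 F).comap Matrix.SpecialLinearGroup.toGL) (fun b => α (((b : Matrix.SpecialLinearGroup (Fin 2) F) : Matrix (Fin 2) (Fin 2) F) 0 0)) = χ₁ + χ₂ ∧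
      χ₁ 1 = (((Fintype.card F + 1) / 2 : ℕ) : ℂ) ∧ χ₂ 1 = (((Fintype.card F + 1) / 2 : ℕ) : ℂ) ∧
      ∃ x : Matrix.GeneralLinearGroup (Fin 2) F, ∀ g h : Matrix.SpecialLinearGroup (Fin 2) F,
        Matrix.SpecialLinearGroup.toGL h = x * Matrix.SpecialLinearGroup.toGL g * x⁻¹ → χ₂ h = χ₁ g := by
  classical
  obtain ⟨χ₁, e, h1, h2, hne, hsum⟩ := Cfsg.Agent.Lib.Helper39.sl2_split hodd α hα hα1
  have hdeg : χ₁ 1 = (((Fintype.card F + 1) / 2 : ℕ) : ℂ) := by
    have h3 := congrFun hsum 1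
    rw [Cfsg.Agent.Lib.Helper39.indFun_lamS_one] at h3
    simp only [Pi.add_apply, map_one] at h3
    obtain ⟨r, hr⟩ : ∃ r : ℕ, Fintype.card F = 2 * r + 1 := ⟨Fintype.card F / 2, by
      have := Nat.odd_iff.mp hodd
      omega⟩
    have h5 : (2 * r + 1 + 1) / 2 = r + 1 := by omega
    rw [hr] at h3 ⊢
    rw [h5]
    push_cast at h3 ⊢
    linear_combination (-1 / 2 : ℂ) * h3
  refine ⟨χ₁, fun g => χ₁ (Cfsg.Agent.Lib.Helper39.dconj e g), h1, h2, Ne.symm hne, hsum, hdeg, ?_,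
    Cfsg.Agent.Lib.Helper39.bGL e 1 0, ?_⟩
  · change χ₁ (Cfsg.Agent.Lib.Helper39.dconj e 1) = _
    rw [map_one]
    exact hdeg
  · intro g h hgh
    change χ₁ (Cfsg.Agent.Lib.Helper39.dconj e h) = χ₁ g
    rw [Cfsg.Agent.Lib.Helper39.dconj_of_toGL e g h hgh]

end Cfsg.Agent.S2307
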