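import Cfsg.Statements.S2308
import Cfsg.Agent.Lib.Helper39.GL2Ind

set_option autoImplicit false
open Cfsg

namespace Cfsg.Agent.S2308

open Cfsg.Agent.Lib.Helper39 Matrix

theorem coset_rep_bij {F : Type*} [Field F] :
    Function.Bijective (fun i : Option F =>
      (QuotientGroup.mk (rep i) : GL (Fin 2) F ⧸ Cfsg.upperTriangularGL 2 F)) := by
  constructor
  · intro i j h
    simp only [QuotientGroup.eq] at h
    have h2 : rep i * ((bEquiv (bEquiv.symm ⟨_, h⟩) : Cfsg.upperTriangularGL 2 F) : GL (Fin 2) F) =
        rep j * ((bEquiv (bEquiv.symm 1) : Cfsg.upperTriangularGL 2 F) : GL (Fin 2) F) := by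
      simp
    have h3 := rep_bijective.1 (a₁ := (i, bEquiv.symm ⟨_, h⟩)) (a₂ := (j, bEquiv.symm 1)) h2
    exact (Prod.ext_iff.mp h3).1
  · intro x
    induction x using QuotientGroup.induction_on with
    | H g =>
      obtain ⟨⟨i, p⟩, hp⟩ := rep_bijective.2 g
      refine ⟨i, ?_⟩
      simp only [QuotientGroup.eq]
      rw [← hp]
      simp

theorem fpc_eq {F : Type*} [Field F] (g : GL (Fin 2) F) :
    Cfsg.fixedPointCharacter (Cfsg.upperTriangularGL 2 F) g =
      (Nat.card {i : Option F // (((rep i)⁻¹ * g * rep i : GL (Fin 2) F) :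
        Matrix (Fin 2) (Fin 2) F) 1 0 = 0} : ℂ) := by
  unfold Cfsg.fixedPointCharacter
  congr 1
  symm
  refine Nat.card_congr (Equiv.subtypeEquiv (Equiv.ofBijective _ coset_rep_bij) ?_)
  intro i
  rw [← mem_borel_iff, MulAction.mem_fixedBy]
  simp only [Equiv.ofBijective_apply]
  rw [MulAction.Quotient.smul_coe, smul_eq_mul, eq_comm, QuotientGroup.eq, mul_assoc]

theorem conj_none {F : Type*} [Field F] (g : GL (Fin 2) F) :
    (((rep (none : Option F))⁻¹ * g * rep none : GL (Fin 2) F) :
        Matrix (Fin 2) (Fin 2) F) 1 0 = (g : Matrix (Fin 2) (Fin 2) F) 1 0 := by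
  simp [rep]

theorem conj_some {F : Type*} [Field F] (g : GL (Fin 2) F) (y : F) :
    (((rep (some y))⁻¹ * g * rep (some y) : GL (Fin 2) F) :
        Matrix (Fin 2) (Fin 2) F) 1 0 = (g : Matrix (Fin 2) (Fin 2) F) 1 0 * y ^ 2 +
          ((g : Matrix (Fin 2) (Fin 2) F) 1 1 - (g : Matrix (Fin 2) (Fin 2) F) 0 0) * y -
            (g : Matrix (Fin 2) (Fin 2) F) 0 1 := by
  simp only [rep]
  rw [nGL_conj]
  simp

/-- Values of the permutation character of GL₂ over a finite field F with q elements on the cosets of its upper triangular subgroup (equivalently, the number of lines of F² that an element maps to themselves): q + 1 at a scalar matrix, 2 at a diagonal matrix with two different diagonal entries, 0 at an element with no eigenvector in F², and 1 at an upper triangular matrix with equal diagonal entries and non-zero upper right entry. -/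
theorem result {F : Type*} [Field F] [Fintype F] (g : Matrix.GeneralLinearGroup (Fin 2) F) :
    ((∃ a : F, (g : Matrix (Fin 2) (Fin 2) F) = a • (1 : Matrix (Fin 2) (Fin 2) F)) → Cfsg.fixedPointCharacter (Cfsg.upperTriangularGL 2 F) g = Fintype.card F + 1) ∧
    ((g : Matrix (Fin 2) (Fin 2) F) 0 1 = 0 → (g : Matrix (Fin 2) (Fin 2) F) 1 0 = 0 → (g : Matrix (Fin 2) (Fin 2) F) 0 0 ≠ (g : Matrix (Fin 2) (Fin 2) F) 1 1 →
      Cfsg.fixedPointCharacter (Cfsg.upperTriangularGL 2 F) g = 2) ∧
    ((∀ (c : F) (v : Fin 2 → F), v ≠ 0 → (g : Matrix (Fin 2) (Fin 2) F).mulVec v ≠ c • v) → Cfsg.fixedPointCharacter (Cfsg.upperTriangularGL 2 F) g = 0) ∧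
    ((g : Matrix (Fin 2) (Fin 2) F) 1 0 = 0 → (g : Matrix (Fin 2) (Fin 2) F) 0 0 = (g : Matrix (Fin 2) (Fin 2) F) 1 1 → (g : Matrix (Fin 2) (Fin 2) F) 0 1 ≠ 0 →
      Cfsg.fixedPointCharacter (Cfsg.upperTriangularGL 2 F) g = 1) := by
  classical
  rw [fpc_eq]
  refine ⟨?_, ?_, ?_, ?_⟩
  · rintro ⟨a, ha⟩
    have hall : ∀ i : Option F, (((rep i)⁻¹ * g * rep i : GL (Fin 2) F) :
        Matrix (Fin 2) (Fin 2) F) 1 0 = 0 := by
      intro i
      cases i with
      | none => rw [conj_none, ha]; simp
      | some y => rw [conj_some, ha]; simp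
    rw [Nat.card_eq_fintype_card, Fintype.card_subtype, Finset.filter_true_of_mem (fun i _ => hall i),
      Finset.card_univ, Fintype.card_option]
    push_cast
    rfl
  · intro h01 h10 hne
    have hall : ∀ i : Option F, (((rep i)⁻¹ * g * rep i : GL (Fin 2) F) :
        Matrix (Fin 2) (Fin 2) F) 1 0 = 0 ↔ i ∈ ({none, some 0} : Finset (Option F)) := by
      intro i
      cases i with
      | none => rw [conj_none, h10]; simp
      | some y =>
        rw [conj_some, h10, h01]
        simp only [zero_mul, zero_add, sub_zero, mul_eq_zero, Finset.mem_insert,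
          Finset.mem_singleton, Option.some.injEq, reduceCtorEq, false_or]
        constructor
        · rintro (h | h)
          · exact absurd (sub_eq_zero.mp h).symm hne
          · exact h
        · intro h; exact Or.inr h
    rw [Nat.card_eq_fintype_card, Fintype.card_subtype]
    have : (Finset.univ.filter (fun i : Option F => (((rep i)⁻¹ * g * rep i : GL (Fin 2) F) :
        Matrix (Fin 2) (Fin 2) F) 1 0 = 0)) = {none, some 0} := by
      ext i
      simp only [Finset.mem_filter, Finset.mem_univ, true_and]
      exact hall i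
    rw [this, Finset.card_pair (by simp)]
    norm_num
  · intro hno
    have hall : ∀ i : Option F, ¬ (((rep i)⁻¹ * g * rep i : GL (Fin 2) F) :
        Matrix (Fin 2) (Fin 2) F) 1 0 = 0 := by
      intro i
      cases i with
      | none =>
        rw [conj_none]
        intro h10
        apply hno ((g : Matrix (Fin 2) (Fin 2) F) 0 0) ![1, 0]
        · intro h
          have := congrFun h 0
          simp at this
        · ext i
          fin_cases i <;> simp [Matrix.mulVec, dotProduct, Fin.sum_univ_two, h10]
      | some y =>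
        rw [conj_some]
        intro h
        apply hno ((g : Matrix (Fin 2) (Fin 2) F) 1 0 * y + (g : Matrix (Fin 2) (Fin 2) F) 1 1) ![y, 1]
        · intro h
          have := congrFun h 1
          simp at this
        · ext i
          fin_cases i
          · simp [Matrix.mulVec, dotProduct, Fin.sum_univ_two]
            linear_combination -h
          · simp [Matrix.mulVec, dotProduct, Fin.sum_univ_two]
    rw [Nat.card_eq_fintype_card, Fintype.card_subtype, Finset.filter_false_of_mem (fun i _ => hall i)]
    simp
  · intro h10 heq hne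
    have hall : ∀ i : Option F, (((rep i)⁻¹ * g * rep i : GL (Fin 2) F) :
        Matrix (Fin 2) (Fin 2) F) 1 0 = 0 ↔ i ∈ ({none} : Finset (Option F)) := by
      intro i
      cases i with
      | none => rw [conj_none, h10]; simp
      | some y =>
        rw [conj_some, h10, heq]
        simp [hne]
    rw [Nat.card_eq_fintype_card, Fintype.card_subtype]
    have : (Finset.univ.filter (fun i : Option F => (((rep i)⁻¹ * g * rep i : GL (Fin 2) F) :
        Matrix (Fin 2) (Fin 2) F) 1 0 = 0)) = {none} := by
      ext i
      simp only [Finset.mem_filter, Finset.mem_univ, true_and]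
      exact hall i
    rw [this, Finset.card_singleton]
    norm_num

end Cfsg.Agent.S2308
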