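import Cfsg.Statements.S2309
import Cfsg.Agent.Lib.Helper39.GL2Princ

set_option autoImplicit false
open Cfsg

namespace Cfsg.Agent.S2309

open Cfsg.Agent.Lib.Helper39 Matrix Representation in
theorem aux1 {F : Type*} [Field F] [Fintype F] [DecidableEq F] (n : ℕ)
    (ρ : Representation ℂ (GL (Fin 2) F) (Fin n → ℂ)) [ρ.IsIrreducible] (g : GL (Fin 2) F)
    (hdeg : ρ.character 1 = (Fintype.card F : ℂ) - 1)
    (h01 : (g : Matrix (Fin 2) (Fin 2) F) 0 1 = 0) (h10 : (g : Matrix (Fin 2) (Fin 2) F) 1 0 = 0)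
    (hne : (g : Matrix (Fin 2) (Fin 2) F) 0 0 ≠ (g : Matrix (Fin 2) (Fin 2) F) 1 1) :
    ρ.character g = 0 := by
  have hd := gl2_det_ne_zero g
  rw [Matrix.det_fin_two, h10, mul_zero, sub_zero] at hd
  have ha : (g : Matrix (Fin 2) (Fin 2) F) 0 0 ≠ 0 := left_ne_zero_of_mul hd
  have hd' : (g : Matrix (Fin 2) (Fin 2) F) 1 1 ≠ 0 := right_ne_zero_of_mul hd
  have hq3 : 3 ≤ Fintype.card F := by
    have h3 : ({0, (g : Matrix (Fin 2) (Fin 2) F) 0 0, (g : Matrix (Fin 2) (Fin 2) F) 1 1} :
        Finset F).card = 3 := by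
      rw [Finset.card_insert_of_notMem, Finset.card_pair hne]
      simp only [Finset.mem_insert, Finset.mem_singleton, not_or]
      exact ⟨fun h => ha h.symm, fun h => hd' h.symm⟩
    rw [← h3]
    exact Finset.card_le_univ _
  obtain ⟨m, k, h1, hu1, -, hm0⟩ := unip_decomp ρ
  have hn : ρ.character 1 = (n : ℂ) := by rw [char_one]; simp
  obtain ⟨r, hr⟩ : ∃ r : ℕ, Fintype.card F = r + 1 := ⟨Fintype.card F - 1, by omega⟩
  have hr2 : 2 ≤ r := by omega
  have hnat : n = m + r * k := by
    have : ((n : ℕ) : ℂ) = ((m + r * k : ℕ) : ℂ) := by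
      rw [← hn, h1, hr]
      push_cast
      ring
    exact_mod_cast this
  have hk0 : k = 0 → n * n < r + 1 := by
    intro hk
    have h2 : ρ.character (tGL 1) = ρ.character 1 := by
      rw [hu1, h1, hk]
      simp
    have := unip_kernel_bound ρ h2
    rw [hr] at this
    simpa using this
  rw [hn, hr] at hdeg
  have hn1 : n = r := by
    have : ((n : ℕ) : ℂ) = ((r : ℕ) : ℂ) := by rw [hdeg]; push_cast; ring
    exact_mod_cast this
  have hk2 : k ≤ 1 := by
    by_contra hk
    have hk3 : 2 ≤ k := by omega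
    nlinarith
  have hm : m = 0 := by
    interval_cases k
    · exfalso
      have := hk0 rfl
      nlinarith
    · omega
  have hsum := hm0 hm
  have hconj : ∀ x : F, ρ.character (g * tGL x) = ρ.character g := by
    intro x
    apply char_eq_of_isConj
    have hcoe : ((g * tGL x : GL (Fin 2) F) : Matrix (Fin 2) (Fin 2) F) =
        !![(g : Matrix (Fin 2) (Fin 2) F) 0 0, (g : Matrix (Fin 2) (Fin 2) F) 0 0 * x; 0,
          (g : Matrix (Fin 2) (Fin 2) F) 1 1] := by
      rw [Units.val_mul, tGL_coe]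
      ext i j
      fin_cases i <;> fin_cases j <;> simp [Matrix.mul_apply, Fin.sum_univ_two, h01, h10]
    apply gl2_isConj_of_nonScal
    · right; right
      rw [hcoe]
      simpa using hne
    · right; right
      exact hne
    · rw [hcoe]
      simp [Matrix.trace_fin_two]
    · rw [hcoe]
      simp [Matrix.det_fin_two, h01, h10]
  have hq0 : (Fintype.card F : ℂ) ≠ 0 := by
    have := Fintype.card_pos (α := F)
    exact_mod_cast this.ne'
  have h5 : (Fintype.card F : ℂ) * ρ.character g = 0 := by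
    calc (Fintype.card F : ℂ) * ρ.character g = ∑ x : F, ρ.character (g * tGL x) := by
          simp only [hconj, Finset.sum_const, Finset.card_univ, nsmul_eq_mul]
      _ = LinearMap.trace ℂ _ (ρ g * ∑ x : F, ρ (tGL x)) := by
          simp only [character, map_mul, Finset.mul_sum, map_sum]
      _ = 0 := by rw [hsum, mul_zero, map_zero]
  exact (mul_eq_zero.mp h5).resolve_left hq0

open Cfsg.Agent.Lib.Helper39 Matrix Representation in
theorem aux2 {F : Type*} [Field F] [Fintype F] [DecidableEq F] (n : ℕ)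
    (ρ : Representation ℂ (GL (Fin 2) F) (Fin n → ℂ)) [hirr : ρ.IsIrreducible] (g : GL (Fin 2) F)
    (hdeg : ρ.character 1 = (Fintype.card F : ℂ) + 1)
    (hno : ∀ (c : F) (v : Fin 2 → F), v ≠ 0 → (g : Matrix (Fin 2) (Fin 2) F).mulVec v ≠ c • v) :
    ρ.character g = 0 := by
  obtain ⟨m, k, h1, hu1, hs, -⟩ := unip_decomp ρ
  have hn : ρ.character 1 = (n : ℂ) := by rw [char_one]; simp
  have hq := Fintype.one_lt_card (α := F)
  obtain ⟨r, hr⟩ : ∃ r : ℕ, Fintype.card F = r + 1 := ⟨Fintype.card F - 1, by omega⟩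
  have hr1 : 1 ≤ r := by omega
  have hnat : n = m + r * k := by
    have : ((n : ℕ) : ℂ) = ((m + r * k : ℕ) : ℂ) := by
      rw [← hn, h1, hr]
      push_cast
      ring
    exact_mod_cast this
  have hn1 : n = r + 2 := by
    rw [hn, hr] at hdeg
    have : ((n : ℕ) : ℂ) = ((r + 2 : ℕ) : ℂ) := by rw [hdeg]; push_cast; ring
    exact_mod_cast this
  have hm : m ≠ 0 := by
    intro hm
    have hnb := unip_norm_bound ρ
    rw [hn, hu1] at hnb
    have e1 : Complex.normSq (n : ℂ) = (n : ℝ) ^ 2 := by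
      rw [Complex.normSq_natCast, sq]
    have e2 : Complex.normSq ((m : ℂ) - k) = ((m : ℝ) - k) ^ 2 := by
      have : ((m : ℂ) - k) = (((m : ℝ) - k : ℝ) : ℂ) := by push_cast; rfl
      rw [this, Complex.normSq_ofReal]
      ring
    rw [e1, e2, hr] at hnb
    push_cast at hnb
    rw [hm, zero_add] at hnat
    have hdvd : r ∣ 2 := by
      have h2 : r ∣ r + 2 := by
        rw [← hn1, hnat]
        exact dvd_mul_right r k
      exact (Nat.dvd_add_right (dvd_refl r)).mp h2
    have hr2 : r ≤ 2 := Nat.le_of_dvd (by norm_num) hdvd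
    interval_cases r
    · have hk : k = 3 := by omega
      subst hk hm hn1
      norm_num at hnb
    · have hk : k = 2 := by omega
      subst hk hm hn1
      norm_num at hnb
  have hs' : ∑ x : F, ρ.character (tGL x) ≠ 0 := by
    rw [hs]
    apply mul_ne_zero
    · have := Fintype.card_pos (α := F)
      exact_mod_cast this.ne'
    · exact_mod_cast hm
  have hχc : Cfsg.IsCharacter (GL (Fin 2) F) ρ.character := ⟨n, ρ, rfl⟩
  have hχi : Cfsg.IsIrrCharacter (GL (Fin 2) F) ρ.character := ⟨n, ρ, hirr, rfl⟩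
  obtain ⟨α, β, hne⟩ := exists_principal
    (Cfsg.Agent.Lib.Helper3.isClassFunction_of_isCharacter hχc) hs'
  have hsub := isCharacter_sub_irr (isCharacter_indFun_lamB α β) hχi hne
  have hzero := isCharacter_eq_zero_of_one hsub (by
    rw [Pi.sub_apply, indFun_lamB_one, hdeg, sub_self])
  have h5 := congrFun hzero g
  rw [Pi.sub_apply, indFun_lamB_elliptic α β g hno] at h5
  simpa using h5

/-- Over a finite field F with q elements: every irreducible complex character of GL₂ of degree q − 1 vanishes at every diagonal matrix with two distinct entries, and every irreducible complex character of degree q + 1 vanishes at every element with no eigenvector in F². -/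
theorem result {F : Type*} [Field F] [Fintype F] (χ : Matrix.GeneralLinearGroup (Fin 2) F → ℂ) (hχ : Cfsg.IsIrrCharacter (Matrix.GeneralLinearGroup (Fin 2) F) χ) (g : Matrix.GeneralLinearGroup (Fin 2) F) :
    (χ 1 = (Fintype.card F : ℂ) - 1 → (g : Matrix (Fin 2) (Fin 2) F) 0 1 = 0 → (g : Matrix (Fin 2) (Fin 2) F) 1 0 = 0 → (g : Matrix (Fin 2) (Fin 2) F) 0 0 ≠ (g : Matrix (Fin 2) (Fin 2) F) 1 1 → χ g = 0) ∧
    (χ 1 = (Fintype.card F : ℂ) + 1 → (∀ (c : F) (v : Fin 2 → F), v ≠ 0 → (g : Matrix (Fin 2) (Fin 2) F).mulVec v ≠ c • v) → χ g = 0) := by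
  classical
  obtain ⟨n, ρ, hirr, rfl⟩ := hχ
  exact ⟨fun hdeg h01 h10 hne => aux1 n ρ g hdeg h01 h10 hne,
    fun hdeg hno => aux2 n ρ g hdeg hno⟩

end Cfsg.Agent.S2309
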