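import Cfsg.Statements.S2310
import Cfsg.Agent.Lib.Helper39.GL2Char

set_option autoImplicit false
open Cfsg

namespace Cfsg.Agent.S2310

open Cfsg.Agent.Lib.Helper39 Matrix Representation in
theorem aux {F : Type*} [Field F] [Fintype F] [DecidableEq F] (hq : 3 ≤ Fintype.card F) (n : ℕ)
    (ρ : Representation ℂ (GL (Fin 2) F) (Fin n → ℂ)) [ρ.IsIrreducible] :
    (ρ.character 1 = 1 → ρ.character (tGL 1) = 1) ∧
    (ρ.character 1 = (Fintype.card F : ℂ) + 1 → ρ.character (tGL 1) = 1) ∧
    (ρ.character 1 = (Fintype.card F : ℂ) - 1 → ρ.character (tGL 1) = -1) ∧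
    (ρ.character 1 = (Fintype.card F : ℂ) → ρ.character (tGL 1) = 0) := by
  obtain ⟨m, k, h1, hu1, -, -⟩ := unip_decomp ρ
  have hn : ρ.character 1 = (n : ℂ) := by rw [char_one]; simp
  obtain ⟨r, hr⟩ : ∃ r : ℕ, Fintype.card F = r + 1 := ⟨Fintype.card F - 1, by omega⟩
  have hr2 : 2 ≤ r := by omega
  have hnat : n = m + r * k := by
    have : ((n : ℕ) : ℂ) = ((m + r * k : ℕ) : ℂ) := by
      rw [← hn, h1, hr]
      push_cast
      ring
    exact_mod_cast this
  have hk0 : k = 0 → n * n < r + 1 := by
    intro hk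
    have h2 : ρ.character (tGL 1) = ρ.character 1 := by
      rw [hu1, h1, hk]
      simp
    have := unip_kernel_bound ρ h2
    rw [hr] at this
    simpa using this
  have hnb := unip_norm_bound ρ
  rw [hn, hu1] at hnb
  have e1 : Complex.normSq (n : ℂ) = (n : ℝ) ^ 2 := by
    rw [Complex.normSq_natCast, sq]
  have e2 : Complex.normSq ((m : ℂ) - k) = ((m : ℝ) - k) ^ 2 := by
    have : ((m : ℂ) - k) = (((m : ℝ) - k : ℝ) : ℂ) := by push_cast; rfl
    rw [this, Complex.normSq_ofReal]
    ring
  rw [e1, e2, hr] at hnb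
  push_cast at hnb
  rw [hu1]
  refine ⟨?_, ?_, ?_, ?_⟩
  · intro h
    rw [hn] at h
    have hn1 : n = 1 := by exact_mod_cast h
    have hk : k = 0 := by
      by_contra hk
      have hk1 : 1 ≤ k := Nat.one_le_iff_ne_zero.mpr hk
      nlinarith
    have hm : m = 1 := by rw [hk] at hnat; omega
    rw [hk, hm]
    simp
  · intro h
    rw [hn, hr] at h
    have hn1 : n = r + 2 := by
      have : ((n : ℕ) : ℂ) = ((r + 2 : ℕ) : ℂ) := by rw [h]; push_cast; ring
      exact_mod_cast this
    have hk2 : k ≤ 2 := by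
      by_contra hk
      have hk3 : 3 ≤ k := by omega
      nlinarith
    interval_cases k
    · exfalso
      have := hk0 rfl
      nlinarith
    · have hm : m = 2 := by omega
      rw [hm]
      norm_num
    · exfalso
      have hr' : r = 2 := by omega
      have hm : m = 0 := by omega
      subst hr' hm hn1
      norm_num at hnb
  · intro h
    rw [hn, hr] at h
    have hn1 : n = r := by
      have : ((n : ℕ) : ℂ) = ((r : ℕ) : ℂ) := by rw [h]; push_cast; ring
      exact_mod_cast this
    have hk2 : k ≤ 1 := by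
      by_contra hk
      have hk3 : 2 ≤ k := by omega
      nlinarith
    interval_cases k
    · exfalso
      have := hk0 rfl
      nlinarith
    · have hm : m = 0 := by omega
      rw [hm]
      norm_num
  · intro h
    rw [hn, hr] at h
    have hn1 : n = r + 1 := by exact_mod_cast h
    have hk2 : k ≤ 1 := by
      by_contra hk
      have hk3 : 2 ≤ k := by omega
      nlinarith
    interval_cases k
    · exfalso
      have := hk0 rfl
      nlinarith
    · have hm : m = 1 := by omega
      rw [hm]
      norm_num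

/-- Over a finite field F with q ≥ 3 elements, let u be the upper unitriangular matrix of GL₂ with off-diagonal entry 1. An irreducible complex character χ of GL₂ takes at u the value 1 if χ has degree 1 or q + 1, the value −1 if χ has degree q − 1, and the value 0 if χ has degree q. -/
theorem result {F : Type*} [Field F] [Fintype F] (hq : 3 ≤ Fintype.card F) (χ : Matrix.GeneralLinearGroup (Fin 2) F → ℂ) (hχ : Cfsg.IsIrrCharacter (Matrix.GeneralLinearGroup (Fin 2) F) χ)
    (u : Matrix.GeneralLinearGroup (Fin 2) F) (hu : (u : Matrix (Fin 2) (Fin 2) F) = !![1, 1; 0, 1]) :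
    (χ 1 = 1 → χ u = 1) ∧ (χ 1 = (Fintype.card F : ℂ) + 1 → χ u = 1) ∧
    (χ 1 = (Fintype.card F : ℂ) - 1 → χ u = -1) ∧ (χ 1 = (Fintype.card F : ℂ) → χ u = 0) := by
  classical
  obtain ⟨n, ρ, hirr, rfl⟩ := hχ
  have hu' : u = Cfsg.Agent.Lib.Helper39.tGL 1 :=
    Units.ext (by rw [hu, Cfsg.Agent.Lib.Helper39.tGL_coe])
  subst hu'
  exact aux hq n ρ

end Cfsg.Agent.S2310
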