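-- Statement S2316: Steinberg's count of unipotent elements for the symplectic group.
-- Team project SPU (coordinator helper19): two Fitting-type double counts and a q-series identity.
import Cfsg.Statements.S2316
import Cfsg.Agent.Lib.Helper19.SPU.Asm
import Cfsg.Agent.Lib.Helper19.SPU.Lag
import Cfsg.Agent.Lib.Helper15.SPU.Bij
import Cfsg.Agent.Lib.Helper15.SPU.CIJ
import Cfsg.Agent.Lib.Helper23.SPU.Tr
import Cfsg.Agent.Lib.Helper22.SPU.CardA
import Cfsg.Agent.Lib.Helper61.SPU.Dec1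
import Cfsg.Agent.Lib.Helper11.SPU.Dec2
import Cfsg.Agent.Lib.Helper1.SPU.Qid
import Cfsg.Agent.Lib.Helper29.SPU.UnipJ
import Cfsg.Agent.Lib.Helper27.SPU.Dec2N
import Cfsg.Agent.Lib.Helper83.SPU.Sum1
import Cfsg.Agent.Lib.Helper93.SPU.Fit1
import Cfsg.Agent.Lib.Helper93.SPU.Fit2
import Cfsg.Agent.Lib.Helper11.SPU.LagDec
import Cfsg.Agent.Lib.Helper10.SPU.LagRank

set_option autoImplicit false
open Cfsg

namespace Cfsg.Agent.S2316

/-- Steinberg's count of unipotent elements for the symplectic group: over a finite field with q elements of characteristic p, the number of elements of Sp_{2m} of p-power order is q^(2m²). -/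
theorem result {F : Type*} [Field F] [Fintype F] (p : ℕ) [Fact p.Prime] [CharP F p] (m : ℕ) :
    Nat.card {g : ↥(Matrix.symplecticGroup (Fin m) F) // ∃ k : ℕ, orderOf g = p ^ k} = Fintype.card F ^ (2 * m ^ 2) := by
  have hCong := Cfsg.Agent.Lib.Helper23.SPU.pkgCong
  have hEven := Cfsg.Agent.Lib.Helper23.SPU.pkgEven
  have hDec1 := Cfsg.Agent.Lib.Helper61.SPU.pkgDec1
  have hDec2 := Cfsg.Agent.Lib.Helper11.SPU.pkgDec2
  have hDec1N := Cfsg.Agent.Lib.Helper27.SPU.pkgDec1N_of hDec1 hCong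
  have hDec2N := Cfsg.Agent.Lib.Helper27.SPU.pkgDec2N_of hDec2 hCong
  exact Cfsg.Agent.Lib.Helper19.SPU.spu_main F
    Cfsg.Agent.Lib.Helper23.SPU.pkgTr1
    Cfsg.Agent.Lib.Helper23.SPU.pkgTr2
    (Cfsg.Agent.Lib.Helper93.SPU.pkgFit1 hDec1N)
    (Cfsg.Agent.Lib.Helper93.SPU.pkgFit2 hDec2N)
    (Cfsg.Agent.Lib.Helper83.SPU.pkgSum1_of hDec1 hEven)
    (Cfsg.Agent.Lib.Helper83.SPU.pkgSum2_of hDec2 hEven)
    (Cfsg.Agent.Lib.Helper19.SPU.pkgLag_of
      (Cfsg.Agent.Lib.Helper11.SPU.pkgLagDec Cfsg.Agent.Lib.Helper10.SPU.pkgLagRank))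
    Cfsg.Agent.Lib.Helper15.SPU.pkgBij
    Cfsg.Agent.Lib.Helper22.SPU.pkgCardA
    Cfsg.Agent.Lib.Helper29.SPU.pkgUnipJ
    Cfsg.Agent.Lib.Helper15.SPU.pkgCIJ
    Cfsg.Agent.Lib.Helper1.SPU.pkgQid p m

end Cfsg.Agent.S2316
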