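import Cfsg.Statements.S2317
import Cfsg.Agent.Lib.Helper40.Jordan

set_option autoImplicit false
open Cfsg

namespace Cfsg.Agent.S2317

/-- Over a finite field of characteristic p, the conjugacy classes of GL_n consisting of elements of p-power order (the unipotent classes) are as many as the partitions of n. -/
theorem result {F : Type*} [Field F] [Fintype F] (p : ℕ) [Fact p.Prime] [CharP F p] (n : ℕ) :
    Nat.card {C : ConjClasses (Matrix.GeneralLinearGroup (Fin n) F) //
      ∃ g : Matrix.GeneralLinearGroup (Fin n) F, (∃ k : ℕ, orderOf g = p ^ k) ∧ ConjClasses.mk g = C} =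
      Fintype.card (Nat.Partition n) := by
  classical
  have key := Cfsg.Agent.Lib.Helper40.Jordan.card_classes (F := F) (n := n)
    (fun g => ∃ k : ℕ, orderOf g = p ^ k) Set.univ (by
      intro g
      constructor
      · intro hg
        obtain ⟨μ, hμ⟩ := Cfsg.Agent.Lib.Helper40.Jordan.exists_partition _
          ((Cfsg.Agent.Lib.Helper40.Jordan.isNilpotent_sub_one_iff p g).2 hg)
        exact ⟨μ, Set.mem_univ _, hμ⟩
      · rintro ⟨μ, -, hμ⟩
        exact (Cfsg.Agent.Lib.Helper40.Jordan.isNilpotent_sub_one_iff p g).1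
          (Cfsg.Agent.Lib.Helper40.Jordan.isNilpotent_of_rank hμ))
  rw [← Nat.card_eq_fintype_card, ← Nat.card_congr (Equiv.Set.univ (Nat.Partition n)), ← key]
  exact Nat.card_congr (Equiv.subtypeEquivRight fun C =>
    ⟨fun ⟨g, h1, h2⟩ => ⟨g, h2, h1⟩, fun ⟨g, h1, h2⟩ => ⟨g, h2, h1⟩⟩)

end Cfsg.Agent.S2317
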