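import Cfsg.Statements.S2320
import Cfsg.Agent.Lib.Helper39.GL2Princ

set_option autoImplicit false
open Cfsg

namespace Cfsg.Agent.S2320

open Cfsg.Agent.Lib.Helper39 Matrix Representation in
open scoped ComplexConjugate in
theorem aux {F : Type*} [Field F] [Fintype F] [DecidableEq F] (n : ℕ)
    (ρ : Representation ℂ (GL (Fin 2) F) (Fin n → ℂ)) [hirr : ρ.IsIrreducible]
    (hdeg : ρ.character 1 = (Fintype.card F : ℂ)) :
    ∃ (α : MulChar F ℂ) (θ : GL (Fin 2) F → ℂ), (∀ g, ‖θ g‖ = 1) ∧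
      (∀ g, ρ.character g =
        Cfsg.indFun (Cfsg.upperTriangularGL 2 F) (lamB α α) g - θ g) ∧
      (∀ b : Cfsg.upperTriangularGL 2 F, θ b = lamB α α b) := by
  obtain ⟨m, k, h1, hu1, hs, -⟩ := unip_decomp ρ
  have hn : ρ.character 1 = (n : ℂ) := by rw [char_one]; simp
  have hq := Fintype.one_lt_card (α := F)
  obtain ⟨r, hr⟩ : ∃ r : ℕ, Fintype.card F = r + 1 := ⟨Fintype.card F - 1, by omega⟩
  have hr1 : 1 ≤ r := by omega
  have hnat : n = m + r * k := by
    have : ((n : ℕ) : ℂ) = ((m + r * k : ℕ) : ℂ) := by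
      rw [← hn, h1, hr]
      push_cast
      ring
    exact_mod_cast this
  have hn1 : n = r + 1 := by
    rw [hn, hr] at hdeg
    exact_mod_cast hdeg
  have hm : m ≠ 0 := by
    intro hm
    have hnb := unip_norm_bound ρ
    rw [hn, hu1] at hnb
    have e1 : Complex.normSq (n : ℂ) = (n : ℝ) ^ 2 := by
      rw [Complex.normSq_natCast, sq]
    have e2 : Complex.normSq ((m : ℂ) - k) = ((m : ℝ) - k) ^ 2 := by
      have : ((m : ℂ) - k) = (((m : ℝ) - k : ℝ) : ℂ) := by push_cast; rfl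
      rw [this, Complex.normSq_ofReal]
      ring
    rw [e1, e2, hr] at hnb
    push_cast at hnb
    rw [hm, zero_add] at hnat
    have hdvd : r ∣ 1 := by
      have h2 : r ∣ r + 1 := by
        rw [← hn1, hnat]
        exact dvd_mul_right r k
      exact (Nat.dvd_add_right (dvd_refl r)).mp h2
    have hr2 : r = 1 := Nat.dvd_one.mp hdvd
    subst hr2
    have hk : k = 2 := by omega
    subst hk hm hn1
    norm_num at hnb
  have hs' : ∑ x : F, ρ.character (tGL x) ≠ 0 := by
    rw [hs]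
    apply mul_ne_zero
    · have := Fintype.card_pos (α := F)
      exact_mod_cast this.ne'
    · exact_mod_cast hm
  have hχc : Cfsg.IsCharacter (GL (Fin 2) F) ρ.character := ⟨n, ρ, rfl⟩
  have hχi : Cfsg.IsIrrCharacter (GL (Fin 2) F) ρ.character := ⟨n, ρ, hirr, rfl⟩
  obtain ⟨α, β, hne⟩ := exists_principal
    (Cfsg.Agent.Lib.Helper3.isClassFunction_of_isCharacter hχc) hs'
  set π := Cfsg.indFun (Cfsg.upperTriangularGL 2 F) (lamB α β) with hπ
  have hθ := isCharacter_sub_irr (isCharacter_indFun_lamB α β) hχi hne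
  rw [← hπ] at hθ
  set θ := π - ρ.character with hθdef
  have hθ1 : θ 1 = 1 := by
    rw [hθdef, Pi.sub_apply, hπ, indFun_lamB_one, hdeg]
    ring
  have hnorm : ∀ g, ‖θ g‖ = 1 := fun g => linChar_norm hθ hθ1 g
  have hne' : Cfsg.classInner π θ ≠ 0 := by
    have e : π = ρ.character + θ := by
      rw [hθdef]
      funext g
      simp
    obtain ⟨j, hj⟩ := Cfsg.Agent.Lib.Helper75.classInner_char_nat hχc hθ
    have hself : Cfsg.classInner θ θ = 1 := by
      unfold Cfsg.classInner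
      have h2 : ∀ g, θ g * conj (θ g) = 1 := by
        intro g
        rw [Complex.mul_conj, Complex.normSq_eq_norm_sq, hnorm g]
        simp
      simp only [h2, Finset.sum_const, Finset.card_univ, nsmul_eq_mul, mul_one]
      rw [Nat.card_eq_fintype_card]
      apply inv_mul_cancel₀
      have := Fintype.card_pos (α := GL (Fin 2) F)
      exact_mod_cast this.ne'
    rw [e, Cfsg.Agent.Lib.Helper75.classInner_add_left, hj, hself]
    have : ((j : ℂ) + 1) = ((j + 1 : ℕ) : ℂ) := by push_cast; rfl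
    rw [this]
    exact_mod_cast Nat.succ_ne_zero j
  letI : Fintype (Cfsg.upperTriangularGL 2 F) := Fintype.ofEquiv _ bEquiv
  have hlin : ∀ b : Cfsg.upperTriangularGL 2 F, θ b = lamB α β b :=
    fun b => linear_constituent (Cfsg.upperTriangularGL 2 F) (lamHom α β) hθ hθ1 hne' b
  have hαβ : α = β := by
    apply MulChar.ext
    intro a
    have e1 := hlin ⟨bGL a 1 0, bGL_mem _ _ _⟩
    have e2 := hlin ⟨bGL 1 a 0, bGL_mem _ _ _⟩
    have l1 : lamB α β ⟨bGL a 1 0, bGL_mem _ _ _⟩ = α (a : F) := by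
      unfold lamB
      simp [bGL_coe]
    have l2 : lamB α β ⟨bGL 1 a 0, bGL_mem _ _ _⟩ = β (a : F) := by
      unfold lamB
      simp [bGL_coe]
    rw [l1] at e1
    rw [l2] at e2
    rw [← e1, ← e2]
    apply isCharacter_isConj hθ
    by_cases ha : a = 1
    · rw [ha]
      exact IsConj.refl _
    · apply gl2_isConj_of_nonScal
      · right; right
        simp only [bGL_coe]
        simpa using fun h => ha (Units.ext h)
      · right; right
        simp only [bGL_coe]
        simpa using fun h => ha (Units.ext h.symm)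
      · simp [bGL_coe, Matrix.trace_fin_two, add_comm]
      · simp [bGL_coe, Matrix.det_fin_two, mul_comm]
  subst hαβ
  refine ⟨α, θ, hnorm, ?_, hlin⟩
  intro g
  simp only [hθdef, Pi.sub_apply, hπ]
  ring

/-- Over a finite field F with q elements, every irreducible complex character of GL₂ of degree q takes a value of absolute value 1 at every diagonal matrix with two different diagonal entries and at every element with no eigenvector in F². -/
theorem result {F : Type*} [Field F] [Fintype F] (χ : Matrix.GeneralLinearGroup (Fin 2) F → ℂ) (hχ : Cfsg.IsIrrCharacter (Matrix.GeneralLinearGroup (Fin 2) F) χ) (hdeg : χ 1 = (Fintype.card F : ℂ)) (g : Matrix.GeneralLinearGroup (Fin 2) F) :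
    ((g : Matrix (Fin 2) (Fin 2) F) 0 1 = 0 → (g : Matrix (Fin 2) (Fin 2) F) 1 0 = 0 → (g : Matrix (Fin 2) (Fin 2) F) 0 0 ≠ (g : Matrix (Fin 2) (Fin 2) F) 1 1 → ‖χ g‖ = 1) ∧
    ((∀ (c : F) (v : Fin 2 → F), v ≠ 0 → (g : Matrix (Fin 2) (Fin 2) F).mulVec v ≠ c • v) → ‖χ g‖ = 1) := by
  classical
  obtain ⟨n, ρ, hirr, rfl⟩ := hχ
  obtain ⟨α, θ, hnorm, hval, hlin⟩ := aux n ρ hdeg
  refine ⟨?_, ?_⟩
  · intro h01 h10 hne
    have hd := Cfsg.Agent.Lib.Helper39.gl2_det_ne_zero g
    rw [Matrix.det_fin_two, h10, mul_zero, sub_zero] at hd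
    have ha : (g : Matrix (Fin 2) (Fin 2) F) 0 0 ≠ 0 := left_ne_zero_of_mul hd
    have hd' : (g : Matrix (Fin 2) (Fin 2) F) 1 1 ≠ 0 := right_ne_zero_of_mul hd
    have hmem : g ∈ Cfsg.upperTriangularGL 2 F := (Cfsg.Agent.Lib.Helper39.mem_borel_iff g).mpr h10
    have h1 := hlin ⟨g, hmem⟩
    rw [hval g, Cfsg.Agent.Lib.Helper39.indFun_lamB_split α α g h01 h10 hne]
    have h2 : θ g = α ((g : Matrix (Fin 2) (Fin 2) F) 0 0) * α ((g : Matrix (Fin 2) (Fin 2) F) 1 1) := h1
    rw [h2]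
    have e : α ((g : Matrix (Fin 2) (Fin 2) F) 0 0) * α ((g : Matrix (Fin 2) (Fin 2) F) 1 1) +
        α ((g : Matrix (Fin 2) (Fin 2) F) 1 1) * α ((g : Matrix (Fin 2) (Fin 2) F) 0 0) -
        α ((g : Matrix (Fin 2) (Fin 2) F) 0 0) * α ((g : Matrix (Fin 2) (Fin 2) F) 1 1) =
        α ((g : Matrix (Fin 2) (Fin 2) F) 1 1) * α ((g : Matrix (Fin 2) (Fin 2) F) 0 0) := by ring
    rw [e, norm_mul]
    have n1 := Cfsg.Agent.Lib.Helper39.mulChar_norm_unit α (Units.mk0 _ ha)
    have n2 := Cfsg.Agent.Lib.Helper39.mulChar_norm_unit α (Units.mk0 _ hd')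
    rw [Units.val_mk0] at n1 n2
    rw [n1, n2, mul_one]
  · intro hno
    rw [hval g, Cfsg.Agent.Lib.Helper39.indFun_lamB_elliptic α α g hno, zero_sub, norm_neg]
    exact hnorm g

end Cfsg.Agent.S2320
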