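import Cfsg.Statements.S2321
import Cfsg.Agent.Lib.Helper39.SL2Princ

set_option autoImplicit false
open Cfsg

namespace Cfsg.Agent.S2321

open Cfsg.Agent.Lib.Helper39 Matrix Representation in
open scoped ComplexConjugate in
theorem aux {F : Type*} [Field F] [Fintype F] [DecidableEq F] (n : ℕ)
    (ρ : Representation ℂ (Matrix.SpecialLinearGroup (Fin 2) F) (Fin n → ℂ)) [hirr : ρ.IsIrreducible]
    (hdeg : ρ.character 1 = (Fintype.card F : ℂ)) (g : Matrix.SpecialLinearGroup (Fin 2) F) :
    ρ.character g = Cfsg.indFun (borelS F) (lamS (1 : MulChar F ℂ)) g - 1 := by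
  have hn : ρ.character 1 = (n : ℂ) := by rw [char_one]; simp
  have hfr : Module.finrank ℂ (Fin n → ℂ) = n := by simp
  have hq := Fintype.one_lt_card (α := F)
  have hnq : n = Fintype.card F := by
    rw [hn] at hdeg
    exact_mod_cast hdeg
  -- the multiplicity of the trivial character of the unipotent subgroup is not zero
  have hs' : ∑ x : F, ρ.character (tSL x) ≠ 0 := by
    by_cases h2 : ringChar F = 2
    · obtain ⟨r, hr⟩ : ∃ r : ℕ, Fintype.card F = r + 1 := ⟨Fintype.card F - 1, by omega⟩
      have hr1 : 1 ≤ r := by omega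
      obtain ⟨m, k, hd, -, hs, -, hN⟩ := sl2_unip_even h2 r hr ρ
      rw [hfr] at hd hN
      have hm : m ≠ 0 := by
        intro hm
        subst hm
        rw [hnq, hr] at hd
        have hdvd : r ∣ 1 := by
          have h3 : r ∣ r + 1 := by
            rw [hd, zero_add]
            exact dvd_mul_right r k
          exact (Nat.dvd_add_right (dvd_refl r)).mp h3
        have hr' : r = 1 := Nat.dvd_one.mp hdvd
        subst hr'
        have hk : k = 2 := by omega
        subst hk
        rw [hnq, hr] at hN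
        norm_num at hN
      rw [hs]
      apply mul_ne_zero
      · exact_mod_cast (Fintype.card_pos (α := F)).ne'
      · exact_mod_cast hm
    · have hodd := FiniteField.odd_card_of_char_ne_two h2
      obtain ⟨r, hr⟩ : ∃ r : ℕ, Fintype.card F = 2 * r + 1 := ⟨Fintype.card F / 2, by omega⟩
      have hr1 : 1 ≤ r := by omega
      obtain ⟨m, k₁, k₂, hd, -, hs, -, hN, -⟩ := sl2_unip_odd h2 r hr ρ
      rw [hfr] at hd hN
      have hm : m ≠ 0 := by
        intro hm
        subst hm
        rw [hnq, hr] at hd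
        have hdvd : r ∣ 1 := by
          have h3 : r ∣ 2 * r + 1 := by
            rw [hd, zero_add]
            exact dvd_mul_right r (k₁ + k₂)
          exact (Nat.dvd_add_right (Dvd.intro_left 2 rfl)).mp h3
        have hr' : r = 1 := Nat.dvd_one.mp hdvd
        subst hr'
        have hk : k₁ + k₂ = 3 := by omega
        rw [hnq, hr] at hN
        have hk1 : k₁ ≤ 3 := by omega
        have hk2 : k₂ ≤ 3 := by omega
        interval_cases k₁ <;> interval_cases k₂ <;> first | omega | norm_num at hN
      rw [hs]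
      apply mul_ne_zero
      · exact_mod_cast (Fintype.card_pos (α := F)).ne'
      · exact_mod_cast hm
  have hχc : Cfsg.IsCharacter (Matrix.SpecialLinearGroup (Fin 2) F) ρ.character := ⟨n, ρ, rfl⟩
  have hχi : Cfsg.IsIrrCharacter (Matrix.SpecialLinearGroup (Fin 2) F) ρ.character :=
    ⟨n, ρ, hirr, rfl⟩
  obtain ⟨α, hne⟩ := exists_principal_S
    (Cfsg.Agent.Lib.Helper3.isClassFunction_of_isCharacter hχc) hs'
  set π := Cfsg.indFun (borelS F) (lamS α) with hπ
  have hθ := isCharacter_sub_irr (isCharacter_indFun_lamS α) hχi hne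
  rw [← hπ] at hθ
  set θ := π - ρ.character with hθdef
  have hθ1 : θ 1 = 1 := by
    rw [hθdef, Pi.sub_apply, hπ, indFun_lamS_one, hdeg]
    ring
  have hnorm : ∀ g, ‖θ g‖ = 1 := fun g => linChar_norm hθ hθ1 g
  have hne' : Cfsg.classInner π θ ≠ 0 := by
    have e : π = ρ.character + θ := by
      rw [hθdef]
      funext g
      simp
    obtain ⟨j, hj⟩ := Cfsg.Agent.Lib.Helper75.classInner_char_nat hχc hθ
    have hself : Cfsg.classInner θ θ = 1 := by
      unfold Cfsg.classInner
      have h2 : ∀ g, θ g * conj (θ g) = 1 := by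
        intro g
        rw [Complex.mul_conj, Complex.normSq_eq_norm_sq, hnorm g]
        simp
      simp only [h2, Finset.sum_const, Finset.card_univ, nsmul_eq_mul, mul_one]
      rw [Nat.card_eq_fintype_card]
      apply inv_mul_cancel₀
      have := Fintype.card_pos (α := Matrix.SpecialLinearGroup (Fin 2) F)
      exact_mod_cast this.ne'
    rw [e, Cfsg.Agent.Lib.Helper75.classInner_add_left, hj, hself]
    have : ((j : ℂ) + 1) = ((j + 1 : ℕ) : ℂ) := by push_cast; rfl
    rw [this]
    exact_mod_cast Nat.succ_ne_zero j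
  letI : Fintype (borelS F) := Fintype.ofEquiv _ sbEquiv
  have hlin : ∀ b : borelS F, θ b = lamS α b :=
    fun b => linear_constituent (borelS F) (lamSHom α) hθ hθ1 hne' b
  have hb : ∀ (a : Fˣ) (s : F), θ (bSL a s) = α (a : F) := by
    intro a s
    have h1 := hlin ⟨bSL a s, bSL_mem a s⟩
    have h2 : lamS α ⟨bSL a s, bSL_mem a s⟩ = α (a : F) := by
      unfold lamS
      simp [bSL_coe]
    rw [h2] at h1
    exact h1
  have hT : ∀ x : F, θ (tSL x) = 1 := by
    intro x
    have h1 := hb 1 x
    have h2 : bSL (1 : Fˣ) x = tSL x := by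
      apply Subtype.ext
      rw [bSL_coe, tSL_coe]
      simp
    rw [h2] at h1
    rw [h1]
    simp
  have hL : ∀ y : F, θ (lSL y) = 1 := by
    intro y
    rw [← isCharacter_isConj hθ (lSL_isConj y)]
    exact hT (-y)
  have hall : ∀ g : Matrix.SpecialLinearGroup (Fin 2) F, θ g = 1 := by
    intro g
    have h1 := sl2_hom_trivial (Cfsg.Agent.Lib.Helper15.linCharHom hθ hθ1)
      (fun x => Units.ext (hT x)) (fun y => Units.ext (hL y)) g
    have h2 := congrArg (fun u : ℂˣ => (u : ℂ)) h1
    exact h2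
  have hα : α = 1 := by
    apply MulChar.ext
    intro a
    rw [← hb a 0, hall, MulChar.one_apply_coe]
  subst hα
  have h5 := hall g
  rw [hθdef, Pi.sub_apply] at h5
  rw [hπ] at h5
  linear_combination -h5

/-- Over a finite field F with q elements, an irreducible complex character of SL₂ of degree q (the Steinberg character) takes the value 1 at every diagonal matrix whose diagonal entry a has a² ≠ 1, the value −1 at every element with no eigenvector in F², and the value 0 at every upper triangular matrix with equal diagonal entries and non-zero upper right entry. -/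
theorem result {F : Type*} [Field F] [Fintype F] (χ : Matrix.SpecialLinearGroup (Fin 2) F → ℂ) (hχ : Cfsg.IsIrrCharacter (Matrix.SpecialLinearGroup (Fin 2) F) χ) (hdeg : χ 1 = (Fintype.card F : ℂ)) (g : Matrix.SpecialLinearGroup (Fin 2) F) :
    ((g : Matrix (Fin 2) (Fin 2) F) 0 1 = 0 → (g : Matrix (Fin 2) (Fin 2) F) 1 0 = 0 → (g : Matrix (Fin 2) (Fin 2) F) 0 0 ^ 2 ≠ 1 → χ g = 1) ∧
    ((∀ (c : F) (v : Fin 2 → F), v ≠ 0 → (g : Matrix (Fin 2) (Fin 2) F).mulVec v ≠ c • v) → χ g = -1) ∧
    ((g : Matrix (Fin 2) (Fin 2) F) 1 0 = 0 → (g : Matrix (Fin 2) (Fin 2) F) 0 0 = (g : Matrix (Fin 2) (Fin 2) F) 1 1 → (g : Matrix (Fin 2) (Fin 2) F) 0 1 ≠ 0 → χ g = 0) := by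
  classical
  obtain ⟨n, ρ, hirr, rfl⟩ := hχ
  have key := aux n ρ hdeg g
  refine ⟨?_, ?_, ?_⟩
  · intro h01 h10 hsq
    have hd := g.det_coe
    rw [Matrix.det_fin_two, h10, mul_zero, sub_zero] at hd
    have ha : (g : Matrix (Fin 2) (Fin 2) F) 0 0 ≠ 0 := by
      intro h0
      rw [h0, zero_mul] at hd
      exact zero_ne_one hd
    have hd' : (g : Matrix (Fin 2) (Fin 2) F) 1 1 ≠ 0 := by
      intro h0
      rw [h0, mul_zero] at hd
      exact zero_ne_one hd
    have hne : (g : Matrix (Fin 2) (Fin 2) F) 0 0 ≠ (g : Matrix (Fin 2) (Fin 2) F) 1 1 := by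
      intro h
      apply hsq
      rw [sq]
      rw [← h] at hd
      exact hd
    rw [key, Cfsg.Agent.Lib.Helper39.indFun_lamS_split _ g h01 h10 hne,
      MulChar.one_apply (isUnit_iff_ne_zero.mpr ha), MulChar.one_apply (isUnit_iff_ne_zero.mpr hd')]
    norm_num
  · intro hno
    rw [key, Cfsg.Agent.Lib.Helper39.indFun_lamS_elliptic _ g hno]
    norm_num
  · intro h10 heq h01
    have hd := g.det_coe
    rw [Matrix.det_fin_two, h10, mul_zero, sub_zero] at hd
    have ha : (g : Matrix (Fin 2) (Fin 2) F) 0 0 ≠ 0 := by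
      intro h0
      rw [h0, zero_mul] at hd
      exact zero_ne_one hd
    rw [key, Cfsg.Agent.Lib.Helper39.indFun_lamS_unip _ g h10 heq h01,
      MulChar.one_apply (isUnit_iff_ne_zero.mpr ha)]
    norm_num

end Cfsg.Agent.S2321
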