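import Cfsg.Statements.S2322
import Cfsg.Agent.Lib.Helper39.SL2Conj

set_option autoImplicit false
open Cfsg

namespace Cfsg.Agent.S2322

open Cfsg.Agent.Lib.Helper39 Matrix Representation in
theorem aux_split {F : Type*} [Field F] [Fintype F] [DecidableEq F] (hodd : Odd (Fintype.card F))
    (n : ℕ) (ρ : Representation ℂ (Matrix.SpecialLinearGroup (Fin 2) F) (Fin n → ℂ))
    [ρ.IsIrreducible] (g : Matrix.SpecialLinearGroup (Fin 2) F)
    (hdeg : ρ.character 1 = (Fintype.card F : ℂ) - 1 ∨
      ρ.character 1 = (((Fintype.card F - 1) / 2 : ℕ) : ℂ))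
    (h01 : (g : Matrix (Fin 2) (Fin 2) F) 0 1 = 0) (h10 : (g : Matrix (Fin 2) (Fin 2) F) 1 0 = 0)
    (hsq : (g : Matrix (Fin 2) (Fin 2) F) 0 0 ^ 2 ≠ 1) : ρ.character g = 0 := by
  have hn : ρ.character 1 = (n : ℂ) := by rw [char_one]; simp
  have hfr : Module.finrank ℂ (Fin n → ℂ) = n := by simp
  have h2 : ringChar F ≠ 2 := by
    intro hc
    have := FiniteField.even_card_of_char_two hc
    have := Nat.odd_iff.mp hodd
    omega
  have hd := g.det_coe
  rw [Matrix.det_fin_two, h10, mul_zero, sub_zero] at hd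
  have ha : (g : Matrix (Fin 2) (Fin 2) F) 0 0 ≠ 0 := by
    intro h0
    rw [h0, zero_mul] at hd
    exact zero_ne_one hd
  have hne : (g : Matrix (Fin 2) (Fin 2) F) 0 0 ≠ (g : Matrix (Fin 2) (Fin 2) F) 1 1 := by
    intro h
    apply hsq
    rw [sq]
    rw [← h] at hd
    exact hd
  have hq1 := Fintype.one_lt_card (α := F)
  obtain ⟨r, hr⟩ : ∃ r : ℕ, Fintype.card F = 2 * r + 1 := ⟨Fintype.card F / 2, by
    have := Nat.odd_iff.mp hodd
    omega⟩
  have hr2 : 2 ≤ r := by
    by_contra hcon
    have hr1 : r = 1 := by omega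
    apply hsq
    have h3 := FiniteField.pow_card_sub_one_eq_one ((g : Matrix (Fin 2) (Fin 2) F) 0 0) ha
    rw [hr, hr1] at h3
    exact h3
  obtain ⟨m, k₁, k₂, hdg, -, -, hm0, hN, -⟩ := sl2_unip_odd h2 r hr ρ
  rw [hfr] at hdg hN
  have hm : m = 0 := by
    rcases hdeg with h | h
    · rw [hn, hr] at h
      have hn1 : n = 2 * r := by
        have : ((n : ℕ) : ℂ) = ((2 * r : ℕ) : ℂ) := by rw [h]; push_cast; ring
        exact_mod_cast this
      subst hn1
      have hk1 : k₁ ≤ 2 := by
        by_contra hk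
        have hk3 : 3 ≤ k₁ := by omega
        nlinarith
      have hk2 : k₂ ≤ 2 := by
        by_contra hk
        have hk3 : 3 ≤ k₂ := by omega
        nlinarith
      interval_cases k₁ <;> interval_cases k₂ <;>
        first
        | omega
        | (exfalso
           have hm : m = 2 * r := by omega
           subst hm
           nlinarith)
        | (exfalso
           have hm : m = r := by omega
           subst hm
           nlinarith)
    · rw [hn, hr] at h
      have hn1 : n = r := by
        have h5 : (2 * r + 1 - 1) / 2 = r := by omega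
        rw [h5] at h
        exact_mod_cast h
      subst hn1
      have hk1 : k₁ ≤ 1 := by
        by_contra hk
        have hk3 : 2 ≤ k₁ := by omega
        nlinarith
      have hk2 : k₂ ≤ 1 := by
        by_contra hk
        have hk3 : 2 ≤ k₂ := by omega
        nlinarith
      interval_cases k₁ <;> interval_cases k₂ <;>
        first
        | omega
        | (exfalso
           have hm : m = n := by omega
           subst hm
           nlinarith)
  have hsum := hm0 hm
  have hconj : ∀ x : F, ρ.character (g * tSL x) = ρ.character g := by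
    intro x
    apply char_eq_of_isConj
    apply isConj_of_mul_eq (c := tSL ((g : Matrix (Fin 2) (Fin 2) F) 0 0 * x /
      ((g : Matrix (Fin 2) (Fin 2) F) 0 0 - (g : Matrix (Fin 2) (Fin 2) F) 1 1)))
    have hsub : (g : Matrix (Fin 2) (Fin 2) F) 0 0 - (g : Matrix (Fin 2) (Fin 2) F) 1 1 ≠ 0 :=
      sub_ne_zero.mpr hne
    apply Subtype.ext
    simp only [Matrix.SpecialLinearGroup.coe_mul, tSL_coe]
    ext i j
    fin_cases i <;> fin_cases j
    · simp [Matrix.mul_apply, Fin.sum_univ_two, h01, h10]
    · simp [Matrix.mul_apply, Fin.sum_univ_two, h01, h10]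
      field_simp
      ring
    · simp [Matrix.mul_apply, Fin.sum_univ_two, h01, h10]
    · simp [Matrix.mul_apply, Fin.sum_univ_two, h01, h10]
  have hq0 : (Fintype.card F : ℂ) ≠ 0 := by
    have := Fintype.card_pos (α := F)
    exact_mod_cast this.ne'
  have h5 : (Fintype.card F : ℂ) * ρ.character g = 0 := by
    calc (Fintype.card F : ℂ) * ρ.character g = ∑ x : F, ρ.character (g * tSL x) := by
          simp only [hconj, Finset.sum_const, Finset.card_univ, nsmul_eq_mul]
      _ = LinearMap.trace ℂ _ (ρ g * ∑ x : F, ρ (tSL x)) := by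
          simp only [character, map_mul, Finset.mul_sum, map_sum]
      _ = 0 := by rw [hsum, mul_zero, map_zero]
  exact (mul_eq_zero.mp h5).resolve_left hq0

open Cfsg.Agent.Lib.Helper39 Matrix Representation in
theorem aux_ell {F : Type*} [Field F] [Fintype F] [DecidableEq F] (hodd : Odd (Fintype.card F))
    (n : ℕ) (ρ : Representation ℂ (Matrix.SpecialLinearGroup (Fin 2) F) (Fin n → ℂ))
    [hirr : ρ.IsIrreducible] (g : Matrix.SpecialLinearGroup (Fin 2) F)
    (hdeg : ρ.character 1 = (Fintype.card F : ℂ) + 1 ∨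
      ρ.character 1 = (((Fintype.card F + 1) / 2 : ℕ) : ℂ))
    (hno : ∀ (c : F) (v : Fin 2 → F), v ≠ 0 → (g : Matrix (Fin 2) (Fin 2) F).mulVec v ≠ c • v) :
    ρ.character g = 0 := by
  have hn : ρ.character 1 = (n : ℂ) := by rw [char_one]; simp
  have hfr : Module.finrank ℂ (Fin n → ℂ) = n := by simp
  have h2 : ringChar F ≠ 2 := by
    intro hc
    have := FiniteField.even_card_of_char_two hc
    have := Nat.odd_iff.mp hodd
    omega
  have h2' : (2 : F) ≠ 0 := Ring.two_ne_zero h2
  have hq1 := Fintype.one_lt_card (α := F)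
  obtain ⟨r, hr⟩ : ∃ r : ℕ, Fintype.card F = 2 * r + 1 := ⟨Fintype.card F / 2, by
    have := Nat.odd_iff.mp hodd
    omega⟩
  have hr1 : 1 ≤ r := by omega
  obtain ⟨ψ, hψ⟩ := exists_addChar_ne_one (F := F)
  obtain ⟨ε, hε⟩ := exists_nonsquare_aux h2
  have hε0 : ε ≠ 0 := by
    rintro rfl
    exact hε ⟨0, by simp⟩
  obtain ⟨m, k₁, k₂, hu0, hu1, hue, hdg, -, hs, -, hN, hEq⟩ := sl2_unip_odd' h2 r hr ψ hψ ε hε ρ
  rw [hfr] at hdg hN hEq
  have hχc : Cfsg.IsCharacter (Matrix.SpecialLinearGroup (Fin 2) F) ρ.character := ⟨n, ρ, rfl⟩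
  have hχi : Cfsg.IsIrrCharacter (Matrix.SpecialLinearGroup (Fin 2) F) ρ.character :=
    ⟨n, ρ, hirr, rfl⟩
  have hprin : m ≠ 0 → ∃ α : MulChar F ℂ,
      Cfsg.classInner (Cfsg.indFun (borelS F) (lamS α)) ρ.character ≠ 0 := by
    intro hm
    apply exists_principal_S (Cfsg.Agent.Lib.Helper3.isClassFunction_of_isCharacter hχc)
    rw [hs]
    apply mul_ne_zero
    · exact_mod_cast (Fintype.card_pos (α := F)).ne'
    · exact_mod_cast hm
  rcases hdeg with h | h
  · rw [hn, hr] at h
    have hn1 : n = 2 * r + 2 := by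
      have : ((n : ℕ) : ℂ) = ((2 * r + 2 : ℕ) : ℂ) := by rw [h]; push_cast; ring
      exact_mod_cast this
    subst hn1
    have hm : m ≠ 0 := by
      intro hm
      subst hm
      rw [zero_add] at hdg
      have hdvd : r ∣ 2 := by
        have h3 : r ∣ 2 * r + 2 := by
          rw [hdg]
          exact dvd_mul_right r (k₁ + k₂)
        exact (Nat.dvd_add_right (Dvd.intro_left 2 rfl)).mp h3
      have hr2 : r ≤ 2 := Nat.le_of_dvd (by norm_num) hdvd
      interval_cases r
      · have hk : k₁ + k₂ = 4 := by omega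
        have hk1 : k₁ ≤ 4 := by omega
        have hk2 : k₂ ≤ 4 := by omega
        interval_cases k₁ <;> interval_cases k₂ <;> first | omega | norm_num at hN
      · have hk : k₁ + k₂ = 3 := by omega
        have hk1 : k₁ ≤ 3 := by omega
        have hk2 : k₂ ≤ 3 := by omega
        interval_cases k₁ <;> interval_cases k₂ <;> first | omega | norm_num at hN
    obtain ⟨α, hne⟩ := hprin hm
    have hθ := isCharacter_sub_irr (isCharacter_indFun_lamS α) hχi hne
    have hθ1 : (Cfsg.indFun (borelS F) (lamS α) - ρ.character) 1 = 0 := by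
      rw [Pi.sub_apply, indFun_lamS_one, hn, hr]
      push_cast
      ring
    have h0 := isCharacter_eq_zero_of_one hθ hθ1
    have h3 := congrFun h0 g
    rw [Pi.sub_apply, indFun_lamS_elliptic α g hno] at h3
    simp only [Pi.zero_apply] at h3
    linear_combination -h3
  · rw [hn, hr] at h
    have hn1 : n = r + 1 := by
      have h5 : (2 * r + 1 + 1) / 2 = r + 1 := by omega
      rw [h5] at h
      exact_mod_cast h
    subst hn1
    have htr := elliptic_trace h2' g hno
    have htr1 : (g : Matrix (Fin 2) (Fin 2) F).trace ≠ 2 := by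
      intro h4
      apply htr
      rw [h4]
      norm_num
    have htr2 : (g : Matrix (Fin 2) (Fin 2) F).trace ≠ -2 := by
      intro h4
      apply htr
      rw [h4]
      norm_num
    have hk1 : k₁ ≤ 2 := by
      by_contra hk
      have hk3 : 3 ≤ k₁ := by omega
      nlinarith
    have hk2 : k₂ ≤ 2 := by
      by_contra hk
      have hk3 : 3 ≤ k₂ := by omega
      nlinarith
    have htwin : k₁ ≠ k₂ → m = 1 → ρ.character g = 0 := by
      intro hk12 hm1
      obtain ⟨α, hne⟩ := hprin (by omega)
      have hk : uC ψ ρ.character 1 ≠ uC ψ ρ.character ((Units.mk0 ε hε0 : Fˣ) : F) := by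
        rw [Units.val_mk0, hu1, hue]
        exact_mod_cast hk12
      obtain ⟨-, -, hθ⟩ := sl2_twin ψ (Units.mk0 ε hε0) hχi α hne hk
      have hθ1 : (Cfsg.indFun (borelS F) (lamS α) - ρ.character -
          fun g => ρ.character (dconj (Units.mk0 ε hε0) g)) 1 = 0 := by
        rw [Pi.sub_apply, Pi.sub_apply, indFun_lamS_one, map_one, hn, hr]
        push_cast
        ring
      have h0 := isCharacter_eq_zero_of_one hθ hθ1
      have h3 := congrFun h0 g
      rw [Pi.sub_apply, Pi.sub_apply, indFun_lamS_elliptic α g hno,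
        ← char_eq_of_isConj ρ (elliptic_isConj_dconj hodd (Units.mk0 ε hε0) g hno)] at h3
      simp only [Pi.zero_apply] at h3
      have h4 : (2 : ℂ) * ρ.character g = 0 := by linear_combination -h3
      exact (mul_eq_zero.mp h4).resolve_left two_ne_zero
    interval_cases k₁ <;> interval_cases k₂ <;>
      first
      | (exfalso; omega)
      | exact htwin (by norm_num) (by omega)
      | (exfalso
         have hm : m = r + 1 := by omega
         subst hm
         nlinarith)
      | (exfalso
         have hr' : r = 1 := by omega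
         have hm : m = 0 := by omega
         subst hr' hm
         norm_num at hN
         done)
      | (have hr' : r = 1 := by omega
         have hm : m = 0 := by omega
         subst hr' hm
         exact hEq (by norm_num) g htr1 htr2)

/-- Over a finite field F with q elements, q odd: every irreducible complex character of SL₂ of degree q − 1 or (q − 1)/2 vanishes at every diagonal matrix whose diagonal entry a has a² ≠ 1, and every irreducible complex character of degree q + 1 or (q + 1)/2 vanishes at every element with no eigenvector in F². -/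
theorem result {F : Type*} [Field F] [Fintype F] (hodd : Odd (Fintype.card F)) (χ : Matrix.SpecialLinearGroup (Fin 2) F → ℂ) (hχ : Cfsg.IsIrrCharacter (Matrix.SpecialLinearGroup (Fin 2) F) χ) (g : Matrix.SpecialLinearGroup (Fin 2) F) :
    ((χ 1 = (Fintype.card F : ℂ) - 1 ∨ χ 1 = (((Fintype.card F - 1) / 2 : ℕ) : ℂ)) →
      (g : Matrix (Fin 2) (Fin 2) F) 0 1 = 0 → (g : Matrix (Fin 2) (Fin 2) F) 1 0 = 0 → (g : Matrix (Fin 2) (Fin 2) F) 0 0 ^ 2 ≠ 1 → χ g = 0) ∧
    ((χ 1 = (Fintype.card F : ℂ) + 1 ∨ χ 1 = (((Fintype.card F + 1) / 2 : ℕ) : ℂ)) →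
      (∀ (c : F) (v : Fin 2 → F), v ≠ 0 → (g : Matrix (Fin 2) (Fin 2) F).mulVec v ≠ c • v) → χ g = 0) := by
  classical
  obtain ⟨n, ρ, hirr, rfl⟩ := hχ
  exact ⟨fun hdeg h01 h10 hsq => aux_split hodd n ρ g hdeg h01 h10 hsq,
    fun hdeg hno => aux_ell hodd n ρ g hdeg hno⟩

end Cfsg.Agent.S2322
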