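import Cfsg.Statements.S2323
import Cfsg.Agent.Lib.Helper39.SL2Unip

set_option autoImplicit false
open Cfsg

namespace Cfsg.Agent.S2323

open Cfsg.Agent.Lib.Helper39 Matrix Representation in
theorem aux {F : Type*} [Field F] [Fintype F] [DecidableEq F] (hq : 4 ≤ Fintype.card F) (n : ℕ)
    (ρ : Representation ℂ (Matrix.SpecialLinearGroup (Fin 2) F) (Fin n → ℂ)) [ρ.IsIrreducible] :
    (ρ.character 1 = (Fintype.card F : ℂ) + 1 → ρ.character (tSL 1) = 1) ∧
    (ρ.character 1 = (Fintype.card F : ℂ) - 1 → ρ.character (tSL 1) = -1) := by
  have hn : ρ.character 1 = (n : ℂ) := by rw [char_one]; simp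
  have hfr : Module.finrank ℂ (Fin n → ℂ) = n := by simp
  by_cases h2 : ringChar F = 2
  · obtain ⟨r, hr⟩ : ∃ r : ℕ, Fintype.card F = r + 1 := ⟨Fintype.card F - 1, by omega⟩
    have hr3 : 3 ≤ r := by omega
    obtain ⟨m, k, hdeg, hval, -, -, hN⟩ := sl2_unip_even h2 r hr ρ
    rw [hfr] at hdeg hN
    rw [hval 1 one_ne_zero]
    constructor
    · intro h
      rw [hn, hr] at h
      have hn1 : n = r + 2 := by
        have : ((n : ℕ) : ℂ) = ((r + 2 : ℕ) : ℂ) := by rw [h]; push_cast; ring
        exact_mod_cast this
      have hk2 : k ≤ 1 := by
        by_contra hk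
        have hk3 : 2 ≤ k := by omega
        nlinarith
      interval_cases k
      · exfalso
        have hm : m = r + 2 := by omega
        subst hm hn1
        nlinarith
      · have hm : m = 2 := by omega
        rw [hm]
        norm_num
    · intro h
      rw [hn, hr] at h
      have hn1 : n = r := by
        have : ((n : ℕ) : ℂ) = ((r : ℕ) : ℂ) := by rw [h]; push_cast; ring
        exact_mod_cast this
      have hk2 : k ≤ 1 := by
        by_contra hk
        have hk3 : 2 ≤ k := by omega
        nlinarith
      interval_cases k
      · exfalso
        have hm : m = r := by omega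
        subst hm hn1
        nlinarith
      · have hm : m = 0 := by omega
        rw [hm]
        norm_num
  · have hodd := FiniteField.odd_card_of_char_ne_two h2
    obtain ⟨r, hr⟩ : ∃ r : ℕ, Fintype.card F = 2 * r + 1 := ⟨Fintype.card F / 2, by omega⟩
    have hr2 : 2 ≤ r := by omega
    obtain ⟨m, k₁, k₂, hdeg, hval, -, -, hN, -⟩ := sl2_unip_odd h2 r hr ρ
    rw [hfr] at hdeg hN
    constructor
    · intro h
      rw [hn, hr] at h
      have hn1 : n = 2 * r + 2 := by
        have : ((n : ℕ) : ℂ) = ((2 * r + 2 : ℕ) : ℂ) := by rw [h]; push_cast; ring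
        exact_mod_cast this
      subst hn1
      have hk1 : k₁ ≤ 3 := by
        by_contra hk
        have hk3 : 4 ≤ k₁ := by omega
        nlinarith
      have hk2 : k₂ ≤ 3 := by
        by_contra hk
        have hk3 : 4 ≤ k₂ := by omega
        nlinarith
      have h11 : k₁ = 1 ∧ k₂ = 1 := by
        interval_cases k₁ <;> interval_cases k₂ <;>
          first
          | exact ⟨rfl, rfl⟩
          | (exfalso; nlinarith)
          | (exfalso
             have hm : m + 3 * r = 2 * r + 2 := by omega
             have hr' : r = 2 := by omega
             have hm' : m = 0 := by omega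
             subst hr' hm'
             omega)
          | (exfalso
             have hm : m = r + 2 := by omega
             subst hm
             nlinarith)
          | (exfalso
             have hm : m = 2 := by omega
             subst hm
             nlinarith)
          | (exfalso
             have hm : m = 2 * r + 2 := by omega
             subst hm
             nlinarith)
      obtain ⟨e1, e2⟩ := h11
      subst e1 e2
      rw [hval rfl 1 one_ne_zero]
      have hm : m = 2 := by omega
      rw [hm]
      norm_num
    · intro h
      rw [hn, hr] at h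
      have hn1 : n = 2 * r := by
        have : ((n : ℕ) : ℂ) = ((2 * r : ℕ) : ℂ) := by rw [h]; push_cast; ring
        exact_mod_cast this
      subst hn1
      have hk1 : k₁ ≤ 2 := by
        by_contra hk
        have hk3 : 3 ≤ k₁ := by omega
        nlinarith
      have hk2 : k₂ ≤ 2 := by
        by_contra hk
        have hk3 : 3 ≤ k₂ := by omega
        nlinarith
      have h11 : k₁ = 1 ∧ k₂ = 1 := by
        interval_cases k₁ <;> interval_cases k₂ <;>
          first
          | exact ⟨rfl, rfl⟩
          | (exfalso; nlinarith)
          | (exfalso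
             have hm : m = r := by omega
             subst hm
             nlinarith)
          | (exfalso
             have hm : m = 0 := by omega
             subst hm
             nlinarith)
          | (exfalso
             have hm : m = 2 * r := by omega
             subst hm
             nlinarith)
      obtain ⟨e1, e2⟩ := h11
      subst e1 e2
      rw [hval rfl 1 one_ne_zero]
      have hm : m = 0 := by omega
      rw [hm]
      norm_num

/-- Over a finite field F with q ≥ 4 elements, let u be the upper unitriangular matrix of SL₂ with off-diagonal entry 1. An irreducible complex character of SL₂ takes at u the value 1 if its degree is q + 1 and the value −1 if its degree is q − 1. -/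
theorem result {F : Type*} [Field F] [Fintype F] (hq : 4 ≤ Fintype.card F) (χ : Matrix.SpecialLinearGroup (Fin 2) F → ℂ) (hχ : Cfsg.IsIrrCharacter (Matrix.SpecialLinearGroup (Fin 2) F) χ)
    (u : Matrix.SpecialLinearGroup (Fin 2) F) (hu : (u : Matrix (Fin 2) (Fin 2) F) = !![1, 1; 0, 1]) :
    (χ 1 = (Fintype.card F : ℂ) + 1 → χ u = 1) ∧ (χ 1 = (Fintype.card F : ℂ) - 1 → χ u = -1) := by
  classical
  obtain ⟨n, ρ, hirr, rfl⟩ := hχ
  have hu' : u = Cfsg.Agent.Lib.Helper39.tSL 1 := Subtype.ext hu
  subst hu'
  exact aux hq n ρ

end Cfsg.Agent.S2323
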