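import Cfsg.Statements.S2324
import Cfsg.Agent.Lib.Helper39.SL2CuspUniq

set_option autoImplicit false
open Cfsg

namespace Cfsg.Agent.S2324

/-- Over a finite field F with q elements, q odd and q ≥ 5, let u be the upper unitriangular matrix of SL₂ with off-diagonal entry 1 and let δ = (−1)^((q−1)/2). Every irreducible complex character χ of SL₂ of degree (q + 1)/2 satisfies (2χ(u) − 1)² = δq, and every irreducible complex character χ of degree (q − 1)/2 satisfies (2χ(u) + 1)² = δq; that is, χ(u) = (1 ± √(δq))/2 in the first case and χ(u) = (−1 ± √(δq))/2 in the second. Moreover two different irreducible characters of degree (q + 1)/2 take the two different values (their values at u add up to 1), and likewise for degree (q − 1)/2 (values adding up to −1). -/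
theorem result {F : Type*} [Field F] [Fintype F] (hodd : Odd (Fintype.card F)) (hq : 5 ≤ Fintype.card F)
    (u : Matrix.SpecialLinearGroup (Fin 2) F) (hu : (u : Matrix (Fin 2) (Fin 2) F) = !![1, 1; 0, 1]) :
    (∀ χ : Matrix.SpecialLinearGroup (Fin 2) F → ℂ, Cfsg.IsIrrCharacter (Matrix.SpecialLinearGroup (Fin 2) F) χ → χ 1 = (((Fintype.card F + 1) / 2 : ℕ) : ℂ) → (2 * χ u - 1) ^ 2 = (-1 : ℂ) ^ ((Fintype.card F - 1) / 2) * (Fintype.card F : ℂ)) ∧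
    (∀ χ : Matrix.SpecialLinearGroup (Fin 2) F → ℂ, Cfsg.IsIrrCharacter (Matrix.SpecialLinearGroup (Fin 2) F) χ → χ 1 = (((Fintype.card F - 1) / 2 : ℕ) : ℂ) → (2 * χ u + 1) ^ 2 = (-1 : ℂ) ^ ((Fintype.card F - 1) / 2) * (Fintype.card F : ℂ)) ∧
    (∀ χ₁ χ₂ : Matrix.SpecialLinearGroup (Fin 2) F → ℂ, Cfsg.IsIrrCharacter (Matrix.SpecialLinearGroup (Fin 2) F) χ₁ → Cfsg.IsIrrCharacter (Matrix.SpecialLinearGroup (Fin 2) F) χ₂ → χ₁ ≠ χ₂ →
      χ₁ 1 = (((Fintype.card F + 1) / 2 : ℕ) : ℂ) → χ₂ 1 = (((Fintype.card F + 1) / 2 : ℕ) : ℂ) → χ₁ u + χ₂ u = 1) ∧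
    (∀ χ₁ χ₂ : Matrix.SpecialLinearGroup (Fin 2) F → ℂ, Cfsg.IsIrrCharacter (Matrix.SpecialLinearGroup (Fin 2) F) χ₁ → Cfsg.IsIrrCharacter (Matrix.SpecialLinearGroup (Fin 2) F) χ₂ → χ₁ ≠ χ₂ →
      χ₁ 1 = (((Fintype.card F - 1) / 2 : ℕ) : ℂ) → χ₂ 1 = (((Fintype.card F - 1) / 2 : ℕ) : ℂ) → χ₁ u + χ₂ u = -1) := by
  classical
  have h2 : ringChar F ≠ 2 := by
    intro hc
    have := FiniteField.even_card_of_char_two hc
    have := Nat.odd_iff.mp hodd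
    omega
  obtain ⟨r, hr⟩ : ∃ r : ℕ, Fintype.card F = 2 * r + 1 := ⟨Fintype.card F / 2, by
    have := Nat.odd_iff.mp hodd
    omega⟩
  have hr2 : 2 ≤ r := by omega
  have h5 : (Fintype.card F + 1) / 2 = r + 1 := by omega
  have h6 : (Fintype.card F - 1) / 2 = r := by omega
  have hu' : u = Cfsg.Agent.Lib.Helper39.tSL 1 := by
    apply Subtype.ext
    rw [hu, Cfsg.Agent.Lib.Helper39.tSL_coe]
  subst hu'
  obtain ⟨ψ, hψ⟩ := Cfsg.Agent.Lib.Helper39.exists_addChar_ne_one (F := F)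
  obtain ⟨ε, hε⟩ := Cfsg.Agent.Lib.Helper39.exists_nonsquare_aux h2
  have hε0 : ε ≠ 0 := by
    rintro rfl
    exact hε ⟨0, by simp⟩
  have hG := Cfsg.Agent.Lib.Helper39.gsum_sq h2 ψ hψ
  have hdim : ∀ (n : ℕ) (ρ : Representation ℂ (Matrix.SpecialLinearGroup (Fin 2) F) (Fin n → ℂ))
      (k : ℕ), ρ.character 1 = (k : ℂ) → n = k := by
    intro n ρ k h
    rw [Representation.char_one] at h
    have h' : (n : ℂ) = (k : ℂ) := by
      rw [← h]
      simp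
    exact_mod_cast h'
  rw [h6] at hG
  rw [h5, h6]
  have key : ∀ (n : ℕ) (ρ : Representation ℂ (Matrix.SpecialLinearGroup (Fin 2) F) (Fin n → ℂ))
      [ρ.IsIrreducible], ∃ m k₁ k₂ : ℕ,
      (Cfsg.Agent.Lib.Helper39.uC ψ ρ.character 0 = (m : ℂ) ∧
        Cfsg.Agent.Lib.Helper39.uC ψ ρ.character 1 = (k₁ : ℂ) ∧
        Cfsg.Agent.Lib.Helper39.uC ψ ρ.character ε = (k₂ : ℂ)) ∧
      2 * ρ.character (Cfsg.Agent.Lib.Helper39.tSL 1) =
        2 * (m : ℂ) - ((k₁ : ℂ) + k₂) + ((k₁ : ℂ) - k₂) * Cfsg.Agent.Lib.Helper39.gsum ψ ∧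
      (n = r + 1 → m = 1 ∧ k₁ + k₂ = 1) ∧ (n = r → m = 0 ∧ k₁ + k₂ = 1) := by
    intro n ρ _
    obtain ⟨m, k₁, k₂, hu0, hu1, hue, -, -, -, -, -, t4, t5⟩ :=
      Cfsg.Agent.Lib.Helper39.sl2_type_odd h2 r hr hr2 ψ hψ ε hε n ρ
    refine ⟨m, k₁, k₂, ⟨hu0, hu1, hue⟩, ?_, t4, t5⟩
    have h := Cfsg.Agent.Lib.Helper39.unip_value_gauss h2 ψ hψ (f := ρ.character)
      (fun a b hab => Cfsg.Agent.Lib.Helper39.char_eq_of_isConj ρ hab) ε hε
    rw [hu0, hu1, hue] at h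
    exact h
  refine ⟨?_, ?_, ?_, ?_⟩
  · intro χ hχ h1
    obtain ⟨n, ρ, hirr, rfl⟩ := hχ
    have hn : n = r + 1 := hdim n ρ _ h1
    obtain ⟨m, k₁, k₂, -, hval, t4, -⟩ := key n ρ
    obtain ⟨hm, hk⟩ := t4 hn
    have hk' : (k₁ = 0 ∧ k₂ = 1) ∨ (k₁ = 1 ∧ k₂ = 0) := by omega
    rw [← hG]
    rcases hk' with ⟨ha, hb⟩ | ⟨ha, hb⟩
    · rw [hm, ha, hb] at hval
      push_cast at hval
      have h3 : 2 * ρ.character (Cfsg.Agent.Lib.Helper39.tSL 1) - 1 =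
          - Cfsg.Agent.Lib.Helper39.gsum ψ := by linear_combination hval
      rw [h3]
      ring
    · rw [hm, ha, hb] at hval
      push_cast at hval
      have h3 : 2 * ρ.character (Cfsg.Agent.Lib.Helper39.tSL 1) - 1 =
          Cfsg.Agent.Lib.Helper39.gsum ψ := by linear_combination hval
      rw [h3]
  · intro χ hχ h1
    obtain ⟨n, ρ, hirr, rfl⟩ := hχ
    have hn : n = r := hdim n ρ _ h1
    obtain ⟨m, k₁, k₂, -, hval, -, t5⟩ := key n ρ
    obtain ⟨hm, hk⟩ := t5 hn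
    have hk' : (k₁ = 0 ∧ k₂ = 1) ∨ (k₁ = 1 ∧ k₂ = 0) := by omega
    rw [← hG]
    rcases hk' with ⟨ha, hb⟩ | ⟨ha, hb⟩
    · rw [hm, ha, hb] at hval
      push_cast at hval
      have h3 : 2 * ρ.character (Cfsg.Agent.Lib.Helper39.tSL 1) + 1 =
          - Cfsg.Agent.Lib.Helper39.gsum ψ := by linear_combination hval
      rw [h3]
      ring
    · rw [hm, ha, hb] at hval
      push_cast at hval
      have h3 : 2 * ρ.character (Cfsg.Agent.Lib.Helper39.tSL 1) + 1 =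
          Cfsg.Agent.Lib.Helper39.gsum ψ := by linear_combination hval
      rw [h3]
  · intro χ₁ χ₂ hχ₁ hχ₂ hne h1 h1'
    obtain ⟨n₁, ρ₁, hirr₁, rfl⟩ := hχ₁
    obtain ⟨n₂, ρ₂, hirr₂, rfl⟩ := hχ₂
    have hn₁ : n₁ = r + 1 := hdim n₁ ρ₁ _ h1
    have hn₂ : n₂ = r + 1 := hdim n₂ ρ₂ _ h1'
    subst n₁
    subst n₂
    have hconj := Cfsg.Agent.Lib.Helper39.sl2_half_conj h2 r hr hr2 (Units.mk0 ε hε0) hε ρ₁ ρ₂ hne
    obtain ⟨α, -, -, hsum⟩ :=
      Cfsg.Agent.Lib.Helper39.sl2_half_twin h2 r hr hr2 (Units.mk0 ε hε0) hε ρ₁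
    have hv := congrFun hsum (Cfsg.Agent.Lib.Helper39.tSL 1)
    rw [Cfsg.Agent.Lib.Helper39.indFun_lamS_tSL, if_neg one_ne_zero, add_zero, Pi.add_apply] at hv
    rw [hconj]
    exact hv.symm
  · intro χ₁ χ₂ hχ₁ hχ₂ hne h1 h1'
    obtain ⟨n₁, ρ₁, hirr₁, rfl⟩ := hχ₁
    obtain ⟨n₂, ρ₂, hirr₂, rfl⟩ := hχ₂
    have hn₁ : n₁ = r := hdim n₁ ρ₁ _ h1
    have hn₂ : n₂ = r := hdim n₂ ρ₂ _ h1'
    subst n₁
    subst n₂
    obtain ⟨m, k₁, k₂, ⟨hu0, hu1, hue⟩, hval, -, t5⟩ := key r ρ₁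
    obtain ⟨m', k₁', k₂', ⟨hu0', hu1', hue'⟩, hval', -, t5'⟩ := key r ρ₂
    obtain ⟨hm, hk⟩ := t5 rfl
    obtain ⟨hm', hk'⟩ := t5' rfl
    by_cases hsame : k₁ = k₁'
    · exfalso
      have hk2 : k₂ = k₂' := by omega
      apply hne
      apply Cfsg.Agent.Lib.Helper39.sl2_cusp_half_unique h2 r hr hr2 ρ₁ ρ₂
      intro x
      have hf₁ : ∀ a b : Matrix.SpecialLinearGroup (Fin 2) F, IsConj a b →
          ρ₁.character a = ρ₁.character b :=
        fun a b hab => Cfsg.Agent.Lib.Helper39.char_eq_of_isConj ρ₁ hab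
      have hf₂ : ∀ a b : Matrix.SpecialLinearGroup (Fin 2) F, IsConj a b →
          ρ₂.character a = ρ₂.character b :=
        fun a b hab => Cfsg.Agent.Lib.Helper39.char_eq_of_isConj ρ₂ hab
      have huC : ∀ c : F, Cfsg.Agent.Lib.Helper39.uC ψ ρ₁.character c =
          Cfsg.Agent.Lib.Helper39.uC ψ ρ₂.character c := by
        intro c
        by_cases hc : c = 0
        · rw [hc, hu0, hu0', hm, hm']
        · by_cases hsq : IsSquare c
          · rw [Cfsg.Agent.Lib.Helper39.sqclass_odd_sq (Cfsg.Agent.Lib.Helper39.uC ψ ρ₁.character)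
              (fun c a ha => Cfsg.Agent.Lib.Helper39.uC_sq ψ hf₁ c a ha) c hc hsq,
              Cfsg.Agent.Lib.Helper39.sqclass_odd_sq (Cfsg.Agent.Lib.Helper39.uC ψ ρ₂.character)
              (fun c a ha => Cfsg.Agent.Lib.Helper39.uC_sq ψ hf₂ c a ha) c hc hsq, hu1, hu1',
              hsame]
          · rw [Cfsg.Agent.Lib.Helper39.sqclass_odd_nsq ε hε
              (Cfsg.Agent.Lib.Helper39.uC ψ ρ₁.character)
              (fun c a ha => Cfsg.Agent.Lib.Helper39.uC_sq ψ hf₁ c a ha) c hsq,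
              Cfsg.Agent.Lib.Helper39.sqclass_odd_nsq ε hε
              (Cfsg.Agent.Lib.Helper39.uC ψ ρ₂.character)
              (fun c a ha => Cfsg.Agent.Lib.Helper39.uC_sq ψ hf₂ c a ha) c hsq, hue, hue', hk2]
      have e₁ := Cfsg.Agent.Lib.Helper39.fourier_inv ψ hψ
        (fun x => ρ₁.character (Cfsg.Agent.Lib.Helper39.tSL x)) x
      have e₂ := Cfsg.Agent.Lib.Helper39.fourier_inv ψ hψ
        (fun x => ρ₂.character (Cfsg.Agent.Lib.Helper39.tSL x)) x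
      rw [e₁, e₂]
      refine Finset.sum_congr rfl (fun c _ => ?_)
      congr 1
      exact huC c
    · have hcase : (k₁ = 0 ∧ k₂ = 1 ∧ k₁' = 1 ∧ k₂' = 0) ∨
          (k₁ = 1 ∧ k₂ = 0 ∧ k₁' = 0 ∧ k₂' = 1) := by omega
      rcases hcase with ⟨a, b, c, d⟩ | ⟨a, b, c, d⟩
      · rw [hm, a, b] at hval
        rw [hm', c, d] at hval'
        push_cast at hval hval'
        linear_combination (hval + hval') / 2
      · rw [hm, a, b] at hval
        rw [hm', c, d] at hval'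
        push_cast at hval hval'
        linear_combination (hval + hval') / 2

end Cfsg.Agent.S2324
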