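import Cfsg.Statements.S2329
import Cfsg.Agent.Lib.Helper39.GL2

set_option autoImplicit false
open Cfsg

namespace Cfsg.Agent.S2329

open Matrix Cfsg.Agent.Lib.Helper39

theorem aux {F : Type*} [Field F] [Fintype F] (p : ℕ) [Fact p.Prime] [CharP F p]
    (g : Matrix.GeneralLinearGroup (Fin 2) F) (hg : orderOf g = p) :
    NonScal (g : Matrix (Fin 2) (Fin 2) F) ∧ (g : Matrix (Fin 2) (Fin 2) F).trace = 2 ∧
      (g : Matrix (Fin 2) (Fin 2) F).det = 1 := by
  have hp : p.Prime := Fact.out
  have hgp : (g : Matrix (Fin 2) (Fin 2) F) ^ p = 1 := by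
    have := pow_orderOf_eq_one g
    rw [hg] at this
    rw [← Units.val_pow_eq_pow_val, this]
    rfl
  set A : Matrix (Fin 2) (Fin 2) F := (g : Matrix (Fin 2) (Fin 2) F) with hA
  set N : Matrix (Fin 2) (Fin 2) F := A - 1 with hN
  have hNp : N ^ p = 0 := by
    rw [hN, sub_pow_char_of_commute p (Commute.one_right A), hgp, one_pow, sub_self]
  have hnil : IsNilpotent N := ⟨p, hNp⟩
  have htr : N.trace = 0 := (Matrix.isNilpotent_trace_of_isNilpotent hnil).eq_zero
  have hdet : N.det = 0 := by
    have : N.det ^ p = 0 := by rw [← Matrix.det_pow, hNp, Matrix.det_zero]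
    exact pow_eq_zero_iff hp.ne_zero |>.mp this
  have htr' : A.trace = 2 := by
    have : N.trace = A.trace - 2 := by
      rw [hN, Matrix.trace_sub, Matrix.trace_one]; simp
    rw [this] at htr
    exact sub_eq_zero.mp htr
  have hdet' : A.det = 1 := by
    rw [Matrix.det_fin_two] at hdet ⊢
    rw [Matrix.trace_fin_two] at htr'
    simp only [hN, Matrix.sub_apply, Matrix.one_apply_eq, Matrix.one_apply_ne, ne_eq, Fin.isValue,
      not_false_eq_true, sub_zero, zero_ne_one, one_ne_zero] at hdet
    linear_combination hdet + htr'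
  refine ⟨?_, htr', hdet'⟩
  by_contra hns
  have h1 := eq_smul_one_of_not_nonScal hns
  unfold NonScal at hns
  push Not at hns
  obtain ⟨e1, e2, e3⟩ := hns
  have ha2 : A 0 0 * A 0 0 = 1 := by
    rw [Matrix.det_fin_two, e1, e2, ← e3] at hdet'
    simpa using hdet'
  have hatr : A 0 0 + A 0 0 = 2 := by
    rw [Matrix.trace_fin_two, ← e3] at htr'
    exact htr'
  have ha : A 0 0 = 1 := by
    have : (A 0 0 - 1) ^ 2 = 0 := by linear_combination ha2 - hatr
    have := pow_eq_zero_iff (two_ne_zero) |>.mp this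
    exact sub_eq_zero.mp this
  have hg1 : g = 1 := by
    apply Units.ext
    change A = 1
    rw [h1, ha, one_smul]
  rw [hg1, orderOf_one] at hg
  exact hp.one_lt.ne hg

/-- Over a finite field of characteristic p, any two elements of order p of GL₂ are conjugate: there is a single conjugacy class of non-identity unipotent elements. -/
theorem result {F : Type*} [Field F] [Fintype F] (p : ℕ) [Fact p.Prime] [CharP F p] (g h : Matrix.GeneralLinearGroup (Fin 2) F)
    (hg : orderOf g = p) (hh : orderOf h = p) : IsConj g h := by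
  obtain ⟨h1, h2, h3⟩ := aux p g hg
  obtain ⟨h1', h2', h3'⟩ := aux p h hh
  exact gl2_isConj_of_nonScal g h h1 h1' (h2.trans h2'.symm) (h3.trans h3'.symm)

end Cfsg.Agent.S2329
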