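import Cfsg.Statements.S2363
import Cfsg.Agent.Lib.Helper18.LieOrdFam
import Cfsg.Agent.Lib.Helper18.LieOrdCl
import Cfsg.Agent.S0243
import Cfsg.Agent.S0245
import Cfsg.Agent.S0246
import Cfsg.Agent.S0280
import Cfsg.Agent.S0292
import Cfsg.Agent.S0293
import Cfsg.Agent.S0294
import Cfsg.Agent.S1059
import Cfsg.Agent.S1062
import Cfsg.Agent.S1063
import Cfsg.Agent.S1064
import Cfsg.Agent.S1065
import Cfsg.Agent.S1066
import Cfsg.Agent.S1067
import Cfsg.Agent.S1068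
import Cfsg.Agent.S1069
import Cfsg.Agent.S1163

set_option autoImplicit false
open Cfsg

namespace Cfsg.Agent.S2363

/-- Let G be a finite simple group of Lie type in characteristic p and let p^k be the exact power of p dividing the order of G. Then the order of G is less than p^(3k); and unless G is isomorphic to PSL(2, F) for the field F with p^k elements, the cube of the order of G is less than p^(8k) (that is, the order is below p^(8k/3)). -/
theorem result {G : Type*} [Group G] [Finite G] (p : ℕ) (hp : p.Prime) (hG : Cfsg.IsLieTypeChar p G) :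
    Nat.card G < p ^ (3 * (Nat.card G).factorization p) ∧
      ((¬ ∃ (F : Type) (_ : Field F) (_ : Fintype F), Fintype.card F = p ^ (Nat.card G).factorization p ∧
          Nonempty (G ≃* Matrix.ProjectiveSpecialLinearGroup (Fin 2) F)) →
        Nat.card G ^ 3 < p ^ (8 * (Nat.card G).factorization p)) := by
  have h0 : Nat.card G ≠ 0 := Nat.card_pos.ne'
  -- a power `q` of `p` whose square or cube is the order of a field of characteristic `p`
  have hroot : ∀ {q j f : ℕ}, j ≠ 0 → f ≠ 0 → q ^ j = p ^ f → ∃ e, e ≠ 0 ∧ q = p ^ e := by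
    intro q j f hj hf hqf
    have hdvd : q ∣ p ^ f := hqf ▸ dvd_pow_self q hj
    obtain ⟨e, -, he⟩ := (Nat.dvd_prime_pow hp).1 hdvd
    refine ⟨e, ?_, he⟩
    rintro rfl
    rw [he, pow_zero, one_pow] at hqf
    have : 1 < p ^ f := Nat.one_lt_pow hf hp.one_lt
    omega
  rcases hG with h | h | h | h | h | h | h | h | h | h | h
  · -- PSL
    obtain ⟨F, _, _, _, n, hn, -, ⟨φ⟩⟩ := h
    obtain ⟨k, -, hk⟩ := FiniteField.card F p
    have hc : Nat.card G = Nat.card (Matrix.ProjectiveSpecialLinearGroup (Fin n) F) :=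
      Nat.card_congr φ.toEquiv
    have key := Cfsg.Agent.Lib.Helper18.LieOrd.fam_psl hp rfl k.ne_zero (hc ▸ h0) hn
      (Cfsg.Agent.S0243.result hk n hn)
    rw [hc]
    refine ⟨key.1, fun hne => ?_⟩
    by_cases h3 : 3 ≤ n
    · exact key.2.2 h3
    · have hn2 : n = 2 := by omega
      subst hn2
      exfalso
      apply hne
      refine ⟨F, inferInstance, inferInstance, ?_, ⟨φ⟩⟩
      rw [hk]
      exact key.2.1 rfl
  · -- PSp
    obtain ⟨F, _, _, _, m, hm, -, ⟨φ⟩⟩ := h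
    obtain ⟨k, -, hk⟩ := FiniteField.card F p
    have hc : Nat.card G = Nat.card (PSp m F) := Nat.card_congr φ.toEquiv
    have hlag : Nat.card (Subgroup.center (Matrix.symplecticGroup (Fin m) F)) * Nat.card (PSp m F) =
        Nat.card (Matrix.symplecticGroup (Fin m) F) := by
      rw [mul_comm]
      exact (Subgroup.card_eq_card_quotient_mul_card_subgroup _).symm
    have key := Cfsg.Agent.Lib.Helper18.LieOrd.fam_psp hp rfl k.ne_zero (hc ▸ h0) hm
      (Cfsg.Agent.S0245.result hk m) (Cfsg.Agent.S0246.result hk m (by omega)) hlag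
    rw [hc]
    exact ⟨key.1, fun _ => key.2⟩
  · -- PSU
    obtain ⟨F, _, _, _, n, q, hq, hn, -, ⟨φ⟩⟩ := h
    obtain ⟨k, -, hk⟩ := FiniteField.card F p
    obtain ⟨e, he, rfl⟩ := hroot (j := 2) (by norm_num) k.ne_zero (hq.symm.trans hk)
    have hc : Nat.card G = Nat.card (PSU n F (p ^ e)) := Nat.card_congr φ.toEquiv
    have key := Cfsg.Agent.Lib.Helper18.LieOrd.fam_psu hp rfl he (hc ▸ h0) hn
      (Cfsg.Agent.S0280.result hq n (by omega))
    rw [hc]
    exact ⟨key.1, fun _ => key.2⟩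
  · -- PΩ odd
    obtain ⟨F, _, _, _, m, hm, hodd, ⟨φ⟩⟩ := h
    obtain ⟨k, -, hk⟩ := FiniteField.card F p
    have hc : Nat.card G = Nat.card (POmega F (quadFormOdd m F)) := Nat.card_congr φ.toEquiv
    have key := Cfsg.Agent.Lib.Helper18.LieOrd.fam_odd hp rfl k.ne_zero (hc ▸ h0) (by omega)
      (hk ▸ hodd) (Cfsg.Agent.S0292.result hk (hk ▸ hodd) m hm)
    rw [hc]
    exact ⟨key.1, fun _ => key.2⟩
  · -- PΩ⁺
    obtain ⟨F, _, _, _, m, hm, ⟨φ⟩⟩ := h
    obtain ⟨k, -, hk⟩ := FiniteField.card F p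
    have hc : Nat.card G = Nat.card (POmega F (quadFormPlus m F)) := Nat.card_congr φ.toEquiv
    have key := Cfsg.Agent.Lib.Helper18.LieOrd.fam_plus hp rfl k.ne_zero (hc ▸ h0) hm
      (Cfsg.Agent.S0293.result hk m hm)
    rw [hc]
    exact ⟨key.1, fun _ => key.2⟩
  · -- PΩ⁻
    obtain ⟨F, _, _, _, m, a, b, hm, hab, ⟨φ⟩⟩ := h
    obtain ⟨k, -, hk⟩ := FiniteField.card F p
    have hc : Nat.card G = Nat.card (POmega F (quadFormMinus (m - 1) F a b)) :=
      Nat.card_congr φ.toEquiv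
    have key := Cfsg.Agent.Lib.Helper18.LieOrd.fam_minus hp rfl k.ne_zero (hc ▸ h0) hm
      (Cfsg.Agent.S0294.result hk m hm a b hab)
    rw [hc]
    exact ⟨key.1, fun _ => key.2⟩
  · -- exceptional Chevalley groups
    obtain ⟨F, _, _, _, h⟩ := h
    obtain ⟨k, -, hk⟩ := FiniteField.card F p
    rcases h with ⟨-, ⟨φ⟩⟩ | ⟨⟨φ⟩⟩ | ⟨⟨φ⟩⟩ | ⟨⟨φ⟩⟩ | ⟨⟨φ⟩⟩
    · have hc : Nat.card G = Nat.card ↥(Lie.chevG2.group F) := Nat.card_congr φ.toEquiv
      have key := Cfsg.Agent.Lib.Helper18.LieOrd.fam_g2 hp rfl k.ne_zero (hc ▸ h0)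
        (Cfsg.Agent.S1059.result hk)
      rw [hc]
      exact ⟨key.1, fun _ => key.2⟩
    · have hc : Nat.card G = Nat.card ↥(Lie.chevF4.group F) := Nat.card_congr φ.toEquiv
      have key := Cfsg.Agent.Lib.Helper18.LieOrd.fam_f4 hp rfl k.ne_zero (hc ▸ h0)
        (Cfsg.Agent.S1062.result hk)
      rw [hc]
      exact ⟨key.1, fun _ => key.2⟩
    · have hc : Nat.card G = Nat.card ↥(Lie.chevE6.group F) := Nat.card_congr φ.toEquiv
      have key := Cfsg.Agent.Lib.Helper18.LieOrd.fam_e6 hp rfl k.ne_zero (hc ▸ h0)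
        (Cfsg.Agent.S1063.result hk)
      rw [hc]
      exact ⟨key.1, fun _ => key.2⟩
    · have hc : Nat.card G = Nat.card ↥(Lie.chevE7.group F) := Nat.card_congr φ.toEquiv
      have key := Cfsg.Agent.Lib.Helper18.LieOrd.fam_e7 hp rfl k.ne_zero (hc ▸ h0)
        (Cfsg.Agent.S1064.result hk)
      rw [hc]
      exact ⟨key.1, fun _ => key.2⟩
    · have hc : Nat.card G = Nat.card ↥(Lie.chevE8.group F) := Nat.card_congr φ.toEquiv
      have key := Cfsg.Agent.Lib.Helper18.LieOrd.fam_e8 hp rfl k.ne_zero (hc ▸ h0)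
        (Cfsg.Agent.S1065.result hk)
      rw [hc]
      exact ⟨key.1, fun _ => key.2⟩
  · -- ²E₆, ³D₄
    obtain ⟨K, _, _, _, q, hqpp, h⟩ := h
    obtain ⟨k, -, hk⟩ := FiniteField.card K p
    rcases h with ⟨hq, ⟨φ⟩⟩ | ⟨hq, ⟨φ⟩⟩
    · obtain ⟨e, he, rfl⟩ := hroot (j := 2) (by norm_num) k.ne_zero (hq.symm.trans hk)
      have hc : Nat.card G = Nat.card ↥(Lie.twistedE6 K (p ^ e)) := Nat.card_congr φ.toEquiv
      have key := Cfsg.Agent.Lib.Helper18.LieOrd.fam_2e6 hp rfl he (hc ▸ h0)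
        (Cfsg.Agent.S1066.result hqpp hq)
      rw [hc]
      exact ⟨key.1, fun _ => key.2⟩
    · obtain ⟨e, he, rfl⟩ := hroot (j := 3) (by norm_num) k.ne_zero (hq.symm.trans hk)
      have hc : Nat.card G = Nat.card ↥(Lie.twistedD4 K (p ^ e)) := Nat.card_congr φ.toEquiv
      have key := Cfsg.Agent.Lib.Helper18.LieOrd.fam_3d4 hp rfl he (hc ▸ h0)
        (Cfsg.Agent.S1067.result hqpp hq)
      rw [hc]
      exact ⟨key.1, fun _ => key.2⟩
  · -- Suzuki
    obtain ⟨rfl, F, _, _, m, hm, hF, ⟨φ⟩⟩ := h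
    have hc : Nat.card G = Nat.card ↥(Lie.Sz F (2 ^ (m + 1))) := Nat.card_congr φ.toEquiv
    have key := Cfsg.Agent.Lib.Helper18.LieOrd.fam_sz (e := 2 * m + 1) hp rfl (by omega) (hc ▸ h0)
      (Cfsg.Agent.S1163.result hm hF).1
    rw [hc]
    exact ⟨key.1, fun _ => key.2⟩
  · -- ²F₄
    obtain ⟨rfl, K, _, _, m, hm, hK, ⟨φ⟩⟩ := h
    have hc : Nat.card G = Nat.card ↥(Lie.twistedF4 K (2 ^ m)) := Nat.card_congr φ.toEquiv
    have key := Cfsg.Agent.Lib.Helper18.LieOrd.fam_2f4 (e := 2 * m + 1) hp rfl (by omega) (hc ▸ h0)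
      (Cfsg.Agent.S1068.result hK)
    rw [hc]
    exact ⟨key.1, fun _ => key.2⟩
  · -- ²G₂
    obtain ⟨rfl, K, _, _, m, hm, hK, ⟨φ⟩⟩ := h
    have hc : Nat.card G = Nat.card ↥(Lie.twistedG2 K (3 ^ m)) := Nat.card_congr φ.toEquiv
    have key := Cfsg.Agent.Lib.Helper18.LieOrd.fam_2g2 (e := 2 * m + 1) hp rfl (by omega) (hc ▸ h0)
      (Cfsg.Agent.S1069.result hK)
    rw [hc]
    exact ⟨key.1, fun _ => key.2⟩

end Cfsg.Agent.S2363
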