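import Cfsg.Statements.S2367
import Mathlib

set_option autoImplicit false
open Cfsg

namespace Cfsg.Agent.S2367

/-- Product of the prime powers in a list of pairs (prime, exponent). -/
def specN (l : List (ℕ × ℕ)) : ℕ := (l.map fun x => x.1 ^ x.2).prod

/-- Total exponent recorded for `p` in the list. -/
def expo (l : List (ℕ × ℕ)) (p : ℕ) : ℕ := ((l.filter fun x => x.1 = p).map Prod.snd).sum

theorem specN_ne_zero (l : List (ℕ × ℕ)) (hl : ∀ x ∈ l, x.1.Prime) : specN l ≠ 0 := by
  induction l with
  | nil => simp [specN]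
  | cons x l ih =>
    have hx : x.1.Prime := hl x (by simp)
    have := ih (fun y hy => hl y (by simp [hy]))
    simp only [specN, List.map_cons, List.prod_cons] at this ⊢
    exact mul_ne_zero (pow_ne_zero _ hx.ne_zero) this

theorem factorization_specN (l : List (ℕ × ℕ)) (hl : ∀ x ∈ l, x.1.Prime) (p : ℕ) :
    (specN l).factorization p = expo l p := by
  induction l with
  | nil => simp [specN, expo]
  | cons x l ih =>
    have hx : x.1.Prime := hl x (by simp)
    have hl' : ∀ y ∈ l, y.1.Prime := fun y hy => hl y (by simp [hy])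
    have h0 := specN_ne_zero l hl'
    have ih' := ih hl'
    have e1 : specN (x :: l) = x.1 ^ x.2 * specN l := by simp [specN]
    rw [e1, Nat.factorization_mul (pow_ne_zero _ hx.ne_zero) h0, Finsupp.add_apply, ih',
      Nat.factorization_pow, hx.factorization]
    by_cases hxp : x.1 = p
    · simp [expo, hxp]
    · simp [expo, hxp]

theorem expo_pos_mem (l : List (ℕ × ℕ)) (p : ℕ) (h : expo l p ≠ 0) : ∃ x ∈ l, x.1 = p := by
  by_contra hcon
  push Not at hcon
  apply h
  have : l.filter (fun x => x.1 = p) = [] := by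
    rw [List.filter_eq_nil_iff]
    intro x hx
    simpa using hcon x hx
  simp [expo, this]

theorem spor_aux (l : List (ℕ × ℕ)) (hl : ∀ x ∈ l, x.1.Prime)
    (hchk : ∀ x ∈ l, x.1 ≠ 2 → expo l x.1 = 3 → x.1 ^ 3 < 2 ^ expo l 2)
    (N : ℕ) (hN : N = specN l)
    (p : ℕ) (hodd : p ≠ 2) (h3 : N.factorization p = 3) :
    p ^ 3 < 2 ^ N.factorization 2 := by
  subst hN
  rw [factorization_specN l hl] at h3 ⊢
  obtain ⟨x, hx, rfl⟩ := expo_pos_mem l p (by omega)
  exact hchk x hx hodd h3

theorem four_pow_gt (p : ℕ) (hp : 5 ≤ p) : p ^ 3 < 4 ^ (p - 1) := by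
  induction p, hp using Nat.le_induction with
  | base => norm_num
  | succ k hk ih =>
    have e : k + 1 - 1 = (k - 1) + 1 := by omega
    have e2 : 4 ^ (k + 1 - 1) = 4 * 4 ^ (k - 1) := by rw [e, pow_succ]; ring
    rw [e2]
    have h1 : 5 * k ^ 2 ≤ k ^ 3 := by
      calc 5 * k ^ 2 ≤ k * k ^ 2 := Nat.mul_le_mul_right _ hk
        _ = k ^ 3 := by ring
    have h2 : 3 * k ≤ k ^ 2 := by nlinarith
    have h3 : 1 ≤ k ^ 2 := by nlinarith
    have h4 : (k + 1) ^ 3 = k ^ 3 + 3 * k ^ 2 + 3 * k + 1 := by ring
    rw [h4]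
    omega

theorem alt_aux (n : ℕ) (p : ℕ) (hp : p.Prime) (hodd : p ≠ 2)
    (h3 : (n.factorial / 2).factorization p = 3) :
    p ^ 3 < 2 ^ (n.factorial / 2).factorization 2 := by
  have hn2 : 2 ≤ n := by
    by_contra hcon
    have : n = 0 ∨ n = 1 := by omega
    rcases this with rfl | rfl <;> simp at h3
  have h2dvd : 2 ∣ n.factorial := Nat.dvd_factorial (by norm_num) hn2
  obtain ⟨M, hM⟩ := h2dvd
  have hM0 : M ≠ 0 := by
    rintro rfl
    exact Nat.factorial_ne_zero n (by simpa using hM)
  have hdiv : n.factorial / 2 = M := by rw [hM]; simp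
  rw [hdiv] at h3 ⊢
  have hfp : n.factorial.factorization p = 3 := by
    rw [hM, Nat.factorization_mul (by norm_num) hM0, Finsupp.add_apply, h3,
      Nat.prime_two.factorization]
    simp [Ne.symm hodd]
  have hf2 : n.factorial.factorization 2 = M.factorization 2 + 1 := by
    rw [hM, Nat.factorization_mul (by norm_num) hM0, Finsupp.add_apply,
      Nat.prime_two.factorization]
    simp [add_comm]
  have hp3 : 3 ≤ p := by
    have := hp.two_le
    omega
  -- 3 * p ≤ n
  have h3p : 3 * p ≤ n := by
    by_contra hcon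
    push Not at hcon
    have hlog : Nat.log p n < 2 := by
      apply Nat.log_lt_of_lt_pow (by omega)
      nlinarith
    rw [Nat.factorization_factorial hp hlog] at hfp
    have : n / p < 3 := by
      rw [Nat.div_lt_iff_lt_mul hp.pos]; linarith
    simp at hfp
    omega
  have hp5 : 5 ≤ p := by
    by_contra hcon
    have hp4 : p ≠ 4 := by
      rintro rfl
      exact absurd hp (by norm_num)
    have hp3' : p = 3 := by omega
    subst hp3'
    have hle : (9 : ℕ).factorial ∣ n.factorial := Nat.factorial_dvd_factorial (by omega)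
    have h9 : (3 : ℕ) ^ 4 ∣ (9 : ℕ).factorial := by decide
    have h34 : (3 : ℕ) ^ 4 ∣ n.factorial := h9.trans hle
    have := (Nat.Prime.pow_dvd_iff_le_factorization Nat.prime_three (Nat.factorial_ne_zero n)).1 h34
    omega
  -- lower bound for the 2-adic valuation
  have h8 : (2 : ℕ) ^ 3 ≤ n := by omega
  have hlog2 : 3 ≤ Nat.log 2 n := by
    exact Nat.le_log_of_pow_le (by norm_num) h8
  have hv2 : n / 2 + n / 4 ≤ n.factorial.factorization 2 := by
    rw [Nat.factorization_factorial Nat.prime_two (Nat.lt_succ_self _)]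
    have hsub : Finset.Ico 1 3 ⊆ Finset.Ico 1 (Nat.log 2 n).succ := by
      apply Finset.Ico_subset_Ico le_rfl
      omega
    calc n / 2 + n / 4 = ∑ i ∈ Finset.Ico 1 3, n / 2 ^ i := by
          simp [Finset.sum_Ico_eq_sum_range, Finset.sum_range_succ]
      _ ≤ _ := Finset.sum_le_sum_of_subset hsub
  have hexp : 2 * (p - 1) ≤ M.factorization 2 := by omega
  calc p ^ 3 < 4 ^ (p - 1) := four_pow_gt p hp5
    _ = 2 ^ (2 * (p - 1)) := by rw [pow_mul]; norm_num
    _ ≤ 2 ^ M.factorization 2 := Nat.pow_le_pow_right (by norm_num) hexp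


/-- Let G be an alternating group of degree at least 5 or a simple group with the order of one of the 26 sporadic groups, and let p be an odd prime such that p³ is the exact power of p dividing the order of G. Then p³ is less than the 2-part of the order of G. -/
theorem result {G : Type*} [Group G] [Finite G] (hG : Cfsg.IsAlternating G ∨ Cfsg.IsSporadic G)
    (p : ℕ) (hp : p.Prime) (hodd : p ≠ 2) (h3 : (Nat.card G).factorization p = 3) :
    p ^ 3 < 2 ^ (Nat.card G).factorization 2 := by
  rcases hG with ⟨n, hn, ⟨e⟩⟩ | hS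
  · have hcard : Nat.card G = n.factorial / 2 := by
      rw [Nat.card_congr e.toEquiv]
      have : Nontrivial (Fin n) := Fin.nontrivial_iff_two_le.2 (by omega)
      rw [nat_card_alternatingGroup]
      simp
    rw [hcard] at h3 ⊢
    exact alt_aux n p hp hodd h3
  · unfold Cfsg.IsSporadic at hS
    rcases hS with h | h | h | h | h | h | h | h | h | h | h | h | h | h | h | h | h | h | h | h | h | h | h | h | h | h
    · -- IsM11
      exact spor_aux [(2, 4), (3, 2), (5, 1), (11, 1)] (by simp; norm_num) (by decide) _ (h.2.trans (by norm_num [specN])) p hodd h3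
    · -- IsM12
      exact spor_aux [(2, 6), (3, 3), (5, 1), (11, 1)] (by simp; norm_num) (by decide) _ (h.2.trans (by norm_num [specN])) p hodd h3
    · -- IsM22
      exact spor_aux [(2, 7), (3, 2), (5, 1), (7, 1), (11, 1)] (by simp; norm_num) (by decide) _ (h.2.trans (by norm_num [specN])) p hodd h3
    · -- IsM23
      exact spor_aux [(2, 7), (3, 2), (5, 1), (7, 1), (11, 1), (23, 1)] (by simp; norm_num) (by decide) _ (h.2.trans (by norm_num [specN])) p hodd h3
    · -- IsM24
      exact spor_aux [(2, 10), (3, 3), (5, 1), (7, 1), (11, 1), (23, 1)] (by simp; norm_num) (by decide) _ (h.2.trans (by norm_num [specN])) p hodd h3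
    · -- IsJ1
      exact spor_aux [(2, 3), (3, 1), (5, 1), (7, 1), (11, 1), (19, 1)] (by simp; norm_num) (by decide) _ (h.2.trans (by norm_num [specN])) p hodd h3
    · -- IsJ2
      exact spor_aux [(2, 7), (3, 3), (5, 2), (7, 1)] (by simp; norm_num) (by decide) _ (h.2.trans (by norm_num [specN])) p hodd h3
    · -- IsJ3
      exact spor_aux [(2, 7), (3, 5), (5, 1), (17, 1), (19, 1)] (by simp; norm_num) (by decide) _ (h.2.trans (by norm_num [specN])) p hodd h3
    · -- IsJ4
      exact spor_aux [(2, 21), (3, 3), (5, 1), (7, 1), (11, 3), (23, 1), (29, 1), (31, 1), (37, 1), (43, 1)] (by simp; norm_num) (by decide) _ (h.2.trans (by norm_num [specN])) p hodd h3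
    · -- IsCo1
      exact spor_aux [(2, 21), (3, 9), (5, 4), (7, 2), (11, 1), (13, 1), (23, 1)] (by simp; norm_num) (by decide) _ (h.2.trans (by norm_num [specN])) p hodd h3
    · -- IsCo2
      exact spor_aux [(2, 18), (3, 6), (5, 3), (7, 1), (11, 1), (23, 1)] (by simp; norm_num) (by decide) _ (h.2.trans (by norm_num [specN])) p hodd h3
    · -- IsCo3
      exact spor_aux [(2, 10), (3, 7), (5, 3), (7, 1), (11, 1), (23, 1)] (by simp; norm_num) (by decide) _ (h.2.trans (by norm_num [specN])) p hodd h3
    · -- IsFi22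
      exact spor_aux [(2, 17), (3, 9), (5, 2), (7, 1), (11, 1), (13, 1)] (by simp; norm_num) (by decide) _ (h.2.trans (by norm_num [specN])) p hodd h3
    · -- IsFi23
      exact spor_aux [(2, 18), (3, 13), (5, 2), (7, 1), (11, 1), (13, 1), (17, 1), (23, 1)] (by simp; norm_num) (by decide) _ (h.2.trans (by norm_num [specN])) p hodd h3
    · -- IsFi24'
      exact spor_aux [(2, 21), (3, 16), (5, 2), (7, 3), (11, 1), (13, 1), (17, 1), (23, 1), (29, 1)] (by simp; norm_num) (by decide) _ (h.2.trans (by norm_num [specN])) p hodd h3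
    · -- IsHS
      exact spor_aux [(2, 9), (3, 2), (5, 3), (7, 1), (11, 1)] (by simp; norm_num) (by decide) _ (h.2.trans (by norm_num [specN])) p hodd h3
    · -- IsMcL
      exact spor_aux [(2, 7), (3, 6), (5, 3), (7, 1), (11, 1)] (by simp; norm_num) (by decide) _ (h.2.trans (by norm_num [specN])) p hodd h3
    · -- IsHe
      exact spor_aux [(2, 10), (3, 3), (5, 2), (7, 3), (17, 1)] (by simp; norm_num) (by decide) _ (h.2.trans (by norm_num [specN])) p hodd h3
    · -- IsRu
      exact spor_aux [(2, 14), (3, 3), (5, 3), (7, 1), (13, 1), (29, 1)] (by simp; norm_num) (by decide) _ (h.2.trans (by norm_num [specN])) p hodd h3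
    · -- IsSuz
      exact spor_aux [(2, 13), (3, 7), (5, 2), (7, 1), (11, 1), (13, 1)] (by simp; norm_num) (by decide) _ (h.2.trans (by norm_num [specN])) p hodd h3
    · -- IsON
      exact spor_aux [(2, 9), (3, 4), (5, 1), (7, 3), (11, 1), (19, 1), (31, 1)] (by simp; norm_num) (by decide) _ (h.2.trans (by norm_num [specN])) p hodd h3
    · -- IsHN
      exact spor_aux [(2, 14), (3, 6), (5, 6), (7, 1), (11, 1), (19, 1)] (by simp; norm_num) (by decide) _ (h.2.trans (by norm_num [specN])) p hodd h3
    · -- IsLy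
      exact spor_aux [(2, 8), (3, 7), (5, 6), (7, 1), (11, 1), (31, 1), (37, 1), (67, 1)] (by simp; norm_num) (by decide) _ (h.2.trans (by norm_num [specN])) p hodd h3
    · -- IsTh
      exact spor_aux [(2, 15), (3, 10), (5, 3), (7, 2), (13, 1), (19, 1), (31, 1)] (by simp; norm_num) (by decide) _ (h.2.trans (by norm_num [specN])) p hodd h3
    · -- IsB
      exact spor_aux [(2, 41), (3, 13), (5, 6), (7, 2), (11, 1), (13, 1), (17, 1), (19, 1), (23, 1), (31, 1), (47, 1)] (by simp; norm_num) (by decide) _ (h.2.trans (by norm_num [specN])) p hodd h3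
    · -- IsM
      exact spor_aux [(2, 46), (3, 20), (5, 9), (7, 6), (11, 2), (13, 3), (17, 1), (19, 1), (23, 1), (29, 1), (31, 1), (41, 1), (47, 1), (59, 1), (71, 1)] (by simp; norm_num) (by decide) _ (h.2.trans (by norm_num [specN])) p hodd h3

end Cfsg.Agent.S2367
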