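-- Statement S2368: maximal order of p-elements of GL(m, F).
import Mathlib
import Cfsg.Statements.S2368

set_option autoImplicit false
open Cfsg

namespace Cfsg.Agent.S2368

variable {F : Type*} [Field F]

/-- A matrix with `M ^ (p ^ j) = 1` in characteristic `p` satisfies `(M - 1) ^ m = 0`. -/
theorem unip_pow (p : ℕ) [Fact p.Prime] [CharP F p] (m : ℕ) [Nonempty (Fin m)]
    (M : Matrix (Fin m) (Fin m) F) (j : ℕ) (hM : M ^ (p ^ j) = 1) : (M - 1) ^ m = 0 := by
  have h1 : (M - 1) ^ (p ^ j) = 0 := by
    rw [sub_pow_char_pow_of_commute p j (Commute.one_right M), hM, one_pow, sub_self]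
  have hnil : IsNilpotent (M - 1) := ⟨p ^ j, h1⟩
  have hc : (M - 1).charpoly = Polynomial.X ^ m := by
    have := Matrix.isNilpotent_charpoly_sub_pow_of_isNilpotent hnil
    have h0 := this.eq_zero
    rw [sub_eq_zero] at h0
    simpa using h0
  have := Matrix.aeval_self_charpoly (M - 1)
  rw [hc] at this
  simpa using this

theorem pow_eq_one_of_unip (p : ℕ) [Fact p.Prime] [CharP F p] (m : ℕ) [Nonempty (Fin m)]
    (M : Matrix (Fin m) (Fin m) F) (k : ℕ) (hk : m ≤ p ^ k) (hM : (M - 1) ^ m = 0) :
    M ^ (p ^ k) = 1 := by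
  have h1 : (M - 1) ^ (p ^ k) = 0 := pow_eq_zero_of_le hk hM
  rw [sub_pow_char_pow_of_commute p k (Commute.one_right M), one_pow, sub_eq_zero] at h1
  exact h1

/-- The nilpotent shift matrix. -/
def shiftMat (m : ℕ) : Matrix (Fin m) (Fin m) F :=
  Matrix.of fun i j => if j.val = i.val + 1 then 1 else 0

theorem shiftMat_pow (m k : ℕ) (i j : Fin m) :
    ((shiftMat (F := F) m) ^ k) i j = if j.val = i.val + k then 1 else 0 := by
  induction k generalizing i j with
  | zero =>
    simp [Matrix.one_apply, Fin.ext_iff, eq_comm]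
  | succ k ih =>
    rw [pow_succ, Matrix.mul_apply]
    have hs : ∀ a b : Fin m, shiftMat (F := F) m a b = if b.val = a.val + 1 then 1 else 0 := by
      intro a b; simp [shiftMat]
    simp only [ih, hs]
    by_cases h : j.val = i.val + (k + 1)
    · rw [if_pos h]
      have hlt : i.val + k < m := by have := j.isLt; omega
      rw [Finset.sum_eq_single (⟨i.val + k, hlt⟩ : Fin m)]
      · simp [h]; omega
      · intro b _ hb
        have : ¬ (b.val = i.val + k) := fun hh => hb (Fin.ext hh)
        simp [this]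
      · intro hh; exact absurd (Finset.mem_univ _) hh
    · rw [if_neg h]
      apply Finset.sum_eq_zero
      intro b _
      by_cases h1 : b.val = i.val + k
      · have : ¬ (j.val = b.val + 1) := by omega
        simp [this]
      · simp [h1]

theorem shiftMat_pow_eq_zero (m k : ℕ) (hk : m ≤ k) : (shiftMat (F := F) m) ^ k = 0 := by
  ext i j
  rw [shiftMat_pow]
  have := j.isLt
  have : ¬ (j.val = i.val + k) := by omega
  simp [this]

theorem shiftMat_pow_ne_zero (m k : ℕ) (hk : k < m) : (shiftMat (F := F) m) ^ k ≠ 0 := by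
  intro h
  have h1 := congrFun (congrFun h ⟨0, by omega⟩) ⟨k, hk⟩
  rw [shiftMat_pow] at h1
  simp at h1

/-- Let F be a finite field of characteristic p and m ≥ 1. Every element of GL(m, F) of p-power order has order less than p·m, and GL(m, F) has an element of p-power order at least m; so the largest order of a p-element of GL(m, F) is the least power of p that is at least m. -/
theorem result {F : Type*} [Field F] [Fintype F] (p : ℕ) [Fact p.Prime] [CharP F p] (m : ℕ) (hm : 1 ≤ m) :
    (∀ g : Matrix.GeneralLinearGroup (Fin m) F, (∃ j : ℕ, orderOf g = p ^ j) → orderOf g < p * m) ∧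
      ∃ g : Matrix.GeneralLinearGroup (Fin m) F, (∃ j : ℕ, orderOf g = p ^ j) ∧ m ≤ orderOf g := by
  have hp : p.Prime := Fact.out
  have : Nonempty (Fin m) := ⟨⟨0, by omega⟩⟩
  have hclog : m ≤ p ^ Nat.clog p m := Nat.le_pow_clog hp.one_lt m
  have hlt : p ^ Nat.clog p m < p * m := by
    rcases Nat.lt_or_ge 1 m with h1 | h1
    · have h2 := Nat.pow_pred_clog_lt_self hp.one_lt h1
      have h3 : 0 < Nat.clog p m := Nat.clog_pos hp.one_lt h1
      have h4 : Nat.clog p m = (Nat.clog p m).pred + 1 := by
        rw [Nat.pred_eq_sub_one]; omega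
      rw [h4, pow_succ, mul_comm]
      exact Nat.mul_lt_mul_of_pos_left h2 hp.pos
    · have : m = 1 := by omega
      subst this
      simp [Nat.clog_one_right, hp.one_lt]
  refine ⟨?_, ?_⟩
  · rintro g ⟨j, hj⟩
    have hg : g ^ (p ^ j) = 1 := by rw [← hj]; exact pow_orderOf_eq_one g
    have hM : (g : Matrix (Fin m) (Fin m) F) ^ (p ^ j) = 1 := by
      rw [← Units.val_pow_eq_pow_val, hg]; rfl
    have h1 := unip_pow p m (g : Matrix (Fin m) (Fin m) F) j hM
    have h2 := pow_eq_one_of_unip p m (g : Matrix (Fin m) (Fin m) F) (Nat.clog p m) hclog h1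
    have h3 : g ^ (p ^ Nat.clog p m) = 1 := by
      apply Units.ext
      rw [Units.val_pow_eq_pow_val, h2]; rfl
    have h4 : orderOf g ∣ p ^ Nat.clog p m := orderOf_dvd_of_pow_eq_one h3
    exact lt_of_le_of_lt (Nat.le_of_dvd (pow_pos hp.pos _) h4) hlt
  · have hnil : IsNilpotent (shiftMat (F := F) m) := ⟨m, shiftMat_pow_eq_zero m m le_rfl⟩
    have hu : IsUnit (1 + shiftMat (F := F) m) := hnil.isUnit_one_add
    refine ⟨hu.unit, ?_, ?_⟩
    · have h3 : hu.unit ^ (p ^ Nat.clog p m) = 1 := by
        apply Units.ext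
        rw [Units.val_pow_eq_pow_val, IsUnit.unit_spec,
          add_pow_char_pow_of_commute p _ (Commute.one_left _), one_pow,
          shiftMat_pow_eq_zero m _ hclog, add_zero]
        rfl
      have h4 : orderOf hu.unit ∣ p ^ Nat.clog p m := orderOf_dvd_of_pow_eq_one h3
      obtain ⟨j, _, hj⟩ := (Nat.dvd_prime_pow hp).1 h4
      exact ⟨j, hj⟩
    · by_contra hcon
      push Not at hcon
      have h3 : hu.unit ^ (p ^ Nat.clog p m) = 1 := by
        apply Units.ext
        rw [Units.val_pow_eq_pow_val, IsUnit.unit_spec,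
          add_pow_char_pow_of_commute p _ (Commute.one_left _), one_pow,
          shiftMat_pow_eq_zero m _ hclog, add_zero]
        rfl
      have h4 : orderOf hu.unit ∣ p ^ Nat.clog p m := orderOf_dvd_of_pow_eq_one h3
      obtain ⟨j, _, hj⟩ := (Nat.dvd_prime_pow hp).1 h4
      have h5 : hu.unit ^ (p ^ j) = 1 := by rw [← hj]; exact pow_orderOf_eq_one _
      have h6 : (1 + shiftMat (F := F) m) ^ (p ^ j) = 1 := by
        have := congrArg (fun u : (Matrix (Fin m) (Fin m) F)ˣ => (u : Matrix (Fin m) (Fin m) F)) h5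
        simpa [Units.val_pow_eq_pow_val] using this
      rw [add_pow_char_pow_of_commute p _ (Commute.one_left _), one_pow] at h6
      have h7 : (shiftMat (F := F) m) ^ (p ^ j) = 0 := by
        have := congrArg (fun x => x - 1) h6
        simpa using this
      exact shiftMat_pow_ne_zero m _ (by rw [← hj]; exact hcon) h7

end Cfsg.Agent.S2368
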