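import Cfsg.Statements.S2384
import Cfsg.Agent.Lib.Helper40.SemisimpleCount

set_option autoImplicit false
open Cfsg

namespace Cfsg.Agent.S2384

/-- In `SL_n(q)`, `q` a power of the prime `p`, the number of conjugacy classes of elements of order prime to `p` (the semisimple classes) is `q^(n-1)`. -/
theorem result {F : Type*} [Field F] [Fintype F] {q : ℕ} (hq : Fintype.card F = q) (p : ℕ) [Fact p.Prime] [CharP F p] (n : ℕ) (hn : 1 ≤ n) :
    Nat.card {c : ConjClasses (Matrix.SpecialLinearGroup (Fin n) F) //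
      ∃ g : Matrix.SpecialLinearGroup (Fin n) F, ConjClasses.mk g = c ∧ (orderOf g).Coprime p} = q ^ (n - 1) := by
  classical
  obtain ⟨m, rfl⟩ : ∃ m, n = m + 1 := ⟨n - 1, by omega⟩
  have hsemi : ∀ x : Matrix.SpecialLinearGroup (Fin (m + 1)) F, (orderOf x).Coprime p →
      Module.End.IsSemisimple (Matrix.toLin' (x : Matrix (Fin (m + 1)) (Fin (m + 1)) F)) := by
    intro x hx
    apply Cfsg.Agent.Lib.Helper40.isSemisimple_of_pow_eq_one _ (orderOf x)
      (Cfsg.Agent.Lib.Helper40.natCast_ne_zero_of_coprime p _ hx)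
    rw [← Matrix.SpecialLinearGroup.coe_pow, pow_orderOf_eq_one]
    rfl
  have hsq : ((-1 : F) ^ (m + 1)) * ((-1 : F) ^ (m + 1)) = 1 := by
    rw [← mul_pow]; simp
  rw [Cfsg.Agent.Lib.Helper40.card_classes_eq
    (fun g : Matrix.SpecialLinearGroup (Fin (m + 1)) F => (g : Matrix (Fin (m + 1)) (Fin (m + 1)) F))
    (fun g => (orderOf g).Coprime p) {(-1 : F) ^ (m + 1)} ?_ ?_ ?_ ?_,
    Cfsg.Agent.Lib.Helper40.card_monic_coeff_zero_mem]
  · rw [hq, Nat.add_sub_cancel]
    simp
  · intro a b hab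
    obtain ⟨c, rfl⟩ := isConj_iff.1 hab
    simp only [Matrix.SpecialLinearGroup.coe_mul]
    rw [Matrix.charpoly_mul_comm, ← mul_assoc, ← Matrix.SpecialLinearGroup.coe_mul, inv_mul_cancel]
    simp
  · intro a b ha hb hcp
    exact Cfsg.Agent.Lib.Helper40.isConj_SL_of_semisimple a b (hsemi a ha) (hsemi b hb) hcp
  · intro a _
    have hdet : (a : Matrix (Fin (m + 1)) (Fin (m + 1)) F).det = 1 := a.2
    rw [Matrix.det_eq_sign_charpoly_coeff] at hdet
    simp only [Fintype.card_fin] at hdet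
    rw [Set.mem_singleton_iff]
    calc (a : Matrix (Fin (m + 1)) (Fin (m + 1)) F).charpoly.coeff 0
        = ((-1 : F) ^ (m + 1) * (-1 : F) ^ (m + 1)) *
            (a : Matrix (Fin (m + 1)) (Fin (m + 1)) F).charpoly.coeff 0 := by rw [hsq, one_mul]
      _ = (-1 : F) ^ (m + 1) * ((-1 : F) ^ (m + 1) *
            (a : Matrix (Fin (m + 1)) (Fin (m + 1)) F).charpoly.coeff 0) := by ring
      _ = (-1 : F) ^ (m + 1) := by rw [hdet, mul_one]
  · intro χ hχ hdeg h0
    rw [Set.mem_singleton_iff] at h0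
    have h0' : χ.coeff 0 ≠ 0 := by
      rw [h0]
      exact pow_ne_zero _ (neg_ne_zero.2 one_ne_zero)
    obtain ⟨M, hM, N, hN, hco, hpow⟩ :=
      Cfsg.Agent.Lib.Helper40.exists_matrix_charpoly p (m + 1) χ hχ hdeg h0'
    have hdet : M.det = 1 := by
      rw [Matrix.det_eq_sign_charpoly_coeff, hM, h0]
      simp only [Fintype.card_fin]
      exact hsq
    let g : Matrix.SpecialLinearGroup (Fin (m + 1)) F := ⟨M, hdet⟩
    refine ⟨g, ?_, hM⟩
    have hg : g ^ N = 1 := by
      apply Subtype.ext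
      rw [Matrix.SpecialLinearGroup.coe_pow]
      exact hpow
    exact Nat.Coprime.coprime_dvd_left (orderOf_dvd_of_pow_eq_one hg) hco

end Cfsg.Agent.S2384
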