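import Cfsg.Statements.S2387
import Cfsg.Agent.Lib.Helper40.SemisimpleCount

set_option autoImplicit false
open scoped MatrixGroups
open Cfsg

namespace Cfsg.Agent.S2387

/-- In `GL_n(q)` with `n ≥ 1`, `q` a power of the prime `p`, the number of conjugacy classes of elements of order prime to `p` (diagonalisable over the algebraic closure; determined by the characteristic polynomial) is `(q - 1) q^(n-1)`. -/
theorem result {F : Type*} [Field F] [Fintype F] {q : ℕ} (hq : Fintype.card F = q) (p : ℕ) [Fact p.Prime] [CharP F p] (n : ℕ) (hn : 1 ≤ n) :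
    Nat.card {c : ConjClasses (GL (Fin n) F) // ∃ g : GL (Fin n) F, ConjClasses.mk g = c ∧ (orderOf g).Coprime p} = (q - 1) * q ^ (n - 1) := by
  classical
  obtain ⟨m, rfl⟩ : ∃ m, n = m + 1 := ⟨n - 1, by omega⟩
  have hsemi : ∀ x : GL (Fin (m + 1)) F, (orderOf x).Coprime p →
      Module.End.IsSemisimple (Matrix.toLin' (x : Matrix (Fin (m + 1)) (Fin (m + 1)) F)) := by
    intro x hx
    apply Cfsg.Agent.Lib.Helper40.isSemisimple_of_pow_eq_one _ (orderOf x)
      (Cfsg.Agent.Lib.Helper40.natCast_ne_zero_of_coprime p _ hx)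
    rw [← Units.val_pow_eq_pow_val, pow_orderOf_eq_one]
    rfl
  rw [Cfsg.Agent.Lib.Helper40.card_classes_eq
    (fun g : GL (Fin (m + 1)) F => (g : Matrix (Fin (m + 1)) (Fin (m + 1)) F))
    (fun g => (orderOf g).Coprime p) {x : F | x ≠ 0} ?_ ?_ ?_ ?_,
    Cfsg.Agent.Lib.Helper40.card_monic_coeff_zero_mem]
  · rw [hq, Nat.add_sub_cancel]
    congr 1
    rw [Nat.card_eq_fintype_card, Set.card_ne_eq, hq]
  · intro a b hab
    obtain ⟨c, rfl⟩ := isConj_iff.1 hab
    have : ((c * a * c⁻¹ : GL (Fin (m + 1)) F) : Matrix (Fin (m + 1)) (Fin (m + 1)) F) =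
        (c : Matrix (Fin (m + 1)) (Fin (m + 1)) F) * (a : Matrix (Fin (m + 1)) (Fin (m + 1)) F) *
          (c : Matrix (Fin (m + 1)) (Fin (m + 1)) F)⁻¹ := by
      simp [Matrix.coe_units_inv]
    simp only [this]
    exact (Matrix.charpoly_units_conj c _).symm
  · intro a b ha hb hcp
    exact Cfsg.Agent.Lib.Helper40.isConj_GL_of_semisimple a b (hsemi a ha) (hsemi b hb) hcp
  · intro a _
    have hdet : (a : Matrix (Fin (m + 1)) (Fin (m + 1)) F).det ≠ 0 := by
      have := (Matrix.isUnit_iff_isUnit_det _).1 a.isUnit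
      exact this.ne_zero
    rw [Matrix.det_eq_sign_charpoly_coeff] at hdet
    exact right_ne_zero_of_mul hdet
  · intro χ hχ hdeg h0
    obtain ⟨M, hM, N, hN, hco, hpow⟩ :=
      Cfsg.Agent.Lib.Helper40.exists_matrix_charpoly p (m + 1) χ hχ hdeg h0
    have hN1 : N = (N - 1) + 1 := by omega
    let g : GL (Fin (m + 1)) F := ⟨M, M ^ (N - 1), by rw [← pow_succ', ← hN1, hpow],
      by rw [← pow_succ, ← hN1, hpow]⟩
    refine ⟨g, ?_, hM⟩
    have hg : g ^ N = 1 := by
      apply Units.ext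
      rw [Units.val_pow_eq_pow_val]
      exact hpow
    exact Nat.Coprime.coprime_dvd_left (orderOf_dvd_of_pow_eq_one hg) hco

end Cfsg.Agent.S2387
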