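-- Statement S2391: Borel-Tits flag for a p-subgroup of SL_n over a finite field of characteristic p.
import Mathlib
import Cfsg.Statements.S2391

set_option autoImplicit false
open Cfsg

namespace Cfsg.Agent.S2391

variable {F : Type*} [Field F] {n : ℕ}

/-- The ascending series of iterated fixed vectors of `U` on `F^n`. -/
def fixSeries (U : Subgroup (Matrix.SpecialLinearGroup (Fin n) F)) : ℕ → Submodule F (Fin n → F)
  | 0 => ⊥
  | (i + 1) => ⨅ u : U, (fixSeries U i).comap
      (Matrix.mulVecLin ((u : Matrix.SpecialLinearGroup (Fin n) F) : Matrix (Fin n) (Fin n) F) - LinearMap.id)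

theorem mem_fixSeries_succ (U : Subgroup (Matrix.SpecialLinearGroup (Fin n) F)) (i : ℕ) (v : Fin n → F) :
    v ∈ fixSeries U (i + 1) ↔
      ∀ u ∈ U, (u : Matrix (Fin n) (Fin n) F).mulVec v - v ∈ fixSeries U i := by
  simp only [fixSeries, Submodule.mem_iInf, Submodule.mem_comap, LinearMap.sub_apply,
    Matrix.mulVecLin_apply, LinearMap.id_apply, Subtype.forall]

theorem fixSeries_le_succ (U : Subgroup (Matrix.SpecialLinearGroup (Fin n) F)) (i : ℕ) :
    fixSeries U i ≤ fixSeries U (i + 1) := by
  induction i with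
  | zero => simp [fixSeries]
  | succ i ih =>
    intro v hv
    rw [mem_fixSeries_succ] at hv ⊢
    intro u hu
    exact ih (hv u hu)

theorem fixSeries_mono (U : Subgroup (Matrix.SpecialLinearGroup (Fin n) F)) : Monotone (fixSeries U) :=
  monotone_nat_of_le_succ (fixSeries_le_succ U)

theorem fixSeries_inv (U : Subgroup (Matrix.SpecialLinearGroup (Fin n) F)) (i : ℕ)
    (u : Matrix.SpecialLinearGroup (Fin n) F) (hu : u ∈ U) (v : Fin n → F) (hv : v ∈ fixSeries U i) :
    (u : Matrix (Fin n) (Fin n) F).mulVec v ∈ fixSeries U i := by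
  cases i with
  | zero =>
    simp only [fixSeries, Submodule.mem_bot] at hv ⊢
    simp [hv]
  | succ i =>
    have h1 := (mem_fixSeries_succ U i v).1 hv u hu
    have h2 := fixSeries_le_succ U i h1
    have := (fixSeries U (i + 1)).add_mem h2 hv
    simpa using this

theorem mulVec_mul_sl (g h : Matrix.SpecialLinearGroup (Fin n) F) (v : Fin n → F) :
    ((g * h : Matrix.SpecialLinearGroup (Fin n) F) : Matrix (Fin n) (Fin n) F).mulVec v =
      (g : Matrix (Fin n) (Fin n) F).mulVec ((h : Matrix (Fin n) (Fin n) F).mulVec v) := by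
  rw [Matrix.SpecialLinearGroup.coe_mul, Matrix.mulVec_mulVec]

theorem mulVec_one_sl (v : Fin n → F) :
    ((1 : Matrix.SpecialLinearGroup (Fin n) F) : Matrix (Fin n) (Fin n) F).mulVec v = v := by
  simp

theorem fixSeries_normalizer (U : Subgroup (Matrix.SpecialLinearGroup (Fin n) F)) (i : ℕ)
    (g : Matrix.SpecialLinearGroup (Fin n) F)
    (hg : g ∈ Subgroup.normalizer (U : Set (Matrix.SpecialLinearGroup (Fin n) F)))
    (v : Fin n → F) (hv : v ∈ fixSeries U i) :
    (g : Matrix (Fin n) (Fin n) F).mulVec v ∈ fixSeries U i := by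
  induction i generalizing v with
  | zero =>
    simp only [fixSeries, Submodule.mem_bot] at hv ⊢
    simp [hv]
  | succ i ih =>
    rw [mem_fixSeries_succ] at hv ⊢
    intro u hu
    have hu' : g⁻¹ * u * g ∈ U := by
      have hg' : g⁻¹ ∈ Subgroup.normalizer (U : Set (Matrix.SpecialLinearGroup (Fin n) F)) :=
        inv_mem hg
      have := (Subgroup.mem_normalizer_iff.1 hg' u).1 hu
      simpa using this
    have h1 := ih _ (hv _ hu')
    have e : (g : Matrix (Fin n) (Fin n) F).mulVec
        (((g⁻¹ * u * g : Matrix.SpecialLinearGroup (Fin n) F) : Matrix (Fin n) (Fin n) F).mulVec v - v) =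
        (u : Matrix (Fin n) (Fin n) F).mulVec ((g : Matrix (Fin n) (Fin n) F).mulVec v) -
          (g : Matrix (Fin n) (Fin n) F).mulVec v := by
      rw [Matrix.mulVec_sub, ← mulVec_mul_sl, ← mulVec_mul_sl]
      congr 2
      group
    rw [e] at h1
    exact h1

theorem fixSeries_map_normalizer (U : Subgroup (Matrix.SpecialLinearGroup (Fin n) F)) (i : ℕ)
    (g : Matrix.SpecialLinearGroup (Fin n) F)
    (hg : g ∈ Subgroup.normalizer (U : Set (Matrix.SpecialLinearGroup (Fin n) F))) :
    (fixSeries U i).map (Matrix.mulVecLin (g : Matrix (Fin n) (Fin n) F)) = fixSeries U i := by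
  apply le_antisymm
  · rintro w ⟨v, hv, rfl⟩
    exact fixSeries_normalizer U i g hg v hv
  · intro v hv
    refine ⟨(g⁻¹ : Matrix.SpecialLinearGroup (Fin n) F).1.mulVec v,
      fixSeries_normalizer U i g⁻¹ (inv_mem hg) v hv, ?_⟩
    rw [Matrix.mulVecLin_apply]
    have := mulVec_mul_sl g g⁻¹ v
    rw [mul_inv_cancel, mulVec_one_sl] at this
    exact this.symm

/-- The action of `U` on the quotient by an invariant subspace. -/
@[instance_reducible]
def quotAction (U : Subgroup (Matrix.SpecialLinearGroup (Fin n) F)) (W : Submodule F (Fin n → F))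
    (hW : ∀ u ∈ U, W ≤ W.comap (Matrix.mulVecLin (u : Matrix (Fin n) (Fin n) F))) :
    MulAction U ((Fin n → F) ⧸ W) where
  smul u x := W.mapQ W (Matrix.mulVecLin ((u : Matrix.SpecialLinearGroup (Fin n) F) : Matrix (Fin n) (Fin n) F))
    (hW u u.2) x
  one_smul x := by
    induction x using Submodule.Quotient.induction_on with
    | H v =>
      change W.mapQ W _ _ (Submodule.Quotient.mk v) = _
      rw [Submodule.mapQ_apply]
      simp
  mul_smul a b x := by
    induction x using Submodule.Quotient.induction_on with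
    | H v =>
      change W.mapQ W _ _ (Submodule.Quotient.mk v) =
        W.mapQ W _ _ (W.mapQ W _ _ (Submodule.Quotient.mk v))
      rw [Submodule.mapQ_apply, Submodule.mapQ_apply, Submodule.mapQ_apply]
      simp [Matrix.mulVec_mulVec]

theorem fixSeries_strict [Fintype F] (p : ℕ) [Fact p.Prime] [CharP F p]
    (U : Subgroup (Matrix.SpecialLinearGroup (Fin n) F)) (hU : IsPGroup p ↥U) (i : ℕ)
    (hi : fixSeries U i ≠ ⊤) : fixSeries U i < fixSeries U (i + 1) := by
  have hp : p.Prime := Fact.out
  refine lt_of_le_of_ne (fixSeries_le_succ U i) ?_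
  intro heq
  set W := fixSeries U i with hWdef
  have hW : ∀ u ∈ U, W ≤ W.comap (Matrix.mulVecLin (u : Matrix (Fin n) (Fin n) F)) := by
    intro u hu v hv
    exact fixSeries_inv U i u hu v hv
  let _ := quotAction U W hW
  have hsmul : ∀ (u : U) (v : Fin n → F),
      u • (Submodule.Quotient.mk v : (Fin n → F) ⧸ W) =
        Submodule.Quotient.mk ((u : Matrix (Fin n) (Fin n) F).mulVec v) := by
    intro u v
    change W.mapQ W _ _ (Submodule.Quotient.mk v) = _
    rw [Submodule.mapQ_apply]
    rfl
  have : Finite ((Fin n → F) ⧸ W) := Finite.of_surjective _ (Submodule.mkQ_surjective W)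
  -- the quotient is nontrivial
  obtain ⟨v0, hv0⟩ : ∃ v0 : Fin n → F, v0 ∉ W := by
    by_contra hcon
    push Not at hcon
    exact hi (eq_top_iff.2 fun v _ => hcon v)
  have hx0 : (Submodule.Quotient.mk v0 : (Fin n → F) ⧸ W) ≠ 0 := by
    rw [Ne, Submodule.Quotient.mk_eq_zero]; exact hv0
  have hpdvd : p ∣ Nat.card ((Fin n → F) ⧸ W) := by
    have h1 : p • (Submodule.Quotient.mk v0 : (Fin n → F) ⧸ W) = 0 := by
      rw [← Nat.cast_smul_eq_nsmul F, CharP.cast_eq_zero, zero_smul]
    have h2 : addOrderOf (Submodule.Quotient.mk v0 : (Fin n → F) ⧸ W) ∣ p :=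
      addOrderOf_dvd_of_nsmul_eq_zero h1
    rcases (Nat.dvd_prime hp).1 h2 with h3 | h3
    · rw [AddMonoid.addOrderOf_eq_one_iff] at h3
      exact absurd h3 hx0
    · rw [← h3]
      exact addOrderOf_dvd_natCard _
  have h0fix : (0 : (Fin n → F) ⧸ W) ∈ MulAction.fixedPoints U ((Fin n → F) ⧸ W) := by
    intro u
    have := hsmul u 0
    simpa using this
  obtain ⟨b, hb, hb0⟩ := hU.exists_fixed_point_of_prime_dvd_card_of_fixed_point
    ((Fin n → F) ⧸ W) hpdvd h0fix
  induction b using Submodule.Quotient.induction_on with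
  | H v =>
    have hvW : v ∉ W := by
      intro hv
      apply hb0
      rw [eq_comm, Submodule.Quotient.mk_eq_zero]
      exact hv
    apply hvW
    rw [heq, mem_fixSeries_succ]
    intro u hu
    have := hb ⟨u, hu⟩
    rw [hsmul, Submodule.Quotient.eq] at this
    exact this

theorem fixSeries_top_or [Fintype F] (p : ℕ) [Fact p.Prime] [CharP F p]
    (U : Subgroup (Matrix.SpecialLinearGroup (Fin n) F)) (hU : IsPGroup p ↥U) (i : ℕ) :
    fixSeries U i = ⊤ ∨ i ≤ Module.finrank F (fixSeries U i) := by
  induction i with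
  | zero => right; omega
  | succ i ih =>
    by_cases hi : fixSeries U i = ⊤
    · left
      exact eq_top_iff.2 (hi ▸ fixSeries_le_succ U i)
    · right
      have h1 := fixSeries_strict p U hU i hi
      have h2 := Submodule.finrank_lt_finrank_of_lt h1
      rcases ih with h3 | h3
      · exact absurd h3 hi
      · omega

theorem exists_fixSeries_top [Fintype F] (p : ℕ) [Fact p.Prime] [CharP F p]
    (U : Subgroup (Matrix.SpecialLinearGroup (Fin n) F)) (hU : IsPGroup p ↥U) :
    ∃ i, fixSeries U i = ⊤ := by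
  refine ⟨n + 1, ?_⟩
  rcases fixSeries_top_or p U hU (n + 1) with h | h
  · exact h
  · have h1 : Module.finrank F (fixSeries U (n + 1)) ≤ Module.finrank F (Fin n → F) :=
      Submodule.finrank_le _
    rw [Module.finrank_fin_fun] at h1
    omega

/-- The Borel–Tits property of `SL_n(q)` in flag form: for a field `F` of characteristic `p` with finitely many elements and a non-trivial `p`-subgroup `U` of `SL_n(F)`, there is a flag `0 = V₀ < V₁ < ⋯ < V_{k+1} = F^n` with at least one proper non-zero member such that every element of the normaliser of `U` maps each `V_i` onto itself and every element of `U` acts trivially on each quotient `V_{i+1}/V_i` (so the normaliser lies in the parabolic subgroup of the flag and `U` in its unipotent radical). -/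
theorem result {F : Type*} [Field F] [Fintype F] (p : ℕ) [Fact p.Prime] [CharP F p] (n : ℕ)
    (U : Subgroup (Matrix.SpecialLinearGroup (Fin n) F)) (hU : IsPGroup p ↥U) (hne : U ≠ ⊥) :
    ∃ (k : ℕ) (V : Fin (k + 2) → Submodule F (Fin n → F)), 1 ≤ k ∧ StrictMono V ∧ V 0 = ⊥ ∧ V (Fin.last (k + 1)) = ⊤ ∧
      (∀ g ∈ Subgroup.normalizer (U : Set (Matrix.SpecialLinearGroup (Fin n) F)), ∀ i, (V i).map (Matrix.mulVecLin (g : Matrix (Fin n) (Fin n) F)) = V i) ∧
      (∀ u ∈ U, ∀ i : Fin (k + 1), ∀ v ∈ V i.succ, (u : Matrix (Fin n) (Fin n) F).mulVec v - v ∈ V (Fin.castSucc i)) := by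
  classical
  have hex := exists_fixSeries_top p U hU
  -- n is positive
  have hn : 0 < n := by
    by_contra hcon
    have hn0 : n = 0 := by omega
    subst hn0
    apply hne
    rw [Subgroup.eq_bot_iff_forall]
    intro x _
    exact Subsingleton.elim _ _
  have hW0 : fixSeries U 0 ≠ ⊤ := by
    intro h
    have h1 : (fun _ : Fin n => (1 : F)) ∈ fixSeries U 0 := by rw [h]; trivial
    simp only [fixSeries, Submodule.mem_bot] at h1
    have := congrFun h1 ⟨0, hn⟩
    simp at this
  have hW1 : fixSeries U 1 ≠ ⊤ := by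
    intro h
    apply hne
    rw [Subgroup.eq_bot_iff_forall]
    intro u hu
    have h2 : ∀ v : Fin n → F, (u : Matrix (Fin n) (Fin n) F).mulVec v = v := by
      intro v
      have hv : v ∈ fixSeries U 1 := by rw [h]; trivial
      have := (mem_fixSeries_succ U 0 v).1 hv u hu
      simp only [fixSeries, Submodule.mem_bot] at this
      exact sub_eq_zero.1 this
    apply Subtype.ext
    have h3 : (u : Matrix (Fin n) (Fin n) F) = 1 := by
      apply Matrix.ext_of_mulVec_single
      intro j
      rw [h2, Matrix.one_mulVec]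
    simpa using h3
  set K := Nat.find hex with hK
  have hKtop : fixSeries U K = ⊤ := Nat.find_spec hex
  have hKmin : ∀ i, i < K → fixSeries U i ≠ ⊤ := fun i hi => Nat.find_min hex hi
  have hK2 : 2 ≤ K := by
    by_contra hcon
    have : K = 0 ∨ K = 1 := by omega
    rcases this with h | h
    · rw [h] at hKtop; exact hW0 hKtop
    · rw [h] at hKtop; exact hW1 hKtop
  refine ⟨K - 1, fun i => fixSeries U i.val, by omega, ?_, rfl, ?_, ?_, ?_⟩
  · rw [Fin.strictMono_iff_lt_succ]
    intro i
    have hi : i.val < K := by have := i.isLt; omega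
    simpa using fixSeries_strict p U hU i.val (hKmin _ hi)
  · have : (Fin.last (K - 1 + 1)).val = K := by simp; omega
    change fixSeries U (Fin.last (K - 1 + 1)).val = ⊤
    rw [this]; exact hKtop
  · intro g hg i
    exact fixSeries_map_normalizer U i.val g hg
  · intro u hu i v hv
    have := (mem_fixSeries_succ U i.val v).1 (by simpa using hv) u hu
    simpa using this

end Cfsg.Agent.S2391
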