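import Cfsg.Statements.S2400
import Cfsg.Agent.Lib.Helper18.StSchurTriv
import Cfsg.Agent.Lib.Helper18.StSmallB2
import Cfsg.Agent.Lib.Helper18.StSmallD4
import Cfsg.Agent.Lib.Helper18.StSteinE6.All
import Cfsg.Agent.Lib.Helper18.StSteinE7.All

set_option autoImplicit false
open Cfsg

namespace Cfsg.Agent.S2400

/-- Over a finite field `K`, the group presented by Steinberg's relators (R1)–(R3) (the universal Chevalley group) of type E₆ or E₇, or of type B₂ or D₄ with `K` of more than two elements, has trivial Schur multiplier: every finite stem extension of it is an isomorphism (Schur multiplier described through stem extensions as in the definitions). Types G₂, F₄ and E₈ are not covered here. -/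
theorem result {K : Type*} [Field K] [Fintype K] (e : Cfsg.Lie.ChevalleyDatum × ℕ)
    (he : e ∈ [(Cfsg.Lie.chevE6, 0), (Cfsg.Lie.chevE7, 0), (Cfsg.Lie.chevB2, 2), (Cfsg.Lie.chevD4, 2)]) (hK : Fintype.card K ≠ e.2) :
    Cfsg.HasCyclicSchurMultiplier (e.1.SteinbergGroup K) 1 := by
  classical
  simp only [List.mem_cons, List.mem_nil_iff, or_false] at he
  rcases he with rfl | rfl | rfl | rfl
  · -- E₆
    have hne : Cfsg.Lie.chevE6 ∈ [Cfsg.Lie.chevB2, Cfsg.Lie.chevG2] → ∃ x : K, x ≠ 0 ∧ x ≠ 1 := by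
      intro h
      exfalso
      simp only [List.mem_cons, List.mem_nil_iff, or_false] at h
      rcases h with h | h
      · exact absurd (congrArg Cfsg.Lie.ChevalleyDatum.nroots h) (by decide)
      · exact absurd (congrArg Cfsg.Lie.ChevalleyDatum.nroots h) (by decide)
    refine Cfsg.Agent.Lib.Helper18.StAbs.schur_triv (by simp)
      (Cfsg.Agent.Lib.Helper18.StCov.cover_perfect _ (by simp) hne) ?_
    intro Γ' _ σ hs hc θ
    obtain ⟨τ, hτ, -⟩ := Cfsg.Agent.Lib.Helper18.StAbs.univ_E6 σ hs hc θ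
    exact ⟨τ, hτ⟩
  · -- E₇
    have hne : Cfsg.Lie.chevE7 ∈ [Cfsg.Lie.chevB2, Cfsg.Lie.chevG2] → ∃ x : K, x ≠ 0 ∧ x ≠ 1 := by
      intro h
      exfalso
      simp only [List.mem_cons, List.mem_nil_iff, or_false] at h
      rcases h with h | h
      · exact absurd (congrArg Cfsg.Lie.ChevalleyDatum.nroots h) (by decide)
      · exact absurd (congrArg Cfsg.Lie.ChevalleyDatum.nroots h) (by decide)
    refine Cfsg.Agent.Lib.Helper18.StAbs.schur_triv (by simp)
      (Cfsg.Agent.Lib.Helper18.StCov.cover_perfect _ (by simp) hne) ?_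
    intro Γ' _ σ hs hc θ
    obtain ⟨τ, hτ, -⟩ := Cfsg.Agent.Lib.Helper18.StAbs.univ_E7 σ hs hc θ
    exact ⟨τ, hτ⟩
  · -- B₂ over a field of more than two elements
    have h1 : 1 < Fintype.card K := Fintype.one_lt_card
    have h3 : 3 ≤ Fintype.card K := by
      have h2 : Fintype.card K ≠ 2 := hK
      omega
    have hne : Cfsg.Lie.chevB2 ∈ [Cfsg.Lie.chevB2, Cfsg.Lie.chevG2] → ∃ x : K, x ≠ 0 ∧ x ≠ 1 := by
      intro _
      by_contra hcon
      push Not at hcon
      have hsub : (Finset.univ : Finset K) ⊆ {0, 1} := by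
        intro x _
        by_cases hx : x = 0
        · simp [hx]
        · simp [hcon x hx]
      have hle := Finset.card_le_card hsub
      rw [Finset.card_univ] at hle
      have h2 : ({0, 1} : Finset K).card ≤ 2 := Finset.card_le_two
      omega
    refine Cfsg.Agent.Lib.Helper18.StAbs.schur_triv (by simp)
      (Cfsg.Agent.Lib.Helper18.StCov.cover_perfect _ (by simp) hne) ?_
    intro Γ' _ σ hs hc θ
    obtain ⟨τ, hτ, -⟩ := Cfsg.Agent.Lib.Helper18.StAbs.univ_B2_fin h3 σ hs hc θ
    exact ⟨τ, hτ⟩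
  · -- D₄ over a field of more than two elements
    have h1 : 1 < Fintype.card K := Fintype.one_lt_card
    have h3 : 3 ≤ Fintype.card K := by
      have h2 : Fintype.card K ≠ 2 := hK
      omega
    have hne : Cfsg.Lie.chevD4 ∈ [Cfsg.Lie.chevB2, Cfsg.Lie.chevG2] → ∃ x : K, x ≠ 0 ∧ x ≠ 1 := by
      intro h
      exfalso
      simp only [List.mem_cons, List.mem_nil_iff, or_false] at h
      rcases h with h | h
      · exact absurd (congrArg Cfsg.Lie.ChevalleyDatum.nroots h) (by decide)
      · exact absurd (congrArg Cfsg.Lie.ChevalleyDatum.nroots h) (by decide)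
    refine Cfsg.Agent.Lib.Helper18.StAbs.schur_triv (by simp)
      (Cfsg.Agent.Lib.Helper18.StCov.cover_perfect _ (by simp) hne) ?_
    intro Γ' _ σ hs hc θ
    obtain ⟨τ, hτ, -⟩ := Cfsg.Agent.Lib.Helper18.StAbs.univ_D4_fin h3 σ hs hc θ
    exact ⟨τ, hτ⟩

end Cfsg.Agent.S2400
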