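import Cfsg.Statements.S2403
import Cfsg.Agent.Lib.Helper40.SLTwoGen

set_option autoImplicit false
open Cfsg

namespace Cfsg.Agent.S2403

/-- Explicit two-element generation of `PSL_{n+1}(K)` over the fields with two or three elements: with `x = 1 + E₁₂` and `w` the monomial matrix with entries `1` in positions `(i, i+1)` and `(−1)^n` in position `(n+1, 1)`, the elements `x` and `w` generate `SL_{n+1}(K)` modulo its centre. -/
theorem result {K : Type*} [Field K] [Fintype K] (hK : Fintype.card K ≤ 3) (n : ℕ) (hn : 1 ≤ n)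
    (x w : Matrix.SpecialLinearGroup (Fin (n + 1)) K)
    (hx : (x : Matrix (Fin (n + 1)) (Fin (n + 1)) K) = Matrix.transvection (0 : Fin (n + 1)) (1 : Fin (n + 1)) 1)
    (hw : (w : Matrix (Fin (n + 1)) (Fin (n + 1)) K) =
      Matrix.of (fun i j => if j.val = i.val + 1 then 1 else if i.val = n ∧ j.val = 0 then (-1) ^ n else 0)) :
    Subgroup.closure ({x, w} : Set (Matrix.SpecialLinearGroup (Fin (n + 1)) K)) ⊔
      Subgroup.center (Matrix.SpecialLinearGroup (Fin (n + 1)) K) = ⊤ := by
  have htop : Subgroup.closure ({x, w} : Set (Matrix.SpecialLinearGroup (Fin (n + 1)) K)) = ⊤ := by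
    apply Cfsg.Agent.Lib.Helper40.SLTwoGen.eq_top_of_cox_of_root hn _ w hw
      (Subgroup.subset_closure (by simp))
    intro h01 c
    have hx1 : x = Matrix.SpecialLinearGroup.transvection h01 1 := Subtype.ext hx
    obtain ⟨m, rfl⟩ := Cfsg.Agent.Lib.Helper40.SLTwoGen.exists_natCast_of_card_le_three hK c
    rw [Cfsg.Agent.Lib.Helper40.SLTwoGen.transvection_natCast_eq_pow, ← hx1]
    exact Subgroup.pow_mem _ (Subgroup.subset_closure (by simp)) m
  rw [htop, top_sup_eq]

end Cfsg.Agent.S2403
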