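import Cfsg.Statements.S2411
import Cfsg.Agent.Lib.Helper94.SpGen2.CaseA
import Cfsg.Agent.Lib.Helper94.SpGen2.CaseB

set_option autoImplicit false
open Cfsg

namespace Cfsg.Agent.S2411

open Cfsg.Agent.Lib.Helper94 Cfsg.Agent.Lib.Helper94.SpGen2 in
/-- Two generators of the symplectic group, in terms of transvection centres. -/
theorem sp_two_gen_aux {F : Type*} [Field F] [Fintype F] (n : ℕ) :
    ∃ a b : Matrix.GeneralLinearGroup (Fin (n + 1) ⊕ Fin (n + 1)) F,
      a ∈ spGL (n + 1) F ∧ b ∈ spGL (n + 1) F ∧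
      ∀ v : Fin (n + 1) ⊕ Fin (n + 1) → F, v ∈ transCenters (Subgroup.closure {a, b}) := by
  have h1 : 1 < Fintype.card F := Fintype.one_lt_card
  by_cases h4 : 4 ≤ Fintype.card F
  · exact caseA h4
  · have hcases : Fintype.card F = 2 ∨ Fintype.card F = 3 := by omega
    have hcard : ((Fintype.card F : ℕ) : F) = 0 := FiniteField.cast_card_eq_zero F
    rcases hcases with h | h
    · have h2 : (2 : F) = 0 := by
        rw [h] at hcard
        exact_mod_cast hcard
      refine caseB (by rw [h]; exact Nat.prime_two) 1 3 ?_ (s0_pow_three h2)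
      have : ((3 : ℕ) : F) = 1 := by
        push_cast
        linear_combination h2
      rw [this]
      exact one_ne_zero
    · have h3 : (3 : F) = 0 := by
        rw [h] at hcard
        exact_mod_cast hcard
      refine caseB (by rw [h]; exact Nat.prime_three) 0 4 ?_ s0_pow_four
      have : ((4 : ℕ) : F) = 1 := by
        push_cast
        linear_combination h3
      rw [this]
      exact one_ne_zero

/-- The projective symplectic group `PSp_{2m}(q)` with `m ≥ 2` (and `q > 2` if `m = 2`) is generated by two of its elements. -/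
theorem result {F : Type*} [Field F] [Fintype F] (m : ℕ) (hm : 2 ≤ m) (hF : m = 2 → 2 < Fintype.card F) :
    ∃ a b : Cfsg.PSp m F, Subgroup.closure ({a, b} : Set (Cfsg.PSp m F)) = ⊤ := by
  obtain ⟨n, rfl⟩ : ∃ n, m = n + 1 := ⟨m - 1, by omega⟩
  obtain ⟨a, b, ha, hb, h⟩ := sp_two_gen_aux (F := F) n
  obtain ⟨A, B, hAB⟩ := Cfsg.Agent.Lib.Helper94.SpGen2.sp_two_gen_of_centers a b ha hb h
  refine ⟨QuotientGroup.mk A, QuotientGroup.mk B, ?_⟩
  have hmap : Subgroup.map (QuotientGroup.mk' (Subgroup.center
        (Matrix.symplecticGroup (Fin (n + 1)) F)))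
      (Subgroup.closure ({A, B} : Set (Matrix.symplecticGroup (Fin (n + 1)) F)))
      = Subgroup.closure ({QuotientGroup.mk A, QuotientGroup.mk B} :
          Set (Cfsg.PSp (n + 1) F)) := by
    rw [MonoidHom.map_closure, Set.image_pair]
    rfl
  rw [← hmap, hAB, Subgroup.map_top_of_surjective _ (QuotientGroup.mk'_surjective _)]

end Cfsg.Agent.S2411
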