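import Cfsg.Statements.S2418
import Cfsg.Agent.Lib.Helper19.CoxUB2
import Cfsg.Agent.Lib.Helper19.CoxUG2
import Cfsg.Agent.Lib.Helper19.CoxUD4
import Cfsg.Agent.Lib.Helper19.CoxUF4
import Cfsg.Agent.Lib.Helper19.CoxUE6
import Cfsg.Agent.Lib.Helper19.CoxUE7
import Cfsg.Agent.Lib.Helper19.CoxUE8

set_option autoImplicit false
open Cfsg

namespace Cfsg.Agent.S2418

/-- For the Coxeter groups of types B₂, G₂, D₄, F₄, E₇, E₈ the centre has order 2 (the element acting as −1 on the root system) and is generated by a power of the Coxeter element `s₁ s₂ ⋯ s_l`; the Coxeter group of type E₆ has trivial centre. -/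
theorem result (c : (Σ n : ℕ, CoxeterMatrix (Fin n)) × ℕ)
    (hc : c ∈ [(⟨2, CoxeterMatrix.B 2⟩, 2), (⟨2, CoxeterMatrix.G₂⟩, 2), (⟨4, Cfsg.Lie.coxeterD4⟩, 2), (⟨4, CoxeterMatrix.F₄⟩, 2),
      (⟨6, CoxeterMatrix.E₆⟩, 1), (⟨7, CoxeterMatrix.E₇⟩, 2), (⟨8, CoxeterMatrix.E₈⟩, 2)]) :
    Nat.card (Subgroup.center c.1.2.Group) = c.2 ∧
      Subgroup.center c.1.2.Group ≤ Subgroup.zpowers ((List.finRange c.1.1).map c.1.2.simple).prod := by
  simp only [List.mem_cons, List.mem_nil_iff, or_false] at hc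
  rcases hc with rfl | rfl | rfl | rfl | rfl | rfl | rfl
  · exact Cfsg.Agent.Lib.Helper19.Cox.UB2.center
  · exact Cfsg.Agent.Lib.Helper19.Cox.UG2.center
  · exact Cfsg.Agent.Lib.Helper19.Cox.UD4.center
  · exact Cfsg.Agent.Lib.Helper19.Cox.UF4.center
  · exact Cfsg.Agent.Lib.Helper19.Cox.UE6.center
  · exact Cfsg.Agent.Lib.Helper19.Cox.UE7.center
  · exact Cfsg.Agent.Lib.Helper19.Cox.UE8.center

end Cfsg.Agent.S2418
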