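import Cfsg.Statements.S2425
import Cfsg.Agent.Lib.Helper58.StValue

set_option autoImplicit false
open scoped MatrixGroups
open Cfsg

namespace Cfsg.Agent.S2425


/-- Values of the Steinberg character of `GL_n(q)` (the partition-indexed character for `ν = (1,…,1)`, of degree `q^(n(n−1)/2)`) at elements of order prime to the characteristic: if the characteristic polynomial of such an element is `∏ f^(m_f)` over distinct monic irreducible `f`, the value is `∏_f (−1)^((deg f − 1) m_f) q^(deg f · m_f (m_f − 1)/2)`. (At elements of order divisible by the characteristic the value is 0; that is not part of this statement.) -/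
theorem result {F : Type*} [Field F] [Fintype F] [DecidableEq F] {q : ℕ} (hq : Fintype.card F = q) (p : ℕ) [Fact p.Prime] [CharP F p]
    {n : ℕ} (x : GL (Fin n) F) (hx : (orderOf x).Coprime p) :
    Cfsg.unipotentCharacterGL n F (fun _ => 1) x =
      ∏ f ∈ (UniqueFactorizationMonoid.normalizedFactors (x : Matrix (Fin n) (Fin n) F).charpoly).toFinset,
        (-1 : ℂ) ^ ((f.natDegree - 1) * (UniqueFactorizationMonoid.normalizedFactors (x : Matrix (Fin n) (Fin n) F).charpoly).count f) *
          (q : ℂ) ^ (f.natDegree * (UniqueFactorizationMonoid.normalizedFactors (x : Matrix (Fin n) (Fin n) F).charpoly).count f *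
            ((UniqueFactorizationMonoid.normalizedFactors (x : Matrix (Fin n) (Fin n) F).charpoly).count f - 1) / 2) := by
  subst hq
  rcases n with _ | m
  · have h1 : (x : Matrix (Fin 0) (Fin 0) F).charpoly = 1 := by
      unfold Matrix.charpoly
      exact Matrix.det_isEmpty
    rw [h1, UniqueFactorizationMonoid.normalizedFactors_one, Multiset.toFinset_zero,
      Finset.prod_empty]
    exact Cfsg.Agent.Lib.Helper58.StValue.st_zero x
  · rw [Cfsg.Agent.Lib.Helper58.StValue.st_value p m x hx]
    apply Cfsg.Agent.Lib.Helper58.StValue.Fm_final
    · intro g hg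
      exact Polynomial.natDegree_pos_iff_degree_pos.mpr (Polynomial.degree_pos_of_irreducible
        (UniqueFactorizationMonoid.irreducible_of_normalized_factor g hg))
    · have h2 := Cfsg.Agent.Lib.Helper58.StValue.natDegree_eq_sum
        (x : Matrix (Fin (m + 1)) (Fin (m + 1)) F).charpoly (Matrix.charpoly_monic _)
      rw [Matrix.charpoly_natDegree_eq_dim, Fintype.card_fin] at h2
      exact h2

end Cfsg.Agent.S2425
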