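-- Statement S2427: structure of SL(2,3).
import Mathlib
import Cfsg.Statements.S2427
import Cfsg.Agent.Lib.Helper95.SL23

set_option autoImplicit false
open Cfsg

namespace Cfsg.Agent.S2427

open Cfsg.Agent.Lib.Helper95.SL23 QuaternionGroup
open scoped commutatorElement

set_option maxRecDepth 1000000 in
lemma mul_pow4 : ∀ g h : S, g ^ 4 = 1 → h ^ 4 = 1 → (g * h) ^ 4 = 1 := by decide +kernel

/-- the subgroup of elements of order dividing 4 -/
def Q4 : Subgroup S where
  carrier := {g | g ^ 4 = 1}
  mul_mem' := fun {a b} ha hb => mul_pow4 a b ha hb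
  one_mem' := one_pow 4
  inv_mem' := fun {a} ha => by
    show a⁻¹ ^ 4 = 1
    rw [inv_pow, ha, inv_one]

lemma mem_Q4 (g : S) : g ∈ Q4 ↔ g ^ 4 = 1 := Iff.rfl

set_option maxRecDepth 1000000 in
lemma comm_pow4 : ∀ a b c : S, c * b * a = a * b → c ^ 4 = 1 := by decide +kernel

set_option maxRecDepth 1000000 in
lemma pow4_comm : ∀ q : S, q ^ 4 = 1 → ∃ a b : S, q * b * a = a * b := by decide +kernel

set_option maxRecDepth 1000000 in
lemma center_cases : ∀ g : S, (∀ h : S, h * g = g * h) → g = 1 ∨ g = I3 ^ 2 := by decide +kernel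

set_option maxRecDepth 1000000 in
lemma central_z : ∀ h : S, h * I3 ^ 2 = I3 ^ 2 * h := by decide +kernel

set_option maxRecDepth 1000000 in
lemma claimA : ∀ g : S, g ≠ 1 → g ≠ I3 ^ 2 → ∃ x w : S, w * x * g = I3 * w * g * x := by
  decide +kernel

set_option maxRecDepth 1000000 in
lemma claimB : ∀ g : S, g ^ 4 ≠ 1 → ∃ q : S, q ^ 4 = 1 ∧ (q * g = Y3 ∨ q * g = Y3 ^ 2) := by
  decide +kernel

set_option maxRecDepth 1000000 in
lemma claimC : ∀ q : S, q ^ 4 = 1 → ∃ l : Fin 2, ∃ k : Fin 4, q = J3 ^ (l : ℕ) * I3 ^ (k : ℕ) := by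
  decide +kernel

set_option maxRecDepth 1000000 in
lemma q8_range : ∀ g : S, g ^ 4 = 1 → ∃ q : QuaternionGroup 2, q8Fun I3 J3 q = g := by
  decide +kernel

set_option maxRecDepth 1000000 in
lemma q8_pow4 : ∀ q : QuaternionGroup 2, (q8Fun I3 J3 q) ^ 4 = 1 := by decide +kernel

set_option maxRecDepth 1000000 in
lemma q8_inj : ∀ q : QuaternionGroup 2, q8Fun I3 J3 q = 1 → q = 1 := by decide +kernel

lemma commutator_eq_Q4 : commutator S = Q4 := by
  apply le_antisymm
  · rw [commutator_eq_closure, Subgroup.closure_le]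
    rintro g ⟨a, b, rfl⟩
    apply comm_pow4 a b
    rw [commutatorElement_def]
    group
  · intro q hq
    obtain ⟨a, b, hab⟩ := pow4_comm q hq
    have : q = ⁅a, b⁆ := by
      rw [commutatorElement_def, ← hab]
      group
    rw [this]
    exact Subgroup.commutator_mem_commutator (Subgroup.mem_top a) (Subgroup.mem_top b)

lemma center_eq : Subgroup.center S = Subgroup.zpowers (I3 ^ 2) := by
  apply le_antisymm
  · intro g hg
    rcases center_cases g (fun h => (Subgroup.mem_center_iff.mp hg h)) with rfl | rfl
    · exact Subgroup.one_mem _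
    · exact Subgroup.mem_zpowers _
  · rw [Subgroup.zpowers_le, Subgroup.mem_center_iff]
    exact central_z

/-- The group SL₂ over the field with 3 elements has order 24 and centre of order 2; its commutator subgroup has order 8, is isomorphic to the quaternion group of order 8 and is complemented by every Sylow 3-subgroup (so the group is a semidirect product of a quaternion group of order 8 by a cyclic group of order 3); and its only normal subgroups besides the trivial subgroup and the whole group are the centre and the commutator subgroup. -/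
theorem result :
    Nat.card (Matrix.SpecialLinearGroup (Fin 2) (ZMod 3)) = 24 ∧
    Nat.card (Subgroup.center (Matrix.SpecialLinearGroup (Fin 2) (ZMod 3))) = 2 ∧
    Nat.card (commutator (Matrix.SpecialLinearGroup (Fin 2) (ZMod 3))) = 8 ∧
    Nonempty (commutator (Matrix.SpecialLinearGroup (Fin 2) (ZMod 3)) ≃* QuaternionGroup 2) ∧
    (∀ P : Sylow 3 (Matrix.SpecialLinearGroup (Fin 2) (ZMod 3)),
      Subgroup.IsComplement' (commutator (Matrix.SpecialLinearGroup (Fin 2) (ZMod 3)))
        (P : Subgroup (Matrix.SpecialLinearGroup (Fin 2) (ZMod 3)))) ∧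
    ∀ N : Subgroup (Matrix.SpecialLinearGroup (Fin 2) (ZMod 3)), N.Normal →
      N = ⊥ ∨ N = ⊤ ∨ N = Subgroup.center (Matrix.SpecialLinearGroup (Fin 2) (ZMod 3)) ∨
        N = commutator (Matrix.SpecialLinearGroup (Fin 2) (ZMod 3)) := by
  have hrel := rels_SL23
  -- the iso of `Q₈` with the commutator subgroup
  have hinj : Function.Injective (q8Hom I3 J3 hrel.h4 hrel.h2 hrel.hc) := by
    rw [injective_iff_map_eq_one]
    intro q hq
    exact q8_inj q hq
  have hrange : (q8Hom I3 J3 hrel.h4 hrel.h2 hrel.hc).range = commutator S := by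
    rw [commutator_eq_Q4]
    apply le_antisymm
    · rintro _ ⟨q, rfl⟩
      exact q8_pow4 q
    · intro g hg
      obtain ⟨q, hq⟩ := q8_range g hg
      exact ⟨q, hq⟩
  have e0 : QuaternionGroup 2 ≃* (q8Hom I3 J3 hrel.h4 hrel.h2 hrel.hc).range :=
    MonoidHom.ofInjective hinj
  have hcard8 : Nat.card (commutator S) = 8 := by
    rw [← hrange, ← Nat.card_congr e0.toEquiv, Nat.card_eq_fintype_card, QuaternionGroup.card]
  have hz2 : orderOf (I3 ^ 2) = 2 := by
    apply orderOf_eq_prime
    · decide
    · decide
  refine ⟨card_SL23, ?_, hcard8, ?_, ?_, ?_⟩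
  · rw [center_eq, Nat.card_zpowers, hz2]
  · rw [← hrange]
    exact ⟨e0.symm⟩
  · intro P
    have hP3 : Nat.card (P : Subgroup S) = 3 := by
      obtain ⟨k, hk⟩ := IsPGroup.iff_card.mp P.isPGroup'
      have hdvd : 3 ^ k ∣ 24 := by
        rw [← hk, ← card_SL23]
        exact Subgroup.card_subgroup_dvd_card _
      have hk1 : k ≤ 1 := by
        by_contra h
        push Not at h
        have h9 : 3 ^ 2 ∣ 24 := (Nat.pow_dvd_pow 3 h).trans hdvd
        norm_num at h9
      have hk0 : k ≠ 0 := by
        rintro rfl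
        have h1 := Subgroup.card_mul_index (P : Subgroup S)
        rw [hk, card_SL23] at h1
        have h2 : (P : Subgroup S).index = 24 := by omega
        have h3 := P.not_dvd_index
        rw [h2] at h3
        norm_num at h3
      have : k = 1 := by omega
      rw [hk, this, pow_one]
    apply Subgroup.isComplement'_of_coprime
    · rw [hcard8, hP3, card_SL23]
    · rw [hcard8, hP3]
      norm_num
  · intro N hN
    have hI_of : ∀ g ∈ N, g ≠ 1 → g ≠ I3 ^ 2 → Q4 ≤ N := by
      intro g hg hg1 hgz
      obtain ⟨x, w, hxw⟩ := claimA g hg1 hgz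
      have hc : x * g * x⁻¹ * g⁻¹ ∈ N := N.mul_mem (hN.conj_mem g hg x) (N.inv_mem hg)
      have hI : I3 ∈ N := by
        have h1 : I3 = w * (x * g * x⁻¹ * g⁻¹) * w⁻¹ := by
          have h2 : w * (x * g * x⁻¹ * g⁻¹) * w⁻¹ = (w * x * g) * (x⁻¹ * g⁻¹ * w⁻¹) := by group
          rw [h2, hxw]
          group
        rw [h1]
        exact hN.conj_mem _ hc w
      have hJ : J3 ∈ N := by
        rw [← hrel.h5]
        exact hN.conj_mem _ hI Y3
      intro q hq
      obtain ⟨l, k, rfl⟩ := claimC q hq
      exact N.mul_mem (N.pow_mem hJ _) (N.pow_mem hI _)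
    by_cases h1 : ∃ g ∈ N, g ^ 4 ≠ 1
    · right; left
      obtain ⟨g, hg, hg4⟩ := h1
      have hg1 : g ≠ 1 := by
        rintro rfl
        exact hg4 (one_pow 4)
      have hgz : g ≠ I3 ^ 2 := by
        rintro rfl
        apply hg4
        decide
      have hQN := hI_of g hg hg1 hgz
      have hY : Y3 ∈ N := by
        obtain ⟨q, hq4, hq⟩ := claimB g hg4
        have hqg : q * g ∈ N := N.mul_mem (hQN hq4) hg
        rcases hq with hq | hq
        · rw [← hq]
          exact hqg
        · rw [hq] at hqg
          have : Y3 = (Y3 ^ 2) ^ 2 := by decide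
          rw [this]
          exact N.pow_mem hqg 2
      rw [eq_top_iff]
      intro h _
      by_cases hh : h ^ 4 = 1
      · exact hQN hh
      · obtain ⟨q, hq4, hq⟩ := claimB h hh
        have hqN : q ∈ N := hQN hq4
        have : h = q⁻¹ * (q * h) := by group
        rw [this]
        rcases hq with hq | hq
        · rw [hq]
          exact N.mul_mem (N.inv_mem hqN) hY
        · rw [hq]
          exact N.mul_mem (N.inv_mem hqN) (N.pow_mem hY 2)
    · push Not at h1
      have hNQ : N ≤ Q4 := fun g hg => h1 g hg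
      by_cases h2 : ∃ g ∈ N, g ≠ 1 ∧ g ≠ I3 ^ 2
      · right; right; right
        obtain ⟨g, hg, hg1, hgz⟩ := h2
        rw [commutator_eq_Q4]
        exact le_antisymm hNQ (hI_of g hg hg1 hgz)
      · push Not at h2
        by_cases h3 : I3 ^ 2 ∈ N
        · right; right; left
          rw [center_eq]
          apply le_antisymm
          · intro g hg
            by_cases hg1 : g = 1
            · rw [hg1]
              exact Subgroup.one_mem _
            · rw [h2 g hg hg1]
              exact Subgroup.mem_zpowers _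
          · rw [Subgroup.zpowers_le]
            exact h3
        · left
          rw [eq_bot_iff]
          intro g hg
          rw [Subgroup.mem_bot]
          by_contra hg1
          apply h3
          rw [← h2 g hg hg1]
          exact hg

end Cfsg.Agent.S2427
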