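import Cfsg.Statements.S2428
import Cfsg.Agent.Lib.Helper41.SL2Torus
import Cfsg.Agent.Lib.Helper5.PSL2

set_option autoImplicit false
open Cfsg

namespace Cfsg.Agent.S2428

open Cfsg.Agent.Lib.Helper41

/-- Let F be a finite field with q elements, q odd, and let d be a diagonal element of SL₂ over F whose diagonal entry a has a² ≠ 1 (such d exist exactly when q > 3). Then the centraliser of d is precisely the diagonal subgroup T; the normaliser of T has order 2(q − 1) and exactly (q + 5)/2 conjugacy classes; and every element of that normaliser outside T has square equal to −1. -/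
theorem result {F : Type*} [Field F] [Fintype F] (hodd : Odd (Fintype.card F))
    (d : Matrix.SpecialLinearGroup (Fin 2) F) (hd01 : (d : Matrix (Fin 2) (Fin 2) F) 0 1 = 0) (hd10 : (d : Matrix (Fin 2) (Fin 2) F) 1 0 = 0) (hda : (d : Matrix (Fin 2) (Fin 2) F) 0 0 ^ 2 ≠ 1) :
    (∀ g : Matrix.SpecialLinearGroup (Fin 2) F, g ∈ Subgroup.centralizer ({d} : Set (Matrix.SpecialLinearGroup (Fin 2) F)) ↔ ((g : Matrix (Fin 2) (Fin 2) F) 0 1 = 0 ∧ (g : Matrix (Fin 2) (Fin 2) F) 1 0 = 0)) ∧
    Nat.card (Subgroup.normalizer ((Subgroup.centralizer ({d} : Set (Matrix.SpecialLinearGroup (Fin 2) F))) : Set (Matrix.SpecialLinearGroup (Fin 2) F))) = 2 * (Fintype.card F - 1) ∧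
    Nat.card (ConjClasses (Subgroup.normalizer ((Subgroup.centralizer ({d} : Set (Matrix.SpecialLinearGroup (Fin 2) F))) : Set (Matrix.SpecialLinearGroup (Fin 2) F)))) = (Fintype.card F + 5) / 2 ∧
    ∀ g : Matrix.SpecialLinearGroup (Fin 2) F, g ∈ Subgroup.normalizer ((Subgroup.centralizer ({d} : Set (Matrix.SpecialLinearGroup (Fin 2) F))) : Set (Matrix.SpecialLinearGroup (Fin 2) F)) →
      g ∉ Subgroup.centralizer ({d} : Set (Matrix.SpecialLinearGroup (Fin 2) F)) → ((g * g) : Matrix (Fin 2) (Fin 2) F) = -1 := by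
  have h2 : (2 : F) ≠ 0 := Cfsg.Agent.Lib.Helper5.two_ne_zero_of_odd_card hodd
  obtain ⟨a, ha⟩ : ∃ a : F, a = d.1 0 0 := ⟨_, rfl⟩
  obtain ⟨e, he⟩ : ∃ e : F, e = d.1 1 1 := ⟨_, rfl⟩
  have hdet : a * e = 1 := by
    have := d.det_coe
    rw [Matrix.det_fin_two, hd01, hd10, ← ha, ← he] at this
    linear_combination this
  have haa : a * a ≠ 1 := by
    rw [← pow_two, ha]
    exact hda
  have hae : a ≠ e := by
    intro h
    apply haa
    rw [← hdet, ← h]
  have htr : d.1.trace = a + e := by
    rw [Matrix.trace_fin_two, ← ha, ← he]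
  have hτ : d.1.trace * d.1.trace ≠ 4 := by
    rw [htr]
    intro h
    apply hae
    have : (a - e) * (a - e) = 0 := by linear_combination h - 4 * hdet
    exact sub_eq_zero.mp (mul_self_eq_zero.mp this)
  have hdc := not_mem_center_of_trace h2 d hτ
  have hcard : Nat.card (Subgroup.centralizer ({d} : Set (Matrix.SpecialLinearGroup (Fin 2) F))) =
      Fintype.card F - 1 := by
    rw [card_centralizer_eq_card_conic d hdc]
    apply card_conic_split' (l := a)
    · rw [htr]
      linear_combination -hdet
    · exact haa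
  have hq : Fintype.card F % 2 = 1 := Nat.odd_iff.mp hodd
  refine ⟨?_, ?_, ?_, ?_⟩
  · intro g
    rw [Subgroup.mem_centralizer_singleton_iff]
    constructor
    · intro h
      have h' : g.1 * d.1 = d.1 * g.1 := by
        rw [← Matrix.SpecialLinearGroup.coe_mul, h, Matrix.SpecialLinearGroup.coe_mul]
      have e01 := congrFun (congrFun h' 0) 1
      have e10 := congrFun (congrFun h' 1) 0
      simp only [Matrix.mul_apply, Fin.sum_univ_two, hd01, hd10, ← ha, ← he, mul_zero, zero_mul,
        add_zero, zero_add] at e01 e10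
      constructor
      · have : g.1 0 1 * (e - a) = 0 := by linear_combination e01
        rcases mul_eq_zero.mp this with h1 | h1
        · exact h1
        · exact absurd (sub_eq_zero.mp h1).symm hae
      · have : g.1 1 0 * (a - e) = 0 := by linear_combination e10
        rcases mul_eq_zero.mp this with h1 | h1
        · exact h1
        · exact absurd (sub_eq_zero.mp h1) hae
    · rintro ⟨h01, h10⟩
      apply Subtype.ext
      rw [Matrix.SpecialLinearGroup.coe_mul, Matrix.SpecialLinearGroup.coe_mul]
      ext i j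
      fin_cases i <;> fin_cases j <;>
        simp [Matrix.mul_apply, Fin.sum_univ_two, hd01, hd10, h01, h10, mul_comm]
  · rw [card_normalizer_centralizer h2 d hτ, hcard]
  · have key := card_conjClasses_normalizer_centralizer h2 d hτ
    rw [hcard] at key
    have hq1 : 1 < Fintype.card F := Fintype.one_lt_card
    omega
  · intro g hg hgn
    rw [← Matrix.SpecialLinearGroup.coe_mul]
    exact sq_of_mem_normalizer_of_not_mem h2 d hτ g hg hgn

end Cfsg.Agent.S2428
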