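import Cfsg.Statements.S2429
import Cfsg.Agent.Lib.Helper41.SL2Nonsplit
import Cfsg.Agent.Lib.Helper5.PSL2

set_option autoImplicit false
open Cfsg

namespace Cfsg.Agent.S2429

open Cfsg.Agent.Lib.Helper41

/-- Let F be a finite field with q elements, q odd. Then SL₂ over F contains a cyclic subgroup T′ of order q + 1 (a non-split torus) with the following properties: T′ is its own centraliser, and indeed the centraliser of each element of T′ other than 1 and −1 is exactly T′; every element of SL₂ having no eigenvector in F² is conjugate to an element of T′; the normaliser of T′ has order 2(q + 1) and exactly (q + 7)/2 conjugacy classes; and every element of that normaliser outside T′ has square −1. -/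
theorem result {F : Type*} [Field F] [Fintype F] (hodd : Odd (Fintype.card F)) :
    ∃ T' : Subgroup (Matrix.SpecialLinearGroup (Fin 2) F), IsCyclic T' ∧ Nat.card T' = Fintype.card F + 1 ∧
      Subgroup.centralizer ((T' : Set (Matrix.SpecialLinearGroup (Fin 2) F))) = T' ∧
      (∀ g : Matrix.SpecialLinearGroup (Fin 2) F, g ∈ T' → (g : Matrix (Fin 2) (Fin 2) F) ≠ 1 → (g : Matrix (Fin 2) (Fin 2) F) ≠ -1 → Subgroup.centralizer ({g} : Set (Matrix.SpecialLinearGroup (Fin 2) F)) = T') ∧
      (∀ g : Matrix.SpecialLinearGroup (Fin 2) F, (∀ (c : F) (v : Fin 2 → F), v ≠ 0 → (g : Matrix (Fin 2) (Fin 2) F).mulVec v ≠ c • v) → ∃ h : Matrix.SpecialLinearGroup (Fin 2) F, h * g * h⁻¹ ∈ T') ∧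
      Nat.card (Subgroup.normalizer (T' : Set (Matrix.SpecialLinearGroup (Fin 2) F))) = 2 * (Fintype.card F + 1) ∧
      Nat.card (ConjClasses (Subgroup.normalizer (T' : Set (Matrix.SpecialLinearGroup (Fin 2) F)))) = (Fintype.card F + 7) / 2 ∧
      ∀ g : Matrix.SpecialLinearGroup (Fin 2) F, g ∈ Subgroup.normalizer (T' : Set (Matrix.SpecialLinearGroup (Fin 2) F)) → g ∉ T' → ((g * g) : Matrix (Fin 2) (Fin 2) F) = -1 := by
  have h2 : (2 : F) ≠ 0 := Cfsg.Agent.Lib.Helper5.two_ne_zero_of_odd_card hodd
  obtain ⟨W, hW, hWno, hWcard, hWz⟩ := exists_nonsplit_torus h2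
  have hτ := trace_sq_ne_four_of_nonsplit hWno
  have hWc := not_mem_center_of_trace h2 W hτ
  have hWW : W ∈ Subgroup.centralizer ({W} : Set (Matrix.SpecialLinearGroup (Fin 2) F)) := by
    rw [Subgroup.mem_centralizer_singleton_iff]
  refine ⟨Subgroup.centralizer ({W} : Set (Matrix.SpecialLinearGroup (Fin 2) F)),
    ?_, hWcard, ?_, ?_, ?_, ?_, ?_, ?_⟩
  · rw [hWz]
    infer_instance
  · ext g
    constructor
    · intro hg
      rw [Subgroup.mem_centralizer_iff] at hg
      rw [Subgroup.mem_centralizer_singleton_iff]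
      exact (hg W hWW).symm
    · intro hg
      rw [Subgroup.mem_centralizer_iff]
      intro h hh
      exact centralizer_comm W hWc h g hh hg
  · intro g hg hg1 hg2
    apply centralizer_eq_of_mem W g hWc _ hg
    rw [sl2_mem_center_iff]
    rintro (h | h)
    · exact hg1 h
    · exact hg2 h
  · intro g hg
    exact nonsplit_conj_mem h2 W hWno g (no_root_of_no_eigenvector g hg)
  · rw [card_normalizer_centralizer h2 W hτ, hWcard]
  · have key := card_conjClasses_normalizer_centralizer h2 W hτ
    rw [hWcard] at key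
    omega
  · intro g hg hgn
    rw [← Matrix.SpecialLinearGroup.coe_mul]
    exact sq_of_mem_normalizer_of_not_mem h2 W hτ g hg hgn

end Cfsg.Agent.S2429
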