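import Cfsg.Statements.S2434
import Cfsg.Agent.Lib.Helper39.SL2OddClass
import Cfsg.Agent.Lib.Helper41.SL2Quart

set_option autoImplicit false
open Cfsg

namespace Cfsg.Agent.S2434

open Cfsg.Agent.Lib.Helper39 Matrix Representation in
/-- the irreducible characters of degree `2` of `SL₂(3)` vanish at the regular elements. -/
theorem aux3 {F : Type*} [Field F] [Fintype F] [DecidableEq F] (hq : Fintype.card F = 2 * 1 + 1)
    (h2 : ringChar F ≠ 2) (χ : Matrix.SpecialLinearGroup (Fin 2) F → ℂ)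
    (hχ : Cfsg.IsIrrCharacter (Matrix.SpecialLinearGroup (Fin 2) F) χ) (hχ1 : χ 1 = 2)
    (g : Matrix.SpecialLinearGroup (Fin 2) F) (hg : g.1.trace * g.1.trace ≠ 4) : χ g = 0 := by
  obtain ⟨n, ρ, hirr, hρ, hn, -⟩ := irr_rep_data hχ
  haveI := hirr
  have hn2 : n = 2 := by
    rw [hχ1] at hn
    exact_mod_cast hn.symm
  subst hn2
  obtain ⟨ψ, hψ⟩ := exists_addChar_ne_one (F := F)
  obtain ⟨ε, hε⟩ := exists_nonsquare_aux h2
  obtain ⟨m, k₁, k₂, -, -, -, hdeg, -, -, -, hN, heq⟩ := sl2_unip_odd' h2 1 hq ψ hψ ε hε ρ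
  have hfr : Module.finrank ℂ (Fin 2 → ℂ) = 2 := by simp
  rw [hfr] at hdeg hN heq
  have hm : m ≤ 2 := by omega
  have hk1 : k₁ ≤ 2 := by omega
  have hk2 : k₂ ≤ 2 := by omega
  have hE : (2 * 1 + 2) * (m ^ 2 + 1 * (k₁ ^ 2 + k₂ ^ 2)) = 2 * 1 ^ 2 + 2 * 1 + 2 ^ 2 := by
    interval_cases m <;> interval_cases k₁ <;> interval_cases k₂ <;> omega
  rw [← hρ]
  apply heq hE g
  · intro h
    apply hg
    rw [h]
    norm_num
  · intro h
    apply hg
    rw [h]
    norm_num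

open Cfsg.Agent.Lib.Helper39 Matrix Representation in
/-- a faithful character of a cyclic subgroup of order `4` of `SL₂`. -/
theorem aux_theta {F : Type*} [Field F] [Fintype F] [DecidableEq F] (h2 : (2 : F) ≠ 0)
    (C : Subgroup (Matrix.SpecialLinearGroup (Fin 2) F)) (k₀ : C)
    (hk₀ : ∀ c : C, c ∈ Subgroup.zpowers k₀) (hcard : Nat.card C = 4) :
    ∃ θ : C →* ℂˣ, (∃ c : C, θ c ^ 2 ≠ 1) ∧
      ∀ c : C, (c : Matrix.SpecialLinearGroup (Fin 2) F) ∉
        Subgroup.center (Matrix.SpecialLinearGroup (Fin 2) F) →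
        ((θ c : ℂˣ) : ℂ) + (((θ c)⁻¹ : ℂˣ) : ℂ) = 0 := by
  have hord : orderOf k₀ = 4 := by
    rw [orderOf_eq_card_of_forall_mem_zpowers hk₀, hcard]
  have hζ := Complex.isPrimitiveRoot_exp 4 (by norm_num)
  obtain ⟨u, hup⟩ : ∃ u : ℂˣ, IsPrimitiveRoot u 4 :=
    ⟨(hζ.isUnit (by norm_num)).unit, IsPrimitiveRoot.isUnit_unit (by norm_num) hζ⟩
  have huo : orderOf u = 4 := hup.eq_orderOf.symm
  have hdv : orderOf u ∣ orderOf k₀ := by rw [hord, huo]
  have hθk : monoidHomOfForallMemZpowers hk₀ hdv k₀ = u :=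
    monoidHomOfForallMemZpowers_apply_gen hk₀ hdv
  refine ⟨monoidHomOfForallMemZpowers hk₀ hdv, ⟨k₀, ?_⟩, ?_⟩
  · rw [hθk]
    intro h
    have hd := (hup.pow_eq_one_iff_dvd _).mp h
    omega
  · intro c hcc
    obtain ⟨n, hn⟩ := Subgroup.mem_zpowers_iff.mp (hk₀ c)
    have hθc : monoidHomOfForallMemZpowers hk₀ hdv c = u ^ n := by
      rw [← hn, map_zpow, hθk]
    have h4 : (monoidHomOfForallMemZpowers hk₀ hdv c) ^ 4 = 1 := by
      rw [← map_pow]
      have : c ^ 4 = 1 := by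
        rw [← hcard]
        exact pow_card_eq_one'
      rw [this, map_one]
    have hne : (monoidHomOfForallMemZpowers hk₀ hdv c) ^ 2 ≠ 1 := by
      intro h
      apply hcc
      rw [hθc, ← zpow_natCast, ← _root_.zpow_mul] at h
      have hd := orderOf_dvd_iff_zpow_eq_one.mpr h
      rw [huo, ← hord] at hd
      have hk := orderOf_dvd_iff_zpow_eq_one.mp hd
      rw [_root_.zpow_mul, hn] at hk
      have hcc2 : (c : Matrix.SpecialLinearGroup (Fin 2) F) *
          (c : Matrix.SpecialLinearGroup (Fin 2) F) = 1 := by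
        have h5 : c * c = 1 := by
          have : c ^ ((2 : ℕ) : ℤ) = c * c := by
            rw [zpow_natCast, sq]
          rw [← this]
          exact hk
        have h6 := congrArg Subtype.val h5
        exact h6
      rw [mem_center_iff_one_or_zSL, zSL_eq_negOne]
      exact Cfsg.Agent.Lib.Helper41.sq_eq_one_cases h2 _ hcc2
    have hv4 : (((monoidHomOfForallMemZpowers hk₀ hdv c : ℂˣ) : ℂ)) ^ 4 = 1 := by
      rw [← Units.val_pow_eq_pow_val, h4, Units.val_one]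
    have hv2 : (((monoidHomOfForallMemZpowers hk₀ hdv c : ℂˣ) : ℂ)) ^ 2 ≠ 1 := by
      intro h
      apply hne
      apply Units.ext
      rw [Units.val_pow_eq_pow_val, h, Units.val_one]
    have hvw : ((monoidHomOfForallMemZpowers hk₀ hdv c : ℂˣ) : ℂ) *
        (((monoidHomOfForallMemZpowers hk₀ hdv c)⁻¹ : ℂˣ) : ℂ) = 1 := by
      rw [← Units.val_mul, mul_inv_cancel, Units.val_one]
    have hsq : (((monoidHomOfForallMemZpowers hk₀ hdv c : ℂˣ) : ℂ)) ^ 2 = -1 := by
      have h7 : ((((monoidHomOfForallMemZpowers hk₀ hdv c : ℂˣ) : ℂ)) ^ 2 - 1) *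
          ((((monoidHomOfForallMemZpowers hk₀ hdv c : ℂˣ) : ℂ)) ^ 2 + 1) = 0 := by
        linear_combination hv4
      rcases mul_eq_zero.mp h7 with h8 | h8
      · exact absurd (sub_eq_zero.mp h8) hv2
      · linear_combination h8
    linear_combination (((monoidHomOfForallMemZpowers hk₀ hdv c)⁻¹ : ℂˣ) : ℂ) * hsq -
      ((monoidHomOfForallMemZpowers hk₀ hdv c : ℂˣ) : ℂ) * hvw

/-- Let F be a finite field with q elements, q odd, and C a cyclic subgroup of order q + 1 of SL₂ over F (a non-split torus; it contains the centre). For every homomorphism θ from C to the non-zero complex numbers with θ² ≠ 1 there is an irreducible complex character χ of degree q − 1 such that χ(c) = −θ(c) − θ(c)⁻¹ for every non-central c in C, χ(zg) = θ(z)χ(g) for central z in C, χ vanishes at diagonal elements with entry a, a² ≠ 1, and χ takes the value −1 at every upper unitriangular element other than 1. Conversely every irreducible character of degree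 q − 1 has, for some such θ, the values −θ(c) − θ(c)⁻¹ at the non-central elements c of C (for q ≥ 5 these are exactly the cuspidal characters of degree q − 1). -/
theorem result {F : Type*} [Field F] [Fintype F] (hodd : Odd (Fintype.card F))
    (C : Subgroup (Matrix.SpecialLinearGroup (Fin 2) F)) (hC : IsCyclic C) (hcard : Nat.card C = Fintype.card F + 1) :
    (∀ θ : C →* ℂˣ, (∃ c : C, θ c ^ 2 ≠ 1) →
      ∃ χ : Matrix.SpecialLinearGroup (Fin 2) F → ℂ, Cfsg.IsIrrCharacter (Matrix.SpecialLinearGroup (Fin 2) F) χ ∧ χ 1 = (Fintype.card F : ℂ) - 1 ∧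
        (∀ c : C, (c : Matrix.SpecialLinearGroup (Fin 2) F) ∉ Subgroup.center (Matrix.SpecialLinearGroup (Fin 2) F) → χ c = -((θ c).val + (θ c)⁻¹.val)) ∧
        (∀ c : C, (c : Matrix.SpecialLinearGroup (Fin 2) F) ∈ Subgroup.center (Matrix.SpecialLinearGroup (Fin 2) F) → ∀ g : Matrix.SpecialLinearGroup (Fin 2) F, χ ((c : Matrix.SpecialLinearGroup (Fin 2) F) * g) = (θ c).val * χ g) ∧
        (∀ g : Matrix.SpecialLinearGroup (Fin 2) F, (g : Matrix (Fin 2) (Fin 2) F) 0 1 = 0 → (g : Matrix (Fin 2) (Fin 2) F) 1 0 = 0 → (g : Matrix (Fin 2) (Fin 2) F) 0 0 ^ 2 ≠ 1 → χ g = 0) ∧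
        (∀ g : Matrix.SpecialLinearGroup (Fin 2) F, (g : Matrix (Fin 2) (Fin 2) F) 1 0 = 0 → (g : Matrix (Fin 2) (Fin 2) F) 0 0 = 1 → (g : Matrix (Fin 2) (Fin 2) F) 1 1 = 1 → (g : Matrix (Fin 2) (Fin 2) F) 0 1 ≠ 0 → χ g = -1)) ∧
    (∀ χ : Matrix.SpecialLinearGroup (Fin 2) F → ℂ, Cfsg.IsIrrCharacter (Matrix.SpecialLinearGroup (Fin 2) F) χ → χ 1 = (Fintype.card F : ℂ) - 1 →
      ∃ θ : C →* ℂˣ, (∃ c : C, θ c ^ 2 ≠ 1) ∧
        ∀ c : C, (c : Matrix.SpecialLinearGroup (Fin 2) F) ∉ Subgroup.center (Matrix.SpecialLinearGroup (Fin 2) F) → χ c = -((θ c).val + (θ c)⁻¹.val)) := by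
  classical
  obtain ⟨r, hr⟩ : ∃ r, Fintype.card F = 2 * r + 1 :=
    ⟨Fintype.card F / 2, by have := Nat.odd_iff.mp hodd; omega⟩
  have hq1 := Fintype.one_lt_card (α := F)
  have hr1 : 1 ≤ r := by omega
  have h2 : ringChar F ≠ 2 := by
    intro hc
    have := FiniteField.even_card_of_char_two hc
    have := Nat.odd_iff.mp hodd
    omega
  have h2' : (2 : F) ≠ 0 := Ring.two_ne_zero h2
  obtain ⟨x, hx, hCx, k₀, hk₀⟩ :=
    Cfsg.Agent.Lib.Helper39.torus_of_cyclic h2' (by omega) C hC hcard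
  have hzC : Cfsg.Agent.Lib.Helper39.zSL ∈ C := by
    rw [hCx]
    exact Cfsg.Agent.Lib.Helper39.zSL_mem_centralizer x
  constructor
  · intro θ hθ
    have hz2 : (((θ ⟨Cfsg.Agent.Lib.Helper39.zSL, hzC⟩ : ℂˣ) : ℂ)) ^ 2 = 1 := by
      rw [← Units.val_pow_eq_pow_val, ← map_pow]
      have : (⟨Cfsg.Agent.Lib.Helper39.zSL, hzC⟩ : C) ^ 2 = 1 := by
        apply Subtype.ext
        rw [sq]
        exact Cfsg.Agent.Lib.Helper39.zSL_mul_self
      rw [this, map_one, Units.val_one]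
    obtain ⟨α, hα⟩ := Cfsg.Agent.Lib.Helper39.exists_mulChar_neg_one h2' _ hz2
    refine ⟨Cfsg.Agent.Lib.Helper39.cuspFun C θ α,
      Cfsg.Agent.Lib.Helper39.isIrrCharacter_cuspFun h2' x hx C hCx θ hθ α hzC hα,
      Cfsg.Agent.Lib.Helper39.cuspFun_one h2' x hx C hCx θ α, ?_, ?_, ?_, ?_⟩
    · intro c hcc
      exact Cfsg.Agent.Lib.Helper39.cuspFun_torus h2' x hx C hCx θ α c c.2 hcc
    · intro c hcc g
      rcases (Cfsg.Agent.Lib.Helper39.mem_center_iff_one_or_zSL _).mp hcc with h | h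
      · have hc1 : c = 1 := Subtype.ext h
        subst hc1
        simp
      · have hcz : c = ⟨Cfsg.Agent.Lib.Helper39.zSL, hzC⟩ := Subtype.ext h
        subst hcz
        exact Cfsg.Agent.Lib.Helper39.cuspFun_zSL_mul C θ α hzC hα g
    · intro g h01 h10 hne
      exact Cfsg.Agent.Lib.Helper39.cuspFun_split h2' x hx C hCx θ α g h01 h10 hne
    · intro g h10 h00 h11 h01
      exact Cfsg.Agent.Lib.Helper39.cuspFun_unip h2' x hx C hCx θ α g h10 h00 h11 h01
  · intro χ hχ hχ1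
    by_cases hr2 : 2 ≤ r
    · obtain ⟨-, -, -, -, -, -, -, hex⟩ :=
        Cfsg.Agent.Lib.Helper39.sl2_odd_class_aux hodd r hr hr2 x hx C hCx k₀ hk₀
      have hd : Cfsg.charDegree χ = 2 * r :=
        Cfsg.Agent.Lib.Helper39.charDegree_of_one (by rw [hχ1, hr]; push_cast; ring)
      obtain ⟨θ, α, hzC', hθ, hα, rfl⟩ := hex χ hχ hd
      refine ⟨θ, hθ, ?_⟩
      intro c hcc
      exact Cfsg.Agent.Lib.Helper39.cuspFun_torus h2' x hx C hCx θ α c c.2 hcc
    · have hr' : r = 1 := by omega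
      subst hr'
      have hcard4 : Nat.card C = 4 := by rw [hcard, hr]
      obtain ⟨θ, hθ, hval⟩ := aux_theta h2' C k₀ hk₀ hcard4
      refine ⟨θ, hθ, fun c hcc => ?_⟩
      rw [hval c hcc, neg_zero]
      apply aux3 hr h2 χ hχ (by rw [hχ1, hr]; push_cast; norm_num)
      exact Cfsg.Agent.Lib.Helper41.trace_sq_ne_four_of_nonsplit
        (Cfsg.Agent.Lib.Helper39.nonsplit_of_mem_centralizer h2' x hx c
          (by rw [← hCx]; exact c.2) hcc)

end Cfsg.Agent.S2434
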