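import Cfsg.Statements.S2435
import Cfsg.Agent.Lib.Helper39.SL2Cusp

set_option autoImplicit false
open Cfsg

namespace Cfsg.Agent.S2435

/-- Let F be a finite field with q elements, q odd and q ≥ 5, and χ an irreducible complex character of SL₂ over F. If χ has degree (q + 1)/2, then at a diagonal element with entry a, a² ≠ 1, χ takes the value 1 when a is a square in F and −1 otherwise. If χ has degree (q − 1)/2, then at an element g with no eigenvector in F² (so g has order dividing q + 1), χ takes the value −1 when g raised to the power (q + 1)/2 is the identity and the value 1 otherwise. -/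
theorem result {F : Type*} [Field F] [Fintype F] (hodd : Odd (Fintype.card F)) (hq : 5 ≤ Fintype.card F)
    (χ : Matrix.SpecialLinearGroup (Fin 2) F → ℂ) (hχ : Cfsg.IsIrrCharacter (Matrix.SpecialLinearGroup (Fin 2) F) χ) (g : Matrix.SpecialLinearGroup (Fin 2) F) :
    (χ 1 = (((Fintype.card F + 1) / 2 : ℕ) : ℂ) → (g : Matrix (Fin 2) (Fin 2) F) 0 1 = 0 → (g : Matrix (Fin 2) (Fin 2) F) 1 0 = 0 → (g : Matrix (Fin 2) (Fin 2) F) 0 0 ^ 2 ≠ 1 →
      (IsSquare ((g : Matrix (Fin 2) (Fin 2) F) 0 0) → χ g = 1) ∧ (¬ IsSquare ((g : Matrix (Fin 2) (Fin 2) F) 0 0) → χ g = -1)) ∧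
    (χ 1 = (((Fintype.card F - 1) / 2 : ℕ) : ℂ) → (∀ (c : F) (v : Fin 2 → F), v ≠ 0 → (g : Matrix (Fin 2) (Fin 2) F).mulVec v ≠ c • v) →
      (((g ^ ((Fintype.card F + 1) / 2)) : Matrix (Fin 2) (Fin 2) F) = 1 → χ g = -1) ∧ (((g ^ ((Fintype.card F + 1) / 2)) : Matrix (Fin 2) (Fin 2) F) ≠ 1 → χ g = 1)) := by
  classical
  obtain ⟨n, ρ, hirr, rfl⟩ := hχ
  have hn : ρ.character 1 = (n : ℂ) := by rw [Representation.char_one]; simp
  have h2 : ringChar F ≠ 2 := by
    intro hc
    have := FiniteField.even_card_of_char_two hc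
    have := Nat.odd_iff.mp hodd
    omega
  obtain ⟨r, hr⟩ : ∃ r : ℕ, Fintype.card F = 2 * r + 1 := ⟨Fintype.card F / 2, by
    have := Nat.odd_iff.mp hodd
    omega⟩
  have hr2 : 2 ≤ r := by omega
  have h5 : (Fintype.card F + 1) / 2 = r + 1 := by omega
  have h6 : (Fintype.card F - 1) / 2 = r := by omega
  rw [h5, h6, hn]
  refine ⟨?_, ?_⟩
  · intro h h01 h10 hsq
    have hn1 : n = r + 1 := by exact_mod_cast h
    subst hn1
    obtain ⟨ε₀, hε₀⟩ := Cfsg.Agent.Lib.Helper39.exists_nonsquare_aux h2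
    have hε₀0 : ε₀ ≠ 0 := by
      rintro rfl
      exact hε₀ ⟨0, by simp⟩
    obtain ⟨α, hα, hα1, hsum⟩ :=
      Cfsg.Agent.Lib.Helper39.sl2_half_twin h2 r hr hr2 (Units.mk0 ε₀ hε₀0) hε₀ ρ
    have hd : Cfsg.Agent.Lib.Helper39.dconj (Units.mk0 ε₀ hε₀0) g = g := by
      apply Subtype.ext
      rw [Cfsg.Agent.Lib.Helper39.dconj_coe, h01, h10, mul_zero, mul_zero]
      ext i j
      fin_cases i <;> fin_cases j <;> simp [h01, h10]
    have hdet := g.det_coe
    rw [Matrix.det_fin_two, h10, mul_zero, sub_zero] at hdet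
    have ha0 : (g : Matrix (Fin 2) (Fin 2) F) 0 0 ≠ 0 := by
      intro h0
      rw [h0, zero_mul] at hdet
      exact zero_ne_one hdet
    have hne : (g : Matrix (Fin 2) (Fin 2) F) 0 0 ≠ (g : Matrix (Fin 2) (Fin 2) F) 1 1 := by
      intro hh
      apply hsq
      rw [sq]
      rw [← hh] at hdet
      exact hdet
    have hval := congrFun hsum g
    rw [Cfsg.Agent.Lib.Helper39.indFun_lamS_split α g h01 h10 hne, Pi.add_apply, hd] at hval
    obtain ⟨hq1, hq2⟩ := Cfsg.Agent.Lib.Helper39.quad_mulChar α hα hα1 _ ha0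
    have h3 : α ((g : Matrix (Fin 2) (Fin 2) F) 0 0) * α ((g : Matrix (Fin 2) (Fin 2) F) 1 1) = 1 := by
      rw [← map_mul, hdet, map_one]
    refine ⟨fun hs => ?_, fun hs => ?_⟩
    · rw [hq1 hs, one_mul] at h3
      rw [hq1 hs, h3] at hval
      linear_combination -hval / 2
    · rw [hq2 hs] at h3
      have h4 : α ((g : Matrix (Fin 2) (Fin 2) F) 1 1) = -1 := by linear_combination -h3
      rw [hq2 hs, h4] at hval
      linear_combination -hval / 2
  · intro h hnoeig
    have hn1 : n = r := by exact_mod_cast h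
    subst hn1
    have hg := Cfsg.Agent.Lib.Helper41.no_root_of_no_eigenvector g hnoeig
    obtain ⟨-, hv1, hv2⟩ := Cfsg.Agent.Lib.Helper39.sl2_cusp_half_value h2 n hr hr2 ρ g hg
    refine ⟨fun hp => hv1 (Subtype.ext ?_), fun hp => hv2 (fun hcon => hp ?_)⟩
    · rw [Matrix.SpecialLinearGroup.coe_pow]
      exact hp
    · rw [← Matrix.SpecialLinearGroup.coe_pow, hcon]
      rfl

end Cfsg.Agent.S2435
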