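import Cfsg.Statements.S2438
import Cfsg.Agent.Lib.Helper39.SL2Types

set_option autoImplicit false
open Cfsg

namespace Cfsg.Agent.S2438

/-- Let F be a finite field with q elements, q odd, q ≥ 5, U the upper unitriangular subgroup of SL₂ over F, and χ an irreducible complex character. The sum of the values of χ over U equals 2q, q, 0, q, 0 according as the degree of χ is q + 1, q, q − 1, (q + 1)/2, (q − 1)/2; so among these five degrees the sum vanishes exactly for the degrees q − 1 and (q − 1)/2, i.e. the irreducible characters of those two degrees are the ones whose restriction to U does not contain the trivial character (the cuspidal characters), while those of degree q + 1, q and (q + 1)/2 are not cuspidal. -/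
theorem result {F : Type*} [Field F] [Fintype F] [DecidableEq F] (hodd : Odd (Fintype.card F)) (hq : 5 ≤ Fintype.card F)
    (χ : Matrix.SpecialLinearGroup (Fin 2) F → ℂ) (hχ : Cfsg.IsIrrCharacter (Matrix.SpecialLinearGroup (Fin 2) F) χ) :
    (χ 1 = (Fintype.card F : ℂ) + 1 →
      (∑ g : Matrix.SpecialLinearGroup (Fin 2) F, if (g : Matrix (Fin 2) (Fin 2) F) 1 0 = 0 ∧ (g : Matrix (Fin 2) (Fin 2) F) 0 0 = 1 ∧ (g : Matrix (Fin 2) (Fin 2) F) 1 1 = 1 then χ g else 0) = 2 * (Fintype.card F : ℂ)) ∧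
    (χ 1 = (Fintype.card F : ℂ) →
      (∑ g : Matrix.SpecialLinearGroup (Fin 2) F, if (g : Matrix (Fin 2) (Fin 2) F) 1 0 = 0 ∧ (g : Matrix (Fin 2) (Fin 2) F) 0 0 = 1 ∧ (g : Matrix (Fin 2) (Fin 2) F) 1 1 = 1 then χ g else 0) = (Fintype.card F : ℂ)) ∧
    (χ 1 = (Fintype.card F : ℂ) - 1 →
      (∑ g : Matrix.SpecialLinearGroup (Fin 2) F, if (g : Matrix (Fin 2) (Fin 2) F) 1 0 = 0 ∧ (g : Matrix (Fin 2) (Fin 2) F) 0 0 = 1 ∧ (g : Matrix (Fin 2) (Fin 2) F) 1 1 = 1 then χ g else 0) = 0) ∧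
    (χ 1 = (((Fintype.card F + 1) / 2 : ℕ) : ℂ) →
      (∑ g : Matrix.SpecialLinearGroup (Fin 2) F, if (g : Matrix (Fin 2) (Fin 2) F) 1 0 = 0 ∧ (g : Matrix (Fin 2) (Fin 2) F) 0 0 = 1 ∧ (g : Matrix (Fin 2) (Fin 2) F) 1 1 = 1 then χ g else 0) = (Fintype.card F : ℂ)) ∧
    (χ 1 = (((Fintype.card F - 1) / 2 : ℕ) : ℂ) →
      (∑ g : Matrix.SpecialLinearGroup (Fin 2) F, if (g : Matrix (Fin 2) (Fin 2) F) 1 0 = 0 ∧ (g : Matrix (Fin 2) (Fin 2) F) 0 0 = 1 ∧ (g : Matrix (Fin 2) (Fin 2) F) 1 1 = 1 then χ g else 0) = 0) := by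
  classical
  obtain ⟨n, ρ, hirr, rfl⟩ := hχ
  have hn : ρ.character 1 = (n : ℂ) := by rw [Representation.char_one]; simp
  have h2 : ringChar F ≠ 2 := by
    intro hc
    have := FiniteField.even_card_of_char_two hc
    have := Nat.odd_iff.mp hodd
    omega
  obtain ⟨r, hr⟩ : ∃ r : ℕ, Fintype.card F = 2 * r + 1 := ⟨Fintype.card F / 2, by
    have := Nat.odd_iff.mp hodd
    omega⟩
  have hr2 : 2 ≤ r := by omega
  obtain ⟨ψ, hψ⟩ := Cfsg.Agent.Lib.Helper39.exists_addChar_ne_one (F := F)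
  obtain ⟨ε, hε⟩ := Cfsg.Agent.Lib.Helper39.exists_nonsquare_aux h2
  obtain ⟨m, k₁, k₂, -, -, -, hs, -, t1, t2, t3, t4, t5⟩ :=
    Cfsg.Agent.Lib.Helper39.sl2_type_odd h2 r hr hr2 ψ hψ ε hε n ρ
  simp only [Cfsg.Agent.Lib.Helper39.sum_unitriangular, hs]
  rw [hn, hr]
  have h5 : (2 * r + 1 + 1) / 2 = r + 1 := by omega
  have h6 : (2 * r + 1 - 1) / 2 = r := by omega
  rw [h5, h6]
  refine ⟨?_, ?_, ?_, ?_, ?_⟩
  · intro h
    have hn1 : n = 2 * r + 2 := by
      have : ((n : ℕ) : ℂ) = ((2 * r + 2 : ℕ) : ℂ) := by rw [h]; push_cast; ring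
      exact_mod_cast this
    rw [(t1 hn1).1]
    push_cast
    ring
  · intro h
    have hn1 : n = 2 * r + 1 := by exact_mod_cast h
    rw [(t2 hn1).1]
    push_cast
    ring
  · intro h
    have hn1 : n = 2 * r := by
      have : ((n : ℕ) : ℂ) = ((2 * r : ℕ) : ℂ) := by rw [h]; push_cast; ring
      exact_mod_cast this
    rw [(t3 hn1).1]
    push_cast
    ring
  · intro h
    have hn1 : n = r + 1 := by exact_mod_cast h
    rw [(t4 hn1).1]
    push_cast
    ring
  · intro h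
    have hn1 : n = r := by exact_mod_cast h
    rw [(t5 hn1).1]
    push_cast
    ring

end Cfsg.Agent.S2438
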