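import Mathlib
import Cfsg.Statements.S2531

set_option autoImplicit false
open Cfsg

namespace Cfsg.Agent.S2531

open scoped LinearAlgebra.Projectivization

section aux

variable {F : Type*} [Field F] [Finite F] {V : Type*} [AddCommGroup V] [Module F V] [Finite V]

/-- the points of the projective space lying in a subspace -/
lemma card_pts (U : Submodule F V) :
    Nat.card {x : ℙ F V // x.submodule ≤ U} = Nat.card (ℙ F U) := by
  symm
  have hmem : ∀ y : ℙ F U, (Projectivization.map U.subtype U.injective_subtype y).submodule ≤ U := by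
    intro y
    induction y using Projectivization.ind with
    | h u hu =>
      rw [Projectivization.map_mk, Projectivization.submodule_mk, Submodule.span_singleton_le_iff_mem]
      exact u.2
  apply Nat.card_congr
  refine Equiv.ofBijective (fun y => ⟨Projectivization.map U.subtype U.injective_subtype y, hmem y⟩) ⟨?_, ?_⟩
  · intro y1 y2 h
    have h' := congrArg Subtype.val h
    exact Projectivization.map_injective (τ := RingHom.id F) U.subtype U.injective_subtype h'
  · rintro ⟨x, hx⟩
    induction x using Projectivization.ind with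
    | h v hv =>
      rw [Projectivization.submodule_mk, Submodule.span_singleton_le_iff_mem] at hx
      refine ⟨Projectivization.mk F (⟨v, hx⟩ : U) (fun h => hv (congrArg Subtype.val h)), ?_⟩
      apply Subtype.ext
      rfl

lemma card_pts_mod (U : Submodule F V) (hU : 1 ≤ Module.finrank F U) :
    ((Nat.card {x : ℙ F V // x.submodule ≤ U} : ℕ) : ZMod (Nat.card F)) = 1 := by
  rw [card_pts, Projectivization.card_of_finrank F U rfl]
  obtain ⟨d, hd⟩ : ∃ d, Module.finrank F U = d + 1 := ⟨Module.finrank F U - 1, by omega⟩
  rw [hd, Finset.sum_range_succ']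
  push_cast
  simp [pow_succ]

end aux

/-- Let `F` be a finite field and `n ≥ 3`. No set of permutations of the points of the projective space of `Fⁿ`, each induced by an invertible semilinear transformation of `Fⁿ` (so a subset of the full projective semilinear group), is sharply 2-transitive on the points: it is impossible that for all pairs of distinct points `(a, b)` and `(c, d)` exactly one member of the set sends `a` to `c` and `b` to `d`. -/
theorem result {F : Type*} [Field F] [Finite F]
    (n : ℕ) (hn : 3 ≤ n) (S : Set (Equiv.Perm (Projectivization F (Fin n → F))))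
    (hS : ∀ s ∈ S, ∃ (σ : F ≃+* F) (f : (Fin n → F) →ₛₗ[(σ : F →+* F)] (Fin n → F)) (hf : Function.Injective f),
      ∀ x, s x = Projectivization.map f hf x) :
    ¬ (∀ a b c d : Projectivization F (Fin n → F), a ≠ b → c ≠ d →
        ∃! s, s ∈ S ∧ s a = c ∧ s b = d) := by
  classical
  intro H
  letI : Fintype (ℙ F (Fin n → F)) := Fintype.ofFinite _
  letI : Fintype F := Fintype.ofFinite _
  have hq2 : 2 ≤ Nat.card F := Finite.one_lt_card
  have : Fact (1 < Nat.card F) := ⟨by omega⟩
  let i0 : Fin n := ⟨0, by omega⟩
  let W : Submodule F (Fin n → F) := LinearMap.ker (LinearMap.proj i0 : (Fin n → F) →ₗ[F] F)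
  have hW : Module.finrank F W = n - 1 := by
    have h1 := LinearMap.finrank_range_add_finrank_ker (LinearMap.proj i0 : (Fin n → F) →ₗ[F] F)
    have h2 : LinearMap.range (LinearMap.proj i0 : (Fin n → F) →ₗ[F] F) = ⊤ := by
      rw [LinearMap.range_eq_top]
      intro c
      exact ⟨Pi.single i0 c, by simp⟩
    rw [h2, finrank_top, Module.finrank_self, Module.finrank_fin_fun] at h1
    show Module.finrank F (LinearMap.ker (LinearMap.proj i0 : (Fin n → F) →ₗ[F] F)) = n - 1
    omega
  have hv0 : (Pi.single i0 1 : Fin n → F) ≠ 0 := by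
    intro h
    have := congrFun h i0
    simp at this
  let p : ℙ F (Fin n → F) := Projectivization.mk F (Pi.single i0 1) hv0
  have hpW : ¬ p.submodule ≤ W := by
    intro h
    rw [Projectivization.submodule_mk, Submodule.span_singleton_le_iff_mem] at h
    have : (Pi.single i0 1 : Fin n → F) i0 = 0 := h
    simp at this
  let PW : Finset (ℙ F (Fin n → F)) := Finset.univ.filter (fun x => x.submodule ≤ W)
  let Sp : Finset (Equiv.Perm (ℙ F (Fin n → F))) := Finset.univ.filter (fun s => s ∈ S ∧ s p = p)
  have hpPW : p ∉ PW := by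
    simp only [PW, Finset.mem_filter, Finset.mem_univ, true_and]
    exact hpW
  -- cardinalities mod q
  have cardU : ∀ U : Submodule F (Fin n → F), 1 ≤ Module.finrank F U →
      (((Finset.univ.filter (fun x : ℙ F (Fin n → F) => x.submodule ≤ U)).card : ℕ) : ZMod (Nat.card F)) = 1 := by
    intro U hU
    have h1 := card_pts_mod U hU
    have h2 : Nat.card {x : ℙ F (Fin n → F) // x.submodule ≤ U} =
        (Finset.univ.filter (fun x : ℙ F (Fin n → F) => x.submodule ≤ U)).card := by
      rw [← Fintype.card_subtype, Nat.card_eq_fintype_card]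
    rw [h2] at h1
    exact h1
  have hPWcard : ((PW.card : ℕ) : ZMod (Nat.card F)) = 1 := cardU W (by rw [hW]; omega)
  have hN : ((Fintype.card (ℙ F (Fin n → F)) : ℕ) : ZMod (Nat.card F)) = 1 := by
    have h1 := cardU ⊤ (by rw [finrank_top, Module.finrank_fin_fun]; omega)
    have h2 : (Finset.univ.filter (fun x : ℙ F (Fin n → F) => x.submodule ≤ ⊤)) = Finset.univ := by
      apply Finset.filter_true_of_mem
      intro x _
      exact le_top
    rw [h2, Finset.card_univ] at h1
    exact h1
  -- key bijection
  have key4 : ∀ x : ℙ F (Fin n → F), x ≠ p → ∀ Q : Finset (ℙ F (Fin n → F)), p ∉ Q →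
      (Sp.filter (fun s => s x ∈ Q)).card = Q.card := by
    intro x hx Q hQ
    apply Finset.card_bij (fun s _ => s x)
    · intro s hs
      exact (Finset.mem_filter.mp hs).2
    · intro s1 hs1 s2 hs2 h12
      have h1 := Finset.mem_filter.mp (Finset.mem_filter.mp hs1).1
      have h2 := Finset.mem_filter.mp (Finset.mem_filter.mp hs2).1
      have hne : p ≠ s1 x := by
        intro hc
        apply hQ
        rw [hc]
        exact (Finset.mem_filter.mp hs1).2
      obtain ⟨s0, -, huniq⟩ := H p x p (s1 x) (Ne.symm hx) hne
      have e1 := huniq s1 ⟨h1.2.1, h1.2.2, rfl⟩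
      have e2 := huniq s2 ⟨h2.2.1, h2.2.2, h12.symm⟩
      rw [e1, e2]
    · intro c hc
      have hne : p ≠ c := fun h => hQ (h ▸ hc)
      obtain ⟨s0, ⟨hs0S, hs0p, hs0x⟩, -⟩ := H p x p c (Ne.symm hx) hne
      refine ⟨s0, ?_, hs0x⟩
      rw [Finset.mem_filter, Finset.mem_filter]
      exact ⟨⟨Finset.mem_univ _, hs0S, hs0p⟩, hs0x ▸ hc⟩
  -- PW is nonempty
  have hPWne : PW.Nonempty := by
    rw [Finset.nonempty_iff_ne_empty]
    intro h
    rw [h] at hPWcard
    simp at hPWcard
  obtain ⟨b0, hb0⟩ := hPWne
  have hb0p : b0 ≠ p := fun h => hpPW (h ▸ hb0)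
  have hSpcard : Sp.card = Fintype.card (ℙ F (Fin n → F)) - 1 := by
    have h1 := key4 b0 hb0p (Finset.univ.erase p) (by simp)
    have h2 : Sp.filter (fun s => s b0 ∈ Finset.univ.erase p) = Sp := by
      apply Finset.filter_true_of_mem
      intro s hs
      have hs' := Finset.mem_filter.mp hs
      simp only [Finset.mem_erase, Finset.mem_univ, and_true]
      intro hc
      apply hb0p
      apply s.injective
      rw [hc, hs'.2.2]
    rw [h2] at h1
    rw [h1, Finset.card_erase_of_mem (Finset.mem_univ _), Finset.card_univ]
  -- key3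
  have key3 : ∀ s ∈ Sp, (((PW.filter (fun x => s x ∈ PW)).card : ℕ) : ZMod (Nat.card F)) = 1 := by
    intro s hs
    have hs' := Finset.mem_filter.mp hs
    obtain ⟨σ, f, hf, hsf⟩ := hS s hs'.2.1
    let U : Submodule F (Fin n → F) := W ⊓ Submodule.comap f W
    have hfilter : PW.filter (fun x => s x ∈ PW) =
        Finset.univ.filter (fun x : ℙ F (Fin n → F) => x.submodule ≤ U) := by
      ext x
      simp only [PW, Finset.mem_filter, Finset.mem_univ, true_and]
      rw [hsf x]
      have hx : (Projectivization.map f hf x).submodule ≤ W ↔ x.submodule ≤ Submodule.comap f W := by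
        induction x using Projectivization.ind with
        | h v hv =>
          rw [Projectivization.map_mk, Projectivization.submodule_mk, Projectivization.submodule_mk,
            Submodule.span_singleton_le_iff_mem, Submodule.span_singleton_le_iff_mem, Submodule.mem_comap]
      rw [hx]
      exact le_inf_iff.symm
    rw [hfilter]
    apply cardU
    -- dimension of U
    have hfbij : Function.Bijective f := Finite.injective_iff_bijective.mp hf
    have hcardeq : Nat.card (Submodule.comap f W) = Nat.card W := by
      apply Nat.card_congr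
      refine Equiv.ofBijective (fun x => ⟨f x.1, x.2⟩) ⟨?_, ?_⟩
      · intro x y h
        apply Subtype.ext
        exact hf (congrArg Subtype.val h)
      · rintro ⟨w, hw⟩
        obtain ⟨v, rfl⟩ := hfbij.2 w
        exact ⟨⟨v, hw⟩, rfl⟩
    have hfr : Module.finrank F (Submodule.comap f W) = Module.finrank F W := by
      have h1 : Nat.card (Submodule.comap f W) = Nat.card F ^ Module.finrank F (Submodule.comap f W) := by
        letI : Fintype (Submodule.comap f W) := Fintype.ofFinite _
        rw [Nat.card_eq_fintype_card, Nat.card_eq_fintype_card]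
        exact Module.card_eq_pow_finrank
      have h2 : Nat.card W = Nat.card F ^ Module.finrank F W := by
        letI : Fintype W := Fintype.ofFinite _
        rw [Nat.card_eq_fintype_card, Nat.card_eq_fintype_card]
        exact Module.card_eq_pow_finrank
      rw [h1, h2] at hcardeq
      exact Nat.pow_right_injective hq2 hcardeq
    have hdim := Submodule.finrank_sup_add_finrank_inf_eq W (Submodule.comap f W)
    have hle : Module.finrank F ↥(W ⊔ Submodule.comap f W) ≤ n := by
      have := Submodule.finrank_le (W ⊔ Submodule.comap f W)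
      rwa [Module.finrank_fin_fun] at this
    rw [hfr, hW] at hdim
    show 1 ≤ Module.finrank F ↥(W ⊓ Submodule.comap f W)
    omega
  -- double counting
  have hdc : ∑ s ∈ Sp, (PW.filter (fun x => s x ∈ PW)).card = ∑ x ∈ PW, (Sp.filter (fun s => s x ∈ PW)).card := by
    simp only [Finset.card_filter]
    exact Finset.sum_comm
  have hL : ((∑ s ∈ Sp, (PW.filter (fun x => s x ∈ PW)).card : ℕ) : ZMod (Nat.card F)) = (Sp.card : ZMod (Nat.card F)) := by
    rw [Nat.cast_sum, Finset.sum_congr rfl key3]
    simp
  have hR : ∑ x ∈ PW, (Sp.filter (fun s => s x ∈ PW)).card = PW.card * PW.card := by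
    rw [Finset.sum_congr rfl (fun x hx => key4 x (fun h => hpPW (h ▸ hx)) PW hpPW)]
    simp
  rw [hdc, hR, hSpcard] at hL
  have hNpos : 1 ≤ Fintype.card (ℙ F (Fin n → F)) := Fintype.card_pos_iff.mpr ⟨p⟩
  rw [Nat.cast_mul, hPWcard, Nat.cast_sub hNpos, hN] at hL
  simp at hL

end Cfsg.Agent.S2531
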