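import Mathlib
import Cfsg.Statements.S2532

set_option autoImplicit false
open Cfsg

namespace Cfsg.Agent.S2532

open Equiv

section hom

/-- the raw map permuting `r` isomorphic orbits -/
noncomputable def raw (G : Type*) {α : Type*} [Group G] [MulAction G α] {r : ℕ} (pts : Fin r → α)
    (σ : Perm (Fin r)) (y : α) : α :=
  open Classical in
  if hy : ∃ z : Fin r × G, z.2 • pts z.1 = y then (Classical.choose hy).2 • pts (σ (Classical.choose hy).1) else y

variable {G α : Type*} [Group G] [MulAction G α] {r : ℕ} (pts : Fin r → α)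

lemma iota_eq (P1 : ∀ (i j : Fin r) (g : G), g • pts i = pts i ↔ g • pts j = pts j)
    (P2 : ∀ (i j : Fin r) (g : G), g • pts i = pts j → i = j) (i i' : Fin r) (h h' : G) (he : h • pts i = h' • pts i') :
    i = i' ∧ ∀ j, h • pts j = h' • pts j := by
  have h1 : (h'⁻¹ * h) • pts i = pts i' := by
    rw [mul_smul, he, inv_smul_smul]
  have hi : i = i' := P2 i i' _ h1
  subst hi
  refine ⟨rfl, fun j => ?_⟩
  have h2 := (P1 i j (h'⁻¹ * h)).mp h1
  rw [mul_smul, inv_smul_eq_iff] at h2
  exact h2

lemma raw_on (P1 : ∀ (i j : Fin r) (g : G), g • pts i = pts i ↔ g • pts j = pts j)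
    (P2 : ∀ (i j : Fin r) (g : G), g • pts i = pts j → i = j) (σ : Perm (Fin r)) (i : Fin r) (h : G) :
    raw G pts σ (h • pts i) = h • pts (σ i) := by
  classical
  have hy : ∃ z : Fin r × G, z.2 • pts z.1 = h • pts i := ⟨(i, h), rfl⟩
  unfold raw
  rw [dif_pos hy]
  have hspec := Classical.choose_spec hy
  obtain ⟨e1, e2⟩ := iota_eq pts P1 P2 _ _ _ _ hspec
  rw [e1, e2]

lemma raw_off (σ : Perm (Fin r)) (y : α) (hy : ¬ ∃ z : Fin r × G, z.2 • pts z.1 = y) :
    raw G pts σ y = y := by
  classical
  unfold raw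
  rw [dif_neg hy]

lemma raw_mul (P1 : ∀ (i j : Fin r) (g : G), g • pts i = pts i ↔ g • pts j = pts j)
    (P2 : ∀ (i j : Fin r) (g : G), g • pts i = pts j → i = j) (σ τ : Perm (Fin r)) (y : α) :
    raw G pts (σ * τ) y = raw G pts σ (raw G pts τ y) := by
  classical
  by_cases hy : ∃ z : Fin r × G, z.2 • pts z.1 = y
  · obtain ⟨⟨i, h⟩, rfl⟩ := hy
    simp only
    rw [raw_on pts P1 P2, raw_on pts P1 P2, raw_on pts P1 P2]
    rfl
  · rw [raw_off pts _ y hy, raw_off pts _ y hy, raw_off pts _ y hy]

lemma raw_one (P1 : ∀ (i j : Fin r) (g : G), g • pts i = pts i ↔ g • pts j = pts j)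
    (P2 : ∀ (i j : Fin r) (g : G), g • pts i = pts j → i = j) (y : α) :
    raw G pts (1 : Perm (Fin r)) y = y := by
  classical
  by_cases hy : ∃ z : Fin r × G, z.2 • pts z.1 = y
  · obtain ⟨⟨i, h⟩, rfl⟩ := hy
    simp only
    rw [raw_on pts P1 P2]
    rfl
  · rw [raw_off pts _ y hy]

lemma raw_comm (P1 : ∀ (i j : Fin r) (g : G), g • pts i = pts i ↔ g • pts j = pts j)
    (P2 : ∀ (i j : Fin r) (g : G), g • pts i = pts j → i = j) (σ : Perm (Fin r)) (g : G) (y : α) :
    g • raw G pts σ y = raw G pts σ (g • y) := by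
  classical
  by_cases hy : ∃ z : Fin r × G, z.2 • pts z.1 = y
  · obtain ⟨⟨i, h⟩, rfl⟩ := hy
    simp only
    rw [raw_on pts P1 P2, ← mul_smul, ← mul_smul, raw_on pts P1 P2]
  · have hy' : ¬ ∃ z : Fin r × G, z.2 • pts z.1 = g • y := by
      rintro ⟨⟨i, h⟩, hz⟩
      apply hy
      refine ⟨(i, g⁻¹ * h), ?_⟩
      simp only at hz ⊢
      rw [mul_smul, hz, inv_smul_smul]
    rw [raw_off pts _ y hy, raw_off pts _ _ hy']

/-- the homomorphism from `Perm (Fin r)` permuting `r` isomorphic orbits -/
noncomputable def phi (P1 : ∀ (i j : Fin r) (g : G), g • pts i = pts i ↔ g • pts j = pts j)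
    (P2 : ∀ (i j : Fin r) (g : G), g • pts i = pts j → i = j) : Perm (Fin r) →* Perm α where
  toFun σ :=
    { toFun := raw G pts σ
      invFun := raw G pts σ⁻¹
      left_inv := fun y => by
        rw [← raw_mul pts P1 P2, inv_mul_cancel, raw_one pts P1 P2]
      right_inv := fun y => by
        rw [← raw_mul pts P1 P2, mul_inv_cancel, raw_one pts P1 P2] }
  map_one' := by
    ext y
    exact raw_one pts P1 P2 y
  map_mul' σ τ := by
    ext y
    exact raw_mul pts P1 P2 σ τ y

lemma phi_apply (P1 : ∀ (i j : Fin r) (g : G), g • pts i = pts i ↔ g • pts j = pts j)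
    (P2 : ∀ (i j : Fin r) (g : G), g • pts i = pts j → i = j) (σ : Perm (Fin r)) (y : α) :
    phi pts P1 P2 σ y = raw G pts σ y := rfl

lemma phi_injective (P1 : ∀ (i j : Fin r) (g : G), g • pts i = pts i ↔ g • pts j = pts j)
    (P2 : ∀ (i j : Fin r) (g : G), g • pts i = pts j → i = j) : Function.Injective (phi pts P1 P2) := by
  rw [injective_iff_map_eq_one]
  intro σ hσ
  ext i
  have h1 : phi pts P1 P2 σ ((1 : G) • pts i) = (1 : G) • pts i := by rw [hσ]; rfl
  rw [phi_apply, raw_on pts P1 P2, one_smul, one_smul] at h1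
  have := P2 (σ i) i 1 (by rw [one_smul]; exact h1)
  rw [this]
  rfl

end hom

section pigeon

variable {G α : Type*} [Group G] [Fintype G] [MulAction G α] [Fintype α] [DecidableEq α]

lemma exists_pts (r : ℕ) (hcard : 2 ^ Fintype.card G * (Fintype.card G * r) < Fintype.card α) :
    ∃ pts : Fin r → α, (∀ (i j : Fin r) (g : G), g • pts i = pts i ↔ g • pts j = pts j) ∧
      (∀ (i j : Fin r) (g : G), g • pts i = pts j → i = j) := by
  classical
  let lam : α → Set G := fun x => {g | g • x = x}
  have h1 : Fintype.card (Set G) * (Fintype.card G * r) < Fintype.card α := by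
    rw [Fintype.card_set]; exact hcard
  obtain ⟨S0, hS0⟩ := Fintype.exists_lt_card_fiber_of_mul_lt_card lam h1
  set X : Finset α := Finset.univ.filter (fun x => lam x = S0) with hX
  let orb : α → Finset α := fun x => Finset.univ.image (fun g : G => g • x)
  have horb_card : ∀ x, (orb x).card ≤ Fintype.card G := fun x => Finset.card_image_le
  have hself : ∀ x, x ∈ orb x := fun x => Finset.mem_image.mpr ⟨1, Finset.mem_univ _, one_smul G x⟩
  have horb_eq : ∀ x y (g : G), g • x = y → orb y = orb x := by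
    intro x y g hg
    ext z
    simp only [orb, Finset.mem_image, Finset.mem_univ, true_and]
    constructor
    · rintro ⟨g', rfl⟩
      exact ⟨g' * g, by rw [mul_smul, hg]⟩
    · rintro ⟨g', rfl⟩
      exact ⟨g' * g⁻¹, by rw [mul_smul, ← hg, inv_smul_smul]⟩
  have hfib : ∀ O ∈ X.image orb, (X.filter (fun x => orb x = O)).card ≤ Fintype.card G := by
    intro O hO
    obtain ⟨x1, -, rfl⟩ := Finset.mem_image.mp hO
    refine le_trans (Finset.card_le_card ?_) (horb_card x1)
    intro x hx
    have := (Finset.mem_filter.mp hx).2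
    rw [← this]
    exact hself x
  have h2 := Finset.card_le_mul_card_image (f := orb) X (Fintype.card G) hfib
  have hGpos : 0 < Fintype.card G := Fintype.card_pos
  have h3 : r ≤ (X.image orb).card := by
    have : Fintype.card G * r < Fintype.card G * (X.image orb).card := lt_of_lt_of_le hS0 h2
    exact le_of_lt (lt_of_mul_lt_mul_left this (Nat.zero_le _))
  obtain ⟨T, hTsub, hTcard⟩ := Finset.exists_subset_card_eq h3
  let eT : T ≃ Fin r := Finset.equivFinOfCardEq hTcard
  have hex : ∀ i : Fin r, ∃ x ∈ X, orb x = ((eT.symm i : T) : Finset α) := by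
    intro i
    have := hTsub (eT.symm i).2
    obtain ⟨x, hx, hxe⟩ := Finset.mem_image.mp this
    exact ⟨x, hx, hxe⟩
  choose pts hptsX hptsorb using hex
  refine ⟨pts, ?_, ?_⟩
  · intro i j g
    have hi : lam (pts i) = S0 := (Finset.mem_filter.mp (hptsX i)).2
    have hj : lam (pts j) = S0 := (Finset.mem_filter.mp (hptsX j)).2
    have hij : lam (pts i) = lam (pts j) := hi.trans hj.symm
    have := Set.ext_iff.mp hij g
    exact this
  · intro i j g hg
    have h4 := horb_eq _ _ g hg
    rw [hptsorb, hptsorb] at h4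
    have h5 : eT.symm j = eT.symm i := Subtype.ext h4
    exact (eT.symm.injective h5).symm

end pigeon

/-- There is a function `f` of two natural-number arguments such that, whenever `m ≥ f(n, r)`, every subgroup of order `n` of the alternating group of degree `m` centralizes some subgroup of that alternating group isomorphic to the alternating group of degree `r`. -/
theorem result :
    ∃ f : ℕ → ℕ → ℕ, ∀ (m r : ℕ) (H : Subgroup ↥(alternatingGroup (Fin m))), f (Nat.card H) r ≤ m →
      ∃ K : Subgroup ↥(alternatingGroup (Fin m)), Nonempty (↥K ≃* ↥(alternatingGroup (Fin r))) ∧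
        K ≤ Subgroup.centralizer (H : Set ↥(alternatingGroup (Fin m))) := by
  classical
  refine ⟨fun n r => 2 ^ n * (n * r) + 1, ?_⟩
  intro m r H hm
  letI : Fintype H := Fintype.ofFinite _
  have hcard : 2 ^ Fintype.card H * (Fintype.card H * r) < Fintype.card (Fin m) := by
    rw [Fintype.card_fin, ← Nat.card_eq_fintype_card]
    have hm' : 2 ^ Nat.card H * (Nat.card H * r) + 1 ≤ m := hm
    omega
  obtain ⟨pts, P1, P2⟩ := exists_pts (G := H) (α := Fin m) r hcard
  let φ : Perm (Fin r) →* Perm (Fin m) := phi pts P1 P2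
  have hφinj : Function.Injective φ := phi_injective pts P1 P2
  have hsign : ∀ σ : Perm (Fin r), σ ∈ alternatingGroup (Fin r) → φ σ ∈ alternatingGroup (Fin m) := by
    intro σ hσ
    rw [← Equiv.Perm.closure_three_cycles_eq_alternating] at hσ
    have hle : Subgroup.closure {σ : Perm (Fin r) | σ.IsThreeCycle} ≤
        (alternatingGroup (Fin m)).comap φ := by
      rw [Subgroup.closure_le]
      intro c hc
      show φ c ∈ alternatingGroup (Fin m)
      rw [Equiv.Perm.mem_alternatingGroup]
      have hc3 : c ^ 3 = 1 := by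
        have : orderOf c = 3 := Equiv.Perm.IsThreeCycle.orderOf hc
        rw [← this]; exact pow_orderOf_eq_one c
      have h3 : (Equiv.Perm.sign (φ c)) ^ 3 = 1 := by
        rw [← map_pow, ← map_pow, hc3, map_one, map_one]
      rcases Int.units_eq_one_or (Equiv.Perm.sign (φ c)) with h | h
      · exact h
      · rw [h] at h3
        exact absurd h3 (by decide)
    exact hle hσ
  let ψ : alternatingGroup (Fin r) →* alternatingGroup (Fin m) :=
    (φ.comp (alternatingGroup (Fin r)).subtype).codRestrict (alternatingGroup (Fin m))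
      (fun σ => hsign σ.1 σ.2)
  have hψinj : Function.Injective ψ := by
    intro σ τ h
    have h' : φ σ.1 = φ τ.1 := congrArg Subtype.val h
    exact Subtype.ext (hφinj h')
  refine ⟨ψ.range, ⟨(MonoidHom.ofInjective hψinj).symm⟩, ?_⟩
  rintro _ ⟨σ, rfl⟩
  rw [Subgroup.mem_centralizer_iff]
  intro h hh
  apply Subtype.ext
  apply Equiv.ext
  intro y
  show (h : Perm (Fin m)) (φ σ.1 y) = φ σ.1 ((h : Perm (Fin m)) y)
  exact raw_comm pts P1 P2 σ.1 (⟨h, hh⟩ : H) y

end Cfsg.Agent.S2532
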