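import Mathlib
import Cfsg.Statements.S2533

set_option autoImplicit false
open Cfsg

namespace Cfsg.Agent.S2533

/-! ### General lemmas -/

/-- reindexing isomorphism of special linear groups -/
def slReindex {ι ι' : Type*} [Fintype ι] [DecidableEq ι] [Fintype ι'] [DecidableEq ι']
    (R : Type*) [CommRing R] (e : ι ≃ ι') :
    Matrix.SpecialLinearGroup ι R ≃* Matrix.SpecialLinearGroup ι' R where
  toFun A := ⟨Matrix.reindex e e A.1, by rw [Matrix.det_reindex_self]; exact A.2⟩
  invFun A := ⟨Matrix.reindex e.symm e.symm A.1, by rw [Matrix.det_reindex_self]; exact A.2⟩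
  left_inv A := by
    apply Subtype.ext
    ext i j
    simp
  right_inv A := by
    apply Subtype.ext
    ext i j
    simp
  map_mul' A B := by
    apply Subtype.ext
    show Matrix.reindex e e (A.1 * B.1) = Matrix.reindex e e A.1 * Matrix.reindex e e B.1
    simp only [Matrix.reindex_apply]
    rw [Matrix.submatrix_mul_equiv]

/-- the two core properties transfer along a group isomorphism -/
lemma core_transfer {H S S' : Type*} [Group H] [Group S] [Group S'] (ψ : H →* S) (E : S ≃* S')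
    (c1 : ∀ h : H, ψ h ∈ Subgroup.center S → h = 1)
    (c2 : ∀ g : S, (∀ h : H, g * ψ h * g⁻¹ * (ψ h)⁻¹ ∈ Subgroup.center S) → g ∈ Subgroup.center S) :
    (∀ h : H, (E.toMonoidHom.comp ψ) h ∈ Subgroup.center S' → h = 1) ∧
    (∀ g : S', (∀ h : H, g * (E.toMonoidHom.comp ψ) h * g⁻¹ * ((E.toMonoidHom.comp ψ) h)⁻¹ ∈ Subgroup.center S') →
      g ∈ Subgroup.center S') := by
  have hcen : ∀ x : S, E x ∈ Subgroup.center S' ↔ x ∈ Subgroup.center S := by
    intro x
    rw [Subgroup.mem_center_iff, Subgroup.mem_center_iff]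
    constructor
    · intro h y
      apply E.injective
      rw [map_mul, map_mul]
      exact h (E y)
    · intro h y
      obtain ⟨y', rfl⟩ := E.surjective y
      rw [← map_mul, ← map_mul, h y']
  constructor
  · intro h hh
    exact c1 h ((hcen _).mp hh)
  · intro g hg
    obtain ⟨g', rfl⟩ := E.surjective g
    rw [hcen]
    apply c2
    intro h
    rw [← hcen]
    have := hg h
    simpa using this

/-- from the two core properties to the statement about the central quotient -/
lemma core_to_quotient {H S : Type*} [Group H] [Group S] (ψ : H →* S)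
    (c1 : ∀ h : H, ψ h ∈ Subgroup.center S → h = 1)
    (c2 : ∀ g : S, (∀ h : H, g * ψ h * g⁻¹ * (ψ h)⁻¹ ∈ Subgroup.center S) → g ∈ Subgroup.center S) :
    Function.Injective ((QuotientGroup.mk' (Subgroup.center S)).comp ψ) ∧
    Subgroup.centralizer (((QuotientGroup.mk' (Subgroup.center S)).comp ψ).range : Set (S ⧸ Subgroup.center S)) = ⊥ := by
  constructor
  · rw [injective_iff_map_eq_one]
    intro h hh
    apply c1
    exact (QuotientGroup.eq_one_iff _).mp hh
  · rw [eq_bot_iff]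
    intro x hx
    rw [Subgroup.mem_bot]
    obtain ⟨g, rfl⟩ := QuotientGroup.mk'_surjective (Subgroup.center S) x
    rw [Subgroup.mem_centralizer_iff] at hx
    apply (QuotientGroup.eq_one_iff _).mpr
    apply c2
    intro h
    have h1 := hx _ ⟨h, rfl⟩
    apply (QuotientGroup.eq_one_iff _).mp
    have h2 : (QuotientGroup.mk' (Subgroup.center S)) (g * ψ h * g⁻¹ * (ψ h)⁻¹) =
        (QuotientGroup.mk' (Subgroup.center S)) g * (QuotientGroup.mk' (Subgroup.center S)) (ψ h) *
          ((QuotientGroup.mk' (Subgroup.center S)) g)⁻¹ * ((QuotientGroup.mk' (Subgroup.center S)) (ψ h))⁻¹ := by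
      simp
    rw [show ((g * ψ h * g⁻¹ * (ψ h)⁻¹ : S) : S ⧸ Subgroup.center S) =
      (QuotientGroup.mk' (Subgroup.center S)) (g * ψ h * g⁻¹ * (ψ h)⁻¹) from rfl, h2]
    have h3 : (QuotientGroup.mk' (Subgroup.center S)) (ψ h) * (QuotientGroup.mk' (Subgroup.center S)) g =
        (QuotientGroup.mk' (Subgroup.center S)) g * (QuotientGroup.mk' (Subgroup.center S)) (ψ h) := h1
    rw [← h3]
    group

/-! ### The block matrices -/

section blocks

variable (p : ℕ) [Fact p.Prime] (k : ℕ)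

/-- `X e_i = f_i` -/
def Xm : Matrix (Fin (k + 1)) (Fin k) (ZMod p) := Matrix.of fun j i => if j = i.castSucc then 1 else 0

/-- `Y e_i = f_{i+1}` -/
def Ym : Matrix (Fin (k + 1)) (Fin k) (ZMod p) := Matrix.of fun j i => if j = i.succ then 1 else 0

/-- `Z e_0 = f_k` -/
def Zm : Matrix (Fin (k + 1)) (Fin k) (ZMod p) :=
  Matrix.of fun j i => if j = Fin.last k ∧ (i : ℕ) = 0 then 1 else 0

/-- the lower left block attached to a vector -/
def Cm (v : Fin 3 → ZMod p) : Matrix (Fin (k + 1)) (Fin k) (ZMod p) :=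
  v 0 • Xm p k + v 1 • Ym p k + v 2 • Zm p k

lemma Cm_add (v w : Fin 3 → ZMod p) : Cm p k (v + w) = Cm p k v + Cm p k w := by
  simp only [Cm, Pi.add_apply, add_smul]
  abel

lemma Cm_zero : Cm p k 0 = 0 := by simp [Cm]

lemma Cm_neg (v : Fin 3 → ZMod p) : Cm p k (-v) = - Cm p k v := by
  simp only [Cm, Pi.neg_apply, neg_smul]
  abel

lemma Cm_apply (v : Fin 3 → ZMod p) (j : Fin (k + 1)) (i : Fin k) :
    Cm p k v j i = v 0 * (if j = i.castSucc then 1 else 0) + v 1 * (if j = i.succ then 1 else 0)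
      + v 2 * (if j = Fin.last k ∧ (i : ℕ) = 0 then 1 else 0) := by
  simp [Cm, Xm, Ym, Zm]

lemma Cm_eq_zero (hk : 2 ≤ k) (v : Fin 3 → ZMod p) (h : Cm p k v = 0) : v = 0 := by
  have h0 := congrFun (congrFun h ⟨0, by omega⟩) ⟨0, by omega⟩
  have h1 := congrFun (congrFun h ⟨1, by omega⟩) ⟨0, by omega⟩
  have h2 := congrFun (congrFun h (Fin.last k)) ⟨0, by omega⟩
  rw [Cm_apply] at h0 h1 h2
  have e0 : v 0 = 0 := by
    rw [if_pos (by apply Fin.ext; simp), if_neg (by intro hc; have := congrArg Fin.val hc; simp at this),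
      if_neg (by rintro ⟨hc, -⟩; have := congrArg Fin.val hc; simp at this; omega)] at h0
    simpa using h0
  have e1 : v 1 = 0 := by
    rw [if_neg (by intro hc; have := congrArg Fin.val hc; simp at this), if_pos (by apply Fin.ext; simp),
      if_neg (by rintro ⟨hc, -⟩; have := congrArg Fin.val hc; simp at this; omega)] at h1
    simpa using h1
  have e2 : v 2 = 0 := by
    rw [if_neg (by intro hc; have := congrArg Fin.val hc; simp at this; omega),
      if_neg (by intro hc; have := congrArg Fin.val hc; simp at this; omega),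
      if_pos ⟨rfl, rfl⟩] at h2
    simpa using h2
  ext i
  fin_cases i
  · exact e0
  · exact e1
  · exact e2

/-- the unipotent matrix attached to a vector -/
def Um (v : Fin 3 → ZMod p) : Matrix (Fin k ⊕ Fin (k + 1)) (Fin k ⊕ Fin (k + 1)) (ZMod p) :=
  Matrix.fromBlocks 1 0 (Cm p k v) 1

lemma Um_mul (v w : Fin 3 → ZMod p) : Um p k v * Um p k w = Um p k (v + w) := by
  simp only [Um, Matrix.fromBlocks_multiply, Cm_add]
  simp

lemma Um_zero : Um p k 0 = 1 := by
  simp [Um, Cm_zero, Matrix.fromBlocks_one]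

lemma Um_det (v : Fin 3 → ZMod p) : (Um p k v).det = 1 := by
  simp [Um]

/-- the involution -/
def Tm : Matrix (Fin k ⊕ Fin (k + 1)) (Fin k ⊕ Fin (k + 1)) (ZMod p) :=
  Matrix.fromBlocks 1 0 0 (-1)

lemma Tm_mul_self : Tm p k * Tm p k = 1 := by
  simp [Tm, Matrix.fromBlocks_multiply, Matrix.fromBlocks_one]

lemma Tm_Um (v : Fin 3 → ZMod p) : Tm p k * Um p k v = Um p k (-v) * Tm p k := by
  simp [Tm, Um, Matrix.fromBlocks_multiply, Cm_neg]

lemma Tm_trace : (Tm p k).trace = -1 := by
  simp [Tm, Matrix.trace, Fintype.sum_sum_type]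

end blocks

/-! ### The group and its representation -/

section grp

variable (p : ℕ) [Fact p.Prime] (k : ℕ)

/-- the normal subgroup: unipotent matrices -/
def f1 : Multiplicative (Fin 3 → ZMod p) →* Matrix.SpecialLinearGroup (Fin k ⊕ Fin (k + 1)) (ZMod p) where
  toFun x := ⟨Um p k (Multiplicative.toAdd x), Um_det p k _⟩
  map_one' := by
    apply Subtype.ext
    show Um p k (Multiplicative.toAdd 1) = 1
    rw [toAdd_one, Um_zero]
  map_mul' x y := by
    apply Subtype.ext
    show Um p k (Multiplicative.toAdd (x * y)) = Um p k (Multiplicative.toAdd x) * Um p k (Multiplicative.toAdd y)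
    rw [toAdd_mul, Um_mul]

lemma f1_coe (x : Multiplicative (Fin 3 → ZMod p)) :
    ((f1 p k x : Matrix.SpecialLinearGroup (Fin k ⊕ Fin (k + 1)) (ZMod p)) :
      Matrix (Fin k ⊕ Fin (k + 1)) (Fin k ⊕ Fin (k + 1)) (ZMod p)) = Um p k (Multiplicative.toAdd x) := rfl

lemma tc_sq : (Tm p k).det * (Tm p k).det = 1 := by
  rw [← Matrix.det_mul, Tm_mul_self, Matrix.det_one]

/-- the involution, normalised to determinant one -/
def Tp : Matrix.SpecialLinearGroup (Fin k ⊕ Fin (k + 1)) (ZMod p) :=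
  ⟨(Tm p k).det • Tm p k, by
    rw [Matrix.det_smul, Fintype.card_sum, Fintype.card_fin, Fintype.card_fin]
    have h := tc_sq p k
    have e : (Tm p k).det ^ (k + (k + 1)) * (Tm p k).det = ((Tm p k).det * (Tm p k).det) ^ (k + 1) := by ring
    rw [e, h, one_pow]⟩

lemma Tp_coe : ((Tp p k : Matrix.SpecialLinearGroup (Fin k ⊕ Fin (k + 1)) (ZMod p)) :
      Matrix (Fin k ⊕ Fin (k + 1)) (Fin k ⊕ Fin (k + 1)) (ZMod p)) = (Tm p k).det • Tm p k := rfl

lemma Tp_mul_self : Tp p k * Tp p k = 1 := by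
  apply Subtype.ext
  show ((Tm p k).det • Tm p k) * ((Tm p k).det • Tm p k) = 1
  rw [Matrix.smul_mul, Matrix.mul_smul, smul_smul, tc_sq, one_smul, Tm_mul_self]

lemma Tp_inv : (Tp p k)⁻¹ = Tp p k := inv_eq_of_mul_eq_one_left (Tp_mul_self p k)

lemma neg_one_ne_one_units : (-1 : ℤˣ) ≠ 1 := by decide

/-- the complement of order two -/
def f2 : ℤˣ →* Matrix.SpecialLinearGroup (Fin k ⊕ Fin (k + 1)) (ZMod p) where
  toFun u := if u = 1 then 1 else Tp p k
  map_one' := by simp
  map_mul' u w := by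
    rcases Int.units_eq_one_or u with rfl | rfl <;> rcases Int.units_eq_one_or w with rfl | rfl
    · simp
    · simp [neg_one_ne_one_units]
    · simp [neg_one_ne_one_units]
    · simp [neg_one_ne_one_units, Tp_mul_self]

lemma f2_one : f2 p k 1 = 1 := map_one _
lemma f2_neg_one : f2 p k (-1) = Tp p k := by
  show (if (-1 : ℤˣ) = 1 then 1 else Tp p k) = Tp p k
  rw [if_neg neg_one_ne_one_units]

/-- the action by inversion -/
def actφ : ℤˣ →* MulAut (Multiplicative (Fin 3 → ZMod p)) where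
  toFun u := if u = 1 then 1 else MulEquiv.inv _
  map_one' := by simp
  map_mul' u w := by
    rcases Int.units_eq_one_or u with rfl | rfl <;> rcases Int.units_eq_one_or w with rfl | rfl
    · simp
    · simp [neg_one_ne_one_units]
    · simp [neg_one_ne_one_units]
    · simp only [neg_mul_neg, mul_one, if_true, if_neg neg_one_ne_one_units]
      ext x
      simp

lemma actφ_one : actφ p 1 = 1 := map_one _
lemma actφ_neg_one (x : Multiplicative (Fin 3 → ZMod p)) : actφ p (-1) x = x⁻¹ := by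
  show (if (-1 : ℤˣ) = 1 then (1 : MulAut (Multiplicative (Fin 3 → ZMod p))) else MulEquiv.inv _) x = x⁻¹
  rw [if_neg neg_one_ne_one_units]
  rfl

lemma compat (u : ℤˣ) : (f1 p k).comp (actφ p u).toMonoidHom =
    (MulAut.conj (f2 p k u)).toMonoidHom.comp (f1 p k) := by
  rcases Int.units_eq_one_or u with rfl | rfl
  · ext x
    simp [actφ_one, f2_one]
  · apply MonoidHom.ext
    intro x
    show f1 p k (actφ p (-1) x) = f2 p k (-1) * f1 p k x * (f2 p k (-1))⁻¹
    rw [actφ_neg_one, f2_neg_one, eq_mul_inv_iff_mul_eq]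
    apply Subtype.ext
    show Um p k (Multiplicative.toAdd x⁻¹) * ((Tm p k).det • Tm p k) =
      ((Tm p k).det • Tm p k) * Um p k (Multiplicative.toAdd x)
    rw [Matrix.mul_smul, Matrix.smul_mul, Tm_Um, toAdd_inv]

/-- the abstract group of order `2 p^3` -/
abbrev Hgrp : Type := Multiplicative (Fin 3 → ZMod p) ⋊[actφ p] ℤˣ

/-- its representation -/
def psi : Hgrp p →* Matrix.SpecialLinearGroup (Fin k ⊕ Fin (k + 1)) (ZMod p) :=
  SemidirectProduct.lift (f1 p k) (f2 p k) (compat p k)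

lemma psi_mk (x : Multiplicative (Fin 3 → ZMod p)) (u : ℤˣ) :
    psi p k ⟨x, u⟩ = f1 p k x * f2 p k u := by
  rw [SemidirectProduct.mk_eq_inl_mul_inr, map_mul]
  unfold psi
  rw [SemidirectProduct.lift_inl, SemidirectProduct.lift_inr]

lemma card_Hgrp : Nat.card (Hgrp p) = 2 * p ^ 3 := by
  rw [SemidirectProduct.card]
  have h1 : Nat.card (Multiplicative (Fin 3 → ZMod p)) = p ^ 3 := by
    rw [Nat.card_congr Multiplicative.toAdd, Nat.card_fun, Nat.card_zmod, Nat.card_fin]
  have h2 : Nat.card ℤˣ = 2 := by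
    rw [Nat.card_eq_fintype_card, Fintype.card_units_int]
  rw [h1, h2, mul_comm]

end grp

/-! ### The brick computation -/

section brick

variable (p : ℕ) [Fact p.Prime] (k : ℕ)

lemma two_ne_zero_zmod (hp : p ≠ 2) : (2 : ZMod p) ≠ 0 := by
  intro h
  have h2 : ((2 : ℕ) : ZMod p) = 0 := by exact_mod_cast h
  rw [ZMod.natCast_eq_zero_iff] at h2
  have hpp : p.Prime := Fact.out
  exact hp ((Nat.prime_dvd_prime_iff_eq hpp Nat.prime_two).mp h2)

lemma eq_zero_of_eq_neg (hp : p ≠ 2) (a : ZMod p) (h : a = -a) : a = 0 := by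
  have h1 : 2 * a = 0 := by
    rw [two_mul]
    nth_rewrite 1 [h]
    exact neg_add_cancel a
  rcases mul_eq_zero.mp h1 with h2 | h2
  · exact absurd h2 (two_ne_zero_zmod p hp)
  · exact h2

lemma brick_entries (A : Matrix (Fin k) (Fin k) (ZMod p)) (D : Matrix (Fin (k + 1)) (Fin (k + 1)) (ZMod p))
    (hX : D * Xm p k = Xm p k * A) (hY : D * Ym p k = Ym p k * A) :
    (∀ a b : Fin k, D a.castSucc b.castSucc = A a b) ∧ (∀ b : Fin k, D (Fin.last k) b.castSucc = 0) ∧
    (∀ a b : Fin k, D a.succ b.succ = A a b) ∧ (∀ b : Fin k, D 0 b.succ = 0) := by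
  have hDX : ∀ j i, (D * Xm p k) j i = D j i.castSucc := by
    intro j i
    simp [Matrix.mul_apply, Xm]
  have hDY : ∀ j i, (D * Ym p k) j i = D j i.succ := by
    intro j i
    simp [Matrix.mul_apply, Ym]
  have hXA : ∀ a i, (Xm p k * A) a.castSucc i = A a i := by
    intro a i
    simp [Matrix.mul_apply, Xm]
  have hXA' : ∀ i, (Xm p k * A) (Fin.last k) i = 0 := by
    intro i
    simp only [Matrix.mul_apply, Xm, Matrix.of_apply]
    apply Finset.sum_eq_zero
    intro j _
    rw [if_neg, zero_mul]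
    intro h
    have hv := congrArg Fin.val h
    have hj := j.isLt
    simp at hv
    omega
  have hYA : ∀ a i, (Ym p k * A) a.succ i = A a i := by
    intro a i
    simp [Matrix.mul_apply, Ym]
  have hYA' : ∀ i, (Ym p k * A) 0 i = 0 := by
    intro i
    simp only [Matrix.mul_apply, Ym, Matrix.of_apply]
    apply Finset.sum_eq_zero
    intro j _
    rw [if_neg, zero_mul]
    intro h
    have hv := congrArg Fin.val h
    simp at hv
  refine ⟨fun a b => ?_, fun b => ?_, fun a b => ?_, fun b => ?_⟩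
  · rw [← hDX, hX, hXA]
  · rw [← hDX, hX, hXA']
  · rw [← hDY, hY, hYA]
  · rw [← hDY, hY, hYA']

lemma brick_diag (D : Matrix (Fin (k + 1)) (Fin (k + 1)) (ZMod p))
    (h1 : ∀ a b : Fin k, D a.castSucc b.castSucc = D a.succ b.succ)
    (h2 : ∀ b : Fin k, D (Fin.last k) b.castSucc = 0)
    (h3 : ∀ b : Fin k, D 0 b.succ = 0) :
    ∀ (a b : ℕ) (ha : a < k + 1) (hb : b < k + 1), D ⟨a, ha⟩ ⟨b, hb⟩ = if a = b then D 0 0 else 0 := by
  have up : ∀ (a b : ℕ) (ha : a < k + 1) (hb : b < k + 1), a ≤ b →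
      D ⟨a, ha⟩ ⟨b, hb⟩ = if a = b then D 0 0 else 0 := by
    intro a
    induction a with
    | zero =>
      intro b ha hb _
      rcases Nat.eq_zero_or_pos b with rfl | hbpos
      · rw [if_pos rfl]; rfl
      · obtain ⟨b', rfl⟩ : ∃ b', b = b' + 1 := ⟨b - 1, by omega⟩
        have := h3 ⟨b', by omega⟩
        rw [if_neg (by omega)]
        exact this
    | succ a ih =>
      intro b ha hb hab
      obtain ⟨b', rfl⟩ : ∃ b', b = b' + 1 := ⟨b - 1, by omega⟩
      have e := h1 ⟨a, by omega⟩ ⟨b', by omega⟩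
      have hih := ih b' (by omega) (by omega) (by omega)
      calc D ⟨a + 1, ha⟩ ⟨b' + 1, hb⟩ = D (Fin.succ ⟨a, by omega⟩) (Fin.succ ⟨b', by omega⟩) := rfl
        _ = D (Fin.castSucc ⟨a, by omega⟩) (Fin.castSucc ⟨b', by omega⟩) := e.symm
        _ = D ⟨a, by omega⟩ ⟨b', by omega⟩ := rfl
        _ = if a = b' then D 0 0 else 0 := hih
        _ = if a + 1 = b' + 1 then D 0 0 else 0 := by simp
  have low : ∀ (j a b : ℕ) (ha : a < k + 1) (hb : b < k + 1), b < a → k - a = j → D ⟨a, ha⟩ ⟨b, hb⟩ = 0 := by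
    intro j
    induction j with
    | zero =>
      intro a b ha hb hba hj
      have hak : a = k := by omega
      subst hak
      exact h2 ⟨b, by omega⟩
    | succ j ih =>
      intro a b ha hb hba hj
      have e := h1 ⟨a, by omega⟩ ⟨b, by omega⟩
      have hih := ih (a + 1) (b + 1) (by omega) (by omega) (by omega) (by omega)
      calc D ⟨a, ha⟩ ⟨b, hb⟩ = D (Fin.castSucc ⟨a, by omega⟩) (Fin.castSucc ⟨b, by omega⟩) := rfl
        _ = D (Fin.succ ⟨a, by omega⟩) (Fin.succ ⟨b, by omega⟩) := e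
        _ = 0 := hih
  intro a b ha hb
  rcases Nat.lt_or_ge b a with h | h
  · rw [low (k - a) a b ha hb h rfl, if_neg (by omega)]
  · exact up a b ha hb h

lemma brick (A : Matrix (Fin k) (Fin k) (ZMod p)) (D : Matrix (Fin (k + 1)) (Fin (k + 1)) (ZMod p))
    (hX : D * Xm p k = Xm p k * A) (hY : D * Ym p k = Ym p k * A) :
    A = (D 0 0) • (1 : Matrix (Fin k) (Fin k) (ZMod p)) ∧
      D = (D 0 0) • (1 : Matrix (Fin (k + 1)) (Fin (k + 1)) (ZMod p)) := by
  obtain ⟨e1, e2, e3, e4⟩ := brick_entries p k A D hX hY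
  have hd := brick_diag p k D (fun a b => (e1 a b).trans (e3 a b).symm) e2 e4
  constructor
  · ext a b
    rw [← e1 a b]
    have := hd a.val b.val (by omega) (by omega)
    rw [Matrix.smul_apply, Matrix.one_apply, smul_eq_mul]
    by_cases hab : a = b
    · subst hab
      rw [if_pos rfl, mul_one]
      rw [if_pos rfl] at this
      exact this
    · rw [if_neg hab, mul_zero]
      rw [if_neg (fun h => hab (Fin.ext h))] at this
      exact this
  · ext a b
    have := hd a.val b.val a.isLt b.isLt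
    rw [Matrix.smul_apply, Matrix.one_apply, smul_eq_mul]
    by_cases hab : a = b
    · subst hab
      rw [if_pos rfl, mul_one]
      rw [if_pos rfl] at this
      exact this
    · rw [if_neg hab, mul_zero]
      rw [if_neg (fun h => hab (Fin.ext h))] at this
      exact this

end brick

/-! ### The two core properties -/

section core

variable (p : ℕ) [Fact p.Prime] (k : ℕ)

lemma core1 (hp : p ≠ 2) (hk : 2 ≤ k) (h : Hgrp p)
    (hh : psi p k h ∈ Subgroup.center (Matrix.SpecialLinearGroup (Fin k ⊕ Fin (k + 1)) (ZMod p))) :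
    h = 1 := by
  obtain ⟨x, u⟩ := h
  rw [psi_mk, Matrix.SpecialLinearGroup.mem_center_iff] at hh
  obtain ⟨r, -, hr⟩ := hh
  rcases Int.units_eq_one_or u with rfl | rfl
  · rw [f2_one, mul_one, f1_coe] at hr
    have hC : Cm p k (Multiplicative.toAdd x) = 0 := by
      ext j i
      have := congrFun (congrFun hr (Sum.inr j)) (Sum.inl i)
      simp [Um, Matrix.scalar_apply] at this
      exact this.symm
    have hx := Cm_eq_zero p k hk _ hC
    have hx1 : x = 1 := hx
    subst hx1
    rfl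
  · exfalso
    rw [f2_neg_one, Matrix.SpecialLinearGroup.coe_mul, f1_coe, Tp_coe] at hr
    have h1 := congrFun (congrFun hr (Sum.inl ⟨0, by omega⟩)) (Sum.inl ⟨0, by omega⟩)
    have h2 := congrFun (congrFun hr (Sum.inr 0)) (Sum.inr 0)
    simp [Um, Tm, Matrix.fromBlocks_multiply, Matrix.scalar_apply] at h1 h2
    have h3 : (Tm p k).det = -(Tm p k).det := by
      have e1 : (Tm p k).det = r := by simpa [Tm] using h1.symm
      have e2 : -(Tm p k).det = r := by simpa [Tm] using h2.symm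
      rw [e2, e1]
    have h4 := eq_zero_of_eq_neg p hp _ h3
    have h5 := tc_sq p k
    rw [h4, mul_zero] at h5
    exact zero_ne_one h5

lemma twisted_pow {ι : Type*} [Fintype ι] [DecidableEq ι] {R : Type*} [CommRing R] (G A : Matrix ι ι R) (r : R)
    (h : G * A = r • (A * G)) (m : ℕ) : G * A ^ m = r ^ m • (A ^ m * G) := by
  induction m with
  | zero => simp
  | succ m ih =>
    rw [pow_succ, ← mul_assoc, ih, Matrix.smul_mul, mul_assoc, h, Matrix.mul_smul, smul_smul, ← mul_assoc,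
      pow_succ]

lemma Um_pow (v : Fin 3 → ZMod p) (m : ℕ) : Um p k v ^ m = Um p k (m • v) := by
  induction m with
  | zero => simp [Um_zero]
  | succ m ih => rw [pow_succ, ih, Um_mul, succ_nsmul]

lemma Um_pow_p (v : Fin 3 → ZMod p) : Um p k v ^ p = 1 := by
  rw [Um_pow]
  have : p • v = 0 := by
    funext i
    simp
  rw [this, Um_zero]

lemma core2 (hp : p ≠ 2) (g : Matrix.SpecialLinearGroup (Fin k ⊕ Fin (k + 1)) (ZMod p))
    (hg : ∀ h : Hgrp p, g * psi p k h * g⁻¹ * (psi p k h)⁻¹ ∈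
      Subgroup.center (Matrix.SpecialLinearGroup (Fin k ⊕ Fin (k + 1)) (ZMod p))) :
    g ∈ Subgroup.center (Matrix.SpecialLinearGroup (Fin k ⊕ Fin (k + 1)) (ZMod p)) := by
  set G : Matrix (Fin k ⊕ Fin (k + 1)) (Fin k ⊕ Fin (k + 1)) (ZMod p) := g.1 with hGdef
  set Gi : Matrix (Fin k ⊕ Fin (k + 1)) (Fin k ⊕ Fin (k + 1)) (ZMod p) := (g⁻¹).1 with hGidef
  have hGGi : G * Gi = 1 := by
    rw [hGdef, hGidef]
    show (g * g⁻¹).1 = 1
    rw [mul_inv_cancel]
    rfl
  have hGiG : Gi * G = 1 := by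
    rw [hGdef, hGidef]
    show (g⁻¹ * g).1 = 1
    rw [inv_mul_cancel]
    rfl
  have M1 : ∀ h : Hgrp p, ∃ r : ZMod p, G * (psi p k h).1 = r • ((psi p k h).1 * G) := by
    intro h
    obtain ⟨r, -, hr⟩ := Matrix.SpecialLinearGroup.mem_center_iff.mp (hg h)
    refine ⟨r, ?_⟩
    have e : g * psi p k h = (g * psi p k h * g⁻¹ * (psi p k h)⁻¹) * psi p k h * g := by group
    have e' := congrArg Subtype.val e
    rw [Matrix.SpecialLinearGroup.coe_mul, Matrix.SpecialLinearGroup.coe_mul (_ * _) g,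
      Matrix.SpecialLinearGroup.coe_mul _ (psi p k h)] at e'
    rw [show (g * psi p k h * g⁻¹ * (psi p k h)⁻¹).1 = Matrix.scalar _ r from hr.symm] at e'
    rw [e', Matrix.scalar_apply, ← Matrix.smul_eq_diagonal_mul, Matrix.smul_mul]
  have key : ∀ (A : Matrix (Fin k ⊕ Fin (k + 1)) (Fin k ⊕ Fin (k + 1)) (ZMod p)) (r : ZMod p) (m : ℕ),
      G * A = r • (A * G) → A ^ m = 1 → r ^ m = 1 := by
    intro A r m h hA
    have h1 := twisted_pow G A r h m
    rw [hA, mul_one, one_mul] at h1
    have h2 := congrArg (fun M => M * Gi) h1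
    simp only [Matrix.smul_mul, hGGi] at h2
    have h3 := congrFun (congrFun h2 (Sum.inr 0)) (Sum.inr 0)
    simp at h3
    exact h3.symm
  -- (i)
  have hU : ∀ v : Fin 3 → ZMod p, G * Um p k v = Um p k v * G := by
    intro v
    obtain ⟨r, hr⟩ := M1 ⟨Multiplicative.ofAdd v, 1⟩
    rw [psi_mk, f2_one, mul_one] at hr
    have hr' : G * Um p k v = r • (Um p k v * G) := hr
    have h1 := key _ r p hr' (Um_pow_p p k v)
    rw [ZMod.pow_card] at h1
    rw [hr', h1, one_smul]
  -- (ii)
  have hT : G * Tm p k = Tm p k * G := by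
    obtain ⟨r, hr⟩ := M1 ⟨1, -1⟩
    rw [psi_mk, map_one, one_mul, f2_neg_one] at hr
    have hr1 : G * ((Tm p k).det • Tm p k) = r • (((Tm p k).det • Tm p k) * G) := hr
    rw [Matrix.mul_smul, Matrix.smul_mul] at hr1
    have hr2 := congrArg (fun M => (Tm p k).det • M) hr1
    simp only [smul_smul] at hr2
    have e : (Tm p k).det * (r * (Tm p k).det) = r := by rw [mul_left_comm, tc_sq, mul_one]
    rw [tc_sq, one_smul, e] at hr2
    have h1 := key _ r 2 hr2 (by rw [pow_two, Tm_mul_self])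
    rcases sq_eq_one_iff.mp h1 with h2 | h2
    · rw [hr2, h2, one_smul]
    · exfalso
      rw [h2] at hr2
      have h3 : Tm p k = -(Gi * (Tm p k * G)) := by
        calc Tm p k = Gi * (G * Tm p k) := by rw [← mul_assoc, hGiG, one_mul]
          _ = -(Gi * (Tm p k * G)) := by rw [hr2]; simp
      have h4 := congrArg Matrix.trace h3
      rw [Matrix.trace_neg, Matrix.trace_mul_comm, mul_assoc, hGGi, mul_one, Tm_trace, neg_neg] at h4
      have h5 : (1 : ZMod p) = -1 := h4.symm
      have h6 := eq_zero_of_eq_neg p hp 1 h5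
      exact one_ne_zero h6
  -- blocks
  have hG : G = Matrix.fromBlocks G.toBlocks₁₁ G.toBlocks₁₂ G.toBlocks₂₁ G.toBlocks₂₂ :=
    (Matrix.fromBlocks_toBlocks G).symm
  have hB : G.toBlocks₁₂ = 0 ∧ G.toBlocks₂₁ = 0 := by
    have h1 := hT
    rw [hG] at h1
    simp only [Tm, Matrix.fromBlocks_multiply] at h1
    rw [Matrix.fromBlocks_inj] at h1
    obtain ⟨-, h12, h21, -⟩ := h1
    simp only [Matrix.mul_one, Matrix.mul_zero, zero_add, add_zero, Matrix.mul_neg, Matrix.one_mul,
      Matrix.zero_mul, Matrix.neg_mul] at h12 h21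
    constructor
    · ext j i
      have := congrFun (congrFun h12 j) i
      exact eq_zero_of_eq_neg p hp _ (by simpa using this.symm)
    · ext j i
      have := congrFun (congrFun h21 j) i
      exact eq_zero_of_eq_neg p hp _ (by simpa using this)
  have hcomm : ∀ v : Fin 3 → ZMod p, G.toBlocks₂₂ * Cm p k v = Cm p k v * G.toBlocks₁₁ := by
    intro v
    have h1 := hU v
    rw [hG, hB.1, hB.2] at h1
    simp only [Um, Matrix.fromBlocks_multiply] at h1
    rw [Matrix.fromBlocks_inj] at h1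
    obtain ⟨-, -, h21, -⟩ := h1
    simpa using h21
  have hX : G.toBlocks₂₂ * Xm p k = Xm p k * G.toBlocks₁₁ := by
    have := hcomm (Pi.single 0 1)
    have e : Cm p k (Pi.single 0 1) = Xm p k := by simp [Cm]
    rwa [e] at this
  have hY : G.toBlocks₂₂ * Ym p k = Ym p k * G.toBlocks₁₁ := by
    have := hcomm (Pi.single 1 1)
    have e : Cm p k (Pi.single 1 1) = Ym p k := by simp [Cm]
    rwa [e] at this
  obtain ⟨hA, hD⟩ := brick p k _ _ hX hY
  obtain ⟨α, hα⟩ : ∃ α : ZMod p, α = G.toBlocks₂₂ 0 0 := ⟨_, rfl⟩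
  rw [← hα] at hA hD
  have hGscal : G = α • (1 : Matrix (Fin k ⊕ Fin (k + 1)) (Fin k ⊕ Fin (k + 1)) (ZMod p)) := by
    calc G = Matrix.fromBlocks G.toBlocks₁₁ G.toBlocks₁₂ G.toBlocks₂₁ G.toBlocks₂₂ := hG
      _ = Matrix.fromBlocks (α • 1) 0 0 (α • 1) := by rw [hB.1, hB.2, hA, hD]
      _ = α • 1 := by
        rw [← Matrix.fromBlocks_one, Matrix.fromBlocks_smul, smul_zero, smul_zero]
  rw [Subgroup.mem_center_iff]
  intro b
  apply Subtype.ext
  rw [Matrix.SpecialLinearGroup.coe_mul, Matrix.SpecialLinearGroup.coe_mul]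
  show b.1 * G = G * b.1
  rw [hGscal]
  simp

end core

/-- For every odd prime `p` there is a finite group `H` of order `2p³` which, for infinitely many `n`, embeds in the projective special linear group `PSL(n, p)` as a subgroup with trivial centralizer. -/
theorem result
    (p : ℕ) [Fact p.Prime] (hp : p ≠ 2) :
    ∃ (H : Type) (_ : Group H) (_ : Finite H), Nat.card H = 2 * p ^ 3 ∧
      ∀ N : ℕ, ∃ n, N ≤ n ∧ ∃ φ : H →* Matrix.ProjectiveSpecialLinearGroup (Fin n) (ZMod p),
        Function.Injective φ ∧ Subgroup.centralizer (φ.range : Set (Matrix.ProjectiveSpecialLinearGroup (Fin n) (ZMod p))) = ⊥ := by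
  have hpp : p.Prime := Fact.out
  have hfin : Finite (Hgrp p) := by
    apply Nat.finite_of_card_ne_zero
    rw [card_Hgrp]
    have := hpp.pos
    positivity
  refine ⟨Hgrp p, inferInstance, hfin, card_Hgrp p, ?_⟩
  intro N
  refine ⟨(N + 2) + ((N + 2) + 1), by omega, ?_⟩
  obtain ⟨c1, c2⟩ := core_transfer (psi p (N + 2))
    (slReindex (ZMod p) (finSumFinEquiv : Fin (N + 2) ⊕ Fin ((N + 2) + 1) ≃ Fin ((N + 2) + ((N + 2) + 1))))
    (core1 p (N + 2) hp (by omega)) (core2 p (N + 2) hp)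
  have h := core_to_quotient _ c1 c2
  exact ⟨_, h.1, h.2⟩

end Cfsg.Agent.S2533
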