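import Mathlib
import Cfsg.Statements.S2540
import Cfsg.Agent.S0249
import Cfsg.Agent.Lib.Helper5.SLGen

set_option autoImplicit false
open Cfsg

namespace Cfsg.Agent.S2540

open scoped commutatorElement

/-- commutators are unchanged by central factors -/
lemma comm_central {S : Type*} [Group S] (a b z w : S) (hz : z ∈ Subgroup.center S)
    (hw : w ∈ Subgroup.center S) : ⁅a * z, b * w⁆ = ⁅a, b⁆ := by
  rw [Subgroup.mem_center_iff] at hz hw
  have hA : ∀ y : S, ⁅a * z, y⁆ = ⁅a, y⁆ := by
    intro y
    have hzy : z * y * z⁻¹ = y := by rw [← hz y, mul_assoc, mul_inv_cancel, mul_one]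
    rw [commutatorElement_def, commutatorElement_def]
    have e : a * z * y * (a * z)⁻¹ * y⁻¹ = a * (z * y * z⁻¹) * a⁻¹ * y⁻¹ := by group
    rw [e, hzy]
  have hB : ∀ x : S, ⁅x, b * w⁆ = ⁅x, b⁆ := by
    intro x
    have hwx : w * x⁻¹ * w⁻¹ = x⁻¹ := by rw [← hw x⁻¹, mul_assoc, mul_inv_cancel, mul_one]
    rw [commutatorElement_def, commutatorElement_def]
    have e : x * (b * w) * x⁻¹ * (b * w)⁻¹ = x * b * (w * x⁻¹ * w⁻¹) * b⁻¹ := by group
    rw [e, hwx]
  rw [hA, hB]

/-- Let F be a finite field and n ≥ 1, excluding the case n = 2 with #F ≤ 3. A subgroup of GL_n(F) that is normalized by every element of SL_n(F) either consists of scalar matrices or contains SL_n(F). -/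
theorem result {F : Type*} [Field F] [Fintype F] (n : ℕ) (hn : 1 ≤ n) (hex : ¬ (n = 2 ∧ Fintype.card F ≤ 3)) (G : Subgroup (Matrix.GeneralLinearGroup (Fin n) F)) (hG : ∀ s : Matrix.SpecialLinearGroup (Fin n) F, ∀ g ∈ G, (Matrix.SpecialLinearGroup.toGL s) * g * (Matrix.SpecialLinearGroup.toGL s)⁻¹ ∈ G) : (∀ g ∈ G, ∃ c : F, (g : Matrix (Fin n) (Fin n) F) = c • (1 : Matrix (Fin n) (Fin n) F)) ∨ (Matrix.SpecialLinearGroup.toGL : Matrix.SpecialLinearGroup (Fin n) F →* _).range ≤ G := by
  classical
  by_cases hn1 : n = 1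
  · subst hn1
    left
    intro g _
    refine ⟨(g : Matrix (Fin 1) (Fin 1) F) 0 0, ?_⟩
    ext i j
    have hi : i = 0 := Subsingleton.elim _ _
    have hj : j = 0 := Subsingleton.elim _ _
    subst hi hj
    simp
  have hn2 : 2 ≤ n := by omega
  -- simplicity and perfection
  have hfacts : IsSimpleGroup (Matrix.ProjectiveSpecialLinearGroup (Fin n) F) ∧
      commutator (Matrix.SpecialLinearGroup (Fin n) F) = ⊤ := by
    rcases Nat.lt_or_ge n 3 with h3 | h3
    · obtain rfl : n = 2 := by omega
      have hc : 4 ≤ Fintype.card F := by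
        by_contra hcon
        exact hex ⟨rfl, by omega⟩
      have hc' : 4 ≤ Nat.card F := by rwa [Nat.card_eq_fintype_card]
      refine ⟨Matrix.ProjectiveSpecialLinearGroup.rank_two_simple hc', ?_⟩
      obtain ⟨x, hx⟩ : ∃ x : Fˣ, ∀ y : Fˣ, y ∈ Subgroup.zpowers x := IsCyclic.exists_generator
      have hord : orderOf x = Fintype.card F - 1 := by
        rw [orderOf_eq_card_of_forall_mem_zpowers hx, Nat.card_eq_fintype_card, Fintype.card_units]
      refine Matrix.SL2.commutator_eq_top (a := (x : F)) (Units.ne_zero x) ?_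
      intro h
      have h2 : x ^ 2 = 1 := Units.ext (by simpa using h)
      have := orderOf_dvd_of_pow_eq_one h2
      rw [hord] at this
      have := Nat.le_of_dvd (by norm_num) this
      omega
    · refine ⟨Cfsg.Agent.S0249.result n h3, ?_⟩
      exact Cfsg.Agent.Lib.Helper5.commutator_SL_eq_top (by simpa using h3)
  obtain ⟨hsimple, hperf⟩ := hfacts
  -- N = G ∩ SL
  let N : Subgroup (Matrix.SpecialLinearGroup (Fin n) F) := G.comap Matrix.SpecialLinearGroup.toGL
  have hNnormal : N.Normal := by
    refine ⟨fun x hx s => ?_⟩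
    show Matrix.SpecialLinearGroup.toGL (s * x * s⁻¹) ∈ G
    rw [map_mul, map_mul, map_inv]
    exact hG s _ hx
  have hmapnormal : (N.map (QuotientGroup.mk' (Subgroup.center (Matrix.SpecialLinearGroup (Fin n) F)))).Normal :=
    hNnormal.map _ (QuotientGroup.mk'_surjective _)
  rcases hmapnormal.eq_bot_or_eq_top with hbot | htop
  · -- N is central
    left
    have hNcenter : ∀ x ∈ N, x ∈ Subgroup.center (Matrix.SpecialLinearGroup (Fin n) F) := by
      intro x hx
      have h1 : QuotientGroup.mk' (Subgroup.center (Matrix.SpecialLinearGroup (Fin n) F)) x ∈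
          N.map (QuotientGroup.mk' (Subgroup.center (Matrix.SpecialLinearGroup (Fin n) F))) :=
        Subgroup.mem_map_of_mem _ hx
      rw [hbot, Subgroup.mem_bot] at h1
      exact (QuotientGroup.eq_one_iff x).mp h1
    intro g hg
    -- L1
    have L1 : ∀ s : Matrix.SpecialLinearGroup (Fin n) F, ∃ z ∈ Subgroup.center (Matrix.SpecialLinearGroup (Fin n) F),
        g * Matrix.SpecialLinearGroup.toGL s * g⁻¹ = Matrix.SpecialLinearGroup.toGL (s * z) := by
      intro s
      set c : GL (Fin n) F := (Matrix.SpecialLinearGroup.toGL s)⁻¹ * g * Matrix.SpecialLinearGroup.toGL s * g⁻¹ with hc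
      have hcG : c ∈ G := by
        have h1 := hG s⁻¹ g hg
        rw [map_inv, inv_inv] at h1
        exact G.mul_mem h1 (G.inv_mem hg)
      have hdet : (c : Matrix (Fin n) (Fin n) F).det = 1 := by
        have h1 : Matrix.GeneralLinearGroup.det c = 1 := by
          rw [hc, map_mul, map_mul, map_mul, map_inv, map_inv]
          rw [mul_comm _ (Matrix.GeneralLinearGroup.det g), mul_assoc, mul_assoc]
          simp
        have h2 := congrArg Units.val h1
        simpa using h2
      let κ : Matrix.SpecialLinearGroup (Fin n) F := ⟨(c : Matrix (Fin n) (Fin n) F), hdet⟩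
      have hκ : Matrix.SpecialLinearGroup.toGL κ = c := by
        apply Units.ext
        rfl
      have hκN : κ ∈ N := by
        show Matrix.SpecialLinearGroup.toGL κ ∈ G
        rw [hκ]; exact hcG
      refine ⟨κ, hNcenter κ hκN, ?_⟩
      rw [map_mul, hκ, hc]
      group
    -- K = centralizer of g in SL is everything
    let K : Subgroup (Matrix.SpecialLinearGroup (Fin n) F) :=
      (Subgroup.centralizer ({g} : Set (GL (Fin n) F))).comap Matrix.SpecialLinearGroup.toGL
    have hK : K = ⊤ := by
      rw [eq_top_iff, ← hperf, commutator_def, Subgroup.commutator_le]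
      intro a _ b _
      show Matrix.SpecialLinearGroup.toGL ⁅a, b⁆ ∈ Subgroup.centralizer ({g} : Set (GL (Fin n) F))
      rw [Subgroup.mem_centralizer_iff]
      intro h hh
      rw [Set.mem_singleton_iff] at hh
      subst hh
      obtain ⟨za, hza, ha⟩ := L1 a
      obtain ⟨zb, hzb, hb⟩ := L1 b
      let f : Matrix.SpecialLinearGroup (Fin n) F →* GL (Fin n) F :=
        (MulAut.conj h).toMonoidHom.comp Matrix.SpecialLinearGroup.toGL
      have hf : ∀ s, f s = h * Matrix.SpecialLinearGroup.toGL s * h⁻¹ := fun s => rfl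
      have h1 : f ⁅a, b⁆ = ⁅f a, f b⁆ := map_commutatorElement f a b
      rw [hf a, hf b, ha, hb, ← map_commutatorElement, comm_central a b za zb hza hzb, hf] at h1
      exact mul_inv_eq_iff_eq_mul.mp h1
    have hcomm : ∀ s : Matrix.SpecialLinearGroup (Fin n) F,
        g * Matrix.SpecialLinearGroup.toGL s = Matrix.SpecialLinearGroup.toGL s * g := by
      intro s
      have hs : s ∈ K := by rw [hK]; exact Subgroup.mem_top s
      have hs' : Matrix.SpecialLinearGroup.toGL s ∈ Subgroup.centralizer ({g} : Set (GL (Fin n) F)) := hs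
      rw [Subgroup.mem_centralizer_iff] at hs'
      exact hs' g rfl
    have hscal : (g : Matrix (Fin n) (Fin n) F) ∈ Set.range (Matrix.scalar (Fin n)) := by
      apply Matrix.mem_range_scalar_of_commute_transvectionStruct
      intro t
      let s : Matrix.SpecialLinearGroup (Fin n) F := ⟨t.toMatrix, t.det⟩
      have h1 := congrArg Units.val (hcomm s)
      simp only [Units.val_mul] at h1
      exact h1.symm
    obtain ⟨c, hc⟩ := hscal
    refine ⟨c, ?_⟩
    rw [← hc]
    ext i j
    simp [Matrix.scalar_apply, Matrix.diagonal_apply, Matrix.one_apply]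
  · -- N maps onto PSL
    right
    have hdecomp : ∀ s : Matrix.SpecialLinearGroup (Fin n) F, ∃ x ∈ N,
        ∃ z ∈ Subgroup.center (Matrix.SpecialLinearGroup (Fin n) F), s = x * z := by
      intro s
      have h1 : QuotientGroup.mk' (Subgroup.center (Matrix.SpecialLinearGroup (Fin n) F)) s ∈
          N.map (QuotientGroup.mk' (Subgroup.center (Matrix.SpecialLinearGroup (Fin n) F))) := by
        rw [htop]; exact Subgroup.mem_top _
      obtain ⟨x, hx, hxs⟩ := Subgroup.mem_map.mp h1
      refine ⟨x, hx, x⁻¹ * s, ?_, by group⟩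
      have h2 : QuotientGroup.mk' (Subgroup.center (Matrix.SpecialLinearGroup (Fin n) F)) (x⁻¹ * s) = 1 := by
        rw [map_mul, map_inv, hxs]; simp
      exact (QuotientGroup.eq_one_iff _).mp h2
    have hN : N = ⊤ := by
      rw [eq_top_iff, ← hperf, commutator_def, Subgroup.commutator_le]
      intro a _ b _
      obtain ⟨x, hx, z, hz, rfl⟩ := hdecomp a
      obtain ⟨y, hy, w, hw, rfl⟩ := hdecomp b
      rw [comm_central x y z w hz hw]
      exact Subgroup.commutator_mem_commutator hx hy |> fun h =>
        (Subgroup.commutator_le_left N N) h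
    rintro _ ⟨s, rfl⟩
    have hs : s ∈ N := by rw [hN]; exact Subgroup.mem_top s
    exact hs

end Cfsg.Agent.S2540
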