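import Cfsg.Statements.S2541

set_option autoImplicit false
open Cfsg

namespace Cfsg.Agent.S2541

lemma perm_pow_four (σ : Equiv.Perm (Fin 6)) (h : σ ^ 8 = 1) : σ ^ 4 = 1 := by
  rw [← orderOf_dvd_iff_pow_eq_one] at h ⊢
  rw [← Equiv.Perm.lcm_cycleType] at h ⊢
  rw [Multiset.lcm_dvd]
  intro n hn
  have h1 : n ∣ 8 := (Multiset.dvd_lcm hn).trans h
  have h2 : n ≤ 6 := by
    have := Equiv.Perm.le_card_support_of_mem_cycleType hn
    have h3 : σ.support.card ≤ Fintype.card (Fin 6) := Finset.card_le_univ _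
    simp at h3
    omega
  have h3 : n ∈ Nat.divisors 8 := Nat.mem_divisors.mpr ⟨h1, by norm_num⟩
  have h4 : Nat.divisors 8 = {1, 2, 4, 8} := by decide
  rw [h4] at h3
  simp only [Finset.mem_insert, Finset.mem_singleton] at h3
  rcases h3 with rfl | rfl | rfl | rfl
  · norm_num
  · norm_num
  · norm_num
  · omega

/-- the diagonal matrix diag(z, 1) as an element of GL -/
def dg {F : Type*} [Field F] (z : Fˣ) : GL (Fin 2) F :=
  ⟨!![(z : F), 0; 0, 1], !![((z⁻¹ : Fˣ) : F), 0; 0, 1],
    by ext i j; fin_cases i <;> fin_cases j <;> simp [Matrix.mul_apply, Fin.sum_univ_two],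
    by ext i j; fin_cases i <;> fin_cases j <;> simp [Matrix.mul_apply, Fin.sum_univ_two]⟩

lemma dg_pow {F : Type*} [Field F] (z : Fˣ) (m : ℕ) : (dg z) ^ m = dg (z ^ m) := by
  induction m with
  | zero =>
    apply Units.ext
    ext i j
    fin_cases i <;> fin_cases j <;> simp [dg]
  | succ m ih =>
    rw [pow_succ, ih]
    apply Units.ext
    ext i j
    fin_cases i <;> fin_cases j <;> simp [dg, Matrix.mul_apply, Fin.sum_univ_two, pow_succ]

/-- the swap matrix as an element of GL -/
def sw {F : Type*} [Field F] : GL (Fin 2) F :=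
  ⟨!![0, 1; 1, 0], !![0, 1; 1, 0],
    by ext i j; fin_cases i <;> fin_cases j <;> simp [Matrix.mul_apply, Fin.sum_univ_two],
    by ext i j; fin_cases i <;> fin_cases j <;> simp [Matrix.mul_apply, Fin.sum_univ_two]⟩

/-- Let F be a field with 9 elements. The symmetric group S_6 is not isomorphic to PGL_2(F) (although both have index-2 subgroups isomorphic to A_6). -/
theorem result {F : Type*} [Field F] [Fintype F] (hF : Fintype.card F = 9) : ¬ Nonempty (Equiv.Perm (Fin 6) ≃* Matrix.ProjGenLinGroup (Fin 2) F) := by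
  classical
  rintro ⟨e⟩
  obtain ⟨z, hz⟩ : ∃ z : Fˣ, ∀ x : Fˣ, x ∈ Subgroup.zpowers z := IsCyclic.exists_generator
  have hord : orderOf z = 8 := by
    rw [orderOf_eq_card_of_forall_mem_zpowers hz, Nat.card_eq_fintype_card, Fintype.card_units, hF]
  have hz8 : z ^ 8 = 1 := by rw [← hord]; exact pow_orderOf_eq_one z
  have hz4 : z ^ 4 ≠ 1 := by
    intro h
    have := orderOf_dvd_of_pow_eq_one h
    rw [hord] at this
    omega
  set g : Matrix.ProjGenLinGroup (Fin 2) F := Matrix.ProjGenLinGroup.mk (dg z) with hg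
  have hg8 : g ^ 8 = 1 := by
    rw [hg, ← map_pow, dg_pow, hz8]
    have : dg (1 : Fˣ) = 1 := by
      apply Units.ext
      ext i j
      fin_cases i <;> fin_cases j <;> simp [dg]
    rw [this, map_one]
  have hg4 : g ^ 4 ≠ 1 := by
    rw [hg, ← map_pow, dg_pow]
    intro h
    rw [Matrix.ProjGenLinGroup.mk_eq_one, Subgroup.mem_center_iff] at h
    have h1 := h sw
    have h2 := congrArg (fun u : GL (Fin 2) F => (u : Matrix (Fin 2) (Fin 2) F) 0 1) h1
    simp [dg, sw, Matrix.mul_apply, Fin.sum_univ_two] at h2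
    apply hz4
    apply Units.ext
    rw [Units.val_pow_eq_pow_val]
    simpa using h2.symm
  have h1 : (e.symm g) ^ 8 = 1 := by rw [← map_pow, hg8, map_one]
  have h2 := perm_pow_four _ h1
  rw [← map_pow] at h2
  have h3 : g ^ 4 = 1 := by
    have := congrArg e h2
    simpa using this
  exact hg4 h3

end Cfsg.Agent.S2541
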