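import Cfsg.Statements.S2550
import Cfsg.Agent.Lib.Helper40.PSLOrders

set_option autoImplicit false
open Cfsg

namespace Cfsg.Agent.S2550

/-- Let F be a field with 2 elements and K a field with 4 elements. PSL_4(F) and PSL_3(K) have the same order (20160) but are not isomorphic. -/
theorem result {F K : Type*} [Field F] [Fintype F] [Field K] [Fintype K] (hF : Fintype.card F = 2) (hK : Fintype.card K = 4) : Nat.card (Matrix.ProjectiveSpecialLinearGroup (Fin 4) F) = Nat.card (Matrix.ProjectiveSpecialLinearGroup (Fin 3) K) ∧ ¬ Nonempty (Matrix.ProjectiveSpecialLinearGroup (Fin 4) F ≃* Matrix.ProjectiveSpecialLinearGroup (Fin 3) K) := by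
  refine ⟨?_, Cfsg.Agent.Lib.Helper40.not_nonempty_mulEquiv_PSL hF hK⟩
  rw [Cfsg.Agent.Lib.Helper40.card_PSL_four_two hF, Cfsg.Agent.Lib.Helper40.card_PSL_three_four hK]

end Cfsg.Agent.S2550
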