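import Cfsg.Statements.S2551
import Cfsg.Agent.S0256
import Cfsg.Agent.Lib.Helper60.GL42.Main

set_option autoImplicit false
open Cfsg

namespace Cfsg.Agent.S2551

open Cfsg.Agent.Lib.Helper60.GL42 Cfsg.Agent.Lib.Helper5

/-- `A₇` embeds in `A₈`. -/
theorem exists_alt7_alt8 :
    ∃ f : alternatingGroup (Fin 7) →* alternatingGroup (Fin 8), Function.Injective f := by
  classical
  let e : Fin 7 ≃ {i : Fin 8 // i ∈ Set.range (Fin.castSucc : Fin 7 → Fin 8)} :=
    Equiv.ofInjective _ (Fin.castSucc_injective 7)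
  let φ : Equiv.Perm (Fin 7) →* Equiv.Perm (Fin 8) := Equiv.Perm.extendDomainHom e
  have hφ : Function.Injective φ := Equiv.Perm.extendDomainHom_injective e
  have hs : ∀ σ : Equiv.Perm (Fin 7), Equiv.Perm.sign (φ σ) = Equiv.Perm.sign σ :=
    fun σ => Equiv.Perm.sign_extendDomain σ e
  refine ⟨(φ.comp (alternatingGroup (Fin 7)).subtype).codRestrict (alternatingGroup (Fin 8)) ?_,
    ?_⟩
  · intro x
    rw [Equiv.Perm.mem_alternatingGroup]
    change Equiv.Perm.sign (φ (x : Equiv.Perm (Fin 7))) = 1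
    rw [hs]
    exact Equiv.Perm.mem_alternatingGroup.mp x.2
  · intro x y h
    have h' : φ (x : Equiv.Perm (Fin 7)) = φ (y : Equiv.Perm (Fin 7)) := congrArg Subtype.val h
    exact Subtype.ext (hφ h')

/-- `GL₄(𝔽₂)` has a subgroup isomorphic to `A₇`. -/
theorem exists_alt7 {F : Type*} [Field F] [Fintype F] (hF : Fintype.card F = 2) :
    ∃ H : Subgroup (Matrix.GeneralLinearGroup (Fin 4) F),
      Nonempty (H ≃* alternatingGroup (Fin 7)) := by
  obtain ⟨f, hf⟩ := exists_alt7_alt8
  obtain ⟨e⟩ := nonempty_psl_mulEquiv_sl_zmod_two (n := Fin 4) (K := ZMod 2) (ZMod.card 2)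
  have hs1 : IsSimpleGroup (Matrix.ProjectiveSpecialLinearGroup (Fin 4) (ZMod 2)) :=
    Cfsg.Agent.S0249.result 4 (by norm_num)
  have hs2 : IsSimpleGroup Cfsg.Agent.S0256.G := e.symm.isSimpleGroup
  obtain ⟨e'⟩ := Cfsg.Agent.S0256.G_equiv
  let r : ZMod 2 ≃+* F := ZMod.ringEquivOfPrime F Nat.prime_two hF
  let φ : alternatingGroup (Fin 7) →* Matrix.GeneralLinearGroup (Fin 4) F :=
    (Matrix.SpecialLinearGroup.toGL.comp (slCongr (n := Fin 4) r).toMonoidHom).comp
      (e'.symm.toMonoidHom.comp f)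
  have hφ : Function.Injective φ := by
    intro x y h
    apply hf
    apply e'.symm.injective
    apply (slCongr (n := Fin 4) r).injective
    have h' : Matrix.SpecialLinearGroup.toGL (slCongr (n := Fin 4) r (e'.symm (f x))) =
        Matrix.SpecialLinearGroup.toGL (slCongr (n := Fin 4) r (e'.symm (f y))) := h
    apply Subtype.ext
    exact congrArg (fun g : Matrix.GeneralLinearGroup (Fin 4) F =>
      (g : Matrix (Fin 4) (Fin 4) F)) h'
  exact ⟨φ.range, ⟨(MonoidHom.ofInjective hφ).symm⟩⟩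

/-- Let F be the field with 2 elements. GL_4(F) (≅ A_8) has a subgroup isomorphic to the alternating group A_7, and every such subgroup acts 2-transitively on the 15 non-zero vectors of F⁴: any ordered pair of distinct non-zero vectors is carried to any other by some element of the subgroup. -/
theorem result {F : Type*} [Field F] [Fintype F] (hF : Fintype.card F = 2) : (∃ H : Subgroup (Matrix.GeneralLinearGroup (Fin 4) F), Nonempty (H ≃* alternatingGroup (Fin 7))) ∧ ∀ H : Subgroup (Matrix.GeneralLinearGroup (Fin 4) F), Nonempty (H ≃* alternatingGroup (Fin 7)) → ∀ v w v' w' : Fin 4 → F, v ≠ 0 → w ≠ 0 → v ≠ w → v' ≠ 0 → w' ≠ 0 → v' ≠ w' → ∃ g ∈ H, (g : Matrix (Fin 4) (Fin 4) F).mulVec v = v' ∧ (g : Matrix (Fin 4) (Fin 4) F).mulVec w = w' := by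
  refine ⟨exists_alt7 hF, ?_⟩
  rintro H ⟨e⟩ v w v' w' hv hw hvw hv' hw' hvw'
  have hcard : Nat.card H = 2520 := by
    rw [Nat.card_congr e.toEquiv, nat_card_alternatingGroup]
    simp [Nat.factorial]
  exact twoTrans_of_dvd hF H (by rw [hcard]; norm_num) (by rw [hcard]; norm_num)
    v w v' w' hv hw hvw hv' hw' hvw'

end Cfsg.Agent.S2551
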