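import Cfsg.Statements.S2561
import Cfsg.Agent.Lib.Helper43.F2Witt

set_option autoImplicit false
open Cfsg

namespace Cfsg.Agent.S2561

open Cfsg.Agent.Lib.Helper43

/-- The plus form shifted by the linear functional `f(·, w)`. -/
def Qw (m : ℕ) (w : Fin m ⊕ Fin m → ZMod 2) : (Fin m ⊕ Fin m → ZMod 2) → ZMod 2 :=
  fun v => Cfsg.quadFormPlus m (ZMod 2) v + pf m v w

theorem Qw_polarizes (m : ℕ) (w : Fin m ⊕ Fin m → ZMod 2) : Polarizes (Qw m w) (pf m) := by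
  intro u v
  unfold Qw
  rw [plus_polarizes m u v, (pf_isBiadd m).1]
  ring

theorem Qw_injective (m : ℕ) : Function.Injective (Qw m) := by
  intro w w' h
  by_contra hne
  have hne' : w + w' ≠ 0 := by
    intro h0
    apply hne
    have := vec_add_self w'
    calc w = w + (w' + w') := by rw [this, add_zero]
      _ = (w + w') + w' := by abel
      _ = w' := by rw [h0, zero_add]
  obtain ⟨u, hu⟩ := pf_nondeg m (w + w') hne'
  have h1 := congrFun h u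
  unfold Qw at h1
  rw [(pf_isBiadd m).2] at hu
  have h2 : pf m u w = pf m u w' := add_left_cancel h1
  rw [h2, zmod2_add_self] at hu
  exact zero_ne_one hu

theorem exists_Qw_of_polarizes (m : ℕ) (q : (Fin m ⊕ Fin m → ZMod 2) → ZMod 2)
    (hq : Polarizes q (pf m)) : ∃ w, Qw m w = q := by
  classical
  set l : (Fin m ⊕ Fin m → ZMod 2) → ZMod 2 := fun v => q v + Cfsg.quadFormPlus m (ZMod 2) v with hl
  have hadd : ∀ u v, l (u + v) = l u + l v := by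
    intro u v
    simp only [hl]
    rw [hq u v, plus_polarizes m u v]
    have := zmod2_add_self (pf m u v)
    linear_combination this
  let lin : (Fin m ⊕ Fin m → ZMod 2) →ₗ[ZMod 2] ZMod 2 :=
    AddMonoidHom.toZModLinearMap 2 (AddMonoidHom.mk' l hadd)
  have hlin : ∀ v, lin v = l v := fun v => rfl
  set e : Fin m ⊕ Fin m → (Fin m ⊕ Fin m → ZMod 2) := fun i j => if i = j then 1 else 0 with he
  refine ⟨fun j => match j with
    | Sum.inl i => l (e (Sum.inr i))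
    | Sum.inr i => l (e (Sum.inl i)), ?_⟩
  funext v
  have h1 := lin.pi_apply_eq_sum_univ v
  rw [Fintype.sum_sum_type] at h1
  simp only [hlin, smul_eq_mul] at h1
  unfold Qw pf
  simp only
  rw [Finset.sum_add_distrib]
  have h2 : l v = ∑ i : Fin m, v (Sum.inl i) * l (e (Sum.inl i)) + ∑ i : Fin m, v (Sum.inr i) * l (e (Sum.inr i)) := h1
  rw [← h2]
  simp only [hl]
  have := zmod2_add_self (Cfsg.quadFormPlus m (ZMod 2) v)
  linear_combination this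

theorem Qw_plus_of_zero (m : ℕ) (w : Fin m ⊕ Fin m → ZMod 2)
    (hw : Cfsg.quadFormPlus m (ZMod 2) w = 0) :
    ∃ g : (Fin m ⊕ Fin m → ZMod 2) ≃ₗ[ZMod 2] (Fin m ⊕ Fin m → ZMod 2),
      ∀ v, Qw m w v = Cfsg.quadFormPlus m (ZMod 2) (g v) :=
  ⟨transv (pf m) (pf_isBiadd m) w ((plus_polarizes m).self (pf_isBiadd m) w (vec_add_self w)),
    fun v => ((plus_polarizes m).apply_transv_of_eq_zero (pf_isBiadd m) w hw v).symm⟩

theorem Qw_w0 (n : ℕ) : Qw (n + 1) (w0 n) = minusQ n := rfl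

theorem Qw_minus_of_one (n : ℕ) (w : Fin (n + 1) ⊕ Fin (n + 1) → ZMod 2)
    (hw : Cfsg.quadFormPlus (n + 1) (ZMod 2) w = 1) :
    ∃ g : (Fin (n + 1) ⊕ Fin (n + 1) → ZMod 2) ≃ₗ[ZMod 2] ((Fin n ⊕ Fin n) ⊕ Fin 2 → ZMod 2),
      ∀ v, Qw (n + 1) w v = Cfsg.quadFormMinus n (ZMod 2) 1 1 (g v) := by
  have hB := pf_isBiadd (n + 1)
  have hP := minusQ_polarizes n
  set a := w + w0 n with ha
  have hself : ∀ x : Fin (n + 1) ⊕ Fin (n + 1) → ZMod 2, pf (n + 1) x x = 0 :=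
    fun x => (plus_polarizes (n + 1)).self hB x (vec_add_self x)
  have hqa : minusQ n a = 0 := by
    unfold minusQ
    rw [ha, plus_polarizes (n + 1) w (w0 n), hw, plus_w0, hB.1, hself]
    have := zmod2_add_self (pf (n + 1) w (w0 n))
    have h11 : (1 : ZMod 2) + 1 = 0 := by decide
    linear_combination h11 + this
  refine ⟨(transv (pf (n + 1)) hB a (hself a)).trans (minusEquiv n), ?_⟩
  intro v
  rw [LinearEquiv.trans_apply, minus_eq]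
  have h1 := hP.apply_transv_of_eq_zero hB a hqa v
  rw [h1]
  unfold Qw minusQ
  rw [ha, hB.2]
  have := zmod2_add_self (pf (n + 1) v (w0 n))
  linear_combination -this

theorem signSum_Qw (m : ℕ) (w : Fin m ⊕ Fin m → ZMod 2) :
    signSum (Qw m w) = sgn (Cfsg.quadFormPlus m (ZMod 2) w) * 2 ^ m := by
  have h := signSum_shift (plus_polarizes m) w
  rw [signSum_plus] at h
  exact h

theorem Qw_plus_iff (m : ℕ) (w : Fin m ⊕ Fin m → ZMod 2) :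
    (∃ g : (Fin m ⊕ Fin m → ZMod 2) ≃ₗ[ZMod 2] (Fin m ⊕ Fin m → ZMod 2),
      ∀ v, Qw m w v = Cfsg.quadFormPlus m (ZMod 2) (g v)) ↔ Cfsg.quadFormPlus m (ZMod 2) w = 0 := by
  constructor
  · rintro ⟨g, hg⟩
    by_contra hw
    have hw1 := (zmod2_ne_zero _).mp hw
    have h1 := signSum_Qw m w
    have h2 : signSum (Qw m w) = signSum (Cfsg.quadFormPlus m (ZMod 2)) := by
      rw [← signSum_comp (Cfsg.quadFormPlus m (ZMod 2)) g.toEquiv]
      congr 1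
      funext v
      exact hg v
    rw [h2, signSum_plus, hw1, sgn_one] at h1
    have : (0 : ℤ) < 2 ^ m := by positivity
    linarith
  · exact Qw_plus_of_zero m w

theorem Qw_minus_iff (n : ℕ) (w : Fin (n + 1) ⊕ Fin (n + 1) → ZMod 2) :
    (∃ g : (Fin (n + 1) ⊕ Fin (n + 1) → ZMod 2) ≃ₗ[ZMod 2] ((Fin n ⊕ Fin n) ⊕ Fin 2 → ZMod 2),
      ∀ v, Qw (n + 1) w v = Cfsg.quadFormMinus n (ZMod 2) 1 1 (g v))
      ↔ Cfsg.quadFormPlus (n + 1) (ZMod 2) w = 1 := by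
  constructor
  · rintro ⟨g, hg⟩
    by_contra hw
    have hw0 : Cfsg.quadFormPlus (n + 1) (ZMod 2) w = 0 := by
      rcases zmod2_cases (Cfsg.quadFormPlus (n + 1) (ZMod 2) w) with h | h
      · exact h
      · exact absurd h hw
    have h1 := signSum_Qw (n + 1) w
    have h2 : signSum (Qw (n + 1) w) = signSum (Cfsg.quadFormMinus n (ZMod 2) 1 1) := by
      rw [← signSum_comp (Cfsg.quadFormMinus n (ZMod 2) 1 1) g.toEquiv]
      congr 1
      funext v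
      exact hg v
    rw [h2, signSum_minus, hw0, sgn_zero] at h1
    have : (0 : ℤ) < 2 ^ (n + 1) := by positivity
    linarith
  · exact Qw_minus_of_one n w

/-- The statement's polarization condition. -/
def Pol (m : ℕ) (q : (Fin m ⊕ Fin m → ZMod 2) → ZMod 2) : Prop :=
  ∀ u v : (Fin m ⊕ Fin m → ZMod 2), q (u + v) = q u + q v + (Cfsg.quadFormPlus m (ZMod 2) (u + v) - Cfsg.quadFormPlus m (ZMod 2) u - Cfsg.quadFormPlus m (ZMod 2) v)

theorem pol_iff (m : ℕ) (q : (Fin m ⊕ Fin m → ZMod 2) → ZMod 2) : Pol m q ↔ Polarizes q (pf m) := by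
  unfold Pol Polarizes
  simp only [plus_polar]

theorem card_param (m : ℕ) (R : ((Fin m ⊕ Fin m → ZMod 2) → ZMod 2) → Prop) :
    Nat.card {q : (Fin m ⊕ Fin m → ZMod 2) → ZMod 2 // Pol m q ∧ R q}
      = Nat.card {w : Fin m ⊕ Fin m → ZMod 2 // R (Qw m w)} := by
  symm
  apply Nat.card_eq_of_bijective
    (fun w : {w : Fin m ⊕ Fin m → ZMod 2 // R (Qw m w)} =>
      (⟨Qw m w.1, (pol_iff m _).mpr (Qw_polarizes m w.1), w.2⟩ :
        {q : (Fin m ⊕ Fin m → ZMod 2) → ZMod 2 // Pol m q ∧ R q}))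
  constructor
  · intro w w' h
    have := congrArg Subtype.val h
    exact Subtype.ext (Qw_injective m this)
  · rintro ⟨q, hq, hR⟩
    obtain ⟨w, rfl⟩ := exists_Qw_of_polarizes m q ((pol_iff m q).mp hq)
    exact ⟨⟨w, hR⟩, rfl⟩

theorem card_zero_one (n : ℕ) :
    Nat.card {w : Fin (n + 1) ⊕ Fin (n + 1) → ZMod 2 // Cfsg.quadFormPlus (n + 1) (ZMod 2) w = 0}
      = 2 ^ (2 * (n + 1) - 1) + 2 ^ (n + 1 - 1) ∧
    Nat.card {w : Fin (n + 1) ⊕ Fin (n + 1) → ZMod 2 // Cfsg.quadFormPlus (n + 1) (ZMod 2) w = 1}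
      = 2 ^ (2 * (n + 1) - 1) - 2 ^ (n + 1 - 1) := by
  classical
  set Q := Cfsg.quadFormPlus (n + 1) (ZMod 2) with hQ
  rw [Nat.card_eq_fintype_card, Nat.card_eq_fintype_card, Fintype.card_subtype, Fintype.card_subtype]
  set A := (Finset.univ.filter (fun w => Q w = 0)).card with hA
  set B := (Finset.univ.filter (fun w => Q w = 1)).card with hB
  have hB' : B = (Finset.univ.filter (fun w => ¬ Q w = 0)).card := by
    rw [hB]
    congr 1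
    ext w
    simp only [Finset.mem_filter, Finset.mem_univ, true_and]
    exact ((zmod2_ne_zero _).symm)
  have hsum : A + B = 2 ^ (2 * (n + 1)) := by
    rw [hB', hA, Finset.card_filter_add_card_filter_not, Finset.card_univ, ← Nat.card_eq_fintype_card,
      natCard_V2]
  have hdiff : (A : ℤ) - B = 2 ^ (n + 1) := by
    have h := signSum_plus (n + 1)
    unfold signSum sgn at h
    rw [Finset.sum_ite, Finset.sum_const, Finset.sum_const] at h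
    rw [← h, hB']
    simp only [nsmul_eq_mul, mul_one, mul_neg]
    rw [hQ]
    ring
  have e1 : 2 ^ (2 * (n + 1)) = 4 * (2 ^ n * 2 ^ n) := by
    rw [show 2 * (n + 1) = n + n + 2 by ring, pow_add, pow_add]; ring
  have e2 : 2 ^ (2 * (n + 1) - 1) = 2 * (2 ^ n * 2 ^ n) := by
    rw [show 2 * (n + 1) - 1 = n + n + 1 by omega, pow_add, pow_add]; ring
  have e3 : 2 ^ (n + 1 - 1) = 2 ^ n := by
    rw [Nat.add_sub_cancel]
  have e4 : (2 : ℤ) ^ (n + 1) = 2 * 2 ^ n := by rw [pow_succ]; ring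
  rw [e2, e3]
  rw [e1] at hsum
  rw [e4] at hdiff
  have hx : ((2 ^ n : ℕ) : ℤ) = 2 ^ n := by push_cast; rfl
  set x : ℕ := 2 ^ n with hxdef
  set y : ℕ := x * x with hydef
  rw [← hx] at hdiff
  omega

theorem main (n : ℕ) :
    Nat.card {q : (Fin (n + 1) ⊕ Fin (n + 1) → ZMod 2) → ZMod 2 // (∀ u v : (Fin (n + 1) ⊕ Fin (n + 1) → ZMod 2), q (u + v) = q u + q v + (Cfsg.quadFormPlus (n + 1) (ZMod 2) (u + v) - Cfsg.quadFormPlus (n + 1) (ZMod 2) u - Cfsg.quadFormPlus (n + 1) (ZMod 2) v))} = 2 ^ (2 * (n + 1)) ∧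
    (∀ q : (Fin (n + 1) ⊕ Fin (n + 1) → ZMod 2) → ZMod 2, (∀ u v : (Fin (n + 1) ⊕ Fin (n + 1) → ZMod 2), q (u + v) = q u + q v + (Cfsg.quadFormPlus (n + 1) (ZMod 2) (u + v) - Cfsg.quadFormPlus (n + 1) (ZMod 2) u - Cfsg.quadFormPlus (n + 1) (ZMod 2) v)) →
      (∃ g : (Fin (n + 1) ⊕ Fin (n + 1) → ZMod 2) ≃ₗ[ZMod 2] (Fin (n + 1) ⊕ Fin (n + 1) → ZMod 2), ∀ v, q v = Cfsg.quadFormPlus (n + 1) (ZMod 2) (g v)) ∨
      (∃ g : (Fin (n + 1) ⊕ Fin (n + 1) → ZMod 2) ≃ₗ[ZMod 2] ((Fin n ⊕ Fin n) ⊕ Fin 2 → ZMod 2), ∀ v, q v = Cfsg.quadFormMinus n (ZMod 2) 1 1 (g v))) ∧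
    Nat.card {q : (Fin (n + 1) ⊕ Fin (n + 1) → ZMod 2) → ZMod 2 // (∀ u v : (Fin (n + 1) ⊕ Fin (n + 1) → ZMod 2), q (u + v) = q u + q v + (Cfsg.quadFormPlus (n + 1) (ZMod 2) (u + v) - Cfsg.quadFormPlus (n + 1) (ZMod 2) u - Cfsg.quadFormPlus (n + 1) (ZMod 2) v)) ∧ ∃ g : (Fin (n + 1) ⊕ Fin (n + 1) → ZMod 2) ≃ₗ[ZMod 2] (Fin (n + 1) ⊕ Fin (n + 1) → ZMod 2), ∀ v, q v = Cfsg.quadFormPlus (n + 1) (ZMod 2) (g v)} = 2 ^ (2 * (n + 1) - 1) + 2 ^ (n + 1 - 1) ∧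
    Nat.card {q : (Fin (n + 1) ⊕ Fin (n + 1) → ZMod 2) → ZMod 2 // (∀ u v : (Fin (n + 1) ⊕ Fin (n + 1) → ZMod 2), q (u + v) = q u + q v + (Cfsg.quadFormPlus (n + 1) (ZMod 2) (u + v) - Cfsg.quadFormPlus (n + 1) (ZMod 2) u - Cfsg.quadFormPlus (n + 1) (ZMod 2) v)) ∧ ∃ g : (Fin (n + 1) ⊕ Fin (n + 1) → ZMod 2) ≃ₗ[ZMod 2] ((Fin n ⊕ Fin n) ⊕ Fin 2 → ZMod 2), ∀ v, q v = Cfsg.quadFormMinus n (ZMod 2) 1 1 (g v)} = 2 ^ (2 * (n + 1) - 1) - 2 ^ (n + 1 - 1) := by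
  refine ⟨?_, ?_, ?_, ?_⟩
  · have h := card_param (n + 1) (fun _ => True)
    have h2 : Nat.card {q : (Fin (n + 1) ⊕ Fin (n + 1) → ZMod 2) → ZMod 2 // Pol (n + 1) q}
        = Nat.card {q : (Fin (n + 1) ⊕ Fin (n + 1) → ZMod 2) → ZMod 2 // Pol (n + 1) q ∧ True} :=
      Nat.card_congr (Equiv.subtypeEquivRight (fun q => by simp))
    have h3 : Nat.card {w : Fin (n + 1) ⊕ Fin (n + 1) → ZMod 2 // True}
        = Nat.card (Fin (n + 1) ⊕ Fin (n + 1) → ZMod 2) :=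
      Nat.card_congr (Equiv.subtypeUnivEquiv (fun _ => trivial))
    show Nat.card {q : (Fin (n + 1) ⊕ Fin (n + 1) → ZMod 2) → ZMod 2 // Pol (n + 1) q} = _
    rw [h2, h, h3, natCard_V2]
  · intro q hq
    obtain ⟨w, rfl⟩ := exists_Qw_of_polarizes (n + 1) q ((pol_iff (n + 1) q).mp hq)
    rcases zmod2_cases (Cfsg.quadFormPlus (n + 1) (ZMod 2) w) with h | h
    · left; exact Qw_plus_of_zero (n + 1) w h
    · right; exact Qw_minus_of_one n w h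
  · have h := card_param (n + 1) (fun q => ∃ g : (Fin (n + 1) ⊕ Fin (n + 1) → ZMod 2) ≃ₗ[ZMod 2] (Fin (n + 1) ⊕ Fin (n + 1) → ZMod 2), ∀ v, q v = Cfsg.quadFormPlus (n + 1) (ZMod 2) (g v))
    show Nat.card {q : (Fin (n + 1) ⊕ Fin (n + 1) → ZMod 2) → ZMod 2 // Pol (n + 1) q ∧ _} = _
    rw [h, ← (card_zero_one n).1]
    exact Nat.card_congr (Equiv.subtypeEquivRight (fun w => Qw_plus_iff (n + 1) w))
  · have h := card_param (n + 1) (fun q => ∃ g : (Fin (n + 1) ⊕ Fin (n + 1) → ZMod 2) ≃ₗ[ZMod 2] ((Fin n ⊕ Fin n) ⊕ Fin 2 → ZMod 2), ∀ v, q v = Cfsg.quadFormMinus n (ZMod 2) 1 1 (g v))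
    show Nat.card {q : (Fin (n + 1) ⊕ Fin (n + 1) → ZMod 2) → ZMod 2 // Pol (n + 1) q ∧ _} = _
    rw [h, ← (card_zero_one n).2]
    exact Nat.card_congr (Equiv.subtypeEquivRight (fun w => Qw_minus_iff n w))

/-- Fix the non-singular alternating form on the 2m-dimensional space over the field of two elements obtained by polarizing the plus-type form Σ xᵢyᵢ (m ≥ 1). The functions q on the space with q(u + v) = q(u) + q(v) + f(u, v) (the quadratic forms polarizing to f) number 2^(2m); each is equivalent under an invertible linear map either to the plus-type form or to the minus-type form Σ xᵢyᵢ + (z₁² + z₁z₂ + z₂²); and those of plus type number 2^(2m−1) + 2^(m−1), those of minus type 2^(2m−1) − 2^(m−1). -/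
theorem result (m : ℕ) (hm : 1 ≤ m) :
    Nat.card {q : (Fin m ⊕ Fin m → ZMod 2) → ZMod 2 // (∀ u v : (Fin m ⊕ Fin m → ZMod 2), q (u + v) = q u + q v + (Cfsg.quadFormPlus m (ZMod 2) (u + v) - Cfsg.quadFormPlus m (ZMod 2) u - Cfsg.quadFormPlus m (ZMod 2) v))} = 2 ^ (2 * m) ∧
    (∀ q : (Fin m ⊕ Fin m → ZMod 2) → ZMod 2, (∀ u v : (Fin m ⊕ Fin m → ZMod 2), q (u + v) = q u + q v + (Cfsg.quadFormPlus m (ZMod 2) (u + v) - Cfsg.quadFormPlus m (ZMod 2) u - Cfsg.quadFormPlus m (ZMod 2) v)) →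
      (∃ g : (Fin m ⊕ Fin m → ZMod 2) ≃ₗ[ZMod 2] (Fin m ⊕ Fin m → ZMod 2), ∀ v, q v = Cfsg.quadFormPlus m (ZMod 2) (g v)) ∨
      (∃ g : (Fin m ⊕ Fin m → ZMod 2) ≃ₗ[ZMod 2] ((Fin (m - 1) ⊕ Fin (m - 1)) ⊕ Fin 2 → ZMod 2), ∀ v, q v = Cfsg.quadFormMinus (m - 1) (ZMod 2) 1 1 (g v))) ∧
    Nat.card {q : (Fin m ⊕ Fin m → ZMod 2) → ZMod 2 // (∀ u v : (Fin m ⊕ Fin m → ZMod 2), q (u + v) = q u + q v + (Cfsg.quadFormPlus m (ZMod 2) (u + v) - Cfsg.quadFormPlus m (ZMod 2) u - Cfsg.quadFormPlus m (ZMod 2) v)) ∧ ∃ g : (Fin m ⊕ Fin m → ZMod 2) ≃ₗ[ZMod 2] (Fin m ⊕ Fin m → ZMod 2), ∀ v, q v = Cfsg.quadFormPlus m (ZMod 2) (g v)} = 2 ^ (2 * m - 1) + 2 ^ (m - 1) ∧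
    Nat.card {q : (Fin m ⊕ Fin m → ZMod 2) → ZMod 2 // (∀ u v : (Fin m ⊕ Fin m → ZMod 2), q (u + v) = q u + q v + (Cfsg.quadFormPlus m (ZMod 2) (u + v) - Cfsg.quadFormPlus m (ZMod 2) u - Cfsg.quadFormPlus m (ZMod 2) v)) ∧ ∃ g : (Fin m ⊕ Fin m → ZMod 2) ≃ₗ[ZMod 2] ((Fin (m - 1) ⊕ Fin (m - 1)) ⊕ Fin 2 → ZMod 2), ∀ v, q v = Cfsg.quadFormMinus (m - 1) (ZMod 2) 1 1 (g v)} = 2 ^ (2 * m - 1) - 2 ^ (m - 1) := by
  obtain ⟨n, rfl⟩ : ∃ n, m = n + 1 := ⟨m - 1, by omega⟩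
  exact main n

end Cfsg.Agent.S2561
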