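import Cfsg.Statements.S2562
import Cfsg.Agent.Lib.Helper43.F2Witt

set_option autoImplicit false
open Cfsg

namespace Cfsg.Agent.S2562

open Cfsg.Agent.Lib.Helper43

theorem main (n : ℕ) :
    (∃ U : Submodule (ZMod 2) (Fin (n + 1) ⊕ Fin (n + 1) → ZMod 2), (∀ u ∈ U, Cfsg.quadFormPlus (n + 1) (ZMod 2) u = 0) ∧ Module.finrank (ZMod 2) ↥U = n + 1) ∧
    (∀ U : Submodule (ZMod 2) (Fin (n + 1) ⊕ Fin (n + 1) → ZMod 2), (∀ u ∈ U, Cfsg.quadFormPlus (n + 1) (ZMod 2) u = 0) → Module.finrank (ZMod 2) ↥U ≤ n + 1) ∧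
    (∃ U : Submodule (ZMod 2) ((Fin n ⊕ Fin n) ⊕ Fin 2 → ZMod 2), (∀ u ∈ U, Cfsg.quadFormMinus n (ZMod 2) 1 1 u = 0) ∧ Module.finrank (ZMod 2) ↥U = n) ∧
    (∀ U : Submodule (ZMod 2) ((Fin n ⊕ Fin n) ⊕ Fin 2 → ZMod 2), (∀ u ∈ U, Cfsg.quadFormMinus n (ZMod 2) 1 1 u = 0) → Module.finrank (ZMod 2) ↥U ≤ n) :=
  ⟨⟨plusTS (n + 1), plusTS_singular (n + 1), plusTS_finrank (n + 1)⟩,
   plus_ts_finrank_le (n + 1),
   ⟨minusTS n, minusTS_singular n, minusTS_finrank n⟩,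
   minus_ts_finrank_le n⟩

/-- Witt indices over the field of two elements, m ≥ 1: for the plus-type form Σ xᵢyᵢ in dimension 2m some m-dimensional subspace is totally singular and no totally singular subspace has larger dimension; for the minus-type form Σ xᵢyᵢ + (z₁² + z₁z₂ + z₂²) in dimension 2m the maximal dimension of a totally singular subspace is m − 1. -/
theorem result (m : ℕ) (hm : 1 ≤ m) :
    (∃ U : Submodule (ZMod 2) (Fin m ⊕ Fin m → ZMod 2), (∀ u ∈ U, Cfsg.quadFormPlus m (ZMod 2) u = 0) ∧ Module.finrank (ZMod 2) ↥U = m) ∧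
    (∀ U : Submodule (ZMod 2) (Fin m ⊕ Fin m → ZMod 2), (∀ u ∈ U, Cfsg.quadFormPlus m (ZMod 2) u = 0) → Module.finrank (ZMod 2) ↥U ≤ m) ∧
    (∃ U : Submodule (ZMod 2) ((Fin (m - 1) ⊕ Fin (m - 1)) ⊕ Fin 2 → ZMod 2), (∀ u ∈ U, Cfsg.quadFormMinus (m - 1) (ZMod 2) 1 1 u = 0) ∧ Module.finrank (ZMod 2) ↥U = m - 1) ∧
    (∀ U : Submodule (ZMod 2) ((Fin (m - 1) ⊕ Fin (m - 1)) ⊕ Fin 2 → ZMod 2), (∀ u ∈ U, Cfsg.quadFormMinus (m - 1) (ZMod 2) 1 1 u = 0) → Module.finrank (ZMod 2) ↥U ≤ m - 1) := by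
  obtain ⟨n, rfl⟩ : ∃ n, m = n + 1 := ⟨m - 1, by omega⟩
  exact main n

end Cfsg.Agent.S2562
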