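import Cfsg.Statements.S2564
import Cfsg.Agent.Lib.Helper43.F2Quad

set_option autoImplicit false
open Cfsg

namespace Cfsg.Agent.S2564

open Cfsg.Agent.Lib.Helper43

/-- On the 2m-dimensional space over the field of two elements (m ≥ 1) let f be the alternating form obtained by polarizing the plus-type form Σ xᵢyᵢ, and let q be any quadratic form polarizing to f. For a vector w, the function q + f(·, w) again polarizes to f, and it is equivalent to q under an invertible linear map (that is, has the same type) if and only if q(w) = 0. -/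
theorem result (m : ℕ) (hm : 1 ≤ m) (q : (Fin m ⊕ Fin m → ZMod 2) → ZMod 2) (hq : (∀ u v : (Fin m ⊕ Fin m → ZMod 2), q (u + v) = q u + q v + (Cfsg.quadFormPlus m (ZMod 2) (u + v) - Cfsg.quadFormPlus m (ZMod 2) u - Cfsg.quadFormPlus m (ZMod 2) v))) (w : (Fin m ⊕ Fin m → ZMod 2)) :
    (∀ u v : (Fin m ⊕ Fin m → ZMod 2), (q (u + v) + (Cfsg.quadFormPlus m (ZMod 2) (u + v + w) - Cfsg.quadFormPlus m (ZMod 2) (u + v) - Cfsg.quadFormPlus m (ZMod 2) w)) =
        (q u + (Cfsg.quadFormPlus m (ZMod 2) (u + w) - Cfsg.quadFormPlus m (ZMod 2) u - Cfsg.quadFormPlus m (ZMod 2) w)) + (q v + (Cfsg.quadFormPlus m (ZMod 2) (v + w) - Cfsg.quadFormPlus m (ZMod 2) v - Cfsg.quadFormPlus m (ZMod 2) w)) +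
        (Cfsg.quadFormPlus m (ZMod 2) (u + v) - Cfsg.quadFormPlus m (ZMod 2) u - Cfsg.quadFormPlus m (ZMod 2) v)) ∧
    ((∃ g : (Fin m ⊕ Fin m → ZMod 2) ≃ₗ[ZMod 2] (Fin m ⊕ Fin m → ZMod 2), ∀ v, q v + (Cfsg.quadFormPlus m (ZMod 2) (v + w) - Cfsg.quadFormPlus m (ZMod 2) v - Cfsg.quadFormPlus m (ZMod 2) w) = q (g v)) ↔ q w = 0) := by
  have hP : Polarizes q (pf m) := polarizes_of_plus m hq
  have hB : IsBiadd (pf m) := pf_isBiadd m
  constructor
  · intro u v
    rw [plus_polar, plus_polar, plus_polar, plus_polar, hP u v, hB.1]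
    ring
  · simp only [plus_polar]
    constructor
    · rintro ⟨g, hg⟩
      by_contra hw
      have hw1 : q w = 1 := (zmod2_ne_zero _).mp hw
      have h1 : signSum (fun v => q v + pf m v w) = sgn (q w) * signSum q := signSum_shift hP w
      have h2 : signSum (fun v => q (g v)) = signSum q := signSum_comp q g.toEquiv
      have h3 : (fun v => q v + pf m v w) = (fun v => q (g v)) := funext hg
      rw [h3, h2, hw1, sgn_one] at h1
      have h4 : signSum q = 0 := by linarith
      exact signSum_ne_zero hP hB (pf_nondeg m) h4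
    · intro hw
      exact ⟨transv (pf m) hB w (hP.self hB w (vec_add_self w)),
        fun v => (hP.apply_transv_of_eq_zero hB w hw v).symm⟩

end Cfsg.Agent.S2564
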