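import Mathlib
import Cfsg.Statements.S2566
import Cfsg.Agent.Lib.Helper8.O4Plus

set_option autoImplicit false
open Cfsg

namespace Cfsg.Agent.S2566

open Matrix Cfsg.Agent.Lib.Helper8.O4Plus

def LHom : Matrix (Fin 2) (Fin 2) (ZMod 2) →* Matrix I4 I4 (ZMod 2) where
  toFun := Lmat
  map_one' := Lmat_one
  map_mul' := Lmat_mul

def RHom : Matrix (Fin 2) (Fin 2) (ZMod 2) →* Matrix I4 I4 (ZMod 2) where
  toFun := Rmat
  map_one' := Rmat_one
  map_mul' := Rmat_mul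

theorem L_isom (σ : Equiv.Perm (Fin 3)) (v : I4 → ZMod 2) : Q4 (Lmat (rho σ) *ᵥ v) = Q4 v := by
  have h := L_isom_aux (rho σ 0 0) (rho σ 0 1) (rho σ 1 0) (rho σ 1 1) (v (Sum.inl 0))
    (v (Sum.inl 1)) (v (Sum.inr 0)) (v (Sum.inr 1)) (det_rho σ)
  rwa [← eta2, ← eta4] at h

theorem R_isom (σ : Equiv.Perm (Fin 3)) (v : I4 → ZMod 2) : Q4 (Rmat (rho σ) *ᵥ v) = Q4 v := by
  have h := R_isom_aux (rho σ 0 0) (rho σ 0 1) (rho σ 1 0) (rho σ 1 1) (v (Sum.inl 0))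
    (v (Sum.inl 1)) (v (Sum.inr 0)) (v (Sum.inr 1)) (det_rho σ)
  rwa [← eta2, ← eta4] at h

theorem T_isom (v : I4 → ZMod 2) : Q4 (Tmat *ᵥ v) = Q4 v := by
  have h := T_isom_aux (v (Sum.inl 0)) (v (Sum.inl 1)) (v (Sum.inr 0)) (v (Sum.inr 1))
  rwa [← eta4] at h

/-- left multiplications -/
def alpha : Equiv.Perm (Fin 3) →* O4 :=
  (LHom.comp rhoHom).toHomUnits.codRestrict O4 (fun σ u _ => L_isom σ u)

/-- right multiplications -/
def beta : Equiv.Perm (Fin 3) →* O4 :=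
  (RHom.comp rhoHom).toHomUnits.codRestrict O4 (fun σ u _ => R_isom σ u)

theorem alpha_coe (σ : Equiv.Perm (Fin 3)) :
    ((alpha σ : (Matrix I4 I4 (ZMod 2))ˣ) : Matrix I4 I4 (ZMod 2)) = Lmat (rho σ) := rfl

theorem beta_coe (σ : Equiv.Perm (Fin 3)) :
    ((beta σ : (Matrix I4 I4 (ZMod 2))ˣ) : Matrix I4 I4 (ZMod 2)) = Rmat (rho σ) := rfl

theorem alpha_inj : Function.Injective alpha := by
  rw [injective_iff_map_eq_one]
  intro σ h
  have h1 : Lmat (rho σ) = 1 := by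
    rw [← alpha_coe, h]; rfl
  apply rho_inj
  have h2 := L_inj_aux (rho σ 0 0) (rho σ 0 1) (rho σ 1 0) (rho σ 1 1) (by rw [← eta2]; exact h1)
  rwa [← eta2] at h2

theorem beta_inj : Function.Injective beta := by
  rw [injective_iff_map_eq_one]
  intro σ h
  have h1 : Rmat (rho σ) = 1 := by
    rw [← beta_coe, h]; rfl
  apply rho_inj
  have h2 := R_inj_aux (rho σ 0 0) (rho σ 0 1) (rho σ 1 0) (rho σ 1 1) (by rw [← eta2]; exact h1)
  rwa [← eta2] at h2

theorem ab_comm (σ τ : Equiv.Perm (Fin 3)) : alpha σ * beta τ = beta τ * alpha σ :=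
  Subtype.ext (Units.ext (LR_comm _ _))

theorem ab_inf : alpha.range ⊓ beta.range = ⊥ := by
  rw [eq_bot_iff]
  rintro x ⟨⟨σ, rfl⟩, ⟨τ, hτ⟩⟩
  rw [Subgroup.mem_bot]
  have h1 : Lmat (rho σ) = Rmat (rho τ) := by
    rw [← alpha_coe, ← beta_coe, hτ]
  have h2 := L_eq_R_aux (rho σ 0 0) (rho σ 0 1) (rho σ 1 0) (rho σ 1 1)
    (rho τ 0 0) (rho τ 0 1) (rho τ 1 0) (rho τ 1 1) (det_rho σ) (by rw [← eta2, ← eta2]; exact h1)
  rw [← eta2] at h2
  exact Subtype.ext (Units.ext h2)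

/-- the transposition as an isometry -/
def tO : O4 :=
  ⟨⟨Tmat, Tmat, Tmat_sq, Tmat_sq⟩, fun u _ => T_isom u⟩

theorem tO_inv : tO⁻¹ = tO := by
  apply inv_eq_of_mul_eq_one_left
  exact Subtype.ext (Units.ext Tmat_sq)

theorem conj_alpha (σ : Equiv.Perm (Fin 3)) : tO * alpha σ * tO⁻¹ = beta σ := by
  rw [tO_inv]
  exact Subtype.ext (Units.ext (TLT _))

/-- the product map -/
def gamma : Equiv.Perm (Fin 3) × Equiv.Perm (Fin 3) →* O4 :=
  MonoidHom.noncommCoprod alpha beta (fun σ τ => ab_comm σ τ)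

theorem gamma_range : gamma.range = alpha.range ⊔ beta.range :=
  MonoidHom.noncommCoprod_range _ _ _

theorem gamma_inj : Function.Injective gamma :=
  (MonoidHom.noncommCoprod_injective _ _ _).2 ⟨alpha_inj, beta_inj, disjoint_iff.2 ab_inf⟩

theorem card_sup : Nat.card ↥(alpha.range ⊔ beta.range) = 36 := by
  rw [← gamma_range, ← Nat.card_congr (MonoidHom.ofInjective gamma_inj).toEquiv, Nat.card_prod,
    Nat.card_perm, Nat.card_fin]
  rfl

theorem tO_notMem : tO ∉ alpha.range ⊔ beta.range := by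
  rw [← gamma_range]
  rintro ⟨⟨σ, τ⟩, h⟩
  have h1 : Lmat (rho σ) * Rmat (rho τ) = Tmat := by
    have := congrArg (fun x : O4 => ((x : (Matrix I4 I4 (ZMod 2))ˣ) : Matrix I4 I4 (ZMod 2))) h
    exact this
  exact LR_ne_T_aux (rho σ 0 0) (rho σ 0 1) (rho σ 1 0) (rho σ 1 1)
    (rho τ 0 0) (rho τ 0 1) (rho τ 1 0) (rho τ 1 1) (by rw [← eta2, ← eta2]; exact h1)

/-! ### the upper bound `|O₄⁺(2)| ≤ 72` by counting hyperbolic frames -/

abbrev V4 := ZMod 2 × ZMod 2 × ZMod 2 × ZMod 2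

/-- the quadratic form on `V4` (coordinates `x₁, x₂, y₁, y₂`) -/
abbrev q4 (v : V4) : ZMod 2 := v.1 * v.2.2.1 + v.2.1 * v.2.2.2

abbrev P1 (c1 : V4) : Prop := q4 c1 = 0 ∧ c1 ≠ 0
abbrev P2 (c1 c2 : V4) : Prop := q4 c2 = 0 ∧ q4 (c1 + c2) = 1
abbrev P3 (c1 c2 c3 : V4) : Prop := q4 c3 = 0 ∧ q4 (c1 + c3) = 0 ∧ q4 (c2 + c3) = 0 ∧ c3 ≠ 0
abbrev P4 (c1 c2 c3 c4 : V4) : Prop :=
  q4 c4 = 0 ∧ q4 (c1 + c4) = 0 ∧ q4 (c2 + c4) = 0 ∧ q4 (c3 + c4) = 1

theorem F1 : (Finset.univ.filter P1).card = 9 := by decide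

theorem F2 : ∀ c1 : V4, P1 c1 → (Finset.univ.filter (P2 c1)).card ≤ 4 := by decide

theorem F3 : ∀ c1 : V4, P1 c1 → ∀ c2 : V4, P2 c1 c2 →
    (Finset.univ.filter (P3 c1 c2)).card ≤ 2 := by decide

theorem F4 : ∀ c1 : V4, P1 c1 → ∀ c2 : V4, P2 c1 c2 → ∀ c3 : V4, P3 c1 c2 c3 →
    (Finset.univ.filter (P4 c1 c2 c3)).card ≤ 1 := by decide

instance instDecFrames : DecidableEq (V4 × V4 × V4 × V4) :=
  @instDecidableEqProd V4 (V4 × V4 × V4) _ (@instDecidableEqProd V4 (V4 × V4) _ inferInstance)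

/-- the set of hyperbolic frames -/
def frames : Finset (V4 × V4 × V4 × V4) :=
  (Finset.univ.filter P1).biUnion fun c1 =>
    (Finset.univ.filter (P2 c1)).biUnion fun c2 =>
      (Finset.univ.filter (P3 c1 c2)).biUnion fun c3 =>
        (Finset.univ.filter (P4 c1 c2 c3)).image fun c4 => (c1, c2, c3, c4)

theorem card_frames : frames.card ≤ 72 := by
  unfold frames
  refine (Finset.card_biUnion_le_card_mul _ _ 8 ?_).trans (by rw [F1])
  intro c1 h1
  rw [Finset.mem_filter] at h1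
  refine (Finset.card_biUnion_le_card_mul _ _ 2 ?_).trans
    (Nat.mul_le_mul_right 2 (F2 c1 h1.2))
  intro c2 h2
  rw [Finset.mem_filter] at h2
  refine (Finset.card_biUnion_le_card_mul _ _ 1 ?_).trans
    (Nat.mul_le_mul_right 1 (F3 c1 h1.2 c2 h2.2))
  intro c3 h3
  rw [Finset.mem_filter] at h3
  exact Finset.card_image_le.trans (F4 c1 h1.2 c2 h2.2 c3 h3.2)

/-- a vector as an element of `V4` -/
def toV (v : I4 → ZMod 2) : V4 := (v (Sum.inl 0), v (Sum.inl 1), v (Sum.inr 0), v (Sum.inr 1))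

theorem q4_toV (v : I4 → ZMod 2) : q4 (toV v) = Q4 v := by
  simp [toV, Cfsg.quadFormPlus, Fin.sum_univ_two]

theorem toV_add (u v : I4 → ZMod 2) : toV (u + v) = toV u + toV v := rfl

/-- the `j`-th column of a matrix -/
def colV (M : Matrix I4 I4 (ZMod 2)) (j : I4) : V4 := toV (M *ᵥ Pi.single j 1)

theorem colV_apply (M : Matrix I4 I4 (ZMod 2)) (j : I4) :
    colV M j = (M (Sum.inl 0) j, M (Sum.inl 1) j, M (Sum.inr 0) j, M (Sum.inr 1) j) := by
  simp [colV, toV]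

theorem q4_colV (g : O4) (j : I4) :
    q4 (colV ((g : (Matrix I4 I4 (ZMod 2))ˣ) : Matrix I4 I4 (ZMod 2)) j) = Q4 (Pi.single j 1) := by
  unfold colV
  rw [q4_toV]
  exact g.2 _ 0

theorem q4_colV_add (g : O4) (i j : I4) :
    q4 (colV ((g : (Matrix I4 I4 (ZMod 2))ˣ) : Matrix I4 I4 (ZMod 2)) i +
      colV ((g : (Matrix I4 I4 (ZMod 2))ˣ) : Matrix I4 I4 (ZMod 2)) j)
      = Q4 (Pi.single i 1 + Pi.single j 1) := by
  unfold colV
  rw [← toV_add, ← Matrix.mulVec_add, q4_toV]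
  exact g.2 _ 0

theorem Q4_vals : ∀ i j : I4, Q4 (Pi.single i 1) = 0 ∧
    Q4 (Pi.single i 1 + Pi.single j 1) = if (i = Sum.inl 0 ∧ j = Sum.inr 0) ∨
      (i = Sum.inr 0 ∧ j = Sum.inl 0) ∨ (i = Sum.inl 1 ∧ j = Sum.inr 1) ∨
      (i = Sum.inr 1 ∧ j = Sum.inl 1) then 1 else 0 := by
  decide

/-- the frame of an isometry -/
def frameOf (g : O4) : V4 × V4 × V4 × V4 :=
  (colV ((g : (Matrix I4 I4 (ZMod 2))ˣ) : Matrix I4 I4 (ZMod 2)) (Sum.inl 0),
   colV ((g : (Matrix I4 I4 (ZMod 2))ˣ) : Matrix I4 I4 (ZMod 2)) (Sum.inr 0),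
   colV ((g : (Matrix I4 I4 (ZMod 2))ˣ) : Matrix I4 I4 (ZMod 2)) (Sum.inl 1),
   colV ((g : (Matrix I4 I4 (ZMod 2))ˣ) : Matrix I4 I4 (ZMod 2)) (Sum.inr 1))

theorem frameOf_mem (g : O4) : frameOf g ∈ frames := by
  have hq := fun j => (q4_colV g j).trans (Q4_vals j j).1
  have hb := fun i j => (q4_colV_add g i j).trans (Q4_vals i j).2
  have h12 := hb (Sum.inl 0) (Sum.inr 0)
  have h13 := hb (Sum.inl 0) (Sum.inl 1)
  have h14 := hb (Sum.inl 0) (Sum.inr 1)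
  have h23 := hb (Sum.inr 0) (Sum.inl 1)
  have h24 := hb (Sum.inr 0) (Sum.inr 1)
  have h34 := hb (Sum.inl 1) (Sum.inr 1)
  simp only [reduceCtorEq, and_false, and_self, or_false, false_or, if_true,
    if_false, Sum.inl.injEq, Sum.inr.injEq, Fin.isValue, zero_ne_one, one_ne_zero, and_true,
    or_self] at h12 h13 h14 h23 h24 h34
  unfold frames frameOf
  simp only [Finset.mem_biUnion, Finset.mem_filter, Finset.mem_univ, true_and, Finset.mem_image]
  refine ⟨_, ⟨hq _, ?_⟩, _, ⟨hq _, h12⟩, _, ⟨hq _, h13, h23, ?_⟩, _, ⟨hq _, h14, h24, h34⟩, rfl⟩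
  · intro h0
    rw [h0, zero_add, hq] at h12
    exact zero_ne_one h12
  · intro h0
    rw [h0, zero_add, hq] at h34
    exact zero_ne_one h34

theorem frameOf_inj : Function.Injective frameOf := by
  intro g g' h
  apply Subtype.ext
  apply Units.ext
  unfold frameOf at h
  simp only [colV_apply, Prod.mk.injEq] at h
  obtain ⟨⟨a1, a2, a3, a4⟩, ⟨b1, b2, b3, b4⟩, ⟨c1, c2, c3, c4⟩, d1, d2, d3, d4⟩ := h
  ext i j
  rcases i with i | i <;> rcases j with j | j <;> fin_cases i <;> fin_cases j <;> assumption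

theorem card_le : Nat.card O4 ≤ 72 := by
  have h1 : Nat.card O4 ≤ Nat.card frames :=
    Nat.card_le_card_of_injective (fun g => (⟨frameOf g, frameOf_mem g⟩ : frames))
      (fun g g' h => frameOf_inj (congrArg Subtype.val h))
  have h0 : Nat.card frames = frames.card := by
    rw [Nat.card_eq_fintype_card, Fintype.card_coe]
  rw [h0] at h1
  exact h1.trans card_frames

/-- The full orthogonal group of the plus-type form x₁y₁ + x₂y₂ in dimension 4 over the field of two elements has order 72 and is isomorphic to the wreath product of the symmetric group of degree 3 by a group of order 2: it has a normal subgroup isomorphic to the direct product of two symmetric groups of degree 3, of index 2, whose two direct factors are interchanged by conjugation by some element. -/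
theorem result :
    Nat.card ↥(Cfsg.isometryGroup (ZMod 2) (Cfsg.quadFormPlus 2 (ZMod 2))) = 72 ∧
    ∃ (A B : Subgroup ↥(Cfsg.isometryGroup (ZMod 2) (Cfsg.quadFormPlus 2 (ZMod 2)))),
      Nonempty (↥A ≃* Equiv.Perm (Fin 3)) ∧ Nonempty (↥B ≃* Equiv.Perm (Fin 3)) ∧ A ⊓ B = ⊥ ∧ (∀ a ∈ A, ∀ b ∈ B, a * b = b * a) ∧
      (A ⊔ B).index = 2 ∧ ∃ g : ↥(Cfsg.isometryGroup (ZMod 2) (Cfsg.quadFormPlus 2 (ZMod 2))), A.map (MulAut.conj g).toMonoidHom = B := by
  have hfin : Finite O4 := inferInstance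
  have h1 := Subgroup.index_mul_card (alpha.range ⊔ beta.range)
  rw [card_sup] at h1
  have h2 : (alpha.range ⊔ beta.range).index ≠ 1 := by
    rw [Ne, Subgroup.index_eq_one]
    intro h
    exact tO_notMem (h ▸ Subgroup.mem_top tO)
  have h3 : (alpha.range ⊔ beta.range).index ≠ 0 := Subgroup.index_ne_zero_of_finite
  have h4 := card_le
  have h5 : (alpha.range ⊔ beta.range).index = 2 := by
    have : (alpha.range ⊔ beta.range).index * 36 ≤ 72 := h1 ▸ h4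
    omega
  refine ⟨by rw [← h1, h5], alpha.range, beta.range,
    ⟨(MonoidHom.ofInjective alpha_inj).symm⟩, ⟨(MonoidHom.ofInjective beta_inj).symm⟩,
    ab_inf, ?_, h5, tO, ?_⟩
  · rintro a ⟨σ, rfl⟩ b ⟨τ, rfl⟩
    exact ab_comm σ τ
  · rw [MonoidHom.map_range]
    congr 1
    ext σ : 1
    exact conj_alpha σ

end Cfsg.Agent.S2566
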