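import Cfsg.Statements.S2567

set_option autoImplicit false
open Cfsg

namespace Cfsg.Agent.S2567

/-- Lifting elements of prime order through a central quotient whose kernel has exponent prime to `r`. -/
theorem lift_unique {G : Type*} [Group G] (r m : ℕ) (hr : r.Prime) (hcop : Nat.Coprime r m)
    (hpow : ∀ z ∈ Subgroup.center G, z ^ m = 1)
    (x : G ⧸ Subgroup.center G) (hx : orderOf x = r) :
    ∃! g : G, (QuotientGroup.mk g : G ⧸ Subgroup.center G) = x ∧ orderOf g = r := by
  -- Bezout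
  have hbez : (r : ℤ) * Nat.gcdA r m + (m : ℤ) * Nat.gcdB r m = 1 := by
    have := Nat.gcd_eq_gcd_ab r m
    rw [hcop] at this
    exact_mod_cast this.symm
  set a := Nat.gcdA r m
  set b := Nat.gcdB r m
  have hkey : ∀ z ∈ Subgroup.center G, (z ^ a) ^ r = z := by
    intro z hz
    have h1 : (z ^ a) ^ r = z ^ ((r : ℤ) * a) := by
      rw [← zpow_natCast, ← zpow_mul, mul_comm]
    have h2 : (r : ℤ) * a = 1 - (m : ℤ) * b := by linarith
    rw [h1, h2, zpow_sub, zpow_one, zpow_mul, zpow_natCast, hpow z hz, one_zpow, inv_one, mul_one]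
  have htriv : ∀ z ∈ Subgroup.center G, z ^ r = 1 → z = 1 := by
    intro z hz hzr
    have := hkey z hz
    rw [← this, ← zpow_natCast, ← zpow_mul, mul_comm, zpow_mul, zpow_natCast, hzr, one_zpow]
  obtain ⟨h, rfl⟩ := QuotientGroup.mk_surjective x
  have hhr : h ^ r ∈ Subgroup.center G := by
    rw [← QuotientGroup.eq_one_iff, QuotientGroup.mk_pow, ← hx]
    exact pow_orderOf_eq_one _
  set z := h ^ r with hz
  set w := z ^ a with hw
  have hwc : w ∈ Subgroup.center G := Subgroup.zpow_mem _ hhr a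
  have hwr : w ^ r = z := hkey z hhr
  have hne : (QuotientGroup.mk h : G ⧸ Subgroup.center G) ≠ 1 := by
    intro h1
    rw [h1, orderOf_one] at hx
    exact hr.one_lt.ne hx
  refine ⟨h * w⁻¹, ⟨?_, ?_⟩, ?_⟩
  · rw [QuotientGroup.mk_mul, (QuotientGroup.eq_one_iff w⁻¹).mpr (Subgroup.inv_mem _ hwc), mul_one]
  · have hcomm : Commute h w⁻¹ := (Subgroup.mem_center_iff.mp (Subgroup.inv_mem _ hwc)) h
    have hpr : (h * w⁻¹) ^ r = 1 := by
      rw [hcomm.mul_pow, inv_pow, hwr, hz, mul_inv_cancel]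
    have hdvd := orderOf_dvd_of_pow_eq_one hpr
    rcases (Nat.dvd_prime hr).mp hdvd with h1 | h1
    · exfalso
      apply hne
      have : h * w⁻¹ = 1 := orderOf_eq_one_iff.mp h1
      have h2 : (QuotientGroup.mk (h * w⁻¹) : G ⧸ Subgroup.center G) = 1 := by rw [this]; rfl
      rwa [QuotientGroup.mk_mul, (QuotientGroup.eq_one_iff w⁻¹).mpr (Subgroup.inv_mem _ hwc),
        mul_one] at h2
    · exact h1
  · rintro g' ⟨hg'1, hg'2⟩
    have hzc : (h * w⁻¹)⁻¹ * g' ∈ Subgroup.center G := by
      rw [← QuotientGroup.eq, hg'1, QuotientGroup.mk_mul,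
        (QuotientGroup.eq_one_iff w⁻¹).mpr (Subgroup.inv_mem _ hwc), mul_one]
    set g := h * w⁻¹ with hg
    set c := g⁻¹ * g' with hc
    have hg'eq : g' = g * c := by rw [hc]; group
    have hgr : g ^ r = 1 := by
      have hcomm : Commute h w⁻¹ := (Subgroup.mem_center_iff.mp (Subgroup.inv_mem _ hwc)) h
      rw [hg, hcomm.mul_pow, inv_pow, hwr, hz, mul_inv_cancel]
    have hg'r : g' ^ r = 1 := by rw [← hg'2]; exact pow_orderOf_eq_one _
    have hcomm2 : Commute g c := (Subgroup.mem_center_iff.mp hzc) g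
    have hcr : c ^ r = 1 := by
      rw [hg'eq, hcomm2.mul_pow, hgr, one_mul] at hg'r
      exact hg'r
    have hc1 : c = 1 := htriv c hzc hcr
    rw [hg'eq, hc1, mul_one]

/-- Lifting elements of prime order from PGL to GL: let F be a finite field with q elements, r a prime not dividing q − 1, and x an element of order r in GL_n(F) modulo its centre (the scalar matrices). Then x has exactly one preimage in GL_n(F) of order r. -/
theorem result {F : Type*} [Field F] [Fintype F] {q n r : ℕ} (hF : Fintype.card F = q) (hr : r.Prime) (hdiv : ¬ r ∣ q - 1) (x : GL (Fin n) F ⧸ Subgroup.center (GL (Fin n) F)) (hx : orderOf x = r) : ∃! g : GL (Fin n) F, (QuotientGroup.mk g : GL (Fin n) F ⧸ Subgroup.center (GL (Fin n) F)) = x ∧ orderOf g = r := by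
  classical
  apply lift_unique r (q - 1) hr ((Nat.Prime.coprime_iff_not_dvd hr).mpr hdiv) _ x hx
  intro z hz
  rw [Matrix.GeneralLinearGroup.center_eq_range_scalar] at hz
  obtain ⟨a, rfl⟩ := hz
  rw [← map_pow]
  have : a ^ (q - 1) = 1 := by
    rw [← hF, ← Fintype.card_units]
    exact pow_card_eq_one
  rw [this, map_one]

end Cfsg.Agent.S2567
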