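import Cfsg.Statements.S2569
import Cfsg.Agent.Lib.Helper40.Semisimple

set_option autoImplicit false
open Cfsg

namespace Cfsg.Agent.S2569

/-- In GL_n over a finite field of characteristic p, the conjugacy class of a semisimple element (an element of order prime to p) under the special linear group is its whole GL-conjugacy class: for every such x and every invertible g there is h of determinant one with h x h⁻¹ = g x g⁻¹. -/
theorem result {F : Type*} [Field F] [Fintype F] {p : ℕ} [Fact p.Prime] [CharP F p] {n : ℕ} (x g : GL (Fin n) F) (hx : (orderOf x).Coprime p) : ∃ h : GL (Fin n) F, (h : Matrix (Fin n) (Fin n) F).det = 1 ∧ h * x * h⁻¹ = g * x * g⁻¹ := by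
  classical
  rcases Nat.eq_zero_or_pos n with hn | hn
  · subst hn
    exact ⟨g, Matrix.det_isEmpty, rfl⟩
  have : Nonempty (Fin n) := ⟨⟨0, hn⟩⟩
  have hsemi : Module.End.IsSemisimple (Matrix.toLin' (x : Matrix (Fin n) (Fin n) F)) := by
    apply Cfsg.Agent.Lib.Helper40.isSemisimple_of_pow_eq_one _ (orderOf x)
      (Cfsg.Agent.Lib.Helper40.natCast_ne_zero_of_coprime p _ hx)
    rw [← Units.val_pow_eq_pow_val, pow_orderOf_eq_one]
    rfl
  have hgdet : (g : Matrix (Fin n) (Fin n) F).det ≠ 0 := Matrix.GeneralLinearGroup.det_ne_zero g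
  obtain ⟨c, hcomm, hcdet⟩ := Cfsg.Agent.Lib.Helper40.exists_commute_det_eq
    (Matrix.toLin' (x : Matrix (Fin n) (Fin n) F)) hsemi ((g : Matrix (Fin n) (Fin n) F).det)⁻¹
  let P : Matrix (Fin n) (Fin n) F := LinearMap.toMatrix' c
  have hPdet : P.det = ((g : Matrix (Fin n) (Fin n) F).det)⁻¹ := by
    simp only [P]
    rw [LinearMap.det_toMatrix', hcdet]
  have hPx : P * (x : Matrix (Fin n) (Fin n) F) = (x : Matrix (Fin n) (Fin n) F) * P := by
    apply Matrix.toLin'.injective
    apply LinearMap.ext
    intro v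
    simp only [P, Matrix.toLin'_mul, Matrix.toLin'_toMatrix', LinearMap.comp_apply]
    exact hcomm v
  have hPne : P.det ≠ 0 := by
    rw [hPdet]
    exact inv_ne_zero hgdet
  let y : GL (Fin n) F := Matrix.GeneralLinearGroup.mkOfDetNeZero P hPne
  have hyx : y * x = x * y := by
    apply Units.ext
    exact hPx
  refine ⟨g * y, ?_, ?_⟩
  · rw [Units.val_mul, Matrix.det_mul]
    change (g : Matrix (Fin n) (Fin n) F).det * P.det = 1
    rw [hPdet]
    exact mul_inv_cancel₀ hgdet
  · rw [mul_inv_rev, mul_assoc g y x, hyx]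
    group

end Cfsg.Agent.S2569
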