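import Cfsg.Statements.S2571
import Cfsg.Agent.Lib.Helper43.RegNilpotent

set_option autoImplicit false
open Cfsg

namespace Cfsg.Agent.S2571

open Polynomial Matrix Cfsg.Agent.Lib.Helper43

theorem card_count {F : Type*} [Field F] [Fintype F] (k : ℕ) :
    Nat.card {p : degreeLT F (k + 1) // (p : F[X]).coeff 0 ≠ 0}
      = (Fintype.card F - 1) * Fintype.card F ^ k := by
  let e1 : {p : degreeLT F (k + 1) // (p : F[X]).coeff 0 ≠ 0} ≃ {c : Fin (k + 1) → F // c 0 ≠ 0} :=
    (degreeLTEquiv F (k + 1)).toEquiv.subtypeEquiv (fun p => Iff.rfl)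
  let e2 : {c : Fin (k + 1) → F // c 0 ≠ 0} ≃ {x : F × (Fin k → F) // x.1 ≠ 0} :=
    ((Fin.consEquiv (fun _ => F)).symm).subtypeEquiv (fun c => Iff.rfl)
  let e3 : {x : F × (Fin k → F) // x.1 ≠ 0} ≃ {a : F // a ≠ 0} × (Fin k → F) :=
    Equiv.prodSubtypeFstEquivSubtypeProd (p := fun a : F => a ≠ 0)
  rw [Nat.card_congr (e1.trans (e2.trans e3)), Nat.card_prod, Nat.card_fun,
    ← Nat.card_congr (unitsEquivNeZero (G₀ := F)), Nat.card_units, Nat.card_eq_fintype_card,
    Nat.card_eq_fintype_card, Fintype.card_fin]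

/-- Centraliser of a regular unipotent element in GL_n(q): if u is an invertible n × n matrix over the field with q elements, n ≥ 1, with (u − 1)^n = 0 and rank(u − 1) = n − 1 (a single unipotent Jordan block), then its centraliser in GL_n(q) has order (q − 1) q^(n−1). -/
theorem result {F : Type*} [Field F] [Fintype F] {q n : ℕ} (hF : Fintype.card F = q) (hn : 1 ≤ n) (u : GL (Fin n) F) (hnil : ((u : Matrix (Fin n) (Fin n) F) - 1) ^ n = 0) (hreg : ((u : Matrix (Fin n) (Fin n) F) - 1).rank = n - 1) : Nat.card ↥(Subgroup.centralizer ({u} : Set (GL (Fin n) F))) = (q - 1) * q ^ (n - 1) := by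
  classical
  set N : Matrix (Fin n) (Fin n) F := (u : Matrix (Fin n) (Fin n) F) - 1 with hN
  obtain ⟨v, hv⟩ := exists_cyclic_vector N hn hreg
  have hNnil : IsNilpotent N := ⟨n, hnil⟩
  have hcent : ∀ g : GL (Fin n) F, g ∈ Subgroup.centralizer ({u} : Set (GL (Fin n) F)) ↔
      Commute (g : Matrix (Fin n) (Fin n) F) N := by
    intro g
    rw [Subgroup.mem_centralizer_iff]
    simp only [Set.mem_singleton_iff, forall_eq]
    constructor
    · intro h
      have h' : (u : Matrix (Fin n) (Fin n) F) * (g : Matrix (Fin n) (Fin n) F) = g * u := by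
        have := congrArg Units.val h
        simpa using this
      show (g : Matrix (Fin n) (Fin n) F) * N = N * g
      rw [hN, mul_sub, sub_mul, h', mul_one, one_mul]
    · intro h
      apply Units.ext
      have h' : (g : Matrix (Fin n) (Fin n) F) * N = N * g := h
      rw [hN, mul_sub, sub_mul, mul_one, one_mul] at h'
      simp only [Units.val_mul]
      exact (sub_left_injective h').symm
  have hunit : ∀ p : {p : degreeLT F n // (p : F[X]).coeff 0 ≠ 0}, IsUnit (aeval N (p.1 : F[X])) :=
    fun p => isUnit_aeval_of_coeff_zero_ne hNnil _ p.2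
  let f : {p : degreeLT F n // (p : F[X]).coeff 0 ≠ 0} →
      Subgroup.centralizer ({u} : Set (GL (Fin n) F)) :=
    fun p => ⟨(hunit p).unit, (hcent _).mpr (commute_aeval (Commute.refl N) _).symm⟩
  have hf : Function.Bijective f := by
    constructor
    · intro p p' h
      have h1 : aeval N (p.1 : F[X]) = aeval N (p'.1 : F[X]) := by
        have h0 := congrArg (fun x : ↥(Subgroup.centralizer ({u} : Set (GL (Fin n) F))) =>
          ((x : GL (Fin n) F) : Matrix (Fin n) (Fin n) F)) h
        exact h0
      have h2 : evalAt N v p.1 = evalAt N v p'.1 := by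
        show aeval N _ *ᵥ v = aeval N _ *ᵥ v
        rw [h1]
      exact Subtype.ext (evalAt_injective N hnil v hv h2)
    · rintro ⟨g, hg⟩
      have hgc := (hcent g).mp hg
      obtain ⟨p, hp⟩ := evalAt_surjective N hnil v hv ((g : Matrix (Fin n) (Fin n) F) *ᵥ v)
      have hgp : (g : Matrix (Fin n) (Fin n) F) = aeval N (p : F[X]) :=
        eq_aeval_of_commute N hnil v hv _ hgc _ hp.symm
      have hp0 : (p : F[X]).coeff 0 ≠ 0 := by
        intro h0
        obtain ⟨r, hr⟩ := X_dvd_iff.mpr h0
        have hdet : (g : Matrix (Fin n) (Fin n) F).det = 0 := by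
          rw [hgp, hr, map_mul, aeval_X, Matrix.det_mul]
          have : N.det = 0 := by
            have h3 := congrArg Matrix.det hnil
            have : Nonempty (Fin n) := ⟨⟨0, hn⟩⟩
            rw [Matrix.det_pow, Matrix.det_zero] at h3
            exact (pow_eq_zero_iff (by omega)).mp h3
          rw [this, zero_mul]
        have hdet' : IsUnit (g : Matrix (Fin n) (Fin n) F).det :=
          (Matrix.isUnit_iff_isUnit_det _).mp g.isUnit
        exact hdet'.ne_zero hdet
      refine ⟨⟨p, hp0⟩, ?_⟩
      apply Subtype.ext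
      apply Units.ext
      exact hgp.symm
  rw [← Nat.card_eq_of_bijective f hf]
  obtain ⟨k, rfl⟩ : ∃ k, n = k + 1 := ⟨n - 1, by omega⟩
  rw [card_count, hF, Nat.add_sub_cancel]

end Cfsg.Agent.S2571
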