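import Cfsg.Statements.S2574
import Cfsg.Agent.S2573

set_option autoImplicit false
open Cfsg

namespace Cfsg.Agent.S2574

open Matrix in
theorem sympForm_invariant {F : Type*} [Field F] {m : ℕ}
    (A : Matrix (Fin m ⊕ Fin m) (Fin m ⊕ Fin m) F) (hA : Aᵀ * Matrix.J (Fin m) F * A = Matrix.J (Fin m) F)
    (v w : Fin m ⊕ Fin m → F) :
    Cfsg.sympForm m F (A *ᵥ v) (A *ᵥ w) = Cfsg.sympForm m F v w := by
  unfold Cfsg.sympForm
  have h1 : (A *ᵥ v) ⬝ᵥ (Matrix.J (Fin m) F *ᵥ (A *ᵥ w)) = v ⬝ᵥ (Aᵀ *ᵥ (Matrix.J (Fin m) F *ᵥ (A *ᵥ w))) := by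
    rw [dotProduct_comm, Matrix.dotProduct_mulVec, ← Matrix.mulVec_transpose, dotProduct_comm]
  rw [h1, Matrix.mulVec_mulVec, Matrix.mulVec_mulVec, hA]

open Matrix in
theorem sympForm_sub_left {F : Type*} [Field F] {m : ℕ} (a b c : Fin m ⊕ Fin m → F) :
    Cfsg.sympForm m F (a - b) c = Cfsg.sympForm m F a c - Cfsg.sympForm m F b c := by
  unfold Cfsg.sympForm
  rw [sub_dotProduct]

open Matrix in
theorem sympForm_sub_right {F : Type*} [Field F] {m : ℕ} (a b c : Fin m ⊕ Fin m → F) :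
    Cfsg.sympForm m F a (b - c) = Cfsg.sympForm m F a b - Cfsg.sympForm m F a c := by
  unfold Cfsg.sympForm
  rw [Matrix.mulVec_sub, dotProduct_sub]

open Matrix in
theorem sympForm_zero_right {F : Type*} [Field F] {m : ℕ} (a : Fin m ⊕ Fin m → F) :
    Cfsg.sympForm m F a 0 = 0 := by
  unfold Cfsg.sympForm
  simp

open Matrix in
theorem sympForm_pow {F : Type*} [Field F] {m : ℕ}
    (A : Matrix (Fin m ⊕ Fin m) (Fin m ⊕ Fin m) F) (hA : Aᵀ * Matrix.J (Fin m) F * A = Matrix.J (Fin m) F)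
    (k : ℕ) (a b : Fin m ⊕ Fin m → F) :
    Cfsg.sympForm m F (((A - 1) ^ k) *ᵥ a) b
      = (-1) ^ k * Cfsg.sympForm m F ((A ^ k) *ᵥ a) (((A - 1) ^ k) *ᵥ b) := by
  induction k generalizing a b with
  | zero => simp
  | succ k ih =>
    have hcomm : Commute ((A - 1) ^ k) A :=
      ((Commute.refl A).sub_left (Commute.one_left A)).pow_left k
    have e1 : ((A - 1) ^ (k + 1)) *ᵥ a = A *ᵥ (((A - 1) ^ k) *ᵥ a) - ((A - 1) ^ k) *ᵥ a := by
      rw [pow_succ', Matrix.sub_mul, Matrix.sub_mulVec, one_mul, Matrix.mulVec_mulVec]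
    have e2 : ((A - 1) ^ (k + 1)) *ᵥ b = ((A - 1) ^ k) *ᵥ (A *ᵥ b) - ((A - 1) ^ k) *ᵥ b := by
      rw [pow_succ, Matrix.mul_sub, Matrix.sub_mulVec, mul_one, Matrix.mulVec_mulVec]
    have e3 : (A ^ (k + 1)) *ᵥ a = A *ᵥ ((A ^ k) *ᵥ a) := by
      rw [pow_succ', Matrix.mulVec_mulVec]
    have e4 : A *ᵥ (((A - 1) ^ k) *ᵥ a) = ((A - 1) ^ k) *ᵥ (A *ᵥ a) := by
      rw [Matrix.mulVec_mulVec, Matrix.mulVec_mulVec, hcomm.eq]
    have e5 : ((A - 1) ^ k) *ᵥ (A *ᵥ b) = A *ᵥ (((A - 1) ^ k) *ᵥ b) := by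
      rw [Matrix.mulVec_mulVec, Matrix.mulVec_mulVec, hcomm.eq]
    have e6 : (A ^ k) *ᵥ (A *ᵥ a) = A *ᵥ ((A ^ k) *ᵥ a) := by
      rw [Matrix.mulVec_mulVec, Matrix.mulVec_mulVec, ← pow_succ, ← pow_succ']
    have L : Cfsg.sympForm m F (((A - 1) ^ (k + 1)) *ᵥ a) b
        = (-1) ^ k * Cfsg.sympForm m F (A *ᵥ ((A ^ k) *ᵥ a)) (((A - 1) ^ k) *ᵥ b)
          - (-1) ^ k * Cfsg.sympForm m F ((A ^ k) *ᵥ a) (((A - 1) ^ k) *ᵥ b) := by
      rw [e1, sympForm_sub_left, e4, ih, ih, e6]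
    have R : Cfsg.sympForm m F ((A ^ (k + 1)) *ᵥ a) (((A - 1) ^ (k + 1)) *ᵥ b)
        = Cfsg.sympForm m F ((A ^ k) *ᵥ a) (((A - 1) ^ k) *ᵥ b)
          - Cfsg.sympForm m F (A *ᵥ ((A ^ k) *ᵥ a)) (((A - 1) ^ k) *ᵥ b) := by
      rw [e2, e3, sympForm_sub_right, e5, sympForm_invariant A hA]
    rw [L, R, pow_succ]
    ring

/-- A regular unipotent element of the symplectic group has totally isotropic small invariant subspaces: over a finite field, if u ∈ Sp_2m(F) satisfies (u − 1)^(2m) = 0 and rank(u − 1) = 2m − 1, and W is a u-invariant subspace with 2 dim W ≤ 2m, then the alternating form vanishes identically on W. -/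
theorem result {F : Type*} [Field F] [Finite F] {m : ℕ} (u : Matrix.symplecticGroup (Fin m) F) (hnil : ((u : Matrix (Fin m ⊕ Fin m) (Fin m ⊕ Fin m) F) - 1) ^ (2 * m) = 0) (hreg : ((u : Matrix (Fin m ⊕ Fin m) (Fin m ⊕ Fin m) F) - 1).rank = 2 * m - 1) (W : Submodule F (Fin m ⊕ Fin m → F)) (hW : ∀ v ∈ W, (u : Matrix (Fin m ⊕ Fin m) (Fin m ⊕ Fin m) F).mulVec v ∈ W) (hdim : 2 * Module.finrank F W ≤ 2 * m) : ∀ v ∈ W, ∀ w ∈ W, Cfsg.sympForm m F v w = 0 := by
  set A : Matrix (Fin m ⊕ Fin m) (Fin m ⊕ Fin m) F := (u : Matrix (Fin m ⊕ Fin m) (Fin m ⊕ Fin m) F) with hAdef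
  have hA : A.transpose * Matrix.J (Fin m) F * A = Matrix.J (Fin m) F :=
    SymplecticGroup.mem_iff'.mp u.2
  set T : (Fin m ⊕ Fin m → F) →ₗ[F] (Fin m ⊕ Fin m → F) := Matrix.mulVecLin (A - 1) with hT
  have hpow : ∀ k, Matrix.mulVecLin ((A - 1) ^ k) = T ^ k := by
    intro k
    induction k with
    | zero => simp [Matrix.mulVecLin_one]; rfl
    | succ k ih => rw [pow_succ, Matrix.mulVecLin_mul, ih, pow_succ]; rfl
  have hTnil : IsNilpotent T := by
    refine ⟨2 * m, ?_⟩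
    rw [← hpow, hnil]
    simp
  have hker1 : Module.finrank F (LinearMap.ker T) ≤ 1 := by
    have h1 := T.finrank_range_add_finrank_ker
    have h2 : Module.finrank F (LinearMap.range T) = 2 * m - 1 := hreg
    simp only [Module.finrank_pi, Fintype.card_sum, Fintype.card_fin] at h1
    omega
  have hWT : ∀ v ∈ W, T v ∈ W := by
    intro v hv
    have : T v = A.mulVec v - v := by
      simp [T]
    rw [this]
    exact W.sub_mem (hW v hv) hv
  set d := Module.finrank F W with hd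
  have hWker : W = LinearMap.ker (T ^ d) :=
    Cfsg.Agent.S2573.invariant_eq_ker T hTnil hker1 W hWT
  -- range T^(2m-d) = ker T^d
  have hT2m : T ^ (2 * m) = 0 := by rw [← hpow, hnil]; simp
  have hrange_le : LinearMap.range (T ^ (2 * m - d)) ≤ LinearMap.ker (T ^ d) := by
    rintro _ ⟨y, rfl⟩
    rw [LinearMap.mem_ker]
    have : (T ^ d) ((T ^ (2 * m - d)) y) = (T ^ (d + (2 * m - d))) y := by
      rw [pow_add]; rfl
    rw [this, show d + (2 * m - d) = 2 * m by omega, hT2m]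
    rfl
  have hrange_eq : LinearMap.range (T ^ (2 * m - d)) = LinearMap.ker (T ^ d) := by
    apply Submodule.eq_of_le_of_finrank_le hrange_le
    have h1 := (T ^ (2 * m - d)).finrank_range_add_finrank_ker
    have h2 := Cfsg.Agent.S2573.finrank_ker_pow_le T hker1 (2 * m - d)
    have h3 := Cfsg.Agent.S2573.finrank_ker_pow_le T hker1 d
    simp only [Module.finrank_pi, Fintype.card_sum, Fintype.card_fin] at h1
    omega
  intro v hv w hw
  have hv' : v ∈ LinearMap.range (T ^ (2 * m - d)) := by rw [hrange_eq, ← hWker]; exact hv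
  obtain ⟨v', rfl⟩ := hv'
  have hw' : (T ^ d) w = 0 := by
    have : w ∈ LinearMap.ker (T ^ d) := by rw [← hWker]; exact hw
    exact LinearMap.mem_ker.mp this
  have hw'' : (T ^ (2 * m - d)) w = 0 := by
    have : (T ^ (2 * m - d)) w = (T ^ (2 * m - d - d)) ((T ^ d) w) := by
      have h : 2 * m - d = (2 * m - d - d) + d := by omega
      conv_lhs => rw [h, pow_add]
      rfl
    rw [this, hw', map_zero]
  have e1 : (T ^ (2 * m - d)) v' = ((A - 1) ^ (2 * m - d)).mulVec v' := by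
    rw [← hpow]; rfl
  have e2 : ((A - 1) ^ (2 * m - d)).mulVec w = 0 := by
    rw [← hw'', ← hpow]; rfl
  rw [e1, sympForm_pow A hA, e2, sympForm_zero_right, mul_zero]

end Cfsg.Agent.S2574
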