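import Cfsg.Statements.S2575

set_option autoImplicit false
open Cfsg

namespace Cfsg.Agent.S2575

theorem prod_signs (n i : ℕ) (hi : i ≤ n) (F : Type*) [Field F] :
    ∏ j : Fin n, (if (j : ℕ) < i then (-1 : F) else 1) = (-1) ^ i := by
  rw [Fin.prod_univ_eq_prod_range (fun j => if j < i then (-1 : F) else 1) n, Finset.prod_ite]
  simp only [Finset.prod_const, one_pow, mul_one]
  congr 1
  have : Finset.filter (fun j => j < i) (Finset.range n) = Finset.range i := by
    ext j; simp only [Finset.mem_filter, Finset.mem_range]; omega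
  rw [this, Finset.card_range]

theorem neg_one_ne_one_of_odd {F : Type*} [Field F] [Fintype F] (hq : Odd (Fintype.card F)) :
    (-1 : F) ≠ 1 := by
  apply Ring.neg_one_ne_one_of_char_ne_two
  intro h
  have := FiniteField.even_card_iff_char_two.mp h
  rcases hq with ⟨k, hk⟩
  omega

/-- In a finite field of odd order, `-1` is an `n`-th power iff the 2-part of `n` is smaller than that of `q - 1`. -/
theorem exists_pow_eq_neg_one_iff {F : Type*} [Field F] [Fintype F] (hq : Odd (Fintype.card F))
    (n : ℕ) (hn : n ≠ 0) :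
    (∃ c : F, c ^ n = -1) ↔ padicValNat 2 n < padicValNat 2 (Fintype.card F - 1) := by
  classical
  set N := Fintype.card F - 1 with hN
  have hne := neg_one_ne_one_of_odd hq
  have hN0 : N ≠ 0 := by
    have : 1 < Fintype.card F := Fintype.one_lt_card
    omega
  have hNeven : 2 ∣ N := by
    rcases hq with ⟨k, hk⟩
    omega
  constructor
  · rintro ⟨c, hc⟩
    by_contra hcon
    push Not at hcon
    have hc0 : c ≠ 0 := by
      rintro rfl
      rw [zero_pow hn] at hc
      have : (1 : F) = 0 := by linear_combination hc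
      exact one_ne_zero this
    have hcN : c ^ N = 1 := FiniteField.pow_card_sub_one_eq_one c hc0
    -- 2^a ∣ n
    have h1 : 2 ^ padicValNat 2 N ∣ n :=
      (pow_dvd_pow 2 hcon).trans pow_padicValNat_dvd
    have h1' : 2 ^ padicValNat 2 N ∣ N := pow_padicValNat_dvd
    have hval : ∀ t, N = 2 ^ (padicValNat 2 N + 1) * t → False := by
      intro t ht
      have : 2 ^ (padicValNat 2 N + 1) ∣ N := ⟨t, ht⟩
      have := (padicValNat_dvd_iff_le hN0).mp this
      omega
    generalize padicValNat 2 N = a at h1 h1' hval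
    obtain ⟨s, hs⟩ := h1'
    have hsodd : Odd s := by
      rw [← Nat.not_even_iff_odd]
      rintro ⟨t, ht⟩
      apply hval t
      rw [hs, ht, pow_succ]; ring
    obtain ⟨r, hr⟩ := h1
    have h2 : c ^ (n * s) = 1 := by
      have : n * s = N * r := by rw [hr, hs]; ring
      rw [this, pow_mul, hcN, one_pow]
    rw [pow_mul, hc, hsodd.neg_one_pow] at h2
    exact hne h2
  · intro hlt
    obtain ⟨g, hg⟩ := IsCyclic.exists_generator (α := Fˣ)
    have hord : orderOf g = N := by
      rw [orderOf_eq_card_of_forall_mem_zpowers hg, Nat.card_eq_fintype_card, Fintype.card_units]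
    -- g^(N/2) = -1
    obtain ⟨M, hM⟩ := hNeven
    have hM0 : M ≠ 0 := by rintro rfl; exact hN0 (by rw [hM])
    have hgM : ((g ^ M : Fˣ) : F) = -1 := by
      have h1 : (g ^ M) * (g ^ M) = 1 := by
        rw [← pow_add, ← two_mul, ← hM, ← hord, pow_orderOf_eq_one]
      have h2 : g ^ M ≠ 1 := pow_ne_one_of_lt_orderOf hM0 (by rw [hord, hM]; omega)
      have h3 : ((g ^ M : Fˣ) : F) * ((g ^ M : Fˣ) : F) = 1 := by
        rw [← Units.val_mul, h1, Units.val_one]
      rcases mul_self_eq_one_iff.mp h3 with h | h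
      · exact absurd (Units.ext h) h2
      · exact h
    -- n = 2^b n', n' odd
    have h1' : 2 ^ padicValNat 2 n ∣ n := pow_padicValNat_dvd
    have hval : ∀ t, n = 2 ^ (padicValNat 2 n + 1) * t → False := by
      intro t ht
      have : 2 ^ (padicValNat 2 n + 1) ∣ n := ⟨t, ht⟩
      have := (padicValNat_dvd_iff_le hn).mp this
      omega
    -- 2^(b+1) ∣ N
    have h2' : 2 ^ (padicValNat 2 n + 1) ∣ N := (padicValNat_dvd_iff_le hN0).mpr hlt
    generalize padicValNat 2 n = b at h1' hval h2'
    obtain ⟨n', hn'⟩ := h1'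
    have hn'odd : Odd n' := by
      rw [← Nat.not_even_iff_odd]
      rintro ⟨t, ht⟩
      apply hval t
      rw [hn', ht, pow_succ]; ring
    obtain ⟨t, ht⟩ := h2'
    refine ⟨((g ^ t : Fˣ) : F), ?_⟩
    have h4 : t * n = M * n' := by
      have h5 : 2 * M = 2 * (2 ^ b * t) := by
        rw [← hM, ht, pow_succ]; ring
      have h6 : M = 2 ^ b * t := by omega
      rw [h6, hn']; ring
    rw [← Units.val_pow_eq_pow_val, ← pow_mul, h4, pow_mul, Units.val_pow_eq_pow_val, hgM,
      hn'odd.neg_one_pow]

/-- Which diagonal involutions of PGL_n(q) lie in PSL_n(q), q odd: for the diagonal matrix t with i entries −1 and n − i entries 1, some non-zero scalar multiple of t has determinant one if and only if i is even or the 2-part of q − 1 exceeds the 2-part of n (that is, −1 is an n-th power in the field exactly in the latter case). -/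
theorem result {F : Type*} [Field F] [Fintype F] {q : ℕ} (hF : Fintype.card F = q) (hq : Odd q) {n : ℕ} (hn : 1 ≤ n) (i : ℕ) (hi : i ≤ n) : (∃ c : F, c ≠ 0 ∧ (c • Matrix.diagonal (fun j : Fin n => if (j : ℕ) < i then (-1 : F) else 1)).det = 1) ↔ (Even i ∨ padicValNat 2 n < padicValNat 2 (q - 1)) := by
  subst hF
  have hdet : ∀ c : F, (c • Matrix.diagonal (fun j : Fin n => if (j : ℕ) < i then (-1 : F) else 1)).det
      = c ^ n * (-1) ^ i := by
    intro c
    rw [Matrix.det_smul, Matrix.det_diagonal, prod_signs n i hi, Fintype.card_fin]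
  simp only [hdet]
  have hn0 : n ≠ 0 := by omega
  rw [← exists_pow_eq_neg_one_iff hq n hn0]
  constructor
  · rintro ⟨c, hc0, hc⟩
    rcases Nat.even_or_odd i with hi' | hi'
    · left; exact hi'
    · right
      rw [hi'.neg_one_pow] at hc
      exact ⟨c, by linear_combination -hc⟩
  · rintro (hi' | ⟨c, hc⟩)
    · exact ⟨1, one_ne_zero, by rw [hi'.neg_one_pow, one_pow, one_mul]⟩
    · rcases Nat.even_or_odd i with hi' | hi'
      · exact ⟨1, one_ne_zero, by rw [hi'.neg_one_pow, one_pow, one_mul]⟩
      · refine ⟨c, ?_, by rw [hi'.neg_one_pow, hc]; ring⟩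
        rintro rfl
        rw [zero_pow hn0] at hc
        have : (1 : F) = 0 := by linear_combination hc
        exact one_ne_zero this

end Cfsg.Agent.S2575
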