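import Cfsg.Statements.S2576

set_option autoImplicit false
open Cfsg

namespace Cfsg.Agent.S2576

theorem det_formula (F : Type*) [Field F] (m : ℕ) (μ c : F) :
    (c • Matrix.blockDiagonal (fun _ : Fin m => !![(0 : F), 1; μ, 0])).det = c ^ (2 * m) * (-μ) ^ m := by
  rw [Matrix.det_smul, Matrix.det_blockDiagonal]
  simp [Matrix.det_fin_two_of]

theorem neg_one_ne_one_of_odd {F : Type*} [Field F] [Fintype F] (hq : Odd (Fintype.card F)) :
    (-1 : F) ≠ 1 := by
  apply Ring.neg_one_ne_one_of_char_ne_two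
  intro h
  have := FiniteField.even_card_iff_char_two.mp h
  rcases hq with ⟨k, hk⟩
  omega

/-- The arithmetic core, with the 2-adic valuation `a` of `q - 1` abstracted. -/
theorem core {F : Type*} [Field F] [Fintype F] (hq : Odd (Fintype.card F)) {m : ℕ} (hm : 1 ≤ m)
    (μ : F) (a : ℕ) (ha1 : 1 ≤ a) (haN : 2 ^ a ∣ Fintype.card F - 1)
    (hamax : ∀ t, Fintype.card F - 1 = 2 ^ (a + 1) * t → False)
    (hμ : orderOf μ = 2 ^ a) :
    (∃ c : F, c ≠ 0 ∧ c ^ (2 * m) * (-μ) ^ m = 1) ↔ (a = 1 ∨ 2 ^ a ∣ m) := by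
  have hne := neg_one_ne_one_of_odd hq
  obtain ⟨a', rfl⟩ : ∃ a', a = a' + 1 := ⟨a - 1, by omega⟩
  -- μ^(2^a') = -1
  have hμhalf : μ ^ (2 ^ a') = -1 := by
    have h1 : μ ^ (2 ^ a') * μ ^ (2 ^ a') = 1 := by
      rw [← pow_add, ← two_mul, ← pow_succ', ← hμ, pow_orderOf_eq_one]
    have h2 : μ ^ (2 ^ a') ≠ 1 := by
      apply pow_ne_one_of_lt_orderOf (by positivity)
      rw [hμ]
      exact Nat.pow_lt_pow_right (by norm_num) (by omega)
    rcases mul_self_eq_one_iff.mp h1 with h | h
    · exact absurd h h2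
    · exact h
  constructor
  · rintro ⟨c, hc0, hc⟩
    by_cases ha : a' = 0
    · left; omega
    right
    by_contra hndvd
    have hm0 : m ≠ 0 := by omega
    -- m = 2^b m', m' odd, b ≤ a'
    have h1' : 2 ^ padicValNat 2 m ∣ m := pow_padicValNat_dvd
    have hval : ∀ t, m = 2 ^ (padicValNat 2 m + 1) * t → False := by
      intro t ht
      have : 2 ^ (padicValNat 2 m + 1) ∣ m := ⟨t, ht⟩
      have := (padicValNat_dvd_iff_le hm0).mp this
      omega
    generalize padicValNat 2 m = b at h1' hval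
    have hb : b ≤ a' := by
      by_contra hcon
      exact hndvd ((pow_dvd_pow 2 (by omega : a' + 1 ≤ b)).trans h1')
    obtain ⟨m', hm'⟩ := h1'
    have hm'odd : Odd m' := by
      rw [← Nat.not_even_iff_odd]
      rintro ⟨t, ht⟩
      apply hval t
      rw [hm', ht, pow_succ]; ring
    obtain ⟨s, hs⟩ := haN
    have hsodd : Odd s := by
      rw [← Nat.not_even_iff_odd]
      rintro ⟨t, ht⟩
      apply hamax t
      rw [hs, ht, pow_succ]; ring
    obtain ⟨d, hd⟩ : ∃ d, a' = b + d := ⟨a' - b, by omega⟩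
    have hcN : c ^ (Fintype.card F - 1) = 1 := FiniteField.pow_card_sub_one_eq_one c hc0
    have hE := congrArg (fun x => x ^ (2 ^ d * s)) hc
    simp only [one_pow, mul_pow] at hE
    have e1 : (c ^ (2 * m)) ^ (2 ^ d * s) = 1 := by
      rw [← pow_mul]
      have : 2 * m * (2 ^ d * s) = (Fintype.card F - 1) * m' := by
        rw [hs, hm', hd, pow_succ, pow_add]; ring
      rw [this, pow_mul, hcN, one_pow]
    have e2 : ((-μ) ^ m) ^ (2 ^ d * s) = -1 := by
      rw [← pow_mul]
      have : m * (2 ^ d * s) = 2 ^ a' * (m' * s) := by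
        rw [hm', hd, pow_add]; ring
      rw [this, pow_mul, neg_pow, hμhalf]
      have heven : Even (2 ^ a') := by
        obtain ⟨a'', rfl⟩ : ∃ a'', a' = a'' + 1 := ⟨a' - 1, by omega⟩
        exact ⟨2 ^ a'', by rw [pow_succ]; ring⟩
      rw [heven.neg_one_pow, one_mul, (hm'odd.mul hsodd).neg_one_pow]
    rw [e1, e2, one_mul] at hE
    exact hne hE
  · rintro (ha | hdvd)
    · have ha' : a' = 0 := by omega
      subst ha'
      rw [pow_zero, pow_one] at hμhalf
      exact ⟨1, one_ne_zero, by rw [hμhalf]; simp⟩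
    · refine ⟨1, one_ne_zero, ?_⟩
      have h1 : μ ^ m = 1 := by
        rw [← orderOf_dvd_iff_pow_eq_one, hμ]
        exact hdvd
      have h2 : Even m := by
        have : 2 ∣ m := (dvd_pow_self 2 (by omega : a' + 1 ≠ 0)).trans hdvd
        exact even_iff_two_dvd.mpr this
      rw [h2.neg_pow, h1, one_pow, one_mul]

/-- Which involutions of PGL_2m(q) coming from a scalar of the quadratic extension field lie in PSL_2m(q), q odd: let μ generate the Sylow 2-subgroup of the multiplicative group of the field with q elements (μ has order the 2-part of q − 1) and let t be the block-diagonal matrix with m diagonal blocks [[0, 1], [μ, 0]] (so t² is the scalar μ and t is an involution modulo scalars). Then some non-zero scalar multiple of t has determinant one if and only if q ≡ 3 (mod 4) or the 2-part of q − 1 is less than the 2-part of 2m. -/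
theorem result {F : Type*} [Field F] [Fintype F] {q : ℕ} (hF : Fintype.card F = q) (hq : Odd q) {m : ℕ} (hm : 1 ≤ m) (μ : F) (hμ : orderOf μ = 2 ^ padicValNat 2 (q - 1)) : (∃ c : F, c ≠ 0 ∧ (c • Matrix.blockDiagonal (fun _ : Fin m => !![(0 : F), 1; μ, 0])).det = 1) ↔ (q % 4 = 3 ∨ padicValNat 2 (q - 1) < padicValNat 2 (2 * m)) := by
  subst hF
  simp only [det_formula]
  have hN0 : Fintype.card F - 1 ≠ 0 := by
    have : 1 < Fintype.card F := Fintype.one_lt_card
    omega
  have hm0 : m ≠ 0 := by omega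
  have h2m0 : 2 * m ≠ 0 := by omega
  have hchar : ∀ k, 2 ^ k ∣ Fintype.card F - 1 ↔ k ≤ padicValNat 2 (Fintype.card F - 1) :=
    fun k => padicValNat_dvd_iff_le hN0
  have ha1 : 1 ≤ padicValNat 2 (Fintype.card F - 1) := by
    rw [← hchar]
    rcases hq with ⟨k, hk⟩
    exact ⟨k, by omega⟩
  have haN : 2 ^ padicValNat 2 (Fintype.card F - 1) ∣ Fintype.card F - 1 := pow_padicValNat_dvd
  have hamax : ∀ t, Fintype.card F - 1 = 2 ^ (padicValNat 2 (Fintype.card F - 1) + 1) * t → False := by
    intro t ht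
    have : 2 ^ (padicValNat 2 (Fintype.card F - 1) + 1) ∣ Fintype.card F - 1 := ⟨t, ht⟩
    have := (hchar _).mp this
    omega
  have hcore := core hq hm μ _ ha1 haN hamax hμ
  rw [hcore]
  have h4 : Fintype.card F % 4 = 3 ↔ padicValNat 2 (Fintype.card F - 1) = 1 := by
    constructor
    · intro h
      have : ¬ 2 ≤ padicValNat 2 (Fintype.card F - 1) := by
        rw [← hchar]
        rintro ⟨k, hk⟩
        omega
      omega
    · intro h
      have : ¬ 2 ^ 2 ∣ Fintype.card F - 1 := by
        rw [hchar]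
        omega
      rcases hq with ⟨k, hk⟩
      by_contra hcon
      apply this
      exact ⟨k / 2, by omega⟩
  have h5 : padicValNat 2 (Fintype.card F - 1) < padicValNat 2 (2 * m)
      ↔ 2 ^ padicValNat 2 (Fintype.card F - 1) ∣ m := by
    rw [← Nat.succ_le_iff, ← padicValNat_dvd_iff_le h2m0, Nat.succ_eq_add_one, pow_succ',
      Nat.mul_dvd_mul_iff_left (by norm_num : 0 < 2)]
  rw [h4, h5]

end Cfsg.Agent.S2576
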