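import Cfsg.Statements.S2582
import Cfsg.Agent.Lib.Helper99.JType3

set_option autoImplicit false
open Cfsg

namespace Cfsg.Agent.S2582

open Matrix Cfsg.Agent.Lib.Helper99

/-- Which unipotent Jordan types occur in the finite symplectic group: over a finite field, a unipotent matrix with Jordan block sizes d_1, …, d_t (sum 2m, all at least 1) is similar to an element of Sp_2m(F) if and only if every odd block size occurs an even number of times. -/
theorem result {F : Type*} [Field F] [Fintype F] {m t : ℕ} (d : Fin t → ℕ) (hd : ∀ k, 1 ≤ d k) (hsum : ∑ k, d k = 2 * m) : (∃ e : ((k : Fin t) × Fin (d k)) ≃ (Fin m ⊕ Fin m), ∃ A : Matrix.symplecticGroup (Fin m) F, IsConj (Matrix.reindex e e (Cfsg.jordanTypeMatrix d F)) (A : Matrix (Fin m ⊕ Fin m) (Fin m ⊕ Fin m) F)) ↔ ∀ j : ℕ, Odd j → Even (Finset.univ.filter (fun k : Fin t => d k = j)).card := by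
  classical
  constructor
  · rintro ⟨e, A, hconj⟩ j hj
    refine jt_even_count d e _ hconj (Matrix.toBilin' (Matrix.J (Fin m) F)) ?_ ?_ j
      (Or.inl ⟨?_, hj⟩)
    · intro x hx
      funext i
      have := hx (Matrix.J (Fin m) F *ᵥ Pi.single i 1)
      rw [Matrix.toBilin'_apply', Matrix.mulVec_mulVec, Matrix.J_squared, Matrix.neg_mulVec,
        Matrix.one_mulVec, dotProduct_neg, dotProduct_single, mul_one, neg_eq_zero] at this
      exact this
    · intro x y
      rw [Matrix.toBilin'_apply', Matrix.toBilin'_apply']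
      exact Cfsg.Agent.Lib.Helper13.sympForm_mulVec_of_mem m A.2 x y
    · intro x
      rw [Matrix.toBilin'_apply']
      exact Cfsg.Agent.Lib.Helper13.sympForm_self m x
  · intro hpar
    obtain ⟨A, hA, hr⟩ := jt_exists_symp (F := F) d hd hsum hpar
    have hcard : Fintype.card ((k : Fin t) × Fin (d k)) = Fintype.card (Fin m ⊕ Fin m) := by
      rw [Fintype.card_sigma, Fintype.card_sum, Fintype.card_fin]
      simp only [Fintype.card_fin]
      omega
    exact ⟨Fintype.equivOfCardEq hcard, ⟨A, hA⟩, jt_isConj_of_rank d _ A hr⟩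

end Cfsg.Agent.S2582
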