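import Cfsg.Statements.S2583
import Cfsg.Agent.Lib.Helper99.JType3

set_option autoImplicit false
open Cfsg

namespace Cfsg.Agent.S2583

open Matrix Cfsg.Agent.Lib.Helper99

/-- Which unipotent Jordan types occur in a finite orthogonal group in odd characteristic: over a finite field of odd order, a unipotent matrix with Jordan block sizes d_1, …, d_t (sum n, all at least 1) is similar to an isometry of some quadratic form on F^n with non-degenerate polar form if and only if every even block size occurs an even number of times. -/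
theorem result {F : Type*} [Field F] [Fintype F] (h2 : (2 : F) ≠ 0) {n t : ℕ} (d : Fin t → ℕ) (hd : ∀ k, 1 ≤ d k) (hsum : ∑ k, d k = n) : (∃ Q : QuadraticForm F (Fin n → F), (QuadraticMap.polarBilin Q).Nondegenerate ∧ ∃ e : ((k : Fin t) × Fin (d k)) ≃ Fin n, ∃ A : ↥(Cfsg.isometryGroup F ⇑Q), IsConj (Matrix.reindex e e (Cfsg.jordanTypeMatrix d F)) ((A : Matrix.GeneralLinearGroup (Fin n) F) : Matrix (Fin n) (Fin n) F)) ↔ ∀ j : ℕ, Even j → 0 < j → Even (Finset.univ.filter (fun k : Fin t => d k = j)).card := by
  classical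
  constructor
  · rintro ⟨Q, hQ, e, A, hconj⟩ j hj hpos
    have hmem : ∀ u, Q (((A : Matrix.GeneralLinearGroup (Fin n) F) :
        Matrix (Fin n) (Fin n) F) *ᵥ u) = Q u := fun u => A.2 u u
    refine jt_even_count d e _ hconj (QuadraticMap.polarBilin Q) hQ.1 ?_ j
      (Or.inr ⟨?_, h2, hj, hpos⟩)
    · intro x y
      rw [QuadraticMap.polarBilin_apply_apply, QuadraticMap.polarBilin_apply_apply]
      unfold QuadraticMap.polar
      rw [← Matrix.mulVec_add, hmem, hmem, hmem]
    · intro x y
      rw [QuadraticMap.polarBilin_apply_apply, QuadraticMap.polarBilin_apply_apply,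
        QuadraticMap.polar_comm]
  · intro hpar
    obtain ⟨Q, hQ, M, hM, hr⟩ := jt_exists_orth_odd h2 d hd hsum hpar
    exact ⟨Q, hQ, jt_orth_final d hsum Q hQ M hM hr⟩

end Cfsg.Agent.S2583
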