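import Cfsg.Statements.S2585

set_option autoImplicit false
open Cfsg

namespace Cfsg.Agent.S2585

open Matrix

section
variable {F : Type*} [Field F] {m : ℕ}

theorem symp_expand (u v : Fin m ⊕ Fin m → F) :
    Cfsg.sympForm m F u v = ∑ i : Fin m, (u (Sum.inr i) * v (Sum.inl i) - u (Sum.inl i) * v (Sum.inr i)) := by
  unfold Cfsg.sympForm Matrix.J
  rw [Matrix.fromBlocks_mulVec]
  simp only [dotProduct, Fintype.sum_sum_type, Sum.elim_inl, Sum.elim_inr, Matrix.zero_mulVec,
    Matrix.neg_mulVec, Matrix.one_mulVec, zero_add, add_zero, Pi.neg_apply, Function.comp_apply]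
  rw [Finset.sum_sub_distrib]
  simp only [mul_neg, Finset.sum_neg_distrib]
  ring

theorem symp_add_left (a b c : Fin m ⊕ Fin m → F) :
    Cfsg.sympForm m F (a + b) c = Cfsg.sympForm m F a c + Cfsg.sympForm m F b c := by
  unfold Cfsg.sympForm
  rw [add_dotProduct]

theorem symp_smul_left (k : F) (a c : Fin m ⊕ Fin m → F) :
    Cfsg.sympForm m F (k • a) c = k * Cfsg.sympForm m F a c := by
  unfold Cfsg.sympForm
  rw [smul_dotProduct]; rfl

theorem symp_sub_right (a b c : Fin m ⊕ Fin m → F) :
    Cfsg.sympForm m F a (b - c) = Cfsg.sympForm m F a b - Cfsg.sympForm m F a c := by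
  unfold Cfsg.sympForm
  rw [Matrix.mulVec_sub, dotProduct_sub]

theorem symp_invariant (A : Matrix (Fin m ⊕ Fin m) (Fin m ⊕ Fin m) F)
    (hA : Aᵀ * Matrix.J (Fin m) F * A = Matrix.J (Fin m) F) (v w : Fin m ⊕ Fin m → F) :
    Cfsg.sympForm m F (A *ᵥ v) (A *ᵥ w) = Cfsg.sympForm m F v w := by
  unfold Cfsg.sympForm
  have h1 : (A *ᵥ v) ⬝ᵥ (Matrix.J (Fin m) F *ᵥ (A *ᵥ w))
      = v ⬝ᵥ (Aᵀ *ᵥ (Matrix.J (Fin m) F *ᵥ (A *ᵥ w))) := by
    rw [dotProduct_comm, Matrix.dotProduct_mulVec, ← Matrix.mulVec_transpose, dotProduct_comm]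
  rw [h1, Matrix.mulVec_mulVec, Matrix.mulVec_mulVec, hA]

/-- The plus form polarizes to the symplectic form in characteristic two. -/
theorem plus_add [CharP F 2] (u v : Fin m ⊕ Fin m → F) :
    Cfsg.quadFormPlus m F (u + v) = Cfsg.quadFormPlus m F u + Cfsg.quadFormPlus m F v
      + Cfsg.sympForm m F u v := by
  rw [symp_expand]
  unfold Cfsg.quadFormPlus
  rw [← Finset.sum_add_distrib, ← Finset.sum_add_distrib]
  apply Finset.sum_congr rfl
  intro i _
  simp only [Pi.add_apply]
  have h2 := CharTwo.add_self_eq_zero (u (Sum.inl i) * v (Sum.inr i))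
  linear_combination h2

theorem plus_smul (k : F) (u : Fin m ⊕ Fin m → F) :
    Cfsg.quadFormPlus m F (k • u) = k * k * Cfsg.quadFormPlus m F u := by
  unfold Cfsg.quadFormPlus
  rw [Finset.mul_sum]
  apply Finset.sum_congr rfl
  intro i _
  simp only [Pi.smul_apply, smul_eq_mul]
  ring

/-- Riesz representation for the symplectic form. -/
theorem exists_symp_repr (l : (Fin m ⊕ Fin m → F) →ₗ[F] F) :
    ∃ a : Fin m ⊕ Fin m → F, ∀ v, l v = Cfsg.sympForm m F v a := by
  classical
  set e : Fin m ⊕ Fin m → (Fin m ⊕ Fin m → F) := fun i j => if i = j then 1 else 0 with he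
  refine ⟨fun j => match j with
    | Sum.inl i => l (e (Sum.inr i))
    | Sum.inr i => - l (e (Sum.inl i)), ?_⟩
  intro v
  rw [symp_expand, l.pi_apply_eq_sum_univ v, Fintype.sum_sum_type]
  simp only [smul_eq_mul]
  rw [Finset.sum_sub_distrib]
  simp only [mul_neg, Finset.sum_neg_distrib]
  ring

end

/-- Over a finite field of characteristic two every element of the symplectic group is orthogonal for a suitable quadratic form: for each A in Sp_2m(F) there is a quadratic form Q on F^(2m) whose polar form is the alternating form defining Sp_2m(F) (so Q is non-degenerate) and which A preserves. Equivalently, for m ≥ 1, Sp_2m(F) is the union of the conjugates of its two orthogonal subgroups O⁺_2m(F) and O⁻_2m(F). -/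
theorem result {F : Type*} [Field F] [Fintype F] [CharP F 2] {m : ℕ} (A : Matrix.symplecticGroup (Fin m) F) : ∃ Q : QuadraticForm F (Fin m ⊕ Fin m → F), (∀ u v : Fin m ⊕ Fin m → F, QuadraticMap.polar ⇑Q u v = Cfsg.sympForm m F u v) ∧ ∀ v : Fin m ⊕ Fin m → F, Q ((A : Matrix (Fin m ⊕ Fin m) (Fin m ⊕ Fin m) F).mulVec v) = Q v := by
  classical
  set M : Matrix (Fin m ⊕ Fin m) (Fin m ⊕ Fin m) F := (A : Matrix (Fin m ⊕ Fin m) (Fin m ⊕ Fin m) F) with hM
  have hA : M.transpose * Matrix.J (Fin m) F * M = Matrix.J (Fin m) F :=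
    SymplecticGroup.mem_iff'.mp A.2
  have hinv := symp_invariant M hA
  have hadd2 : ∀ x : F, x + x = 0 := CharTwo.add_self_eq_zero
  -- the defect
  set δ : (Fin m ⊕ Fin m → F) → F :=
    fun v => Cfsg.quadFormPlus m F (M *ᵥ v) + Cfsg.quadFormPlus m F v with hδ
  have hδadd : ∀ u v, δ (u + v) = δ u + δ v := by
    intro u v
    simp only [hδ]
    rw [Matrix.mulVec_add, plus_add, plus_add, hinv]
    linear_combination hadd2 (Cfsg.sympForm m F u v)
  have hδsmul : ∀ (k : F) v, δ (k • v) = k ^ 2 * δ v := by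
    intro k v
    simp only [hδ]
    rw [Matrix.mulVec_smul, plus_smul, plus_smul]
    ring
  -- square root
  set σ := (frobeniusEquiv F 2).symm with hσ
  have hσsq : ∀ x : F, σ x ^ 2 = x := fun x => frobeniusEquiv_symm_pow_p F 2 x
  have hσpow : ∀ x : F, σ (x ^ 2) = x := fun x => by
    have := frobeniusEquiv_symm_apply_frobenius F 2 x
    rwa [frobenius_def] at this
  let l : (Fin m ⊕ Fin m → F) →ₗ[F] F :=
    { toFun := fun v => σ (δ v)
      map_add' := by
        intro u v
        rw [hδadd, map_add]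
      map_smul' := by
        intro k v
        rw [hδsmul, map_mul, hσpow]
        rfl }
  have hl : ∀ v, l v ^ 2 = δ v := fun v => hσsq (δ v)
  obtain ⟨a, ha⟩ := exists_symp_repr l
  -- solve (M - 1) w = M a
  set N : (Fin m ⊕ Fin m → F) →ₗ[F] (Fin m ⊕ Fin m → F) := Matrix.mulVecLin (M - 1) with hN
  have hNapply : ∀ v, N v = M *ᵥ v - v := by
    intro v
    simp [hN]
  set B : LinearMap.BilinForm F (Fin m ⊕ Fin m → F) := Matrix.toBilin' (Matrix.J (Fin m) F) with hB
  have hBapply : ∀ x y, B x y = Cfsg.sympForm m F x y := fun x y => Matrix.toBilin'_apply' _ x y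
  have hBnd : B.Nondegenerate := by
    rw [hB, Matrix.nondegenerate_toBilin'_iff]
    apply Matrix.nondegenerate_of_det_ne_zero
    exact (Matrix.isUnit_det_J (Fin m) F).ne_zero
  have hrange_le : LinearMap.range N ≤ B.orthogonal (LinearMap.ker N) := by
    rintro _ ⟨w, rfl⟩
    rw [LinearMap.BilinForm.mem_orthogonal_iff]
    intro x hx
    rw [hBapply, hNapply, symp_sub_right]
    have hx' : M *ᵥ x = x := by
      have := LinearMap.mem_ker.mp hx
      rw [hNapply] at this
      exact sub_eq_zero.mp this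
    conv_lhs => rw [← hx', hinv, hx']
    ring
  have hrange_eq : LinearMap.range N = B.orthogonal (LinearMap.ker N) := by
    apply Submodule.eq_of_le_of_finrank_eq hrange_le
    rw [LinearMap.BilinForm.finrank_orthogonal hBnd]
    have := N.finrank_range_add_finrank_ker
    omega
  have hMa : M *ᵥ a ∈ LinearMap.range N := by
    rw [hrange_eq, LinearMap.BilinForm.mem_orthogonal_iff]
    intro x hx
    have hx' : M *ᵥ x = x := by
      have := LinearMap.mem_ker.mp hx
      rw [hNapply] at this
      exact sub_eq_zero.mp this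
    rw [hBapply]
    conv_lhs => rw [← hx', hinv]
    rw [← ha]
    have h1 := hl x
    have h2 : δ x = 0 := by
      simp only [hδ]
      rw [hx']
      exact hadd2 _
    rw [h2] at h1
    exact pow_eq_zero_iff (two_ne_zero) |>.mp h1
  obtain ⟨w, hw⟩ := hMa
  rw [hNapply] at hw
  -- the form
  let lw : (Fin m ⊕ Fin m → F) →ₗ[F] F :=
    { toFun := fun v => Cfsg.sympForm m F v w
      map_add' := fun u v => symp_add_left u v w
      map_smul' := fun k v => symp_smul_left k v w }
  let Q : QuadraticForm F (Fin m ⊕ Fin m → F) :=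
    (∑ i : Fin m, QuadraticMap.linMulLin (LinearMap.proj (Sum.inl i)) (LinearMap.proj (Sum.inr i)))
      + QuadraticMap.linMulLin lw lw
  have hQ : ∀ v, Q v = Cfsg.quadFormPlus m F v + Cfsg.sympForm m F v w * Cfsg.sympForm m F v w := by
    intro v
    simp only [Q, _root_.add_apply, QuadraticMap.linMulLin_apply]
    rw [_root_.sum_apply]
    rfl
  refine ⟨Q, ?_, ?_⟩
  · intro u v
    unfold QuadraticMap.polar
    rw [hQ, hQ, hQ, plus_add, symp_add_left]
    linear_combination (Cfsg.sympForm m F u w * Cfsg.sympForm m F v w) * (CharP.cast_eq_zero F 2)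
  · intro v
    rw [hQ, hQ]
    have h1 : Cfsg.quadFormPlus m F (M *ᵥ v) = Cfsg.quadFormPlus m F v + Cfsg.sympForm m F v a ^ 2 := by
      rw [← ha, hl]
      simp only [hδ]
      linear_combination - hadd2 (Cfsg.quadFormPlus m F v)
    have h2 : Cfsg.sympForm m F (M *ᵥ v) w = Cfsg.sympForm m F v w - Cfsg.sympForm m F v a := by
      have hw' : w = M *ᵥ (w - a) := by
        rw [Matrix.mulVec_sub]
        have : M *ᵥ w - M *ᵥ a = w := by rw [← hw]; abel
        exact this.symm
      conv_lhs => rw [hw', hinv, symp_sub_right]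
    rw [h1, h2]
    linear_combination (Cfsg.sympForm m F v a ^ 2 - Cfsg.sympForm m F v w * Cfsg.sympForm m F v a) * (CharP.cast_eq_zero F 2)

end Cfsg.Agent.S2585
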