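import Cfsg.Statements.S2584
import Cfsg.Agent.Lib.Helper99.JType3
import Cfsg.Agent.S2585

set_option autoImplicit false
open Cfsg

namespace Cfsg.Agent.S2584

open Matrix Cfsg.Agent.Lib.Helper99 Cfsg.Agent.Lib.Helper40

/-- Realisation of the admissible Jordan types in an orthogonal group, characteristic two. -/
theorem exists_orth_even {F : Type*} [Field F] [Fintype F] [CharP F 2] {m t : ℕ}
    (d : Fin t → ℕ) (hd : ∀ k, 1 ≤ d k) (hsum : ∑ k, d k = 2 * m)
    (hpar : ∀ j : ℕ, Odd j → Even (Finset.univ.filter (fun k : Fin t => d k = j)).card) :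
    ∃ Q : QuadraticForm F (Fin (2 * m) → F), (QuadraticMap.polarBilin Q).Nondegenerate ∧
      ∃ M : Matrix (Fin (2 * m)) (Fin (2 * m)) F, (∀ u, Q (M *ᵥ u) = Q u) ∧
        ∀ j, ((M - 1) ^ j).rank = Jordan.rk (Finset.univ.val.map d) j := by
  classical
  obtain ⟨A, hA, hr⟩ := jt_exists_symp (F := F) d hd hsum hpar
  obtain ⟨Q₀, hpol, hpres⟩ :=
    Cfsg.Agent.S2585.result (⟨A, hA⟩ : Matrix.symplecticGroup (Fin m) F)
  obtain ⟨f, -⟩ : ∃ f : Fin m ⊕ Fin m ≃ Fin (2 * m), f = f :=
    ⟨finSumFinEquiv.trans (finCongr (two_mul m).symm), rfl⟩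
  obtain ⟨ψ, -⟩ : ∃ ψ : (Fin m ⊕ Fin m → F) ≃ₗ[F] (Fin (2 * m) → F), ψ = ψ :=
    ⟨LinearEquiv.funCongrLeft F F f.symm, rfl⟩
  refine ⟨Q₀.comp ψ.symm.toLinearMap, ?_, jtMat ψ (Matrix.toLin' A), ?_, ?_⟩
  · have hp : ∀ x y, QuadraticMap.polarBilin (Q₀.comp ψ.symm.toLinearMap) x y =
        Cfsg.sympForm m F (ψ.symm x) (ψ.symm y) := by
      intro x y
      rw [QuadraticMap.polarBilin_apply_apply, ← hpol]
      simp [QuadraticMap.polar, map_add]
    have hnd : ∀ x : Fin m ⊕ Fin m → F, (∀ y, Cfsg.sympForm m F x y = 0) → x = 0 := by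
      intro x hx
      funext i
      have := hx (Matrix.J (Fin m) F *ᵥ Pi.single i 1)
      unfold Cfsg.sympForm at this
      rw [Matrix.mulVec_mulVec, Matrix.J_squared, Matrix.neg_mulVec, Matrix.one_mulVec,
        dotProduct_neg, dotProduct_single, mul_one, neg_eq_zero] at this
      exact this
    refine ⟨fun x hx => ?_, fun y hy => ?_⟩
    · have h1 : ψ.symm x = 0 := hnd _ (fun z => by
        have := hx (ψ z)
        rw [hp, LinearEquiv.symm_apply_apply] at this
        exact this)
      exact ψ.symm.map_eq_zero_iff.mp h1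
    · have h1 : ψ.symm y = 0 := hnd _ (fun z => by
        have := hy (ψ z)
        rw [hp, LinearEquiv.symm_apply_apply, Cfsg.Agent.Lib.Helper13.sympForm_swap,
          neg_eq_zero] at this
        exact this)
      exact ψ.symm.map_eq_zero_iff.mp h1
  · intro u
    rw [jtMat_mulVec, QuadraticMap.comp_apply, QuadraticMap.comp_apply]
    simp only [LinearEquiv.coe_coe, LinearEquiv.symm_apply_apply, Matrix.toLin'_apply]
    exact hpres _
  · intro j
    have e1 : Matrix.toLin' A - 1 = Matrix.toLin' (A - 1) := by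
      rw [map_sub, Matrix.toLin'_one]
      rfl
    rw [jtMat_rank, e1, ← jt_rank_pow_eq, hr]

/-- Which unipotent Jordan types occur in a finite orthogonal group in characteristic two: over a finite field of characteristic 2 and in even dimension 2m, a unipotent matrix with Jordan block sizes d_1, …, d_t (sum 2m, all at least 1) is similar to an isometry of some quadratic form on F^(2m) with non-degenerate polar form if and only if every odd block size occurs an even number of times (the same condition as for the symplectic group, which contains these orthogonal groups). -/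
theorem result {F : Type*} [Field F] [Fintype F] [CharP F 2] {m t : ℕ} (d : Fin t → ℕ) (hd : ∀ k, 1 ≤ d k) (hsum : ∑ k, d k = 2 * m) : (∃ Q : QuadraticForm F (Fin (2 * m) → F), (QuadraticMap.polarBilin Q).Nondegenerate ∧ ∃ e : ((k : Fin t) × Fin (d k)) ≃ Fin (2 * m), ∃ A : ↥(Cfsg.isometryGroup F ⇑Q), IsConj (Matrix.reindex e e (Cfsg.jordanTypeMatrix d F)) ((A : Matrix.GeneralLinearGroup (Fin (2 * m)) F) : Matrix (Fin (2 * m)) (Fin (2 * m)) F)) ↔ ∀ j : ℕ, Odd j → Even (Finset.univ.filter (fun k : Fin t => d k = j)).card := by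
  classical
  constructor
  · rintro ⟨Q, hQ, e, A, hconj⟩ j hj
    have hmem : ∀ u, Q (((A : Matrix.GeneralLinearGroup (Fin (2 * m)) F) :
        Matrix (Fin (2 * m)) (Fin (2 * m)) F) *ᵥ u) = Q u := fun u => A.2 u u
    refine jt_even_count d e _ hconj (QuadraticMap.polarBilin Q) hQ.1 ?_ j
      (Or.inl ⟨?_, hj⟩)
    · intro x y
      rw [QuadraticMap.polarBilin_apply_apply, QuadraticMap.polarBilin_apply_apply]
      unfold QuadraticMap.polar
      rw [← Matrix.mulVec_add, hmem, hmem, hmem]
    · intro x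
      rw [QuadraticMap.polarBilin_apply_apply, QuadraticMap.polar_self, two_nsmul]
      exact CharTwo.add_self_eq_zero _
  · intro hpar
    obtain ⟨Q, hQ, M, hM, hr⟩ := exists_orth_even (F := F) d hd hsum hpar
    exact ⟨Q, hQ, jt_orth_final d hsum Q hQ M hM hr⟩

end Cfsg.Agent.S2584
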