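import Cfsg.Statements.S2586
import Cfsg.Agent.Lib.Helper43.SimTranspose

set_option autoImplicit false
open Cfsg

namespace Cfsg.Agent.S2586

open Matrix

/-- Over a finite field, every element of the symplectic group Sp_2m(F) is conjugate by an invertible matrix to its inverse. -/
theorem result {F : Type*} [Field F] [Finite F] {m : ℕ} (A : Matrix.symplecticGroup (Fin m) F) : IsConj (A : Matrix (Fin m ⊕ Fin m) (Fin m ⊕ Fin m) F) ((A⁻¹ : Matrix.symplecticGroup (Fin m) F) : Matrix (Fin m ⊕ Fin m) (Fin m ⊕ Fin m) F) := by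
  have h1 : IsConj (A : Matrix (Fin m ⊕ Fin m) (Fin m ⊕ Fin m) F)
      (A : Matrix (Fin m ⊕ Fin m) (Fin m ⊕ Fin m) F).transpose :=
    Cfsg.Agent.Lib.Helper43.isConj_transpose _
  refine h1.trans ?_
  rw [SymplecticGroup.coe_inv]
  have hJJ : Matrix.J (Fin m) F * Matrix.J (Fin m) F = -1 := Matrix.J_squared (Fin m) F
  let u : (Matrix (Fin m ⊕ Fin m) (Fin m ⊕ Fin m) F)ˣ :=
    ⟨-Matrix.J (Fin m) F, Matrix.J (Fin m) F, by rw [neg_mul, hJJ, neg_neg], by rw [mul_neg, hJJ, neg_neg]⟩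
  refine ⟨u, ?_⟩
  show -Matrix.J (Fin m) F * (A : Matrix (Fin m ⊕ Fin m) (Fin m ⊕ Fin m) F).transpose
    = -Matrix.J (Fin m) F * (A : Matrix (Fin m ⊕ Fin m) (Fin m ⊕ Fin m) F).transpose * Matrix.J (Fin m) F
      * (-Matrix.J (Fin m) F)
  rw [Matrix.mul_assoc (-Matrix.J (Fin m) F * (A : Matrix (Fin m ⊕ Fin m) (Fin m ⊕ Fin m) F).transpose),
    mul_neg, hJJ, neg_neg, mul_one]

end Cfsg.Agent.S2586
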