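import Cfsg.Statements.S2589
import Cfsg.Agent.Lib.Helper40.SympWall

set_option autoImplicit false
open Cfsg

namespace Cfsg.Agent.S2589

/-- Two semisimple elements of the finite symplectic group Sp_2m(F) (elements of order prime to the characteristic) are conjugate in Sp_2m(F) if and only if they are conjugate in GL_2m(F). -/
theorem result {F : Type*} [Field F] [Fintype F] {p : ℕ} [Fact p.Prime] [CharP F p] {m : ℕ} (A B : Matrix.symplecticGroup (Fin m) F) (hA : (orderOf A).Coprime p) : IsConj A B ↔ IsConj (A : Matrix (Fin m ⊕ Fin m) (Fin m ⊕ Fin m) F) (B : Matrix (Fin m ⊕ Fin m) (Fin m ⊕ Fin m) F) := by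
  classical
  have hp : p.Prime := Fact.out
  constructor
  · intro h
    exact (Matrix.symplecticGroup (Fin m) F).subtype.map_isConj h
  · rintro ⟨c, hc⟩
    have hk : ((orderOf A : ℕ) : F) ≠ 0 :=
      Cfsg.Agent.Lib.Helper40.natCast_ne_zero_of_coprime p _ hA
    exact Cfsg.Agent.Lib.Helper40.SympWall.sp_conj_of_gl_conj A B (orderOf A) hk
      (pow_orderOf_eq_one A) (c : Matrix (Fin m ⊕ Fin m) (Fin m ⊕ Fin m) F)
      ((c⁻¹ : (Matrix (Fin m ⊕ Fin m) (Fin m ⊕ Fin m) F)ˣ) : Matrix (Fin m ⊕ Fin m) (Fin m ⊕ Fin m) F)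
      (by rw [← Units.val_mul, mul_inv_cancel, Units.val_one])
      (by rw [← Units.val_mul, inv_mul_cancel, Units.val_one]) hc

end Cfsg.Agent.S2589
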