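import Mathlib
import Cfsg.Statements.S2590
import Cfsg.Agent.Lib.Helper8.WallInd
import Cfsg.Agent.Lib.Helper44.Block
-- import your own Cfsg.Agent.* helpers here

set_option autoImplicit false
open Cfsg

namespace Cfsg.Agent.S2590

/-- Two semisimple elements of odd order of a finite orthogonal group (isometry group of a quadratic form on F^n with non-degenerate polar form, F finite of characteristic p; the elements have odd order prime to p) are conjugate in the orthogonal group if and only if they are conjugate in GL_n(F). -/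
theorem result {F : Type*} [Field F] [Fintype F] {p : ℕ} [Fact p.Prime] [CharP F p] {n : ℕ} (Q : QuadraticForm F (Fin n → F)) (hQ : (QuadraticMap.polarBilin Q).Nondegenerate) (A B : ↥(Cfsg.isometryGroup F ⇑Q)) (hodd : Odd (orderOf A)) (hA : (orderOf A).Coprime p) : IsConj A B ↔ IsConj ((A : Matrix.GeneralLinearGroup (Fin n) F) : Matrix (Fin n) (Fin n) F) ((B : Matrix.GeneralLinearGroup (Fin n) F) : Matrix (Fin n) (Fin n) F) := by
  classical
  constructor
  · intro h
    obtain ⟨c, hc⟩ := isConj_iff.mp h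
    have h1 : c * A = B * c := by rw [← hc]; group
    refine ⟨(c : Matrix.GeneralLinearGroup (Fin n) F), ?_⟩
    show ((c : Matrix.GeneralLinearGroup (Fin n) F) : Matrix (Fin n) (Fin n) F) *
      ((A : Matrix.GeneralLinearGroup (Fin n) F) : Matrix (Fin n) (Fin n) F) =
      ((B : Matrix.GeneralLinearGroup (Fin n) F) : Matrix (Fin n) (Fin n) F) *
      ((c : Matrix.GeneralLinearGroup (Fin n) F) : Matrix (Fin n) (Fin n) F)
    have h2 := congrArg (fun x : ↥(Cfsg.isometryGroup F ⇑Q) =>
      ((x : Matrix.GeneralLinearGroup (Fin n) F) : Matrix (Fin n) (Fin n) F)) h1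
    simpa using h2
  · rintro ⟨c, hc⟩
    have hc' : (c : Matrix (Fin n) (Fin n) F) * ((A : Matrix.GeneralLinearGroup (Fin n) F) :
        Matrix (Fin n) (Fin n) F) = ((B : Matrix.GeneralLinearGroup (Fin n) F) :
        Matrix (Fin n) (Fin n) F) * (c : Matrix (Fin n) (Fin n) F) := hc
    have hpowlin : ∀ (M : Matrix (Fin n) (Fin n) F) (k : ℕ),
        (Matrix.toLin' M) ^ k = Matrix.toLin' (M ^ k) := by
      intro M k
      induction k with
      | zero => rw [pow_zero, pow_zero, Matrix.toLin'_one]; rfl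
      | succ k ih => rw [pow_succ, pow_succ, ih, Matrix.toLin'_mul]; rfl
    have hApow : ((A : Matrix.GeneralLinearGroup (Fin n) F) : Matrix (Fin n) (Fin n) F) ^
        orderOf A = 1 := by
      have h1 : (A : Matrix.GeneralLinearGroup (Fin n) F) ^ orderOf A = 1 := by
        rw [← Subgroup.coe_pow, pow_orderOf_eq_one]
        rfl
      rw [← Units.val_pow_eq_pow_val, h1]
      rfl
    have hNF : ((orderOf A : ℕ) : F) ≠ 0 := by
      intro h
      have h1 := (CharP.cast_eq_zero_iff F p _).mp h
      have h2 := (Nat.Coprime.symm hA).eq_one_of_dvd h1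
      exact (Fact.out : p.Prime).ne_one h2
    have hAQ : ∀ v, Q (Matrix.toLin' ((A : Matrix.GeneralLinearGroup (Fin n) F) :
        Matrix (Fin n) (Fin n) F) v) = Q v := fun v => by
      rw [Matrix.toLin'_apply]
      exact (Cfsg.Agent.Lib.Helper44.mem_isometryGroup_iff (⇑Q) A.1).mp A.2 v
    have hBQ : ∀ v, Q (Matrix.toLin' ((B : Matrix.GeneralLinearGroup (Fin n) F) :
        Matrix (Fin n) (Fin n) F) v) = Q v := fun v => by
      rw [Matrix.toLin'_apply]
      exact (Cfsg.Agent.Lib.Helper44.mem_isometryGroup_iff (⇑Q) B.1).mp B.2 v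
    let g : (Fin n → F) ≃ₗ[F] (Fin n → F) :=
      LinearEquiv.ofLinear (Matrix.toLin' (c : Matrix (Fin n) (Fin n) F))
        (Matrix.toLin' ((c⁻¹ : (Matrix (Fin n) (Fin n) F)ˣ) : Matrix (Fin n) (Fin n) F))
        (by rw [← Matrix.toLin'_mul, Units.mul_inv, Matrix.toLin'_one])
        (by rw [← Matrix.toLin'_mul, Units.inv_mul, Matrix.toLin'_one])
    have hg : ∀ v, g (Matrix.toLin' ((A : Matrix.GeneralLinearGroup (Fin n) F) :
        Matrix (Fin n) (Fin n) F) v) = Matrix.toLin' ((B : Matrix.GeneralLinearGroup (Fin n) F) :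
        Matrix (Fin n) (Fin n) F) (g v) := by
      intro v
      show Matrix.toLin' (c : Matrix (Fin n) (Fin n) F) (Matrix.toLin' _ v) =
        Matrix.toLin' _ (Matrix.toLin' (c : Matrix (Fin n) (Fin n) F) v)
      rw [← LinearMap.comp_apply, ← LinearMap.comp_apply, ← Matrix.toLin'_mul,
        ← Matrix.toLin'_mul, hc']
    obtain ⟨γ, hγQ, hγ⟩ := Cfsg.Agent.Lib.Helper8.WallInd.conj_core Q hQ
      (Matrix.toLin' ((A : Matrix.GeneralLinearGroup (Fin n) F) : Matrix (Fin n) (Fin n) F))
      (Matrix.toLin' ((B : Matrix.GeneralLinearGroup (Fin n) F) : Matrix (Fin n) (Fin n) F))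
      (orderOf A) hodd hNF (by rw [hpowlin, hApow, Matrix.toLin'_one]; rfl) hAQ hBQ g hg
    have hγ1 : γ.toLinearMap.comp γ.symm.toLinearMap = LinearMap.id := by
      apply LinearMap.ext
      intro v
      simp
    have hγ2 : γ.symm.toLinearMap.comp γ.toLinearMap = LinearMap.id := by
      apply LinearMap.ext
      intro v
      simp
    let G : Matrix.GeneralLinearGroup (Fin n) F :=
      ⟨LinearMap.toMatrix' γ.toLinearMap, LinearMap.toMatrix' γ.symm.toLinearMap,
        by rw [← LinearMap.toMatrix'_comp, hγ1, LinearMap.toMatrix'_id],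
        by rw [← LinearMap.toMatrix'_comp, hγ2, LinearMap.toMatrix'_id]⟩
    have hGv : ∀ u : Fin n → F, (G : Matrix (Fin n) (Fin n) F).mulVec u = γ u := by
      intro u
      show (LinearMap.toMatrix' γ.toLinearMap).mulVec u = γ u
      rw [← Matrix.toLin'_apply, Matrix.toLin'_toMatrix']
      rfl
    have hG : G ∈ Cfsg.isometryGroup F ⇑Q := by
      rw [Cfsg.Agent.Lib.Helper44.mem_isometryGroup_iff]
      intro u
      rw [hGv]
      exact hγQ u
    refine isConj_iff.mpr ⟨⟨G, hG⟩, ?_⟩
    rw [mul_inv_eq_iff_eq_mul]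
    apply Subtype.ext
    apply Units.ext
    show (G : Matrix (Fin n) (Fin n) F) * ((A : Matrix.GeneralLinearGroup (Fin n) F) :
        Matrix (Fin n) (Fin n) F) = ((B : Matrix.GeneralLinearGroup (Fin n) F) :
        Matrix (Fin n) (Fin n) F) * (G : Matrix (Fin n) (Fin n) F)
    apply Matrix.toLin'.injective
    apply LinearMap.ext
    intro v
    rw [Matrix.toLin'_mul, Matrix.toLin'_mul, LinearMap.comp_apply, LinearMap.comp_apply,
      Matrix.toLin'_apply (G : Matrix (Fin n) (Fin n) F),
      Matrix.toLin'_apply (G : Matrix (Fin n) (Fin n) F), hGv, hGv]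
    exact hγ v

end Cfsg.Agent.S2590
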