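import Cfsg.Statements.S2591
import Cfsg.Agent.Lib.Helper99.RegUnip2

set_option autoImplicit false
open Cfsg

namespace Cfsg.Agent.S2591

/-- Over a finite field of odd order and for m ≥ 1, the regular unipotent elements of Sp_2m(F) (u − 1 nilpotent of rank 2m − 1, a single Jordan block) form exactly two conjugacy classes of Sp_2m(F) (one class under the similarity group, which splits in two). -/
theorem result {F : Type*} [Field F] [Fintype F] {q : ℕ} (hF : Fintype.card F = q) (hq : Odd q) {m : ℕ} (hm : 1 ≤ m) : Nat.card {C : ConjClasses ↥(Matrix.symplecticGroup (Fin m) F) // ∃ u : Matrix.symplecticGroup (Fin m) F, ConjClasses.mk u = C ∧ ((u : Matrix (Fin m ⊕ Fin m) (Fin m ⊕ Fin m) F) - 1) ^ (2 * m) = 0 ∧ ((u : Matrix (Fin m ⊕ Fin m) (Fin m ⊕ Fin m) F) - 1).rank = 2 * m - 1} = 2 := by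
  classical
  have hchar : ringChar F ≠ 2 := by
    intro h3
    have h5 := FiniteField.even_card_of_char_two h3
    rw [hF] at h5
    rcases hq with ⟨k, hk⟩
    omega
  have h2 : (2 : F) ≠ 0 := by
    intro h0
    apply hchar
    have hd : ringChar F ∣ 2 := by
      have h4 : ((2 : ℕ) : F) = 0 := by exact_mod_cast h0
      exact (ringChar.spec F 2).mp h4
    have hp : (ringChar F).Prime := CharP.char_is_prime F (ringChar F)
    exact (Nat.prime_dvd_prime_iff_eq hp Nat.prime_two).mp hd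
  have hcard : Fintype.card (Fin m ⊕ Fin m) = 2 * m := by
    rw [Fintype.card_sum, Fintype.card_fin]
    omega
  obtain ⟨U₀, hU₀s, hU₀n, hU₀r⟩ := Lib.Helper99.exists_regUnip_symp (F := F) h2 m hm
  have hN₀c : (U₀ - 1) ^ Fintype.card (Fin m ⊕ Fin m) = 0 := by
    rw [hcard]
    exact hU₀n
  obtain ⟨w₀, hw₀⟩ := Lib.Helper99.ru_exists_cyclic (U₀ - 1) (by rw [hcard]; omega)
    (by rw [hcard]; exact hU₀r)
  have C₀ : Lib.Helper99.RUCtx (U₀ - 1) U₀ (Lib.Helper99.sadj U₀) w₀ :=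
    { hcard := by rw [hcard]; omega
      hN := hN₀c
      hw := hw₀
      hU := by abel
      h1 := hU₀s
      h2 := mul_eq_one_comm.mp hU₀s
      hs := rfl
      htwo := h2 }
  obtain ⟨c₀, hc₀⟩ := FiniteField.exists_nonsquare hchar
  have hc₀0 : c₀ ≠ 0 := by
    rintro rfl
    exact hc₀ ⟨0, by simp⟩
  have hd := Lib.Helper99.ruSim_det m c₀ hc₀0
  have hds := Lib.Helper99.ruSim_sadj m c₀
  obtain ⟨h1s, h1n, h1r⟩ := Lib.Helper99.conj_regUnip hc₀0 hd hds hU₀s hU₀n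
  obtain ⟨u₀, hu₀⟩ : ∃ u₀ : Matrix.symplecticGroup (Fin m) F, u₀.1 = U₀ :=
    ⟨⟨U₀, (Lib.Helper99.mem_symp_iff_sadj _).mpr hU₀s⟩, rfl⟩
  obtain ⟨u₁, hu₁⟩ : ∃ u₁ : Matrix.symplecticGroup (Fin m) F,
      u₁.1 = Lib.Helper99.ruSim m c₀ * U₀ * (Lib.Helper99.ruSim m c₀)⁻¹ :=
    ⟨⟨_, (Lib.Helper99.mem_symp_iff_sadj _).mpr h1s⟩, rfl⟩
  rw [Nat.card_eq_two_iff]
  refine ⟨⟨ConjClasses.mk u₀, u₀, rfl, by rw [hu₀]; exact hU₀n, by rw [hu₀]; exact hU₀r⟩,
    ⟨ConjClasses.mk u₁, u₁, rfl, by rw [hu₁]; exact h1n, by rw [hu₁, h1r]; exact hU₀r⟩, ?_, ?_⟩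
  · intro heq
    have h := congrArg Subtype.val heq
    simp only at h
    rw [ConjClasses.mk_eq_mk_iff_isConj, isConj_iff] at h
    obtain ⟨g, hg⟩ := h
    have hg' : g * u₀ = u₁ * g := by
      rw [← hg]
      group
    have hgm : (g : Matrix (Fin m ⊕ Fin m) (Fin m ⊕ Fin m) F) * U₀ =
        (Lib.Helper99.ruSim m c₀ * U₀ * (Lib.Helper99.ruSim m c₀)⁻¹) * g := by
      rw [← hu₁, ← hu₀]
      exact congrArg Subtype.val hg'
    obtain ⟨β, hβ⟩ := C₀.sq_of_conj hc₀0 hd hds ((Lib.Helper99.mem_symp_iff_sadj _).mp g.2) hgm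
    exact hc₀ ⟨β, hβ⟩
  · rw [Set.eq_univ_iff_forall]
    rintro ⟨C, u, rfl, hnil, hreg⟩
    have hNc : ((u : Matrix (Fin m ⊕ Fin m) (Fin m ⊕ Fin m) F) - 1) ^
        Fintype.card (Fin m ⊕ Fin m) = 0 := by
      rw [hcard]
      exact hnil
    obtain ⟨w, hw⟩ := Lib.Helper99.ru_exists_cyclic
      ((u : Matrix (Fin m ⊕ Fin m) (Fin m ⊕ Fin m) F) - 1) (by rw [hcard]; omega)
      (by rw [hcard]; exact hreg)
    obtain ⟨H, hH, hHN⟩ := Lib.Helper99.ru_conj (U₀ - 1)
      ((u : Matrix (Fin m ⊕ Fin m) (Fin m ⊕ Fin m) F) - 1) hN₀c hNc w₀ w hw₀ hw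
    have hHU : H * U₀ = (u : Matrix (Fin m ⊕ Fin m) (Fin m ⊕ Fin m) F) * H := by
      rw [mul_sub, sub_mul, mul_one, one_mul] at hHN
      exact sub_left_injective hHN
    have huH : (u : Matrix (Fin m ⊕ Fin m) (Fin m ⊕ Fin m) F) = H * U₀ * H⁻¹ := by
      rw [hHU, Matrix.mul_assoc, Matrix.mul_nonsing_inv _ hH, mul_one]
    have hus : Lib.Helper99.sadj (u : Matrix (Fin m ⊕ Fin m) (Fin m ⊕ Fin m) F) *
        (u : Matrix (Fin m ⊕ Fin m) (Fin m ⊕ Fin m) F) = 1 :=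
      (Lib.Helper99.mem_symp_iff_sadj _).mp u.2
    have hsU : (Lib.Helper99.sadj H * H) * U₀ = U₀ * (Lib.Helper99.sadj H * H) := by
      have e1 : Lib.Helper99.sadj U₀ * Lib.Helper99.sadj H =
          Lib.Helper99.sadj H * Lib.Helper99.sadj (u : Matrix (Fin m ⊕ Fin m) (Fin m ⊕ Fin m) F) := by
        rw [← Lib.Helper99.sadj_mul, ← Lib.Helper99.sadj_mul, hHU]
      have e2 : Lib.Helper99.sadj H * (u : Matrix (Fin m ⊕ Fin m) (Fin m ⊕ Fin m) F) =
          U₀ * Lib.Helper99.sadj H := by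
        calc Lib.Helper99.sadj H * (u : Matrix (Fin m ⊕ Fin m) (Fin m ⊕ Fin m) F)
            = (U₀ * Lib.Helper99.sadj U₀) * Lib.Helper99.sadj H *
                (u : Matrix (Fin m ⊕ Fin m) (Fin m ⊕ Fin m) F) := by rw [C₀.h2, one_mul]
          _ = U₀ * (Lib.Helper99.sadj U₀ * Lib.Helper99.sadj H) *
                (u : Matrix (Fin m ⊕ Fin m) (Fin m ⊕ Fin m) F) := by
              simp only [Matrix.mul_assoc]
          _ = U₀ * Lib.Helper99.sadj H *
                (Lib.Helper99.sadj (u : Matrix (Fin m ⊕ Fin m) (Fin m ⊕ Fin m) F) *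
                  (u : Matrix (Fin m ⊕ Fin m) (Fin m ⊕ Fin m) F)) := by
              rw [e1]
              simp only [Matrix.mul_assoc]
          _ = U₀ * Lib.Helper99.sadj H := by rw [hus, mul_one]
      rw [Matrix.mul_assoc, hHU, ← Matrix.mul_assoc, e2, Matrix.mul_assoc]
    have hsN := C₀.comm_of_U hsU
    obtain ⟨c, h, hh, hs⟩ := Lib.Helper99.ru_cent_decomp (U₀ - 1) C₀.hcard C₀.hN w₀ C₀.hw _ hsN
    have hc : c ≠ 0 := by
      rintro rfl
      rw [zero_smul, zero_add] at hs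
      have hunit : IsUnit (Lib.Helper99.sadj H * H) :=
        ((Matrix.isUnit_iff_isUnit_det _).mpr (Lib.Helper99.sadj_isUnit_det H hH)).mul
          ((Matrix.isUnit_iff_isUnit_det _).mpr hH)
      rw [hs] at hunit
      have := C₀.nonempty
      exact (C₀.isNil hh).not_isUnit hunit
    have key : ∀ (H' : Matrix (Fin m ⊕ Fin m) (Fin m ⊕ Fin m) F) (c' β : F) (hc' : c' ≠ 0)
        (hβ : β ≠ 0) (hH' : IsUnit H'.det)
        (hs' : Lib.Helper99.sadj H' * H' = c' • (1 : Matrix (Fin m ⊕ Fin m) (Fin m ⊕ Fin m) F))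
        (hcc : c = c' * (β * β)) (u' : Matrix.symplecticGroup (Fin m) F)
        (hu' : u'.1 = H' * U₀ * H'⁻¹), ConjClasses.mk u = ConjClasses.mk u' := by
      intro H' c' β hc' hβ hH' hs' hcc u' hu'
      rw [hcc] at hs
      obtain ⟨g, hg1, hg2⟩ := C₀.conj_of_sq hc' hβ hH hH' hs' hh hs
      rw [← huH, ← hu'] at hg2
      rw [ConjClasses.mk_eq_mk_iff_isConj]
      apply IsConj.symm
      rw [isConj_iff]
      refine ⟨⟨g, (Lib.Helper99.mem_symp_iff_sadj _).mpr hg1⟩, ?_⟩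
      apply mul_inv_eq_of_eq_mul
      exact Subtype.ext hg2
    by_cases hsq : IsSquare c
    · obtain ⟨β, hβ⟩ := hsq
      have hβ0 : β ≠ 0 := by
        rintro rfl
        apply hc
        rw [hβ, mul_zero]
      have e := key 1 1 β one_ne_zero hβ0 (by simp)
        (by rw [Lib.Helper99.sadj_one, one_mul, one_smul]) (by rw [one_mul]; exact hβ) u₀
        (by rw [hu₀, one_mul, inv_one, mul_one])
      rw [Set.mem_insert_iff]
      left
      exact Subtype.ext e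
    · have hχ1 : quadraticChar F c = -1 := quadraticChar_neg_one_iff_not_isSquare.mpr hsq
      have hχ2 : quadraticChar F c₀ = -1 := quadraticChar_neg_one_iff_not_isSquare.mpr hc₀
      have hχ : quadraticChar F (c * c₀) = 1 := by
        rw [map_mul, hχ1, hχ2]
        norm_num
      obtain ⟨γ, hγ⟩ := (quadraticChar_one_iff_isSquare (mul_ne_zero hc hc₀0)).mp hχ
      have hγ0 : γ ≠ 0 := by
        rintro rfl
        rw [mul_zero] at hγ
        exact mul_ne_zero hc hc₀0 hγ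
      have e := key (Lib.Helper99.ruSim m c₀) c₀ (γ / c₀) hc₀0 (div_ne_zero hγ0 hc₀0) hd hds
        (by field_simp; linear_combination hγ) u₁ hu₁
      rw [Set.mem_insert_iff, Set.mem_singleton_iff]
      right
      exact Subtype.ext e

end Cfsg.Agent.S2591
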