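import Cfsg.Statements.S2592
import Cfsg.Agent.Lib.Helper99.RegUnip

set_option autoImplicit false
open Cfsg

namespace Cfsg.Agent.S2592

/-- Over a finite field with q elements, q odd, the centraliser in Sp_2m(F) (m ≥ 1) of a regular unipotent element (u − 1 nilpotent of rank 2m − 1) has order 2 q^m. -/
theorem result {F : Type*} [Field F] [Fintype F] {q : ℕ} (hF : Fintype.card F = q) (hq : Odd q) {m : ℕ} (hm : 1 ≤ m) (u : Matrix.symplecticGroup (Fin m) F) (hnil : ((u : Matrix (Fin m ⊕ Fin m) (Fin m ⊕ Fin m) F) - 1) ^ (2 * m) = 0) (hreg : ((u : Matrix (Fin m ⊕ Fin m) (Fin m ⊕ Fin m) F) - 1).rank = 2 * m - 1) : Nat.card ↥(Subgroup.centralizer ({u} : Set ↥(Matrix.symplecticGroup (Fin m) F))) = 2 * q ^ m := by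
  classical
  have h2 : (2 : F) ≠ 0 := by
    intro h0
    have h3 : ringChar F = 2 := by
      have hd : ringChar F ∣ 2 := by
        have h4 : ((2 : ℕ) : F) = 0 := by exact_mod_cast h0
        exact (ringChar.spec F 2).mp h4
      have hp : (ringChar F).Prime := CharP.char_is_prime F (ringChar F)
      exact (Nat.prime_dvd_prime_iff_eq hp Nat.prime_two).mp hd
    have h5 := FiniteField.even_card_of_char_two h3
    rw [hF] at h5
    rcases hq with ⟨k, hk⟩
    omega
  have hcard : Fintype.card (Fin m ⊕ Fin m) = 2 * m := by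
    rw [Fintype.card_sum, Fintype.card_fin]
    omega
  obtain ⟨N, hNdef⟩ : ∃ N : Matrix (Fin m ⊕ Fin m) (Fin m ⊕ Fin m) F,
      N = (u : Matrix (Fin m ⊕ Fin m) (Fin m ⊕ Fin m) F) - 1 := ⟨_, rfl⟩
  rw [← hNdef] at hnil hreg
  have hNc : N ^ Fintype.card (Fin m ⊕ Fin m) = 0 := by
    rw [hcard]
    exact hnil
  obtain ⟨w, hw⟩ := Lib.Helper99.ru_exists_cyclic N (by rw [hcard]; omega)
    (by rw [hcard]; exact hreg)
  have hmem := (Lib.Helper99.mem_symp_iff_sadj
    (u : Matrix (Fin m ⊕ Fin m) (Fin m ⊕ Fin m) F)).mp u.2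
  have C : Lib.Helper99.RUCtx N (u : Matrix (Fin m ⊕ Fin m) (Fin m ⊕ Fin m) F)
      (Lib.Helper99.sadj (u : Matrix (Fin m ⊕ Fin m) (Fin m ⊕ Fin m) F)) w :=
    { hcard := by rw [hcard]; omega
      hN := hNc
      hw := hw
      hU := by rw [hNdef]; abel
      h1 := hmem
      h2 := mul_eq_one_comm.mp hmem
      hs := rfl
      htwo := h2 }
  have p1 : ∀ k : ↥(Subgroup.centralizer ({u} : Set ↥(Matrix.symplecticGroup (Fin m) F))),
      (k.1 : Matrix (Fin m ⊕ Fin m) (Fin m ⊕ Fin m) F) * N =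
        N * (k.1 : Matrix (Fin m ⊕ Fin m) (Fin m ⊕ Fin m) F) := by
    intro k
    have h := Subgroup.mem_centralizer_singleton_iff.mp k.2
    have h' : (k.1 : Matrix (Fin m ⊕ Fin m) (Fin m ⊕ Fin m) F) * u.1 = u.1 * k.1.1 :=
      congrArg Subtype.val h
    rw [hNdef, mul_sub, sub_mul, mul_one, one_mul, h']
  have p2 : ∀ g : {g : Matrix (Fin m ⊕ Fin m) (Fin m ⊕ Fin m) F //
      g * N = N * g ∧ Lib.Helper99.sadj g * g = 1}, g.1 ∈ Matrix.symplecticGroup (Fin m) F :=
    fun g => (Lib.Helper99.mem_symp_iff_sadj g.1).mpr g.2.2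
  have p3 : ∀ g : {g : Matrix (Fin m ⊕ Fin m) (Fin m ⊕ Fin m) F //
      g * N = N * g ∧ Lib.Helper99.sadj g * g = 1},
      (⟨g.1, p2 g⟩ : ↥(Matrix.symplecticGroup (Fin m) F)) ∈
        Subgroup.centralizer ({u} : Set ↥(Matrix.symplecticGroup (Fin m) F)) := by
    intro g
    obtain ⟨G, hG1, hG2⟩ := g
    rw [Subgroup.mem_centralizer_singleton_iff]
    apply Subtype.ext
    show G * u.1 = u.1 * G
    rw [hNdef, mul_sub, sub_mul, mul_one, one_mul] at hG1
    exact sub_left_injective hG1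
  have e : ↥(Subgroup.centralizer ({u} : Set ↥(Matrix.symplecticGroup (Fin m) F))) ≃
      {g : Matrix (Fin m ⊕ Fin m) (Fin m ⊕ Fin m) F //
        g * N = N * g ∧ Lib.Helper99.sadj g * g = 1} :=
    { toFun := fun k => ⟨k.1.1, p1 k, (Lib.Helper99.mem_symp_iff_sadj _).mp k.1.2⟩
      invFun := fun g => ⟨⟨g.1, p2 g⟩, p3 g⟩
      left_inv := fun k => rfl
      right_inv := fun g => rfl }
  rw [Nat.card_congr e, C.card_T, Nat.card_eq_fintype_card,
    Module.card_eq_pow_finrank (K := F), C.finrank_skew hcard, hF]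

end Cfsg.Agent.S2592
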