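import Mathlib
import Cfsg.Statements.S2593
import Cfsg.Agent.Lib.Helper8.InvReps
import Cfsg.Agent.Lib.Helper8.SpInvClass
-- import your own Cfsg.Agent.* helpers here

set_option autoImplicit false
open Cfsg

namespace Cfsg.Agent.S2593

open Cfsg.Agent.Lib.Helper8

/-- Number of conjugacy classes of involutions in the symplectic group Sp_2m(F) over a finite field of characteristic two (m ≥ 1): for each s with 1 ≤ s ≤ m there is one class with rank(t − 1) = s if s is odd and two if s is even (according as v ↦ f(v, tv), f the symplectic form, vanishes identically or not), so m + ⌊m/2⌋ classes in all. -/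
theorem result {F : Type*} [Field F] [Fintype F] [CharP F 2] {m : ℕ} (hm : 1 ≤ m) : Nat.card {C : ConjClasses ↥(Matrix.symplecticGroup (Fin m) F) // ∃ g : Matrix.symplecticGroup (Fin m) F, ConjClasses.mk g = C ∧ orderOf g = 2} = m + m / 2 := by
  classical
  have h2 : (2 : F) = 0 := CharTwo.two_eq_zero
  obtain ⟨R, hR⟩ : ∃ R : Fin m ⊕ Fin (m / 2) → ↥(Matrix.symplecticGroup (Fin m) F),
      R = Sum.elim
        (fun i => SpInvClass.mkInv (InvReps.swapM m F (i.val + 1))
          (SpInvClass.mem_sp_of_quad h2 _ (InvReps.swapM_quad m F _)))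
        (fun j => SpInvClass.mkInv (InvReps.altM m F (j.val + 1))
          (SpInvClass.mem_sp_of_quad h2 _ (InvReps.altM_quad m F _ h2))) := ⟨_, rfl⟩
  have hrk : ∀ x, ((R x : Matrix (Fin m ⊕ Fin m) (Fin m ⊕ Fin m) F) - 1).rank =
      Sum.elim (fun i : Fin m => i.val + 1) (fun j : Fin (m / 2) => 2 * (j.val + 1)) x := by
    rintro (i | j)
    · rw [hR]
      exact InvReps.swapM_rank m F (i.val + 1) (by omega)
    · rw [hR]
      exact InvReps.altM_rank m F (j.val + 1) (by have := j.2; omega)
  have hne : ∀ x, (R x : Matrix (Fin m ⊕ Fin m) (Fin m ⊕ Fin m) F) ≠ 1 := by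
    intro x hx
    have h := hrk x
    rw [hx, sub_self, Matrix.rank_zero] at h
    rcases x with i | j
    · simp at h
    · simp at h
  have h := SpInvClass.card_involution_classes h2 R
    (Sum.elim (fun i : Fin m => i.val + 1) (fun j : Fin (m / 2) => 2 * (j.val + 1)))
    (Sum.elim (fun _ => False) (fun _ => True)) ?_ hrk ?_ ?_ ?_
  · rw [h]
    simp
  · intro x
    have hx := hne x
    rcases x with i | j
    · rw [hR] at hx ⊢
      exact SpInvClass.orderOf_mkInv _ _ (InvReps.swapM_sq m F _) hx
    · rw [hR] at hx ⊢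
      exact SpInvClass.orderOf_mkInv _ _ (InvReps.altM_sq m F _ h2) hx
  · rintro (i | j)
    · rw [hR]
      simp only [Sum.elim_inl, iff_false]
      intro hall
      obtain ⟨v, hv⟩ := InvReps.swapM_type m F (i.val + 1) (by omega) (by omega)
      apply hv
      rw [← SpInvClass.symp_type_of_quad h2 _ (InvReps.swapM_quad m F _)]
      exact hall v
    · rw [hR]
      simp only [Sum.elim_inr, iff_true]
      intro v
      have := SpInvClass.symp_type_of_quad h2 _ (InvReps.altM_quad m F (j.val + 1) h2) v
      rw [InvReps.altM_type m F (j.val + 1) h2 v] at this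
      exact this
  · rintro (i | j) (i' | j') hrk' hty'
    · simp only [Sum.elim_inl] at hrk'
      congr 1
      apply Fin.ext
      omega
    · simp at hty'
    · simp at hty'
    · simp only [Sum.elim_inr] at hrk'
      congr 1
      apply Fin.ext
      omega
  · intro t ht
    obtain ⟨hT2, hT1⟩ := SpInvClass.coe_sq_of_order_two t ht
    have hs1 := OrthInvClass.rank_sub_one_pos _ hT1
    have hs2 := OrthInvClass.two_mul_rank_le h2 _ hT2
    rw [Fintype.card_sum, Fintype.card_fin] at hs2
    by_cases halt : ∀ v, Cfsg.sympForm m F v (Matrix.mulVec (t : Matrix (Fin m ⊕ Fin m) (Fin m ⊕ Fin m) F) v) = 0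
    · obtain ⟨k, hk⟩ := SpInvClass.even_rank_of_alt_type h2 (t : Matrix (Fin m ⊕ Fin m) (Fin m ⊕ Fin m) F) t.2 hT2 halt
      refine ⟨Sum.inr ⟨k - 1, by omega⟩, ?_, ?_⟩
      · simp only [Sum.elim_inr]
        omega
      · simp only [Sum.elim_inr, iff_true]
        exact halt
    · refine ⟨Sum.inl ⟨((t : Matrix (Fin m ⊕ Fin m) (Fin m ⊕ Fin m) F) - 1).rank - 1, by omega⟩, ?_, ?_⟩
      · simp only [Sum.elim_inl]
        omega
      · simp only [Sum.elim_inl, iff_false]
        exact halt

end Cfsg.Agent.S2593
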