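import Mathlib
import Cfsg.Statements.S2596
import Cfsg.Agent.Lib.Helper8.InvReps
import Cfsg.Agent.Lib.Helper8.MinusReps
import Cfsg.Agent.Lib.Helper8.OrthInvClass
import Cfsg.Agent.Lib.Helper8.OmegaConj
-- import your own Cfsg.Agent.* helpers here

set_option autoImplicit false
open Cfsg

namespace Cfsg.Agent.S2596

open Cfsg.Agent.Lib.Helper8

/-- Number of conjugacy classes of involutions in the full orthogonal group O⁻_2m(F) of an elliptic quadratic form (Σ_(i<m−1) x_i y_i plus an anisotropic binary form) over a finite field of characteristic two (m ≥ 1): one class for each odd s ≤ m, two for each even s with 2 ≤ s < m and one for s = m when m is even, where s = rank(t − 1); in all m + ⌊(m − 1)/2⌋. -/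
theorem result {F : Type*} [Field F] [Fintype F] [CharP F 2] {m : ℕ} (hm : 1 ≤ m) (a b : F) (hab : ∀ z₁ z₂ : F, z₁ ^ 2 + a * z₁ * z₂ + b * z₂ ^ 2 = 0 → z₁ = 0 ∧ z₂ = 0) : Nat.card {C : ConjClasses ↥(Cfsg.isometryGroup F (Cfsg.quadFormMinus (m - 1) F a b)) // ∃ g : ↥(Cfsg.isometryGroup F (Cfsg.quadFormMinus (m - 1) F a b)), ConjClasses.mk g = C ∧ orderOf g = 2} = m + (m - 1) / 2 := by
  classical
  have h2 : (2 : F) = 0 := CharTwo.two_eq_zero
  have ha : a ≠ 0 := Cfsg.Agent.Lib.Helper44.minus_coeff_ne_zero_char2 F h2 a b hab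
  have hQc := Cfsg.Agent.Lib.Helper14.minusQF_coe (m - 1) F a b
  have hQ := Cfsg.Agent.Lib.Helper44.minusQF_nondegenerate_char2 (m - 1) F h2 a b hab
  obtain ⟨R, hR⟩ : ∃ R : Fin m ⊕ Fin ((m - 1) / 2) →
      ↥(Cfsg.isometryGroup F (Cfsg.quadFormMinus (m - 1) F a b)),
      R = Sum.elim
        (fun i => OrthInvClass.mkInv (Cfsg.quadFormMinus (m - 1) F a b)
          (MinusReps.blk (m - 1) F (InvReps.swapM (m - 1) F i.val) (MinusReps.rho F a))
          (MinusReps.blk_sq _ _ (InvReps.swapM_sq (m - 1) F _) (MinusReps.rho_sq h2 a))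
          (MinusReps.blk_quad a b _ _ (InvReps.swapM_quad (m - 1) F _) (MinusReps.rho_norm h2 a b)))
        (fun j => OrthInvClass.mkInv (Cfsg.quadFormMinus (m - 1) F a b)
          (MinusReps.blk (m - 1) F (InvReps.altM (m - 1) F (j.val + 1)) 1)
          (MinusReps.blk_sq _ _ (InvReps.altM_sq (m - 1) F _ h2) (mul_one 1))
          (MinusReps.blk_quad a b _ _ (InvReps.altM_quad (m - 1) F _ h2)
            (fun z => by rw [Matrix.one_mulVec]))) := ⟨_, rfl⟩
  have hrk : ∀ x, (((R x : GL ((Fin (m - 1) ⊕ Fin (m - 1)) ⊕ Fin 2) F) : Matrix ((Fin (m - 1) ⊕ Fin (m - 1)) ⊕ Fin 2) ((Fin (m - 1) ⊕ Fin (m - 1)) ⊕ Fin 2) F) - 1).rank =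
      Sum.elim (fun i : Fin m => i.val + 1) (fun j : Fin ((m - 1) / 2) => 2 * (j.val + 1)) x := by
    rintro (i | j)
    · rw [hR]
      show (MinusReps.blk (m - 1) F (InvReps.swapM (m - 1) F i.val) (MinusReps.rho F a) - 1).rank = _
      rw [MinusReps.blk_rank, InvReps.swapM_rank (m - 1) F i.val (by have := i.2; omega),
        MinusReps.rho_rank a ha]
      rfl
    · rw [hR]
      show (MinusReps.blk (m - 1) F (InvReps.altM (m - 1) F (j.val + 1)) 1 - 1).rank = _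
      rw [MinusReps.blk_rank, InvReps.altM_rank (m - 1) F (j.val + 1) (by have := j.2; omega),
        sub_self, Matrix.rank_zero]
      rfl
  have hne : ∀ x, ((R x : GL ((Fin (m - 1) ⊕ Fin (m - 1)) ⊕ Fin 2) F) : Matrix ((Fin (m - 1) ⊕ Fin (m - 1)) ⊕ Fin 2) ((Fin (m - 1) ⊕ Fin (m - 1)) ⊕ Fin 2) F) ≠ 1 := by
    intro x hx
    have h := hrk x
    rw [hx, sub_self, Matrix.rank_zero] at h
    rcases x with i | j
    · simp at h
    · simp at h
  have h := OrthInvClass.card_involution_classes h2 (Cfsg.quadFormMinus (m - 1) F a b)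
    (Cfsg.Agent.Lib.Helper14.minusQF (m - 1) F a b) hQc hQ R
    (Sum.elim (fun i : Fin m => i.val + 1) (fun j : Fin ((m - 1) / 2) => 2 * (j.val + 1)))
    (Sum.elim (fun _ => False) (fun _ => True)) ?_ hrk ?_ ?_ ?_
  · rw [h]
    simp
  · intro x
    have hx := hne x
    rcases x with i | j
    · rw [hR] at hx ⊢
      exact OrthInvClass.orderOf_mkInv _ _ _ _ hx
    · rw [hR] at hx ⊢
      exact OrthInvClass.orderOf_mkInv _ _ _ _ hx
  · rintro (i | j)
    · rw [hR]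
      simp only [Sum.elim_inl, iff_false]
      intro hall
      have h1 := hall (Pi.single (Sum.inr 1) 1)
      change Cfsg.quadFormMinus (m - 1) F a b (Pi.single (Sum.inr 1) 1 +
        Matrix.mulVec (MinusReps.blk (m - 1) F (InvReps.swapM (m - 1) F i.val) (MinusReps.rho F a))
          (Pi.single (Sum.inr 1) 1)) = 0 at h1
      rw [MinusReps.blk_type, MinusReps.rho_mulVec] at h1
      have e0 : (fun i : Fin (m - 1) ⊕ Fin (m - 1) =>
          (Pi.single (Sum.inr 1) 1 : ((Fin (m - 1) ⊕ Fin (m - 1)) ⊕ Fin 2) → F) (Sum.inl i)) = 0 := by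
        funext i
        simp
      rw [e0, Matrix.mulVec_zero, add_zero] at h1
      have e1 : Cfsg.quadFormPlus (m - 1) F 0 = 0 := by
        unfold Cfsg.quadFormPlus
        simp
      rw [e1] at h1
      simp only [Pi.add_apply, Matrix.cons_val_zero, Matrix.cons_val_one, Matrix.cons_val_fin_one,
        Pi.single_eq_same, ne_eq, Sum.inr.injEq, zero_ne_one, not_false_eq_true,
        Pi.single_eq_of_ne, zero_add, mul_one] at h1
      have h3 : a ^ 2 = 0 := by linear_combination h1 - (a ^ 2 + 2 * b) * h2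
      exact ha (pow_eq_zero_iff (by norm_num) |>.mp h3)
    · rw [hR]
      simp only [Sum.elim_inr, iff_true]
      intro v
      change Cfsg.quadFormMinus (m - 1) F a b (v +
        Matrix.mulVec (MinusReps.blk (m - 1) F (InvReps.altM (m - 1) F (j.val + 1)) 1) v) = 0
      rw [MinusReps.blk_type, InvReps.altM_type (m - 1) F (j.val + 1) h2, Matrix.one_mulVec]
      simp only [Pi.add_apply]
      linear_combination (2 * v (Sum.inr 0) ^ 2 + 2 * a * v (Sum.inr 0) * v (Sum.inr 1) +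
        2 * b * v (Sum.inr 1) ^ 2) * h2
  · rintro (i | j) (i' | j') hrk' hty'
    · simp only [Sum.elim_inl] at hrk'
      congr 1
      apply Fin.ext
      omega
    · simp at hty'
    · simp at hty'
    · simp only [Sum.elim_inr] at hrk'
      congr 1
      apply Fin.ext
      omega
  · intro t ht
    obtain ⟨hT2, hT1⟩ := OrthInvClass.coe_sq_of_order_two t ht
    have hs1 := OrthInvClass.rank_sub_one_pos _ hT1
    have hs2 := OrthInvClass.two_mul_rank_le h2 _ hT2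
    rw [Fintype.card_sum, Fintype.card_sum, Fintype.card_fin, Fintype.card_fin] at hs2
    by_cases halt : ∀ v, Cfsg.quadFormMinus (m - 1) F a b
        (v + Matrix.mulVec ((t : GL ((Fin (m - 1) ⊕ Fin (m - 1)) ⊕ Fin 2) F) : Matrix ((Fin (m - 1) ⊕ Fin (m - 1)) ⊕ Fin 2) ((Fin (m - 1) ⊕ Fin (m - 1)) ⊕ Fin 2) F) v) = 0
    · obtain ⟨k, hk⟩ := OrthInvClass.even_rank_of_alt_type h2
        (Cfsg.Agent.Lib.Helper14.minusQF (m - 1) F a b) hQ
        ((t : GL ((Fin (m - 1) ⊕ Fin (m - 1)) ⊕ Fin 2) F) : Matrix ((Fin (m - 1) ⊕ Fin (m - 1)) ⊕ Fin 2) ((Fin (m - 1) ⊕ Fin (m - 1)) ⊕ Fin 2) F) (fun v => by rw [hQc]; exact t.2 v v) hT2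
        (fun v => by rw [hQc]; exact halt v)
      have hts : (((t : GL ((Fin (m - 1) ⊕ Fin (m - 1)) ⊕ Fin 2) F) : Matrix ((Fin (m - 1) ⊕ Fin (m - 1)) ⊕ Fin 2) ((Fin (m - 1) ⊕ Fin (m - 1)) ⊕ Fin 2) F) - 1).rank ≤ m - 1 := by
        apply OmegaConj.minus_ts_finrank_le (m - 1) F a b hab hQ
          (LinearMap.range (((t : GL ((Fin (m - 1) ⊕ Fin (m - 1)) ⊕ Fin 2) F) : Matrix ((Fin (m - 1) ⊕ Fin (m - 1)) ⊕ Fin 2) ((Fin (m - 1) ⊕ Fin (m - 1)) ⊕ Fin 2) F) - 1).mulVecLin)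
        rintro _ ⟨v, rfl⟩
        have e : (((t : GL ((Fin (m - 1) ⊕ Fin (m - 1)) ⊕ Fin 2) F) : Matrix ((Fin (m - 1) ⊕ Fin (m - 1)) ⊕ Fin 2) ((Fin (m - 1) ⊕ Fin (m - 1)) ⊕ Fin 2) F) - 1).mulVecLin v =
            v + Matrix.mulVec ((t : GL ((Fin (m - 1) ⊕ Fin (m - 1)) ⊕ Fin 2) F) : Matrix ((Fin (m - 1) ⊕ Fin (m - 1)) ⊕ Fin 2) ((Fin (m - 1) ⊕ Fin (m - 1)) ⊕ Fin 2) F) v := by
          rw [Matrix.mulVecLin_apply, Matrix.sub_mulVec, Matrix.one_mulVec]
          funext i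
          simp only [Pi.add_apply, Pi.sub_apply]
          linear_combination (-(v i)) * h2
        rw [e]
        exact halt v
      refine ⟨Sum.inr ⟨k - 1, by omega⟩, ?_, ?_⟩
      · simp only [Sum.elim_inr]
        omega
      · simp only [Sum.elim_inr, iff_true]
        exact halt
    · refine ⟨Sum.inl ⟨(((t : GL ((Fin (m - 1) ⊕ Fin (m - 1)) ⊕ Fin 2) F) : Matrix ((Fin (m - 1) ⊕ Fin (m - 1)) ⊕ Fin 2) ((Fin (m - 1) ⊕ Fin (m - 1)) ⊕ Fin 2) F) - 1).rank - 1, by omega⟩, ?_, ?_⟩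
      · simp only [Sum.elim_inl]
        omega
      · simp only [Sum.elim_inl, iff_false]
        exact halt

end Cfsg.Agent.S2596
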