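import Mathlib
import Cfsg.Statements.S2597
import Cfsg.Agent.Lib.Helper8.OmegaClass
-- import your own Cfsg.Agent.* helpers here

set_option autoImplicit false
open Cfsg

namespace Cfsg.Agent.S2597

open Cfsg.Agent.Lib.Helper8

/-- Number of conjugacy classes of involutions in Ω⁺_2m(F) (the commutator subgroup of the orthogonal group of Σ x_i y_i) over a finite field F of characteristic two, m ≥ 1, excluding the case m = 2 over the field of two elements: the involutions of Ω are those with s = rank(t − 1) even, giving two O-classes for each even s with 2 ≤ s ≤ m, each of which is a single Ω-class except that for m even the class with s = m and v ↦ f(v, tv) identically zero splits in two; in all 2⌊m/2⌋ + 1 classes if m is even and 2⌊m/2⌋ if m is odd. -/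
theorem result {F : Type*} [Field F] [Fintype F] [CharP F 2] {m : ℕ} (hm : 1 ≤ m) (h : Fintype.card F ≠ 2 ∨ m ≠ 2) : Nat.card {C : ConjClasses ↥(Cfsg.Omega F (Cfsg.quadFormPlus m F)) // ∃ g : ↥(Cfsg.Omega F (Cfsg.quadFormPlus m F)), ConjClasses.mk g = C ∧ orderOf g = 2} = 2 * (m / 2) + (if Even m then 1 else 0) := by
  classical
  have h2 : (2 : F) = 0 := CharTwo.two_eq_zero
  have hmem := OmegaClass.plus_mem_omega_iff m F h2 h
  obtain ⟨g₀, hg₀def⟩ : ∃ g₀ : ↥(Cfsg.isometryGroup F (Cfsg.quadFormPlus m F)), g₀ = OmegaClass.sw m F 1 := ⟨_, rfl⟩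
  have hg₀ : g₀ ∉ Cfsg.Omega F (Cfsg.quadFormPlus m F) := by
    rw [hmem, hg₀def, OmegaClass.sw_rank m F 1 hm]
    decide
  obtain ⟨t₀, ht₀def⟩ : ∃ t₀ : ↥(Cfsg.isometryGroup F (Cfsg.quadFormPlus m F)), t₀ = OmegaClass.al m F h2 (m / 2) := ⟨_, rfl⟩
  have ht₀rank : (((t₀ : GL (Fin m ⊕ Fin m) F) : Matrix (Fin m ⊕ Fin m) (Fin m ⊕ Fin m) F) - 1).rank = 2 * (m / 2) := by
    rw [ht₀def]
    exact OmegaClass.al_rank m F h2 (m / 2) (by omega)
  have ht₀mem : t₀ ∈ Cfsg.Omega F (Cfsg.quadFormPlus m F) := by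
    rw [hmem, ht₀rank]
    exact even_two_mul _
  have ht₀type : ∀ v, Cfsg.quadFormPlus m F (v + Matrix.mulVec ((t₀ : GL (Fin m ⊕ Fin m) F) : Matrix (Fin m ⊕ Fin m) (Fin m ⊕ Fin m) F) v) = 0 := by
    rw [ht₀def]
    exact OmegaClass.al_type m F h2 (m / 2)
  have ht₁mem : g₀ * t₀ * g₀⁻¹ ∈ Cfsg.Omega F (Cfsg.quadFormPlus m F) := Subgroup.Normal.conj_mem inferInstance t₀ ht₀mem g₀
  obtain ⟨R, hR⟩ : ∃ R : Fin (m / 2) ⊕ (Fin (m / 2) ⊕ Fin (if Even m then 1 else 0)) → ↥(Cfsg.Omega F (Cfsg.quadFormPlus m F)),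
      R = Sum.elim (fun i => ⟨OmegaClass.sw m F (2 * (i.val + 1)), (hmem _).mpr (by
          rw [OmegaClass.sw_rank m F _ (by have := i.2; omega)]
          exact even_two_mul _)⟩)
        (Sum.elim (fun j => ⟨OmegaClass.al m F h2 (j.val + 1), (hmem _).mpr (by
            rw [OmegaClass.al_rank m F h2 _ (by have := j.2; omega)]
            exact even_two_mul _)⟩)
          (fun _ => ⟨g₀ * t₀ * g₀⁻¹, ht₁mem⟩)) := ⟨_, rfl⟩
  have hRl : ∀ i, ((R (Sum.inl i) : ↥(Cfsg.Omega F (Cfsg.quadFormPlus m F))) : ↥(Cfsg.isometryGroup F (Cfsg.quadFormPlus m F))) = OmegaClass.sw m F (2 * (i.val + 1)) := by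
    intro i
    rw [hR]
    rfl
  have hRm : ∀ j, ((R (Sum.inr (Sum.inl j)) : ↥(Cfsg.Omega F (Cfsg.quadFormPlus m F))) : ↥(Cfsg.isometryGroup F (Cfsg.quadFormPlus m F))) = OmegaClass.al m F h2 (j.val + 1) := by
    intro j
    rw [hR]
    rfl
  have hRr : ∀ z, ((R (Sum.inr (Sum.inr z)) : ↥(Cfsg.Omega F (Cfsg.quadFormPlus m F))) : ↥(Cfsg.isometryGroup F (Cfsg.quadFormPlus m F))) = g₀ * t₀ * g₀⁻¹ := by
    intro z
    rw [hR]
    rfl
  have hzeven : ∀ z : Fin (if Even m then 1 else 0), Even m := by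
    intro z
    by_contra hne
    have := z.2
    simp [hne] at this
  have hrkR : ∀ x, (((((R x : ↥(Cfsg.Omega F (Cfsg.quadFormPlus m F))) : ↥(Cfsg.isometryGroup F (Cfsg.quadFormPlus m F))) : GL (Fin m ⊕ Fin m) F) : Matrix (Fin m ⊕ Fin m) (Fin m ⊕ Fin m) F) - 1).rank =
      Sum.elim (fun i : Fin (m / 2) => 2 * (i.val + 1))
        (Sum.elim (fun j : Fin (m / 2) => 2 * (j.val + 1))
          (fun _ : Fin (if Even m then 1 else 0) => 2 * (m / 2))) x := by
    rintro (i | j | z)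
    · rw [hRl]
      exact OmegaClass.sw_rank m F _ (by have := i.2; omega)
    · rw [hRm]
      exact OmegaClass.al_rank m F h2 _ (by have := j.2; omega)
    · rw [hRr, ← (OmegaClass.invariants_of_mul_conj _ t₀ g₀).1, ht₀rank]
      rfl
  have htyR : ∀ x, (∀ v, Cfsg.quadFormPlus m F (v + Matrix.mulVec ((((R x : ↥(Cfsg.Omega F (Cfsg.quadFormPlus m F))) : ↥(Cfsg.isometryGroup F (Cfsg.quadFormPlus m F))) : GL (Fin m ⊕ Fin m) F) : Matrix (Fin m ⊕ Fin m) (Fin m ⊕ Fin m) F) v) = 0) ↔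
      Sum.elim (fun _ : Fin (m / 2) => False)
        (fun _ : Fin (m / 2) ⊕ Fin (if Even m then 1 else 0) => True) x := by
    rintro (i | j | z)
    · rw [hRl]
      simp only [Sum.elim_inl, iff_false]
      exact OmegaClass.sw_type m F _ (by omega) (by have := i.2; omega)
    · rw [hRm]
      simp only [Sum.elim_inr, iff_true]
      exact OmegaClass.al_type m F h2 _
    · rw [hRr, ← (OmegaClass.invariants_of_mul_conj _ t₀ g₀).2]
      simp only [Sum.elim_inr, iff_true]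
      exact ht₀type
  have hordR : ∀ x, orderOf (R x) = 2 := by
    intro x
    rw [← Subgroup.orderOf_coe]
    rcases x with i | j | z
    · rw [hRl]
      exact OmegaClass.sw_order m F _ (by omega) (by have := i.2; omega)
    · rw [hRm]
      exact OmegaClass.al_order m F h2 _ (by omega) (by have := j.2; omega)
    · rw [hRr, OmegaClass.orderOf_mul_conj, ht₀def]
      obtain ⟨k, hk⟩ := hzeven z
      exact OmegaClass.al_order m F h2 _ (by omega) (by omega)
  have hsplit : ∀ j z, ¬ IsConj (R (Sum.inr (Sum.inl j))) (R (Sum.inr (Sum.inr z))) := by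
    intro j z hxy
    obtain ⟨c, hcΩ, hc⟩ := (OmegaClass.subgroup_isConj_iff _ _ _).mp hxy
    have hinv := (OmegaClass.invariants_of_mul_conj _ ((R (Sum.inr (Sum.inl j)) : ↥(Cfsg.Omega F (Cfsg.quadFormPlus m F))) : ↥(Cfsg.isometryGroup F (Cfsg.quadFormPlus m F))) c).1
    rw [hc, hrkR, hrkR] at hinv
    simp only [Sum.elim_inr, Sum.elim_inl] at hinv
    obtain ⟨k, hk⟩ := hzeven z
    have hj : j.val + 1 = m / 2 := by omega
    rw [hRm, hRr, hj, ← ht₀def] at hc
    have := (OmegaClass.plus_split m F h2 h (hzeven z) t₀ (by rw [ht₀rank]; omega) ht₀type c g₀ hc).mp hcΩ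
    exact hg₀ this
  have key := OrthInvClass.card_classes_of_reps R hordR ?_ ?_
  · rw [key]
    simp only [Fintype.card_sum, Fintype.card_fin]
    omega
  · intro x y hxy
    obtain ⟨c, hcΩ, hc⟩ := (OmegaClass.subgroup_isConj_iff _ _ _).mp hxy
    have hinv := OmegaClass.invariants_of_mul_conj _ ((R x : ↥(Cfsg.Omega F (Cfsg.quadFormPlus m F))) : ↥(Cfsg.isometryGroup F (Cfsg.quadFormPlus m F))) c
    rw [hc, hrkR, hrkR, htyR, htyR] at hinv
    obtain ⟨hi1, hi2⟩ := hinv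
    rcases x with i | j | z
    · rcases y with i' | y
      · simp only [Sum.elim_inl] at hi1
        congr 1
        apply Fin.ext
        omega
      · simp at hi2
    · rcases y with i' | j' | z'
      · simp at hi2
      · simp only [Sum.elim_inl, Sum.elim_inr] at hi1
        congr 2
        apply Fin.ext
        omega
      · exact absurd hxy (hsplit j z')
    · rcases y with i' | j' | z'
      · simp at hi2
      · exact absurd hxy.symm (hsplit j' z)
      · congr 2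
        apply Fin.ext
        have h1 : (if Even m then 1 else 0) ≤ 1 := by split_ifs <;> omega
        have := lt_of_lt_of_le z.2 h1
        have := lt_of_lt_of_le z'.2 h1
        omega
  · intro t ht
    have hordT : orderOf (t : ↥(Cfsg.isometryGroup F (Cfsg.quadFormPlus m F))) = 2 := by
      rw [Subgroup.orderOf_coe]
      exact ht
    have hev : Even ((((t : ↥(Cfsg.isometryGroup F (Cfsg.quadFormPlus m F))) : GL (Fin m ⊕ Fin m) F) : Matrix (Fin m ⊕ Fin m) (Fin m ⊕ Fin m) F) - 1).rank := (hmem _).mp t.2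
    by_cases hty : ∀ v, Cfsg.quadFormPlus m F (v + Matrix.mulVec (((t : ↥(Cfsg.isometryGroup F (Cfsg.quadFormPlus m F))) : GL (Fin m ⊕ Fin m) F) : Matrix (Fin m ⊕ Fin m) (Fin m ⊕ Fin m) F) v) = 0
    · obtain ⟨k, hk1, hk2, hrk, hconj⟩ := OmegaClass.plus_isConj_al m F h2 (t : ↥(Cfsg.isometryGroup F (Cfsg.quadFormPlus m F))) hordT hty
      have hkk : OmegaClass.al m F h2 k = OmegaClass.al m F h2 (k - 1 + 1) := by
        congr 1
        omega
      by_cases hsp : ((((t : ↥(Cfsg.isometryGroup F (Cfsg.quadFormPlus m F))) : GL (Fin m ⊕ Fin m) F) : Matrix (Fin m ⊕ Fin m) (Fin m ⊕ Fin m) F) - 1).rank = m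
      · have hmeven : Even m := ⟨k, by omega⟩
        obtain ⟨g, hg⟩ := isConj_iff.mp hconj
        have hal : OmegaClass.al m F h2 k = t₀ := by
          rw [ht₀def]
          congr 1
          omega
        by_cases hgΩ : g ∈ Cfsg.Omega F (Cfsg.quadFormPlus m F)
        · refine ⟨Sum.inr (Sum.inl ⟨k - 1, by omega⟩), ?_⟩
          rw [OmegaClass.subgroup_isConj_iff]
          refine ⟨g, hgΩ, ?_⟩
          rw [hg, hRm]
          exact hkk
        · refine ⟨Sum.inr (Sum.inr ⟨0, by simp [hmeven]⟩), ?_⟩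
          rw [OmegaClass.subgroup_isConj_iff]
          refine ⟨g₀ * g, OmegaClass.plus_mul_mem m F h2 h g₀ g hg₀ hgΩ, ?_⟩
          rw [hRr, ← hal, ← hg]
          group
      · have hnot : ¬ (((((t : ↥(Cfsg.isometryGroup F (Cfsg.quadFormPlus m F))) : GL (Fin m ⊕ Fin m) F) : Matrix (Fin m ⊕ Fin m) (Fin m ⊕ Fin m) F) - 1).rank = m ∧
            ∀ v, Cfsg.quadFormPlus m F (v + Matrix.mulVec (((t : ↥(Cfsg.isometryGroup F (Cfsg.quadFormPlus m F))) : GL (Fin m ⊕ Fin m) F) : Matrix (Fin m ⊕ Fin m) (Fin m ⊕ Fin m) F) v) = 0) := fun hh => hsp hh.1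
        obtain ⟨g, hgΩ, hg⟩ := OmegaClass.plus_conj_nonsplit m F h2 h (t : ↥(Cfsg.isometryGroup F (Cfsg.quadFormPlus m F))) _ hordT hconj hnot
        refine ⟨Sum.inr (Sum.inl ⟨k - 1, by omega⟩), ?_⟩
        rw [OmegaClass.subgroup_isConj_iff]
        refine ⟨g, hgΩ, ?_⟩
        rw [hg, hRm]
        exact hkk
    · obtain ⟨hs1, hsm, hconj⟩ := OmegaClass.plus_isConj_sw m F h2 (t : ↥(Cfsg.isometryGroup F (Cfsg.quadFormPlus m F))) hordT hty
      obtain ⟨k, hk⟩ := hev
      have hnot : ¬ (((((t : ↥(Cfsg.isometryGroup F (Cfsg.quadFormPlus m F))) : GL (Fin m ⊕ Fin m) F) : Matrix (Fin m ⊕ Fin m) (Fin m ⊕ Fin m) F) - 1).rank = m ∧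
          ∀ v, Cfsg.quadFormPlus m F (v + Matrix.mulVec (((t : ↥(Cfsg.isometryGroup F (Cfsg.quadFormPlus m F))) : GL (Fin m ⊕ Fin m) F) : Matrix (Fin m ⊕ Fin m) (Fin m ⊕ Fin m) F) v) = 0) := fun hh => hty hh.2
      obtain ⟨g, hgΩ, hg⟩ := OmegaClass.plus_conj_nonsplit m F h2 h (t : ↥(Cfsg.isometryGroup F (Cfsg.quadFormPlus m F))) _ hordT hconj hnot
      refine ⟨Sum.inl ⟨k - 1, by omega⟩, ?_⟩
      rw [OmegaClass.subgroup_isConj_iff]
      refine ⟨g, hgΩ, ?_⟩
      rw [hg, hRl]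
      congr 1
      simp only
      omega

end Cfsg.Agent.S2597
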