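import Mathlib
import Cfsg.Statements.S2598
import Cfsg.Agent.Lib.Helper8.OmegaMinus
-- import your own Cfsg.Agent.* helpers here

set_option autoImplicit false
open Cfsg

namespace Cfsg.Agent.S2598

open Cfsg.Agent.Lib.Helper8

/-- Number of conjugacy classes of involutions in Ω⁻_2m(F) (the commutator subgroup of the orthogonal group of an elliptic quadratic form, Σ_(i<m−1) x_i y_i plus an anisotropic binary form) over a finite field F of characteristic two, m ≥ 1: the involutions of Ω are those with s = rank(t − 1) even, one O-class for each even s with 2 ≤ s ≤ m on which v ↦ f(v, tv) is not identically zero and one for each even s with 2 ≤ s < m on which it is zero (f the polar form; in characteristic 2, f(v, tv) = Q(v + tv)), none of which splits in Ω; in all ⌊m/2⌋ + ⌊(m − 1)/2⌋. -/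
theorem result {F : Type*} [Field F] [Fintype F] [CharP F 2] {m : ℕ} (hm : 1 ≤ m) (a b : F) (hab : ∀ z₁ z₂ : F, z₁ ^ 2 + a * z₁ * z₂ + b * z₂ ^ 2 = 0 → z₁ = 0 ∧ z₂ = 0) : Nat.card {C : ConjClasses ↥(Cfsg.Omega F (Cfsg.quadFormMinus (m - 1) F a b)) // ∃ g : ↥(Cfsg.Omega F (Cfsg.quadFormMinus (m - 1) F a b)), ConjClasses.mk g = C ∧ orderOf g = 2} = m / 2 + (m - 1) / 2 := by
  classical
  have h2 : (2 : F) = 0 := CharTwo.two_eq_zero
  have ha : a ≠ 0 := Cfsg.Agent.Lib.Helper44.minus_coeff_ne_zero_char2 F h2 a b hab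
  have hmem := OmegaMinus.minus_mem_omega_iff (m - 1) F h2 a b hab
  obtain ⟨R, hR⟩ : ∃ R : Fin (m / 2) ⊕ Fin ((m - 1) / 2) → ↥(Cfsg.Omega F (Cfsg.quadFormMinus (m - 1) F a b)),
      R = Sum.elim (fun i => ⟨OmegaMinus.mns (m - 1) F h2 a b (2 * i.val + 1), (hmem _).mpr (by
          rw [OmegaMinus.mns_rank (m - 1) F h2 a b ha _ (by have := i.2; omega)]
          exact ⟨i.val + 1, by omega⟩)⟩)
        (fun j => ⟨OmegaMinus.mal (m - 1) F h2 a b (j.val + 1), (hmem _).mpr (by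
            rw [OmegaMinus.mal_rank (m - 1) F h2 a b _ (by have := j.2; omega)]
            exact even_two_mul _)⟩) := ⟨_, rfl⟩
  have hRl : ∀ i, ((R (Sum.inl i) : ↥(Cfsg.Omega F (Cfsg.quadFormMinus (m - 1) F a b))) : ↥(Cfsg.isometryGroup F (Cfsg.quadFormMinus (m - 1) F a b))) = OmegaMinus.mns (m - 1) F h2 a b (2 * i.val + 1) := by
    intro i
    rw [hR]
    rfl
  have hRr : ∀ j, ((R (Sum.inr j) : ↥(Cfsg.Omega F (Cfsg.quadFormMinus (m - 1) F a b))) : ↥(Cfsg.isometryGroup F (Cfsg.quadFormMinus (m - 1) F a b))) = OmegaMinus.mal (m - 1) F h2 a b (j.val + 1) := by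
    intro j
    rw [hR]
    rfl
  have hrkR : ∀ x, (((((R x : ↥(Cfsg.Omega F (Cfsg.quadFormMinus (m - 1) F a b))) : ↥(Cfsg.isometryGroup F (Cfsg.quadFormMinus (m - 1) F a b))) : GL ((Fin (m - 1) ⊕ Fin (m - 1)) ⊕ Fin 2) F) : Matrix ((Fin (m - 1) ⊕ Fin (m - 1)) ⊕ Fin 2) ((Fin (m - 1) ⊕ Fin (m - 1)) ⊕ Fin 2) F) - 1).rank =
      Sum.elim (fun i : Fin (m / 2) => 2 * i.val + 1 + 1)
        (fun j : Fin ((m - 1) / 2) => 2 * (j.val + 1)) x := by
    rintro (i | j)
    · rw [hRl]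
      exact OmegaMinus.mns_rank (m - 1) F h2 a b ha _ (by have := i.2; omega)
    · rw [hRr]
      exact OmegaMinus.mal_rank (m - 1) F h2 a b _ (by have := j.2; omega)
  have htyR : ∀ x, (∀ v, Cfsg.quadFormMinus (m - 1) F a b (v + Matrix.mulVec ((((R x : ↥(Cfsg.Omega F (Cfsg.quadFormMinus (m - 1) F a b))) : ↥(Cfsg.isometryGroup F (Cfsg.quadFormMinus (m - 1) F a b))) : GL ((Fin (m - 1) ⊕ Fin (m - 1)) ⊕ Fin 2) F) : Matrix ((Fin (m - 1) ⊕ Fin (m - 1)) ⊕ Fin 2) ((Fin (m - 1) ⊕ Fin (m - 1)) ⊕ Fin 2) F) v) = 0) ↔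
      Sum.elim (fun _ : Fin (m / 2) => False) (fun _ : Fin ((m - 1) / 2) => True) x := by
    rintro (i | j)
    · rw [hRl]
      simp only [Sum.elim_inl, iff_false]
      exact OmegaMinus.mns_type (m - 1) F h2 a b ha _
    · rw [hRr]
      simp only [Sum.elim_inr, iff_true]
      exact OmegaMinus.mal_type (m - 1) F h2 a b _
  have hordR : ∀ x, orderOf (R x) = 2 := by
    intro x
    rw [← Subgroup.orderOf_coe]
    rcases x with i | j
    · rw [hRl]
      exact OmegaMinus.mns_order (m - 1) F h2 a b ha _ (by have := i.2; omega)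
    · rw [hRr]
      exact OmegaMinus.mal_order (m - 1) F h2 a b _ (by omega) (by have := j.2; omega)
  have key := OrthInvClass.card_classes_of_reps R hordR ?_ ?_
  · rw [key]
    simp only [Fintype.card_sum, Fintype.card_fin]
  · intro x y hxy
    obtain ⟨c, hcΩ, hc⟩ := (OmegaClass.subgroup_isConj_iff _ _ _).mp hxy
    have hinv := OmegaClass.invariants_of_mul_conj _ ((R x : ↥(Cfsg.Omega F (Cfsg.quadFormMinus (m - 1) F a b))) : ↥(Cfsg.isometryGroup F (Cfsg.quadFormMinus (m - 1) F a b))) c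
    rw [hc, hrkR, hrkR, htyR, htyR] at hinv
    obtain ⟨hi1, hi2⟩ := hinv
    rcases x with i | j
    · rcases y with i' | j'
      · simp only [Sum.elim_inl] at hi1
        congr 1
        apply Fin.ext
        omega
      · simp at hi2
    · rcases y with i' | j'
      · simp at hi2
      · simp only [Sum.elim_inr] at hi1
        congr 1
        apply Fin.ext
        omega
  · intro t ht
    have hordT : orderOf (t : ↥(Cfsg.isometryGroup F (Cfsg.quadFormMinus (m - 1) F a b))) = 2 := by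
      rw [Subgroup.orderOf_coe]
      exact ht
    have hev : Even ((((t : ↥(Cfsg.isometryGroup F (Cfsg.quadFormMinus (m - 1) F a b))) : GL ((Fin (m - 1) ⊕ Fin (m - 1)) ⊕ Fin 2) F) : Matrix ((Fin (m - 1) ⊕ Fin (m - 1)) ⊕ Fin 2) ((Fin (m - 1) ⊕ Fin (m - 1)) ⊕ Fin 2) F) - 1).rank := (hmem _).mp t.2
    by_cases hty : ∀ v, Cfsg.quadFormMinus (m - 1) F a b (v + Matrix.mulVec (((t : ↥(Cfsg.isometryGroup F (Cfsg.quadFormMinus (m - 1) F a b))) : GL ((Fin (m - 1) ⊕ Fin (m - 1)) ⊕ Fin 2) F) : Matrix ((Fin (m - 1) ⊕ Fin (m - 1)) ⊕ Fin 2) ((Fin (m - 1) ⊕ Fin (m - 1)) ⊕ Fin 2) F) v) = 0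
    · obtain ⟨k, hk1, hk2, hrk, hconj⟩ := OmegaMinus.minus_isConj_al (m - 1) F h2 a b hab (t : ↥(Cfsg.isometryGroup F (Cfsg.quadFormMinus (m - 1) F a b))) hordT hty
      have hkk : OmegaMinus.mal (m - 1) F h2 a b k = OmegaMinus.mal (m - 1) F h2 a b (k - 1 + 1) := by
        congr 1
        omega
      obtain ⟨g, hgΩ, hg⟩ := OmegaMinus.minus_conj (m - 1) F h2 a b hab (t : ↥(Cfsg.isometryGroup F (Cfsg.quadFormMinus (m - 1) F a b))) _ hordT hconj
      refine ⟨Sum.inr ⟨k - 1, by omega⟩, ?_⟩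
      rw [OmegaClass.subgroup_isConj_iff]
      refine ⟨g, hgΩ, ?_⟩
      rw [hg, hRr]
      exact hkk
    · obtain ⟨hs1, hsm, hconj⟩ := OmegaMinus.minus_isConj_ns (m - 1) F h2 a b hab (t : ↥(Cfsg.isometryGroup F (Cfsg.quadFormMinus (m - 1) F a b))) hordT hty
      obtain ⟨k, hk⟩ := hev
      obtain ⟨g, hgΩ, hg⟩ := OmegaMinus.minus_conj (m - 1) F h2 a b hab (t : ↥(Cfsg.isometryGroup F (Cfsg.quadFormMinus (m - 1) F a b))) _ hordT hconj
      refine ⟨Sum.inl ⟨k - 1, by omega⟩, ?_⟩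
      rw [OmegaClass.subgroup_isConj_iff]
      refine ⟨g, hgΩ, ?_⟩
      rw [hg, hRl]
      congr 1
      simp only
      omega

end Cfsg.Agent.S2598
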