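import Cfsg.Statements.S2599

set_option autoImplicit false
open Cfsg

namespace Cfsg.Agent.S2599

/-- An irreducible invariant subspace of a semisimple isometry is non-degenerate or totally singular: let Q be a quadratic form on F^n (F finite of characteristic p) with non-degenerate polar form f, x an isometry of Q of order prime to p, and U a non-zero x-invariant subspace containing no x-invariant subspace other than 0 and U. Then U meets its f-orthogonal trivially, or Q vanishes on U, or p = 2, U is a line spanned by a non-singular vector and x fixes U pointwise. -/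
theorem result {F : Type*} [Field F] [Fintype F] {p : ℕ} [Fact p.Prime] [CharP F p] {n : ℕ} (Q : QuadraticForm F (Fin n → F)) (hQ : (QuadraticMap.polarBilin Q).Nondegenerate) (x : ↥(Cfsg.isometryGroup F ⇑Q)) (hx : (orderOf x).Coprime p) (U : Submodule F (Fin n → F)) (hU0 : U ≠ ⊥) (hUx : ∀ u ∈ U, ((x : Matrix.GeneralLinearGroup (Fin n) F) : Matrix (Fin n) (Fin n) F).mulVec u ∈ U) (hirr : ∀ W : Submodule F (Fin n → F), W ≤ U → (∀ w ∈ W, ((x : Matrix.GeneralLinearGroup (Fin n) F) : Matrix (Fin n) (Fin n) F).mulVec w ∈ W) → W = ⊥ ∨ W = U) : U ⊓ LinearMap.BilinForm.orthogonal (QuadraticMap.polarBilin Q) U = ⊥ ∨ (∀ u ∈ U, Q u = 0) ∨ (p = 2 ∧ Module.finrank F U = 1 ∧ (∃ u ∈ U, Q u ≠ 0) ∧ ∀ u ∈ U, ((x : Matrix.GeneralLinearGroup (Fin n) F) : Matrix (Fin n) (Fin n) F).mulVec u = u) := by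
  classical
  set X : Matrix (Fin n) (Fin n) F := ((x : Matrix.GeneralLinearGroup (Fin n) F) : Matrix (Fin n) (Fin n) F) with hX
  have hXQ : ∀ v, Q (X.mulVec v) = Q v := fun v => x.2 v v
  set B := QuadraticMap.polarBilin Q with hB
  have hBdef : ∀ u v, B u v = Q (u + v) - Q u - Q v := fun u v => rfl
  have hXB : ∀ u v, B (X.mulVec u) (X.mulVec v) = B u v := by
    intro u v
    rw [hBdef, hBdef, ← Matrix.mulVec_add, hXQ, hXQ, hXQ]
  -- X is injective
  have hXinj : Function.Injective X.mulVec :=
    Matrix.mulVec_injective_iff_isUnit.mpr (Units.isUnit _)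
  -- restriction to U is surjective
  let T : (Fin n → F) →ₗ[F] (Fin n → F) := Matrix.mulVecLin X
  let TU : U →ₗ[F] U := T.restrict hUx
  have hTUinj : Function.Injective TU := by
    intro a b hab
    have := congrArg Subtype.val hab
    exact Subtype.ext (hXinj this)
  have hTUsurj : Function.Surjective TU := LinearMap.injective_iff_surjective.mp hTUinj
  have hsurj : ∀ u ∈ U, ∃ u' ∈ U, X.mulVec u' = u := by
    intro u hu
    obtain ⟨u', hu'⟩ := hTUsurj ⟨u, hu⟩
    exact ⟨u'.1, u'.2, congrArg Subtype.val hu'⟩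
  -- Step 1
  have h1 := hirr (U ⊓ LinearMap.BilinForm.orthogonal B U) inf_le_left (by
    intro w hw
    refine ⟨hUx w hw.1, LinearMap.BilinForm.mem_orthogonal_iff.mpr ?_⟩
    intro u hu
    obtain ⟨u', hu', rfl⟩ := hsurj u hu
    show B (X.mulVec u') (X.mulVec w) = 0
    rw [hXB]
    exact (LinearMap.BilinForm.mem_orthogonal_iff.mp hw.2) u' hu')
  rcases h1 with h1 | h1
  · left; exact h1
  right
  have hiso : ∀ u ∈ U, ∀ v ∈ U, B u v = 0 := by
    intro u hu v hv
    have : v ∈ U ⊓ LinearMap.BilinForm.orthogonal B U := by rw [h1]; exact hv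
    exact (LinearMap.BilinForm.mem_orthogonal_iff.mp this.2) u hu
  have hQadd : ∀ u ∈ U, ∀ v ∈ U, Q (u + v) = Q u + Q v := by
    intro u hu v hv
    have := hiso u hu v hv
    rw [hBdef] at this
    linear_combination this
  -- Step 2
  let W2 : Submodule F (Fin n → F) :=
    { carrier := {u | u ∈ U ∧ Q u = 0}
      add_mem' := by
        rintro a b ⟨ha, ha0⟩ ⟨hb, hb0⟩
        exact ⟨U.add_mem ha hb, by rw [hQadd a ha b hb, ha0, hb0, add_zero]⟩
      zero_mem' := ⟨U.zero_mem, by simp⟩
      smul_mem' := by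
        rintro c a ⟨ha, ha0⟩
        exact ⟨U.smul_mem c ha, by rw [QuadraticMap.map_smul, ha0, smul_zero]⟩ }
  have h2 := hirr W2 (fun u hu => hu.1) (by
    rintro w ⟨hw, hw0⟩
    exact ⟨hUx w hw, by rw [hXQ, hw0]⟩)
  rcases h2 with h2 | h2
  swap
  · left
    intro u hu
    have : u ∈ W2 := by rw [h2]; exact hu
    exact this.2
  right
  have hQ0 : ∀ u ∈ U, Q u = 0 → u = 0 := by
    intro u hu hu0
    have : u ∈ W2 := ⟨hu, hu0⟩
    rw [h2] at this
    exact (Submodule.mem_bot F).mp this
  obtain ⟨u0, hu0U, hu0⟩ := (Submodule.ne_bot_iff U).mp hU0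
  have hQu0 : Q u0 ≠ 0 := fun h => hu0 (hQ0 u0 hu0U h)
  -- Step 3: characteristic 2
  have h2Q : ∀ u ∈ U, (2 : F) * Q u = 0 := by
    intro u hu
    have h := hiso u hu u hu
    rw [hBdef] at h
    have h4 : Q (u + u) = 4 * Q u := by
      have : u + u = (2 : F) • u := by rw [two_smul]
      rw [this, QuadraticMap.map_smul, smul_eq_mul]; ring
    rw [h4] at h
    linear_combination h
  have h2F : (2 : F) = 0 := by
    have := h2Q u0 hu0U
    rcases mul_eq_zero.mp this with h | h
    · exact h
    · exact absurd h hQu0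
  have hp2 : p = 2 := by
    have : ((2 : ℕ) : F) = 0 := by exact_mod_cast h2F
    have hdvd := (CharP.cast_eq_zero_iff F p 2).mp this
    exact (Nat.prime_dvd_prime_iff_eq (Fact.out) Nat.prime_two).mp hdvd
  have hchar : ringChar F = 2 := by
    rw [← hp2]
    exact ringChar.eq F p
  have hneg : ∀ a : F, -a = a := by
    intro a
    have : a + a = 0 := by linear_combination a * h2F
    linear_combination -this
  -- Step 4: every element of U is a multiple of u0
  have hmult : ∀ v ∈ U, ∃ c : F, c • u0 = v := by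
    intro v hv
    obtain ⟨c, hc⟩ := FiniteField.isSquare_of_char_two hchar (Q v / Q u0)
    refine ⟨c, ?_⟩
    have hmem : v + c • u0 ∈ U := U.add_mem hv (U.smul_mem c hu0U)
    have hq : Q (v + c • u0) = 0 := by
      rw [hQadd v hv _ (U.smul_mem c hu0U), QuadraticMap.map_smul, smul_eq_mul, ← hc]
      field_simp
      linear_combination Q v * h2F
    have := hQ0 _ hmem hq
    have h3 : c • u0 = - v := by
      rw [eq_neg_iff_add_eq_zero, add_comm]; exact this
    rw [h3]
    ext i
    simp [hneg]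
  refine ⟨hp2, ?_, ⟨u0, hu0U, hQu0⟩, ?_⟩
  · rw [finrank_eq_one_iff']
    refine ⟨⟨u0, hu0U⟩, ?_, ?_⟩
    · intro h
      exact hu0 (congrArg Subtype.val h)
    · intro w
      obtain ⟨c, hc⟩ := hmult w.1 w.2
      exact ⟨c, Subtype.ext hc⟩
  · -- X fixes u0
    obtain ⟨c, hc⟩ := hmult (X.mulVec u0) (hUx u0 hu0U)
    have hc2 : c * c = 1 := by
      have := hXQ u0
      rw [← hc, QuadraticMap.map_smul, smul_eq_mul] at this
      have h5 : (c * c - 1) * Q u0 = 0 := by linear_combination this
      rcases mul_eq_zero.mp h5 with h | h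
      · linear_combination h
      · exact absurd h hQu0
    have hc1 : c = 1 := by
      have : (c - 1) * (c - 1) = 0 := by linear_combination hc2 - c * h2F + h2F
      have := mul_self_eq_zero.mp this
      linear_combination this
    rw [hc1, one_smul] at hc
    intro u hu
    obtain ⟨d, rfl⟩ := hmult u hu
    rw [Matrix.mulVec_smul, ← hc]

end Cfsg.Agent.S2599
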