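import Cfsg.Statements.S2612
import Mathlib
import Cfsg.Agent.Lib.Helper14.SwapOmega

set_option autoImplicit false
open Cfsg

namespace Cfsg.Agent.S2612

/-- For the hyperbolic quadratic form Σ x_i y_i on F^(2m) (F finite, m ≥ 1, excluding m = 2 over the field of two elements), Ω⁺_2m(F) (the commutator subgroup of the orthogonal group) contains an element interchanging the two complementary maximal totally singular subspaces {y = 0} and {x = 0} if and only if m is even (dimension divisible by 4). -/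
theorem result {F : Type*} [Field F] [Fintype F] {m : ℕ} (hm : 1 ≤ m) (h : Fintype.card F ≠ 2 ∨ m ≠ 2) : (∃ g : ↥(Cfsg.isometryGroup F (Cfsg.quadFormPlus m F)), g ∈ Cfsg.Omega F (Cfsg.quadFormPlus m F) ∧ (∀ v : Fin m ⊕ Fin m → F, (∀ i, v (Sum.inr i) = 0) → ∀ i, (((g : Matrix.GeneralLinearGroup (Fin m ⊕ Fin m) F) : Matrix (Fin m ⊕ Fin m) (Fin m ⊕ Fin m) F).mulVec v) (Sum.inl i) = 0) ∧ (∀ v : Fin m ⊕ Fin m → F, (∀ i, v (Sum.inl i) = 0) → ∀ i, (((g : Matrix.GeneralLinearGroup (Fin m ⊕ Fin m) F) : Matrix (Fin m ⊕ Fin m) (Fin m ⊕ Fin m) F).mulVec v) (Sum.inr i) = 0)) ↔ Even m := by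
  constructor
  · rintro ⟨g, hg, h1, h2⟩
    have hpar := Cfsg.Agent.Lib.Helper14.plus_parity_of_mem_omega m F _
      (Cfsg.Agent.Lib.Helper14.plusQF_coe m F) g hg
    have hbot : Cfsg.Agent.Lib.Helper14.stdE m F ⊓ (Cfsg.Agent.Lib.Helper14.stdE m F).map
        (Matrix.mulVecLin ((g : Matrix.GeneralLinearGroup (Fin m ⊕ Fin m) F) :
          Matrix (Fin m ⊕ Fin m) (Fin m ⊕ Fin m) F)) = ⊥ := by
      rw [eq_bot_iff]
      rintro v ⟨hv1, hv2⟩
      rw [← Cfsg.Agent.Lib.Helper14.stdE_inf_stdE' (m := m) F]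
      refine ⟨hv1, ?_⟩
      obtain ⟨u, hu, rfl⟩ := hv2
      refine Cfsg.Agent.Lib.Helper14.mem_stdE'.mpr ?_
      intro i
      exact h1 u (Cfsg.Agent.Lib.Helper14.mem_stdE.mp hu) i
    rw [hbot, finrank_bot, Nat.sub_zero] at hpar
    exact hpar
  · intro hm2
    obtain ⟨g, hg, hgv⟩ := Cfsg.Agent.Lib.Helper14.exists_swap_mem_omega m F hm2
    refine ⟨g, hg, ?_, ?_⟩
    · intro v hv i
      rw [hgv v]
      exact hv i
    · intro v hv i
      rw [hgv v]
      exact hv i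

end Cfsg.Agent.S2612
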