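import Cfsg.Statements.S2616
import Cfsg.Agent.Lib.Helper99.Quad

set_option autoImplicit false
open Cfsg

namespace Cfsg.Agent.S2616

open Module QuadraticMap Cfsg.Agent.Lib.Helper99

/-- Standard bases of a non-degenerate quadratic space of even dimension 2m over a finite field: either there is a hyperbolic basis e_i, f_i (Q(e_i) = Q(f_i) = 0, B(e_i, f_j) = δ_ij, the e's pairwise orthogonal and the f's pairwise orthogonal, B the polar form), or there is an elliptic basis: hyperbolic pairs e_i, f_i for i < m − 1 together with x, y orthogonal to them with Q(x) = 1, B(x, y) = 1, Q(y) = ζ where t² + t + ζ has no root in the field. -/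
theorem result {F V : Type*} [Field F] [Finite F] [AddCommGroup V] [Module F V] [FiniteDimensional F V] {m : ℕ} (hm : 1 ≤ m) (hV : Module.finrank F V = 2 * m) (Q : QuadraticForm F V) (hQ : (QuadraticMap.polarBilin Q).Nondegenerate) : (∃ b : Module.Basis (Fin m ⊕ Fin m) F V, (∀ i, Q (b (Sum.inl i)) = 0 ∧ Q (b (Sum.inr i)) = 0) ∧ (∀ i j, QuadraticMap.polar ⇑Q (b (Sum.inl i)) (b (Sum.inr j)) = if i = j then 1 else 0) ∧ (∀ i j, QuadraticMap.polar ⇑Q (b (Sum.inl i)) (b (Sum.inl j)) = 0 ∧ QuadraticMap.polar ⇑Q (b (Sum.inr i)) (b (Sum.inr j)) = 0)) ∨ (∃ (b : Module.Basis ((Fin (m - 1) ⊕ Fin (m - 1)) ⊕ Fin 2) F V) (ζ : F), (∀ t : F, t ^ 2 + t + ζ ≠ 0) ∧ (∀ i, Q (b (Sum.inl (Sum.inl i))) = 0 ∧ Q (b (Sum.inl (Sum.inr i))) = 0) ∧ (∀ i j, QuadraticMap.polar ⇑Q (b (Sum.inl (Sum.inl i))) (b (Sum.inl (Sum.inr j))) = if i = j then 1 else 0) ∧ (∀ i j, QuadraticMap.polar ⇑Q (b (Sum.inl (Sum.inl i))) (b (Sum.inl (Sum.inl j))) = 0 ∧ QuadraticMap.polar ⇑Q (b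 (Sum.inl (Sum.inr i))) (b (Sum.inl (Sum.inr j))) = 0) ∧ (∀ i (k : Fin 2), QuadraticMap.polar ⇑Q (b (Sum.inl (Sum.inl i))) (b (Sum.inr k)) = 0 ∧ QuadraticMap.polar ⇑Q (b (Sum.inl (Sum.inr i))) (b (Sum.inr k)) = 0) ∧ Q (b (Sum.inr 0)) = 1 ∧ QuadraticMap.polar ⇑Q (b (Sum.inr 0)) (b (Sum.inr 1)) = 1 ∧ Q (b (Sum.inr 1)) = ζ) := by
  cases nonempty_fintype F
  obtain ⟨k, e, f, hH, h | h | h⟩ := witt Q hQ
  · obtain ⟨b, hb1, hb2⟩ := h
    have h1 := Module.finrank_eq_card_basis b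
    simp only [Fintype.card_sum, Fintype.card_fin] at h1
    obtain rfl : k = m := by omega
    left
    refine ⟨b, ?_, ?_, ?_⟩
    · intro i
      rw [hb1, hb2]
      exact hH.1 i
    · intro i j
      rw [hb1, hb2]
      exact hH.2.1 i j
    · intro i j
      rw [hb1, hb1, hb2, hb2]
      exact hH.2.2 i j
  · obtain ⟨x, b, -⟩ := h
    have h1 := Module.finrank_eq_card_basis b
    simp only [Fintype.card_sum, Fintype.card_fin, Fintype.card_unit] at h1
    omega
  · obtain ⟨x, y, b, hQx, hxy, ht, hx, hy, hb1, hb2, hb3, hb4⟩ := h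
    have h1 := Module.finrank_eq_card_basis b
    simp only [Fintype.card_sum, Fintype.card_fin] at h1
    obtain rfl : k = m - 1 := by omega
    right
    refine ⟨b, Q y, ht, ?_, ?_, ?_, ?_, ?_, ?_, ?_⟩
    · intro i
      rw [hb1, hb2]
      exact hH.1 i
    · intro i j
      rw [hb1, hb2]
      exact hH.2.1 i j
    · intro i j
      rw [hb1, hb1, hb2, hb2]
      exact hH.2.2 i j
    · intro i j
      rw [hb1, hb2]
      have hj : j = 0 ∨ j = 1 := by
        fin_cases j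
        · exact Or.inl rfl
        · exact Or.inr rfl
      rcases hj with rfl | rfl
      · rw [hb3, polar_comm Q (e i) x, polar_comm Q (f i) x]
        exact hx i
      · rw [hb4, polar_comm Q (e i) y, polar_comm Q (f i) y]
        exact hy i
    · rw [hb3]; exact hQx
    · rw [hb3, hb4]; exact hxy
    · rw [hb4]

end Cfsg.Agent.S2616
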