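import Cfsg.Statements.S2617
import Cfsg.Agent.Lib.Helper44.Gram

set_option autoImplicit false
open Cfsg

namespace Cfsg.Agent.S2617

theorem aux {F : Type*} [Field F] {m k : ℕ} (hkm : k < m) (ζ : F)
    (hζ : ∀ t : F, t ^ 2 + t + ζ ≠ 0)
    (g : (Fin m ⊕ Fin m → F) ≃ₗ[F] ((Fin k ⊕ Fin k) ⊕ Fin 2 → F)) :
    ¬ (∀ v : Fin m ⊕ Fin m → F, Cfsg.quadFormMinus k F 1 ζ (g v) = Cfsg.quadFormPlus m F v) := by
  classical
  intro hiso
  let Bp := Lib.Helper44.plusPolar m F
  have hBp : ∀ u v, Bp u v = QuadraticMap.polar (Cfsg.quadFormPlus m F) u v :=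
    fun u v => (Lib.Helper44.polar_quadFormPlus m F u v).symm
  have hBp_single : ∀ (i : Fin m) (v : Fin m ⊕ Fin m → F),
      Bp (Pi.single (Sum.inl i) 1) v = v (Sum.inr i) := by
    intro i v
    simp [Bp, Lib.Helper44.plusPolar, Lib.Helper44.swapBlocks, Matrix.toBilin'_apply',
      Matrix.mulVec, dotProduct, Fintype.sum_sum_type, Matrix.one_apply, Pi.single_apply]
  have hpol : ∀ u v, QuadraticMap.polar (Cfsg.quadFormMinus k F 1 ζ) (g u) (g v) = Bp u v := by
    intro u v
    rw [hBp]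
    simp only [QuadraticMap.polar]
    rw [← map_add, hiso, hiso, hiso]
  have hBm_single : ∀ (i : Fin k) (w : (Fin k ⊕ Fin k) ⊕ Fin 2 → F),
      QuadraticMap.polar (Cfsg.quadFormMinus k F 1 ζ) (Pi.single (Sum.inl (Sum.inl i)) 1) w
        = w (Sum.inl (Sum.inr i)) := by
    intro i w
    rw [Lib.Helper44.polar_quadFormMinus]
    simp [Lib.Helper44.minusPolar, Lib.Helper44.minusGram, Lib.Helper44.swapBlocks,
      Matrix.toBilin'_apply', Matrix.mulVec, dotProduct, Fintype.sum_sum_type, Matrix.one_apply,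
      Pi.single_apply]
  let U₀ : Submodule F (Fin m ⊕ Fin m → F) :=
    LinearMap.ker (LinearMap.funLeft F F (Sum.inr : Fin m → Fin m ⊕ Fin m))
  have hU₀ : ∀ v, v ∈ U₀ ↔ ∀ i, v (Sum.inr i) = 0 := by
    intro v
    simp [U₀, LinearMap.mem_ker, funext_iff, LinearMap.funLeft_apply]
  let P : Submodule F ((Fin k ⊕ Fin k) ⊕ Fin 2 → F) :=
    LinearMap.ker (LinearMap.funLeft F F
      (Sum.elim (Sum.inl ∘ Sum.inr) Sum.inr : Fin k ⊕ Fin 2 → (Fin k ⊕ Fin k) ⊕ Fin 2))
  have hP : ∀ w, w ∈ P ↔ (∀ i, w (Sum.inl (Sum.inr i)) = 0) ∧ ∀ j, w (Sum.inr j) = 0 := by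
    intro w
    simp [P, LinearMap.mem_ker, funext_iff, LinearMap.funLeft_apply]
  let P' : Submodule F (Fin m ⊕ Fin m → F) := P.comap (g : (Fin m ⊕ Fin m → F) →ₗ[F] _)
  have hP' : ∀ v, v ∈ P' ↔ g v ∈ P := fun v => Iff.rfl
  have hdU : Module.finrank F U₀ ≤ m := by
    have h := LinearMap.finrank_le_finrank_of_injective
      (f := (LinearMap.funLeft F F (Sum.inl : Fin m → Fin m ⊕ Fin m)).comp U₀.subtype) (by
        rintro ⟨u, hu⟩ ⟨v, hv⟩ h
        rw [hU₀] at hu hv
        apply Subtype.ext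
        funext x
        rcases x with i | i
        · exact congrFun h i
        · show u (Sum.inr i) = v (Sum.inr i)
          rw [hu i, hv i])
    simpa using h
  have hdP' : Module.finrank F P' ≤ k := by
    have h := LinearMap.finrank_le_finrank_of_injective
      (f := ((LinearMap.funLeft F F
        (Sum.inl ∘ Sum.inl : Fin k → (Fin k ⊕ Fin k) ⊕ Fin 2)).comp
          (g : (Fin m ⊕ Fin m → F) →ₗ[F] _)).comp P'.subtype) (by
        rintro ⟨u, hu⟩ ⟨v, hv⟩ h
        rw [hP', hP] at hu hv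
        apply Subtype.ext
        apply g.injective
        funext x
        rcases x with (i | i) | j
        · exact congrFun h i
        · show g u (Sum.inl (Sum.inr i)) = g v (Sum.inl (Sum.inr i))
          rw [hu.1 i, hv.1 i]
        · show g u (Sum.inr j) = g v (Sum.inr j)
          rw [hu.2 j, hv.2 j])
    simpa using h
  have hincl : Bp.orthogonal (U₀ ⊔ P') ≤ U₀ ⊓ P' := by
    intro v hv
    rw [LinearMap.BilinForm.mem_orthogonal_iff] at hv
    have hvU : v ∈ U₀ := by
      rw [hU₀]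
      intro i
      rw [← hBp_single i v]
      apply hv
      apply Submodule.mem_sup_left
      rw [hU₀]
      intro j
      simp
    refine ⟨hvU, ?_⟩
    show g v ∈ P
    rw [hP]
    have h1 : ∀ i, (g v) (Sum.inl (Sum.inr i)) = 0 := by
      intro i
      rw [← hBm_single i (g v)]
      have h2 := hpol (g.symm (Pi.single (Sum.inl (Sum.inl i)) 1)) v
      rw [LinearEquiv.apply_symm_apply] at h2
      rw [h2]
      apply hv
      apply Submodule.mem_sup_right
      rw [hP', LinearEquiv.apply_symm_apply, hP]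
      constructor
      · intro j
        simp
      · intro j
        simp
    refine ⟨h1, ?_⟩
    have hQ : Cfsg.quadFormMinus k F 1 ζ (g v) = 0 := by
      rw [hiso]
      rw [hU₀] at hvU
      simp [Cfsg.quadFormPlus, hvU]
    simp only [Cfsg.quadFormMinus, h1, mul_zero, Finset.sum_const_zero, zero_add, one_mul] at hQ
    have hz1 : (g v) (Sum.inr 1) = 0 := by
      by_contra hne
      apply hζ ((g v) (Sum.inr 0) / (g v) (Sum.inr 1))
      field_simp
      linear_combination hQ
    have hz0 : (g v) (Sum.inr 0) = 0 := by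
      rw [hz1] at hQ
      simpa using hQ
    intro j
    fin_cases j
    · exact hz0
    · exact hz1
  have h1 := LinearMap.BilinForm.finrank_add_finrank_orthogonal' (B := Bp) (U₀ ⊔ P')
  have h2 := Submodule.finrank_sup_add_finrank_inf_eq U₀ P'
  have h3 := Submodule.finrank_mono hincl
  have h4 : Module.finrank F (Fin m ⊕ Fin m → F) = 2 * m := by
    simp
    ring
  omega

/-- The two standard quadratic forms of even dimension 2m over a finite field are not isometric: there is no linear isomorphism carrying the elliptic form Σ_(i<m−1) x_i y_i + z₁² + z₁z₂ + ζ z₂² (t² + t + ζ without roots) to the hyperbolic form Σ_(i<m) x_i y_i (they have different Witt index). -/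
theorem result {F : Type*} [Field F] [Finite F] {m : ℕ} (hm : 1 ≤ m) (ζ : F) (hζ : ∀ t : F, t ^ 2 + t + ζ ≠ 0) (g : (Fin m ⊕ Fin m → F) ≃ₗ[F] ((Fin (m - 1) ⊕ Fin (m - 1)) ⊕ Fin 2 → F)) : ¬ (∀ v : Fin m ⊕ Fin m → F, Cfsg.quadFormMinus (m - 1) F 1 ζ (g v) = Cfsg.quadFormPlus m F v) := by
  exact aux (by omega) ζ hζ g

end Cfsg.Agent.S2617
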