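import Cfsg.Statements.S2618
import Cfsg.Agent.Lib.Helper99.Quad

set_option autoImplicit false
open Cfsg

namespace Cfsg.Agent.S2618

open Module QuadraticMap Cfsg.Agent.Lib.Helper99

theorem result {F V : Type*} [Field F] [Finite F] [AddCommGroup V] [Module F V] [FiniteDimensional F V] {m : ℕ} (hV : Module.finrank F V = 2 * m + 1) (Q : QuadraticForm F V) (hQ : (QuadraticMap.polarBilin Q).Nondegenerate) : ∃ b : Module.Basis (Unit ⊕ (Fin m ⊕ Fin m)) F V, Q (b (Sum.inl ())) ≠ 0 ∧ (∀ i, QuadraticMap.polar ⇑Q (b (Sum.inl ())) (b (Sum.inr (Sum.inl i))) = 0 ∧ QuadraticMap.polar ⇑Q (b (Sum.inl ())) (b (Sum.inr (Sum.inr i))) = 0) ∧ (∀ i, Q (b (Sum.inr (Sum.inl i))) = 0 ∧ Q (b (Sum.inr (Sum.inr i))) = 0) ∧ (∀ i j, QuadraticMap.polar ⇑Q (b (Sum.inr (Sum.inl i))) (b (Sum.inr (Sum.inr j))) = if i = j then 1 else 0) ∧ (∀ i j, QuadraticMap.polar ⇑Q (b (Sum.inr (Sum.inl i))) (b (Sum.inr (Sum.inl j))) = 0 ∧ QuadraticMap.polar ⇑Q (b (Sum.inr (Sum.inr i))) (b (Sum.inr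 (Sum.inr j))) = 0) := by
  cases nonempty_fintype F
  obtain ⟨k, e, f, hH, h | h | h⟩ := witt Q hQ
  · obtain ⟨b, -, -⟩ := h
    have h1 := Module.finrank_eq_card_basis b
    simp only [Fintype.card_sum, Fintype.card_fin] at h1
    omega
  · obtain ⟨x, b, hQx, hx, hb1, hb2, hb3⟩ := h
    have h1 := Module.finrank_eq_card_basis b
    simp only [Fintype.card_sum, Fintype.card_fin, Fintype.card_unit] at h1
    obtain rfl : k = m := by omega
    refine ⟨b.reindex (Equiv.sumComm _ _), ?_, ?_, ?_, ?_, ?_⟩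
    · simp only [Basis.reindex_apply, Equiv.sumComm_symm, Equiv.sumComm_apply, Sum.swap_inl]
      rw [hb3]; exact hQx
    · intro i
      simp only [Basis.reindex_apply, Equiv.sumComm_symm, Equiv.sumComm_apply, Sum.swap_inl,
        Sum.swap_inr]
      rw [hb3, hb1, hb2]
      exact hx i
    · intro i
      simp only [Basis.reindex_apply, Equiv.sumComm_symm, Equiv.sumComm_apply, Sum.swap_inr]
      rw [hb1, hb2]
      exact hH.1 i
    · intro i j
      simp only [Basis.reindex_apply, Equiv.sumComm_symm, Equiv.sumComm_apply, Sum.swap_inr]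
      rw [hb1, hb2]
      exact hH.2.1 i j
    · intro i j
      simp only [Basis.reindex_apply, Equiv.sumComm_symm, Equiv.sumComm_apply, Sum.swap_inr]
      rw [hb1, hb1, hb2, hb2]
      exact hH.2.2 i j
  · obtain ⟨x, y, b, -⟩ := h
    have h1 := Module.finrank_eq_card_basis b
    simp only [Fintype.card_sum, Fintype.card_fin] at h1
    omega

end Cfsg.Agent.S2618
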