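import Mathlib
import Cfsg.Statements.S2619
-- import your own Cfsg.Agent.* helpers here

set_option autoImplicit false
open Cfsg

namespace Cfsg.Agent.S2619

/-- Over a finite field of characteristic two, given an alternating bilinear form B on a finite-dimensional space, a basis (v_i) and scalars (λ_i), there is exactly one quadratic form whose polar form is B and whose value at each v_i is λ_i. -/
theorem result {F V ι : Type*} [Field F] [Finite F] [CharP F 2] [AddCommGroup V] [Module F V] [Fintype ι] (b : Module.Basis ι F V) (B : LinearMap.BilinForm F V) (hB : B.IsAlt) (c : ι → F) : ∃! Q : QuadraticForm F V, QuadraticMap.polarBilin Q = B ∧ ∀ i, Q (b i) = c i := by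
  classical
  let _ : LinearOrder ι := IsWellOrder.linearOrder WellOrderingRel
  have hsymm : ∀ x y, B x y = B y x := by
    intro x y
    have h := LinearMap.IsAlt.neg hB x y
    rw [← h, CharTwo.neg_eq]
  let B' : LinearMap.BilinForm F V := b.constr (S := F) fun i => b.constr (S := F) fun j =>
    if i = j then c i else if i < j then B (b i) (b j) else 0
  have hB' : ∀ i j, B' (b i) (b j)
      = if i = j then c i else if i < j then B (b i) (b j) else 0 := by
    intro i j
    have h1 : B' (b i) = b.constr (S := F) fun j =>
        if i = j then c i else if i < j then B (b i) (b j) else 0 :=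
      Module.Basis.constr_basis b F _ i
    rw [h1, Module.Basis.constr_basis]
  refine ⟨LinearMap.BilinMap.toQuadraticMap B', ⟨?_, ?_⟩, ?_⟩
  · rw [LinearMap.BilinMap.polarBilin_toQuadraticMap]
    apply LinearMap.ext_basis b b
    intro i j
    simp only [LinearMap.add_apply, LinearMap.flip_apply, hB']
    rcases lt_trichotomy i j with h | h | h
    · simp [h.ne, h, h.ne', not_lt.mpr h.le]
    · subst h
      simp only [if_true]
      rw [hB (b i), CharTwo.add_self_eq_zero]
    · simp only [h.ne, h, h.ne', not_lt.mpr h.le, if_false, if_true, zero_add]
      exact hsymm _ _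
  · intro i
    simp [LinearMap.BilinMap.toQuadraticMap_apply, hB']
  · rintro Q' ⟨hp, hv⟩
    have hQ' : QuadraticMap.toBilin Q' b = B' := by
      apply LinearMap.ext_basis b b
      intro i j
      rw [QuadraticMap.toBilin_apply, hB', hv]
      have h : QuadraticMap.polar Q' (b i) (b j) = B (b i) (b j) := by
        rw [← hp]; rfl
      rw [h]
    calc Q' = LinearMap.BilinMap.toQuadraticMap (QuadraticMap.toBilin Q' b) :=
          (QuadraticMap.toQuadraticMap_toBilin Q' b).symm
      _ = LinearMap.BilinMap.toQuadraticMap B' := by rw [hQ']

end Cfsg.Agent.S2619
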