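import Cfsg.Statements.S2620
import Cfsg.Agent.Lib.Helper44.Gram

set_option autoImplicit false
open Cfsg

namespace Cfsg.Agent.S2620

/-- Discriminant of the hyperbolic quadratic form Σ_(i<m) x_i y_i over a field with q elements, q odd, m ≥ 1: the determinant of the Gram matrix of its polar form in any basis is a square if and only if m(q − 1)/2 is even (equivalently q^m ≡ 1 (mod 4)). -/
theorem result {F : Type*} [Field F] [Fintype F] {q : ℕ} (hF : Fintype.card F = q) (hq : Odd q) {m : ℕ} (hm : 1 ≤ m) {ι : Type*} [Fintype ι] [DecidableEq ι] (b : Module.Basis ι F (Fin m ⊕ Fin m → F)) : IsSquare (Matrix.of (fun i j : ι => QuadraticMap.polar (Cfsg.quadFormPlus m F) (b i) (b j))).det ↔ Even (m * (q - 1) / 2) := by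
  have h2 : (2 : F) ≠ 0 := Lib.Helper44.two_ne_zero_of_odd_card (hF ▸ hq)
  have key : Matrix.of (fun i j : ι => QuadraticMap.polar (Cfsg.quadFormPlus m F) (b i) (b j))
      = Matrix.of (fun i j : ι => Lib.Helper44.plusPolar m F (b i) (b j)) := by
    ext i j
    simp [Lib.Helper44.polar_quadFormPlus]
  rw [key, Lib.Helper44.isSquare_gram_det_iff, Lib.Helper44.toMatrix'_plusPolar,
    Lib.Helper44.det_swapBlocks m F h2]
  exact Lib.Helper44.isSquare_neg_one_pow_iff hF hq m

end Cfsg.Agent.S2620
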