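import Cfsg.Statements.S2621
import Cfsg.Agent.Lib.Helper44.Gram

set_option autoImplicit false
open Cfsg

namespace Cfsg.Agent.S2621

/-- Discriminant of an elliptic quadratic form Σ_(i<m−1) x_i y_i + z₁² + a z₁z₂ + c z₂² (binary part anisotropic) in dimension 2m over a field with q elements, q odd, m ≥ 1: the determinant of the Gram matrix of its polar form in any basis is a square if and only if m(q − 1)/2 is odd (equivalently q^m ≡ 3 (mod 4)). -/
theorem result {F : Type*} [Field F] [Fintype F] {q : ℕ} (hF : Fintype.card F = q) (hq : Odd q) {m : ℕ} (hm : 1 ≤ m) (a c : F) (hac : ∀ z₁ z₂ : F, z₁ ^ 2 + a * z₁ * z₂ + c * z₂ ^ 2 = 0 → z₁ = 0 ∧ z₂ = 0) {ι : Type*} [Fintype ι] [DecidableEq ι] (b : Module.Basis ι F ((Fin (m - 1) ⊕ Fin (m - 1)) ⊕ Fin 2 → F)) : IsSquare (Matrix.of (fun i j : ι => QuadraticMap.polar (Cfsg.quadFormMinus (m - 1) F a c) (b i) (b j))).det ↔ ¬ Even (m * (q - 1) / 2) := by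
  have h2 : (2 : F) ≠ 0 := Lib.Helper44.two_ne_zero_of_odd_card (hF ▸ hq)
  have key : Matrix.of (fun i j : ι =>
        QuadraticMap.polar (Cfsg.quadFormMinus (m - 1) F a c) (b i) (b j))
      = Matrix.of (fun i j : ι => Lib.Helper44.minusPolar (m - 1) F a c (b i) (b j)) := by
    ext i j
    simp [Lib.Helper44.polar_quadFormMinus]
  rw [key, Lib.Helper44.isSquare_gram_det_iff, Lib.Helper44.toMatrix'_minusPolar,
    Lib.Helper44.det_minusGram (m - 1) F h2]
  have hd := Lib.Helper44.not_isSquare_disc_of_anisotropic h2 a c hac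
  have h3 : (-1 : F) ^ (m - 1) * (4 * c - a ^ 2) = (-1) ^ m * (a ^ 2 - 4 * c) := by
    obtain ⟨k, rfl⟩ : ∃ k, m = k + 1 := ⟨m - 1, by omega⟩
    rw [Nat.add_sub_cancel, pow_succ]; ring
  rw [h3, Lib.Helper44.isSquare_mul_nonsquare_iff (pow_ne_zero _ (by norm_num)) hd,
    Lib.Helper44.isSquare_neg_one_pow_iff hF hq m]

end Cfsg.Agent.S2621
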