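import Mathlib
import Cfsg.Statements.S2622
-- import your own Cfsg.Agent.* helpers here

set_option autoImplicit false
open Cfsg

namespace Cfsg.Agent.S2622

universe u

theorem orthonormal_family {F : Type*} [Field F] [Finite F] [CharP F 2] :
    ∀ (n : ℕ) (V : Type u) [AddCommGroup V] [Module F V] [FiniteDimensional F V],
      Module.finrank F V = n → ∀ B : LinearMap.BilinForm F V, B.IsSymm → B.Nondegenerate →
      (∃ v : V, B v v ≠ 0) →
      ∃ u : Fin n → V, ∀ i j, B (u i) (u j) = if i = j then 1 else 0 := by
  classical
  intro n
  induction n with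
  | zero =>
    intro V _ _ _ hV B hS hB hna
    obtain ⟨v, hv⟩ := hna
    exfalso
    apply hv
    have hsub : Subsingleton V := Module.finrank_zero_iff.mp hV
    have h0 : v = 0 := Subsingleton.elim _ _
    rw [h0]
    simp
  | succ k ih =>
    intro V _ _ _ hV B hS hB hna
    have hsymm : ∀ x y, B x y = B y x := fun x y => hS.eq x y
    have step : ∀ v : V, B v v = 1 → (k = 0 ∨ ∃ w : V, B v w = 0 ∧ B w w ≠ 0) →
        ∃ u : Fin (k + 1) → V, ∀ i j, B (u i) (u j) = if i = j then 1 else 0 := by
      intro v hv hcase
      have hvv : B v v ≠ 0 := by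
        rw [hv]
        exact one_ne_zero
      have hWnd := B.restrict_nondegenerate_orthogonal_spanSingleton hB hS.isRefl hvv
      have hv0 : v ≠ 0 := by
        rintro rfl
        simp at hvv
      have hWdim : Module.finrank F (B.orthogonal (F ∙ v)) = k := by
        rw [LinearMap.BilinForm.finrank_orthogonal hB, hV, finrank_span_singleton hv0]
        simp
      have hWmem : ∀ w : V, w ∈ B.orthogonal (F ∙ v) ↔ B v w = 0 := by
        intro w
        rw [LinearMap.BilinForm.mem_orthogonal_iff]
        constructor
        · intro h
          exact h v (Submodule.mem_span_singleton_self v)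
        · intro h n hn
          obtain ⟨a, rfl⟩ := Submodule.mem_span_singleton.mp hn
          simp [h]
      rcases hcase with hk | ⟨w, hw1, hw2⟩
      · subst hk
        refine ⟨fun _ => v, ?_⟩
        intro i j
        have hij : i = j := by
          apply Fin.ext
          omega
        simp [hij, hv]
      · obtain ⟨u, hu⟩ := ih (B.orthogonal (F ∙ v)) hWdim (B.restrict (B.orthogonal (F ∙ v)))
          (hS.restrict _) hWnd ⟨⟨w, (hWmem w).mpr hw1⟩, hw2⟩
        refine ⟨Fin.cons v (fun i => (u i : V)), ?_⟩
        intro i j
        refine Fin.cases ?_ (fun i' => ?_) i <;> refine Fin.cases ?_ (fun j' => ?_) j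
        · simp [hv]
        · have h1 := (hWmem (u j')).mp (u j').2
          simp [h1, (Fin.succ_ne_zero j').symm]
        · have h1 := (hWmem (u i')).mp (u i').2
          rw [hsymm] at h1
          simp [h1, Fin.succ_ne_zero]
        · have h1 := hu i' j'
          simp only [Fin.cons_succ, Fin.succ_inj]
          exact h1
    have hFin : Fintype F := Fintype.ofFinite F
    obtain ⟨v₀, hv₀⟩ := hna
    obtain ⟨s, hs⟩ := FiniteField.isSquare_of_char_two (ringChar.eq F 2) (B v₀ v₀)
    have hs0 : s ≠ 0 := by
      rintro rfl
      simp at hs
      exact hv₀ hs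
    have hv₁ : B (s⁻¹ • v₀) (s⁻¹ • v₀) = 1 := by
      simp only [map_smul, LinearMap.smul_apply, smul_eq_mul]
      rw [hs]
      field_simp
    by_cases hA : ∃ w, B (s⁻¹ • v₀) w = 0 ∧ B w w ≠ 0
    · exact step _ hv₁ (Or.inr hA)
    · push Not at hA
      by_cases hk : k = 0
      · exact step _ hv₁ (Or.inl hk)
      · set v₁ := s⁻¹ • v₀ with hv₁def
        have hvv : B v₁ v₁ ≠ 0 := by
          rw [hv₁]
          exact one_ne_zero
        have hWnd := B.restrict_nondegenerate_orthogonal_spanSingleton hB hS.isRefl hvv
        have hv0 : v₁ ≠ 0 := by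
          intro h
          rw [h] at hvv
          simp at hvv
        have hWdim : Module.finrank F (B.orthogonal (F ∙ v₁)) = k := by
          rw [LinearMap.BilinForm.finrank_orthogonal hB, hV, finrank_span_singleton hv0]
          simp
        have hWmem : ∀ w : V, w ∈ B.orthogonal (F ∙ v₁) ↔ B v₁ w = 0 := by
          intro w
          rw [LinearMap.BilinForm.mem_orthogonal_iff]
          constructor
          · intro h
            exact h v₁ (Submodule.mem_span_singleton_self v₁)
          · intro h n hn
            obtain ⟨a, rfl⟩ := Submodule.mem_span_singleton.mp hn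
            simp [h]
        have hpos : 0 < Module.finrank F (B.orthogonal (F ∙ v₁)) := by
          rw [hWdim]
          omega
        obtain ⟨e, he⟩ := Module.finrank_pos_iff_exists_ne_zero.mp hpos
        have hef : ∃ f : B.orthogonal (F ∙ v₁), B (e : V) (f : V) ≠ 0 := by
          by_contra hcon
          push Not at hcon
          exact he (hWnd.1 e (fun y => hcon y))
        obtain ⟨f, hf⟩ := hef
        have he1 : B v₁ (e : V) = 0 := (hWmem _).mp e.2
        have hf1 : B v₁ (f : V) = 0 := (hWmem _).mp f.2
        have hee : B (e : V) (e : V) = 0 := hA _ he1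
        have hff : B (f : V) (f : V) = 0 := hA _ hf1
        have h2 : (2 : F) = 0 := CharTwo.two_eq_zero
        apply step (v₁ + (e : V))
        · simp only [map_add, LinearMap.add_apply]
          rw [hv₁, he1, hsymm (e : V) v₁, he1, hee]
          ring
        · right
          refine ⟨v₁ + (B (e : V) (f : V))⁻¹ • (f : V), ?_, ?_⟩
          · simp only [map_add, LinearMap.add_apply, map_smul, smul_eq_mul]
            rw [hv₁, hf1, hsymm (e : V) v₁, he1, zero_add, inv_mul_cancel₀ hf]
            linear_combination h2
          · simp only [map_add, LinearMap.add_apply, map_smul, smul_eq_mul, LinearMap.smul_apply]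
            rw [hv₁, hf1, hsymm (f : V) v₁, hf1, hff]
            simp

/-- Over a finite field of characteristic two, a non-degenerate symmetric bilinear form that is not alternating (some vector v has B(v, v) ≠ 0) admits an orthonormal basis. -/
theorem result {F V : Type*} [Field F] [Finite F] [CharP F 2] [AddCommGroup V] [Module F V] [FiniteDimensional F V] {n : ℕ} (hV : Module.finrank F V = n) (B : LinearMap.BilinForm F V) (hS : B.IsSymm) (hB : B.Nondegenerate) (hna : ∃ v : V, B v v ≠ 0) : ∃ b : Module.Basis (Fin n) F V, ∀ i j, B (b i) (b j) = if i = j then 1 else 0 := by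
  classical
  obtain ⟨u, hu⟩ := orthonormal_family n V hV B hS hB hna
  have hli : LinearIndependent F u := by
    apply LinearMap.BilinForm.linearIndependent_of_iIsOrtho (B := B)
    · rw [LinearMap.BilinForm.iIsOrtho_def]
      intro i j hij
      rw [hu, if_neg hij]
    · intro i
      rw [hu, if_pos rfl]
      exact one_ne_zero
  refine ⟨basisOfLinearIndependentOfCardEqFinrank' u hli (by simp [hV]), ?_⟩
  intro i j
  simp only [coe_basisOfLinearIndependentOfCardEqFinrank']
  exact hu i j

end Cfsg.Agent.S2622
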