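import Mathlib
import Cfsg.Statements.S2625
-- import your own Cfsg.Agent.* helpers here

set_option autoImplicit false
open Cfsg

namespace Cfsg.Agent.S2625

/-- For a quadratic form Q on F^n with non-degenerate polar form, F finite and n odd (so |F| is odd), the multiplier of any similarity is a square: if g is an invertible linear map with Q(g v) = c·Q(v) for all v then c is a square. -/
theorem result {F : Type*} [Field F] [Fintype F] {n : ℕ} (hn : Odd n) (Q : QuadraticForm F (Fin n → F)) (hQ : (QuadraticMap.polarBilin Q).Nondegenerate) (g : (Fin n → F) ≃ₗ[F] (Fin n → F)) (c : F) (hg : ∀ v, Q (g v) = c * Q v) : IsSquare c := by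
  classical
  set B := QuadraticMap.polarBilin Q with hB
  set G := LinearMap.BilinForm.toMatrix' B with hG
  have hdet : G.det ≠ 0 := by
    rw [← Matrix.nondegenerate_iff_det_ne_zero]
    exact LinearMap.BilinForm.Nondegenerate.toMatrix' hQ
  have hpol : ∀ u v, B (g u) (g v) = c * B u v := by
    intro u v
    simp only [hB, QuadraticMap.polarBilin_apply_apply, QuadraticMap.polar]
    rw [← map_add, hg, hg, hg]; ring
  have hcomp : LinearMap.BilinForm.comp B (g : (Fin n → F) →ₗ[F] (Fin n → F)) (g : (Fin n → F) →ₗ[F] (Fin n → F))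
      = c • B := by
    ext u v; simp [hpol]
  have hmat : (LinearMap.toMatrix' (g : (Fin n → F) →ₗ[F] (Fin n → F))).transpose * G
      * LinearMap.toMatrix' (g : (Fin n → F) →ₗ[F] (Fin n → F)) = c • G := by
    rw [hG, ← LinearMap.BilinForm.toMatrix'_comp, hcomp, map_smul]
  have hd := congrArg Matrix.det hmat
  rw [Matrix.det_mul, Matrix.det_mul, Matrix.det_transpose, Matrix.det_smul, Fintype.card_fin] at hd
  set d := (LinearMap.toMatrix' (g : (Fin n → F) →ₗ[F] (Fin n → F))).det with hd'
  have hd2 : d * d = c ^ n := by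
    apply mul_right_cancel₀ hdet
    rw [← hd]; ring
  have hdne : d ≠ 0 := by
    rw [hd', LinearMap.det_toMatrix']
    exact (LinearEquiv.isUnit_det' g).ne_zero
  obtain ⟨k, hk⟩ := hn
  have hc : c ≠ 0 := by
    rintro rfl
    rw [hk] at hd2
    simp at hd2
    exact hdne hd2
  refine ⟨d / c ^ k, ?_⟩
  rw [hk] at hd2
  field_simp
  rw [sq d, hd2]; ring

end Cfsg.Agent.S2625
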