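import Mathlib
import Cfsg.Statements.S2634
import Cfsg.Agent.Lib.Helper44.Char2Forms
-- import your own Cfsg.Agent.* helpers here

set_option autoImplicit false
open Cfsg

namespace Cfsg.Agent.S2634

/-- Over a finite field of characteristic two, Ω (the commutator subgroup of the orthogonal group of a quadratic form Q on F^n with non-degenerate polar form; excluding dimension 4 over the field of two elements) acts transitively on the non-singular 1-spaces: for u, v with Q(u) ≠ 0 and Q(v) ≠ 0 some element of Ω carries the line through u to the line through v. -/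
theorem result {F : Type*} [Field F] [Fintype F] [CharP F 2] {n : ℕ} (h : Fintype.card F ≠ 2 ∨ n ≠ 4) (Q : QuadraticForm F (Fin n → F)) (hQ : (QuadraticMap.polarBilin Q).Nondegenerate) (u v : Fin n → F) (hu : Q u ≠ 0) (hv : Q v ≠ 0) : ∃ g : ↥(Cfsg.isometryGroup F ⇑Q), g ∈ Cfsg.Omega F ⇑Q ∧ (F ∙ ((g : Matrix.GeneralLinearGroup (Fin n) F) : Matrix (Fin n) (Fin n) F).mulVec u) = F ∙ v := by
  have h2 : (2 : F) = 0 := CharTwo.two_eq_zero
  have hcard : Fintype.card F ≠ 2 ∨ Fintype.card (Fin n) ≠ 4 := by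
    rw [Fintype.card_fin]; exact h
  obtain ⟨t, ht⟩ := FiniteField.isSquare_of_char_two (ringChar.eq F 2) (Q v / Q u)
  have ht0 : t ≠ 0 := by
    rintro rfl
    rw [mul_zero] at ht
    exact (div_ne_zero hv hu) ht
  have hQtu : Q (t • u) = Q v := by
    rw [QuadraticMap.map_smul, smul_eq_mul, ← ht]
    field_simp
  obtain ⟨l, hl, hlu⟩ := Cfsg.Agent.Lib.Helper44.exists_prodElt_map_char2 h2 Q hQ hcard
    (u := t • u) (v := v) (by rw [hQtu]; exact hv) hQtu.symm
  rw [Matrix.mulVec_smul] at hlu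
  have e : (((Cfsg.Agent.Lib.Helper14.prodElt Q hQ l hl : ↥(Cfsg.isometryGroup F ⇑Q)) :
      Matrix.GeneralLinearGroup (Fin n) F) : Matrix (Fin n) (Fin n) F).mulVec u = t⁻¹ • v := by
    rw [← hlu, smul_smul, inv_mul_cancel₀ ht0, one_smul]
  have hspan : (F ∙ (t⁻¹ • v)) = F ∙ v :=
    Submodule.span_singleton_smul_eq (IsUnit.mk0 _ (inv_ne_zero ht0)) v
  by_cases hev : Even l.length
  · refine ⟨Cfsg.Agent.Lib.Helper14.prodElt Q hQ l hl,
      Cfsg.Agent.Lib.Helper44.prodElt_mem_commutator_of_even_char2 h2 Q hQ hcard l hl hev, ?_⟩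
    rw [e, hspan]
  · have hl' : ∀ x ∈ v :: l, Q x ≠ 0 := by
      intro x hx
      rcases List.mem_cons.mp hx with rfl | hx
      · exact hv
      · exact hl x hx
    refine ⟨Cfsg.Agent.Lib.Helper14.prodElt Q hQ (v :: l) hl',
      Cfsg.Agent.Lib.Helper44.prodElt_mem_commutator_of_even_char2 h2 Q hQ hcard (v :: l) hl'
        (by rw [List.length_cons]; exact Nat.even_add_one.mpr hev), ?_⟩
    rw [Cfsg.Agent.Lib.Helper14.prodElt_cons]
    simp only [Subgroup.coe_mul, Units.val_mul]
    rw [← Matrix.mulVec_mulVec, e, Cfsg.Agent.Lib.Helper44.reflElt_coe, Matrix.mulVec_smul,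
      Cfsg.Agent.Lib.Helper14.reflectionMatrix_mulVec,
      Cfsg.Agent.Lib.Helper44.polar_self_char2 Q h2, mul_zero, zero_smul, sub_zero, hspan]

end Cfsg.Agent.S2634
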