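import Mathlib
import Cfsg.Statements.S2635
import Cfsg.Agent.Lib.Helper44.Dickson
-- import your own Cfsg.Agent.* helpers here

set_option autoImplicit false
open Cfsg

namespace Cfsg.Agent.S2635

/-- Over a finite field of characteristic two, for a quadratic form Q on F^n with non-degenerate polar form, n ≥ 2, other than dimension 4 over the field of two elements, Ω (the commutator subgroup of the orthogonal group) is exactly the subgroup generated by the products of two reflections (orthogonal transvections) x ↦ x − Q(v)⁻¹ f(x, v) v, Q(v) ≠ 0: the products of an even number of reflections. -/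
theorem result {F : Type*} [Field F] [Fintype F] [CharP F 2] {n : ℕ} (hn : 2 ≤ n) (h : Fintype.card F ≠ 2 ∨ n ≠ 4) (Q : QuadraticForm F (Fin n → F)) (hQ : (QuadraticMap.polarBilin Q).Nondegenerate) : Cfsg.Omega F ⇑Q = Subgroup.closure {g : ↥(Cfsg.isometryGroup F ⇑Q) | ∃ u v : Fin n → F, Q u ≠ 0 ∧ Q v ≠ 0 ∧ ((g : Matrix.GeneralLinearGroup (Fin n) F) : Matrix (Fin n) (Fin n) F) = Cfsg.reflectionMatrix ⇑Q u * Cfsg.reflectionMatrix ⇑Q v} := by
  have h2 : (2 : F) = 0 := CharTwo.two_eq_zero
  have hcard : Fintype.card F ≠ 2 ∨ Fintype.card (Fin n) ≠ 4 := by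
    rw [Fintype.card_fin]; exact h
  apply le_antisymm
  · intro g hg
    have hev := (Cfsg.Agent.Lib.Helper44.mem_commutator_iff_even_rank h2 Q hQ hcard g).mp hg
    obtain ⟨l, hl, rfl⟩ := Cfsg.Agent.Lib.Helper44.exists_eq_prodElt_char2 h2 Q hQ hcard g
    have hr := Cfsg.Agent.Lib.Helper44.rank_prodElt Q hQ l hl
    obtain ⟨k, hk⟩ : ∃ k, l.length = 2 * k := by
      rw [Nat.even_iff] at hev
      exact ⟨l.length / 2, by omega⟩
    exact Cfsg.Agent.Lib.Helper44.prodElt_mem_closure_pairs Q hQ k l hl hk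
  · rw [Subgroup.closure_le]
    rintro g ⟨u, v, hu, hv, hg⟩
    have huv : ∀ x ∈ [u, v], Q x ≠ 0 := by
      intro x hx
      simp only [List.mem_cons, List.not_mem_nil, or_false] at hx
      rcases hx with rfl | rfl
      · exact hu
      · exact hv
    have e : g = Cfsg.Agent.Lib.Helper14.prodElt Q hQ [u, v] huv := by
      apply Cfsg.Agent.Lib.Helper14.isom_ext
      rw [hg, Cfsg.Agent.Lib.Helper44.prodElt_coe]
      simp
    rw [e]
    exact Cfsg.Agent.Lib.Helper44.prodElt_mem_commutator_of_even_char2 h2 Q hQ hcard [u, v] huv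
      ⟨1, rfl⟩

end Cfsg.Agent.S2635
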