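import Cfsg.Statements.S2637
import Cfsg.Agent.Lib.Helper99.Order3

set_option autoImplicit false
open Cfsg

namespace Cfsg.Agent.S2637

open Cfsg.Agent.Lib.Helper99

/-- Centraliser of a fixed-point-free element of order three in Sp_2m(q) when q ≡ 2 (mod 3): if x ∈ Sp_2m(F) (|F| = q, m ≥ 1) satisfies x³ = 1 and x − 1 is invertible, then its centraliser in Sp_2m(F) has the order of the unitary group GU_m(q), namely q^(m(m−1)/2) Π_(i=1)^m (q^i − (−1)^i) (x lies in the centre of a subgroup GU_m(q) of Sp_2m(q)). -/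
theorem result {F : Type*} [Field F] [Fintype F] {q : ℕ} (hF : Fintype.card F = q) (hq : q % 3 = 2) {m : ℕ} (hm : 1 ≤ m) (x : Matrix.symplecticGroup (Fin m) F) (hx3 : x ^ 3 = 1) (hfpf : IsUnit ((x : Matrix (Fin m ⊕ Fin m) (Fin m ⊕ Fin m) F) - 1)) : (Nat.card ↥(Subgroup.centralizer ({x} : Set ↥(Matrix.symplecticGroup (Fin m) F))) : ℤ) = (q : ℤ) ^ (m * (m - 1) / 2) * ∏ i : Fin m, ((q : ℤ) ^ ((i : ℕ) + 1) - (-1) ^ ((i : ℕ) + 1)) := by
  classical
  subst hF
  rw [card_cent_order3 hq x hx3 hfpf]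
  have hq1 : 1 ≤ Fintype.card F := Fintype.card_pos
  rw [← Fin.prod_univ_eq_prod_range
    (fun i => (if Even i then Fintype.card F ^ (i + 1) + 1 else Fintype.card F ^ (i + 1) - 1)) m]
  push_cast
  congr 1
  apply Finset.prod_congr rfl
  intro i _
  have hpos : 1 ≤ Fintype.card F ^ ((i : ℕ) + 1) := Nat.one_le_pow _ _ hq1
  by_cases hi : Even (i : ℕ)
  · rw [if_pos hi, Odd.neg_one_pow (Even.add_one hi)]
    push_cast
    ring
  · rw [if_neg hi]
    have hi' : Even ((i : ℕ) + 1) := by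
      rcases Nat.even_or_odd (i : ℕ) with h | h
      · exact absurd h hi
      · exact Odd.add_one h
    rw [Even.neg_one_pow hi', Nat.cast_sub hpos]
    push_cast
    ring

end Cfsg.Agent.S2637
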