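import Cfsg.Statements.S2639
import Cfsg.Agent.Lib.Helper13.Symp
import Cfsg.Agent.Lib.Helper45.FieldEmb
import Cfsg.Agent.Lib.Helper45.HermBasic
import Cfsg.Agent.Lib.Helper99.AltBasis

set_option autoImplicit false
open Cfsg

namespace Cfsg.Agent.S2639

open Matrix Module Cfsg.Agent.Lib.Helper13 Cfsg.Agent.Lib.Helper45

section aux
variable {K F : Type*} [Field K] [Fintype K] [Field F] [Fintype F] {q : ℕ}

theorem exists_not_fixed (hK : Fintype.card K = q ^ 2) (hq : 2 ≤ q) : ∃ c : K, c ^ q ≠ c := by
  classical
  by_contra hcon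
  push Not at hcon
  have h1 : (Polynomial.X ^ q - Polynomial.X : Polynomial K) = 0 := by
    apply Polynomial.eq_zero_of_natDegree_lt_card_of_eval_eq_zero (f := fun x : K => x)
      _ Function.injective_id
    · intro x
      simp [hcon x]
    · rw [FiniteField.X_pow_card_sub_X_natDegree_eq K (by omega), hK]
      nlinarith
  exact FiniteField.X_pow_card_sub_X_ne_zero K (by omega) h1

theorem fixed_of_algebraMap [Algebra F K] (hF : Fintype.card F = q) (a : F) :
    (algebraMap F K a) ^ q = algebraMap F K a := by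
  rw [← map_pow, ← hF, FiniteField.pow_card]

end aux

/-- The unitary group embeds in the symplectic group of twice the dimension over the subfield: for a field K with q² elements and a field F with q elements (isomorphic to the subfield of K of order q), there is an injective homomorphism GU_m(q) → Sp_2m(F). -/
theorem result {K F : Type*} [Field K] [Fintype K] [Field F] [Fintype F] {q : ℕ} (hK : Fintype.card K = q ^ 2) (hF : Fintype.card F = q) (m : ℕ) : ∃ φ : ↥(Cfsg.GU m K q) →* ↥(Matrix.symplecticGroup (Fin m) F), Function.Injective φ := by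
  classical
  obtain ⟨ι⟩ := exists_ringHom_of_card_sq hF hK
  let _ : Algebra F K := ι.toAlgebra
  have hq : 2 ≤ q := by rw [← hF]; exact Fintype.one_lt_card
  obtain ⟨c0, hc0⟩ := exists_not_fixed hK hq
  have hω : c0 - c0 ^ q ≠ 0 := fun h => hc0 (sub_eq_zero.mp h).symm
  obtain ⟨lam, hlam⟩ : ∃ lam : Module.Dual F K, lam (c0 - c0 ^ q) ≠ 0 := by
    by_contra hcon
    push Not at hcon
    exact hω ((Module.forall_dual_apply_eq_zero_iff F _).mp hcon)
  have hfix : ∀ a : F, (algebraMap F K a) ^ q = algebraMap F K a := fixed_of_algebraMap hF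
  -- the alternating form
  let B : LinearMap.BilinForm F (Fin m → K) := LinearMap.mk₂ F
    (fun u v => lam (Cfsg.hermForm m K q u v) - lam (Cfsg.hermForm m K q v u))
    (by
      intro u u' v
      rw [herm_add_left, herm_add_right hK, map_add, map_add]; ring)
    (by
      intro a u v
      rw [← algebraMap_smul K a u, herm_smul_left, herm_smul_right, hfix, ← Algebra.smul_def,
        ← Algebra.smul_def, map_smul, map_smul, smul_sub])
    (by
      intro u v v'
      rw [herm_add_left, herm_add_right hK, map_add, map_add]; ring)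
    (by
      intro a u v
      rw [← algebraMap_smul K a v, herm_smul_left, herm_smul_right, hfix, ← Algebra.smul_def,
        ← Algebra.smul_def, map_smul, map_smul, smul_sub])
  have hBdef : ∀ u v, B u v = lam (Cfsg.hermForm m K q u v) - lam (Cfsg.hermForm m K q v u) :=
    fun _ _ => rfl
  have hBalt : B.IsAlt := by
    intro u
    rw [hBdef, sub_self]
  have hBnd : ∀ u, (∀ v, B u v = 0) → u = 0 := by
    intro u hu
    by_contra hne
    obtain ⟨i, hi⟩ : ∃ i, u i ≠ 0 := by
      by_contra hcon
      push Not at hcon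
      exact hne (funext hcon)
    have h1 := hu ((c0 / u i) ^ q • Pi.single i (1 : K))
    rw [hBdef, herm_smul_right, herm_smul_left, herm_single_right (by omega),
      ← herm_conj hK, herm_single_right (by omega), conj_conj hK, div_mul_cancel₀ _ hi,
      ← mul_pow, div_mul_cancel₀ _ hi, ← map_sub] at h1
    exact hlam h1
  have hBinv : ∀ (g : Cfsg.GU m K q) (u v : Fin m → K),
      B (((g : GL (Fin m) K) : Matrix (Fin m) (Fin m) K) *ᵥ u)
        (((g : GL (Fin m) K) : Matrix (Fin m) (Fin m) K) *ᵥ v) = B u v := by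
    intro g u v
    rw [hBdef, hBdef]
    have h1 := g.2 u v
    have h2 := g.2 v u
    rw [show Cfsg.hermForm m K q (((g : GL (Fin m) K) : Matrix (Fin m) (Fin m) K) *ᵥ u)
        (((g : GL (Fin m) K) : Matrix (Fin m) (Fin m) K) *ᵥ v) = Cfsg.hermForm m K q u v from h1,
      show Cfsg.hermForm m K q (((g : GL (Fin m) K) : Matrix (Fin m) (Fin m) K) *ᵥ v)
        (((g : GL (Fin m) K) : Matrix (Fin m) (Fin m) K) *ᵥ u) = Cfsg.hermForm m K q v u from h2]
  -- dimension
  have hfr : finrank F (Fin m → K) = 2 * m := by
    have h1 : Fintype.card (Fin m → K) = Fintype.card F ^ finrank F (Fin m → K) :=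
      Module.card_eq_pow_finrank
    rw [Fintype.card_fun, Fintype.card_fin, hK, hF, ← pow_mul] at h1
    exact (Nat.pow_right_injective hq h1).symm
  obtain ⟨m', k, b0, hef, hee, hff, hrad⟩ := Cfsg.Agent.Lib.Helper99.alt_basis B hBalt
  have hk : k = 0 := by
    by_contra hk
    have : b0 (Sum.inr ⟨0, by omega⟩) = 0 := hBnd _ (hrad _)
    exact b0.ne_zero _ this
  subst hk
  have hm' : m' = m := by
    have h1 := Module.finrank_eq_card_basis b0
    rw [hfr] at h1
    simp at h1
    omega
  subst hm'
  let b : Basis (Fin m' ⊕ Fin m') F (Fin m' → K) := b0.reindex (Equiv.sumEmpty _ _)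
  have hb : ∀ j, b j = b0 (Sum.inl j) := by
    intro j
    simp [b]
  have key : ∀ x y : Fin m' → K,
      Cfsg.sympForm m' F (b.repr x) (b.repr y) = B y x := by
    intro x y
    conv_rhs => rw [← b.sum_repr x, ← b.sum_repr y]
    rw [sympForm_eq]
    have hfe : ∀ i j : Fin m', B (b0 (Sum.inl (Sum.inr i))) (b0 (Sum.inl (Sum.inl j)))
        = if i = j then -1 else 0 := by
      intro i j
      rw [← hBalt.neg_eq, hef]
      by_cases hij : i = j
      · subst hij; simp
      · rw [if_neg hij, if_neg (fun h => hij h.symm), neg_zero]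
    simp only [map_sum, map_smul, map_add, LinearMap.sum_apply, LinearMap.smul_apply,
      LinearMap.add_apply,
      Fintype.sum_sum_type, smul_eq_mul, hb, hef, hee, hff, hfe, mul_zero, Finset.sum_const_zero,
      add_zero, zero_add, mul_ite, mul_one, mul_neg, Finset.sum_ite_eq, Finset.sum_ite_eq',
      Finset.mem_univ, if_true, Finset.sum_neg_distrib]
    rw [← Finset.sum_neg_distrib, ← Finset.sum_add_distrib]
    apply Finset.sum_congr rfl
    intro i _
    ring
  let L : Cfsg.GU m' K q → ((Fin m' → K) →ₗ[F] (Fin m' → K)) := fun g =>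
    (Matrix.mulVecLin ((g : GL (Fin m') K) : Matrix (Fin m') (Fin m') K)).restrictScalars F
  have hL : ∀ g x, L g x = ((g : GL (Fin m') K) : Matrix (Fin m') (Fin m') K) *ᵥ x :=
    fun _ _ => rfl
  have hmem : ∀ g, LinearMap.toMatrix b b (L g) ∈ Matrix.symplecticGroup (Fin m') F := by
    intro g
    apply mem_symplecticGroup_of_sympForm
    intro w w'
    obtain ⟨x, rfl⟩ : ∃ x, w = b.repr x := ⟨b.equivFun.symm w, by
      rw [← Basis.equivFun_apply, LinearEquiv.apply_symm_apply]⟩
    obtain ⟨y, rfl⟩ : ∃ y, w' = b.repr y := ⟨b.equivFun.symm w', by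
      rw [← Basis.equivFun_apply, LinearEquiv.apply_symm_apply]⟩
    rw [LinearMap.toMatrix_mulVec_repr, LinearMap.toMatrix_mulVec_repr, key, key, hL, hL, hBinv]
  refine ⟨MonoidHom.mk' (fun g => ⟨LinearMap.toMatrix b b (L g), hmem g⟩) ?_, ?_⟩
  · intro g g'
    apply Subtype.ext
    show LinearMap.toMatrix b b (L (g * g'))
      = LinearMap.toMatrix b b (L g) * LinearMap.toMatrix b b (L g')
    rw [← LinearMap.toMatrix_comp]
    congr 1
    refine LinearMap.ext fun x => ?_
    rw [LinearMap.comp_apply, hL, hL, hL, Matrix.mulVec_mulVec]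
    rfl
  · intro g g' hgg'
    have h1 : LinearMap.toMatrix b b (L g) = LinearMap.toMatrix b b (L g') :=
      congrArg Subtype.val hgg'
    have h2 : L g = L g' := (LinearMap.toMatrix b b).injective h1
    apply Subtype.ext
    apply Units.ext
    ext i j
    have h3 := congrFun (LinearMap.congr_fun h2 (Pi.single j 1)) i
    rw [hL, hL, Matrix.mulVec_single_one, Matrix.mulVec_single_one] at h3
    exact h3

end Cfsg.Agent.S2639
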