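import Cfsg.Statements.S2640
import Cfsg.Agent.Lib.Helper45.FieldEmb
import Cfsg.Agent.Lib.Helper99.HermQuad

set_option autoImplicit false
open Cfsg

namespace Cfsg.Agent.S2640

open Matrix Module QuadraticMap Cfsg.Agent.Lib.Helper45 Cfsg.Agent.Lib.Helper99

/-- For m even, the unitary group GU_m(q) (over the field with q² elements) embeds in the orthogonal group O⁺_2m(q) of the hyperbolic form Σ x_i y_i over the field with q elements (there is an injective homomorphism). -/
theorem result {K F : Type*} [Field K] [Fintype K] [Field F] [Fintype F] {q : ℕ} (hK : Fintype.card K = q ^ 2) (hF : Fintype.card F = q) (m : ℕ) (hm : Even m) : ∃ φ : ↥(Cfsg.GU m K q) →* ↥(Cfsg.isometryGroup F (Cfsg.quadFormPlus m F)), Function.Injective φ := by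
  classical
  obtain ⟨ι⟩ := exists_ringHom_of_card_sq hF hK
  let _ : Algebra F K := ι.toAlgebra
  obtain ⟨r, rfl⟩ := hm
  obtain ⟨Q, hQ1, hQ2⟩ := exists_hermQuad (F := F) hK hF (r + r)
  have hinj : Function.Injective (algebraMap F K) := (algebraMap F K).injective
  -- nondegenerate
  have hnd : QNondegOn Q ⊤ := by
    intro u _ hu
    by_contra hne
    obtain ⟨i, hi⟩ : ∃ i, u i ≠ 0 := by
      by_contra hcon
      push Not at hcon
      exact hne (funext hcon)
    obtain ⟨c, hc⟩ := hermQuad_polar_ne hK hF Q hQ2 u i hi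
    exact hc (hu _ Submodule.mem_top)
  -- singular subspace
  obtain ⟨ψ, hψi, hψ0, -⟩ := herm_singular (F := F) hK r 0
  have hW : ∀ w ∈ LinearMap.range ψ, Q w = 0 := by
    rintro _ ⟨x, rfl⟩
    apply hinj
    rw [hQ1, map_zero]
    exact hψ0 x x
  have hWd : r + r ≤ finrank F (LinearMap.range ψ) := by
    rw [LinearMap.finrank_range_of_inj hψi, herm_finrank hK hF]
    omega
  obtain ⟨e, f, hH, -⟩ := hyp_of_singular Q (r + r) ⊤ (LinearMap.range ψ) hnd le_top hW hWd
  obtain ⟨b0, hb1, hb2, -⟩ := mkBasis' Q e f hH (Fin.elim0 : Fin 0 → (Fin (r + r) → K))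
    linearIndependent_empty_type (fun j => j.elim0) (by
      rw [herm_finrank hK hF]
      simp)
  have hH' : HypFam Q (fun i => b0 (Sum.inl (Sum.inl i))) (fun i => b0 (Sum.inl (Sum.inr i))) := by
    simpa only [hb1, hb2] using hH
  have hev := basis_eval Q b0 hH' (fun j => j.elim0)
  let b : Basis (Fin (r + r) ⊕ Fin (r + r)) F (Fin (r + r) → K) :=
    b0.reindex (Equiv.sumEmpty _ _)
  have hQb : ∀ v, Cfsg.quadFormPlus (r + r) F (b.repr v) = Q v := by
    intro v
    rw [hev v]
    simp [Cfsg.quadFormPlus, b]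
  refine embed_isometry b _ Q hQb (Cfsg.GU (r + r) K q) ?_
  intro g hg v
  apply hinj
  rw [hQ1, hQ1]
  exact hg v v

end Cfsg.Agent.S2640
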