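import Cfsg.Statements.S2641
import Cfsg.Agent.Lib.Helper45.FieldEmb
import Cfsg.Agent.Lib.Helper45.QuadRoots
import Cfsg.Agent.Lib.Helper99.HermQuad

set_option autoImplicit false
open Cfsg

namespace Cfsg.Agent.S2641

open Matrix Module QuadraticMap Cfsg.Agent.Lib.Helper45 Cfsg.Agent.Lib.Helper99

/-- For m odd, the unitary group GU_m(q) (over the field with q² elements) embeds in the orthogonal group O⁻_2m(q) of an elliptic form (Σ_(i<m−1) x_i y_i plus an anisotropic binary form) over the field with q elements (there is an injective homomorphism). -/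
theorem result {K F : Type*} [Field K] [Fintype K] [Field F] [Fintype F] {q : ℕ} (hK : Fintype.card K = q ^ 2) (hF : Fintype.card F = q) (m : ℕ) (hm : Odd m) (a b : F) (hab : ∀ z₁ z₂ : F, z₁ ^ 2 + a * z₁ * z₂ + b * z₂ ^ 2 = 0 → z₁ = 0 ∧ z₂ = 0) : ∃ φ : ↥(Cfsg.GU m K q) →* ↥(Cfsg.isometryGroup F (Cfsg.quadFormMinus (m - 1) F a b)), Function.Injective φ := by
  classical
  obtain ⟨ι⟩ := exists_ringHom_of_card_sq hF hK
  let _ : Algebra F K := ι.toAlgebra
  obtain ⟨r, hr⟩ := hm
  obtain rfl : m = r + r + 1 := by omega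
  have hq : 2 ≤ q := by rw [← hF]; exact Fintype.one_lt_card
  obtain ⟨Q, hQ1, hQ2⟩ := exists_hermQuad (F := F) hK hF (r + r + 1)
  have hinj : Function.Injective (algebraMap F K) := (algebraMap F K).injective
  obtain ⟨l, hl⟩ : ∃ l : Fin (r + r + 1), l = Fin.natAdd (r + r) (0 : Fin 1) := ⟨_, rfl⟩
  obtain ⟨M, hMdef⟩ : ∃ M : Submodule F (Fin (r + r + 1) → K), ∀ v, v ∈ M ↔ v l = 0 :=
    ⟨LinearMap.ker (LinearMap.proj (R := F) (φ := fun _ : Fin (r + r + 1) => K) l), fun v => by
      rw [LinearMap.mem_ker]; rfl⟩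
  have hnd : QNondegOn Q M := by
    intro u huM hu
    by_contra hne
    obtain ⟨i, hi⟩ : ∃ i, u i ≠ 0 := by
      by_contra hcon
      push Not at hcon
      exact hne (funext hcon)
    have hil : i ≠ l := by
      rintro rfl
      exact hi ((hMdef u).mp huM)
    obtain ⟨c, hc⟩ := hermQuad_polar_ne hK hF Q hQ2 u i hi
    apply hc (hu _ _)
    rw [hMdef]
    simp [Pi.single_apply, hil.symm]
  obtain ⟨ψ, hψi, hψ0, hψl⟩ := herm_singular (F := F) hK r 1
  have hWM : LinearMap.range ψ ≤ M := by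
    rintro _ ⟨x, rfl⟩
    rw [hMdef, hl]
    exact hψl x 0
  have hW : ∀ w ∈ LinearMap.range ψ, Q w = 0 := by
    rintro _ ⟨x, rfl⟩
    apply hinj
    rw [hQ1, map_zero]
    exact hψ0 x x
  have hWd : r + r ≤ finrank F (LinearMap.range ψ) := by
    rw [LinearMap.finrank_range_of_inj hψi, herm_finrank hK hF]
    omega
  obtain ⟨e, f, hH, hefM⟩ := hyp_of_singular Q (r + r) M (LinearMap.range ψ) hnd hWM hW hWd
  -- the anisotropic plane
  obtain ⟨α, β, hαβ, hsum, hprod⟩ := exists_roots_of_anisotropic hF hK (algebraMap F K) a b hab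
  have hfix : ∀ t : F, (algebraMap F K t) ^ q = algebraMap F K t := fun t => by
    rw [← map_pow, ← hF, FiniteField.pow_card]
  have ha' : algebraMap F K a = -(α + β) := by rw [hsum, neg_neg]
  have h0 : α ^ 2 + algebraMap F K a * α + algebraMap F K b = 0 := by
    rw [ha', ← hprod]; ring
  have hα_notin : ∀ t : F, algebraMap F K t ≠ α := by
    intro t ht
    have h1 := h0
    rw [← ht, ← map_pow, ← map_mul, ← map_add, ← map_add] at h1
    have h2 : t ^ 2 + a * t + b = 0 := hinj (by rw [h1, map_zero])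
    have h3 := hab t 1 (by rw [← h2]; ring)
    exact one_ne_zero h3.2
  have hαq : α ^ q = β := by
    have h2 : (α ^ q) ^ 2 + algebraMap F K a * α ^ q + algebraMap F K b = 0 := by
      have h3 : (α ^ 2 + algebraMap F K a * α + algebraMap F K b) ^ q = 0 := by
        rw [h0]; exact zero_pow (by omega)
      rw [conj_add hK, conj_add hK, mul_pow, hfix, hfix, ← pow_mul, mul_comm 2 q, pow_mul] at h3
      exact h3
    have h1 : (α ^ q - α) * (α ^ q - β) = 0 := by
      have h4 : (α ^ q - α) * (α ^ q - β)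
          = (α ^ q) ^ 2 + algebraMap F K a * α ^ q + algebraMap F K b := by
        rw [ha', ← hprod]; ring
      rw [h4, h2]
    rcases mul_eq_zero.mp h1 with h | h
    · exfalso
      obtain ⟨t, ht⟩ := herm_fixed_mem_range hK hF α (sub_eq_zero.mp h)
      exact hα_notin t ht
    · exact sub_eq_zero.mp h
  obtain ⟨xv, hxv⟩ : ∃ xv : Fin (r + r + 1) → K, xv = Pi.single l 1 := ⟨_, rfl⟩
  obtain ⟨yv, hyv⟩ : ∃ yv : Fin (r + r + 1) → K, yv = (-α) • xv := ⟨_, rfl⟩
  have hux : ∀ u, Cfsg.hermForm (r + r + 1) K q u xv = u l := by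
    intro u
    rw [hxv]
    exact herm_single_right (by omega) _ u l
  have hxu : ∀ u, Cfsg.hermForm (r + r + 1) K q xv u = (u l) ^ q := by
    intro u
    rw [← herm_conj hK, hux]
  have hxl : xv l = 1 := by rw [hxv]; simp
  have hQx : Q xv = 1 := hinj (by rw [hQ1, hux, hxl, map_one])
  have hQy : Q yv = b := by
    apply hinj
    rw [hQ1, hyv, herm_smul_left, herm_smul_right, hux, hxl, conj_neg hK, hαq, ← hprod]
    ring
  have hpxy : polar Q xv yv = a := by
    apply hinj
    rw [hQ2, hyv, herm_smul_left, herm_smul_right, hux, hxl, conj_neg hK, hαq, ha']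
    ring
  have hpxM : ∀ u ∈ M, polar Q xv u = 0 := by
    intro u hu
    apply hinj
    rw [hQ2, hxu, hux, (hMdef u).mp hu, map_zero, zero_pow (by omega), add_zero]
  have hpyM : ∀ u ∈ M, polar Q yv u = 0 := by
    intro u hu
    apply hinj
    rw [hQ2, hyv, herm_smul_left, herm_smul_right, hxu, hux, (hMdef u).mp hu, map_zero,
      zero_pow (by omega), mul_zero, mul_zero, add_zero]
  have hz : LinearIndependent F ![xv, yv] := by
    rw [LinearIndependent.pair_iff]
    intro s t hst
    have h1 : algebraMap F K s + algebraMap F K t * (-α) = 0 := by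
      have h := congrFun hst l
      rw [hyv] at h
      simp only [Pi.add_apply, Pi.smul_apply, hxl, Pi.zero_apply, smul_eq_mul, mul_one] at h
      rw [Algebra.smul_def, Algebra.smul_def, mul_one] at h
      exact h
    have ht : t = 0 := by
      by_contra ht
      apply hα_notin (s / t)
      rw [map_div₀]
      have ht' : algebraMap F K t ≠ 0 := fun h => ht (hinj (by rw [h, map_zero]))
      field_simp
      linear_combination h1
    subst ht
    rw [map_zero, zero_mul, add_zero] at h1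
    exact ⟨hinj (by rw [h1, map_zero]), rfl⟩
  have hperp : ∀ j i, polar Q (![xv, yv] j) (e i) = 0 ∧ polar Q (![xv, yv] j) (f i) = 0 := by
    intro j i
    fin_cases j
    · exact ⟨hpxM _ (hefM i).1, hpxM _ (hefM i).2⟩
    · exact ⟨hpyM _ (hefM i).1, hpyM _ (hefM i).2⟩
  obtain ⟨bb, hb1, hb2, hb3⟩ := mkBasis' Q e f hH ![xv, yv] hz hperp (by
    rw [herm_finrank hK hF]
    simp
    omega)
  have hH' : HypFam Q (fun i => bb (Sum.inl (Sum.inl i))) (fun i => bb (Sum.inl (Sum.inr i))) := by
    simpa only [hb1, hb2] using hH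
  have hperp' : ∀ j i, polar Q (bb (Sum.inr j)) (bb (Sum.inl (Sum.inl i))) = 0 ∧
      polar Q (bb (Sum.inr j)) (bb (Sum.inl (Sum.inr i))) = 0 := by
    simpa only [hb1, hb2, hb3] using hperp
  have hev := basis_eval Q bb hH' hperp'
  have hQb : ∀ v, Cfsg.quadFormMinus (r + r) F a b (bb.repr v) = Q v := by
    intro v
    rw [hev v]
    unfold Cfsg.quadFormMinus
    congr 1
    rw [Fin.sum_univ_two, hb3, hb3]
    simp only [Matrix.cons_val_zero, Matrix.cons_val_one]
    have h1 : Q (bb.repr v (Sum.inr 0) • xv + bb.repr v (Sum.inr 1) • yv)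
        = Q (bb.repr v (Sum.inr 0) • xv) + Q (bb.repr v (Sum.inr 1) • yv)
          + polar Q (bb.repr v (Sum.inr 0) • xv) (bb.repr v (Sum.inr 1) • yv) :=
      QuadraticMap.map_add Q _ _
    rw [h1, QuadraticMap.map_smul, QuadraticMap.map_smul, polar_smul_left, polar_smul_right, hQx,
      hQy, hpxy]
    simp only [smul_eq_mul]
    ring
  show ∃ φ : ↥(Cfsg.GU (r + r + 1) K q) →* ↥(Cfsg.isometryGroup F
    (Cfsg.quadFormMinus (r + r) F a b)), Function.Injective φ
  refine embed_isometry bb _ Q hQb (Cfsg.GU (r + r + 1) K q) ?_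
  intro g hg v
  apply hinj
  rw [hQ1, hQ1]
  exact hg v v

end Cfsg.Agent.S2641
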