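import Cfsg.Statements.S2642
import Cfsg.Agent.Lib.Helper40.GUUnip

set_option autoImplicit false
open Cfsg

namespace Cfsg.Agent.S2642

/-- Number of conjugacy classes of elements of order p in the general unitary group GU_n(q), q a power of p: every unipotent Jordan type occurs and the classes correspond to the partitions of n with all parts at most p other than the all-ones partition, exactly as in GL_n; so there are (number of partitions of n with parts ≤ p) − 1 classes. -/
theorem result {K : Type*} [Field K] [Fintype K] {p q n : ℕ} [Fact p.Prime] [CharP K p] (hK : Fintype.card K = q ^ 2) : Nat.card {C : ConjClasses ↥(Cfsg.GU n K q) // ∃ g : ↥(Cfsg.GU n K q), ConjClasses.mk g = C ∧ orderOf g = p} = (Finset.univ.filter (fun μ : Nat.Partition n => ∀ a ∈ μ.parts, a ≤ p)).card - 1 := by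
  classical
  have hp := (Fact.out : p.Prime)
  let S : Set (Nat.Partition n) :=
    {μ | (∀ a ∈ μ.parts, a ≤ p) ∧ ¬ (∀ a ∈ μ.parts, a ≤ 1)}
  have key := Cfsg.Agent.Lib.Helper40.UnitaryWall.card_classes_GU (K := K) (q := q) (n := n) hK
    (fun g => orderOf g = p) S (by
      intro g
      rw [← Subgroup.orderOf_coe, Cfsg.Agent.Lib.Helper40.Jordan.orderOf_eq_char_iff p (g : GL (Fin n) K)]
      constructor
      · rintro ⟨h1, h2⟩
        obtain ⟨μ, hμ⟩ := Cfsg.Agent.Lib.Helper40.Jordan.exists_partition _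
          (⟨p, h1⟩ : IsNilpotent (((g : GL (Fin n) K) : Matrix (Fin n) (Fin n) K) - 1))
        refine ⟨μ, ⟨?_, ?_⟩, hμ⟩
        · exact (Cfsg.Agent.Lib.Helper40.Jordan.mat_pow_eq_zero_iff hμ p).1 h1
        · intro h3
          exact h2 ((Cfsg.Agent.Lib.Helper40.Jordan.mat_pow_eq_zero_iff hμ 1).2 h3)
      · rintro ⟨μ, ⟨h1, h2⟩, hμ⟩
        refine ⟨(Cfsg.Agent.Lib.Helper40.Jordan.mat_pow_eq_zero_iff hμ p).2 h1, ?_⟩
        intro h3
        exact h2 ((Cfsg.Agent.Lib.Helper40.Jordan.mat_pow_eq_zero_iff hμ 1).1 h3))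
  rw [key]
  let μ₀ : Nat.Partition n := ⟨Multiset.replicate n 1, fun {i} hi => by
    rw [Multiset.eq_of_mem_replicate hi]
    exact Nat.one_pos, by simp⟩
  have hμ₀ : ∀ μ : Nat.Partition n, (∀ a ∈ μ.parts, a ≤ 1) ↔ μ = μ₀ := by
    intro μ
    constructor
    · intro h
      apply Nat.Partition.ext
      have h1 : ∀ b ∈ μ.parts, b = 1 := fun b hb => le_antisymm (h b hb) (μ.parts_pos hb)
      have h2 := Multiset.eq_replicate_card.2 h1
      have h3 : Multiset.card μ.parts = n := by
        have h4 := μ.parts_sum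
        rw [h2] at h4
        simpa using h4
      rw [h2, h3]
    · rintro rfl a ha
      exact (Multiset.eq_of_mem_replicate ha).le
  have hS : S = ↑((Finset.univ.filter (fun μ : Nat.Partition n => ∀ a ∈ μ.parts, a ≤ p)).erase μ₀) := by
    ext μ
    simp only [S, Set.mem_ofPred_eq, Finset.coe_erase, Finset.coe_filter, Finset.mem_univ, true_and,
      Set.mem_sdiff, Set.mem_singleton_iff, hμ₀]
  rw [hS, Nat.card_coe_set_eq, Set.ncard_coe_finset, Finset.card_erase_of_mem]
  rw [Finset.mem_filter]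
  refine ⟨Finset.mem_univ _, fun a ha => ?_⟩
  rw [Multiset.eq_of_mem_replicate ha]
  exact hp.one_lt.le

end Cfsg.Agent.S2642
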