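import Mathlib
import Cfsg.Statements.S2644
import Cfsg.Agent.Lib.Helper44.UnitaryTransv
-- import your own Cfsg.Agent.* helpers here

set_option autoImplicit false
open Cfsg

namespace Cfsg.Agent.S2644

/-- In the special unitary group SU_n(q) with n ≥ 3 (isometries of Σ u_i v_i^q of determinant one over the field with q² elements), any two transvections (elements t with t − 1 of rank one and square zero) are conjugate. -/
theorem result {K : Type*} [Field K] [Fintype K] {q n : ℕ} (hK : Fintype.card K = q ^ 2) (hn : 3 ≤ n) (s t : ↥(Cfsg.SU n K q)) (hs : Cfsg.IsTransvection (((s : GL (Fin n) K) : Matrix (Fin n) (Fin n) K))) (ht : Cfsg.IsTransvection (((t : GL (Fin n) K) : Matrix (Fin n) (Fin n) K))) : IsConj s t := by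
  have hS : Cfsg.Agent.Lib.Helper45.IsHermIso n K q
      (((s : GL (Fin n) K) : Matrix (Fin n) (Fin n) K)) := s.2
  have hT : Cfsg.Agent.Lib.Helper45.IsHermIso n K q
      (((t : GL (Fin n) K) : Matrix (Fin n) (Fin n) K)) := t.2
  obtain ⟨G, hG, hGdet, hGST⟩ :=
    Cfsg.Agent.Lib.Helper44.su_transvections_conj hK hn _ _ hS hT hs ht
  have hg' : (⟨G, hGdet⟩ : Matrix.SpecialLinearGroup (Fin n) K) ∈ Cfsg.SU n K q := by
    intro u v
    exact hG u v
  rw [isConj_iff]
  refine ⟨⟨⟨G, hGdet⟩, hg'⟩, ?_⟩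
  rw [mul_inv_eq_iff_eq_mul]
  apply Subtype.ext
  apply Subtype.ext
  exact hGST

end Cfsg.Agent.S2644
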