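import Mathlib
import Cfsg.Statements.S2665
-- import your own Cfsg.Agent.* helpers here

set_option autoImplicit false
open scoped MatrixGroups
open Cfsg

namespace Cfsg.Agent.S2665

open Polynomial in
theorem exists_fixed {K V : Type*} [Field K] [IsAlgClosed K] [AddCommGroup V] [Module K V]
    [FiniteDimensional K V] (q : ℕ) (hq : 2 ≤ q) (Φ : V →+ V)
    (hsmul : ∀ (a : K) (v : V), Φ (a • v) = a ^ q • Φ v) (hinj : ∀ v, Φ v = 0 → v = 0)
    (w : V) (hw : w ≠ 0) : ∃ v, v ≠ 0 ∧ Φ v = v := by
  classical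
  let s : ℕ → V := fun i => Φ^[i] w
  have hs0 : s 0 = w := rfl
  have hs_succ : ∀ i, s (i + 1) = Φ (s i) := fun i => Function.iterate_succ_apply' Φ i w
  have hinj' : ∀ x y, Φ x = Φ y → x = y := by
    intro x y h
    have h1 : Φ (x - y) = 0 := by rw [map_sub, h, sub_self]
    exact sub_eq_zero.mp (hinj _ h1)
  have hsnoc : ∀ k, (fun i : Fin (k + 1) => s i) = Fin.snoc (fun i : Fin k => s i) (s k) := by
    intro k
    funext i
    refine Fin.lastCases ?_ (fun j => ?_) i
    · simp
    · simp
  have hex : ∃ k, s k ∈ Submodule.span K (Set.range (fun i : Fin k => s i)) := by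
    by_contra hcon
    push Not at hcon
    have hli : ∀ k, LinearIndependent K (fun i : Fin k => s i) := by
      intro k
      induction k with
      | zero => exact linearIndependent_empty_type
      | succ k ih =>
        rw [hsnoc, linearIndependent_finSnoc]
        exact ⟨ih, hcon k⟩
    have h1 := (hli (Module.finrank K V + 1)).fintype_card_le_finrank
    simp at h1
  obtain ⟨k, hk, hmin⟩ : ∃ k, s k ∈ Submodule.span K (Set.range (fun i : Fin k => s i)) ∧
      ∀ j < k, s j ∉ Submodule.span K (Set.range (fun i : Fin j => s i)) :=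
    ⟨Nat.find hex, Nat.find_spec hex, fun j hj => Nat.find_min hex hj⟩
  have hli : ∀ j ≤ k, LinearIndependent K (fun i : Fin j => s i) := by
    intro j
    induction j with
    | zero =>
      intro _
      exact linearIndependent_empty_type
    | succ j ih =>
      intro hj
      rw [hsnoc, linearIndependent_finSnoc]
      exact ⟨ih (by omega), hmin j (by omega)⟩
  have hk0 : k ≠ 0 := by
    rintro rfl
    rw [Set.range_eq_empty, Submodule.span_empty, Submodule.mem_bot] at hk
    exact hw hk
  obtain ⟨m, rfl⟩ := Nat.exists_eq_succ_of_ne_zero hk0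
  obtain ⟨a, ha⟩ := (Submodule.mem_span_range_iff_exists_fun K).mp hk
  let a' : ℕ → K := fun i => if h : i < m + 1 then a ⟨i, h⟩ else 0
  have ha' : ∑ i ∈ Finset.range (m + 1), a' i • s i = s (m + 1) := by
    rw [Finset.sum_range, ← ha]
    refine Finset.sum_congr rfl (fun i _ => ?_)
    show (if h : (i : ℕ) < m + 1 then a ⟨i, h⟩ else 0) • s i = a i • s i
    rw [dif_pos i.2]
  have hq0 : 0 < q := by omega
  -- a' 0 ≠ 0
  have ha0 : a' 0 ≠ 0 := by
    intro h0
    choose b hb using fun i => IsAlgClosed.exists_pow_nat_eq (a' (i + 1)) hq0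
    have h1 : Φ (∑ i ∈ Finset.range m, b i • s i) = Φ (s m) := by
      rw [map_sum, ← hs_succ, ← ha', Finset.sum_range_succ', h0, zero_smul, add_zero]
      refine Finset.sum_congr rfl (fun i _ => ?_)
      rw [hsmul, hb, hs_succ]
    have h2 := hinj' _ _ h1
    apply hmin m (by omega)
    rw [← h2]
    refine Submodule.sum_mem _ (fun i hi => ?_)
    refine Submodule.smul_mem _ _ (Submodule.subset_span ?_)
    exact ⟨⟨i, Finset.mem_range.mp hi⟩, rfl⟩
  -- polynomials
  let Cp : ℕ → K[X] := fun i =>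
    Nat.rec (C (a' 0) * X ^ q) (fun j P => P ^ q + C (a' (j + 1)) * X ^ q) i
  have hC0 : Cp 0 = C (a' 0) * X ^ q := rfl
  have hCs : ∀ i, Cp (i + 1) = (Cp i) ^ q + C (a' (i + 1)) * X ^ q := fun i => rfl
  have hdvd : ∀ i, (X : K[X]) ^ q ∣ Cp i := by
    intro i
    induction i with
    | zero => rw [hC0]; exact dvd_mul_left _ _
    | succ i ih =>
      rw [hCs]
      exact dvd_add (dvd_pow ih (by omega)) (dvd_mul_left _ _)
  have hdeg : ∀ i, (Cp i).natDegree = q ^ (i + 1) := by
    intro i
    induction i with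
    | zero => rw [hC0, natDegree_C_mul_X_pow q _ ha0, zero_add, pow_one]
    | succ i ih =>
      rw [hCs]
      have h1 : ((Cp i) ^ q).natDegree = q * q ^ (i + 1) := by
        rw [natDegree_pow, ih]
      have h2 : (C (a' (i + 1)) * X ^ q : K[X]).natDegree ≤ q := natDegree_C_mul_X_pow_le _ _
      have h3 : q < q * q ^ (i + 1) := by
        have : 2 ≤ q ^ (i + 1) := by
          calc 2 ≤ q := hq
            _ = q ^ 1 := (pow_one q).symm
            _ ≤ q ^ (i + 1) := Nat.pow_le_pow_right hq0 (by omega)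
        nlinarith
      rw [natDegree_add_eq_left_of_natDegree_lt (by omega), h1]
      ring
  have hqm : 2 ≤ q ^ (m + 1) := by
    calc 2 ≤ q := hq
      _ = q ^ 1 := (pow_one q).symm
      _ ≤ q ^ (m + 1) := Nat.pow_le_pow_right hq0 (by omega)
  have hPdeg : (Cp m - X).natDegree = q ^ (m + 1) := by
    rw [natDegree_sub_eq_left_of_natDegree_lt, hdeg]
    rw [natDegree_X, hdeg]
    exact lt_of_lt_of_le one_lt_two hqm
  have hRnat : (Cp m - X).divX.natDegree ≠ 0 := by
    rw [natDegree_divX_eq_natDegree_tsub_one, hPdeg]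
    omega
  have hRdeg : (Cp m - X).divX.degree ≠ 0 := by
    intro hd
    exact hRnat (natDegree_eq_zero_iff_degree_le_zero.mpr hd.le)
  obtain ⟨t, ht⟩ := IsAlgClosed.exists_root _ hRdeg
  have hc1 : (Cp m).coeff 1 = 0 := X_pow_dvd_iff.mp (hdvd m) 1 (by omega)
  have hc0 : (Cp m).coeff 0 = 0 := X_pow_dvd_iff.mp (hdvd m) 0 (by omega)
  have ht0 : t ≠ 0 := by
    rintro rfl
    rw [IsRoot, ← coeff_zero_eq_eval_zero, coeff_divX, coeff_sub, hc1, coeff_X_one] at ht
    simp at ht
  have hPt : (Cp m).eval t = t := by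
    have h1 := divX_mul_X_add (Cp m - X)
    have h2 := congrArg (eval t) h1
    rw [eval_add, eval_mul, ht.eq_zero, zero_mul, zero_add, eval_C, coeff_sub, hc0, coeff_X_zero,
      sub_zero, eval_sub, eval_X] at h2
    exact (sub_eq_zero.mp h2.symm)
  let c : ℕ → K := fun i => (Cp i).eval t
  have hc0' : c 0 = a' 0 * t ^ q := by
    simp [c, hC0]
  have hcs : ∀ i, c (i + 1) = (c i) ^ q + a' (i + 1) * t ^ q := by
    intro i
    simp [c, hCs]
  have hcm : c m = t := hPt
  refine ⟨∑ i ∈ Finset.range (m + 1), c i • s i, ?_, ?_⟩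
  · intro h0
    rw [Finset.sum_range] at h0
    have h1 := Fintype.linearIndependent_iff.mp (hli (m + 1) le_rfl) (fun i => c i) h0
      ⟨m, by omega⟩
    exact ht0 (hcm ▸ h1)
  · rw [map_sum]
    have h1 : ∑ i ∈ Finset.range (m + 1), Φ (c i • s i)
        = ∑ i ∈ Finset.range m, (c i) ^ q • s (i + 1) + t ^ q • s (m + 1) := by
      rw [Finset.sum_range_succ, hsmul, hcm, hs_succ]
      congr 1
      refine Finset.sum_congr rfl (fun i _ => ?_)
      rw [hsmul, hs_succ]
    rw [h1, ← ha', Finset.sum_range_succ' (fun i => a' i • s i),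
      Finset.sum_range_succ' (fun i => c i • s i), hc0', smul_add, Finset.smul_sum, ← add_assoc,
      ← Finset.sum_add_distrib, smul_smul, mul_comm (t ^ q) (a' 0)]
    congr 1
    refine Finset.sum_congr rfl (fun i _ => ?_)
    rw [hcs, add_smul, smul_smul, mul_comm (t ^ q)]

theorem exists_eigvec {K : Type*} [Field K] [IsAlgClosed K] (p : ℕ) [Fact p.Prime] [CharP K p]
    (f : ℕ) (hf : 1 ≤ f) (n : ℕ) (h : Matrix (Fin (n + 1)) (Fin (n + 1)) K) (hh : IsUnit h.det) :
    ∃ v : Fin (n + 1) → K, v ≠ 0 ∧ (fun i => iterateFrobenius K p f (v i)) = h.mulVec v := by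
  classical
  have hp : 2 ≤ p := (Fact.out : p.Prime).two_le
  have hq : 2 ≤ p ^ f := by
    calc 2 ≤ p := hp
      _ = p ^ 1 := (pow_one p).symm
      _ ≤ p ^ f := Nat.pow_le_pow_right (by omega) hf
  let Φ : (Fin (n + 1) → K) →+ (Fin (n + 1) → K) :=
    (Matrix.mulVecLin h⁻¹).toAddMonoidHom.comp
      ((iterateFrobenius K p f).toAddMonoidHom.compLeft (Fin (n + 1)))
  have hΦ : ∀ v, Φ v = h⁻¹.mulVec (fun i => iterateFrobenius K p f (v i)) := fun v => rfl
  have hmul : ∀ u : Fin (n + 1) → K, h.mulVec (h⁻¹.mulVec u) = u := by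
    intro u
    rw [Matrix.mulVec_mulVec, Matrix.mul_nonsing_inv h hh, Matrix.one_mulVec]
  obtain ⟨v, hv0, hv⟩ := exists_fixed (K := K) (p ^ f) hq Φ (by
      intro (a : K) (v : Fin (n + 1) → K)
      rw [hΦ, hΦ, ← Matrix.mulVec_smul]
      congr 1
      funext i
      simp [iterateFrobenius_def, mul_pow]) (by
      intro v hv
      rw [hΦ] at hv
      have h1 := congrArg h.mulVec hv
      rw [hmul, Matrix.mulVec_zero] at h1
      funext i
      have h2 := congrFun h1 i
      exact (iterateFrobenius K p f).injective (by simpa using h2))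
    (Pi.single 0 1) (by
      intro h0
      have := congrFun h0 0
      simp at this)
  refine ⟨v, hv0, ?_⟩
  rw [hΦ] at hv
  have h1 := congrArg h.mulVec hv
  rw [hmul] at h1
  exact h1

theorem exists_lang {K : Type*} [Field K] [IsAlgClosed K] (p : ℕ) [Fact p.Prime] [CharP K p]
    (f : ℕ) (hf : 1 ≤ f) : ∀ (n : ℕ) (h : Matrix (Fin n) (Fin n) K), IsUnit h.det →
    ∃ x : Matrix (Fin n) (Fin n) K, IsUnit x.det ∧ x.map (iterateFrobenius K p f) = h * x := by
  classical
  have hp : 2 ≤ p := (Fact.out : p.Prime).two_le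
  have hq : 2 ≤ p ^ f := by
    calc 2 ≤ p := hp
      _ = p ^ 1 := (pow_one p).symm
      _ ≤ p ^ f := Nat.pow_le_pow_right (by omega) hf
  intro n
  induction n with
  | zero =>
    intro h _
    refine ⟨1, by simp, ?_⟩
    ext i j
    exact i.elim0
  | succ n ih =>
    intro h hh
    set φ := iterateFrobenius K p f with hφ
    obtain ⟨v, hv0, hv⟩ := exists_eigvec p f hf n h hh
    -- the vector u with u ⬝ e₀ = 1 and u ⬝ v ≠ 0
    obtain ⟨u, hu1, hu2⟩ : ∃ u : Fin (n + 1) → K, u 0 = 1 ∧ u ⬝ᵥ v ≠ 0 := by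
      by_cases h0 : v 0 = 0
      · obtain ⟨i₀, hi₀⟩ : ∃ i, v i ≠ 0 := by
          by_contra hcon
          push Not at hcon
          exact hv0 (funext hcon)
        have hi0 : i₀ ≠ 0 := by
          rintro rfl
          exact hi₀ h0
        refine ⟨Pi.single 0 1 + Pi.single i₀ 1, by simp [hi0], ?_⟩
        rw [add_dotProduct, single_dotProduct, single_dotProduct, h0]
        simpa using hi₀
      · refine ⟨Pi.single 0 1, by simp, ?_⟩
        rw [single_dotProduct]
        simpa using h0
    let e₀ : Fin (n + 1) → K := Pi.single 0 1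
    let y : Matrix (Fin (n + 1)) (Fin (n + 1)) K := 1 + Matrix.vecMulVec (v - e₀) u
    have hye : y.mulVec e₀ = v := by
      simp only [y, Matrix.add_mulVec, Matrix.one_mulVec, Matrix.vecMulVec_mulVec]
      have : u ⬝ᵥ e₀ = 1 := by
        simp [e₀, hu1]
      rw [this]
      simp
    have hydet : y.det = u ⬝ᵥ v := by
      simp only [y]
      rw [Matrix.vecMulVec_eq (ι := Unit), Matrix.det_one_add_replicateCol_mul_replicateRow,
        dotProduct_sub]
      have : u ⬝ᵥ e₀ = 1 := by
        simp [e₀, hu1]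
      rw [this]
      ring
    have hyu : IsUnit y.det := by
      rw [hydet]
      exact isUnit_iff_ne_zero.mpr hu2
    have hyφu : IsUnit (y.map φ).det := by
      have h1 : (y.map φ).det = φ y.det := by
        rw [RingHom.map_det]
        rfl
      rw [h1]
      exact hyu.map φ
    have hyφe : (y.map φ).mulVec e₀ = fun i => φ (v i) := by
      funext i
      have h1 : (y.map φ).mulVec e₀ i = φ (y i 0) := by
        simp [e₀]
      have h2 : y.mulVec e₀ i = y i 0 := by
        simp [e₀]
      rw [h1, ← h2, hye]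
    let h' : Matrix (Fin (n + 1)) (Fin (n + 1)) K := (y.map φ)⁻¹ * h * y
    have hh'e : h'.mulVec e₀ = e₀ := by
      simp only [h']
      rw [← Matrix.mulVec_mulVec, ← Matrix.mulVec_mulVec, hye, ← hv, ← hyφe, Matrix.mulVec_mulVec,
        Matrix.nonsing_inv_mul _ hyφu, Matrix.one_mulVec]
    have hcol : ∀ i, h' i 0 = if i = 0 then 1 else 0 := by
      intro i
      have h1 := congrFun hh'e i
      simp only [e₀, Matrix.mulVec_single_one] at h1
      rw [Pi.single_apply] at h1
      exact h1
    have hh'det : IsUnit h'.det := by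
      simp only [h', Matrix.det_mul]
      exact IsUnit.mul (IsUnit.mul (Matrix.isUnit_nonsing_inv_det_iff.mpr hyφu) hh) hyu
    let h'' : Matrix (Fin n) (Fin n) K := h'.submatrix Fin.succ Fin.succ
    have hdet' : h'.det = h''.det := by
      rw [Matrix.det_succ_column_zero, Fin.sum_univ_succ]
      simp [hcol, h'', Fin.succ_ne_zero]
    obtain ⟨x'', hx''u, hx''⟩ := ih h'' (by rw [← hdet']; exact hh'det)
    have hb : ∀ j : Fin n, ∃ b : K, φ b = b + ∑ l, h' 0 l.succ * x'' l j := by
      intro j
      have hdeg : (Polynomial.X ^ (p ^ f) - (Polynomial.X + Polynomial.C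
          (∑ l, h' 0 l.succ * x'' l j)) : Polynomial K).degree ≠ 0 := by
        have h1 : (Polynomial.X ^ (p ^ f) - (Polynomial.X + Polynomial.C
            (∑ l, h' 0 l.succ * x'' l j)) : Polynomial K).natDegree = p ^ f := by
          rw [Polynomial.natDegree_sub_eq_left_of_natDegree_lt, Polynomial.natDegree_X_pow]
          rw [Polynomial.natDegree_X_pow]
          calc (Polynomial.X + Polynomial.C (∑ l, h' 0 l.succ * x'' l j) : Polynomial K).natDegree
              ≤ 1 := (Polynomial.natDegree_X_add_C (∑ l, h' 0 l.succ * x'' l j)).le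
            _ < p ^ f := by omega
        intro hd
        have h2 := Polynomial.natDegree_eq_zero_iff_degree_le_zero.mpr hd.le
        omega
      obtain ⟨b, hb⟩ := IsAlgClosed.exists_root _ hdeg
      refine ⟨b, ?_⟩
      simp only [Polynomial.IsRoot, Polynomial.eval_sub, Polynomial.eval_pow, Polynomial.eval_X,
        Polynomial.eval_add, Polynomial.eval_C] at hb
      rw [hφ, iterateFrobenius_def]
      linear_combination hb
    choose b hb using hb
    let x' : Matrix (Fin (n + 1)) (Fin (n + 1)) K :=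
      Matrix.of (fun i j => Fin.cases (Fin.cases 1 b j) (fun i' => Fin.cases 0 (fun j' => x'' i' j') j) i)
    have hx'00 : x' 0 0 = 1 := rfl
    have hx'0s : ∀ j, x' 0 (Fin.succ j) = b j := fun j => rfl
    have hx's0 : ∀ i, x' (Fin.succ i) 0 = 0 := fun i => rfl
    have hx'ss : ∀ i j, x' (Fin.succ i) (Fin.succ j) = x'' i j := fun i j => rfl
    have hx'eq : x'.map φ = h' * x' := by
      ext i j
      rw [Matrix.map_apply, Matrix.mul_apply, Fin.sum_univ_succ]
      refine Fin.cases ?_ (fun i' => ?_) i <;> refine Fin.cases ?_ (fun j' => ?_) j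
      · simp [hx'00, hx's0, hcol]
      · simp [hx'0s, hx'ss, hcol, hb]
      · simp [hx's0, hx'00, hcol, Fin.succ_ne_zero]
      · have h1 := congrFun (congrFun hx'' i') j'
        simp only [Matrix.map_apply, Matrix.mul_apply, h'', Matrix.submatrix_apply] at h1
        simp [hx'0s, hx'ss, hcol, Fin.succ_ne_zero, h1]
    have hx'det : x'.det = x''.det := by
      rw [Matrix.det_succ_column_zero, Fin.sum_univ_succ]
      have h1 : x'.submatrix Fin.succ Fin.succ = x'' := by
        ext i j
        simp [hx'ss]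
      simp [hx'00, hx's0, h1]
    refine ⟨y * x', ?_, ?_⟩
    · rw [Matrix.det_mul, hx'det]
      exact hyu.mul hx''u
    · rw [Matrix.map_mul, hx'eq]
      simp only [h']
      rw [← Matrix.mul_assoc, ← Matrix.mul_assoc, ← Matrix.mul_assoc, Matrix.mul_nonsing_inv _ hyφu,
        Matrix.one_mul, Matrix.mul_assoc]

/-- The Lang–Steinberg Theorem for the general linear group. Let `K` be an algebraically closed field of prime characteristic `p`, let `q = p^f` with `f ≥ 1`, and let `σ` be the endomorphism of GL_n(K) raising every matrix entry to the `q`-th power. Then every element `g` of GL_n(K) can be written `g = x · σ(x)⁻¹` for some `x` in GL_n(K): the map `x ↦ x σ(x)⁻¹` is surjective. -/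
theorem result {K : Type*} [Field K] [IsAlgClosed K] (p : ℕ) [Fact p.Prime] [CharP K p]
    (f : ℕ) (hf : 1 ≤ f) (n : ℕ) (g : GL (Fin n) K) :
    ∃ x : GL (Fin n) K, g = x * (Matrix.GeneralLinearGroup.map (iterateFrobenius K p f) x)⁻¹ := by
  classical
  obtain ⟨x, hxu, hx⟩ := exists_lang p f hf n ((g⁻¹ : GL (Fin n) K) : Matrix (Fin n) (Fin n) K)
    (Matrix.isUnits_det_units g⁻¹)
  refine ⟨Matrix.GeneralLinearGroup.mk'' x hxu, ?_⟩
  rw [eq_mul_inv_iff_mul_eq]
  apply Units.ext
  have h1 : ((Matrix.GeneralLinearGroup.map (iterateFrobenius K p f)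
      (Matrix.GeneralLinearGroup.mk'' x hxu) : GL (Fin n) K) : Matrix (Fin n) (Fin n) K)
      = x.map (iterateFrobenius K p f) := by
    ext i j
    rw [Matrix.GeneralLinearGroup.map_apply]
    rfl
  rw [Units.val_mul, h1, hx, ← Matrix.mul_assoc, ← Units.val_mul, mul_inv_cancel, Units.val_one,
    Matrix.one_mul]
  rfl

end Cfsg.Agent.S2665
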