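import Cfsg.Statements.S2666
-- import your own Cfsg.Agent.* helpers here

set_option autoImplicit false
open Cfsg

namespace Cfsg.Agent.S2666

/-- Shintani descent, in an abstract form. Let `σ` be an automorphism of a group `X` such that the maps `a ↦ a·σ(a)⁻¹` and `a ↦ a·σᵉ(a)⁻¹` are surjective on `X` (the Lang–Steinberg property, which holds when `X` is a connected algebraic group and `σ` a Steinberg endomorphism), where `e ≥ 1`. Write `G` for the subgroup of fixed points of `σᵉ` and `H` for the subgroup of fixed points of `σ`. The `G`-conjugacy classes in the coset `G σ` of the semidirect product of `G` by `σ` correspond to the orbits of `G` on itself under twisted conjugation `g ↦ k g σ(k)⁻¹`, and the `e`-th power of `g σ` has `G`-part the norm `g σ(g) ⋯ σ^(e-1)(g)`. For `g` in `G` and any `a` with `g = a σ(a)⁻¹`, put `x = σᵉ(a)⁻¹ a`. Then: (1) `x` lies in `H`, and `a⁻¹ · (g σ(g) ⋯ σ^(e-1)(g)) · a = x`; (2) for `g, g'` in `G` with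 such elements `a, b` and `x, x'`, the elements `g, g'` are twisted-conjugate under `G` if and only if `x, x'` are conjugate in `H`; (3) every element of `H` arises as such an `x`. So `g ↦ x` induces a well-defined bijection from the twisted `G`-classes of `G` onto the conjugacy classes of `H` (the Shintani map). -/
theorem result {X : Type*} [Group X] (σ : MulAut X) (e : ℕ) (he : 1 ≤ e)
    (hL : ∀ g : X, ∃ a : X, g = a * (σ a)⁻¹) (hLe : ∀ g : X, ∃ a : X, g = a * ((σ ^ e) a)⁻¹) :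
    (∀ g ∈ (MulEquiv.toMonoidHom (σ ^ e)).eqLocus (MonoidHom.id X), ∀ a : X, g = a * (σ a)⁻¹ →
        ((σ ^ e) a)⁻¹ * a ∈ (MulEquiv.toMonoidHom σ).eqLocus (MonoidHom.id X) ∧
          a⁻¹ * ((List.range e).map (fun i => (σ ^ i) g)).prod * a = ((σ ^ e) a)⁻¹ * a) ∧
    (∀ g ∈ (MulEquiv.toMonoidHom (σ ^ e)).eqLocus (MonoidHom.id X), ∀ g' ∈ (MulEquiv.toMonoidHom (σ ^ e)).eqLocus (MonoidHom.id X), ∀ a b : X,
        g = a * (σ a)⁻¹ → g' = b * (σ b)⁻¹ →
          ((∃ k ∈ (MulEquiv.toMonoidHom (σ ^ e)).eqLocus (MonoidHom.id X), g' = k * g * (σ k)⁻¹) ↔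
            (∃ h ∈ (MulEquiv.toMonoidHom σ).eqLocus (MonoidHom.id X), ((σ ^ e) b)⁻¹ * b = h * (((σ ^ e) a)⁻¹ * a) * h⁻¹))) ∧
    (∀ x ∈ (MulEquiv.toMonoidHom σ).eqLocus (MonoidHom.id X), ∃ g ∈ (MulEquiv.toMonoidHom (σ ^ e)).eqLocus (MonoidHom.id X), ∃ a : X,
        g = a * (σ a)⁻¹ ∧ ((σ ^ e) a)⁻¹ * a = x) := by
  have fixpow : ∀ h : X, σ h = h → ∀ n : ℕ, (σ ^ n) h = h := by
    intro h hh n
    induction n with
    | zero => simp
    | succ n ih => rw [pow_succ, MulAut.mul_apply, hh, ih]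
  have comm : ∀ (n : ℕ) (y : X), (σ ^ n) (σ y) = σ ((σ ^ n) y) := by
    intro n y
    have h1 : (σ ^ n) (σ y) = (σ ^ n * σ) y := rfl
    have h2 : σ ((σ ^ n) y) = (σ * σ ^ n) y := rfl
    rw [h1, h2, ← pow_succ, ← pow_succ']
  have tele : ∀ (a : X) (n : ℕ),
      ((List.range n).map (fun i => (σ ^ i) (a * (σ a)⁻¹))).prod = a * ((σ ^ n) a)⁻¹ := by
    intro a n
    induction n with
    | zero => simp
    | succ n ih =>
      rw [List.range_succ, List.map_append, List.prod_append, ih]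
      simp only [List.map_cons, List.map_nil, List.prod_cons, List.prod_nil, mul_one, map_mul,
        map_inv]
      rw [comm n a]
      have h1 : (σ ^ (n + 1)) a = σ ((σ ^ n) a) := by
        rw [pow_succ']; rfl
      rw [h1]; group
  have mem1 : ∀ y : X, y ∈ (MulEquiv.toMonoidHom σ).eqLocus (MonoidHom.id X) ↔ σ y = y := fun y => Iff.rfl
  have mem2 : ∀ y : X, y ∈ (MulEquiv.toMonoidHom (σ ^ e)).eqLocus (MonoidHom.id X) ↔ (σ ^ e) y = y :=
    fun y => Iff.rfl
  refine ⟨?_, ?_, ?_⟩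
  · intro g hg a ha
    rw [mem2] at hg
    rw [mem1]
    subst ha
    refine ⟨?_, ?_⟩
    · rw [map_mul, map_inv, comm e a] at hg
      rw [map_mul, map_inv, ← comm e a]
      have h1 : ((σ ^ e) (σ a))⁻¹ = ((σ ^ e) a)⁻¹ * (a * (σ a)⁻¹) := by
        rw [comm e a, ← hg]; group
      rw [h1]; group
    · rw [tele a e]; group
  · intro g hg g' hg' a b ha hb
    rw [mem2] at hg hg'
    subst ha hb
    constructor
    · rintro ⟨k, hk, hkg⟩
      rw [mem2] at hk
      have hh : σ (b⁻¹ * k * a) = b⁻¹ * k * a := by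
        rw [map_mul, map_mul, map_inv]
        have h1 : (σ b)⁻¹ = b⁻¹ * (k * (a * (σ a)⁻¹) * (σ k)⁻¹) := by
          rw [← hkg]; group
        rw [h1]; group
      refine ⟨b⁻¹ * k * a, hh, ?_⟩
      have h3 := fixpow _ hh e
      rw [map_mul, map_mul, map_inv, hk] at h3
      calc ((σ ^ e) b)⁻¹ * b
          = (((σ ^ e) b)⁻¹ * k * (σ ^ e) a) * (((σ ^ e) a)⁻¹ * a) * (b⁻¹ * k * a)⁻¹ := by group
        _ = b⁻¹ * k * a * (((σ ^ e) a)⁻¹ * a) * (b⁻¹ * k * a)⁻¹ := by rw [h3]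
    · rintro ⟨h, hh, hx⟩
      rw [mem1] at hh
      refine ⟨b * h * a⁻¹, ?_, ?_⟩
      · rw [mem2, map_mul, map_mul, map_inv, fixpow h hh e]
        calc (σ ^ e) b * h * ((σ ^ e) a)⁻¹
            = (σ ^ e) b * (h * (((σ ^ e) a)⁻¹ * a) * h⁻¹) * h * a⁻¹ := by group
          _ = b * h * a⁻¹ := by rw [← hx]; group
      · rw [map_mul, map_mul, map_inv, hh]; group
  · intro x hx
    rw [mem1] at hx
    obtain ⟨c, hc⟩ := hLe x⁻¹
    have hxc : x = (σ ^ e) c * c⁻¹ := by
      have : x = (x⁻¹)⁻¹ := by group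
      rw [this, hc]; group
    refine ⟨c⁻¹ * (σ c⁻¹)⁻¹, ?_, c⁻¹, rfl, ?_⟩
    · rw [mem2]
      simp only [map_mul, map_inv, comm]
      have h1 : (σ ^ e) c = x * c := by rw [hxc]; group
      rw [h1, map_mul, hx]; group
    · rw [map_inv, hxc]; group

end Cfsg.Agent.S2666
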