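import Cfsg.Statements.S2668

set_option autoImplicit false
open Cfsg

namespace Cfsg.Agent.S2668

theorem tele {X : Type*} [Group X] (σ : MulAut X) (a : X) (d : ℕ) :
    ((List.range d).map (fun i => (σ ^ i) (a * (σ a)⁻¹))).prod = a * ((σ ^ d) a)⁻¹ := by
  induction d with
  | zero => simp
  | succ n ih =>
    rw [List.range_succ, List.map_append, List.prod_append, ih]
    simp only [List.map_cons, List.map_nil, List.prod_cons, List.prod_nil, mul_one, map_mul, map_inv]
    have h1 : (σ ^ n) (σ a) = (σ ^ (n + 1)) a := by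
      rw [pow_succ]; rfl
    rw [h1]
    group

theorem powfix {X : Type*} [Group X] (τ : MulAut X) (a x : X) (hx : x = (τ a)⁻¹ * a) (hfix : τ x = x) (k : ℕ) :
    ((τ ^ k) a)⁻¹ * a = x ^ k := by
  induction k with
  | zero => simp
  | succ n ih =>
    have h1 : (τ ^ (n + 1)) a = τ ((τ ^ n) a) := by
      rw [pow_succ']; rfl
    have h2 : τ (((τ ^ n) a)⁻¹ * a) = τ (x ^ n) := by rw [ih]
    rw [map_mul, map_inv, map_pow, hfix] at h2
    rw [h1, pow_succ, ← h2, hx]
    group

/-- Shintani descent and powers (abstract form). Let `σ` be an automorphism of a group `X`, `e ≥ 1` and `d ≥ 1`, let `g` be fixed by `σᵉ` and let `a` satisfy `g = a σ(a)⁻¹`, so that the Shintani map of `(X, σ, e)` sends the class of `g σ` to the class of `x = σᵉ(a)⁻¹ a`. Put `h = g σ(g) ⋯ σ^(d-1)(g)`, the part in `X` of the `d`-th power `(g σ)^d = h σ^d`. Then `h = a σ^d(a)⁻¹` (so `a` also serves for `h` with respect to `σ^d`), `h` is fixed by `(σ^d)ᵉ`, and `(σ^d)ᵉ(a)⁻¹ a = x^d`: the Shintani map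 of `(X, σ^d, e)` sends the class of `(g σ)^d` to the class of `x^d`. (When `d` divides `e`, the Shintani map of `(X, σ^d, e/d)` sends it to the class of `x` itself, since `(σ^d)^(e/d) = σᵉ`.) -/
theorem result {X : Type*} [Group X] (σ : MulAut X) (e d : ℕ) (he : 1 ≤ e) (hd : 1 ≤ d)
    (g : X) (hg : g ∈ (MulEquiv.toMonoidHom (σ ^ e)).eqLocus (MonoidHom.id X)) (a : X) (ha : g = a * (σ a)⁻¹) :
    ((List.range d).map (fun i => (σ ^ i) g)).prod = a * ((σ ^ d) a)⁻¹ ∧
      ((List.range d).map (fun i => (σ ^ i) g)).prod ∈ (MulEquiv.toMonoidHom ((σ ^ d) ^ e)).eqLocus (MonoidHom.id X) ∧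
      (((σ ^ d) ^ e) a)⁻¹ * a = (((σ ^ e) a)⁻¹ * a) ^ d := by
  have hg' : (σ ^ e) g = g := hg
  have hcomm : ∀ i : ℕ, (σ ^ e) ((σ ^ i) g) = (σ ^ i) g := by
    intro i
    have : (σ ^ e) ((σ ^ i) g) = (σ ^ i) ((σ ^ e) g) := by
      have h := (Commute.pow_pow (Commute.refl σ) e i).eq
      have h' := congrArg (fun τ : MulAut X => τ g) h
      simpa [MulAut.mul_apply] using h'
    rw [this, hg']
  have hprodfix : ∀ n : ℕ, (σ ^ e) (((List.range n).map (fun i => (σ ^ i) g)).prod) =
      ((List.range n).map (fun i => (σ ^ i) g)).prod := by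
    intro n
    induction n with
    | zero => simp
    | succ n ih =>
      rw [List.range_succ, List.map_append, List.prod_append, map_mul, ih]
      simp [hcomm]
  have hde : (σ ^ d) ^ e = (σ ^ e) ^ d := by
    rw [← pow_mul, ← pow_mul, mul_comm]
  have hfixpow : ∀ (τ : MulAut X) (y : X), τ y = y → ∀ k : ℕ, (τ ^ k) y = y := by
    intro τ y hy k
    induction k with
    | zero => simp
    | succ n ih =>
      rw [pow_succ, MulAut.mul_apply, hy, ih]
  refine ⟨?_, ?_, ?_⟩
  · rw [ha]; exact tele σ a d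
  · show ((σ ^ d) ^ e) _ = _
    rw [hde]
    exact hfixpow _ _ (hprodfix d) d
  · rw [hde]
    -- x is fixed by σ
    set x := ((σ ^ e) a)⁻¹ * a with hx
    have hσx : σ x = x := by
      have h1 : (σ ^ e) (a * (σ a)⁻¹) = a * (σ a)⁻¹ := by rw [← ha]; exact hg'
      rw [map_mul, map_inv] at h1
      have h2 : (σ ^ e) (σ a) = σ ((σ ^ e) a) := by
        have h := (Commute.pow_self σ e).eq
        have h' := congrArg (fun τ : MulAut X => τ a) h
        simpa [MulAut.mul_apply] using h'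
      rw [h2] at h1
      rw [hx, map_mul, map_inv]
      have h3 : (σ ((σ ^ e) a))⁻¹ = ((σ ^ e) a)⁻¹ * a * (σ a)⁻¹ := by
        rw [mul_assoc, ← h1]; group
      rw [h3]; group
    have hex : (σ ^ e) x = x := hfixpow σ x hσx e
    exact powfix (σ ^ e) a x hx hex d

end Cfsg.Agent.S2668
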