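import Cfsg.Statements.S2669

set_option autoImplicit false
open Cfsg

namespace Cfsg.Agent.S2669

/-- Pairs `(k, h)` with `k⁻¹ a h ∈ Y`, counted through the first coordinate. -/
theorem card_pairs_left {X : Type*} [Group X] (P Q Y : Subgroup X) (a : X) :
    Nat.card {p : P × Q // (p.1 : X)⁻¹ * a * (p.2 : X) ∈ Y} =
      Nat.card {k : P // ∃ h : Q, (k : X)⁻¹ * a * (h : X) ∈ Y} * Nat.card ↥(Y ⊓ Q) := by
  classical
  rw [← Nat.card_prod]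
  let h₀ : {k : P // ∃ h : Q, (k : X)⁻¹ * a * (h : X) ∈ Y} → Q := fun k => Classical.choose k.2
  have h₀spec : ∀ k : {k : P // ∃ h : Q, (k : X)⁻¹ * a * (h : X) ∈ Y},
      ((k : P) : X)⁻¹ * a * (h₀ k : X) ∈ Y := fun k => Classical.choose_spec k.2
  refine Nat.card_congr
    { toFun := fun p => (⟨p.1.1, ⟨p.1.2, p.2⟩⟩,
        ⟨((h₀ ⟨p.1.1, ⟨p.1.2, p.2⟩⟩ : Q) : X)⁻¹ * (p.1.2 : X), ?_, ?_⟩)
      invFun := fun kz => ⟨(kz.1.1, h₀ kz.1 * ⟨kz.2.1, kz.2.2.2⟩), ?_⟩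
      left_inv := ?_
      right_inv := ?_ }
  · have h1 := h₀spec ⟨p.1.1, ⟨p.1.2, p.2⟩⟩
    have h2 := p.2
    have h3 := Y.mul_mem (Y.inv_mem h1) h2
    have : (((p.1.1 : P) : X)⁻¹ * a * ((h₀ ⟨p.1.1, ⟨p.1.2, p.2⟩⟩ : Q) : X))⁻¹ *
        (((p.1.1 : P) : X)⁻¹ * a * (p.1.2 : X)) =
        ((h₀ ⟨p.1.1, ⟨p.1.2, p.2⟩⟩ : Q) : X)⁻¹ * (p.1.2 : X) := by group
    rw [← this]; exact h3
  · exact Q.mul_mem (Q.inv_mem (h₀ _).2) p.1.2.2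
  · have h1 := h₀spec kz.1
    have h3 := Y.mul_mem h1 kz.2.2.1
    simpa [mul_assoc] using h3
  · rintro ⟨⟨k, h⟩, hp⟩
    apply Subtype.ext
    apply Prod.ext
    · rfl
    · apply Subtype.ext
      simp
  · rintro ⟨⟨k, hk⟩, ⟨z, hz1, hz2⟩⟩
    apply Prod.ext
    · rfl
    · apply Subtype.ext
      simp

/-- Pairs `(k, h)` with `k⁻¹ a h ∈ Y`, counted through the second coordinate. -/
theorem card_pairs_right {X : Type*} [Group X] (P Q Y : Subgroup X) (a : X) :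
    Nat.card {p : P × Q // (p.1 : X)⁻¹ * a * (p.2 : X) ∈ Y} =
      Nat.card {h : Q // ∃ k : P, (k : X)⁻¹ * a * (h : X) ∈ Y} * Nat.card ↥(Y ⊓ P) := by
  classical
  rw [← Nat.card_prod]
  let k₀ : {h : Q // ∃ k : P, (k : X)⁻¹ * a * (h : X) ∈ Y} → P := fun h => Classical.choose h.2
  have k₀spec : ∀ h : {h : Q // ∃ k : P, (k : X)⁻¹ * a * (h : X) ∈ Y},
      ((k₀ h : P) : X)⁻¹ * a * ((h : Q) : X) ∈ Y := fun h => Classical.choose_spec h.2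
  refine Nat.card_congr
    { toFun := fun p => (⟨p.1.2, ⟨p.1.1, p.2⟩⟩,
        ⟨(p.1.1 : X)⁻¹ * ((k₀ ⟨p.1.2, ⟨p.1.1, p.2⟩⟩ : P) : X), ?_, ?_⟩)
      invFun := fun hz => ⟨(k₀ hz.1 * (⟨hz.2.1, hz.2.2.2⟩ : P)⁻¹, hz.1.1), ?_⟩
      left_inv := ?_
      right_inv := ?_ }
  · have h1 := k₀spec ⟨p.1.2, ⟨p.1.1, p.2⟩⟩
    have h2 := p.2
    have h3 := Y.mul_mem h2 (Y.inv_mem h1)
    have : (((p.1.1 : P) : X)⁻¹ * a * (p.1.2 : X)) *
        (((k₀ ⟨p.1.2, ⟨p.1.1, p.2⟩⟩ : P) : X)⁻¹ * a * (p.1.2 : X))⁻¹ =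
        (p.1.1 : X)⁻¹ * ((k₀ ⟨p.1.2, ⟨p.1.1, p.2⟩⟩ : P) : X) := by group
    rw [← this]; exact h3
  · exact P.mul_mem (P.inv_mem p.1.1.2) (k₀ _).2
  · have h1 := k₀spec hz.1
    have h3 := Y.mul_mem hz.2.2.1 h1
    have : (hz.2 : X) * (((k₀ hz.1 : P) : X)⁻¹ * a * ((hz.1 : Q) : X)) =
        (((k₀ hz.1 * (⟨hz.2.1, hz.2.2.2⟩ : P)⁻¹ : P) : X))⁻¹ * a * ((hz.1 : Q) : X) := by
      simp [mul_assoc]
    rw [← this]; exact h3
  · rintro ⟨⟨k, h⟩, hp⟩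
    apply Subtype.ext
    apply Prod.ext
    · apply Subtype.ext
      simp
    · rfl
  · rintro ⟨⟨h, hh⟩, ⟨z, hz1, hz2⟩⟩
    apply Prod.ext
    · rfl
    · apply Subtype.ext
      simp

theorem pow_fix {X : Type*} [Group X] (τ : MulAut X) (y : X) (hy : τ y = y) (k : ℕ) :
    (τ ^ k) y = y := by
  induction k with
  | zero => simp
  | succ n ih => rw [pow_succ, MulAut.mul_apply, hy, ih]

theorem pow_mem {X : Type*} [Group X] (τ : MulAut X) (Y : Subgroup X)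
    (hY : ∀ y : X, y ∈ Y ↔ τ y ∈ Y) (k : ℕ) (y : X) (hy : y ∈ Y) : (τ ^ k) y ∈ Y := by
  induction k with
  | zero => simpa using hy
  | succ n ih => rw [pow_succ', MulAut.mul_apply]; exact (hY _).1 ih

/-- Lang-type lemma: for `τ` stabilising `Y` with `y ↦ y τ(y)⁻¹` onto `Y`, an element `u` has
`u τ(u)⁻¹ ∈ Y` iff `u ∈ Y · Fix(τ)`. -/
theorem lang_iff {X : Type*} [Group X] (τ : MulAut X) (Y : Subgroup X)
    (hY : ∀ y : X, y ∈ Y → τ y ∈ Y)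
    (hYL : ∀ y ∈ Y, ∃ a ∈ Y, y = a * (τ a)⁻¹) (u : X) :
    u * (τ u)⁻¹ ∈ Y ↔ ∃ h : X, τ h = h ∧ u * h ∈ Y := by
  constructor
  · intro hu
    obtain ⟨y, hy, hyu⟩ := hYL _ hu
    refine ⟨u⁻¹ * y, ?_, ?_⟩
    · rw [map_mul, map_inv]
      have h1 : (τ u)⁻¹ = u⁻¹ * y * (τ y)⁻¹ := by rw [mul_assoc, ← hyu]; group
      rw [h1]; group
    · simpa using hy
  · rintro ⟨h, hh, huh⟩
    have h1 : u * (τ u)⁻¹ = (u * h) * (τ (u * h))⁻¹ := by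
      rw [map_mul, hh]; group
    rw [h1]
    exact Y.mul_mem huh (Y.inv_mem (hY _ huh))

/-- Shintani descent preserves numbers of fixed points on coset spaces (abstract form). Let `σ` be an automorphism of a group `X` and `e ≥ 1`; write `G` for the fixed points of `σᵉ` and `H` for the fixed points of `σ`, and assume `G` is finite. Let `Y` be a `σ`-stable subgroup of `X` on which the maps `a ↦ a σ(a)⁻¹` and `a ↦ a σᵉ(a)⁻¹` are surjective (as for a closed connected `σ`-stable subgroup of an algebraic group). Let `g ∈ G`, let `a ∈ X` satisfy `g = a σ(a)⁻¹` and put `x = σᵉ(a)⁻¹ a` (the Shintani image, an element of `H`). The element `g σ` of the semidirect product acts on the cosets of `Y ∩ G` in `G` by `k (Y ∩ G) ↦ g σ(k) (Y ∩ G)`, fixing that coset exactly when `k⁻¹ g σ(k) ∈ Y`; and `x` fixes the coset `h (Y ∩ H)` of `H` exactly when `h⁻¹ x h ∈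 Y`. Then the two numbers of fixed cosets agree; in cross-multiplied form, `#{k ∈ G : k⁻¹ g σ(k) ∈ Y} · |Y ∩ H| = #{h ∈ H : h⁻¹ x h ∈ Y} · |Y ∩ G|`. -/
theorem result {X : Type*} [Group X] (σ : MulAut X) (e : ℕ) (he : 1 ≤ e)
    [Finite ↥((MulEquiv.toMonoidHom (σ ^ e)).eqLocus (MonoidHom.id X))]
    (Y : Subgroup X) (hY : ∀ y : X, y ∈ Y ↔ σ y ∈ Y)
    (hYL : ∀ y ∈ Y, ∃ a ∈ Y, y = a * (σ a)⁻¹) (hYLe : ∀ y ∈ Y, ∃ a ∈ Y, y = a * ((σ ^ e) a)⁻¹)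
    (g : X) (hg : g ∈ (MulEquiv.toMonoidHom (σ ^ e)).eqLocus (MonoidHom.id X)) (a : X) (ha : g = a * (σ a)⁻¹) :
    Nat.card {k : ↥((MulEquiv.toMonoidHom (σ ^ e)).eqLocus (MonoidHom.id X)) // (k : X)⁻¹ * g * σ k ∈ Y} *
        Nat.card ↥(Y ⊓ (MulEquiv.toMonoidHom σ).eqLocus (MonoidHom.id X)) =
      Nat.card {h : ↥((MulEquiv.toMonoidHom σ).eqLocus (MonoidHom.id X)) // (h : X)⁻¹ * (((σ ^ e) a)⁻¹ * a) * h ∈ Y} *
        Nat.card ↥(Y ⊓ (MulEquiv.toMonoidHom (σ ^ e)).eqLocus (MonoidHom.id X)) := by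
  set G : Subgroup X := (MulEquiv.toMonoidHom (σ ^ e)).eqLocus (MonoidHom.id X) with hGdef
  set H : Subgroup X := (MulEquiv.toMonoidHom σ).eqLocus (MonoidHom.id X) with hHdef
  have hGmem : ∀ z : X, z ∈ G ↔ (σ ^ e) z = z := fun z => Iff.rfl
  have hHmem : ∀ z : X, z ∈ H ↔ σ z = z := fun z => Iff.rfl
  have hYe : ∀ y : X, y ∈ Y → (σ ^ e) y ∈ Y := fun y hy => pow_mem σ Y hY e y hy
  have hY1 : ∀ y : X, y ∈ Y → σ y ∈ Y := fun y hy => (hY y).1 hy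
  -- the two predicates in terms of pairs
  have hA : ∀ k : G, ((k : X)⁻¹ * g * σ k ∈ Y ↔ ∃ h : H, (k : X)⁻¹ * a * (h : X) ∈ Y) := by
    intro k
    have h1 : (k : X)⁻¹ * g * σ k = ((k : X)⁻¹ * a) * (σ ((k : X)⁻¹ * a))⁻¹ := by
      rw [ha, map_mul, map_inv]; group
    rw [h1, lang_iff σ Y hY1 hYL]
    constructor
    · rintro ⟨h, hh, hm⟩
      exact ⟨⟨h, hh⟩, hm⟩
    · rintro ⟨h, hm⟩
      exact ⟨h, h.2, hm⟩
  have hB : ∀ h : H, ((h : X)⁻¹ * (((σ ^ e) a)⁻¹ * a) * h ∈ Y ↔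
      ∃ k : G, (k : X)⁻¹ * a * (h : X) ∈ Y) := by
    intro h
    have hhe : (σ ^ e) (h : X) = h := pow_fix σ h h.2 e
    -- w = (a h)⁻¹
    have h1 : ((h : X)⁻¹ * (((σ ^ e) a)⁻¹ * a) * h)⁻¹ =
        (a * (h : X))⁻¹ * ((σ ^ e) ((a * (h : X))⁻¹))⁻¹ := by
      rw [map_inv, map_mul, hhe]; group
    rw [← Y.inv_mem_iff, h1, lang_iff (σ ^ e) Y hYe hYLe]
    constructor
    · rintro ⟨k, hk, hm⟩
      refine ⟨⟨k, hk⟩, ?_⟩
      have := Y.inv_mem hm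
      simpa [mul_assoc] using this
    · rintro ⟨k, hm⟩
      refine ⟨(k : X), k.2, ?_⟩
      have := Y.inv_mem hm
      simpa [mul_assoc] using this
  have e1 : Nat.card {k : G // (k : X)⁻¹ * g * σ k ∈ Y} =
      Nat.card {k : G // ∃ h : H, (k : X)⁻¹ * a * (h : X) ∈ Y} :=
    Nat.card_congr (Equiv.subtypeEquivRight hA)
  have e2 : Nat.card {h : H // (h : X)⁻¹ * (((σ ^ e) a)⁻¹ * a) * h ∈ Y} =
      Nat.card {h : H // ∃ k : G, (k : X)⁻¹ * a * (h : X) ∈ Y} :=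
    Nat.card_congr (Equiv.subtypeEquivRight hB)
  rw [e1, e2, ← card_pairs_left G H Y a, ← card_pairs_right G H Y a]

end Cfsg.Agent.S2669
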