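import Cfsg.Statements.S2676
import Cfsg.Agent.Lib.Helper99.SpNF7

set_option autoImplicit false
open Classical
open Cfsg

namespace Cfsg.Agent.S2676

open Matrix Module Cfsg.Agent.Lib.Helper99

/-- Counting classes of elements of order `p` through a complete invariant of the classes of
elements with `g ^ p = 1`. -/
theorem count_aux {G : Type*} [Group G] [Finite G] {S : Type*} [Fintype S] (p : ℕ)
    [Fact p.Prime] (Rel : G → S → Prop)
    (ha : ∀ g : G, g ^ p = 1 → ∃ s, Rel g s)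
    (hb : ∀ g s s', g ^ p = 1 → Rel g s → Rel g s' → s = s')
    (hc : ∀ g g' s, g ^ p = 1 → g' ^ p = 1 → Rel g s → Rel g' s → IsConj g g')
    (hd : ∀ g g' s, g ^ p = 1 → g' ^ p = 1 → IsConj g g' → Rel g s → Rel g' s)
    (he : ∀ s, ∃ g : G, g ^ p = 1 ∧ Rel g s) :
    Nat.card {C : ConjClasses G // ∃ g : G, ConjClasses.mk g = C ∧ orderOf g = p}
      = Fintype.card S - 1 := by
  obtain ⟨A, hAdef⟩ : ∃ A : Set (ConjClasses G),
      A = {C | ∃ g : G, ConjClasses.mk g = C ∧ g ^ p = 1} := ⟨_, rfl⟩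
  obtain ⟨A₀, hA₀def⟩ : ∃ A₀ : Set (ConjClasses G),
      A₀ = {C | ∃ g : G, ConjClasses.mk g = C ∧ orderOf g = p} := ⟨_, rfl⟩
  have hA : A = insert (ConjClasses.mk 1) A₀ := by
    rw [hAdef, hA₀def]
    ext C
    constructor
    · rintro ⟨g, rfl, hg⟩
      by_cases h1 : g = 1
      · left
        rw [h1]
      · right
        exact ⟨g, rfl, orderOf_eq_prime_iff.mpr ⟨hg, h1⟩⟩
    · rintro (rfl | ⟨g, rfl, hg⟩)
      · exact ⟨1, rfl, one_pow p⟩
      · exact ⟨g, rfl, (orderOf_eq_prime_iff.mp hg).1⟩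
  have hnot : ConjClasses.mk (1 : G) ∉ A₀ := by
    rw [hA₀def]
    rintro ⟨g, hg, ho⟩
    have h1 : IsConj g 1 := ConjClasses.mk_eq_mk_iff_isConj.mp hg
    have h3 : g = 1 := isConj_one_right.mp h1.symm
    exact (orderOf_eq_prime_iff.mp ho).2 h3
  have hmemA' : ∀ C ∈ A, ∃ g : G, ConjClasses.mk g = C ∧ g ^ p = 1 := by
    rw [hAdef]
    intro C hC
    exact hC
  have hmemA : ∀ C : ↥A, ∃ g : G, ConjClasses.mk g = C.1 ∧ g ^ p = 1 :=
    fun C => hmemA' C.1 C.2
  have hcardA : Nat.card ↥A = Fintype.card S := by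
    choose gC hgC using hmemA
    choose f hf using fun C : ↥A => ha (gC C) (hgC C).2
    have hbij : Function.Bijective f := by
      constructor
      · intro C C' hCC'
        have h0 : Rel (gC C') (f C) := by
          rw [hCC']
          exact hf C'
        have h1 := hc (gC C) (gC C') (f C) (hgC C).2 (hgC C').2 (hf C) h0
        apply Subtype.ext
        rw [← (hgC C).1, ← (hgC C').1]
        exact ConjClasses.mk_eq_mk_iff_isConj.mpr h1
      · intro s
        obtain ⟨g, hg, hgs⟩ := he s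
        have hmem : ConjClasses.mk g ∈ A := by
          rw [hAdef]
          exact ⟨g, rfl, hg⟩
        refine ⟨⟨ConjClasses.mk g, hmem⟩, ?_⟩
        have h1 : IsConj g (gC ⟨ConjClasses.mk g, hmem⟩) :=
          (ConjClasses.mk_eq_mk_iff_isConj.mp (hgC ⟨ConjClasses.mk g, hmem⟩).1).symm
        have h3 := hd g (gC ⟨ConjClasses.mk g, hmem⟩) s hg (hgC ⟨ConjClasses.mk g, hmem⟩).2 h1 hgs
        exact hb (gC ⟨ConjClasses.mk g, hmem⟩) (f ⟨ConjClasses.mk g, hmem⟩) s
          (hgC ⟨ConjClasses.mk g, hmem⟩).2 (hf ⟨ConjClasses.mk g, hmem⟩) h3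
    rw [Nat.card_eq_of_bijective f hbij, Nat.card_eq_fintype_card]
  have hgoal : Nat.card {C : ConjClasses G // ∃ g : G, ConjClasses.mk g = C ∧ orderOf g = p}
      = Nat.card ↥A₀ := by
    rw [hA₀def]
    rfl
  rw [hgoal, Nat.card_coe_set_eq, ← hcardA, Nat.card_coe_set_eq, hA,
    Set.ncard_insert_of_notMem hnot (Set.toFinite _)]
  omega

/-- Multiplicity function of a partition. -/
def rOf {n : ℕ} (μ : Nat.Partition n) (k : ℕ) : ℕ := μ.parts.count k

/-- Discriminants attached to a choice of signs on the even parts. -/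
noncomputable def dOf {F : Type*} [Field F] (ζ : F) {n : ℕ} (μ : Nat.Partition n)
    (ε : ↥(μ.parts.toFinset.filter (fun j : ℕ => Even j)) → Bool) (k : ℕ) : F :=
  if h : k ∈ μ.parts.toFinset.filter (fun j : ℕ => Even j) then (if ε ⟨k, h⟩ then ζ else 1)
  else 1

/-- Admissible partitions. -/
abbrev PAdm (p m : ℕ) : Type :=
  {μ : Nat.Partition (2 * m) // (∀ a ∈ μ.parts, a ≤ p) ∧
    ∀ j : ℕ, Odd j → Even (μ.parts.count j)}

/-- Signed admissible partitions. -/
abbrev SData (p m : ℕ) : Type :=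
  Σ μ : PAdm p m, (↥(μ.1.parts.toFinset.filter (fun j : ℕ => Even j)) → Bool)

theorem dOf_ne_zero {F : Type*} [Field F] (ζ : F) (hζ0 : ζ ≠ 0) {n : ℕ} (μ : Nat.Partition n)
    (ε : ↥(μ.parts.toFinset.filter (fun j : ℕ => Even j)) → Bool) (k : ℕ) :
    dOf ζ μ ε k ≠ 0 := by
  unfold dOf
  split_ifs
  · exact hζ0
  · exact one_ne_zero
  · exact one_ne_zero

theorem rel_a {F : Type*} [Field F] [Fintype F] {p : ℕ} [Fact p.Prime] [CharP F p]
    (h2 : (2 : F) ≠ 0) (hF : Odd (Fintype.card F)) (ζ : F) (hζ : ¬ IsSquare ζ) {m : ℕ}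
    (g : Matrix (Fin m ⊕ Fin m) (Fin m ⊕ Fin m) F)
    (hg : g ∈ Matrix.symplecticGroup (Fin m) F) (hgp : g ^ p = 1) :
    ∃ s : SData p m, snRel p m g (rOf s.1.1) (dOf ζ s.1.1 s.2) := by
  obtain ⟨r, d, h0, hd, hpar, hrel⟩ := sn_rel_exists h2 hF ζ hζ g hg hgp
  have hζ0 : ζ ≠ 0 := by
    rintro rfl
    exact hζ IsSquare.zero
  have hd0 : ∀ k, d k ≠ 0 := by
    intro k
    rcases hd k with h | h
    · rw [h]
      exact one_ne_zero
    · rw [h]
      exact hζ0
  obtain ⟨u, hu⟩ := hrel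
  have hsum : ∑ k ∈ Finset.range (p + 1), r k * k = 2 * m := by
    have h1 := hu.finrank (sn_skew_of_unip h2 g hg hgp) (snStd_nd p r d hd0 hpar)
    rw [Module.finrank_fintype_fun_eq_card, Fintype.card_sum, Fintype.card_fin] at h1
    omega
  obtain ⟨parts, hparts⟩ : ∃ parts : Multiset ℕ,
      parts = ∑ k ∈ Finset.range (p + 1), Multiset.replicate (r k) k := ⟨_, rfl⟩
  have hcnt : ∀ j, parts.count j = if j ≤ p then r j else 0 := by
    intro j
    rw [hparts, Multiset.count_sum']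
    simp only [Multiset.count_replicate]
    rw [Finset.sum_ite_eq' (Finset.range (p + 1)) j (fun k => r k)]
    simp only [Finset.mem_range, Nat.lt_succ_iff]
  have hmem : ∀ a ∈ parts, a ≤ p ∧ 0 < a := by
    intro a ha
    rw [hparts, Multiset.mem_sum] at ha
    obtain ⟨k, hk, hak⟩ := ha
    rw [Multiset.mem_replicate] at hak
    rw [Finset.mem_range] at hk
    obtain ⟨hrk, rfl⟩ := hak
    refine ⟨by omega, ?_⟩
    rcases Nat.eq_zero_or_pos a with h | h
    · rw [h] at hrk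
      exact absurd h0 hrk
    · exact h
  have hpsum : parts.sum = 2 * m := by
    rw [hparts, Multiset.sum_sum, ← hsum]
    apply Finset.sum_congr rfl
    intro k _
    rw [Multiset.sum_replicate, smul_eq_mul]
  obtain ⟨μ, hμ⟩ : ∃ μ : Nat.Partition (2 * m), μ.parts = parts :=
    ⟨⟨parts, fun {i} hi => (hmem i hi).2, hpsum⟩, rfl⟩
  have hadm : (∀ a ∈ μ.parts, a ≤ p) ∧ ∀ j : ℕ, Odd j → Even (μ.parts.count j) := by
    rw [hμ]
    refine ⟨fun a ha => (hmem a ha).1, fun j hj => ?_⟩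
    rw [hcnt]
    split_ifs with h
    · exact hpar j h hj
    · exact ⟨0, rfl⟩
  have hrOf : ∀ k ≤ p, rOf μ k = r k := by
    intro k hk
    unfold rOf
    rw [hμ, hcnt, if_pos hk]
  refine ⟨⟨⟨μ, hadm⟩, fun x => decide (d x.1 = ζ)⟩, u, ?_⟩
  refine hu.congr hrOf ?_
  intro k hk a ha a' ha'
  unfold snStd
  rw [hrOf k hk]
  unfold snStd1
  by_cases hev : Even k
  · rw [if_pos hev, if_pos hev]
    have hmemk : k ∈ μ.parts.toFinset.filter (fun j : ℕ => Even j) := by
      rw [Finset.mem_filter, Multiset.mem_toFinset]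
      refine ⟨?_, hev⟩
      apply Multiset.count_pos.mp
      rw [hμ, hcnt k, if_pos hk]
      omega
    have hdk : dOf ζ μ (fun x => decide (d x.1 = ζ)) k = d k := by
      unfold dOf
      rw [dif_pos hmemk]
      show (if decide (d k = ζ) = true then ζ else 1) = d k
      by_cases hz : d k = ζ
      · rw [if_pos (decide_eq_true hz), hz]
      · rw [if_neg (fun h => hz (of_decide_eq_true h))]
        rcases hd k with h1 | h1
        · exact h1.symm
        · exact absurd h1 hz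
    rw [hdk]
  · rw [if_neg hev, if_neg hev]

theorem rel_b {F : Type*} [Field F] {p : ℕ} [Fact p.Prime] [CharP F p]
    (h2 : (2 : F) ≠ 0) (ζ : F) (hζ : ¬ IsSquare ζ) {m : ℕ}
    (g : Matrix (Fin m ⊕ Fin m) (Fin m ⊕ Fin m) F)
    (hg : g ∈ Matrix.symplecticGroup (Fin m) F) (hgp : g ^ p = 1) (s s' : SData p m)
    (h : snRel p m g (rOf s.1.1) (dOf ζ s.1.1 s.2))
    (h' : snRel p m g (rOf s'.1.1) (dOf ζ s'.1.1 s'.2)) : s = s' := by
  have hζ0 : ζ ≠ 0 := by
    rintro rfl
    exact hζ IsSquare.zero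
  obtain ⟨⟨μ, hμ⟩, ε⟩ := s
  obtain ⟨⟨μ', hμ'⟩, ε'⟩ := s'
  have key : ∀ k, 1 ≤ k → k ≤ p → rOf μ' k = rOf μ k ∧
      (Even k → 1 ≤ rOf μ k → ∃ t : F, dOf ζ μ' ε' k = t * t * dOf ζ μ ε k) :=
    fun k hk1 hk => sn_rel_unique h2 g hg hgp (dOf_ne_zero ζ hζ0 μ ε) (dOf_ne_zero ζ hζ0 μ' ε')
      (fun k _ hk => hμ.2 k hk) (fun k _ hk => hμ'.2 k hk) h h' hk1 hk
  have hμμ' : μ = μ' := by
    apply Nat.Partition.ext
    rw [Multiset.ext]
    intro a
    by_cases ha0 : a = 0
    · subst ha0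
      rw [Multiset.count_eq_zero.mpr (fun h => absurd (μ.parts_pos h) (lt_irrefl 0)),
        Multiset.count_eq_zero.mpr (fun h => absurd (μ'.parts_pos h) (lt_irrefl 0))]
    · by_cases hap : a ≤ p
      · exact ((key a (by omega) hap).1).symm
      · rw [Multiset.count_eq_zero.mpr (fun h => hap (hμ.1 a h)),
          Multiset.count_eq_zero.mpr (fun h => hap (hμ'.1 a h))]
  subst hμμ'
  have hεε' : ε = ε' := by
    funext x
    have hx := x.2
    rw [Finset.mem_filter, Multiset.mem_toFinset] at hx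
    have hk1 : 1 ≤ x.1 := μ.parts_pos hx.1
    have hkp : x.1 ≤ p := hμ.1 _ hx.1
    obtain ⟨t, ht⟩ := (key x.1 hk1 hkp).2 hx.2 (Multiset.count_pos.mpr hx.1)
    have e1 : dOf ζ μ ε x.1 = if ε x then ζ else 1 := by
      unfold dOf
      rw [dif_pos x.2]
    have e2 : dOf ζ μ ε' x.1 = if ε' x then ζ else 1 := by
      unfold dOf
      rw [dif_pos x.2]
    rw [e1, e2] at ht
    cases hε : ε x <;> cases hε' : ε' x
    · rfl
    · exfalso
      rw [hε, hε'] at ht
      simp only [if_true, Bool.false_eq_true, if_false, mul_one] at ht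
      exact hζ ⟨t, ht⟩
    · exfalso
      rw [hε, hε'] at ht
      simp only [if_true, Bool.false_eq_true, if_false] at ht
      have ht0 : t ≠ 0 := by
        rintro rfl
        simp at ht
      refine hζ ⟨t⁻¹, ?_⟩
      field_simp
      linear_combination -ht
    · rfl
  subst hεε'
  rfl

theorem rel_e {F : Type*} [Field F] {p : ℕ} [Fact p.Prime] [CharP F p]
    (h2 : (2 : F) ≠ 0) (ζ : F) (hζ0 : ζ ≠ 0) {m : ℕ} (s : SData p m) :
    ∃ g : Matrix (Fin m ⊕ Fin m) (Fin m ⊕ Fin m) F,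
      g ∈ Matrix.symplecticGroup (Fin m) F ∧ g ^ p = 1 ∧
        snRel p m g (rOf s.1.1) (dOf ζ s.1.1 s.2) := by
  obtain ⟨⟨μ, hμ⟩, ε⟩ := s
  refine sn_rel_model h2 (rOf μ) (dOf ζ μ ε) (dOf_ne_zero ζ hζ0 μ ε) (fun k _ hk => hμ.2 k hk) ?_
  have h1 := Finset.sum_multiset_count μ.parts
  rw [μ.parts_sum] at h1
  refine Eq.trans ?_ h1.symm
  symm
  have hsub : μ.parts.toFinset ⊆ Finset.range (p + 1) := by
    intro k hk
    rw [Multiset.mem_toFinset] at hk
    rw [Finset.mem_range]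
    have := hμ.1 k hk
    omega
  rw [Finset.sum_subset hsub]
  · apply Finset.sum_congr rfl
    intro k _
    rw [smul_eq_mul]
    rfl
  · intro k _ hk
    rw [Multiset.mem_toFinset] at hk
    rw [Multiset.count_eq_zero.mpr hk, zero_smul]

/-- Number of conjugacy classes of elements of order p in Sp_2m(q), q a power of the odd prime p: the classes correspond to the signed partitions of 2m — partitions with all parts at most p in which every odd part has even multiplicity, each even part size that occurs carrying a sign — other than the all-ones partition; so the count is the sum over such partitions of 2^(number of distinct even parts), minus one. -/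
theorem result {F : Type*} [Field F] [Fintype F] {p : ℕ} [Fact p.Prime] [CharP F p] (hp : p ≠ 2) (m : ℕ) : Nat.card {C : ConjClasses ↥(Matrix.symplecticGroup (Fin m) F) // ∃ g : Matrix.symplecticGroup (Fin m) F, ConjClasses.mk g = C ∧ orderOf g = p} = (∑ μ ∈ Finset.univ.filter (fun μ : Nat.Partition (2 * m) => (∀ a ∈ μ.parts, a ≤ p) ∧ ∀ j : ℕ, Odd j → Even (μ.parts.count j)), 2 ^ ((μ.parts.toFinset.filter (fun j : ℕ => Even j)).card)) - 1 := by
  have h2 : (2 : F) ≠ 0 := by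
    intro h
    have h1 : ((2 : ℕ) : F) = 0 := by exact_mod_cast h
    rw [CharP.cast_eq_zero_iff F p 2] at h1
    exact hp ((Nat.prime_dvd_prime_iff_eq (Fact.out) Nat.prime_two).mp h1)
  have hchar : ringChar F ≠ 2 := by
    rw [ringChar.eq F p]
    exact hp
  have hF : Odd (Fintype.card F) := Nat.odd_iff.mpr (FiniteField.odd_card_of_char_ne_two hchar)
  obtain ⟨ζ, hζ⟩ := FiniteField.exists_nonsquare hchar
  have hζ0 : ζ ≠ 0 := by
    rintro rfl
    exact hζ IsSquare.zero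
  have hpow : ∀ g : ↥(Matrix.symplecticGroup (Fin m) F), g ^ p = 1 → (g : Matrix (Fin m ⊕ Fin m) (Fin m ⊕ Fin m) F) ^ p = 1 := by
    intro g hg
    have h1 := congrArg Subtype.val hg
    rw [SubmonoidClass.coe_pow] at h1
    exact h1
  have hcount := count_aux (G := ↥(Matrix.symplecticGroup (Fin m) F)) (S := SData p m) p
    (fun g s => snRel p m (g : Matrix (Fin m ⊕ Fin m) (Fin m ⊕ Fin m) F) (rOf s.1.1)
      (dOf ζ s.1.1 s.2))
    (fun g hg => rel_a h2 hF ζ hζ g.1 g.2 (hpow g hg))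
    (fun g s s' hg h h' => rel_b h2 ζ hζ g.1 g.2 (hpow g hg) s s' h h')
    (fun g g' s hg hg' h h' => by
      obtain ⟨c, hc, hcg⟩ := sn_rel_conj h2 g.1 g'.1 g.2 g'.2 (hpow g hg) (hpow g' hg')
        (dOf_ne_zero ζ hζ0 s.1.1 s.2) (fun k _ hk => s.1.2.2 k hk) h h'
      rw [isConj_iff]
      refine ⟨⟨c, hc⟩, ?_⟩
      rw [mul_inv_eq_iff_eq_mul]
      exact Subtype.ext hcg)
    (fun g g' s hg hg' hconj h => by
      rw [isConj_iff] at hconj
      obtain ⟨c, hc⟩ := hconj
      rw [mul_inv_eq_iff_eq_mul] at hc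
      have hc' := congrArg Subtype.val hc
      exact sn_rel_of_conj h2 c.1 g.1 g'.1 c.2 hc' (hpow g hg) (hpow g' hg') h)
    (fun s => by
      obtain ⟨g, hg, hgp, hrel⟩ := rel_e (p := p) h2 ζ hζ0 s
      exact ⟨⟨g, hg⟩, Subtype.ext (by rw [SubmonoidClass.coe_pow]; exact hgp), hrel⟩)
  rw [hcount]
  congr 1
  rw [Fintype.card_sigma]
  have e1 : ∀ μ : PAdm p m,
      Fintype.card (↥(μ.1.parts.toFinset.filter (fun j : ℕ => Even j)) → Bool)
        = 2 ^ ((μ.1.parts.toFinset.filter (fun j : ℕ => Even j)).card) := by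
    intro μ
    rw [Fintype.card_fun, Fintype.card_bool, Fintype.card_coe]
  rw [Finset.sum_congr rfl (fun μ _ => e1 μ)]
  exact (Finset.sum_subtype (Finset.univ.filter (fun μ : Nat.Partition (2 * m) => (∀ a ∈ μ.parts, a ≤ p) ∧ ∀ j : ℕ, Odd j → Even (μ.parts.count j))) (fun x => by simp) (fun μ => 2 ^ ((μ.parts.toFinset.filter (fun j : ℕ => Even j)).card))).symm

end Cfsg.Agent.S2676
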