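import Cfsg.Statements.S2677
import Cfsg.Agent.Lib.Helper45.HermSigma
-- import your own Cfsg.Agent.* helpers here

set_option autoImplicit false
open Cfsg

namespace Cfsg.Agent.S2677

/-- Centraliser of a field automorphism of odd prime order in PGU_n(q): let q = q₀^r with r an odd prime, K the field with q² elements and σ a field automorphism of K of order r (fixed field of order q₀²). The elements g of GU_n(q) whose entrywise image under σ is a scalar multiple of g — those whose coset modulo the q + 1 unitary scalars is fixed by σ — number (q + 1)/(q₀ + 1) · |GU_n(q₀)|; equivalently the centraliser in PGU_n(q) of the induced automorphism has the order of PGU_n(q₀). -/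
theorem result {K : Type*} [Field K] [Fintype K] {q₀ q r n : ℕ} (hr : r.Prime) (hr2 : r ≠ 2) (hn : 1 ≤ n) (hq : q = q₀ ^ r) (hK : Fintype.card K = q ^ 2) (σ : K ≃+* K) (hσ : orderOf σ = r) : (Nat.card {g : ↥(Cfsg.GU n K q) // ∃ c : K, c ≠ 0 ∧ ((g : GL (Fin n) K) : Matrix (Fin n) (Fin n) K).map σ = c • ((g : GL (Fin n) K) : Matrix (Fin n) (Fin n) K)} : ℤ) = ((q + 1) / (q₀ + 1) : ℕ) * ((q₀ : ℤ) ^ (n * (n - 1) / 2) * ∏ i : Fin n, ((q₀ : ℤ) ^ ((i : ℕ) + 1) - (-1) ^ ((i : ℕ) + 1))) := by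
  classical
  have h := Cfsg.Agent.Lib.Helper45.card_GU_scalar_fixed hr hr2 hn hq hK σ hσ
  have hodd : Odd r := hr.odd_of_ne_two hr2
  have hq2 := Cfsg.Agent.Lib.Helper45.two_le_q hK
  have hq₀ : 1 ≤ q₀ := by
    rcases Nat.eq_zero_or_pos q₀ with h0 | h0
    · exfalso
      rw [hq, h0, zero_pow hr.ne_zero] at hq2
      omega
    · exact h0
  have hdvd : q₀ + 1 ∣ q + 1 := by
    have h1 := Odd.nat_add_dvd_pow_add_pow q₀ 1 hodd
    rwa [one_pow, ← hq] at h1
  obtain ⟨k, hk⟩ := hdvd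
  have hdiv : (q + 1) / (q₀ + 1) = k := by
    rw [hk]; exact Nat.mul_div_cancel_left k (by omega)
  rw [hdiv]
  rw [hk] at h
  have h2 : Nat.card {g : ↥(Cfsg.GU n K q) // ∃ c : K, c ≠ 0 ∧ ((g : GL (Fin n) K) : Matrix (Fin n) (Fin n) K).map σ = c • ((g : GL (Fin n) K) : Matrix (Fin n) (Fin n) K)} =
      k * (q₀ ^ (n * (n - 1) / 2) *
        ∏ i ∈ Finset.range n, (if Even i then q₀ ^ (i + 1) + 1 else q₀ ^ (i + 1) - 1)) := by
    apply Nat.eq_of_mul_eq_mul_right (show 0 < q₀ + 1 by omega)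
    rw [h]; ring
  rw [h2]
  push_cast
  congr 2
  rw [Finset.prod_range]
  apply Finset.prod_congr rfl
  intro i _
  have hpos : 1 ≤ q₀ ^ ((i : ℕ) + 1) := Nat.one_le_pow _ _ hq₀
  split_ifs with hi
  · have : Odd ((i : ℕ) + 1) := hi.add_one
    rw [this.neg_one_pow]
    ring
  · have hi' : Odd (i : ℕ) := Nat.not_even_iff_odd.mp hi
    have : Even ((i : ℕ) + 1) := hi'.add_one
    rw [this.neg_one_pow, Nat.cast_sub hpos]
    push_cast
    ring

end Cfsg.Agent.S2677
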