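import Cfsg.Statements.S2679
import Cfsg.Agent.Lib.Helper45.QuadRoots
import Cfsg.Agent.Lib.Helper45.QuadBase

set_option autoImplicit false
open Cfsg

namespace Cfsg.Agent.S2679

open Matrix Cfsg.Agent.Lib.Helper45

theorem mem_iso {ι : Type} [Fintype ι] [DecidableEq ι] {F : Type*} [Field F] (Q : (ι → F) → F)
    (g : GL ι F) :
    g ∈ Cfsg.isometryGroup F Q ↔ ∀ u, Q ((g : Matrix ι ι F) *ᵥ u) = Q u := by
  constructor
  · intro h u; exact h u u
  · intro h u _; exact h u

/-- The minus-type form as a quadratic map. -/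
noncomputable def minusQM (k : ℕ) (K : Type*) [Field K] (a c : K) :
    QuadraticMap K (((Fin k ⊕ Fin k) ⊕ Fin 2) → K) K :=
  (∑ i : Fin k, QuadraticMap.proj (Sum.inl (Sum.inl i)) (Sum.inl (Sum.inr i))) +
    (QuadraticMap.proj (Sum.inr 0) (Sum.inr 0) + a • QuadraticMap.proj (Sum.inr 0) (Sum.inr 1) +
      c • QuadraticMap.proj (Sum.inr 1) (Sum.inr 1))

theorem minusQM_apply (k : ℕ) (K : Type*) [Field K] (a c : K)
    (v : ((Fin k ⊕ Fin k) ⊕ Fin 2) → K) :
    minusQM k K a c v = Cfsg.quadFormMinus k K a c v := by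
  simp [minusQM, Cfsg.quadFormMinus, pow_two, mul_assoc]

/-- Change of coordinates from the minus-type form (split over `K`) to the plus-type form. -/
def Tmap {K : Type*} [Field K] (k : ℕ) (α β : K) :
    (((Fin k ⊕ Fin k) ⊕ Fin 2) → K) →ₗ[K] ((Fin (k + 1) ⊕ Fin (k + 1)) → K) where
  toFun v := Sum.elim
    (Fin.snoc (α := fun _ => K) (fun i => v (Sum.inl (Sum.inl i))) (v (Sum.inr 0) - α * v (Sum.inr 1)))
    (Fin.snoc (α := fun _ => K) (fun i => v (Sum.inl (Sum.inr i))) (v (Sum.inr 0) - β * v (Sum.inr 1)))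
  map_add' v w := by
    funext j
    rcases j with j | j
    · refine Fin.lastCases ?_ (fun i => ?_) j
      · simp; ring
      · simp
    · refine Fin.lastCases ?_ (fun i => ?_) j
      · simp; ring
      · simp
  map_smul' r v := by
    funext j
    rcases j with j | j
    · refine Fin.lastCases ?_ (fun i => ?_) j
      · simp; ring
      · simp
    · refine Fin.lastCases ?_ (fun i => ?_) j
      · simp; ring
      · simp

/-- The inverse change of coordinates. -/
def Smap {K : Type*} [Field K] (k : ℕ) (α β : K) :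
    ((Fin (k + 1) ⊕ Fin (k + 1)) → K) →ₗ[K] (((Fin k ⊕ Fin k) ⊕ Fin 2) → K) where
  toFun w := Sum.elim
    (Sum.elim (fun i => w (Sum.inl i.castSucc)) (fun i => w (Sum.inr i.castSucc)))
    ![(β * w (Sum.inl (Fin.last k)) - α * w (Sum.inr (Fin.last k))) / (β - α),
      (w (Sum.inl (Fin.last k)) - w (Sum.inr (Fin.last k))) / (β - α)]
  map_add' v w := by
    funext j
    rcases j with (j | j) | j
    · simp
    · simp
    · fin_cases j
      · simp; ring
      · simp; ring
  map_smul' r v := by
    funext j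
    rcases j with (j | j) | j
    · simp
    · simp
    · fin_cases j
      · simp; ring
      · simp; ring

theorem T_S {K : Type*} [Field K] (k : ℕ) (α β : K) (h : α ≠ β)
    (w : (Fin (k + 1) ⊕ Fin (k + 1)) → K) : Tmap k α β (Smap k α β w) = w := by
  have hne : β - α ≠ 0 := sub_ne_zero.mpr (Ne.symm h)
  funext j
  rcases j with j | j
  · refine Fin.lastCases ?_ (fun i => ?_) j
    · simp [Tmap, Smap]; field_simp; ring
    · simp [Tmap, Smap]
  · refine Fin.lastCases ?_ (fun i => ?_) j
    · simp [Tmap, Smap]; field_simp; ring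
    · simp [Tmap, Smap]

theorem S_T {K : Type*} [Field K] (k : ℕ) (α β : K) (h : α ≠ β)
    (v : ((Fin k ⊕ Fin k) ⊕ Fin 2) → K) : Smap k α β (Tmap k α β v) = v := by
  have hne : β - α ≠ 0 := sub_ne_zero.mpr (Ne.symm h)
  funext j
  rcases j with (j | j) | j
  · simp [Tmap, Smap]
  · simp [Tmap, Smap]
  · fin_cases j
    · simp [Tmap, Smap]; field_simp; ring
    · simp [Tmap, Smap]; field_simp

theorem plus_T {K : Type*} [Field K] (k : ℕ) (α β a c : K) (h1 : α + β = -a) (h2 : α * β = c)
    (v : ((Fin k ⊕ Fin k) ⊕ Fin 2) → K) :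
    Cfsg.quadFormPlus (k + 1) K (Tmap k α β v) = Cfsg.quadFormMinus k K a c v := by
  have ha : a = -(α + β) := by rw [h1]; ring
  subst ha
  subst h2
  simp only [Cfsg.quadFormPlus, Cfsg.quadFormMinus, Tmap, LinearMap.coe_mk, AddHom.coe_mk,
    Sum.elim_inl, Sum.elim_inr]
  rw [Fin.sum_univ_castSucc]
  simp only [Fin.snoc_castSucc, Fin.snoc_last]
  ring

/-- Index type of the minus-type form. -/
abbrev Im (k : ℕ) : Type := (Fin k ⊕ Fin k) ⊕ Fin 2

/-- Index type of the plus-type form. -/
abbrev Ip (k : ℕ) : Type := Fin (k + 1) ⊕ Fin (k + 1)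

theorem main {F K : Type*} [Field F] [Fintype F] [Field K] [Fintype K] {q : ℕ}
    (hF : Fintype.card F = q) (hK : Fintype.card K = q ^ 2) (k : ℕ) (a c : F)
    (hac : ∀ z₁ z₂ : F, z₁ ^ 2 + a * z₁ * z₂ + c * z₂ ^ 2 = 0 → z₁ = 0 ∧ z₂ = 0) :
    ∃ φ : ↥(Cfsg.isometryGroup F (Cfsg.quadFormMinus k F a c)) →*
        ↥(Cfsg.isometryGroup K (Cfsg.quadFormPlus (k + 1) K)), Function.Injective φ := by
  classical
  obtain ⟨f⟩ := exists_ringHom_of_card_sq hF hK
  obtain ⟨α, β, hne, hsum, hprod⟩ := exists_roots_of_anisotropic hF hK f a c hac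
  set P : Matrix (Ip k) (Im k) K := LinearMap.toMatrix' (Tmap k α β) with hP
  set P' : Matrix (Im k) (Ip k) K := LinearMap.toMatrix' (Smap k α β) with hP'
  have hPP' : P * P' = 1 := by
    rw [hP, hP', ← LinearMap.toMatrix'_comp]
    have : (Tmap k α β).comp (Smap k α β) = LinearMap.id := by
      apply LinearMap.ext
      intro w
      exact T_S k α β hne w
    rw [this, LinearMap.toMatrix'_id]
  have hP'P : P' * P = 1 := by
    rw [hP, hP', ← LinearMap.toMatrix'_comp]
    have : (Smap k α β).comp (Tmap k α β) = LinearMap.id := by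
      apply LinearMap.ext
      intro w
      exact S_T k α β hne w
    rw [this, LinearMap.toMatrix'_id]
  have hPv : ∀ v, P *ᵥ v = Tmap k α β v := by
    intro v
    rw [hP, ← Matrix.toLin'_apply, Matrix.toLin'_toMatrix']
  have hP'v : ∀ w, P' *ᵥ w = Smap k α β w := by
    intro w
    rw [hP', ← Matrix.toLin'_apply, Matrix.toLin'_toMatrix']
  let Ψ : Matrix (Im k) (Im k) F →* Matrix (Ip k) (Ip k) K :=
    { toFun := fun M => P * M.map f * P'
      map_one' := by
        show P * (1 : Matrix (Im k) (Im k) F).map f * P' = 1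
        rw [Matrix.map_one f (map_zero f) (map_one f), Matrix.mul_one, hPP']
      map_mul' := by
        intro M N
        show P * (M * N).map f * P' = P * M.map f * P' * (P * N.map f * P')
        have h1 : P * M.map f * P' * (P * N.map f * P') =
            P * M.map f * (P' * P) * (N.map f * P') := by
          simp only [Matrix.mul_assoc]
        rw [h1, hP'P, Matrix.mul_one, Matrix.map_mul]
        simp only [Matrix.mul_assoc] }
  have hΨ : ∀ M : Matrix (Im k) (Im k) F, Ψ M = P * M.map f * P' := fun M => rfl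
  let Φ : GL (Im k) F →* GL (Ip k) K := Units.map Ψ
  have hΦ : ∀ g : GL (Im k) F,
      ((Φ g : GL (Ip k) K) : Matrix (Ip k) (Ip k) K) =
        P * (g : Matrix (Im k) (Im k) F).map f * P' := fun g => rfl
  have hmem : ∀ g : ↥(Cfsg.isometryGroup F (Cfsg.quadFormMinus k F a c)),
      Φ (g : GL (Im k) F) ∈ Cfsg.isometryGroup K (Cfsg.quadFormPlus (k + 1) K) := by
    intro g
    rw [mem_iso]
    intro w
    have hg := (mem_iso _ _).1 g.2
    have hbase := isometry_baseChange f (Cfsg.quadFormMinus k F a c) (minusQM k K (f a) (f c))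
      (by
        intro u
        rw [minusQM_apply]
        simp [Cfsg.quadFormMinus, map_sum, map_add, map_mul, map_pow])
      ((g : GL (Im k) F) : Matrix (Im k) (Im k) F) hg
    rw [hΦ, ← Matrix.mulVec_mulVec, ← Matrix.mulVec_mulVec, hPv, hP'v,
      plus_T k α β (f a) (f c) hsum hprod, ← minusQM_apply, hbase, minusQM_apply,
      ← plus_T k α β (f a) (f c) hsum hprod, T_S k α β hne]
  refine ⟨(Φ.comp (Cfsg.isometryGroup F (Cfsg.quadFormMinus k F a c)).subtype).codRestrict
    (Cfsg.isometryGroup K (Cfsg.quadFormPlus (k + 1) K)) hmem, ?_⟩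
  intro x y hxy
  have h1 : Φ (x : GL (Im k) F) = Φ (y : GL (Im k) F) := by
    have := congrArg Subtype.val hxy
    exact this
  have h2 : P * ((x : GL (Im k) F) : Matrix (Im k) (Im k) F).map f * P' =
      P * ((y : GL (Im k) F) : Matrix (Im k) (Im k) F).map f * P' := by
    rw [← hΦ, ← hΦ, h1]
  have h3 : ((x : GL (Im k) F) : Matrix (Im k) (Im k) F).map f =
      ((y : GL (Im k) F) : Matrix (Im k) (Im k) F).map f := by
    have h4 := congrArg (fun M => P' * M * P) h2
    have h5 : ∀ M : Matrix (Im k) (Im k) K, P' * (P * M * P') * P = M := by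
      intro M
      calc P' * (P * M * P') * P = (P' * P) * M * (P' * P) := by simp only [Matrix.mul_assoc]
        _ = M := by rw [hP'P, Matrix.one_mul, Matrix.mul_one]
    simp only [h5] at h4
    exact h4
  apply Subtype.ext
  apply Units.ext
  ext i j
  have := congrFun (congrFun h3 i) j
  simp only [Matrix.map_apply] at this
  exact f.injective this

/-- An elliptic orthogonal group embeds in the hyperbolic orthogonal group of the same dimension over the quadratic extension: for a field F with q elements and a field K with q² elements there is an injective homomorphism from O⁻_2m(F) (isometries of Σ_(j<m−1) x_j y_j + z₁² + a z₁z₂ + c z₂², binary part anisotropic) to O⁺_2m(K) (isometries of Σ_(j<m) x_j y_j over K). -/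
theorem result {F K : Type*} [Field F] [Fintype F] [Field K] [Fintype K] {q : ℕ} (hF : Fintype.card F = q) (hK : Fintype.card K = q ^ 2) {m : ℕ} (hm : 1 ≤ m) (a c : F) (hac : ∀ z₁ z₂ : F, z₁ ^ 2 + a * z₁ * z₂ + c * z₂ ^ 2 = 0 → z₁ = 0 ∧ z₂ = 0) : ∃ φ : ↥(Cfsg.isometryGroup F (Cfsg.quadFormMinus (m - 1) F a c)) →* ↥(Cfsg.isometryGroup K (Cfsg.quadFormPlus m K)), Function.Injective φ := by
  obtain ⟨k, rfl⟩ : ∃ k, m = k + 1 := ⟨m - 1, by omega⟩
  exact main hF hK k a c hac

end Cfsg.Agent.S2679
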