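import Mathlib
import Cfsg.Statements.S2682
import Cfsg.Agent.Lib.Helper8.SpInvCent
-- import your own Cfsg.Agent.* helpers here

set_option autoImplicit false
open Cfsg

namespace Cfsg.Agent.S2682

open Cfsg.Agent.Lib.Helper8

/-- Centraliser order of an involution t of Sp_2m(q), q even, with s = rank(t − 1) even and f(v, tv) ≠ 0 for some v, f the symplectic form (type c_s): |C(t)| = q^(2ms − (3s² − 3s)/2 − 1) · |Sp_(s−2)(q)| · |Sp_(2m−2s)(q)|. -/
theorem result {F : Type*} [Field F] [Fintype F] [CharP F 2] {q : ℕ} (hF : Fintype.card F = q) {m s : ℕ} (t : Matrix.symplecticGroup (Fin m) F) (ht : t ^ 2 = 1) (hs : ((t : Matrix (Fin m ⊕ Fin m) (Fin m ⊕ Fin m) F) - 1).rank = s) (heven : Even s) (hna : ∃ v : Fin m ⊕ Fin m → F, Cfsg.sympForm m F v ((t : Matrix (Fin m ⊕ Fin m) (Fin m ⊕ Fin m) F).mulVec v) ≠ 0) : Nat.card ↥(Subgroup.centralizer ({t} : Set ↥(Matrix.symplecticGroup (Fin m) F))) = q ^ (2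 * m * s - (3 * s ^ 2 - 3 * s) / 2 - 1) * ((q : ℕ) ^ (((s - 2) / 2) ^ 2) * ∏ i : Fin ((s - 2) / 2), (q ^ (2 * ((i : ℕ) + 1)) - 1)) * ((q : ℕ) ^ ((m - s) ^ 2) * ∏ i : Fin (m - s), (q ^ (2 * ((i : ℕ) + 1)) - 1)) := by
  classical
  have h2 : (2 : F) = 0 := CharTwo.two_eq_zero
  subst hF
  have hT2 : (t : Matrix (Fin m ⊕ Fin m) (Fin m ⊕ Fin m) F) *
      (t : Matrix (Fin m ⊕ Fin m) (Fin m ⊕ Fin m) F) = 1 := by
    have := congrArg Subtype.val ht
    rw [pow_two] at this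
    exact this
  have hna' : ¬ ∀ v, Cfsg.sympForm m F v
      (Matrix.mulVec (t : Matrix (Fin m ⊕ Fin m) (Fin m ⊕ Fin m) F) v) = 0 := by
    intro h
    obtain ⟨v, hv⟩ := hna
    exact hv (h v)
  rw [SpInvCent.card_cent_even_na h2 t hT2 s hs heven hna',
    Fin.prod_univ_eq_prod_range (fun i => Fintype.card F ^ (2 * (i + 1)) - 1) ((s - 2) / 2),
    Fin.prod_univ_eq_prod_range (fun i => Fintype.card F ^ (2 * (i + 1)) - 1) (m - s)]

end Cfsg.Agent.S2682
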