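import Cfsg.Statements.S2693
import Cfsg.Agent.Lib.Helper43.AutPSp.Main
import Cfsg.Agent.Lib.Helper43.AutPSp.SylowTwo
-- import your own Cfsg.Agent.* helpers here

set_option autoImplicit false
open Cfsg

namespace Cfsg.Agent.S2693

/-- The automorphism group of a simple projective symplectic group PSp_{2m}(F) over a finite field of characteristic p, with m ≥ 2 and (2m, p) ≠ (4, 2), is generated by the automorphisms induced by the semilinear maps v ↦ g σ(v) with g conformal symplectic and σ an automorphism of F (the image of the projective semilinear symplectic group). For (2m, p) = (4, 2) the statement fails: a duality of the underlying polar space gives a further automorphism. -/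
theorem result {F : Type*} [Field F] [Fintype F] {p : ℕ} [Fact p.Prime] [CharP F p] {m : ℕ} (hm : 2 ≤ m) (h4 : m = 2 → p ≠ 2) :
    Cfsg.gammaPSp m F = ⊤ := by
  classical
  haveI : NeZero m := ⟨by omega⟩
  have h2 : (2 : F) = 0 → 3 ≤ m := by
    intro h
    have hp : p = 2 := by
      have h2' : ((2 : ℕ) : F) = 0 := by exact_mod_cast h
      have hdvd : p ∣ 2 := (CharP.cast_eq_zero_iff F p 2).mp h2'
      exact (Nat.prime_dvd_prime_iff_eq (Fact.out : p.Prime) Nat.prime_two).mp hdvd
    have : m ≠ 2 := fun hm2 => h4 hm2 hp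
    omega
  have H := Cfsg.Agent.Lib.Helper43.AutPSp.root_perm (m := m) (F := F) hm h2
  rw [eq_top_iff]
  intro α _
  obtain ⟨g, τ, rfl⟩ := Cfsg.Agent.Lib.Helper43.AutPSp.aut_structure hm H α
  exact Subgroup.subset_closure ⟨g.1, τ, g.2, Cfsg.Agent.Lib.Helper43.AutPSp.isInduced_cg_fg g τ⟩

end Cfsg.Agent.S2693
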