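import Cfsg.Statements.S2697
import Cfsg.Agent.Lib.Helper43.FieldAut.Coset
-- import your own Cfsg.Agent.* helpers here

set_option autoImplicit false
open Cfsg

namespace Cfsg.Agent.S2697

/-- Let T = PSL_n(F) be simple over a finite field (n ≥ 2; |F| ≥ 4 when n = 2) and let x be a field automorphism or a graph-field automorphism of T of prime order r. Then an element y of the coset Inndiag(T)·x (that is, y = δ x with δ in the inner-diagonal group, the image of PGL_n(F)) has order r if and only if y is conjugate to x by an element of Inndiag(T). -/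
theorem result {F : Type*} [Field F] [Fintype F] {p f : ℕ} [Fact p.Prime] (hF : Fintype.card F = p ^ f) (hf : 1 ≤ f) {n : ℕ} (hn : 2 ≤ n) (hs : n = 2 → 4 ≤ Fintype.card F) (x δ : MulAut (Matrix.ProjectiveSpecialLinearGroup (Fin n) F)) (hx : Cfsg.IsFieldAutClassPSL x ∨ Cfsg.IsGraphFieldAutClassPSL x) {r : ℕ} (hr : r.Prime) (hxr : orderOf x = r) (hδ : δ ∈ Cfsg.inndiagPSL n F) :
    orderOf (δ * x) = r ↔ Cfsg.IsConjUnder (Cfsg.inndiagPSL n F) x (δ * x) := by
  rw [Cfsg.Agent.Lib.Helper43.FieldAut.inndiag_eq] at hδ ⊢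
  constructor
  · intro hord
    exact Cfsg.Agent.Lib.Helper43.FieldAut.coset_conj hf hF hn x δ hx hr hxr hδ hord
  · rintro ⟨k, -, e⟩
    rw [e, Cfsg.Agent.Lib.Helper43.FieldAut.orderOf_conj_aut]
    exact hxr

end Cfsg.Agent.S2697
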