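import Mathlib
import Cfsg.Statements.S2702
import Cfsg.Agent.Lib.Helper8.GraphSplit
-- import your own Cfsg.Agent.* helpers here

set_option autoImplicit false
open Cfsg

namespace Cfsg.Agent.S2702

open Cfsg.Agent.Lib.Helper43.AutPSLn Cfsg.Agent.Lib.Helper43.FieldAut Cfsg.Agent.Lib.Helper8 in

/-- Let T = PSL_n(F) over the field with q = p^f elements, n ≥ 3, G = Inndiag(T) the image of PGL_n(F), and γ an involutory graph automorphism of T. The G-class of γ is the union of exactly c T-classes, where: if n is even and q is odd, c = gcd(n/2, q − 1) when C_G(γ) is isomorphic to the projective conformal symplectic group PGSp_n(F) (symplectic type) and c = gcd(n, q − 1)/2 otherwise; and c = gcd(n, q − 1) when n is odd or q is even. -/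
theorem result {F : Type*} [Field F] [Fintype F] {p f : ℕ} [Fact p.Prime] (hF : Fintype.card F = p ^ f) (hf : 1 ≤ f) {n : ℕ} (hn : 3 ≤ n) (γ : MulAut (Matrix.ProjectiveSpecialLinearGroup (Fin n) F)) (hγ : Cfsg.IsGraphAutClassPSL γ) (hγ2 : orderOf γ = 2) :
    ((Even n ∧ Odd p ∧ Nonempty (↥(Cfsg.inndiagPSL n F ⊓ Subgroup.centralizer {γ}) ≃* Cfsg.PGSp (n / 2) F)) → Cfsg.splitClassCount (Cfsg.inndiagPSL n F) (Cfsg.Inn (Matrix.ProjectiveSpecialLinearGroup (Fin n) F)) γ = Nat.gcd (n / 2) (p ^ f - 1)) ∧ ((Even n ∧ Odd p ∧ ¬ Nonempty (↥(Cfsg.inndiagPSL n F ⊓ Subgroup.centralizer {γ}) ≃* Cfsg.PGSp (n / 2) F)) → Cfsg.splitClassCount (Cfsg.inndiagPSL n F) (Cfsg.Inn (Matrix.ProjectiveSpecialLinearGroup (Fin n) F)) γ = Nat.gcd n (p ^ f - 1) / 2) ∧ (¬ (Even n ∧ Odd p) → Cfsg.splitClassCount (Cfsg.inndiagPSL n F) (Cfsg.Inn (Matrix.ProjectiveSpecialLinearGroup (Fin n) F)) γ = Nat.gcd n (p ^ f - 1)) := by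
  obtain ⟨_, g, rfl⟩ := (GraphAut.graph_iff γ).mp hγ
  have hn2 : 2 ≤ n := by omega
  rw [GraphSplit.splitCount_eq hn2 g]
  refine ⟨?_, ?_, ?_⟩
  · rintro ⟨⟨m, hm⟩, hp, hiso⟩
    have hnm : n = 2 * m := by omega
    have hoddF : Odd (Fintype.card F) := by rw [hF]; exact hp.pow
    have h2 : (2 : F) ≠ 0 := GraphAutOdd.two_ne_zero_of_odd hoddF
    have hdiv : n / 2 = m := by omega
    rw [hdiv] at hiso ⊢
    rcases (GraphAutOdd.orderOf_eq_two_iff' hn g).mp hγ2 with hs | hs
    · exact absurd hiso (GraphSplit.type_symm hoddF (by omega) hnm g hs)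
    · rw [GraphSplit.det_skew h2 hnm hn2 g hs, hnm, GraphSplit.index_skew, hF]
  · rintro ⟨⟨m, hm⟩, hp, hiso⟩
    have hnm : n = 2 * m := by omega
    have hoddF : Odd (Fintype.card F) := by rw [hF]; exact hp.pow
    have h2 : (2 : F) ≠ 0 := GraphAutOdd.two_ne_zero_of_odd hoddF
    have hdiv : n / 2 = m := by omega
    rw [hdiv] at hiso
    rcases (GraphAutOdd.orderOf_eq_two_iff' hn g).mp hγ2 with hs | hs
    · rw [GraphSplit.det_symm h2 hnm hn2 g hs, hnm, GraphSplit.index_symm h2, hF]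
    · exact absurd (GraphSplit.type_skew h2 (by omega) hnm g hs) hiso
  · intro hne
    by_cases hev : Even n
    · have hp : ¬ Odd p := fun h => hne ⟨hev, h⟩
      have hp2 : p = 2 := ((Fact.out : p.Prime).eq_two_or_odd').resolve_right hp
      have h2 : (2 : F) = 0 := by
        have h3 : ((Fintype.card F : ℕ) : F) = 0 := Nat.cast_card_eq_zero F
        rw [hF, hp2] at h3
        push_cast at h3
        exact (pow_eq_zero_iff (by omega)).mp h3
      rw [GraphSplit.index_le n _ (GraphSplit.det_mem_char2 hn2 h2 g), hF]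
    · have hodd : Odd n := Nat.not_even_iff_odd.mp hev
      rw [GraphSplit.index_le n _ (GraphSplit.det_mem_odd hn2 hodd g), hF]

end Cfsg.Agent.S2702
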