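import Mathlib
import Cfsg.Statements.S2707
import Cfsg.Agent.Lib.Helper8.PSUGraph
-- import your own Cfsg.Agent.* helpers here

set_option autoImplicit false
open Cfsg

namespace Cfsg.Agent.S2707

open Cfsg.Agent.Lib.Helper8 Cfsg.Agent.Lib.Helper8.PSUGraph Cfsg.Agent.Lib.Helper43.AutPSLn Cfsg.Agent.Lib.Helper43.FieldAut in

/-- Let T = PSU_n(q) with n = 2m ≥ 4 even and q odd, realised over the field F with q² elements, and G = Inndiag(T) the image of PGU_n(q). The involutory graph automorphisms of T fall into exactly three G-classes, with representatives whose centralizers in G are isomorphic respectively to the projective conformal symplectic group PGSp_n(F₀), the projective conformal orthogonal group of the plus-type form Σ xᵢ yᵢ, and that of a minus-type form Σ xᵢ yᵢ + z₁² + a z₁ z₂ + b z₂² (anisotropic binary part)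 in dimension n, all over a field F₀ with q elements. -/
theorem result {F : Type*} [Field F] [Fintype F] {q : ℕ} (hodd : Odd q) (hF : Fintype.card F = q ^ 2) {n m : ℕ} (hm : 2 ≤ m) (hnm : n = 2 * m) (F₀ : Type*) [Field F₀] [Fintype F₀] (hF₀ : Fintype.card F₀ = q) :
    ∃ (γ₁ γ₂ γ₃ : MulAut (Cfsg.PSU n F q)) (a b : F₀), (∀ z₁ z₂ : F₀, z₁ ^ 2 + a * z₁ * z₂ + b * z₂ ^ 2 = 0 → z₁ = 0 ∧ z₂ = 0) ∧ Cfsg.IsGraphAutClassPSU γ₁ ∧ orderOf γ₁ = 2 ∧ Cfsg.IsGraphAutClassPSU γ₂ ∧ orderOf γ₂ = 2 ∧ Cfsg.IsGraphAutClassPSU γ₃ ∧ orderOf γ₃ = 2 ∧ ¬ Cfsg.IsConjUnder (Cfsg.inndiagPSU n F q) γ₁ γ₂ ∧ ¬ Cfsg.IsConjUnder (Cfsg.inndiagPSU n F q) γ₁ γ₃ ∧ ¬ Cfsg.IsConjUnder (Cfsg.inndiagPSU n F q) γ₂ γ₃ ∧ (∀ γ : MulAut (Cfsg.PSU n F q), Cfsg.IsGraphAutClassPSU γ → orderOf γ = 2 → Cfsg.IsConjUnder (Cfsg.inndiagPSU n F q) γ₁ γ ∨ Cfsg.IsConjUnder (Cfsg.inndiagPSU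 n F q) γ₂ γ ∨ Cfsg.IsConjUnder (Cfsg.inndiagPSU n F q) γ₃ γ) ∧ Nonempty (↥(Cfsg.inndiagPSU n F q ⊓ Subgroup.centralizer {γ₁}) ≃* Cfsg.PGSp m F₀) ∧ Nonempty (↥(Cfsg.inndiagPSU n F q ⊓ Subgroup.centralizer {γ₂}) ≃* Cfsg.PGO F₀ (Cfsg.quadFormPlus m F₀)) ∧ Nonempty (↥(Cfsg.inndiagPSU n F q ⊓ Subgroup.centralizer {γ₃}) ≃* Cfsg.PGO F₀ (Cfsg.quadFormMinus (m - 1) F₀ a b)) := by
  have hn : 3 ≤ n := by omega
  have h32 : ¬ (n = 3 ∧ q = 2) := by omega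
  obtain ⟨j, hj⟩ := exists_fixEmb hF F₀ hF₀
  obtain ⟨δ₁, δ₂, δ₃, a, b, hab, hd1, ho1, hd2, ho2, hd3, ho3, hn12, hn13, hn23, hall, hc1, hc2,
    hc3⟩ := GraphAutOdd.graph_odd_even (F := F₀) (n := n) (by rw [hF₀]; exact hodd) hm hnm
  obtain ⟨g₁, hg₁, B₁, rfl, hD₁, hG₁, hO₁⟩ := exists_partner' hF hn h32 j hj δ₁ hd1 ho1
  obtain ⟨g₂, hg₂, B₂, rfl, hD₂, hG₂, hO₂⟩ := exists_partner' hF hn h32 j hj δ₂ hd2 ho2
  obtain ⟨g₃, hg₃, B₃, rfl, hD₃, hG₃, hO₃⟩ := exists_partner' hF hn h32 j hj δ₃ hd3 ho3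
  refine ⟨_, _, _, a, b, hab, hG₁, hO₁, hG₂, hO₂, hG₃, hO₃, ?_, ?_, ?_, ?_, ?_, ?_, ?_⟩
  · exact fun h => hn12 ((conj_transfer hF hn h32 j hj g₁ g₂ hg₁ hg₂ B₁ B₂ hD₁ hD₂).mp h)
  · exact fun h => hn13 ((conj_transfer hF hn h32 j hj g₁ g₃ hg₁ hg₃ B₁ B₃ hD₁ hD₃).mp h)
  · exact fun h => hn23 ((conj_transfer hF hn h32 j hj g₂ g₃ hg₂ hg₃ B₂ B₃ hD₂ hD₃).mp h)
  · intro γ hγ hγ2
    obtain ⟨g, hg, B, rfl, hD, hB1, hB2⟩ := exists_partner hF hn h32 j hj γ hγ hγ2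
    rcases hall (cG B * iG) hB1 hB2 with h | h | h
    · left
      exact (conj_transfer hF hn h32 j hj g₁ g hg₁ hg B₁ B hD₁ hD).mpr h
    · right; left
      exact (conj_transfer hF hn h32 j hj g₂ g hg₂ hg B₂ B hD₂ hD).mpr h
    · right; right
      exact (conj_transfer hF hn h32 j hj g₃ g hg₃ hg B₃ B hD₃ hD).mpr h
  · obtain ⟨e⟩ := hc1
    obtain ⟨e'⟩ := cent_transfer hF hn h32 j hj g₁ hg₁ B₁ hD₁
    exact ⟨e'.trans e⟩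
  · obtain ⟨e⟩ := hc2
    obtain ⟨e'⟩ := cent_transfer hF hn h32 j hj g₂ hg₂ B₂ hD₂
    exact ⟨e'.trans e⟩
  · obtain ⟨e⟩ := hc3
    obtain ⟨e'⟩ := cent_transfer hF hn h32 j hj g₃ hg₃ B₃ hD₃
    exact ⟨e'.trans e⟩

end Cfsg.Agent.S2707
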