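import Mathlib
import Cfsg.Statements.S2708
import Cfsg.Agent.Lib.Helper8.PSUGraph
-- import your own Cfsg.Agent.* helpers here

set_option autoImplicit false
open Cfsg

namespace Cfsg.Agent.S2708

open Cfsg.Agent.Lib.Helper8 Cfsg.Agent.Lib.Helper8.PSUGraph Cfsg.Agent.Lib.Helper43.AutPSLn Cfsg.Agent.Lib.Helper43.FieldAut in

/-- Let T = PSU_n(q) with n = 2m ≥ 4 even and q even, realised over the field F (of characteristic 2) with q² elements, and G = Inndiag(T) the image of PGU_n(q). The involutory graph automorphisms of T fall into exactly two G-classes, with representatives whose centralizers in G are isomorphic respectively to the symplectic group Sp_n(F₀) and to the centralizer in Sp_n(F₀) of a symplectic transvection, F₀ a field with q elements. -/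
theorem result {F : Type*} [Field F] [Fintype F] [CharP F 2] {q : ℕ} (hF : Fintype.card F = q ^ 2) {n m : ℕ} (hm : 2 ≤ m) (hnm : n = 2 * m) (F₀ : Type*) [Field F₀] [Fintype F₀] (hF₀ : Fintype.card F₀ = q) :
    ∃ (γ₁ γ₃ : MulAut (Cfsg.PSU n F q)) (t : ↥(Matrix.symplecticGroup (Fin m) F₀)), Cfsg.IsTransvection (t : Matrix (Fin m ⊕ Fin m) (Fin m ⊕ Fin m) F₀) ∧ Cfsg.IsGraphAutClassPSU γ₁ ∧ orderOf γ₁ = 2 ∧ Cfsg.IsGraphAutClassPSU γ₃ ∧ orderOf γ₃ = 2 ∧ ¬ Cfsg.IsConjUnder (Cfsg.inndiagPSU n F q) γ₁ γ₃ ∧ (∀ γ : MulAut (Cfsg.PSU n F q), Cfsg.IsGraphAutClassPSU γ → orderOf γ = 2 → Cfsg.IsConjUnder (Cfsg.inndiagPSU n F q) γ₁ γ ∨ Cfsg.IsConjUnder (Cfsg.inndiagPSU n F q) γ₃ γ) ∧ Nonempty (↥(Cfsg.inndiagPSU n F q ⊓ Subgroup.centralizer {γ₁}) ≃* ↥(Matrix.symplecticGroup (Fin m) F₀)) ∧ Nonempty (↥(Cfsg.inndiagPSU n F q ⊓ Subgroup.centralizer {γ₃}) ≃* ↥(Subgroup.centralizer ({t}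 : Set ↥(Matrix.symplecticGroup (Fin m) F₀)))) := by
  have hn : 3 ≤ n := by omega
  have h32 : ¬ (n = 3 ∧ q = 2) := by omega
  obtain ⟨j, hj⟩ := exists_fixEmb hF F₀ hF₀
  have h2F : (2 : F) = 0 := by
    have h := CharP.cast_eq_zero F 2
    exact_mod_cast h
  have h2 : (2 : F₀) = 0 := by
    apply j.injective
    rw [map_ofNat, map_zero]
    exact h2F
  obtain ⟨δ₁, δ₃, t, ht, hd1, ho1, hd3, ho3, hn13, hall, hc1, hc3⟩ :=
    GraphAut.graph_char2_even (F := F₀) (n := n) h2 hm hnm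
  obtain ⟨g₁, hg₁, B₁, rfl, hD₁, hG₁, hO₁⟩ := exists_partner' hF hn h32 j hj δ₁ hd1 ho1
  obtain ⟨g₃, hg₃, B₃, rfl, hD₃, hG₃, hO₃⟩ := exists_partner' hF hn h32 j hj δ₃ hd3 ho3
  refine ⟨_, _, t, ht, hG₁, hO₁, hG₃, hO₃, ?_, ?_, ?_, ?_⟩
  · exact fun h => hn13 ((conj_transfer hF hn h32 j hj g₁ g₃ hg₁ hg₃ B₁ B₃ hD₁ hD₃).mp h)
  · intro γ hγ hγ2
    obtain ⟨g, hg, B, rfl, hD, hB1, hB2⟩ := exists_partner hF hn h32 j hj γ hγ hγ2
    rcases hall (cG B * iG) hB1 hB2 with h | h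
    · left
      exact (conj_transfer hF hn h32 j hj g₁ g hg₁ hg B₁ B hD₁ hD).mpr h
    · right
      exact (conj_transfer hF hn h32 j hj g₃ g hg₃ hg B₃ B hD₃ hD).mpr h
  · obtain ⟨e⟩ := hc1
    obtain ⟨e'⟩ := cent_transfer hF hn h32 j hj g₁ hg₁ B₁ hD₁
    exact ⟨e'.trans e⟩
  · obtain ⟨e⟩ := hc3
    obtain ⟨e'⟩ := cent_transfer hF hn h32 j hj g₃ hg₃ B₃ hD₃
    exact ⟨e'.trans e⟩

end Cfsg.Agent.S2708
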