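import Mathlib
import Cfsg.Statements.S2709
import Cfsg.Agent.Lib.Helper8.PSUSplit
-- import your own Cfsg.Agent.* helpers here

set_option autoImplicit false
open Cfsg

namespace Cfsg.Agent.S2709

open Matrix Cfsg.Agent.Lib.Helper43.AutPSLn Cfsg.Agent.Lib.Helper43.FieldAut Cfsg.Agent.Lib.Helper8 in

/-- Let T = PSU_n(q) be simple (n ≥ 3, (n,q) ≠ (3,2), q = p^f), realised over the field F with q² elements, G = Inndiag(T) the image of PGU_n(q), and γ an involutory graph automorphism of T. The G-class of γ is the union of exactly c T-classes, where: if n is even and q is odd, c = gcd(n/2, q + 1) when C_G(γ) is isomorphic to PGSp_n(F₀) for a field F₀ with q elements (symplectic type) and c = gcd(n, q + 1)/2 otherwise; and c = gcd(n, q + 1) when n is odd or q is even. -/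
theorem result {F : Type*} [Field F] [Fintype F] {p f q : ℕ} [Fact p.Prime] (hq : q = p ^ f) (hf : 1 ≤ f) (hF : Fintype.card F = q ^ 2) {n : ℕ} (hn : 3 ≤ n) (hs : ¬ (n = 3 ∧ q = 2)) (F₀ : Type*) [Field F₀] [Fintype F₀] (hF₀ : Fintype.card F₀ = q) (γ : MulAut (Cfsg.PSU n F q)) (hγ : Cfsg.IsGraphAutClassPSU γ) (hγ2 : orderOf γ = 2) :
    ((Even n ∧ Odd q ∧ Nonempty (↥(Cfsg.inndiagPSU n F q ⊓ Subgroup.centralizer {γ}) ≃* Cfsg.PGSp (n / 2) F₀)) → Cfsg.splitClassCount (Cfsg.inndiagPSU n F q) (Cfsg.Inn (Cfsg.PSU n F q)) γ = Nat.gcd (n / 2) (q + 1)) ∧ ((Even n ∧ Odd q ∧ ¬ Nonempty (↥(Cfsg.inndiagPSU n F q ⊓ Subgroup.centralizer {γ}) ≃* Cfsg.PGSp (n / 2) F₀)) → Cfsg.splitClassCount (Cfsg.inndiagPSU n F q) (Cfsg.Inn (Cfsg.PSU n F q)) γ = Nat.gcd n (q + 1) / 2) ∧ (¬ (Even n ∧ Odd q) → Cfsg.splitClassCount (Cfsg.inndiagPSU n F q) (Cfsg.Inn (Cfsg.PSU n F q)) γ = Nat.gcd n (q + 1)) := by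
  obtain ⟨j, hj⟩ := PSUGraph.exists_fixEmb hF F₀ hF₀
  obtain ⟨g, hg, hsym, rfl⟩ := (PSUAut.graph_iff hF hn hs γ).mp ⟨hγ, hγ2⟩
  obtain ⟨B, k, hB, hk1, hk2⟩ := PSUGraph.exists_data hF (by omega) j hj g hg hsym
  have hD : PSUGraph.Data hF j g B := ⟨k, hk1, hk2⟩
  obtain ⟨ec⟩ := PSUGraph.cent_transfer hF hn hs j hj g hg B hD
  rw [PSUSplit.splitCount_eq hF hn hs]
  refine ⟨?_, ?_, ?_⟩
  · rintro ⟨⟨m, hm⟩, hqodd, hiso⟩
    have hnm : n = 2 * m := by omega
    have hdiv : n / 2 = m := by omega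
    rw [hdiv] at hiso ⊢
    obtain ⟨e⟩ := hiso
    have hoddF₀ : Odd (Fintype.card F₀) := by rw [hF₀]; exact hqodd
    have hoddF : Odd (Fintype.card F) := by rw [hF]; exact hqodd.pow
    have h2 : (2 : F) ≠ 0 := GraphAutOdd.two_ne_zero_of_odd hoddF
    have hBskew : (B : Matrix (Fin n) (Fin n) F₀)ᵀ = -(B : Matrix (Fin n) (Fin n) F₀) := by
      rcases hB with hB | hB
      · exact absurd ⟨ec.symm.trans e⟩ (GraphSplit.type_symm hoddF₀ (by omega) hnm B hB)
      · exact hB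
    have hgskew : (g : Matrix (Fin n) (Fin n) F)ᵀ = -(g : Matrix (Fin n) (Fin n) F) := by
      have h1 := PSUSplit.type_transfer hF j g B hD (-1) (by rw [hBskew, neg_one_smul])
      rw [h1, map_neg, map_one, neg_one_smul]
    rw [PSUSplit.det_skew hF hn hs h2 hnm j hj g hg hgskew B hBskew hD, hnm,
      PSUSplit.count_skew hF]
  · rintro ⟨⟨m, hm⟩, hqodd, hiso⟩
    have hnm : n = 2 * m := by omega
    have hdiv : n / 2 = m := by omega
    rw [hdiv] at hiso
    have hoddF₀ : Odd (Fintype.card F₀) := by rw [hF₀]; exact hqodd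
    have hoddF : Odd (Fintype.card F) := by rw [hF]; exact hqodd.pow
    have h2 : (2 : F) ≠ 0 := GraphAutOdd.two_ne_zero_of_odd hoddF
    have h2₀ : (2 : F₀) ≠ 0 := GraphAutOdd.two_ne_zero_of_odd hoddF₀
    have hBsymm : (B : Matrix (Fin n) (Fin n) F₀)ᵀ = (B : Matrix (Fin n) (Fin n) F₀) := by
      rcases hB with hB | hB
      · exact hB
      · exfalso
        obtain ⟨e'⟩ := GraphSplit.type_skew h2₀ (by omega) hnm B hB
        exact hiso ⟨ec.trans e'⟩
    rw [PSUSplit.det_symm hF hn hs h2 hnm j hj g hg B hBsymm hD, hnm,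
      PSUSplit.count_symm hF hqodd h2]
  · intro hne
    by_cases hev : Even n
    · have hqe : ¬ Odd q := fun h => hne ⟨hev, h⟩
      have hp2 : p = 2 := by
        rcases (Fact.out : p.Prime).eq_two_or_odd' with h | h
        · exact h
        · exact absurd (hq ▸ h.pow) hqe
      have h2 : (2 : F) = 0 := by
        have h3 : ((Fintype.card F : ℕ) : F) = 0 := Nat.cast_card_eq_zero F
        rw [hF, hq, hp2] at h3
        push_cast at h3
        have h4 := (pow_eq_zero_iff (by norm_num)).mp h3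
        exact (pow_eq_zero_iff (by omega)).mp h4
      rw [PSUSplit.count_le hF n _ (PSUSplit.det_mem_char2 hF hn hs h2 g hg)]
    · have hodd : Odd n := Nat.not_even_iff_odd.mp hev
      rw [PSUSplit.count_le hF n _ (PSUSplit.det_mem_odd hF hn hs hodd g hg)]

end Cfsg.Agent.S2709
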