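import Mathlib
import Cfsg.Statements.S2710
import Cfsg.Agent.Lib.Helper8.PSUGraph
-- import your own Cfsg.Agent.* helpers here

set_option autoImplicit false
open Cfsg

namespace Cfsg.Agent.S2710

open Cfsg.Agent.Lib.Helper8 Cfsg.Agent.Lib.Helper8.PSUGraph Cfsg.Agent.Lib.Helper43.AutPSLn Cfsg.Agent.Lib.Helper43.FieldAut in

/-- Let T = PSU_n(q) with n ≥ 4 divisible by 4 (n = 2m) and q odd, realised over the field F with q² elements, G = Inndiag(T) the image of PGU_n(q), and φ the standard field automorphism of T attached to the q-th power map of F (it induces inverse-transpose on the unitary matrices and is a graph automorphism). Its centralizer in G is isomorphic to the projective conformal orthogonal group of the plus-type form Σ xᵢ yᵢ in dimension n over a field F₀ with q elements. (Dimensions n ≡ 2 (mod 4) are not covered.) -/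
theorem result {F : Type*} [Field F] [Fintype F] {q : ℕ} (hodd : Odd q) (hF : Fintype.card F = q ^ 2) {n m : ℕ} (hm : 2 ≤ m) (hnm : n = 2 * m) (h4 : 4 ∣ n) (F₀ : Type*) [Field F₀] [Fintype F₀] (hF₀ : Fintype.card F₀ = q) (σ : F ≃+* F) (hσ : ∀ a : F, σ a = a ^ q) (φ : MulAut (Cfsg.PSU n F q)) (hφ : Cfsg.IsFieldAutPSUOf σ φ) :
    Nonempty (↥(Cfsg.inndiagPSU n F q ⊓ Subgroup.centralizer {φ}) ≃* Cfsg.PGO F₀ (Cfsg.quadFormPlus m F₀)) := by
  have hn : 3 ≤ n := by omega
  have h32 : ¬ (n = 3 ∧ q = 2) := by omega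
  obtain ⟨j, hj⟩ := exists_fixEmb hF F₀ hF₀
  have hσ' : σ = frobQ hF := RingEquiv.ext (fun a => hσ a)
  subst hσ'
  rw [PSUAut.fieldAut_iff] at hφ
  subst hφ
  have h1 : (PSUAut.fU (frobQ hF) : MulAut (Cfsg.PSU n F q)) =
      PSUAut.cU (PSUAut.ofGU 1 (Subgroup.one_mem _)) * PSUAut.fU (frobQ hF) := by
    have h2 : PSUAut.ofGU (1 : GL (Fin n) F) (Subgroup.one_mem _) = (1 : ↥(PSUAut.GUs n F q)) := rfl
    rw [h2, map_one, one_mul]
  have hD : Data hF j (1 : GL (Fin n) F) (1 : GL (Fin n) F₀) :=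
    ⟨1, by rw [map_one, mul_one], by rw [map_one, map_one, map_one, mul_one]⟩
  obtain ⟨e'⟩ := cent_transfer hF hn h32 j hj 1 (Subgroup.one_mem _) 1 hD
  have heven : Even (n * (Fintype.card F₀ - 1) / 4) := by
    obtain ⟨t, ht⟩ := h4
    obtain ⟨r, hr⟩ := hodd
    rw [hF₀, ht, Nat.mul_assoc, Nat.mul_div_cancel_left _ (by norm_num : 0 < 4), hr]
    exact ⟨t * r, by rw [Nat.add_sub_cancel]; ring⟩
  obtain ⟨e⟩ := (GraphAutOdd.cent_invTranspose (F := F₀) (n := n) (by rw [hF₀]; exact hodd) hm hnm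
    iG isInverseTranspose_iG).1 heven
  rw [h1]
  have h3 : (cG (1 : GL (Fin n) F₀) * iG :
      MulAut (Matrix.ProjectiveSpecialLinearGroup (Fin n) F₀)) = iG := by
    rw [map_one, one_mul]
  rw [h3] at e'
  exact ⟨e'.trans e⟩

end Cfsg.Agent.S2710
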