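import Mathlib
import Cfsg.Statements.S2722
import Cfsg.Agent.Lib.Helper44.PgoAut
import Cfsg.Agent.Lib.Helper14.OmegaInv
import Cfsg.Agent.Lib.Helper14.POmegaOrder
import Cfsg.Agent.Lib.Helper14.Forms
-- import your own Cfsg.Agent.* helpers here

set_option autoImplicit false
open Cfsg

namespace Cfsg.Agent.S2722

/-- Let T = PΩ⁺_{2m}(F) with m ≥ 4 and |F| = q odd. Inside Aut(T), the image G̃ of the conformal orthogonal group of the form modulo the image of the special orthogonal group is elementary abelian of order 4. -/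
theorem result {F : Type*} [Field F] [Fintype F] (hodd : Odd (Fintype.card F)) {m : ℕ} (hm : 4 ≤ m) :
    (∃ φ : ↥(Cfsg.pgoAut F (Cfsg.quadFormPlus m F)) →* Multiplicative (ZMod 2 × ZMod 2), Function.Surjective φ ∧ φ.ker = (Cfsg.psoAut F (Cfsg.quadFormPlus m F)).subgroupOf (Cfsg.pgoAut F (Cfsg.quadFormPlus m F))) := by
  have h2 : (2 : F) ≠ 0 := Cfsg.Agent.Lib.Helper14.two_ne_zero_of_card_odd hodd
  have hcoe := Cfsg.Agent.Lib.Helper14.plusQF_coe m F
  obtain ⟨E, hE, hE0⟩ := Cfsg.Agent.Lib.Helper14.exists_ts_three (Cfsg.Agent.Lib.Helper14.plusQF m F)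
    (fun j : Fin 3 => Sum.inl ⟨j, by omega⟩) (fun j : Fin 3 => Sum.inr ⟨j, by omega⟩)
    (fun j => by rw [hcoe]; exact Cfsg.Agent.Lib.Helper14.plus_isHypPair m F _)
    (by
      intro i j h
      have := Sum.inl.inj h
      rw [Fin.mk.injEq] at this
      exact Fin.ext this)
    (by intro i j h; exact Sum.inl_ne_inr h)
  have hk : Fintype.card (Fin m ⊕ Fin m) = 2 * m := by
    rw [Fintype.card_sum, Fintype.card_fin]
    ring
  obtain ⟨c, hc⟩ := Cfsg.Agent.Lib.Helper14.exists_not_isSquare h2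
  obtain ⟨f, hf⟩ : ∃ f : (Fin m ⊕ Fin m → F) →ₗ[F] (Fin m ⊕ Fin m → F),
      ∀ v, f v = fun j => Sum.elim (fun _ => c) (fun _ => (1 : F)) j * v j :=
    ⟨{ toFun := fun v j => Sum.elim (fun _ => c) (fun _ => (1 : F)) j * v j
       map_add' := by
         intro v w
         funext j
         simp only [Pi.add_apply]
         ring
       map_smul' := by
         intro t v
         funext j
         simp only [Pi.smul_apply, smul_eq_mul, RingHom.id_apply]
         ring }, fun v => rfl⟩
  have hsim : ∀ v, Cfsg.quadFormPlus m F (f v) = c * Cfsg.quadFormPlus m F v := by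
    intro v
    rw [hf]
    unfold Cfsg.quadFormPlus
    simp only [Sum.elim_inl, Sum.elim_inr, one_mul]
    rw [Finset.mul_sum]
    apply Finset.sum_congr rfl
    intro i _
    ring
  exact Cfsg.Agent.Lib.Helper44.exists_hom_pgoAut_psoAut_fun h2
    (Cfsg.Agent.Lib.Helper14.plusQF m F) (Cfsg.Agent.Lib.Helper14.plusQF_nondegenerate m F)
    _ hcoe E hE hE0 m hk f c hc hsim

end Cfsg.Agent.S2722
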