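import Mathlib
import Cfsg.Statements.S2723
import Cfsg.Agent.Lib.Helper44.PsoAut
import Cfsg.Agent.Lib.Helper14.OmegaInv
import Cfsg.Agent.Lib.Helper14.POmegaOrder
import Cfsg.Agent.Lib.Helper14.Forms
-- import your own Cfsg.Agent.* helpers here

set_option autoImplicit false
open Cfsg

namespace Cfsg.Agent.S2723

/-- Let T = PΩ⁺_{2m}(F) with m ≥ 4 and |F| = q odd. The image of the special orthogonal group in Aut(T) contains the inner automorphism group T with index 1 (they coincide) when m is odd and q ≡ 3 (mod 4), and with index 2 otherwise (the index is 2 exactly when the discriminant of the form is a square). -/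
theorem result {F : Type*} [Field F] [Fintype F] (hodd : Odd (Fintype.card F)) {m : ℕ} (hm : 4 ≤ m) :
    ((Odd m ∧ Fintype.card F % 4 = 3) → (Cfsg.Inn (Cfsg.POmega F (Cfsg.quadFormPlus m F))).relIndex (Cfsg.psoAut F (Cfsg.quadFormPlus m F)) = 1) ∧ (¬ (Odd m ∧ Fintype.card F % 4 = 3) → (Cfsg.Inn (Cfsg.POmega F (Cfsg.quadFormPlus m F))).relIndex (Cfsg.psoAut F (Cfsg.quadFormPlus m F)) = 2) := by
  have h2 : (2 : F) ≠ 0 := Cfsg.Agent.Lib.Helper14.two_ne_zero_of_card_odd hodd
  have hcoe := Cfsg.Agent.Lib.Helper14.plusQF_coe m F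
  obtain ⟨E, hE, hE0⟩ := Cfsg.Agent.Lib.Helper14.exists_ts_three (Cfsg.Agent.Lib.Helper14.plusQF m F)
    (fun j : Fin 3 => Sum.inl ⟨j, by omega⟩) (fun j : Fin 3 => Sum.inr ⟨j, by omega⟩)
    (fun j => by rw [hcoe]; exact Cfsg.Agent.Lib.Helper14.plus_isHypPair m F _)
    (by
      intro i j h
      have := Sum.inl.inj h
      rw [Fin.mk.injEq] at this
      exact Fin.ext this)
    (by intro i j h; exact Sum.inl_ne_inr h)
  have hev : Even (Fintype.card (Fin m ⊕ Fin m)) := by
    rw [Fintype.card_sum, Fintype.card_fin]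
    exact ⟨m, rfl⟩
  have key := Cfsg.Agent.Lib.Helper44.relIndex_inn_psoAut h2 (Cfsg.Agent.Lib.Helper14.plusQF m F)
    (Cfsg.Agent.Lib.Helper14.plusQF_nondegenerate m F) E hE hE0 hev
  rw [hcoe] at key
  have hiff := Cfsg.Agent.Lib.Helper14.neg_one_mem_omega_plus_iff' (F := F) rfl hodd m
  rw [Cfsg.Agent.Lib.Helper44.pow_mod_four_eq_one_iff hodd] at hiff
  constructor
  · intro h
    exact key.2 (fun hex => (hiff.mp hex) h)
  · intro h
    exact key.1 (hiff.mpr h)

end Cfsg.Agent.S2723
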