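import Mathlib
import Cfsg.Statements.S2726
import Cfsg.Agent.Lib.Helper44.PgoAut
import Cfsg.Agent.Lib.Helper44.MinusSim
import Cfsg.Agent.Lib.Helper14.OmegaInv
import Cfsg.Agent.Lib.Helper14.POmegaOrder
import Cfsg.Agent.Lib.Helper14.Forms
-- import your own Cfsg.Agent.* helpers here

set_option autoImplicit false
open Cfsg

namespace Cfsg.Agent.S2726

/-- Let T = PΩ⁻_{2m+2}(F) with m ≥ 3 and |F| = q odd (form with anisotropic binary part). Inside Aut(T), the image G̃ of the conformal orthogonal group of the form modulo the image of the special orthogonal group is elementary abelian of order 4. -/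
theorem result {F : Type*} [Field F] [Fintype F] (hodd : Odd (Fintype.card F)) {m : ℕ} (hm : 3 ≤ m) (a b : F) (hab : (∀ z₁ z₂ : F, z₁ ^ 2 + a * z₁ * z₂ + b * z₂ ^ 2 = 0 → z₁ = 0 ∧ z₂ = 0)) :
    (∃ φ : ↥(Cfsg.pgoAut F (Cfsg.quadFormMinus m F a b)) →* Multiplicative (ZMod 2 × ZMod 2), Function.Surjective φ ∧ φ.ker = (Cfsg.psoAut F (Cfsg.quadFormMinus m F a b)).subgroupOf (Cfsg.pgoAut F (Cfsg.quadFormMinus m F a b))) := by
  have h2 : (2 : F) ≠ 0 := Cfsg.Agent.Lib.Helper14.two_ne_zero_of_card_odd hodd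
  have hcoe := Cfsg.Agent.Lib.Helper14.minusQF_coe m F a b
  obtain ⟨E, hE, hE0⟩ := Cfsg.Agent.Lib.Helper14.exists_ts_three
    (Cfsg.Agent.Lib.Helper14.minusQF m F a b)
    (fun j : Fin 3 => Sum.inl (Sum.inl ⟨j, by omega⟩))
    (fun j : Fin 3 => Sum.inl (Sum.inr ⟨j, by omega⟩))
    (fun j => by rw [hcoe]; exact Cfsg.Agent.Lib.Helper14.minus_isHypPair m F a b _)
    (by
      intro i j h
      have := Sum.inl.inj (Sum.inl.inj h)
      rw [Fin.mk.injEq] at this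
      exact Fin.ext this)
    (by intro i j h; exact Sum.inl_ne_inr (Sum.inl.inj h))
  have hk : Fintype.card ((Fin m ⊕ Fin m) ⊕ Fin 2) = 2 * (m + 1) := by
    rw [Fintype.card_sum, Fintype.card_sum, Fintype.card_fin, Fintype.card_fin]
    ring
  obtain ⟨w, c, hc, hw⟩ := Cfsg.Agent.Lib.Helper44.exists_norm_not_isSquare h2 a b hab
  obtain ⟨f, hf⟩ : ∃ f : ((Fin m ⊕ Fin m) ⊕ Fin 2 → F) →ₗ[F] ((Fin m ⊕ Fin m) ⊕ Fin 2 → F),
      ∀ v, f v = Cfsg.Agent.Lib.Helper44.minusSimFun m a b c w v :=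
    ⟨Cfsg.Agent.Lib.Helper44.minusSimLin m a b c w, fun v => rfl⟩
  have hsim : ∀ v, Cfsg.quadFormMinus m F a b (f v) = c * Cfsg.quadFormMinus m F a b v := by
    intro v
    rw [hf]
    exact Cfsg.Agent.Lib.Helper44.minusSimFun_quad m a b c w hw v
  exact Cfsg.Agent.Lib.Helper44.exists_hom_pgoAut_psoAut_fun h2
    (Cfsg.Agent.Lib.Helper14.minusQF m F a b)
    (Cfsg.Agent.Lib.Helper14.minusQF_nondegenerate m F h2 a b hab)
    _ hcoe E hE hE0 (m + 1) hk f c hc hsim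

end Cfsg.Agent.S2726
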