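import Mathlib
import Cfsg.Statements.S2727
import Cfsg.Agent.Lib.Helper44.PsoAut
import Cfsg.Agent.Lib.Helper14.OmegaInv
import Cfsg.Agent.Lib.Helper14.POmegaOrder
import Cfsg.Agent.Lib.Helper14.Forms
-- import your own Cfsg.Agent.* helpers here

set_option autoImplicit false
open Cfsg

namespace Cfsg.Agent.S2727

/-- Let T = PΩ⁻_{2m+2}(F) with m ≥ 3 and |F| = q odd (form with anisotropic binary part). The image of the special orthogonal group in Aut(T) contains the inner automorphism group T with index 2 when m is even and q ≡ 3 (mod 4), and coincides with it otherwise (the index is 2 exactly when the discriminant of the form is a square). -/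
theorem result {F : Type*} [Field F] [Fintype F] (hodd : Odd (Fintype.card F)) {m : ℕ} (hm : 3 ≤ m) (a b : F) (hab : (∀ z₁ z₂ : F, z₁ ^ 2 + a * z₁ * z₂ + b * z₂ ^ 2 = 0 → z₁ = 0 ∧ z₂ = 0)) :
    ((Even m ∧ Fintype.card F % 4 = 3) → (Cfsg.Inn (Cfsg.POmega F (Cfsg.quadFormMinus m F a b))).relIndex (Cfsg.psoAut F (Cfsg.quadFormMinus m F a b)) = 2) ∧ (¬ (Even m ∧ Fintype.card F % 4 = 3) → (Cfsg.Inn (Cfsg.POmega F (Cfsg.quadFormMinus m F a b))).relIndex (Cfsg.psoAut F (Cfsg.quadFormMinus m F a b)) = 1) := by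
  have h2 : (2 : F) ≠ 0 := Cfsg.Agent.Lib.Helper14.two_ne_zero_of_card_odd hodd
  have hcoe := Cfsg.Agent.Lib.Helper14.minusQF_coe m F a b
  obtain ⟨E, hE, hE0⟩ := Cfsg.Agent.Lib.Helper14.exists_ts_three (Cfsg.Agent.Lib.Helper14.minusQF m F a b)
    (fun j : Fin 3 => Sum.inl (Sum.inl ⟨j, by omega⟩))
    (fun j : Fin 3 => Sum.inl (Sum.inr ⟨j, by omega⟩))
    (fun j => by rw [hcoe]; exact Cfsg.Agent.Lib.Helper14.minus_isHypPair m F a b _)
    (by
      intro i j h
      have := Sum.inl.inj (Sum.inl.inj h)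
      rw [Fin.mk.injEq] at this
      exact Fin.ext this)
    (by intro i j h; exact Sum.inl_ne_inr (Sum.inl.inj h))
  have hev : Even (Fintype.card ((Fin m ⊕ Fin m) ⊕ Fin 2)) := by
    rw [Fintype.card_sum, Fintype.card_sum, Fintype.card_fin, Fintype.card_fin]
    exact ⟨m + 1, by ring⟩
  have key := Cfsg.Agent.Lib.Helper44.relIndex_inn_psoAut h2
    (Cfsg.Agent.Lib.Helper14.minusQF m F a b)
    (Cfsg.Agent.Lib.Helper14.minusQF_nondegenerate m F h2 a b hab) E hE hE0 hev
  rw [hcoe] at key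
  have hiff := Cfsg.Agent.Lib.Helper14.neg_one_mem_omega_minus_iff' (F := F) rfl hodd m a b hab
  rw [Cfsg.Agent.Lib.Helper44.pow_mod_four_eq_three_iff hodd] at hiff
  have hpar : Odd (m + 1) ↔ Even m := by
    rw [Nat.odd_add_one, Nat.not_odd_iff_even]
  rw [hpar] at hiff
  constructor
  · intro h
    exact key.1 (hiff.mpr h)
  · intro h
    exact key.2 (fun hex => h (hiff.mp hex))

end Cfsg.Agent.S2727
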