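import Cfsg.Statements.S2734
import Cfsg.Agent.Lib.Helper36.FoldD4
import Cfsg.Agent.Lib.Helper36.ChevGraphData

set_option autoImplicit false
open Cfsg

namespace Cfsg.Agent.S2734

open Cfsg.Lie Cfsg.Agent.Lib.Helper18 Cfsg.Agent.Lib.Helper36

theorem memD4 : chevD4 ∈ [chevG2, chevB2, chevD4, chevF4, chevE6, chevE7, chevE8] := by simp

theorem memG2 : chevG2 ∈ [chevG2, chevB2, chevD4, chevF4, chevE6, chevE7, chevE8] := by simp

theorem notLongD4 : ∀ i : Fin chevD4.rank, chevD4.isLong (chevD4.simple i.val) = false := by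
  decide

set_option maxRecDepth 100000 in
theorem rcD4 : RcOK chevD4 :=
  ⟨by decide +kernel, by decide +kernel, by decide +kernel, by decide +kernel⟩

theorem gaSimple {F : Type*} [Field F] (A : GraphAut) (D : ChevalleyDatum)
    (hD : D ∈ [chevG2, chevB2, chevD4, chevF4, chevE6, chevE7, chevE8]) (h : A.check D = true)
    (i : Fin D.rank) (t : F) :
    A.aut D h (xG D hD (D.simple i.val) t) = xG D hD (D.simple (A.np.getD i.val 0)) t ∧
    A.aut D h (xG D hD (D.neg (D.simple i.val)) t) =
      xG D hD (D.neg (D.simple (A.np.getD i.val 0))) t :=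
  ⟨Subtype.ext (Units.ext ((A.aut_simple D h (xG D hD (D.simple i.val) t) i.val t i.isLt).1
      (coe_xU D hD _ _))),
    Subtype.ext (Units.ext ((A.aut_simple D h (xG D hD (D.neg (D.simple i.val)) t) i.val t
      i.isLt).2 (coe_xU D hD _ _)))⟩

/-- In the Chevalley group of type D₄ over a finite field F (the matrix group generated by the root elements), a graph automorphism attached to a symmetry π of the Dynkin diagram (sending each fundamental root element x_p(t) to x_{π(p)}(t) and each x_{−p}(t) to x_{−π(p)}(t)) that has order 3 — a standard triality graph automorphism, π being a 3-cycle of the three outer nodes — has fixed-point subgroup isomorphic to the Chevalley group of type G₂ over F. -/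
theorem result {F : Type*} [Field F] [Fintype F] (τ : MulAut ↥(Cfsg.Lie.chevD4.group F)) (hτ : Cfsg.Lie.chevD4.IsGraphAut τ) (hτ3 : orderOf τ = 3) :
    Nonempty (↥(MonoidHom.eqLocus τ.toMonoidHom (MonoidHom.id ↥(Cfsg.Lie.chevD4.group F))) ≃* ↥(Cfsg.Lie.chevG2.group F)) := by
  have hmain := fold_main (F := F) memD4 memG2 gaD4a_check rcD4 fd4_A fd4_B fd4_C fd4_D
  obtain ⟨π, hπ, hact⟩ := hτ
  have hτx : ∀ (i : Fin chevD4.rank) (t : F),
      τ (xG chevD4 memD4 (chevD4.simple i.val) t) = xG chevD4 memD4 (chevD4.simple (π i).val) t ∧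
      τ (xG chevD4 memD4 (chevD4.neg (chevD4.simple i.val)) t) =
        xG chevD4 memD4 (chevD4.neg (chevD4.simple (π i).val)) t := by
    intro i t
    have e : chevD4.graphExp (ringChar F) i.val (π i).val = 1 := by
      unfold ChevalleyDatum.graphExp
      rw [notLongD4 (π i)]
      rfl
    constructor
    · have h1 := (hact (xG chevD4 memD4 (chevD4.simple i.val) t) i t).1 (coe_xU chevD4 memD4 _ _)
      rw [e, pow_one] at h1
      exact Subtype.ext (Units.ext (h1.trans (coe_xU chevD4 memD4 _ _).symm))
    · have h1 := (hact (xG chevD4 memD4 (chevD4.neg (chevD4.simple i.val)) t) i t).2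
        (coe_xU chevD4 memD4 _ _)
      rw [e, pow_one] at h1
      exact Subtype.ext (Units.ext (h1.trans (coe_xU chevD4 memD4 _ _).symm))
  -- an involution on the nodes gives an automorphism of order at most two
  have hinv : (∀ i, π (π i) = i) → False := by
    intro hππ
    have h1 : τ * τ = 1 := by
      apply aut_ext_simple chevD4 memD4
      intro i t
      have h2 := hτx i t
      have h3 := hτx (π i) t
      rw [hππ i] at h3
      rw [MulAut.mul_apply, MulAut.mul_apply, h2.1, h2.2, h3.1, h3.2]
      exact ⟨rfl, rfl⟩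
    have h4 : orderOf τ ∣ 2 := orderOf_dvd_of_pow_eq_one (by rw [pow_two, h1])
    rw [hτ3] at h4
    exact absurd h4 (by decide)
  obtain ⟨e, he, hπe⟩ := d4_syms π hπ
  unfold d4pls at he
  simp only [List.mem_cons, List.mem_nil_iff, or_false] at he
  rcases he with rfl | rfl | rfl | rfl | rfl | rfl
  · exfalso
    apply hinv
    intro i
    apply Fin.ext
    have h1 : ∀ i : Fin chevD4.rank, (π i).val = [0, 1, 2, 3].getD i.val 0 := hπe
    rw [h1, h1]
    exact (by decide : ∀ i : Fin chevD4.rank,
      [0, 1, 2, 3].getD ([0, 1, 2, 3].getD i.val 0) 0 = i.val) i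
  · exfalso
    apply hinv
    intro i
    apply Fin.ext
    have h1 : ∀ i : Fin chevD4.rank, (π i).val = [0, 1, 3, 2].getD i.val 0 := hπe
    rw [h1, h1]
    exact (by decide : ∀ i : Fin chevD4.rank,
      [0, 1, 3, 2].getD ([0, 1, 3, 2].getD i.val 0) 0 = i.val) i
  · exfalso
    apply hinv
    intro i
    apply Fin.ext
    have h1 : ∀ i : Fin chevD4.rank, (π i).val = [2, 1, 0, 3].getD i.val 0 := hπe
    rw [h1, h1]
    exact (by decide : ∀ i : Fin chevD4.rank,
      [2, 1, 0, 3].getD ([2, 1, 0, 3].getD i.val 0) 0 = i.val) i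
  · -- the triality of the tables
    have h1 : ∀ i : Fin chevD4.rank, (π i).val = [2, 1, 3, 0].getD i.val 0 := hπe
    have h2 : τ = gaD4a.aut chevD4 gaD4a_check := by
      apply aut_ext_simple chevD4 memD4
      intro i t
      have h3 := hτx i t
      have h4 := gaSimple (F := F) gaD4a chevD4 memD4 gaD4a_check i t
      rw [h3.1, h3.2, h4.1, h4.2, h1 i]
      exact ⟨rfl, rfl⟩
    rw [h2]
    exact hmain
  · -- the inverse triality
    have h1 : ∀ i : Fin chevD4.rank, (π i).val = [3, 1, 0, 2].getD i.val 0 := hπe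
    have h2 : τ * τ = gaD4a.aut chevD4 gaD4a_check := by
      apply aut_ext_simple chevD4 memD4
      intro i t
      have h3 := hτx i t
      have h3' := hτx (π i) t
      have h4 := gaSimple (F := F) gaD4a chevD4 memD4 gaD4a_check i t
      have h5 : (π (π i)).val = gaD4a.np.getD i.val 0 := by
        rw [h1, h1]
        exact (by decide : ∀ i : Fin chevD4.rank,
          [3, 1, 0, 2].getD ([3, 1, 0, 2].getD i.val 0) 0 = gaD4a.np.getD i.val 0) i
      rw [MulAut.mul_apply, MulAut.mul_apply, h3.1, h3.2, h3'.1, h3'.2, h4.1, h4.2, h5]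
      exact ⟨rfl, rfl⟩
    have h6 : τ ^ 3 = 1 := by
      rw [← hτ3]
      exact pow_orderOf_eq_one τ
    have hE : MonoidHom.eqLocus τ.toMonoidHom (MonoidHom.id ↥(chevD4.group F)) =
        MonoidHom.eqLocus (gaD4a.aut (F := F) chevD4 gaD4a_check).toMonoidHom
          (MonoidHom.id ↥(chevD4.group F)) := by
      ext g
      constructor
      · intro hg
        have hg' : τ g = g := hg
        show gaD4a.aut chevD4 gaD4a_check g = g
        rw [← h2, MulAut.mul_apply, hg', hg']
      · intro hg
        have hg' : gaD4a.aut chevD4 gaD4a_check g = g := hg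
        show τ g = g
        rw [← h2, MulAut.mul_apply] at hg'
        have h7 : (τ ^ 3) g = τ g := by
          rw [pow_succ, pow_two, MulAut.mul_apply, MulAut.mul_apply, hg']
        rw [h6, MulAut.one_apply] at h7
        exact h7.symm
    rw [hE]
    exact hmain
  · exfalso
    apply hinv
    intro i
    apply Fin.ext
    have h1 : ∀ i : Fin chevD4.rank, (π i).val = [3, 1, 2, 0].getD i.val 0 := hπe
    rw [h1, h1]
    exact (by decide : ∀ i : Fin chevD4.rank,
      [3, 1, 2, 0].getD ([3, 1, 2, 0].getD i.val 0) 0 = i.val) i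

end Cfsg.Agent.S2734
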