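import Mathlib
import Cfsg.Statements.S2738

set_option autoImplicit false
open Cfsg

namespace Cfsg.Agent.S2738

open Matrix

theorem conj_central {G : Type*} [Group G] {z : G} (hz : z ∈ Subgroup.center G) (k x : G) :
    (z * k) * x * (z * k)⁻¹ = k * x * k⁻¹ := by
  have h := Subgroup.mem_center_iff.1 hz (k * x * k⁻¹)
  calc (z * k) * x * (z * k)⁻¹ = z * (k * x * k⁻¹) * z⁻¹ := by group
    _ = (k * x * k⁻¹) * z * z⁻¹ := by rw [h]
    _ = k * x * k⁻¹ := by group

theorem comm_mem_of_complement {G : Type*} [Group G] (K : Subgroup G)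
    (hK : Subgroup.IsComplement' (Subgroup.center G) K) (a b : G) :
    a * b * a⁻¹ * b⁻¹ ∈ K := by
  obtain ⟨⟨⟨z₁, hz₁⟩, ⟨k₁, hk₁⟩⟩, rfl⟩ := hK.2 a
  obtain ⟨⟨⟨z₂, hz₂⟩, ⟨k₂, hk₂⟩⟩, rfl⟩ := hK.2 b
  have h1 : z₁ * k₁ * (z₂ * k₂) * (z₁ * k₁)⁻¹ * (z₂ * k₂)⁻¹ =
      k₁ * (k₂ * k₁⁻¹ * k₂⁻¹) := by
    rw [conj_central hz₁ k₁ (z₂ * k₂)]
    calc k₁ * (z₂ * k₂) * k₁⁻¹ * (z₂ * k₂)⁻¹ = k₁ * ((z₂ * k₂) * k₁⁻¹ * (z₂ * k₂)⁻¹) := by group
      _ = k₁ * (k₂ * k₁⁻¹ * k₂⁻¹) := by rw [conj_central hz₂ k₂ k₁⁻¹]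
  change z₁ * k₁ * (z₂ * k₂) * (z₁ * k₁)⁻¹ * (z₂ * k₂)⁻¹ ∈ K
  rw [h1]
  exact K.mul_mem hk₁ (K.mul_mem (K.mul_mem hk₂ (K.inv_mem hk₁)) (K.inv_mem hk₂))

/-- The special linear group SL(3, 4) has centre of order 3 and does not split over it: no subgroup is a complement to the centre (so SL(3, 4) is a non-split central extension of PSL(3, 4) by a group of order 3). -/
theorem result (F : Type*) [Field F] [Fintype F] (hF : Fintype.card F = 4) : Nat.card ↥(Subgroup.center (Matrix.SpecialLinearGroup (Fin 3) F)) = 3 ∧ ¬ ∃ K : Subgroup (Matrix.SpecialLinearGroup (Fin 3) F), Subgroup.IsComplement' (Subgroup.center (Matrix.SpecialLinearGroup (Fin 3) F)) K := by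
  classical
  have hunits : Fintype.card Fˣ = 3 := by rw [Fintype.card_units, hF]
  have hcube : ∀ x : F, x ≠ 0 → x ^ 3 = 1 := by
    intro x hx
    have := FiniteField.pow_card_sub_one_eq_one x hx
    rwa [hF] at this
  constructor
  · rw [Nat.card_congr (Matrix.SpecialLinearGroup.center_equiv_rootsOfUnity' (0 : Fin 3)).toEquiv]
    have htop : rootsOfUnity (Fintype.card (Fin 3)) F = ⊤ := by
      rw [eq_top_iff]
      intro u _
      rw [mem_rootsOfUnity]
      apply Units.ext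
      simpa using hcube u u.ne_zero
    rw [htop, Subgroup.card_top, Nat.card_eq_fintype_card, hunits]
  · rintro ⟨K, hK⟩
    obtain ⟨u, hu⟩ := Fintype.exists_ne_of_one_lt_card (by rw [hunits]; norm_num) (1 : Fˣ)
    have hc0 : (u : F) ≠ 0 := u.ne_zero
    have hc1 : (u : F) ≠ 1 := by
      intro h
      exact hu (Units.ext h)
    have hc3 := hcube (u : F) hc0
    generalize (u : F) = c at hc0 hc1 hc3
    let a : SpecialLinearGroup (Fin 3) F := ⟨!![1, 0, 0; 0, c ^ 2, 0; 0, 0, c], by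
      rw [Matrix.det_fin_three]; simp; linear_combination hc3⟩
    let b : SpecialLinearGroup (Fin 3) F := ⟨!![0, 1, 0; 0, 0, 1; 1, 0, 0], by
      rw [Matrix.det_fin_three]; simp⟩
    let z : SpecialLinearGroup (Fin 3) F := ⟨!![c, 0, 0; 0, c, 0; 0, 0, c], by
      rw [Matrix.det_fin_three]; simp; linear_combination hc3⟩
    have hmat : (!![c, 0, 0; 0, c, 0; 0, 0, c] : Matrix (Fin 3) (Fin 3) F) *
        (!![0, 1, 0; 0, 0, 1; 1, 0, 0] * !![1, 0, 0; 0, c ^ 2, 0; 0, 0, c]) =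
        !![1, 0, 0; 0, c ^ 2, 0; 0, 0, c] * !![0, 1, 0; 0, 0, 1; 1, 0, 0] := by
      ext i j
      fin_cases i <;> fin_cases j <;>
        simp [Matrix.mul_apply, Fin.sum_univ_three] <;>
        first | exact hc3 | ring1 | linear_combination hc3
    have hzab : z * (b * a) = a * b := Subtype.ext hmat
    have hzc : z ∈ Subgroup.center (SpecialLinearGroup (Fin 3) F) := by
      rw [Matrix.SpecialLinearGroup.mem_center_iff]
      refine ⟨c, by simpa using hc3, ?_⟩
      ext i j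
      fin_cases i <;> fin_cases j <;> simp [z, Matrix.scalar_apply, Matrix.diagonal]
    have hz1 : z ≠ 1 := by
      intro h
      have h2 := congrArg (fun M : SpecialLinearGroup (Fin 3) F => (M : Matrix (Fin 3) (Fin 3) F) 0 0) h
      simp [z] at h2
      exact hc1 h2
    have hzK : z ∈ K := by
      have h1 := comm_mem_of_complement K hK a b
      have h2 : a * b * a⁻¹ * b⁻¹ = z := by
        rw [← hzab]; group
      rwa [h2] at h1
    exact hz1 (Subgroup.disjoint_def.1 hK.disjoint hzc hzK)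

end Cfsg.Agent.S2738
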