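import Mathlib
import Cfsg.Statements.S2758
import Cfsg.Agent.Lib.Helper46.Dihedral

set_option autoImplicit false
open Cfsg

namespace Cfsg.Agent.S2758

open Cfsg.Agent.Lib.Helper46

/-- The rotation subgroup of the dihedral group. -/
def rot (n : ℕ) : Subgroup (DihedralGroup n) where
  carrier := {d | ∃ i, d = DihedralGroup.r i}
  mul_mem' := by
    rintro _ _ ⟨i, rfl⟩ ⟨j, rfl⟩
    exact ⟨i + j, DihedralGroup.r_mul_r i j⟩
  one_mem' := ⟨0, DihedralGroup.one_def⟩
  inv_mem' := by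
    rintro _ ⟨i, rfl⟩
    exact ⟨-i, DihedralGroup.inv_r i⟩

instance rot_normal (n : ℕ) : (rot n).Normal := by
  constructor
  rintro _ ⟨i, rfl⟩ (j | j)
  · refine ⟨i, ?_⟩
    rw [DihedralGroup.inv_r, DihedralGroup.r_mul_r, DihedralGroup.r_mul_r]
    congr 1
    ring
  · refine ⟨-i, ?_⟩
    rw [DihedralGroup.inv_sr, DihedralGroup.sr_mul_r, DihedralGroup.sr_mul_sr]
    congr 1
    ring

theorem sr_pow_odd {n : ℕ} (j : ZMod n) {m : ℕ} (hm : Odd m) :
    (DihedralGroup.sr j) ^ m = DihedralGroup.sr j := by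
  obtain ⟨c, rfl⟩ := hm
  rw [pow_succ, pow_mul, pow_two, DihedralGroup.sr_mul_self, one_pow, one_mul]

/-- (1) → (2), inside a group mapping onto the dihedral group. -/
theorem exists_of_surjective {K : Type*} [Group K] [Finite K] {p : ℕ} [Fact p.Prime] (hp : p ≠ 2)
    (f : K →* DihedralGroup p) (hf : Function.Surjective f) :
    ∃ (x : K) (P : Subgroup K), (∃ k : ℕ, orderOf x = 2 ^ k) ∧ IsPGroup p ↥P ∧
      x ∈ Subgroup.normalizer (P : Set K) ∧ x ∉ Subgroup.centralizer (P : Set K) := by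
  have hpp : p.Prime := Fact.out
  obtain ⟨u₀, hu₀⟩ := hf (DihedralGroup.r 1)
  obtain ⟨a, m', hm', hum⟩ := Nat.exists_eq_pow_mul_and_not_dvd (orderOf_pos u₀).ne' p hpp.ne_one
  have hu1p : (u₀ ^ m') ^ p ^ a = 1 := by
    rw [← pow_mul, mul_comm, ← hum, pow_orderOf_eq_one]
  have hfu1 : f (u₀ ^ m') = DihedralGroup.r (m' : ZMod p) := by
    rw [map_pow, hu₀, DihedralGroup.r_one_pow]
  have hm0 : (m' : ZMod p) ≠ 0 := by
    rw [Ne, ZMod.natCast_eq_zero_iff]
    exact hm'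
  have hu1C : u₀ ^ m' ∈ (rot p).comap f := by
    rw [Subgroup.mem_comap, hfu1]
    exact ⟨_, rfl⟩
  have hP0 : IsPGroup p (Subgroup.zpowers (⟨u₀ ^ m', hu1C⟩ : ↥((rot p).comap f))) := by
    have h1 : (⟨u₀ ^ m', hu1C⟩ : ↥((rot p).comap f)) ^ p ^ a = 1 := Subtype.ext (by simpa using hu1p)
    obtain ⟨b, _, hb⟩ := (Nat.dvd_prime_pow hpp).1 (orderOf_dvd_of_pow_eq_one h1)
    exact IsPGroup.of_card ((Nat.card_zpowers _).trans hb)
  obtain ⟨Pc, hPc⟩ := hP0.exists_le_sylow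
  have hfrat := Sylow.normalizer_sup_eq_top Pc
  obtain ⟨t, ht⟩ := hf (DihedralGroup.sr 0)
  have htmem : t ∈ ((Subgroup.normalizer (((Pc : Subgroup ↥((rot p).comap f)).map
      ((rot p).comap f).subtype : Subgroup K) : Set K) ⊔ (rot p).comap f : Subgroup K) : Set K) := by
    rw [hfrat]; trivial
  rw [Subgroup.mul_normal, Set.mem_mul] at htmem
  obtain ⟨n, hn, c, hc, hnc⟩ := htmem
  obtain ⟨i, hi⟩ : ∃ i, f c = DihedralGroup.r i := hc
  have hfn : f n = DihedralGroup.sr (-i) := by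
    have h1 : f n = f t * (f c)⁻¹ := by rw [← hnc, map_mul, mul_inv_cancel_right]
    rw [h1, ht, hi, DihedralGroup.inv_r, DihedralGroup.sr_mul_r, zero_add]
  obtain ⟨e, m, hm, hnm⟩ := Nat.exists_eq_two_pow_mul_odd (orderOf_pos n).ne'
  refine ⟨n ^ m, (Pc : Subgroup ↥((rot p).comap f)).map ((rot p).comap f).subtype, ?_,
    Pc.isPGroup'.map _, Subgroup.pow_mem _ hn m, ?_⟩
  · have h1 : (n ^ m) ^ 2 ^ e = 1 := by
      rw [← pow_mul, mul_comm, ← hnm, pow_orderOf_eq_one]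
    obtain ⟨b, _, hb⟩ := (Nat.dvd_prime_pow Nat.prime_two).1 (orderOf_dvd_of_pow_eq_one h1)
    exact ⟨b, hb⟩
  · intro hcen
    have hu1P : u₀ ^ m' ∈ (Pc : Subgroup ↥((rot p).comap f)).map ((rot p).comap f).subtype :=
      ⟨⟨u₀ ^ m', hu1C⟩, hPc (Subgroup.mem_zpowers _), rfl⟩
    have h1 : u₀ ^ m' * n ^ m = n ^ m * u₀ ^ m' := hcen _ hu1P
    have h2 := congrArg f h1
    rw [map_mul, map_mul, hfu1, map_pow, hfn, sr_pow_odd _ hm, DihedralGroup.r_mul_sr,
      DihedralGroup.sr_mul_r] at h2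
    have h3 : -i - (m' : ZMod p) = -i + (m' : ZMod p) := by
      injection h2
    have h4 : ((2 * m' : ℕ) : ZMod p) = 0 := by
      push_cast
      linear_combination -h3
    rw [ZMod.natCast_eq_zero_iff] at h4
    rcases (Nat.Prime.dvd_mul hpp).1 h4 with h5 | h5
    · exact hp ((Nat.prime_dvd_prime_iff_eq hpp Nat.prime_two).1 h5)
    · exact hm' h5

/-- (1) → (2). -/
theorem step12 {G : Type*} [Group G] [Finite G] {p : ℕ} [Fact p.Prime] (hp : p ≠ 2)
    (h : Cfsg.Involves (DihedralGroup p) G) :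
    ∃ (x : G) (P : Subgroup G), (∃ k : ℕ, orderOf x = 2 ^ k) ∧ IsPGroup p ↥P ∧
      x ∈ Subgroup.normalizer (P : Set G) ∧ x ∉ Subgroup.centralizer (P : Set G) := by
  obtain ⟨K, R, hN, ⟨e⟩⟩ := h
  have hf : Function.Surjective (e.toMonoidHom.comp (QuotientGroup.mk' (R.subgroupOf K))) :=
    e.surjective.comp (QuotientGroup.mk'_surjective _)
  obtain ⟨x, P, ⟨k, hk⟩, hP, hxN, hxC⟩ := exists_of_surjective hp _ hf
  refine ⟨(x : G), P.map K.subtype, ⟨k, by rw [Subgroup.orderOf_coe]; exact hk⟩, hP.map _, ?_, ?_⟩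
  · have key : ∀ z : ↥K, z ∈ Subgroup.normalizer (P : Set ↥K) → ∀ g ∈ P.map K.subtype,
        (z : G) * g * (z : G)⁻¹ ∈ P.map K.subtype := by
      rintro z hz _ ⟨g, hg, rfl⟩
      exact ⟨z * g * z⁻¹, (Subgroup.mem_normalizer_iff.1 hz g).1 hg, rfl⟩
    rw [Subgroup.mem_normalizer_iff]
    intro g
    constructor
    · exact key x hxN g
    · intro hg
      have := key x⁻¹ (Subgroup.inv_mem _ hxN) _ hg
      simpa [mul_assoc] using this
  · intro hcen
    apply hxC
    rw [Subgroup.mem_centralizer_iff]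
    intro g hg
    apply Subtype.ext
    exact hcen (g : G) ⟨g, hg, rfl⟩

/-- (2) → (3). -/
theorem step23 {G : Type*} [Group G] [Finite G] {p : ℕ} [Fact p.Prime]
    (P : Subgroup G) (hP : IsPGroup p ↥P) :
    ∀ (k : ℕ) (x : G), orderOf x = 2 ^ k → x ∈ Subgroup.normalizer (P : Set G) →
      x ∉ Subgroup.centralizer (P : Set G) →
      ∃ x y : G, (∃ k : ℕ, orderOf x = 2 ^ k) ∧ (∃ k : ℕ, orderOf y = p ^ k) ∧ y ≠ 1 ∧
        x * y * x⁻¹ = y⁻¹ := by
  intro k
  induction k with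
  | zero =>
    intro x hx _ hxC
    exfalso
    apply hxC
    rw [pow_zero, orderOf_eq_one_iff] at hx
    rw [hx]
    exact Subgroup.one_mem _
  | succ k ih =>
    intro x hx hxN hxC
    by_cases hx2 : x ^ 2 ∈ Subgroup.centralizer (P : Set G)
    · have hex : ∃ u ∈ P, ¬ (u * x = x * u) := by
        by_contra hcon
        push Not at hcon
        exact hxC (Subgroup.mem_centralizer_iff.2 hcon)
      obtain ⟨u, hu, hux⟩ := hex
      have hxu : x * u * x⁻¹ ∈ P := (Subgroup.mem_normalizer_iff.1 hxN u).1 hu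
      have hyP : u⁻¹ * (x * u * x⁻¹) ∈ P := P.mul_mem (P.inv_mem hu) hxu
      refine ⟨x, u⁻¹ * (x * u * x⁻¹), ⟨k + 1, hx⟩, ?_, ?_, ?_⟩
      · obtain ⟨j, hj⟩ := (IsPGroup.iff_orderOf.1 hP) ⟨_, hyP⟩
        exact ⟨j, by rwa [Subgroup.orderOf_mk] at hj⟩
      · intro h1
        apply hux
        have h2 : x * u * x⁻¹ = u := by
          have := congrArg (fun z => u * z) h1
          simpa using this
        calc u * x = (x * u * x⁻¹) * x := by rw [h2]
          _ = x * u := by group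
      · have h3 : u * x ^ 2 = x ^ 2 * u := hx2 u hu
        have h3' : u * (x * x) = (x * x) * u := by rw [← pow_two]; exact h3
        have h4 : x * (x * u * x⁻¹) * x⁻¹ = u := by
          calc x * (x * u * x⁻¹) * x⁻¹ = ((x * x) * u) * (x * x)⁻¹ := by group
            _ = u := by rw [← h3', mul_inv_cancel_right]
        calc x * (u⁻¹ * (x * u * x⁻¹)) * x⁻¹ = (x * u * x⁻¹)⁻¹ * (x * (x * u * x⁻¹) * x⁻¹) := by
              group
          _ = (x * u * x⁻¹)⁻¹ * u := by rw [h4]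
          _ = (u⁻¹ * (x * u * x⁻¹))⁻¹ := by group
    · apply ih (x ^ 2) ?_ (Subgroup.pow_mem _ hxN 2) hx2
      rw [orderOf_pow, hx, pow_succ]
      have : Nat.gcd (2 ^ k * 2) 2 = 2 := Nat.gcd_eq_right (Dvd.intro_left _ rfl)
      rw [this, Nat.mul_div_cancel _ (by norm_num)]

/-- (3) → (1) for `y` of order `p`. -/
theorem step31_aux {G : Type*} [Group G] [Finite G] {p : ℕ} [Fact p.Prime] (hp : p ≠ 2)
    (x y : G) (k : ℕ) (hx : orderOf x = 2 ^ k) (hyp : y ^ p = 1) (hy1 : y ≠ 1)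
    (hxy : x * y * x⁻¹ = y⁻¹) : Cfsg.Involves (DihedralGroup p) G := by
  have hpp : p.Prime := Fact.out
  have hoy : orderOf y = p := orderOf_eq_prime hyp hy1
  have hp2 : ¬ p ∣ 2 ^ k := fun h =>
    hp ((Nat.prime_dvd_prime_iff_eq hpp Nat.prime_two).1 (hpp.dvd_of_dvd_pow h))
  -- an element which is both a 2-element and a p-element is trivial
  have hboth : ∀ z : G, z ∈ Subgroup.zpowers x → z ∈ Subgroup.zpowers y → z = 1 := by
    intro z hzx hzy
    have h1 : orderOf z ∣ 2 ^ k := hx ▸ orderOf_dvd_of_mem_zpowers hzx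
    have h2 : orderOf z ∣ p := hoy ▸ orderOf_dvd_of_mem_zpowers hzy
    rcases (Nat.dvd_prime hpp).1 h2 with h3 | h3
    · exact orderOf_eq_one_iff.1 h3
    · exact absurd (h3 ▸ h1) hp2
  have hx1 : x ≠ 1 := by
    rintro rfl
    have h1 : y = y⁻¹ := by simpa using hxy
    have h2 : y ^ 2 = 1 := by rw [pow_two]; nth_rewrite 1 [h1]; exact inv_mul_cancel y
    have h3 : p ∣ 2 := hoy ▸ orderOf_dvd_of_pow_eq_one h2
    exact hp ((Nat.prime_dvd_prime_iff_eq hpp Nat.prime_two).1 h3)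
  have hk : k ≠ 0 := by
    rintro rfl
    exact hx1 (orderOf_eq_one_iff.1 (by simpa using hx))
  -- the groups K and R
  have hxK : x ∈ Subgroup.closure ({y, x} : Set G) := Subgroup.subset_closure (by simp)
  have hyK : y ∈ Subgroup.closure ({y, x} : Set G) := Subgroup.subset_closure (by simp)
  have hcomm_y : (x * x) * y = y * (x * x) := by
    have h1 : x * y = y⁻¹ * x := by rw [← hxy]; group
    have h2 : x * y⁻¹ = y * x := by
      have : x * y⁻¹ * x⁻¹ = y := by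
        have := congrArg (fun z => z⁻¹) hxy
        simpa [mul_assoc] using this
      calc x * y⁻¹ = (x * y⁻¹ * x⁻¹) * x := by group
        _ = y * x := by rw [this]
    calc (x * x) * y = x * (x * y) := by group
      _ = x * (y⁻¹ * x) := by rw [h1]
      _ = (x * y⁻¹) * x := by group
      _ = y * x * x := by rw [h2]
      _ = y * (x * x) := by group
  have hcent : Subgroup.closure ({y, x} : Set G) ≤ Subgroup.centralizer {x * x} := by
    rw [Subgroup.closure_le]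
    rintro g (rfl | hg)
    · rw [SetLike.mem_coe, Subgroup.mem_centralizer_iff]
      rintro _ rfl
      exact hcomm_y
    · rw [Set.mem_singleton_iff] at hg
      subst hg
      rw [SetLike.mem_coe, Subgroup.mem_centralizer_iff]
      rintro _ rfl
      group
  have hRcomm : ∀ g ∈ Subgroup.closure ({y, x} : Set G), ∀ z ∈ Subgroup.zpowers (x * x),
      g * z * g⁻¹ = z := by
    rintro g hg _ ⟨l, rfl⟩
    have h1 : Commute (x * x) g := (hcent hg) (x * x) rfl
    have h2 : Commute g ((x * x) ^ l) := (h1.zpow_left l).symm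
    rw [h2.eq, mul_inv_cancel_right]
  have hRx : Subgroup.zpowers (x * x) ≤ Subgroup.zpowers x := by
    rw [Subgroup.zpowers_le]
    exact Subgroup.mul_mem _ (Subgroup.mem_zpowers x) (Subgroup.mem_zpowers x)
  have hN : ((Subgroup.zpowers (x * x)).subgroupOf (Subgroup.closure ({y, x} : Set G))).Normal := by
    constructor
    intro n hn g
    rw [Subgroup.mem_subgroupOf] at hn ⊢
    have := hRcomm g g.2 n hn
    simp only [Subgroup.coe_mul, InvMemClass.coe_inv]
    rw [this]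
    exact hn
  refine ⟨Subgroup.closure ({y, x} : Set G), Subgroup.zpowers (x * x), hN, ?_⟩
  have ha : (QuotientGroup.mk (⟨y, hyK⟩ : ↥(Subgroup.closure ({y, x} : Set G))) :
      ↥(Subgroup.closure ({y, x} : Set G)) ⧸
        (Subgroup.zpowers (x * x)).subgroupOf (Subgroup.closure ({y, x} : Set G))) ^ p = 1 := by
    rw [← QuotientGroup.mk_pow]
    have : (⟨y, hyK⟩ : ↥(Subgroup.closure ({y, x} : Set G))) ^ p = 1 := Subtype.ext (by simpa using hyp)
    rw [this]; rfl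
  have hb : (QuotientGroup.mk (⟨x, hxK⟩ : ↥(Subgroup.closure ({y, x} : Set G))) :
      ↥(Subgroup.closure ({y, x} : Set G)) ⧸
        (Subgroup.zpowers (x * x)).subgroupOf (Subgroup.closure ({y, x} : Set G))) *
      QuotientGroup.mk (⟨x, hxK⟩ : ↥(Subgroup.closure ({y, x} : Set G))) = 1 := by
    rw [← QuotientGroup.mk_mul, QuotientGroup.eq_one_iff, Subgroup.mem_subgroupOf]
    exact Subgroup.mem_zpowers (x * x)
  have hab : (QuotientGroup.mk (⟨x, hxK⟩ : ↥(Subgroup.closure ({y, x} : Set G))) :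
      ↥(Subgroup.closure ({y, x} : Set G)) ⧸
        (Subgroup.zpowers (x * x)).subgroupOf (Subgroup.closure ({y, x} : Set G))) *
      QuotientGroup.mk (⟨y, hyK⟩ : ↥(Subgroup.closure ({y, x} : Set G))) *
      (QuotientGroup.mk (⟨x, hxK⟩ : ↥(Subgroup.closure ({y, x} : Set G))))⁻¹ =
      (QuotientGroup.mk (⟨y, hyK⟩ : ↥(Subgroup.closure ({y, x} : Set G))))⁻¹ := by
    rw [← QuotientGroup.mk_mul, ← QuotientGroup.mk_inv, ← QuotientGroup.mk_mul, ← QuotientGroup.mk_inv]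
    congr 1
    exact Subtype.ext hxy
  have ha1 : (QuotientGroup.mk (⟨y, hyK⟩ : ↥(Subgroup.closure ({y, x} : Set G))) :
      ↥(Subgroup.closure ({y, x} : Set G)) ⧸
        (Subgroup.zpowers (x * x)).subgroupOf (Subgroup.closure ({y, x} : Set G))) ≠ 1 := by
    intro h
    rw [QuotientGroup.eq_one_iff, Subgroup.mem_subgroupOf] at h
    exact hy1 (hboth y (hRx h) (Subgroup.mem_zpowers y))
  have ho := orderOf_eq_prime ha ha1
  have hb' : (QuotientGroup.mk (⟨x, hxK⟩ : ↥(Subgroup.closure ({y, x} : Set G))) :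
      ↥(Subgroup.closure ({y, x} : Set G)) ⧸
        (Subgroup.zpowers (x * x)).subgroupOf (Subgroup.closure ({y, x} : Set G))) ∉
      Subgroup.zpowers (QuotientGroup.mk (⟨y, hyK⟩ : ↥(Subgroup.closure ({y, x} : Set G)))) := by
    rintro ⟨m, hm⟩
    have hm' : (QuotientGroup.mk ((⟨y, hyK⟩ : ↥(Subgroup.closure ({y, x} : Set G))) ^ m) :
      ↥(Subgroup.closure ({y, x} : Set G)) ⧸
        (Subgroup.zpowers (x * x)).subgroupOf (Subgroup.closure ({y, x} : Set G))) =
        QuotientGroup.mk (⟨x, hxK⟩ : ↥(Subgroup.closure ({y, x} : Set G))) := hm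
    have h1 := QuotientGroup.eq.1 hm'
    rw [Subgroup.mem_subgroupOf] at h1
    have h2 : (y ^ m)⁻¹ * x ∈ Subgroup.zpowers (x * x) := by simpa using h1
    have h3 : (y ^ m)⁻¹ ∈ Subgroup.zpowers x := by
      have : (y ^ m)⁻¹ = ((y ^ m)⁻¹ * x) * x⁻¹ := by group
      rw [this]
      exact Subgroup.mul_mem _ (hRx h2) (Subgroup.inv_mem _ (Subgroup.mem_zpowers x))
    have h4 : (y ^ m)⁻¹ = 1 :=
      hboth _ h3 (Subgroup.inv_mem _ (Subgroup.zpow_mem _ (Subgroup.mem_zpowers y) m))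
    rw [h4, one_mul] at h2
    obtain ⟨l, hl⟩ := h2
    have hl' : (x * x) ^ l = x := hl
    have h5 : x ^ (2 * l - 1) = 1 := by
      have : (x * x) ^ l = x ^ (2 * l) := by rw [← pow_two, ← zpow_natCast, ← zpow_mul]; rfl
      rw [this] at hl'
      rw [zpow_sub, hl', zpow_one, mul_inv_cancel]
    have h6 : ((orderOf x : ℕ) : ℤ) ∣ 2 * l - 1 := orderOf_dvd_iff_zpow_eq_one.2 h5
    rw [hx] at h6
    have h7 : (2 : ℤ) ∣ 2 * l - 1 := by
      refine dvd_trans ?_ h6
      push_cast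
      exact dvd_pow_self 2 hk
    omega
  have hgen : Subgroup.closure ({QuotientGroup.mk (⟨y, hyK⟩ : ↥(Subgroup.closure ({y, x} : Set G))),
      QuotientGroup.mk (⟨x, hxK⟩ : ↥(Subgroup.closure ({y, x} : Set G)))} :
      Set (↥(Subgroup.closure ({y, x} : Set G)) ⧸
        (Subgroup.zpowers (x * x)).subgroupOf (Subgroup.closure ({y, x} : Set G)))) = ⊤ := by
    have h1 := Subgroup.closure_closure_coe_preimage (k := ({y, x} : Set G))
    have h2 := congrArg (Subgroup.map (QuotientGroup.mk' ((Subgroup.zpowers (x * x)).subgroupOf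
      (Subgroup.closure ({y, x} : Set G))))) h1
    rw [MonoidHom.map_closure, Subgroup.map_top_of_surjective _ (QuotientGroup.mk'_surjective _)] at h2
    rw [eq_top_iff, ← h2]
    apply Subgroup.closure_mono
    rintro _ ⟨g, hg, rfl⟩
    rcases hg with hg | hg
    · left
      have : g = ⟨y, hyK⟩ := Subtype.ext hg
      rw [this]; rfl
    · right
      have : g = ⟨x, hxK⟩ := Subtype.ext hg
      rw [this]; rfl
  exact ⟨(MulEquiv.ofBijective (dihedralLift _ _ ha hb hab)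
    ⟨dihedralLift_injective _ _ ha hb hab ho hb', dihedralLift_surjective _ _ ha hb hab hgen⟩).symm⟩

/-- (3) → (1). -/
theorem step31 {G : Type*} [Group G] [Finite G] {p : ℕ} [Fact p.Prime] (hp : p ≠ 2)
    (x y : G) (hx : ∃ k : ℕ, orderOf x = 2 ^ k) (hy : ∃ k : ℕ, orderOf y = p ^ k) (hy1 : y ≠ 1)
    (hxy : x * y * x⁻¹ = y⁻¹) : Cfsg.Involves (DihedralGroup p) G := by
  obtain ⟨k, hk⟩ := hx
  obtain ⟨j, hj⟩ := hy
  have hj0 : j ≠ 0 := by
    rintro rfl
    exact hy1 (orderOf_eq_one_iff.1 (by simpa using hj))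
  refine step31_aux hp x (y ^ p ^ (j - 1)) k hk ?_ ?_ ?_
  · rw [← pow_mul, ← pow_succ, Nat.sub_add_cancel (Nat.pos_of_ne_zero hj0), ← hj]
    exact pow_orderOf_eq_one y
  · intro h
    have h5 := orderOf_dvd_of_pow_eq_one h
    rw [hj] at h5
    have h6 := (Nat.pow_dvd_pow_iff_le_right (Fact.out : p.Prime).one_lt).1 h5
    omega
  · rw [← conj_pow, hxy, inv_pow]

/-- For an odd prime p and a finite group G the following are equivalent: the dihedral group of order 2p is involved in G; some element of 2-power order normalizes but does not centralize some p-subgroup of G; some element of 2-power order inverts some nonidentity element of p-power order. -/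
theorem result {G : Type*} [Group G] [Finite G] {p : ℕ} [Fact p.Prime] (hp : p ≠ 2) : (Cfsg.Involves (DihedralGroup p) G ↔ ∃ (x : G) (P : Subgroup G), (∃ k : ℕ, orderOf x = 2 ^ k) ∧ IsPGroup p ↥P ∧ x ∈ Subgroup.normalizer (P : Set G) ∧ x ∉ Subgroup.centralizer (P : Set G)) ∧ (Cfsg.Involves (DihedralGroup p) G ↔ ∃ x y : G, (∃ k : ℕ, orderOf x = 2 ^ k) ∧ (∃ k : ℕ, orderOf y = p ^ k) ∧ y ≠ 1 ∧ x * y * x⁻¹ = y⁻¹) := by
  have h12 := step12 (G := G) hp
  have h23 : (∃ (x : G) (P : Subgroup G), (∃ k : ℕ, orderOf x = 2 ^ k) ∧ IsPGroup p ↥P ∧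
      x ∈ Subgroup.normalizer (P : Set G) ∧ x ∉ Subgroup.centralizer (P : Set G)) →
      ∃ x y : G, (∃ k : ℕ, orderOf x = 2 ^ k) ∧ (∃ k : ℕ, orderOf y = p ^ k) ∧ y ≠ 1 ∧
        x * y * x⁻¹ = y⁻¹ := by
    rintro ⟨x, P, ⟨k, hk⟩, hP, hxN, hxC⟩
    exact step23 P hP k x hk hxN hxC
  have h31 : (∃ x y : G, (∃ k : ℕ, orderOf x = 2 ^ k) ∧ (∃ k : ℕ, orderOf y = p ^ k) ∧ y ≠ 1 ∧
        x * y * x⁻¹ = y⁻¹) → Cfsg.Involves (DihedralGroup p) G := by
    rintro ⟨x, y, hx, hy, hy1, hxy⟩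
    exact step31 hp x y hx hy hy1 hxy
  exact ⟨⟨h12, fun h => h31 (h23 h)⟩, ⟨fun h => h23 (h12 h), h31⟩⟩

end Cfsg.Agent.S2758
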