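import Cfsg.Statements.S2760
import Cfsg.Agent.Lib.Helper46.Amalgam2

set_option autoImplicit false
open Cfsg

namespace Cfsg.Agent.S2760

open Cfsg.Agent.Lib.Helper46

variable {G : Type*} [Group G]

theorem pCoreOf_normal (p : ℕ) (K : Subgroup G) (hK : K.Normal) : (pCoreOf p K).Normal := by
  constructor
  intro n hn g
  have h1 : K.map (MulAut.conj g).toMonoidHom = K :=
    map_conj_eq_of_mem_normalizer (by rw [Subgroup.normalizer_eq_top]; trivial)
  have h2 := pCoreOf_map p K (MulAut.conj g)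
  rw [h1] at h2
  rw [h2]
  exact ⟨n, hn, rfl⟩

theorem inf_le_pCoreOf (p : ℕ) [Fact p.Prime] (K : Subgroup G) :
    pCore p G ⊓ K ≤ pCoreOf p K := by
  have h1 : ((pCore p G).subgroupOf K).Normal := (pCore_normal p G).subgroupOf K
  have h2 : IsPGroup p ((pCore p G).subgroupOf K) := (pCore_isPGroup p).comap_subtype
  have h3 := le_pCore h1 h2
  have h4 := Subgroup.map_mono (f := K.subtype) h3
  rwa [Subgroup.subgroupOf_map_subtype] at h4

/-- Lemma A. -/
theorem eq_one_of_odd [Finite G]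
    (hchar : Subgroup.centralizer (pCore 2 G : Set G) ≤ pCore 2 G) (K : Subgroup G) (hK : K.Normal)
    (c : G) (hcK : c ∈ K) (hcC : c ∈ Subgroup.centralizer (pCoreOf 2 K : Set G))
    (hodd : Odd (orderOf c)) : c = 1 := by
  have : Fact (Nat.Prime 2) := ⟨Nat.prime_two⟩
  have hQ : (pCore 2 G).Normal := pCore_normal 2 G
  have hc2 : c ∈ Subgroup.centralizer (pCore 2 G : Set G) := by
    rw [Subgroup.mem_centralizer_iff]
    intro q hq
    have hq' : q ∈ pCore 2 G := hq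
    have haQ : c * q * c⁻¹ * q⁻¹ ∈ pCore 2 G :=
      Subgroup.mul_mem _ (hQ.conj_mem q hq' c) (Subgroup.inv_mem _ hq')
    have haK : c * q * c⁻¹ * q⁻¹ ∈ K := by
      have h1 : q * c⁻¹ * q⁻¹ ∈ K := hK.conj_mem _ (Subgroup.inv_mem _ hcK) q
      have h2 : c * q * c⁻¹ * q⁻¹ = c * (q * c⁻¹ * q⁻¹) := by group
      rw [h2]
      exact Subgroup.mul_mem _ hcK h1
    have haQK : c * q * c⁻¹ * q⁻¹ ∈ pCoreOf 2 K := inf_le_pCoreOf 2 K ⟨haQ, haK⟩
    have hac : (c * q * c⁻¹ * q⁻¹) * c = c * (c * q * c⁻¹ * q⁻¹) := hcC _ haQK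
    have hpow : ∀ k : ℕ, c ^ k * q * (c ^ k)⁻¹ = (c * q * c⁻¹ * q⁻¹) ^ k * q := by
      intro k
      induction k with
      | zero => simp
      | succ k ih =>
        have hcomm : Commute c ((c * q * c⁻¹ * q⁻¹) ^ k) := (Commute.pow_right hac.symm k)
        calc c ^ (k + 1) * q * (c ^ (k + 1))⁻¹ = c * (c ^ k * q * (c ^ k)⁻¹) * c⁻¹ := by
              rw [pow_succ']; group
          _ = c * ((c * q * c⁻¹ * q⁻¹) ^ k * q) * c⁻¹ := by rw [ih]
          _ = (c * (c * q * c⁻¹ * q⁻¹) ^ k) * q * c⁻¹ := by group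
          _ = ((c * q * c⁻¹ * q⁻¹) ^ k * c) * q * c⁻¹ := by rw [hcomm.eq]
          _ = (c * q * c⁻¹ * q⁻¹) ^ k * (c * q * c⁻¹ * q⁻¹) * q := by group
          _ = (c * q * c⁻¹ * q⁻¹) ^ (k + 1) * q := by rw [pow_succ]
    have h1 := hpow (orderOf c)
    rw [pow_orderOf_eq_one] at h1
    have h2 : (c * q * c⁻¹ * q⁻¹) ^ orderOf c = 1 := by
      have : q = (c * q * c⁻¹ * q⁻¹) ^ orderOf c * q := by simpa using h1
      exact (mul_eq_right.1 this.symm)
    obtain ⟨j, hj⟩ := (pCore_isPGroup (G := G) 2) ⟨_, haQ⟩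
    have hj' : (c * q * c⁻¹ * q⁻¹) ^ 2 ^ j = 1 := by simpa using congrArg Subtype.val hj
    have h3 : orderOf (c * q * c⁻¹ * q⁻¹) ∣ orderOf c := orderOf_dvd_of_pow_eq_one h2
    have h4 : orderOf (c * q * c⁻¹ * q⁻¹) ∣ 2 ^ j := orderOf_dvd_of_pow_eq_one hj'
    have h5 : Nat.Coprime (orderOf c) (2 ^ j) :=
      Nat.Coprime.pow_right j (Nat.coprime_two_right.2 hodd)
    have h6 : orderOf (c * q * c⁻¹ * q⁻¹) = 1 := Nat.eq_one_of_dvd_coprimes h5 h3 h4
    have h7 : c * q * c⁻¹ * q⁻¹ = 1 := orderOf_eq_one_iff.1 h6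
    have h8 : c * q = q * c := by
      have : c * q = (c * q * c⁻¹ * q⁻¹) * (q * c) := by group
      rw [this, h7, one_mul]
    exact h8.symm
  have hc3 := hchar hc2
  obtain ⟨j, hj⟩ := (pCore_isPGroup (G := G) 2) ⟨c, hc3⟩
  have hj' : c ^ 2 ^ j = 1 := by simpa using congrArg Subtype.val hj
  have h4 : orderOf c ∣ 2 ^ j := orderOf_dvd_of_pow_eq_one hj'
  have h5 : Nat.Coprime (orderOf c) (2 ^ j) :=
    Nat.Coprime.pow_right j (Nat.coprime_two_right.2 hodd)
  exact orderOf_eq_one_iff.1 (Nat.eq_one_of_dvd_coprimes h5 dvd_rfl h4)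

/-- Lemma B. -/
theorem centralizer_le_pCore_of_odd {H : Type*} [Group H] [Finite H]
    (h : ∀ c ∈ Subgroup.centralizer (pCore 2 H : Set H), Odd (orderOf c) → c = 1) :
    Subgroup.centralizer (pCore 2 H : Set H) ≤ pCore 2 H := by
  apply le_pCore inferInstance
  intro c
  have hn : orderOf (c : H) ≠ 0 := (orderOf_pos (c : H)).ne'
  obtain ⟨j, m, hm, hjm⟩ := Nat.exists_eq_two_pow_mul_odd hn
  refine ⟨j, ?_⟩
  have h1 : ((c : H) ^ 2 ^ j) ^ m = 1 := by
    rw [← pow_mul, ← hjm, pow_orderOf_eq_one]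
  have h2 : Odd (orderOf ((c : H) ^ 2 ^ j)) := Odd.of_dvd_nat hm (orderOf_dvd_of_pow_eq_one h1)
  have h3 := h _ (Subgroup.pow_mem _ c.2 _) h2
  apply Subtype.ext
  simpa using h3

/-- Lemma C. -/
theorem pCoreOf_le_pCoreOf (p : ℕ) [Fact p.Prime] (R H : Subgroup G) (hR : R.Normal) (hRH : R ≤ H) :
    pCoreOf p R ≤ pCoreOf p H := by
  have h1 : ((pCoreOf p R).subgroupOf H).Normal := (pCoreOf_normal p R hR).subgroupOf H
  have h2 : IsPGroup p ((pCoreOf p R).subgroupOf H) := (pCoreOf_isPGroup p R).comap_subtype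
  have h3 := Subgroup.map_mono (f := H.subtype) (le_pCore h1 h2)
  have h4 : pCoreOf p R ≤ H := (Subgroup.map_subtype_le _).trans hRH
  rwa [Subgroup.map_subgroupOf_eq_of_le h4] at h3

/-- Let G be a finite group with C_G(O₂(G)) ≤ O₂(G) and H a subgroup of G such that H is normal in G, or the subgroup O²(H) generated by the elements of H of odd order is normal in G. Then C_H(O₂(H)) ≤ O₂(H). -/
theorem result {G : Type*} [Group G] [Finite G] (hchar : Subgroup.centralizer (Cfsg.pCore 2 G : Set G) ≤ Cfsg.pCore 2 G) (H : Subgroup G) (hH : H.Normal ∨ ((Cfsg.pResidual 2 ↥H).map H.subtype).Normal) : Subgroup.centralizer (Cfsg.pCore 2 ↥H : Set ↥H) ≤ Cfsg.pCore 2 ↥H := by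
  have : Fact (Nat.Prime 2) := ⟨Nat.prime_two⟩
  apply centralizer_le_pCore_of_odd
  intro c hc hodd
  have hodd' : Odd (orderOf (c : G)) := by rwa [Subgroup.orderOf_coe]
  have hcC : (c : G) ∈ Subgroup.centralizer (pCoreOf 2 H : Set G) := by
    rw [Subgroup.mem_centralizer_iff]
    rintro _ ⟨y, hy, rfl⟩
    exact congrArg Subtype.val (hc y hy)
  apply Subtype.ext
  rcases hH with hH | hR
  · exact eq_one_of_odd hchar H hH (c : G) c.2 hcC hodd'
  · have hcR : (c : G) ∈ (Cfsg.pResidual 2 ↥H).map H.subtype := by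
      refine ⟨c, Subgroup.subset_closure ?_, rfl⟩
      exact Nat.coprime_two_right.2 hodd
    refine eq_one_of_odd hchar _ hR (c : G) hcR ?_ hodd'
    exact Subgroup.centralizer_le
      (pCoreOf_le_pCoreOf 2 _ H hR (Subgroup.map_subtype_le _)) hcC

end Cfsg.Agent.S2760
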