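import Cfsg.Statements.S2762
import Cfsg.Agent.Lib.Helper58.NatSL2

set_option autoImplicit false
open Cfsg

namespace Cfsg.Agent.S2762

open Matrix
open Cfsg.Agent.Lib.Helper58.NatSL2

section QdHelpers

variable {F : Type*} [Field F]

local notation "SL3" => Matrix.SpecialLinearGroup (Fin 3) F
local notation "SL2" => Matrix.SpecialLinearGroup (Fin 2) F

theorem mul3 (m k : SL3) (i j : Fin 3) :
    (m * k) i j = m i 0 * k 0 j + m i 1 * k 1 j + m i 2 * k 2 j := by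
  simp [Matrix.SpecialLinearGroup.coe_mul, Matrix.mul_apply, Fin.sum_univ_three]

theorem det3 (m : SL3) (h20 : m 2 0 = 0) (h21 : m 2 1 = 0) (h22 : m 2 2 = 1) :
    m 0 0 * m 1 1 - m 0 1 * m 1 0 = 1 := by
  have h := m.det_coe
  rw [Matrix.det_fin_three] at h
  rw [h20, h21, h22] at h
  linear_combination h

/-- The matrices with last row `(0,0,1)`, as a subgroup. -/
def lastRow (F : Type*) [Field F] : Subgroup (Matrix.SpecialLinearGroup (Fin 3) F) where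
  carrier := {m | m 2 0 = 0 ∧ m 2 1 = 0 ∧ m 2 2 = 1}
  mul_mem' := by
    rintro a b ⟨a0, a1, a2⟩ ⟨b0, b1, b2⟩
    refine ⟨?_, ?_, ?_⟩
    · rw [mul3, a0, a1, a2, b0]; ring
    · rw [mul3, a0, a1, a2, b1]; ring
    · rw [mul3, a0, a1, a2, b2]; ring
  one_mem' := by
    refine ⟨?_, ?_, ?_⟩ <;> simp
  inv_mem' := by
    rintro a ⟨a0, a1, a2⟩
    have hd := det3 a a0 a1 a2
    refine ⟨?_, ?_, ?_⟩
    · simp [Matrix.SpecialLinearGroup.coe_inv, Matrix.adjugate_fin_three, a0, a1]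
    · simp [Matrix.SpecialLinearGroup.coe_inv, Matrix.adjugate_fin_three, a0, a1]
    · simp [Matrix.SpecialLinearGroup.coe_inv, Matrix.adjugate_fin_three, a0, a1]
      linear_combination hd

theorem qd_eq : Cfsg.qdOver F = lastRow F := Subgroup.closure_eq (lastRow F)

theorem mem_qd {m : SL3} : m ∈ Cfsg.qdOver F ↔ m 2 0 = 0 ∧ m 2 1 = 0 ∧ m 2 2 = 1 := by
  rw [qd_eq]; exact Iff.rfl

theorem q20 (M : ↥(Cfsg.qdOver F)) : (M : SL3) 2 0 = 0 := (mem_qd.mp M.2).1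
theorem q21 (M : ↥(Cfsg.qdOver F)) : (M : SL3) 2 1 = 0 := (mem_qd.mp M.2).2.1
theorem q22 (M : ↥(Cfsg.qdOver F)) : (M : SL3) 2 2 = 1 := (mem_qd.mp M.2).2.2

theorem qmul0 (M N : ↥(Cfsg.qdOver F)) (i : Fin 3) :
    ((M * N : ↥(Cfsg.qdOver F)) : SL3) i 0
      = (M : SL3) i 0 * (N : SL3) 0 0 + (M : SL3) i 1 * (N : SL3) 1 0 := by
  rw [Subgroup.coe_mul, mul3, q20 N]; ring

theorem qmul1 (M N : ↥(Cfsg.qdOver F)) (i : Fin 3) :
    ((M * N : ↥(Cfsg.qdOver F)) : SL3) i 1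
      = (M : SL3) i 0 * (N : SL3) 0 1 + (M : SL3) i 1 * (N : SL3) 1 1 := by
  rw [Subgroup.coe_mul, mul3, q21 N]; ring

theorem qmul2 (M N : ↥(Cfsg.qdOver F)) (i : Fin 3) :
    ((M * N : ↥(Cfsg.qdOver F)) : SL3) i 2
      = (M : SL3) i 0 * (N : SL3) 0 2 + (M : SL3) i 1 * (N : SL3) 1 2 + (M : SL3) i 2 := by
  rw [Subgroup.coe_mul, mul3, q22 N]; ring

theorem qd_ext {M N : ↥(Cfsg.qdOver F)} (h00 : (M : SL3) 0 0 = (N : SL3) 0 0)
    (h01 : (M : SL3) 0 1 = (N : SL3) 0 1) (h02 : (M : SL3) 0 2 = (N : SL3) 0 2)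
    (h10 : (M : SL3) 1 0 = (N : SL3) 1 0) (h11 : (M : SL3) 1 1 = (N : SL3) 1 1)
    (h12 : (M : SL3) 1 2 = (N : SL3) 1 2) : M = N := by
  have h20 := (q20 M).trans (q20 N).symm
  have h21 := (q21 M).trans (q21 N).symm
  have h22 := (q22 M).trans (q22 N).symm
  apply Subtype.ext
  ext i j
  fin_cases i <;> fin_cases j <;> assumption

/-- The upper-left block. -/
def blk (M : ↥(Cfsg.qdOver F)) : SL2 :=
  ⟨!![(M : SL3) 0 0, (M : SL3) 0 1; (M : SL3) 1 0, (M : SL3) 1 1], by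
    rw [Matrix.det_fin_two]
    exact det3 _ (q20 M) (q21 M) (q22 M)⟩

@[simp] theorem blk_00 (M : ↥(Cfsg.qdOver F)) : blk M 0 0 = (M : SL3) 0 0 := rfl
@[simp] theorem blk_01 (M : ↥(Cfsg.qdOver F)) : blk M 0 1 = (M : SL3) 0 1 := rfl
@[simp] theorem blk_10 (M : ↥(Cfsg.qdOver F)) : blk M 1 0 = (M : SL3) 1 0 := rfl
@[simp] theorem blk_11 (M : ↥(Cfsg.qdOver F)) : blk M 1 1 = (M : SL3) 1 1 := rfl

/-- The upper-left block, as a homomorphism. -/
def blkHom : ↥(Cfsg.qdOver F) →* SL2 where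
  toFun := blk
  map_one' := by
    apply ext4 <;> simp
  map_mul' := by
    intro M N
    apply ext4
    · rw [blk_00, qmul0, mul_00]; rfl
    · rw [blk_01, qmul1, mul_01]; rfl
    · rw [blk_10, qmul0, mul_10]; rfl
    · rw [blk_11, qmul1, mul_11]; rfl

theorem blkHom_apply (M : ↥(Cfsg.qdOver F)) : blkHom M = blk M := rfl

/-- Block diagonal embedding. -/
def sec3 (A : SL2) : SL3 :=
  ⟨!![A 0 0, A 0 1, 0; A 1 0, A 1 1, 0; 0, 0, 1], by
    rw [Matrix.det_fin_three]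
    simp
    exact det_eq A⟩

theorem sec3_mem (A : SL2) : sec3 A ∈ Cfsg.qdOver F := mem_qd.mpr ⟨rfl, rfl, rfl⟩

/-- Block diagonal embedding into `Qd`. -/
def secQ (A : SL2) : ↥(Cfsg.qdOver F) := ⟨sec3 A, sec3_mem A⟩

@[simp] theorem secQ_00 (A : SL2) : ((secQ A : ↥(Cfsg.qdOver F)) : SL3) 0 0 = A 0 0 := rfl
@[simp] theorem secQ_01 (A : SL2) : ((secQ A : ↥(Cfsg.qdOver F)) : SL3) 0 1 = A 0 1 := rfl
@[simp] theorem secQ_02 (A : SL2) : ((secQ A : ↥(Cfsg.qdOver F)) : SL3) 0 2 = 0 := rfl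
@[simp] theorem secQ_10 (A : SL2) : ((secQ A : ↥(Cfsg.qdOver F)) : SL3) 1 0 = A 1 0 := rfl
@[simp] theorem secQ_11 (A : SL2) : ((secQ A : ↥(Cfsg.qdOver F)) : SL3) 1 1 = A 1 1 := rfl
@[simp] theorem secQ_12 (A : SL2) : ((secQ A : ↥(Cfsg.qdOver F)) : SL3) 1 2 = 0 := rfl

theorem one_entries :
    ((1 : ↥(Cfsg.qdOver F)) : SL3) 0 0 = 1 ∧ ((1 : ↥(Cfsg.qdOver F)) : SL3) 0 1 = 0 ∧
    ((1 : ↥(Cfsg.qdOver F)) : SL3) 0 2 = 0 ∧ ((1 : ↥(Cfsg.qdOver F)) : SL3) 1 0 = 0 ∧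
    ((1 : ↥(Cfsg.qdOver F)) : SL3) 1 1 = 1 ∧ ((1 : ↥(Cfsg.qdOver F)) : SL3) 1 2 = 0 := by
  refine ⟨?_, ?_, ?_, ?_, ?_, ?_⟩ <;> simp

/-- Block diagonal embedding, as a homomorphism. -/
def secHom : SL2 →* ↥(Cfsg.qdOver F) where
  toFun := secQ
  map_one' := by
    obtain ⟨a, b, c, d, e, f⟩ := one_entries (F := F)
    apply qd_ext
    · rw [secQ_00, a]; simp
    · rw [secQ_01, b]; simp
    · rw [secQ_02, c]
    · rw [secQ_10, d]; simp
    · rw [secQ_11, e]; simp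
    · rw [secQ_12, f]
  map_mul' := by
    intro A B
    apply qd_ext
    · rw [qmul0, secQ_00, mul_00]; rfl
    · rw [qmul1, secQ_01, mul_01]; rfl
    · rw [qmul2, secQ_02, secQ_02, secQ_12]; simp
    · rw [qmul0, secQ_10, mul_10]; rfl
    · rw [qmul1, secQ_11, mul_11]; rfl
    · rw [qmul2, secQ_12, secQ_02, secQ_12]; simp

theorem secHom_apply (A : SL2) : secHom A = secQ A := rfl

theorem blk_sec (A : SL2) : blkHom (secHom A) = A := by
  apply ext4 <;> rfl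

theorem secHom_injective : Function.Injective (secHom : SL2 →* ↥(Cfsg.qdOver F)) :=
  Function.LeftInverse.injective blk_sec

theorem blkHom_surjective : Function.Surjective (blkHom : ↥(Cfsg.qdOver F) →* SL2) :=
  fun A => ⟨secHom A, blk_sec A⟩

theorem mem_ker_iff (M : ↥(Cfsg.qdOver F)) :
    M ∈ (blkHom : ↥(Cfsg.qdOver F) →* SL2).ker ↔
      (M : SL3) 0 0 = 1 ∧ (M : SL3) 0 1 = 0 ∧ (M : SL3) 1 0 = 0 ∧ (M : SL3) 1 1 = 1 := by
  rw [MonoidHom.mem_ker, blkHom_apply]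
  constructor
  · intro h
    refine ⟨?_, ?_, ?_, ?_⟩
    · rw [← blk_00, h]; simp
    · rw [← blk_01, h]; simp
    · rw [← blk_10, h]; simp
    · rw [← blk_11, h]; simp
  · rintro ⟨a, b, c, d⟩
    apply ext4
    · rw [blk_00, a]; simp
    · rw [blk_01, b]; simp
    · rw [blk_10, c]; simp
    · rw [blk_11, d]; simp

theorem mem_range_iff (M : ↥(Cfsg.qdOver F)) :
    M ∈ (secHom : SL2 →* ↥(Cfsg.qdOver F)).range ↔ (M : SL3) 0 2 = 0 ∧ (M : SL3) 1 2 = 0 := by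
  constructor
  · rintro ⟨A, rfl⟩
    exact ⟨rfl, rfl⟩
  · rintro ⟨a, b⟩
    exact ⟨blkHom M, qd_ext rfl rfl a.symm rfl rfl b.symm⟩

/-- Last column. -/
def lastCol (M : ↥(Cfsg.qdOver F)) : Fin 2 → F := ![(M : SL3) 0 2, (M : SL3) 1 2]

theorem lastCol_mul {M : ↥(Cfsg.qdOver F)} (hM : M ∈ (blkHom : ↥(Cfsg.qdOver F) →* SL2).ker)
    (N : ↥(Cfsg.qdOver F)) : lastCol (M * N) = lastCol M + lastCol N := by
  obtain ⟨a, b, c, d⟩ := (mem_ker_iff M).mp hM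
  funext i
  fin_cases i
  · show ((M * N : ↥(Cfsg.qdOver F)) : SL3) 0 2 = (M : SL3) 0 2 + (N : SL3) 0 2
    rw [qmul2, a, b]; ring
  · show ((M * N : ↥(Cfsg.qdOver F)) : SL3) 1 2 = (M : SL3) 1 2 + (N : SL3) 1 2
    rw [qmul2, c, d]; ring

theorem lastCol_inj {M N : ↥(Cfsg.qdOver F)} (hM : M ∈ (blkHom : ↥(Cfsg.qdOver F) →* SL2).ker)
    (hN : N ∈ (blkHom : ↥(Cfsg.qdOver F) →* SL2).ker) (h : lastCol M = lastCol N) : M = N := by
  obtain ⟨a, b, c, d⟩ := (mem_ker_iff M).mp hM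
  obtain ⟨a', b', c', d'⟩ := (mem_ker_iff N).mp hN
  have h0 : (M : SL3) 0 2 = (N : SL3) 0 2 := congrFun h 0
  have h1 : (M : SL3) 1 2 = (N : SL3) 1 2 := congrFun h 1
  exact qd_ext (a.trans a'.symm) (b.trans b'.symm) h0 (c.trans c'.symm) (d.trans d'.symm) h1

/-- Translation matrix. -/
def tr3 (v : Fin 2 → F) : SL3 :=
  ⟨!![1, 0, v 0; 0, 1, v 1; 0, 0, 1], by
    rw [Matrix.det_fin_three]
    simp⟩

/-- Translation, in `Qd`. -/
def trQ (v : Fin 2 → F) : ↥(Cfsg.qdOver F) := ⟨tr3 v, mem_qd.mpr ⟨rfl, rfl, rfl⟩⟩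

theorem trQ_mem (v : Fin 2 → F) : trQ v ∈ (blkHom : ↥(Cfsg.qdOver F) →* SL2).ker :=
  (mem_ker_iff _).mpr ⟨rfl, rfl, rfl, rfl⟩

theorem lastCol_trQ (v : Fin 2 → F) : lastCol (trQ v) = v := by
  funext i
  fin_cases i <;> rfl

/-- The last column as an additive isomorphism on the translation subgroup. -/
noncomputable def psi : Additive ↥(blkHom : ↥(Cfsg.qdOver F) →* SL2).ker ≃+ (Fin 2 → F) :=
  AddEquiv.ofBijective
    (AddMonoidHom.mk' (fun v => lastCol ((Additive.toMul v : ↥(blkHom : ↥(Cfsg.qdOver F) →* SL2).ker) : ↥(Cfsg.qdOver F)))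
      (fun a b => lastCol_mul (Additive.toMul a).2 _))
    ⟨fun a b h => by
        have := lastCol_inj (Additive.toMul a).2 (Additive.toMul b).2 h
        exact Additive.toMul.injective (Subtype.ext this),
     fun v => ⟨Additive.ofMul ⟨trQ v, trQ_mem v⟩, lastCol_trQ v⟩⟩

theorem psi_apply (v : ↥(blkHom : ↥(Cfsg.qdOver F) →* SL2).ker) :
    psi (Additive.ofMul v) = lastCol (v : ↥(Cfsg.qdOver F)) := rfl

theorem isPGroup_ker [Fintype F] {p n : ℕ} (hF : Fintype.card F = p ^ n) :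
    IsPGroup p ↥(blkHom : ↥(Cfsg.qdOver F) →* SL2).ker := by
  apply IsPGroup.of_card (n := n * 2)
  have h1 : Nat.card ↥(blkHom : ↥(Cfsg.qdOver F) →* SL2).ker = Nat.card (Fin 2 → F) :=
    Nat.card_congr (Additive.ofMul.trans psi.toEquiv)
  rw [h1, Nat.card_eq_fintype_card, Fintype.card_fun, hF, Fintype.card_fin, pow_mul]

/-- A normal `p`-subgroup of `SL₂(F)` is trivial. -/
theorem normal_pgroup_eq_bot [Fintype F] {p n : ℕ} [Fact p.Prime] (hF : Fintype.card F = p ^ n)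
    (P : Subgroup SL2) (hPn : P.Normal) (hP : IsPGroup p P) : P = ⊥ := by
  obtain ⟨g, hg⟩ := exists_conj_le_U hF P hP
  have hPU : ∀ m ∈ P, m ∈ U F := by
    intro m hm
    have h1 : g * m * g⁻¹ ∈ P := hPn.conj_mem m hm g
    have h2 := hg _ h1
    have h3 : g⁻¹ * (g * m * g⁻¹) * g = m := by group
    rwa [h3] at h2
  rw [eq_bot_iff]
  intro m hm
  rw [Subgroup.mem_bot]
  let w : SL2 := ⟨!![0, -1; 1, 0], by simp [Matrix.det_fin_two]⟩
  have hw00 : w 0 0 = 0 := rfl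
  have hw01 : w 0 1 = -1 := rfl
  have hw10 : w 1 0 = 1 := rfl
  have hw11 : w 1 1 = 0 := rfl
  obtain ⟨m00, m10, m11⟩ := hPU m hm
  obtain ⟨-, c10, -⟩ := hPU _ (hPn.conj_mem m hm w)
  rw [mul_10, mul_10, mul_11, inv_00, inv_10, hw10, hw11, m00, m10, m11] at c10
  have h01 : m 0 1 = 0 := by linear_combination -c10
  apply ext4
  · rw [m00]; simp
  · rw [h01]; simp
  · rw [m10]; simp
  · rw [m11]; simp

theorem pCore_eq [Fintype F] {p n : ℕ} [Fact p.Prime] (hF : Fintype.card F = p ^ n) :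
    Cfsg.pCore p ↥(Cfsg.qdOver F) = (blkHom : ↥(Cfsg.qdOver F) →* SL2).ker := by
  apply le_antisymm
  · apply sSup_le
    rintro N ⟨hN, hNp⟩
    have h1 : (N.map (blkHom : ↥(Cfsg.qdOver F) →* SL2)).Normal := hN.map _ blkHom_surjective
    have h2 : IsPGroup p ↥(N.map (blkHom : ↥(Cfsg.qdOver F) →* SL2)) := hNp.map _
    have h3 := normal_pgroup_eq_bot hF _ h1 h2
    intro x hx
    rw [MonoidHom.mem_ker]
    have : blkHom x ∈ N.map (blkHom : ↥(Cfsg.qdOver F) →* SL2) := Subgroup.mem_map_of_mem _ hx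
    rwa [h3, Subgroup.mem_bot] at this
  · exact le_sSup ⟨inferInstance, isPGroup_ker hF⟩

theorem range_inf_ker :
    (secHom : SL2 →* ↥(Cfsg.qdOver F)).range ⊓ (blkHom : ↥(Cfsg.qdOver F) →* SL2).ker = ⊥ := by
  rw [eq_bot_iff]
  rintro M ⟨hK, hN⟩
  rw [Subgroup.mem_bot]
  obtain ⟨a, b⟩ := (mem_range_iff M).mp hK
  obtain ⟨c, d, e, f⟩ := (mem_ker_iff M).mp hN
  obtain ⟨o1, o2, o3, o4, o5, o6⟩ := one_entries (F := F)
  exact qd_ext (c.trans o1.symm) (d.trans o2.symm) (a.trans o3.symm) (e.trans o4.symm)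
    (f.trans o5.symm) (b.trans o6.symm)

theorem range_sup_ker :
    (secHom : SL2 →* ↥(Cfsg.qdOver F)).range ⊔ (blkHom : ↥(Cfsg.qdOver F) →* SL2).ker = ⊤ := by
  rw [eq_top_iff]
  intro M _
  have h1 : M = secHom (blkHom M) * ((secHom (blkHom M))⁻¹ * M) := by group
  rw [h1]
  apply Subgroup.mul_mem_sup (MonoidHom.mem_range.mpr ⟨_, rfl⟩)
  rw [MonoidHom.mem_ker, map_mul, map_inv, blk_sec, inv_mul_cancel]

theorem natural :
    Cfsg.IsNaturalSL2Module F (blkHom : ↥(Cfsg.qdOver F) →* SL2).ker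
      (secHom : SL2 →* ↥(Cfsg.qdOver F)).range := by
  refine ⟨?_, (blkHom : ↥(Cfsg.qdOver F) →* SL2).comp (Subgroup.subtype _), psi, ?_, ?_, ?_⟩
  · intro l _
    rw [Subgroup.mem_normalizer_iff]
    intro h
    have hn : ((blkHom : ↥(Cfsg.qdOver F) →* SL2).ker).Normal := MonoidHom.normal_ker _
    constructor
    · intro hh
      exact hn.conj_mem h hh l
    · intro hh
      have h2 := hn.conj_mem _ hh l⁻¹
      have e : l⁻¹ * (l * h * l⁻¹) * l⁻¹⁻¹ = h := by group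
      rwa [e] at h2
  · intro A
    exact ⟨⟨secHom A, MonoidHom.mem_range.mpr ⟨_, rfl⟩⟩, blk_sec A⟩
  · ext l
    rw [MonoidHom.mem_ker, Subgroup.mem_subgroupOf, Subgroup.mem_centralizer_iff]
    constructor
    · intro hl
      have h1 : (l : ↥(Cfsg.qdOver F)) ∈ (secHom : SL2 →* ↥(Cfsg.qdOver F)).range ⊓
          (blkHom : ↥(Cfsg.qdOver F) →* SL2).ker := ⟨l.2, hl⟩
      rw [range_inf_ker, Subgroup.mem_bot] at h1
      intro h _
      rw [h1, mul_one, one_mul]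
    · intro hl
      show blkHom (l : ↥(Cfsg.qdOver F)) = 1
      have key : ∀ v : Fin 2 → F,
          ((l : ↥(Cfsg.qdOver F)) : SL3) 0 0 * v 0 + ((l : ↥(Cfsg.qdOver F)) : SL3) 0 1 * v 1 = v 0 ∧
          ((l : ↥(Cfsg.qdOver F)) : SL3) 1 0 * v 0 + ((l : ↥(Cfsg.qdOver F)) : SL3) 1 1 * v 1 = v 1 := by
        intro v
        have h1 := hl (trQ v) (trQ_mem v)
        have e0 := congrArg (fun M : ↥(Cfsg.qdOver F) => (M : SL3) 0 2) h1
        have e1 := congrArg (fun M : ↥(Cfsg.qdOver F) => (M : SL3) 1 2) h1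
        simp only [qmul2] at e0 e1
        have t00 : ((trQ v : ↥(Cfsg.qdOver F)) : SL3) 0 0 = 1 := rfl
        have t01 : ((trQ v : ↥(Cfsg.qdOver F)) : SL3) 0 1 = 0 := rfl
        have t02 : ((trQ v : ↥(Cfsg.qdOver F)) : SL3) 0 2 = v 0 := rfl
        have t10 : ((trQ v : ↥(Cfsg.qdOver F)) : SL3) 1 0 = 0 := rfl
        have t11 : ((trQ v : ↥(Cfsg.qdOver F)) : SL3) 1 1 = 1 := rfl
        have t12 : ((trQ v : ↥(Cfsg.qdOver F)) : SL3) 1 2 = v 1 := rfl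
        rw [t00, t01, t02, t12] at e0
        rw [t10, t11, t02, t12] at e1
        exact ⟨by linear_combination -e0, by linear_combination -e1⟩
      have k1 := key ![1, 0]
      have k2 := key ![0, 1]
      simp at k1 k2
      apply ext4
      · rw [blkHom_apply, blk_00, k1.1]; simp
      · rw [blkHom_apply, blk_01, k2.1]; simp
      · rw [blkHom_apply, blk_10, k1.2]; simp
      · rw [blkHom_apply, blk_11, k2.2]; simp
  · intro l v
    have hw : (l : ↥(Cfsg.qdOver F)) * (v : ↥(Cfsg.qdOver F)) * (l : ↥(Cfsg.qdOver F))⁻¹ ∈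
        (blkHom : ↥(Cfsg.qdOver F) →* SL2).ker := (MonoidHom.normal_ker _).conj_mem _ v.2 _
    refine ⟨⟨_, hw⟩, rfl, ?_⟩
    rw [psi_apply, psi_apply, mulVec_eq]
    obtain ⟨l02, l12⟩ := (mem_range_iff _).mp l.2
    obtain ⟨w00, w01, w10, w11⟩ := (mem_ker_iff _).mp hw
    have h1 : ((l : ↥(Cfsg.qdOver F)) * (v : ↥(Cfsg.qdOver F)) * (l : ↥(Cfsg.qdOver F))⁻¹) * (l : ↥(Cfsg.qdOver F))
        = (l : ↥(Cfsg.qdOver F)) * (v : ↥(Cfsg.qdOver F)) := by group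
    have e0 := congrArg (fun M : ↥(Cfsg.qdOver F) => (M : SL3) 0 2) h1
    have e1 := congrArg (fun M : ↥(Cfsg.qdOver F) => (M : SL3) 1 2) h1
    beta_reduce at e0 e1
    rw [qmul2 _ (l : ↥(Cfsg.qdOver F)), w00, w01, l02, l12,
      qmul2 (l : ↥(Cfsg.qdOver F)) (v : ↥(Cfsg.qdOver F)), l02] at e0
    rw [qmul2 _ (l : ↥(Cfsg.qdOver F)), w10, w11, l02, l12,
      qmul2 (l : ↥(Cfsg.qdOver F)) (v : ↥(Cfsg.qdOver F)), l12] at e1
    funext i
    fin_cases i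
    · show ((((l : ↥(Cfsg.qdOver F)) * (v : ↥(Cfsg.qdOver F)) * (l : ↥(Cfsg.qdOver F))⁻¹ : ↥(Cfsg.qdOver F)) : SL3) 0 2) =
        ((l : ↥(Cfsg.qdOver F)) : SL3) 0 0 * ((v : ↥(Cfsg.qdOver F)) : SL3) 0 2 +
          ((l : ↥(Cfsg.qdOver F)) : SL3) 0 1 * ((v : ↥(Cfsg.qdOver F)) : SL3) 1 2
      linear_combination e0
    · show ((((l : ↥(Cfsg.qdOver F)) * (v : ↥(Cfsg.qdOver F)) * (l : ↥(Cfsg.qdOver F))⁻¹ : ↥(Cfsg.qdOver F)) : SL3) 1 2) =
        ((l : ↥(Cfsg.qdOver F)) : SL3) 1 0 * ((v : ↥(Cfsg.qdOver F)) : SL3) 0 2 +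
          ((l : ↥(Cfsg.qdOver F)) : SL3) 1 1 * ((v : ↥(Cfsg.qdOver F)) : SL3) 1 2
      linear_combination e1

end QdHelpers


/-- Structure of Qd over a finite field F of characteristic p (the affine subgroup of SL₃(F)): its largest normal p-subgroup is the group of translations (matrices with upper-left block the identity), the block-diagonal matrices form a complement isomorphic to SL₂(F), and the translation subgroup is a natural SL₂(F)-module for that complement. -/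
theorem result {F : Type*} [Field F] [Fintype F] {p : ℕ} [Fact p.Prime] [CharP F p] : (∀ M : ↥(Cfsg.qdOver F), M ∈ Cfsg.pCore p ↥(Cfsg.qdOver F) ↔ ((M : Matrix.SpecialLinearGroup (Fin 3) F) : Matrix (Fin 3) (Fin 3) F) 0 0 = 1 ∧ ((M : Matrix.SpecialLinearGroup (Fin 3) F) : Matrix (Fin 3) (Fin 3) F) 0 1 = 0 ∧ ((M : Matrix.SpecialLinearGroup (Fin 3) F) : Matrix (Fin 3) (Fin 3) F) 1 0 = 0 ∧ ((M : Matrix.SpecialLinearGroup (Fin 3) F) : Matrix (Fin 3) (Fin 3) F) 1 1 = 1) ∧ ∃ K : Subgroup ↥(Cfsg.qdOver F), (∀ M : ↥(Cfsg.qdOver F), M ∈ K ↔ ((M : Matrix.SpecialLinearGroup (Fin 3) F) : Matrix (Fin 3) (Fin 3) F) 0 2 = 0 ∧ ((M : Matrix.SpecialLinearGroup (Fin 3) F) : Matrix (Fin 3) (Fin 3) F) 1 2 = 0) ∧ K ⊓ Cfsg.pCore p ↥(Cfsg.qdOver F) = ⊥ ∧ K ⊔ Cfsg.pCore p ↥(Cfsg.qdOver F) = ⊤ ∧ Nonempty (↥K ≃* Matrix.SpecialLinearGroup (Fin 2) F) ∧ Cfsg.IsNaturalSL2Module F (Cfsg.pCore p ↥(Cfsg.qdOver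 F)) K := by
  obtain ⟨n, -, hF⟩ := FiniteField.card F p
  have hpc : Cfsg.pCore p ↥(Cfsg.qdOver F) = (blkHom : ↥(Cfsg.qdOver F) →* _).ker := pCore_eq hF
  rw [hpc]
  exact ⟨fun M => mem_ker_iff M, (secHom : _ →* ↥(Cfsg.qdOver F)).range, fun M => mem_range_iff M,
    range_inf_ker, range_sup_ker, ⟨(MonoidHom.ofInjective secHom_injective).symm⟩, natural⟩

end Cfsg.Agent.S2762
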