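import Cfsg.Statements.S2779
import Cfsg.Agent.Lib.Helper58.NatSL2

set_option autoImplicit false
open Cfsg

namespace Cfsg.Agent.S2779


/-- Let L act on the elementary abelian p-group V (inside a finite group, by conjugation, faithfully) as SL₂(F) on its natural module, F a field with p^n elements, and let S be a Sylow p-subgroup of L. Then [V, S, S] = 1; |V| = p^(2n) and |C_V(S)| = p^n; and for every nonidentity s ∈ S and every v ∈ V outside C_V(S): C_V(s) = C_V(S) = [V, S] = [V, s] = the subgroup generated by the commutators [v, t], t ∈ S. -/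
theorem result {G : Type*} [Group G] [Finite G] {p : ℕ} [Fact p.Prime] {F : Type*} [Field F] [Fintype F] (n : ℕ) (hF : Fintype.card F = p ^ n) (V L : Subgroup G) (hnat : Cfsg.IsNaturalSL2Module F V L) (hf : L ⊓ Subgroup.centralizer (V : Set G) = ⊥) (S : Sylow p ↥L) (T : Subgroup G) (hT : T = ((S : Subgroup ↥L).map L.subtype)) : ⁅⁅V, T⁆, T⁆ = ⊥ ∧ Nat.card V = p ^ (2 * n) ∧ Nat.card ↥(V ⊓ Subgroup.centralizer ((T : Subgroup G) : Set G)) = p ^ n ∧ ∀ s ∈ T, s ≠ 1 → (V ⊓ Subgroup.centralizer ({s} : Set G)) = (V ⊓ Subgroup.centralizer ((T : Subgroup G) : Set G)) ∧ ⁅V, T⁆ = (V ⊓ Subgroup.centralizer ((T : Subgroup G) : Set G)) ∧ ⁅V, Subgroup.zpowers s⁆ = (V ⊓ Subgroup.centralizer ((T : Subgroup G) : Set G)) ∧ ∀ v ∈ V, v ∉ Subgroup.centralizer (T : Set G) → Subgroup.closure {x : G | ∃ t ∈ T, x = v * t * v⁻¹ * t⁻¹} = (V ⊓ Subgroup.centralizer ((T : Subgroup G) : Set G)) := by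
  classical
  obtain ⟨c⟩ := Lib.Helper58.NatSL2.exists_coords hF V L hnat hf S T hT
  set W := V ⊓ Subgroup.centralizer (T : Set G) with hW
  have hcomm_mem_W : ∀ (v : V) (t : G), t ∈ T → (v : G) * t * (v : G)⁻¹ * t⁻¹ ∈ W := by
    intro v t ht
    obtain ⟨a, ha⟩ := c.exists_uu ht
    rw [hW, c.mem_W]
    refine ⟨c.comm_mem (c.hTL ht) v, ?_⟩
    rw [c.co_comm_uu ht v ha]
    simp
  have hVT_le : ⁅V, T⁆ ≤ W := by
    rw [Subgroup.commutator_le]
    intro v hv t ht
    exact hcomm_mem_W ⟨v, hv⟩ t ht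
  have hW_comm : ∀ (t : G) (ht : t ∈ T) (a : F), c.ρ ⟨t, c.hTL ht⟩ = Lib.Helper58.NatSL2.uu a →
      a ≠ 0 → ∀ w ∈ W, ∃ v : V, w = (v : G) * t * (v : G)⁻¹ * t⁻¹ := by
    intro t ht a ha ha0 w hw
    rw [hW, c.mem_W] at hw
    obtain ⟨hwV, hw1⟩ := hw
    obtain ⟨v, hv⟩ := c.co_surj ![0, - (c.co ⟨w, hwV⟩ 0) / a]
    refine ⟨v, ?_⟩
    have : (⟨w, hwV⟩ : V) = ⟨(v : G) * t * (v : G)⁻¹ * t⁻¹, c.comm_mem (c.hTL ht) v⟩ := by
      apply c.co_inj
      rw [c.co_comm_uu ht v ha, hv]
      funext i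
      fin_cases i
      · simp only [Fin.zero_eta, Fin.isValue, Matrix.cons_val_zero, Matrix.cons_val_one]
        field_simp
      · simpa using hw1
    exact congrArg Subtype.val this
  have hVT : ⁅V, T⁆ = W := by
    apply le_antisymm hVT_le
    intro w hw
    obtain ⟨t, ht, hta⟩ := c.exists_T 1
    obtain ⟨v, rfl⟩ := hW_comm t ht 1 hta one_ne_zero w hw
    exact Subgroup.commutator_mem_commutator v.2 ht
  refine ⟨?_, ?_, ?_, ?_⟩
  · rw [hVT, Subgroup.commutator_eq_bot_iff_le_centralizer]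
    exact inf_le_right
  · have h1 : Nat.card V = Nat.card (Fin 2 → F) :=
      Nat.card_congr (Additive.ofMul.trans c.ψ.toEquiv)
    rw [h1, Nat.card_eq_fintype_card, Fintype.card_fun, hF, Fintype.card_fin, ← pow_mul,
      mul_comm]
  · have h1 : Nat.card W = Nat.card F := by
      apply Nat.card_eq_of_bijective (fun w : W => c.co ⟨w.1, w.2.1⟩ 0)
      constructor
      · intro w w' h
        have hw := (c.mem_W.mp w.2)
        have hw' := (c.mem_W.mp w'.2)
        obtain ⟨hwV, hw1⟩ := hw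
        obtain ⟨hwV', hw1'⟩ := hw'
        have h2 : (⟨w.1, hwV⟩ : V) = ⟨w'.1, hwV'⟩ := by
          apply c.co_inj
          funext i
          fin_cases i
          · exact h
          · exact hw1.trans hw1'.symm
        have h3 : (w : G) = (w' : G) := congrArg (fun x : V => (x : G)) h2
        exact Subtype.ext h3
      · intro a
        obtain ⟨v, hv⟩ := c.co_surj ![a, 0]
        have hvW : (v : G) ∈ W := by
          rw [hW, c.mem_W]
          exact ⟨v.2, by rw [hv]; rfl⟩
        exact ⟨⟨v, hvW⟩, by show c.co v 0 = a; rw [hv]; rfl⟩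
    rw [h1, Nat.card_eq_fintype_card, hF]
  · intro s hs hs1
    obtain ⟨a, ha⟩ := c.exists_uu hs
    have ha0 := c.uu_ne_zero hs hs1 ha
    refine ⟨?_, hVT, ?_, ?_⟩
    · ext g
      constructor
      · rintro ⟨hgV, hgC⟩
        rw [hW, c.mem_W]
        refine ⟨hgV, ?_⟩
        have h1 := (c.mem_centralizer_singleton (c.hTL hs) ⟨g, hgV⟩).mp hgC
        rw [ha, Lib.Helper58.NatSL2.uu_mulVec] at h1
        have h0 := congrFun h1 0
        simp only [Fin.isValue, Matrix.cons_val_zero, add_eq_left, mul_eq_zero] at h0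
        rcases h0 with h | h
        · exact absurd h ha0
        · exact h
      · intro hg
        exact ⟨hg.1, Subgroup.centralizer_le (Set.singleton_subset_iff.mpr hs) hg.2⟩
    · apply le_antisymm
      · exact (Subgroup.commutator_mono le_rfl ((Subgroup.zpowers_le).mpr hs)).trans hVT_le
      · intro w hw
        obtain ⟨v, rfl⟩ := hW_comm s hs a ha ha0 w hw
        exact Subgroup.commutator_mem_commutator v.2 (Subgroup.mem_zpowers s)
    · intro v hv hvC
      apply le_antisymm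
      · rw [Subgroup.closure_le]
        rintro x ⟨t, ht, rfl⟩
        exact hcomm_mem_W ⟨v, hv⟩ t ht
      · intro w hw
        apply Subgroup.subset_closure
        have hy : c.co ⟨v, hv⟩ 1 ≠ 0 := fun h => hvC ((c.mem_centralizer_T ⟨v, hv⟩).mpr h)
        rw [hW, c.mem_W] at hw
        obtain ⟨hwV, hw1⟩ := hw
        obtain ⟨t, ht, hta⟩ := c.exists_T (- (c.co ⟨w, hwV⟩ 0) / (c.co ⟨v, hv⟩ 1))
        refine ⟨t, ht, ?_⟩
        have h2 : (⟨w, hwV⟩ : V) = ⟨v * t * v⁻¹ * t⁻¹, c.comm_mem (c.hTL ht) ⟨v, hv⟩⟩ := by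
          apply c.co_inj
          rw [c.co_comm_uu ht ⟨v, hv⟩ hta]
          funext i
          fin_cases i
          · simp only [Fin.zero_eta, Fin.isValue, Matrix.cons_val_zero]
            field_simp
          · simpa using hw1
        exact congrArg Subtype.val h2

end Cfsg.Agent.S2779
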