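import Cfsg.Statements.S2780
import Cfsg.Agent.Lib.Helper58.NatSL2

set_option autoImplicit false
open Cfsg

namespace Cfsg.Agent.S2780


/-- Let L act on the elementary abelian p-group V (inside a finite group, faithfully) as SL₂(F) on its natural module, F a field with p^n elements, S a Sylow p-subgroup of L. Then: for every g ∈ L not normalizing S, V is the internal direct product of C_V(S) and C_V(gSg⁻¹); every nonidentity element of L of order prime to p acts on V without nonidentity fixed points; and C_V(S) and V/C_V(S) are irreducible for N_L(S): the only N_L(S)-invariant subgroups of C_V(S) are 1 and C_V(S), and the only N_L(S)-invariant subgroups between C_V(S) and V are those two. -/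
theorem result {G : Type*} [Group G] [Finite G] {p : ℕ} [Fact p.Prime] {F : Type*} [Field F] [Fintype F] (n : ℕ) (hF : Fintype.card F = p ^ n) (V L : Subgroup G) (hnat : Cfsg.IsNaturalSL2Module F V L) (hf : L ⊓ Subgroup.centralizer (V : Set G) = ⊥) (S : Sylow p ↥L) (T : Subgroup G) (hT : T = ((S : Subgroup ↥L).map L.subtype)) : (∀ g ∈ L, g ∉ Subgroup.normalizer (T : Set G) → Cfsg.IsInternalDirectProduct (V ⊓ Subgroup.centralizer ((T : Subgroup G) : Set G)) (V ⊓ Subgroup.centralizer ((T.map (MulAut.conj g).toMonoidHom : Subgroup G) : Set G)) V) ∧ (∀ x ∈ L, x ≠ 1 → (orderOf x).Coprime p → (V ⊓ Subgroup.centralizer ({x} : Set G)) = ⊥) ∧ (∀ U : Subgroup G, U ≤ (V ⊓ Subgroup.centralizer ((T : Subgroup G) : Set G)) → L ⊓ Subgroup.normalizer (T : Set G) ≤ Subgroup.normalizer (U : Set G) → U = ⊥ ∨ U = (V ⊓ Subgroup.centralizer ((T : Subgroup G) : Set G))) ∧ (∀ U : Subgroup G, (V ⊓ Subgroup.centralizer ((T : Subgroup G) : Set G)) ≤ U → U ≤ V → L ⊓ Subgroup.normalizer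 (T : Set G) ≤ Subgroup.normalizer (U : Set G) → U = (V ⊓ Subgroup.centralizer ((T : Subgroup G) : Set G)) ∨ U = V) := by
  classical
  obtain ⟨c⟩ := Lib.Helper58.NatSL2.exists_coords hF V L hnat hf S T hT
  set W := V ⊓ Subgroup.centralizer (T : Set G) with hW
  refine ⟨?_, ?_, ?_, ?_⟩
  · intro g hg hgN
    have hm : (c.ρ ⟨g, hg⟩) 1 0 ≠ 0 := fun h => hgN (c.mem_normalizer_of hg h)
    refine ⟨inf_le_left, inf_le_left, ?_, ?_, ?_⟩
    · intro a ha b hb
      exact congrArg Subtype.val (c.comm ⟨a, ha.1⟩ ⟨b, hb.1⟩)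
    · rw [eq_bot_iff]
      rintro x ⟨hx1, hx2⟩
      rw [Subgroup.mem_bot]
      obtain ⟨hxV, hx10⟩ := c.mem_W.mp hx1
      have h2 := (c.mem_centralizer_conj hg ⟨x, hxV⟩).mp hx2.2
      rw [hx10, mul_zero, add_zero] at h2
      have h3 : c.co ⟨x, hxV⟩ 0 = 0 := by
        rcases mul_eq_zero.mp h2 with h | h
        · exact absurd (neg_eq_zero.mp h) hm
        · exact h
      have h4 : c.co ⟨x, hxV⟩ = 0 := by
        funext i
        fin_cases i
        · exact h3
        · exact hx10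
      exact congrArg Subtype.val (c.co_eq_zero.mp h4)
    · apply le_antisymm (sup_le inf_le_left inf_le_left)
      intro v hv
      obtain ⟨v₂, hv₂⟩ := c.co_surj
        ![c.co ⟨v, hv⟩ 1 * (c.ρ ⟨g, hg⟩) 0 0 / (c.ρ ⟨g, hg⟩) 1 0, c.co ⟨v, hv⟩ 1]
      obtain ⟨v₁, hv₁⟩ := c.co_surj
        ![c.co ⟨v, hv⟩ 0 - c.co ⟨v, hv⟩ 1 * (c.ρ ⟨g, hg⟩) 0 0 / (c.ρ ⟨g, hg⟩) 1 0, 0]
      have hv₁W : (v₁ : G) ∈ W := c.mem_W.mpr ⟨v₁.2, by
        show c.co v₁ 1 = 0
        rw [hv₁]; rfl⟩
      have hv₂C : (v₂ : G) ∈ V ⊓ Subgroup.centralizer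
          ((T.map (MulAut.conj g).toMonoidHom : Subgroup G) : Set G) := by
        refine ⟨v₂.2, (c.mem_centralizer_conj hg v₂).mpr ?_⟩
        rw [hv₂]
        simp only [Fin.isValue, Matrix.cons_val_zero, Matrix.cons_val_one]
        field_simp
        ring
      have hprod : (⟨v, hv⟩ : V) = v₁ * v₂ := by
        apply c.co_inj
        rw [c.co_mul, hv₁, hv₂]
        funext i
        fin_cases i <;> simp
      have hv' : v = (v₁ : G) * (v₂ : G) := congrArg Subtype.val hprod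
      rw [hv']
      exact Subgroup.mul_mem_sup hv₁W hv₂C
  · intro x hx hx1 hcop
    rw [eq_bot_iff]
    rintro v ⟨hvV, hvC⟩
    rw [Subgroup.mem_bot]
    by_contra hv1
    have hfix := (c.mem_centralizer_singleton hx ⟨v, hvV⟩).mp hvC
    have hne : c.co ⟨v, hvV⟩ ≠ 0 := by
      intro h
      apply hv1
      exact congrArg Subtype.val (c.co_eq_zero.mp h)
    have hpow := Lib.Helper58.NatSL2.pow_eq_one_of_fixed hF hne hfix
    have hxp : (⟨x, hx⟩ : L) ^ p = 1 := by
      apply c.inj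
      rw [map_pow, hpow, map_one]
    have hxp' : x ^ p = 1 := by
      have := congrArg Subtype.val hxp
      simpa using this
    have hdvd : orderOf x ∣ p := orderOf_dvd_of_pow_eq_one hxp'
    have h1 : orderOf x = 1 := Nat.Coprime.eq_one_of_dvd hcop hdvd
    exact hx1 (orderOf_eq_one_iff.mp h1)
  · intro U' hU' hnorm
    by_cases hbot : U' = ⊥
    · left; exact hbot
    · right
      apply le_antisymm hU'
      obtain ⟨⟨u₀, hu₀⟩, hu₀1⟩ := (Subgroup.ne_bot_iff_exists_ne_one).mp hbot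
      have hu₀W := hU' hu₀
      obtain ⟨hu₀V, hu₀10⟩ := c.mem_W.mp hu₀W
      have hx₀ : c.co ⟨u₀, hu₀V⟩ 0 ≠ 0 := by
        intro h
        apply hu₀1
        have h4 : c.co ⟨u₀, hu₀V⟩ = 0 := by
          funext i
          fin_cases i
          · exact h
          · exact hu₀10
        have h5 : u₀ = 1 := congrArg Subtype.val (c.co_eq_zero.mp h4)
        exact Subtype.ext h5
      intro w hw
      obtain ⟨hwV, hw10⟩ := c.mem_W.mp hw
      by_cases hy : c.co ⟨w, hwV⟩ 0 = 0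
      · have h4 : c.co ⟨w, hwV⟩ = 0 := by
          funext i
          fin_cases i
          · exact hy
          · exact hw10
        have hw1 : w = 1 := congrArg Subtype.val (c.co_eq_zero.mp h4)
        rw [hw1]
        exact U'.one_mem
      · have ha : c.co ⟨w, hwV⟩ 0 / c.co ⟨u₀, hu₀V⟩ 0 ≠ 0 := div_ne_zero hy hx₀
        obtain ⟨h, hL, hN, hρ⟩ := c.exists_hh _ ha
        have hnU : h ∈ Subgroup.normalizer (U' : Set G) := hnorm ⟨hL, hN⟩
        have hmem : h * u₀ * h⁻¹ ∈ U' := (Subgroup.mem_normalizer_iff.mp hnU u₀).mp hu₀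
        have h6 : (⟨w, hwV⟩ : V) = ⟨h * u₀ * h⁻¹, c.conj_mem hL ⟨u₀, hu₀V⟩⟩ := by
          apply c.co_inj
          rw [c.co_conj hL ⟨u₀, hu₀V⟩, hρ, Lib.Helper58.NatSL2.hh_mulVec]
          funext i
          fin_cases i
          · simp only [Fin.zero_eta, Fin.isValue, Matrix.cons_val_zero]
            field_simp
          · simp [hw10, hu₀10]
        have hw' : w = h * u₀ * h⁻¹ := congrArg Subtype.val h6
        rw [hw']
        exact hmem
  · intro U' hWU hUV hnorm
    by_cases hUW : U' = W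
    · left; exact hUW
    · right
      apply le_antisymm hUV
      have hex : ∃ u₀ ∈ U', u₀ ∉ W := by
        by_contra hcon
        push Not at hcon
        exact hUW (le_antisymm hcon hWU)
      obtain ⟨u₀, hu₀, hu₀W⟩ := hex
      have hu₀V := hUV hu₀
      have hy₀ : c.co ⟨u₀, hu₀V⟩ 1 ≠ 0 := fun h => hu₀W (c.mem_W.mpr ⟨hu₀V, h⟩)
      intro v hv
      by_cases hy : c.co ⟨v, hv⟩ 1 = 0
      · exact hWU (c.mem_W.mpr ⟨hv, hy⟩)
      · have ha : c.co ⟨u₀, hu₀V⟩ 1 / c.co ⟨v, hv⟩ 1 ≠ 0 := div_ne_zero hy₀ hy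
        obtain ⟨h, hL, hN, hρ⟩ := c.exists_hh _ ha
        have hnU : h ∈ Subgroup.normalizer (U' : Set G) := hnorm ⟨hL, hN⟩
        have hmem : h * u₀ * h⁻¹ ∈ U' := (Subgroup.mem_normalizer_iff.mp hnU u₀).mp hu₀
        obtain ⟨w', hw'⟩ := c.co_surj ![c.co ⟨v, hv⟩ 0
          - (c.co ⟨u₀, hu₀V⟩ 1 / c.co ⟨v, hv⟩ 1) * c.co ⟨u₀, hu₀V⟩ 0, 0]
        have hw'W : (w' : G) ∈ W := c.mem_W.mpr ⟨w'.2, by
          show c.co w' 1 = 0
          rw [hw']; rfl⟩
        have h6 : (⟨v, hv⟩ : V) = ⟨h * u₀ * h⁻¹, c.conj_mem hL ⟨u₀, hu₀V⟩⟩ * w' := by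
          apply c.co_inj
          rw [c.co_mul, c.co_conj hL ⟨u₀, hu₀V⟩, hρ, Lib.Helper58.NatSL2.hh_mulVec, hw']
          funext i
          fin_cases i
          · simp
          · simp only [Fin.mk_one, Fin.isValue, Pi.add_apply, Matrix.cons_val_one,
              Matrix.cons_val_zero, add_zero]
            field_simp
        have hv' : v = h * u₀ * h⁻¹ * (w' : G) := congrArg Subtype.val h6
        rw [hv']
        exact U'.mul_mem hmem (hWU hw'W)

end Cfsg.Agent.S2780
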