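import Mathlib
import Cfsg.Statements.S2781
import Cfsg.Agent.Lib.Helper46.Norm
import Cfsg.Agent.Lib.Helper46.Amalgam

set_option autoImplicit false
open Cfsg

namespace Cfsg.Agent.S2781

open Cfsg.Agent.Lib.Helper46
open scoped IsMulCommutative commutatorElement

theorem pResidual_normal (p : ℕ) (H : Type*) [Group H] : (Cfsg.pResidual p H).Normal := by
  constructor
  intro n hn g
  unfold Cfsg.pResidual at hn ⊢
  induction hn using Subgroup.closure_induction with
  | mem x hx =>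
    apply Subgroup.subset_closure
    have : orderOf (g * x * g⁻¹) = orderOf x := MulEquiv.orderOf_eq (MulAut.conj g) x
    change Nat.Coprime (orderOf (g * x * g⁻¹)) p
    rw [this]
    exact hx
  | one => simp
  | mul x y _ _ hx hy =>
    have : g * (x * y) * g⁻¹ = (g * x * g⁻¹) * (g * y * g⁻¹) := by group
    rw [this]
    exact Subgroup.mul_mem _ hx hy
  | inv x _ hx =>
    have : g * x⁻¹ * g⁻¹ = (g * x * g⁻¹)⁻¹ := by group
    rw [this]
    exact Subgroup.inv_mem _ hx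

theorem le_normalizer_residual {G : Type*} [Group G] (p : ℕ) (H : Subgroup G) :
    H ≤ Subgroup.normalizer (((Cfsg.pResidual p ↥H).map H.subtype : Subgroup G) : Set G) := by
  have hn := pResidual_normal p ↥H
  have key : ∀ h ∈ H, ∀ r ∈ (Cfsg.pResidual p ↥H).map H.subtype,
      h * r * h⁻¹ ∈ (Cfsg.pResidual p ↥H).map H.subtype := by
    rintro h hh _ ⟨r, hr, rfl⟩
    exact ⟨⟨h, hh⟩ * r * ⟨h, hh⟩⁻¹, hn.conj_mem r hr ⟨h, hh⟩, rfl⟩
  intro h hh
  rw [Subgroup.mem_normalizer_iff]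
  intro r
  constructor
  · exact key h hh r
  · intro hr
    have := key h⁻¹ (H.inv_mem hh) _ hr
    simpa [mul_assoc] using this

/-- Let H act faithfully by conjugation on the elementary abelian p-subgroup V of a finite group, let O^p(H) be the subgroup of H generated by its elements of order prime to p, and T a Sylow p-subgroup of O^p(H). If V is generated by the H-conjugates of C_V(T) (V is the smallest H-invariant subgroup containing C_V(T)), then V = [V, O^p(H)]·C_V(O^p(H)). -/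
theorem result {G : Type*} [Group G] [Finite G] {p : ℕ} [Fact p.Prime] (V H : Subgroup G) (hV : Cfsg.IsElementaryAbelian p V) (hHV : H ≤ Subgroup.normalizer (V : Set G)) (hf : H ⊓ Subgroup.centralizer (V : Set G) = ⊥) (R : Subgroup G) (hR : R = (Cfsg.pResidual p ↥H).map H.subtype) (S : Sylow p ↥R) (T : Subgroup G) (hT : T = ((S : Subgroup ↥R).map R.subtype)) (hgen : ∀ W : Subgroup G, H ≤ Subgroup.normalizer (W : Set G) → (V ⊓ Subgroup.centralizer ((T : Subgroup G) : Set G)) ≤ W → V ≤ W) : ⁅V, R⁆ ⊔ (V ⊓ Subgroup.centralizer ((R : Subgroup G) : Set G)) = V := by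
  have hRH : R ≤ H := by rw [hR]; exact Subgroup.map_subtype_le _
  have hRV : R ≤ Subgroup.normalizer (V : Set G) := hRH.trans hHV
  have hHR : H ≤ Subgroup.normalizer (R : Set G) := by rw [hR]; exact le_normalizer_residual p H
  have hcomm_le : ⁅V, R⁆ ≤ V := by
    rw [Subgroup.commutator_le]
    intro v hv r hr
    rw [commutatorElement_def]
    have h1 : r * v⁻¹ * r⁻¹ ∈ V := (Subgroup.mem_normalizer_iff.1 (hRV hr) v⁻¹).1 (V.inv_mem hv)
    have h2 : v * r * v⁻¹ * r⁻¹ = v * (r * v⁻¹ * r⁻¹) := by group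
    rw [h2]
    exact V.mul_mem hv h1
  apply le_antisymm (sup_le hcomm_le inf_le_left)
  apply hgen
  · -- H normalizes W
    intro h hh
    rw [Subgroup.mem_normalizer_iff_map_conj_eq]
    have e1 : V.map (MulAut.conj h).toMonoidHom = V := map_conj_eq_of_mem_normalizer (hHV hh)
    have e2 : R.map (MulAut.conj h).toMonoidHom = R := map_conj_eq_of_mem_normalizer (hHR hh)
    have e3 : (⁅V, R⁆ ⊔ (V ⊓ Subgroup.centralizer ((R : Subgroup G) : Set G))).map
        (MulAut.conj h).toMonoidHom = ⁅V, R⁆ ⊔ (V ⊓ Subgroup.centralizer ((R : Subgroup G) : Set G)) := by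
      rw [Subgroup.map_sup, Subgroup.map_commutator, Subgroup.map_inf_eq _ _ _ (MulAut.conj h).injective,
        centralizer_map, e1, e2]
    exact e3
  · -- the averaging argument
    intro v hv
    have hvV : v ∈ V := hv.1
    have hvT : v ∈ Subgroup.centralizer (T : Set G) := hv.2
    have : IsMulCommutative ↥V := hV.1
    let act : MulDistribMulAction ↥R ↥V :=
      MulDistribMulAction.compHom ↥V (Subgroup.inclusion hRV)
    have hsmul : ∀ (r : ↥R) (w : ↥V), ((r • w : ↥V) : G) = (r : G) * (w : G) * (r : G)⁻¹ :=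
      fun r w => rfl
    have hfix : ∀ s ∈ (S : Subgroup ↥R), s • (⟨v, hvV⟩ : ↥V) = ⟨v, hvV⟩ := by
      intro s hs
      apply Subtype.ext
      rw [hsmul]
      have hsT : (s : G) ∈ T := by rw [hT]; exact ⟨s, hs, rfl⟩
      have := hvT (s : G) hsT
      change (s : G) * v * (s : G)⁻¹ = v
      rw [this, mul_inv_cancel_right]
    have hN := smul_cosetNorm (S : Subgroup ↥R) (⟨v, hvV⟩ : ↥V) hfix
    obtain ⟨c, hc, hNc⟩ := cosetNorm_eq (S : Subgroup ↥R) (⟨v, hvV⟩ : ↥V)
    -- the norm lies in C_V(R)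
    have hN1 : ((cosetNorm (S : Subgroup ↥R) (⟨v, hvV⟩ : ↥V) : ↥V) : G) ∈
        V ⊓ Subgroup.centralizer ((R : Subgroup G) : Set G) := by
      refine Subgroup.mem_inf.2 ⟨Subtype.prop _, ?_⟩
      rw [Subgroup.mem_centralizer_iff]
      intro r hr
      have h1 := congrArg Subtype.val (hN ⟨r, hr⟩)
      rw [hsmul] at h1
      have h2 : r * ((cosetNorm (S : Subgroup ↥R) (⟨v, hvV⟩ : ↥V) : ↥V) : G) * r⁻¹ =
          ((cosetNorm (S : Subgroup ↥R) (⟨v, hvV⟩ : ↥V) : ↥V) : G) := h1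
      calc r * ((cosetNorm (S : Subgroup ↥R) (⟨v, hvV⟩ : ↥V) : ↥V) : G)
          = (r * ((cosetNorm (S : Subgroup ↥R) (⟨v, hvV⟩ : ↥V) : ↥V) : G) * r⁻¹) * r := by group
        _ = ((cosetNorm (S : Subgroup ↥R) (⟨v, hvV⟩ : ↥V) : ↥V) : G) * r := by rw [h2]
    -- c lies in [V, R]
    have hc1 : (c : G) ∈ ⁅V, R⁆ := by
      have hle : Subgroup.closure {a : ↥V | ∃ r : ↥R, a = (r • (⟨v, hvV⟩ : ↥V)) * (⟨v, hvV⟩ : ↥V)⁻¹} ≤
          (⁅V, R⁆).comap V.subtype := by
        rw [Subgroup.closure_le]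
        rintro _ ⟨r, rfl⟩
        change ((r • (⟨v, hvV⟩ : ↥V)) * (⟨v, hvV⟩ : ↥V)⁻¹ : ↥V).1 ∈ ⁅V, R⁆
        have h1 : ((r • (⟨v, hvV⟩ : ↥V)) * (⟨v, hvV⟩ : ↥V)⁻¹ : ↥V).1 = ⁅(r : G), v⁆ := by
          rw [commutatorElement_def]
          rfl
        rw [h1, Subgroup.commutator_comm]
        exact Subgroup.commutator_mem_commutator r.2 hvV
      exact hle hc
    -- v ^ m ∈ W
    have hm : v ^ Nat.card (↥R ⧸ (S : Subgroup ↥R)) ∈
        ⁅V, R⁆ ⊔ (V ⊓ Subgroup.centralizer ((R : Subgroup G) : Set G)) := by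
      have h1 : (⟨v, hvV⟩ : ↥V) ^ Nat.card (↥R ⧸ (S : Subgroup ↥R)) =
          cosetNorm (S : Subgroup ↥R) (⟨v, hvV⟩ : ↥V) * c⁻¹ := by
        rw [hNc, mul_inv_cancel_right]
      have h2 := congrArg Subtype.val h1
      have h3 : v ^ Nat.card (↥R ⧸ (S : Subgroup ↥R)) =
          ((cosetNorm (S : Subgroup ↥R) (⟨v, hvV⟩ : ↥V) : ↥V) : G) * (c : G)⁻¹ := by
        simpa using h2
      rw [h3]
      exact Subgroup.mul_mem _ (Subgroup.mem_sup_right hN1)
        (Subgroup.inv_mem _ (Subgroup.mem_sup_left hc1))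
    -- coprimality
    have hcop : Nat.Coprime (Nat.card (↥R ⧸ (S : Subgroup ↥R))) p := by
      have h1 : ¬ p ∣ (S : Subgroup ↥R).index := S.not_dvd_index
      rw [Subgroup.index] at h1
      exact (Nat.Coprime.symm ((Nat.Prime.coprime_iff_not_dvd Fact.out).2 h1))
    have hvp : v ^ p = 1 := hV.2 v hvV
    have hbez := Nat.gcd_eq_gcd_ab (Nat.card (↥R ⧸ (S : Subgroup ↥R))) p
    rw [hcop.gcd_eq_one] at hbez
    have hv1 : v = (v ^ Nat.card (↥R ⧸ (S : Subgroup ↥R))) ^
        (Nat.gcdA (Nat.card (↥R ⧸ (S : Subgroup ↥R))) p) := by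
      have h1 : v = v ^ ((1 : ℕ) : ℤ) := by simp
      rw [hbez, zpow_add, zpow_mul, zpow_mul, zpow_natCast, zpow_natCast, hvp, one_zpow,
        mul_one] at h1
      exact h1
    rw [hv1]
    exact Subgroup.zpow_mem _ hm _

end Cfsg.Agent.S2781
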