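import Cfsg.Statements.S2947
import Mathlib
import Cfsg.Agent.Lib.Helper49.CharP
import Cfsg.Agent.Lib.Helper49.StrEmb

set_option autoImplicit false
open Cfsg

namespace Cfsg.Agent.S2947

/-- Let G be a finite group of characteristic 2 type in which every 2-local subgroup is solvable and the centralizer of Ω₁(Z(S)) lies in N_G(S) for every Sylow 2-subgroup S; suppose O₂(G) = 1, fix a Sylow 2-subgroup S and a 2-local subgroup M containing N_G(J(S)) (J the Thompson subgroup generated by the elementary abelian 2-subgroups of largest order). Then M is strongly embedded in G (a proper subgroup of even order whose intersection with each conjugate by an element outside M has odd order) if and only if no nontrivial 2-subgroup of M lies in a 2-local subgroup of G not contained in M. -/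
theorem result {G : Type*} [Group G] [Finite G] (hL : Cfsg.IsCharacteristicTwoType G) (hN : ∀ N : Subgroup G, Cfsg.IsTwoLocal N → Group.IsSolvable ↥N)
    (hZ : ∀ S : Sylow 2 G, Subgroup.centralizer (Cfsg.omegaCenterOf (S : Subgroup G) : Set G) ≤ Subgroup.normalizer ((S : Subgroup G) : Set G)) (hO : Cfsg.pCore 2 G = ⊥) (S : Sylow 2 G) (M : Subgroup G) (hM : Cfsg.IsTwoLocal M)
    (hMJ : Subgroup.normalizer (Cfsg.thompsonSubgroupOf 2 (S : Subgroup G) : Set G) ≤ M) :
    Cfsg.IsStronglyEmbedded M ↔ Cfsg.straddlingTwoSubgroups M = ∅ := by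
  classical
  have : Fact (Nat.Prime 2) := ⟨Nat.prime_two⟩
  obtain ⟨T₁, hT₁p, hT₁1, hMT⟩ := hM
  constructor
  · -- strongly embedded ⇒ no straddling subgroup
    intro hSE
    rw [Set.eq_empty_iff_forall_notMem]
    rintro T ⟨hTp, hT1, hTM, L, ⟨Q, hQp, hQ1, hLQ⟩, hTL, hLM⟩
    have hstar := Cfsg.Agent.Lib.Helper49.normalizer_le_of_stronglyEmbedded hSE
    have hTQp : IsPGroup 2 ↥(T ⊔ Q) := IsPGroup.to_sup_of_normal_right' hTp hQp (hLQ ▸ hTL)
    have hTQM : T ⊔ Q ≤ M := by
      apply Cfsg.Agent.Lib.Helper49.le_of_inf_ne_bot hstar hTQp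
      intro h
      apply hT1
      rw [eq_bot_iff, ← h]
      exact le_inf le_sup_left hTM
    have hQM : Q ≤ M := le_trans le_sup_right hTQM
    apply hLM
    rw [hLQ]
    exact hstar Q hQM hQp hQ1
  · -- no straddling subgroup ⇒ strongly embedded
    intro hemp
    have hstar : ∀ P : Subgroup G, P ≤ M → IsPGroup 2 P → P ≠ ⊥ →
        Subgroup.normalizer (P : Set G) ≤ M := by
      intro P hPM hPp hP1
      by_contra hnot
      have : P ∈ Cfsg.straddlingTwoSubgroups M :=
        ⟨hPp, hP1, hPM, Subgroup.normalizer (P : Set G), ⟨P, hPp, hP1, rfl⟩,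
          Subgroup.le_normalizer, hnot⟩
      rw [hemp] at this
      exact this
    have hT₁M : T₁ ≤ M := by rw [hMT]; exact Subgroup.le_normalizer
    apply Cfsg.Agent.Lib.Helper49.stronglyEmbedded_of_normalizers _ _ hstar
    · intro htop
      apply hT₁1
      rw [eq_bot_iff, ← hO]
      apply Cfsg.Agent.Lib.Helper49.le_pCore _ hT₁p
      rw [← Subgroup.normalizer_eq_top_iff, ← hMT]
      exact htop
    · rcases hT₁p.card_eq_or_dvd with h1 | h2
      · exact absurd (Subgroup.card_eq_one.mp h1) hT₁1
      · rw [even_iff_two_dvd]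
        exact dvd_trans h2 (Subgroup.card_dvd_of_le hT₁M)

end Cfsg.Agent.S2947
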