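import Mathlib
import Cfsg.Statements.S3763
import Cfsg.Agent.Lib.Helper2.ES2Cfsg
import Cfsg.Agent.Lib.Helper2.ES2Rank

set_option autoImplicit false
open Cfsg

namespace Cfsg.Agent.S3763

open Cfsg.Agent.Lib.Helper2.ES2

universe u

theorem key {E : Type u} [Group E] [Finite E] (hE : Cfsg.IsExtraspecial 2 E) (n : ℕ)
    (hn : Nat.card E = 2 ^ (2 * n + 1)) :
    1 ≤ n ∧ ((invCount E = 2 ^ (2 * n) + 2 ^ n ∧ Cfsg.PRankLE 2 (n + 1) E ∧
        ¬ Cfsg.PRankLE 2 n E) ∨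
      (invCount E + 2 ^ n = 2 ^ (2 * n) ∧ Cfsg.PRankLE 2 n E ∧ ¬ Cfsg.PRankLE 2 (n - 1) E)) := by
  obtain ⟨hZ, hc, hnab⟩ := of_isExtraspecial hE
  obtain ⟨m, hm1, hmc, hcount⟩ := extraspecial_card_count hE
  have hmn : m = n := by
    have h : (2 : ℕ) ^ (2 * m + 1) = 2 ^ (2 * n + 1) := by rw [← hmc, ← hn]
    have := Nat.pow_right_injective (le_refl 2) h
    omega
  subst hmn
  obtain ⟨r1, r2, r3, r4⟩ := rank_aux m E hZ hc hn
  have hpa : 0 < 2 ^ m := Nat.pos_of_ne_zero (by positivity)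
  have eB : 2 ^ (m + 1) = 2 * 2 ^ m := by ring
  refine ⟨hm1, ?_⟩
  rcases hcount with hplus | hminus
  · left
    refine ⟨hplus, r1, ?_⟩
    intro h
    obtain ⟨A, hAc, hA2, hle⟩ := r2 hplus
    have := h A hAc hA2
    omega
  · right
    refine ⟨hminus, ?_, ?_⟩
    · intro A hAc hA2
      by_contra hgt
      have hdvd : Nat.card A ∣ 2 ^ (2 * m + 1) := by
        rw [← hn]; exact Subgroup.card_subgroup_dvd_card A
      obtain ⟨k, -, hk⟩ := (Nat.dvd_prime_pow Nat.prime_two).mp hdvd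
      have hkm : m + 1 ≤ k := by
        by_contra hkm
        have : k ≤ m := by omega
        have := Nat.pow_le_pow_right (show 0 < 2 by norm_num) this
        omega
      have h2 := Nat.pow_le_pow_right (show 0 < 2 by norm_num) hkm
      have := r3 ⟨A, hAc, hA2, by rw [hk]; exact h2⟩
      omega
    · intro h
      obtain ⟨A, hAc, hA2, hle⟩ := r4 hminus
      have h3 := h A hAc hA2
      have e : 2 ^ m = 2 * 2 ^ (m - 1) := by
        obtain ⟨j, rfl⟩ : ∃ j, m = j + 1 := ⟨m - 1, by omega⟩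
        simp [pow_succ, mul_comm]
      have hpc : 0 < 2 ^ (m - 1) := Nat.pos_of_ne_zero (by positivity)
      omega

/-- An extraspecial group of order 2^(2n+1) has 2-rank n or n+1, and its isomorphism type is determined by the order and the 2-rank. -/
theorem result {E : Type*} [Group E] [Finite E] (hE : Cfsg.IsExtraspecial 2 E) (n : ℕ) (hn : Nat.card E = 2 ^ (2 * n + 1)) : ((Cfsg.PRankLE 2 n E ∧ ¬ Cfsg.PRankLE 2 (n - 1) E) ∨ (Cfsg.PRankLE 2 (n + 1) E ∧ ¬ Cfsg.PRankLE 2 n E)) ∧ ∀ (E' : Type*) [Group E'] [Finite E'], Cfsg.IsExtraspecial 2 E' → Nat.card E' = Nat.card E → (∀ k : ℕ, Cfsg.PRankLE 2 k E ↔ Cfsg.PRankLE 2 k E') → Nonempty (E ≃* E') := by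
  obtain ⟨hn1, hk⟩ := key hE n hn
  constructor
  · rcases hk with ⟨-, h1, h2⟩ | ⟨-, h1, h2⟩
    · exact Or.inr ⟨h1, h2⟩
    · exact Or.inl ⟨h1, h2⟩
  · intro E' _ _ hE' hcard hprof
    obtain ⟨-, hk'⟩ := key hE' n (by rw [hcard, hn])
    rcases hk with ⟨hi, h1, h2⟩ | ⟨hi, h1, h2⟩ <;> rcases hk' with ⟨hi', h1', h2'⟩ | ⟨hi', h1', h2'⟩
    · exact extraspecial_iso hE hE' hcard.symm (by rw [hi, hi'])
    · exact absurd ((hprof n).mpr h1') h2
    · exact absurd ((hprof n).mp h1) h2'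
    · exact extraspecial_iso hE hE' hcard.symm (by omega)

end Cfsg.Agent.S3763
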