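import Cfsg.Statements.S3085
import Cfsg.Agent.Lib.Helper6.ESTw
import Cfsg.Agent.S3763

set_option autoImplicit false
open Cfsg

namespace Cfsg.Agent.S3085

open Cfsg.Agent.Lib.Helper6.ES3
open scoped commutatorElement

theorem conj_mul_conj {Q : Type*} [Group Q] (g : MulAut Q) (a : Q) :
    g * MulAut.conj a * g⁻¹ = MulAut.conj (g a) := by
  apply MulEquiv.ext
  intro y
  simp only [MulAut.mul_apply, MulAut.conj_apply, map_mul, map_inv, MulAut.apply_inv_self]

theorem inn_normal (Q : Type*) [Group Q] : (Cfsg.Inn Q).Normal := by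
  constructor
  rintro n ⟨a, rfl⟩ g
  exact ⟨g a, (conj_mul_conj g a).symm⟩

/-- If `Inn Q` has a complement `L`, then outer-commuting outer-involutions lift to commuting
involutions (after inner adjustments). -/
theorem core {Q : Type*} [Group Q] (L : Subgroup (MulAut Q))
    (hL : (Cfsg.Inn Q).IsComplement' L) (ψ1 ψ2 : MulAut Q)
    (h1 : ψ1 * ψ1 ∈ Cfsg.Inn Q) (h2 : ψ2 * ψ2 ∈ Cfsg.Inn Q)
    (h3 : ψ1 * ψ2 * ψ1⁻¹ * ψ2⁻¹ ∈ Cfsg.Inn Q) :
    ∃ b1 b2 : Q, (ψ1 * MulAut.conj b1) * (ψ1 * MulAut.conj b1) = 1 ∧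
      (ψ2 * MulAut.conj b2) * (ψ2 * MulAut.conj b2) = 1 ∧
      (ψ1 * MulAut.conj b1) * (ψ2 * MulAut.conj b2) =
        (ψ2 * MulAut.conj b2) * (ψ1 * MulAut.conj b1) := by
  have := inn_normal Q
  have lift : ∀ ψ : MulAut Q, ∃ b : Q, ψ * MulAut.conj b ∈ L := by
    intro ψ
    obtain ⟨⟨⟨h, hh⟩, ⟨k, hk⟩⟩, e⟩ := hL.2 ψ
    obtain ⟨a, rfl⟩ := hh
    refine ⟨ψ⁻¹ a⁻¹, ?_⟩
    have e' : ψ * MulAut.conj (ψ⁻¹ a⁻¹) = k := by
      have e2 : k = (MulAut.conj a)⁻¹ * ψ := by
        rw [← e]; simp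
      rw [e2]
      apply MulEquiv.ext
      intro y
      simp only [MulAut.mul_apply, MulAut.conj_apply, map_mul, map_inv, MulAut.apply_inv_self,
        MulAut.conj_inv_apply, inv_inv]
    rw [e']; exact hk
  obtain ⟨b1, hb1⟩ := lift ψ1
  obtain ⟨b2, hb2⟩ := lift ψ2
  refine ⟨b1, b2, ?_, ?_, ?_⟩
  · set π := QuotientGroup.mk' (Cfsg.Inn Q) with hπ
    have hc : ∀ b : Q, π (MulAut.conj b) = 1 := fun b =>
      (QuotientGroup.eq_one_iff _).2 ⟨b, rfl⟩
    have hI : (ψ1 * MulAut.conj b1) * (ψ1 * MulAut.conj b1) ∈ Cfsg.Inn Q := by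
      rw [← QuotientGroup.eq_one_iff]
      have := (QuotientGroup.eq_one_iff (N := Cfsg.Inn Q) _).2 h1
      change π _ = 1
      change π _ = 1 at this
      simp only [map_mul, hc, mul_one] at this ⊢
      exact this
    exact Subgroup.disjoint_def.1 hL.disjoint hI (L.mul_mem hb1 hb1)
  · set π := QuotientGroup.mk' (Cfsg.Inn Q) with hπ
    have hc : ∀ b : Q, π (MulAut.conj b) = 1 := fun b =>
      (QuotientGroup.eq_one_iff _).2 ⟨b, rfl⟩
    have hI : (ψ2 * MulAut.conj b2) * (ψ2 * MulAut.conj b2) ∈ Cfsg.Inn Q := by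
      rw [← QuotientGroup.eq_one_iff]
      have := (QuotientGroup.eq_one_iff (N := Cfsg.Inn Q) _).2 h2
      change π _ = 1
      change π _ = 1 at this
      simp only [map_mul, hc, mul_one] at this ⊢
      exact this
    exact Subgroup.disjoint_def.1 hL.disjoint hI (L.mul_mem hb2 hb2)
  · set π := QuotientGroup.mk' (Cfsg.Inn Q) with hπ
    have hc : ∀ b : Q, π (MulAut.conj b) = 1 := fun b =>
      (QuotientGroup.eq_one_iff _).2 ⟨b, rfl⟩
    have hI : (ψ1 * MulAut.conj b1) * (ψ2 * MulAut.conj b2) * (ψ1 * MulAut.conj b1)⁻¹ *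
        (ψ2 * MulAut.conj b2)⁻¹ ∈ Cfsg.Inn Q := by
      rw [← QuotientGroup.eq_one_iff]
      have := (QuotientGroup.eq_one_iff (N := Cfsg.Inn Q) _).2 h3
      change π _ = 1
      change π _ = 1 at this
      simp only [map_mul, map_inv, hc, mul_one] at this ⊢
      exact this
    have hone := Subgroup.disjoint_def.1 hL.disjoint hI
      (L.mul_mem (L.mul_mem (L.mul_mem hb1 hb2) (L.inv_mem hb1)) (L.inv_mem hb2))
    have := commutatorElement_eq_one_iff_mul_comm.1
      (show ⁅ψ1 * MulAut.conj b1, ψ2 * MulAut.conj b2⁆ = 1 from by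
        rw [commutatorElement_def]; exact hone)
    exact this

theorem pRankLE_mono {G : Type*} [Group G] {k k' : ℕ} (h : Cfsg.PRankLE 2 k G) (hk : k ≤ k') :
    Cfsg.PRankLE 2 k' G := fun A hA hA' =>
  (h A hA hA').trans (Nat.pow_le_pow_right (by norm_num) hk)

theorem congr_conj {Q G : Type*} [Group Q] [Group G] (φ : Q ≃* G) (b : Q) :
    MulAut.congr φ (MulAut.conj b) = MulAut.conj (φ b) := by
  apply MulEquiv.ext
  intro y
  simp [MulAut.congr]

/-- Let Q be an extraspecial 2-group of order 2^(2n+1) with n ≥ 3 that is of plus type (it contains an elementary abelian subgroup of order 2^(n+1)). Then the group of inner automorphisms of Q has no complement in the full automorphism group of Q: the extension of the inner automorphism group (elementary abelian of order 2^(2n)) by the outer automorphism group (the orthogonal group of plus type) does not split. -/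
theorem result {Q : Type*} [Group Q] [Finite Q] (n : ℕ) (hn : 3 ≤ n) (hQ : Cfsg.IsExtraspecial 2 Q) (hcard : Nat.card Q = 2 ^ (2 * n + 1)) (hplus : ∃ E : Subgroup Q, Cfsg.IsElementaryAbelian 2 E ∧ Nat.card ↥E = 2 ^ (n + 1)) (L : Subgroup (MulAut Q)) : ¬ (Cfsg.Inn Q).IsComplement' L := by
  intro hL
  obtain ⟨m, rfl⟩ : ∃ m, n = m + 3 := ⟨n - 3, by omega⟩
  -- the rank profile of `Q`
  have hQn : ¬ Cfsg.PRankLE 2 (m + 3) Q := by
    intro h
    obtain ⟨E, ⟨hE1, hE2⟩, hE3⟩ := hplus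
    have := h E hE1 hE2
    rw [hE3] at this
    have h2 : 2 ^ (m + 3) < 2 ^ (m + 3 + 1) := Nat.pow_lt_pow_right (by norm_num) (by omega)
    omega
  obtain ⟨hQr, hQiso⟩ := Cfsg.Agent.S3763.result hQ (m + 3) hcard
  have hQp : Cfsg.PRankLE 2 (m + 3 + 1) Q := by
    rcases hQr with h | h
    · exact absurd h.1 hQn
    · exact h.1
  -- the rank profile of the model
  have hTr := (Cfsg.Agent.S3763.result.{0, 0} (isExtraspecial_TW m) (m + 3) (card_TW m)).1
  have hTp : Cfsg.PRankLE 2 (m + 3 + 1) (TW m) := by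
    rcases hTr with h | h
    · exact absurd h.1 (not_pRankLE_TW m)
    · exact h.1
  obtain ⟨φ⟩ := hQiso (TW m) (isExtraspecial_TW m) ((card_TW m).trans hcard.symm) (by
    intro k
    by_cases hk : m + 3 + 1 ≤ k
    · exact ⟨fun _ => pRankLE_mono hTp hk, fun _ => pRankLE_mono hQp hk⟩
    · have hk' : k ≤ m + 3 := by omega
      exact ⟨fun h => absurd (pRankLE_mono h hk') hQn,
        fun h => absurd (pRankLE_mono h hk') (not_pRankLE_TW m)⟩)
  -- transport the two automorphisms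
  set Φ : MulAut Q ≃* MulAut (TW m) := MulAut.congr φ with hΦ
  have hinv1 : (Psi1 m)⁻¹ = Psi1 m := inv_eq_of_mul_eq_one_left Psi1_sq
  have hinv2 : (Psi2 m)⁻¹ = Psi2 m := inv_eq_of_mul_eq_one_left Psi2_sq
  obtain ⟨b1, b2, e1, e2, e3⟩ := core L hL (Φ.symm (Psi1 m)) (Φ.symm (Psi2 m))
    (by rw [← map_mul, Psi1_sq, map_one]; exact one_mem _)
    (by rw [← map_mul, Psi2_sq, map_one]; exact one_mem _)
    (by
      rw [← map_inv, ← map_inv, ← map_mul, ← map_mul, ← map_mul, hinv1, hinv2, Psi_comm]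
      refine ⟨φ.symm ⟨sE, 0⟩, ?_⟩
      apply Φ.injective
      rw [MulEquiv.apply_symm_apply, hΦ, congr_conj, MulEquiv.apply_symm_apply])
  have t1 : Φ (Φ.symm (Psi1 m) * MulAut.conj b1) = Psi1 m * MulAut.conj (φ b1) := by
    rw [map_mul, MulEquiv.apply_symm_apply, hΦ, congr_conj]
  have t2 : Φ (Φ.symm (Psi2 m) * MulAut.conj b2) = Psi2 m * MulAut.conj (φ b2) := by
    rw [map_mul, MulEquiv.apply_symm_apply, hΦ, congr_conj]
  refine no_lift (φ b1) (φ b2) ?_ ?_ ?_
  · rw [← t1, ← map_mul, e1, map_one]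
  · rw [← t2, ← map_mul, e2, map_one]
  · rw [← t1, ← t2, ← map_mul, ← map_mul, e3]

end Cfsg.Agent.S3085
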