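import Cfsg.Statements.S3103
import Cfsg.Agent.Lib.Helper50.FrattiniRep
import Cfsg.Agent.Lib.Helper49.PPrimeP
import Cfsg.Agent.Lib.Helper63.PLength

set_option autoImplicit false
open Cfsg

namespace Cfsg.Agent.S3103

/-- Let X be a finite 2-constrained group with no nontrivial normal subgroup of odd order such that O₂(X) has sectional 2-rank at most 4. Then X/O₂(X) is isomorphic to a subgroup of the alternating group of degree 8. -/
theorem result {X : Type*} [Group X] [Finite X] (hc : Cfsg.IsPConstrained 2 X) (hO : Cfsg.oddCore X = ⊥)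
    (h4 : Cfsg.SectionalPRankLE 2 4 ↥(Cfsg.pCore 2 X)) :
    ∃ f : X ⧸ Cfsg.pCore 2 X →* ↥(alternatingGroup (Fin 8)), Function.Injective f := by
  haveI : Fact (Nat.Prime 2) := ⟨Nat.prime_two⟩
  have hO' : Cfsg.pPrimeCore 2 X = ⊥ := hO
  have hQ : IsPGroup 2 ↥(Cfsg.pCore 2 X) := Cfsg.Agent.Lib.Helper63.pCore_isPGroup' 2 X
  have hcent : Subgroup.centralizer (Cfsg.pCore 2 X : Set X) ≤ Cfsg.pCore 2 X := by
    obtain ⟨S⟩ : Nonempty (Sylow 2 X) := inferInstance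
    have h1 := Cfsg.Agent.Lib.Helper49.pPrimePCore_eq_sup S
    rw [hO', sup_bot_eq] at h1
    have h2 : Cfsg.pPrimePCore 2 X ≤ (S : Subgroup X) := h1.le.trans inf_le_left
    have h3 : IsPGroup 2 ↥(Cfsg.pPrimePCore 2 X) := S.isPGroup'.to_le h2
    have h4 : Cfsg.pPrimePCore 2 X ≤ Cfsg.pCore 2 X :=
      Cfsg.Agent.Lib.Helper63.le_pCore' (Cfsg.Agent.Lib.Helper49.pPrimePCore_normal 2 X) h3
    obtain ⟨P⟩ : Nonempty (Sylow 2 ↥(Cfsg.pPrimePCore 2 X)) := inferInstance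
    have h5 := hc P
    have h6 : ((P : Subgroup ↥(Cfsg.pPrimePCore 2 X)).map (Cfsg.pPrimePCore 2 X).subtype :
        Subgroup X) ≤ Cfsg.pCore 2 X := (Subgroup.map_subtype_le _).trans h4
    exact (Subgroup.centralizer_le (SetLike.coe_subset_coe.2 h6)).trans (h5.trans h4)
  have hcard : Nat.card (↥(Cfsg.pCore 2 X) ⧸ frattini ↥(Cfsg.pCore 2 X)) ≤ 16 :=
    Cfsg.Agent.Lib.Helper50.fr_card_frattini_quot_le hQ 4 h4
  exact Cfsg.Agent.Lib.Helper50.fr_embeds (Cfsg.pCore 2 X) hQ hcent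
    (fun N hN hNp => Cfsg.Agent.Lib.Helper63.le_pCore' hN hNp) hcard

end Cfsg.Agent.S3103
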