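import Cfsg.Statements.S3116
import Mathlib

set_option autoImplicit false
open Cfsg

namespace Cfsg.Agent.S3116

/-- A finite 2-group with a cyclic subgroup `⟨x⟩` of index 2 such that no element outside has
the order of `x` has a 2-group of automorphisms. -/
theorem aut_isPGroup_of_cyclic_index_two {X : Type*} [Group X] [Finite X] (h2 : IsPGroup 2 X)
    (x : X) (hidx : (Subgroup.zpowers x).index = 2)
    (hout : ∀ g : X, g ∉ Subgroup.zpowers x → orderOf g ≠ orderOf x) :
    IsPGroup 2 (MulAut X) := by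
  intro σ
  -- the order of x is a power of two
  obtain ⟨k0, hk0⟩ := h2 x
  obtain ⟨n, -, hn⟩ := (Nat.dvd_prime_pow Nat.prime_two).1 (orderOf_dvd_of_pow_eq_one hk0)
  -- σ x is a power of x
  have h1 : σ x ∈ Subgroup.zpowers x := by
    by_contra hcon
    exact hout _ hcon (MulEquiv.orderOf_eq σ x)
  obtain ⟨a, ha⟩ := mem_powers_iff_mem_zpowers.mpr h1
  have ha : x ^ a = σ x := ha
  have hpow : ∀ k : ℕ, (σ ^ k) x = x ^ (a ^ k) := by
    intro k
    induction k with
    | zero => simp
    | succ k ih =>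
      rw [pow_succ', MulAut.mul_apply, ih, map_pow, ← ha, ← pow_mul, pow_succ']
  have hcop : Nat.Coprime a (2 ^ n) := by
    have h3 : orderOf (x ^ a) = orderOf x := by rw [ha]; exact MulEquiv.orderOf_eq σ x
    rw [orderOf_pow] at h3
    have hpos : 0 < orderOf x := orderOf_pos x
    have h4 : Nat.gcd (orderOf x) a = 1 := by
      have h5 := Nat.div_mul_cancel (Nat.gcd_dvd_left (orderOf x) a)
      rw [h3] at h5
      have h6 : orderOf x * Nat.gcd (orderOf x) a = orderOf x * 1 := by rw [h5, mul_one]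
      exact Nat.eq_of_mul_eq_mul_left hpos h6
    rw [hn] at h4
    exact (Nat.coprime_comm).1 h4
  set τ := σ ^ Nat.totient (2 ^ n) with hτ
  have hτx : τ x = x := by
    rw [hτ, hpow]
    have h7 : a ^ Nat.totient (2 ^ n) ≡ 1 [MOD orderOf x] := by
      rw [hn]; exact Nat.ModEq.pow_totient hcop
    have := (pow_eq_pow_iff_modEq (x := x)).2 h7
    rw [this, pow_one]
  have hτz : ∀ c ∈ Subgroup.zpowers x, τ c = c := by
    intro c hc
    obtain ⟨j, rfl⟩ := Subgroup.mem_zpowers_iff.1 hc
    rw [map_zpow, hτx]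
  have hτsymm : ∀ c ∈ Subgroup.zpowers x, τ.symm c = c := by
    intro c hc
    have := hτz c hc
    rw [MulEquiv.symm_apply_eq]
    exact this.symm
  have hcos : ∀ g : X, τ g * g⁻¹ ∈ Subgroup.zpowers x := by
    intro g
    by_cases hg : g ∈ Subgroup.zpowers x
    · rw [hτz g hg, mul_inv_cancel]; exact Subgroup.one_mem _
    · rw [Subgroup.mul_mem_iff_of_index_two hidx]
      have h8 : τ g ∉ Subgroup.zpowers x := by
        intro h9
        apply hg
        have := hτsymm _ h9
        rw [MulEquiv.symm_apply_apply] at this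
        rw [this]; exact h9
      have h10 : g⁻¹ ∉ Subgroup.zpowers x := by
        rw [Subgroup.inv_mem_iff]; exact hg
      exact ⟨fun h => absurd h h8, fun h => absurd h h10⟩
  have hfix : ∀ g : X, (τ ^ (2 ^ n)) g = g := by
    intro g
    have hc := hcos g
    set c := τ g * g⁻¹ with hcdef
    have hτg : τ g = c * g := by rw [hcdef]; group
    have hk : ∀ k : ℕ, (τ ^ k) g = c ^ k * g := by
      intro k
      induction k with
      | zero => simp
      | succ k ih =>
        rw [pow_succ', MulAut.mul_apply, ih, map_mul, map_pow, hτz c hc, hτg, ← mul_assoc, ← pow_succ]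
    rw [hk]
    obtain ⟨j, hj⟩ := Subgroup.mem_zpowers_iff.1 hc
    have : c ^ (2 ^ n) = 1 := by
      rw [← hj, ← zpow_natCast, ← zpow_mul, mul_comm, zpow_mul, zpow_natCast, ← hn, pow_orderOf_eq_one, one_zpow]
    rw [this, one_mul]
  have hone : τ ^ (2 ^ n) = 1 := by
    ext g
    rw [hfix g]; rfl
  have hσ : σ ^ (Nat.totient (2 ^ n) * 2 ^ n) = 1 := by
    rw [pow_mul]; exact hone
  rcases n with _ | m
  · refine ⟨0, ?_⟩
    simpa using hσ
  · refine ⟨m + (m + 1), ?_⟩
    rw [Nat.totient_prime_pow_succ Nat.prime_two] at hσ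
    rw [pow_add]
    simpa using hσ

/-- The automorphism group of a dihedral 2-group of order at least 8, or of a quasi-dihedral (semidihedral) 2-group of order at least 16, is a 2-group. -/
theorem result {X : Type*} [Group X] [Finite X] (h2 : IsPGroup 2 X)
    (h : (∃ n : ℕ, 4 ≤ n ∧ Nonempty (X ≃* DihedralGroup n)) ∨ Cfsg.IsQuasiDihedral X) : IsPGroup 2 (MulAut X) := by
  rcases h with ⟨n, hn, ⟨e⟩⟩ | ⟨n, hn, hcard, x, y, hx, hy, hxy⟩
  · -- dihedral case
    have hD : IsPGroup 2 (DihedralGroup n) := h2.of_equiv e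
    have : NeZero n := ⟨by omega⟩
    have key : IsPGroup 2 (MulAut (DihedralGroup n)) := by
      apply aut_isPGroup_of_cyclic_index_two hD (DihedralGroup.r 1)
      · have h1 := Subgroup.index_mul_card (Subgroup.zpowers (DihedralGroup.r (1 : ZMod n)))
        rw [Nat.card_zpowers, DihedralGroup.orderOf_r_one, DihedralGroup.nat_card] at h1
        exact Nat.eq_of_mul_eq_mul_right (by omega) h1
      · intro g hg
        rw [DihedralGroup.orderOf_r_one]
        cases g with
        | r i =>
          exfalso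
          apply hg
          rw [Subgroup.mem_zpowers_iff]
          refine ⟨(i.val : ℤ), ?_⟩
          rw [DihedralGroup.r_one_zpow]
          simp
        | sr i =>
          rw [DihedralGroup.orderOf_sr]
          omega
    exact key.of_equiv (MulAut.congr e).symm
  · -- quasi-dihedral case
    have hidx : (Subgroup.zpowers x).index = 2 := by
      have h1 := Subgroup.index_mul_card (Subgroup.zpowers x)
      rw [Nat.card_zpowers, hx, hcard, pow_succ, mul_comm (2 ^ n) 2] at h1
      exact Nat.eq_of_mul_eq_mul_right (by positivity) h1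
    have hy2 : y ^ 2 = 1 := by rw [← hy]; exact pow_orderOf_eq_one y
    have hyinv : y⁻¹ = y := by
      rw [inv_eq_iff_mul_eq_one, ← sq]; exact hy2
    have h4le : 4 ≤ 2 ^ (n - 1) := by
      have : 2 ^ 2 ≤ 2 ^ (n - 1) := Nat.pow_le_pow_right (by norm_num) (by omega)
      simpa using this
    have hpow2 : 2 ^ n = 2 * 2 ^ (n - 1) := by
      rw [← pow_succ']; congr 1; omega
    have hynot : y ∉ Subgroup.zpowers x := by
      intro hmem
      obtain ⟨j, hj⟩ := Subgroup.mem_zpowers_iff.1 hmem
      have hcm : Commute y x := by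
        rw [← hj]; exact (Commute.refl x).zpow_left j
      have hcomm : y * x * y⁻¹ = x := by
        rw [hcm.eq, mul_inv_cancel_right]
      rw [hcomm] at hxy
      have h5 : x ^ 1 = x ^ (2 ^ (n - 1) - 1) := by rw [pow_one]; exact hxy
      rw [pow_eq_pow_iff_modEq, hx] at h5
      have h6 := Nat.ModEq.eq_of_lt_of_lt h5 (by omega) (by omega)
      omega
    apply aut_isPGroup_of_cyclic_index_two h2 x hidx
    intro g hg
    have hgy : g * y⁻¹ ∈ Subgroup.zpowers x := by
      rw [Subgroup.mul_mem_iff_of_index_two hidx]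
      have : y⁻¹ ∉ Subgroup.zpowers x := by rw [Subgroup.inv_mem_iff]; exact hynot
      exact ⟨fun h => absurd h hg, fun h => absurd h this⟩
    obtain ⟨k, hk⟩ := mem_powers_iff_mem_zpowers.mpr hgy
    have hk : x ^ k = g * y⁻¹ := hk
    have hg' : g = x ^ k * y := by rw [hk]; group
    have hconj : y * x ^ k * y⁻¹ = x ^ ((2 ^ (n - 1) - 1) * k) := by
      have : y * x ^ k * y⁻¹ = (y * x * y⁻¹) ^ k := by
        rw [conj_pow]
      rw [this, hxy, ← pow_mul]
    have hg2 : g ^ 2 = x ^ (2 ^ (n - 1) * k) := by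
      have h7 : g ^ 2 = x ^ k * (y * x ^ k * y⁻¹) * y ^ 2 := by
        rw [hg', sq, sq]; simp [mul_assoc]
      rw [h7, hconj, hy2, mul_one, ← pow_add]
      congr 1
      have : 2 ^ (n - 1) = (2 ^ (n - 1) - 1) + 1 := by omega
      nlinarith [this]
    have hg4 : g ^ 4 = 1 := by
      have : g ^ 4 = (g ^ 2) ^ 2 := by rw [← pow_mul]
      rw [this, hg2, ← pow_mul]
      have : 2 ^ (n - 1) * k * 2 = orderOf x * k := by rw [hx, hpow2]; ring
      rw [this, pow_mul, pow_orderOf_eq_one, one_pow]
    have hle : orderOf g ≤ 4 := Nat.le_of_dvd (by norm_num) (orderOf_dvd_of_pow_eq_one hg4)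
    rw [hx, hpow2]
    omega

end Cfsg.Agent.S3116
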