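import Cfsg.Statements.S3117
import Cfsg.Agent.Lib.Helper51.TI3.Main
import Cfsg.Agent.Lib.Helper51.TI3.Quad
import Cfsg.Agent.Lib.Helper62.TI3.Bound2
import Cfsg.Agent.Lib.Helper29.TI3.Bound4
import Cfsg.Agent.Lib.Helper13.TI3.Orbit
import Cfsg.Agent.Lib.Helper13.TI3.No7
import Cfsg.Agent.Lib.Helper95.TI3.Five
import Cfsg.Agent.Lib.Helper27.TI3.LemAb
import Cfsg.Agent.Lib.Helper38.TI3.LemCritExists
import Cfsg.Agent.Lib.Helper20.TI3.CritCount
import Cfsg.Agent.Lib.Helper75.TI3.CritHom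

set_option autoImplicit false
open Cfsg

namespace Cfsg.Agent.S3117

open Cfsg.Agent.Lib.Helper51.TI3 in
/-- If X is a finite 2-group containing exactly three involutions, then the automorphism group of X is solvable. -/
theorem result {X : Type*} [Group X] [Finite X] (h2 : IsPGroup 2 X) (h3 : Nat.card {x : X // orderOf x = 2} = 3) : Group.IsSolvable (MulAut X) := by
  have hK : LemK.{u_1, u_1} := Cfsg.Agent.Lib.Helper51.TI3.lemK
  have hO : LemOrbit.{u_1} := Cfsg.Agent.Lib.Helper13.TI3.lemOrbit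
  have hQ : LemQuad.{u_1, u_1} :=
    Cfsg.Agent.Lib.Helper51.TI3.lemQuad (Cfsg.Agent.Lib.Helper62.TI3.lemBound2 hK)
      (Cfsg.Agent.Lib.Helper29.TI3.lemBound4 hK) hO (Cfsg.Agent.Lib.Helper13.TI3.lemNo7 hO hK)
      (Cfsg.Agent.Lib.Helper95.TI3.lemFive hO hK)
  exact Cfsg.Agent.Lib.Helper51.TI3.main Cfsg.Agent.Lib.Helper27.TI3.lemAb
    Cfsg.Agent.Lib.Helper38.TI3.lemCritExists Cfsg.Agent.Lib.Helper20.TI3.lemCritCount
    Cfsg.Agent.Lib.Helper75.TI3.lemCritHom hQ (Nat.card X) rfl h2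
    (Cfsg.Agent.Lib.Helper51.TI3.card_sq_le_of_three h3)

end Cfsg.Agent.S3117
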