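import Cfsg.Statements.S3356
import Cfsg.Agent.Lib.Helper50.HalfTrans

set_option autoImplicit false
open Cfsg

namespace Cfsg.Agent.S3356

/-- Let G be a finite 3/2-transitive permutation group: G acts faithfully and transitively on a finite set, the point stabilizers are non-trivial, and for each point a all orbits of G_a on the remaining points have the same size. Suppose G has a regular normal subgroup N and G is not a Frobenius group (some two-point stabilizer is non-trivial). Then N is an elementary abelian p-group for some prime p, and every non-trivial normal subgroup of G contains N (so N is the unique minimal normal subgroup). -/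
theorem result {G Ω : Type*} [Group G] [Finite G]
    [MulAction G Ω] [FaithfulSMul G Ω] [Finite Ω] (htrans : MulAction.IsPretransitive G Ω)
    (hne : ∀ a : Ω, MulAction.stabilizer G a ≠ ⊥)
    (hhalf : ∀ a b c : Ω, b ≠ a → c ≠ a →
      Nat.card (MulAction.orbit (MulAction.stabilizer G a) b) = Nat.card (MulAction.orbit (MulAction.stabilizer G a) c))
    (N : Subgroup G) [hN : N.Normal] (hNt : MulAction.IsPretransitive N Ω) (hNr : ∀ a : Ω, MulAction.stabilizer N a = ⊥)
    (hnotF : ∃ a b : Ω, a ≠ b ∧ MulAction.stabilizer G a ⊓ MulAction.stabilizer G b ≠ ⊥) :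
    (∃ p : ℕ, p.Prime ∧ IsMulCommutative N ∧ ∀ x ∈ N, x ^ p = 1) ∧
    (∀ M : Subgroup G, M.Normal → M ≠ ⊥ → N ≤ M) := by
  classical
  obtain ⟨a, b, hab, hst⟩ := hnotF
  set H : Subgroup G := MulAction.stabilizer G a with hH
  have hreg : ∀ x ∈ N, x • a = a → x = 1 := by
    intro x hx hxa
    have h1 : (⟨x, hx⟩ : ↥N) ∈ MulAction.stabilizer ↥N a := by
      rw [MulAction.mem_stabilizer_iff]
      exact hxa
    rw [hNr a, Subgroup.mem_bot] at h1
    exact congrArg Subtype.val h1
  have htr : ∀ ω : Ω, ∃ n ∈ N, n • a = ω := by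
    intro ω
    obtain ⟨n, hn⟩ := MulAction.exists_smul_eq ↥N a ω
    exact ⟨n.1, n.2, hn⟩
  have hT : ∀ x ∈ N, H ⊓ MulAction.stabilizer G (x • a)
      = H ⊓ Subgroup.centralizer ({x} : Set G) := by
    intro x hx
    ext h
    rw [Cfsg.Agent.Lib.Helper50.wl_mem_D, Subgroup.mem_inf]
    constructor
    · rintro ⟨hh, hfix'⟩
      have hfix : h • x • a = x • a := MulAction.mem_stabilizer_iff.1 hfix'
      refine ⟨hh, ?_⟩
      have hha : h • a = a := MulAction.mem_stabilizer_iff.1 hh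
      have h1 : (x⁻¹ * (h * x * h⁻¹)) • a = a := by
        have hinv : h⁻¹ • a = a := by rw [inv_smul_eq_iff, hha]
        rw [mul_smul, mul_smul, mul_smul, hinv, hfix, inv_smul_smul]
      have h2 := hreg _ (N.mul_mem (N.inv_mem hx) (hN.conj_mem x hx h)) h1
      have h3 : h * x * h⁻¹ = x := by
        calc h * x * h⁻¹ = x * (x⁻¹ * (h * x * h⁻¹)) := by group
          _ = x := by rw [h2, mul_one]
      show h * x = x * h
      calc h * x = (h * x * h⁻¹) * h := by group
        _ = x * h := by rw [h3]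
    · rintro ⟨hh, hcomm⟩
      refine ⟨hh, ?_⟩
      have hha : h • a = a := MulAction.mem_stabilizer_iff.1 hh
      rw [MulAction.mem_stabilizer_iff, ← mul_smul, hcomm.eq, mul_smul, hha]
  have hcardeq : ∀ ω : Ω, Nat.card (MulAction.orbit ↥H ω)
      * Nat.card ↥(H ⊓ MulAction.stabilizer G ω) = Nat.card ↥H := by
    intro ω
    have h1 := Nat.card_congr (MulAction.orbitProdStabilizerEquivGroup ↥H ω)
    rw [Nat.card_prod] at h1
    have h2 : Nat.card ↥(MulAction.stabilizer ↥H ω)
        = Nat.card ↥(H ⊓ MulAction.stabilizer G ω) := by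
      have h3 : MulAction.stabilizer ↥H ω = (H ⊓ MulAction.stabilizer G ω).subgroupOf H := by
        ext h
        rw [Subgroup.mem_subgroupOf, Subgroup.mem_inf, MulAction.mem_stabilizer_iff,
          MulAction.mem_stabilizer_iff]
        constructor
        · intro hh
          exact ⟨h.2, hh⟩
        · intro hh
          exact hh.2
      rw [h3]
      exact Nat.card_congr (Subgroup.subgroupOfEquivOfLe inf_le_left).toEquiv
    rw [← h2]
    exact h1
  have hne1 : ∀ x ∈ N, x ≠ 1 → x • a ≠ a := fun x hx hx1 h => hx1 (hreg x hx h)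
  obtain ⟨x₀, hx₀N, hx₀b⟩ := htr b
  have hx₀1 : x₀ ≠ 1 := by
    rintro rfl
    rw [one_smul] at hx₀b
    exact hab hx₀b
  have hc : ∀ x ∈ N, x ≠ 1 → Nat.card ↥(H ⊓ Subgroup.centralizer ({x} : Set G))
      = Nat.card ↥(H ⊓ Subgroup.centralizer ({x₀} : Set G)) := by
    intro x hx hx1
    have e1 := hcardeq (x • a)
    have e2 := hcardeq (x₀ • a)
    rw [hT x hx] at e1
    rw [hT x₀ hx₀N] at e2
    have e3 := hhalf a (x • a) (x₀ • a) (hne1 x hx hx1) (hne1 x₀ hx₀N hx₀1)
    rw [e3, ← e2] at e1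
    have hpos : 0 < Nat.card (MulAction.orbit ↥H (x₀ • a)) := by
      have : Nonempty (MulAction.orbit ↥H (x₀ • a)) := ⟨⟨x₀ • a, MulAction.mem_orbit_self _⟩⟩
      exact Nat.card_pos
    exact Nat.eq_of_mul_eq_mul_left hpos e1
  have h2 : H ⊓ Subgroup.centralizer (N : Set G) = ⊥ := by
    rw [eq_bot_iff]
    intro h hh
    obtain ⟨hhH, hhC⟩ := Subgroup.mem_inf.1 hh
    rw [Subgroup.mem_centralizer_iff] at hhC
    rw [Subgroup.mem_bot]
    apply FaithfulSMul.eq_of_smul_eq_smul (α := Ω)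
    intro ω
    obtain ⟨n, hn, rfl⟩ := htr ω
    have hha : h • a = a := hhH
    rw [one_smul, ← mul_smul, ← hhC n hn, mul_smul, hha]
  have hst' : H ⊓ Subgroup.centralizer ({x₀} : Set G) ≠ ⊥ := by
    rw [← hT x₀ hx₀N, hx₀b]
    exact hst
  have h4 : ∀ g : G, ∃ n ∈ N, n⁻¹ * g ∈ H := by
    intro g
    obtain ⟨n, hn, hna⟩ := htr (g • a)
    refine ⟨n, hn, ?_⟩
    show (n⁻¹ * g) • a = a
    rw [mul_smul, ← hna, inv_smul_smul]
  obtain ⟨⟨p, hp, hcomm, hexp⟩, hmin⟩ :=
    Cfsg.Agent.Lib.Helper50.wl_main N H _ hc h2 ⟨x₀, hx₀N, hx₀1, hst'⟩ h4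
  exact ⟨⟨p, hp, ⟨⟨fun x y => Subtype.ext (hcomm x.1 x.2 y.1 y.2)⟩⟩, hexp⟩, hmin⟩

end Cfsg.Agent.S3356
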