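import Cfsg.Statements.S3362
import Cfsg.Agent.Lib.Helper19.M12Chain

set_option autoImplicit false
open Cfsg

namespace Cfsg.Agent.S3362

open Equiv Cfsg.Agent.Lib.Helper19.BSGS Cfsg.Agent.Lib.Helper19.M12 in
/-- prefix lengths of the stabiliser chain -/
def kk (i : ℕ) : ℕ := [8, 7, 6, 5, 3, 0].getD i 0

/-- base points of the stabiliser chain -/
def bb (i : ℕ) : Fin 12 := [2, 1, 0, 3, 4].getD i 0

open Equiv Cfsg.Agent.Lib.Helper19.BSGS Cfsg.Agent.Lib.Helper19.M12

/-- the groups of the stabiliser chain -/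
def GG (i : ℕ) : Subgroup (Perm (Fin 12)) := Subgroup.closure (gset gens (kk i))

theorem kk_anti (i : ℕ) : kk (i + 1) ≤ kk i := by
  rcases i with _ | _ | _ | _ | _ | _ | i <;> simp [kk]

theorem GG_anti (i : ℕ) : GG (i + 1) ≤ GG i :=
  Subgroup.closure_mono (gset_mono gens (kk_anti i))

theorem GG_bot (i : ℕ) : GG (i + 5) = ⊥ := by
  have : kk (i + 5) = 0 := by simp [kk]
  unfold GG
  rw [this, gset_zero, Subgroup.closure_empty]

theorem GG_fix (i : ℕ) : ∀ g ∈ GG (i + 1), g (bb i) = bb i := by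
  rcases i with _ | _ | _ | _ | _ | i
  · exact Level.fix (L := L1) (gens := gens) L1_check
  · exact Level.fix (L := L2) (gens := gens) L2_check
  · exact Level.fix (L := L3) (gens := gens) L3_check
  · exact Level.fix (L := L4) (gens := gens) L4_check
  · exact Level.fix (L := L5) (gens := gens) L5_check
  · intro g hg
    have : GG (i + 5 + 1) = ⊥ := by
      have := GG_bot (i + 1)
      rwa [show i + 1 + 5 = i + 5 + 1 by omega] at this
    rw [this, Subgroup.mem_bot] at hg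
    rw [hg]; rfl

theorem GG_trans : ∀ i < 5, ∀ c, (∀ j < i, c ≠ bb j) → ∃ g ∈ GG i, g c = bb i := by
  intro i hi c hc
  have key : ∀ i < 5, ∀ c : Fin 12, (∀ j < i, c ≠ bb j) →
      c ∈ ([L1, L2, L3, L4, L5].getD i L1).O := by decide
  have hc' := key i hi c hc
  interval_cases i
  · exact Level.trans (L := L1) (gens := gens) L1_check c hc'
  · exact Level.trans (L := L2) (gens := gens) L2_check c hc'
  · exact Level.trans (L := L3) (gens := gens) L3_check c hc'
  · exact Level.trans (L := L4) (gens := gens) L4_check c hc'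
  · exact Level.trans (L := L5) (gens := gens) L5_check c hc'

theorem GG_stab : ∀ i < 5, ∀ g ∈ GG i, g (bb i) = bb i → g ∈ GG (i + 1) := by
  intro i hi
  interval_cases i
  · exact Level.stab (L := L1) (gens := gens) L1_check
  · exact Level.stab (L := L2) (gens := gens) L2_check
  · exact Level.stab (L := L3) (gens := gens) L3_check
  · exact Level.stab (L := L4) (gens := gens) L4_check
  · exact Level.stab (L := L5) (gens := gens) L5_check

theorem card_GG5 : Nat.card (GG 5) = 1 := by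
  rw [GG_bot 0]; exact Subgroup.card_bot

theorem card_GG4 : Nat.card (GG 4) = 8 := by
  have h := Level.card (L := L5) (gens := gens) L5_check
  have hO : L5.O.toFinset.card = 8 := by decide
  change Nat.card (GG 4) = L5.O.toFinset.card * Nat.card (GG 5) at h
  rw [h, hO, card_GG5]

theorem card_GG3 : Nat.card (GG 3) = 72 := by
  have h := Level.card (L := L4) (gens := gens) L4_check
  have hO : L4.O.toFinset.card = 9 := by decide
  change Nat.card (GG 3) = L4.O.toFinset.card * Nat.card (GG 4) at h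
  rw [h, hO, card_GG4]

theorem card_GG2 : Nat.card (GG 2) = 720 := by
  have h := Level.card (L := L3) (gens := gens) L3_check
  have hO : L3.O.toFinset.card = 10 := by decide
  change Nat.card (GG 2) = L3.O.toFinset.card * Nat.card (GG 3) at h
  rw [h, hO, card_GG3]

theorem card_GG1 : Nat.card (GG 1) = 7920 := by
  have h := Level.card (L := L2) (gens := gens) L2_check
  have hO : L2.O.toFinset.card = 11 := by decide
  change Nat.card (GG 1) = L2.O.toFinset.card * Nat.card (GG 2) at h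
  rw [h, hO, card_GG2]

theorem card_GG0 : Nat.card (GG 0) = 95040 := by
  have h := Level.card (L := L1) (gens := gens) L1_check
  have hO : L1.O.toFinset.card = 12 := by decide
  change Nat.card (GG 0) = L1.O.toFinset.card * Nat.card (GG 1) at h
  rw [h, hO, card_GG1]

/-- every injective 5-tuple can be moved onto the base -/
theorem base_map (y : Fin 5 ↪ Fin 12) : ∃ g ∈ GG 0, ∀ i : Fin 5, g (y i) = bb i := by
  obtain ⟨g, hg, h⟩ := exists_map_base GG bb 5 GG_anti GG_fix GG_trans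
    (fun i => if h : i < 5 then y ⟨i, h⟩ else 0) (by
      intro i hi j hj
      have hj5 : j < 5 := by omega
      simp only [hi, hj5, dif_pos]
      intro h
      have := y.injective h
      simp only [Fin.mk.injEq] at this
      omega) 5 le_rfl
  refine ⟨g, hg, fun i => ?_⟩
  have := h i.val i.isLt
  simpa [i.isLt] using this

theorem gset8 :
    ({gs, gt, gu, gv, gw, gx1, gx2, gx3} : Set (Perm (Fin 12))) = gset gens 8 := by
  ext g
  simp only [gset, Set.mem_insert_iff, Set.mem_singleton_iff, Set.mem_ofPred_eq]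
  constructor
  · rintro (rfl | rfl | rfl | rfl | rfl | rfl | rfl | rfl)
    exacts [⟨3, by norm_num, rfl⟩, ⟨4, by norm_num, rfl⟩, ⟨0, by norm_num, rfl⟩,
      ⟨1, by norm_num, rfl⟩, ⟨2, by norm_num, rfl⟩, ⟨5, by norm_num, rfl⟩,
      ⟨6, by norm_num, rfl⟩, ⟨7, by norm_num, rfl⟩]
  · rintro ⟨j, hj, rfl⟩
    interval_cases j
    · exact Or.inr (Or.inr (Or.inl rfl))
    · exact Or.inr (Or.inr (Or.inr (Or.inl rfl)))
    · exact Or.inr (Or.inr (Or.inr (Or.inr (Or.inl rfl))))
    · exact Or.inl rfl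
    · exact Or.inr (Or.inl rfl)
    · exact Or.inr (Or.inr (Or.inr (Or.inr (Or.inr (Or.inl rfl)))))
    · exact Or.inr (Or.inr (Or.inr (Or.inr (Or.inr (Or.inr (Or.inl rfl))))))
    · exact Or.inr (Or.inr (Or.inr (Or.inr (Or.inr (Or.inr (Or.inr rfl))))))

theorem gset7 :
    ({gs, gt, gu, gv, gw, gx1, gx2} : Set (Perm (Fin 12))) = gset gens 7 := by
  ext g
  simp only [gset, Set.mem_insert_iff, Set.mem_singleton_iff, Set.mem_ofPred_eq]
  constructor
  · rintro (rfl | rfl | rfl | rfl | rfl | rfl | rfl)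
    exacts [⟨3, by norm_num, rfl⟩, ⟨4, by norm_num, rfl⟩, ⟨0, by norm_num, rfl⟩,
      ⟨1, by norm_num, rfl⟩, ⟨2, by norm_num, rfl⟩, ⟨5, by norm_num, rfl⟩,
      ⟨6, by norm_num, rfl⟩]
  · rintro ⟨j, hj, rfl⟩
    interval_cases j
    · exact Or.inr (Or.inr (Or.inl rfl))
    · exact Or.inr (Or.inr (Or.inr (Or.inl rfl)))
    · exact Or.inr (Or.inr (Or.inr (Or.inr (Or.inl rfl))))
    · exact Or.inl rfl
    · exact Or.inr (Or.inl rfl)
    · exact Or.inr (Or.inr (Or.inr (Or.inr (Or.inr (Or.inl rfl)))))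
    · exact Or.inr (Or.inr (Or.inr (Or.inr (Or.inr (Or.inr rfl)))))


/-- An explicit construction of the Mathieu groups of degrees 11 and 12. On the points 0, …, 11 let s = (3 4 5)(6 7 8)(9 10 11), t = (3 6 9)(4 7 10)(5 8 11), u = (4 6 5 9)(7 8 11 10), v = (4 7 5 11)(6 10 9 8), w = (4 10 5 8)(6 11 9 7), x₁ = (0 3)(6 7)(8 10)(9 11), x₂ = (0 1)(6 9)(7 10)(8 11), x₃ = (1 2)(6 11)(7 9)(8 10) (each written as a product of transpositions). Then the group M₁₂ generated by all eight permutations is sharply 5-transitive on the 12 points and has order 95040, and the group M₁₁ generated by the first seven has order 7920 and is the stabilizer of the point 2 in M₁₂. -/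
theorem result
    (s t u v w x₁ x₂ x₃ : Equiv.Perm (Fin 12))
    (hs : s = Equiv.swap (3 : Fin 12) 5 * Equiv.swap (3 : Fin 12) 4 * Equiv.swap (6 : Fin 12) 8 * Equiv.swap (6 : Fin 12) 7 * Equiv.swap (9 : Fin 12) 11 * Equiv.swap (9 : Fin 12) 10) (ht : t = Equiv.swap (3 : Fin 12) 9 * Equiv.swap (3 : Fin 12) 6 * Equiv.swap (4 : Fin 12) 10 * Equiv.swap (4 : Fin 12) 7 * Equiv.swap (5 : Fin 12) 11 * Equiv.swap (5 : Fin 12) 8)
    (hu : u = Equiv.swap (4 : Fin 12) 9 * Equiv.swap (4 : Fin 12) 5 * Equiv.swap (4 : Fin 12) 6 * Equiv.swap (7 : Fin 12) 10 * Equiv.swap (7 : Fin 12) 11 * Equiv.swap (7 : Fin 12) 8) (hv : v = Equiv.swap (4 : Fin 12) 11 * Equiv.swap (4 : Fin 12) 5 * Equiv.swap (4 : Fin 12) 7 * Equiv.swap (6 : Fin 12) 8 * Equiv.swap (6 : Fin 12) 9 * Equiv.swap (6 : Fin 12) 10) (hw : w = Equiv.swap (4 : Fin 12) 8 * Equiv.swap (4 : Fin 12) 5 * Equiv.swap (4 : Fin 12) 10 * Equiv.swap (6 : Fin 12) 7 * Equiv.swap (6 : Fin 12) 9 * Equiv.swap (6 : Fin 12)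 11)
    (hx₁ : x₁ = Equiv.swap (0 : Fin 12) 3 * Equiv.swap (6 : Fin 12) 7 * Equiv.swap (8 : Fin 12) 10 * Equiv.swap (9 : Fin 12) 11) (hx₂ : x₂ = Equiv.swap (0 : Fin 12) 1 * Equiv.swap (6 : Fin 12) 9 * Equiv.swap (7 : Fin 12) 10 * Equiv.swap (8 : Fin 12) 11)
    (hx₃ : x₃ = Equiv.swap (1 : Fin 12) 2 * Equiv.swap (6 : Fin 12) 11 * Equiv.swap (7 : Fin 12) 9 * Equiv.swap (8 : Fin 12) 10)
    (M₁₂ M₁₁ : Subgroup (Equiv.Perm (Fin 12))) (hM₁₂ : M₁₂ = Subgroup.closure {s, t, u, v, w, x₁, x₂, x₃})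
    (hM₁₁ : M₁₁ = Subgroup.closure {s, t, u, v, w, x₁, x₂}) :
    MulAction.IsMultiplyPretransitive M₁₂ (Fin 12) 5 ∧ (∀ y : Fin 5 ↪ Fin 12, MulAction.stabilizer M₁₂ y = ⊥) ∧
    Nat.card M₁₂ = 95040 ∧ Nat.card M₁₁ = 7920 ∧
    M₁₁ = M₁₂ ⊓ MulAction.stabilizer (Equiv.Perm (Fin 12)) (2 : Fin 12) := by
  have e12 : M₁₂ = GG 0 := by
    rw [hM₁₂, hs, ht, hu, hv, hw, hx₁, hx₂, hx₃]
    exact congrArg Subgroup.closure gset8
  have e11 : M₁₁ = GG 1 := by
    rw [hM₁₁, hs, ht, hu, hv, hw, hx₁, hx₂]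
    exact congrArg Subgroup.closure gset7
  subst e12 e11
  refine ⟨?_, ?_, card_GG0, card_GG1, ?_⟩
  · refine ⟨fun y y' => ?_⟩
    obtain ⟨g, hg, h⟩ := base_map y
    obtain ⟨g', hg', h'⟩ := base_map y'
    refine ⟨⟨g'⁻¹ * g, mul_mem (inv_mem hg') hg⟩, ?_⟩
    refine Function.Embedding.ext fun i => ?_
    simp only [Function.Embedding.smul_apply, Subgroup.mk_smul, Perm.smul_def, Perm.mul_apply]
    rw [Perm.inv_eq_iff_eq, h i, h' i]
  · intro y
    rw [Subgroup.eq_bot_iff_forall]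
    rintro ⟨m, hm⟩ hmy
    rw [MulAction.mem_stabilizer_iff] at hmy
    obtain ⟨g, hg, h⟩ := base_map y
    have hfixy : ∀ i : Fin 5, m (y i) = y i := by
      intro i
      have := congrArg (fun e : Fin 5 ↪ Fin 12 => e i) hmy
      simpa [Function.Embedding.smul_apply, Subgroup.mk_smul, Perm.smul_def] using this
    have hc : g * m * g⁻¹ ∈ GG 5 := by
      apply mem_of_fix GG bb 5 GG_stab _ (mul_mem (mul_mem hg hm) (inv_mem hg))
      intro i hi
      have h1 := h ⟨i, hi⟩
      simp only [Perm.mul_apply]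
      have e : g⁻¹ (g (y ⟨i, hi⟩)) = y ⟨i, hi⟩ := by rw [Perm.inv_eq_iff_eq]
      rw [← h1, e, hfixy]
    rw [GG_bot 0, Subgroup.mem_bot] at hc
    have hm1 : m = 1 := by
      have := congrArg (fun x => g⁻¹ * x * g) hc
      simpa [mul_assoc] using this
    exact Subtype.ext hm1
  · apply le_antisymm
    · intro g hg
      rw [Subgroup.mem_inf, MulAction.mem_stabilizer_iff, Perm.smul_def]
      exact ⟨GG_anti 0 hg, GG_fix 0 g hg⟩
    · intro g hg
      rw [Subgroup.mem_inf, MulAction.mem_stabilizer_iff, Perm.smul_def] at hg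
      exact GG_stab 0 (by norm_num) g hg.1 hg.2

end Cfsg.Agent.S3362
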