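import Cfsg.Statements.S3375

set_option autoImplicit false
open Cfsg

namespace Cfsg.Agent.S3375

/-- Let γ be an automorphism of order 2 of a finite group H. (i) If γ fixes only the identity, then H is abelian and γ inverts every element. (ii) If γ has exactly two fixed points and H has a subgroup of index 2, then H has a γ-invariant abelian subgroup of index 2 on which γ acts by inversion. -/
theorem result {H : Type*} [Group H] [Finite H] (γ : MulAut H) (hγ : orderOf γ = 2) :
    ((∀ h : H, γ h = h → h = 1) → (∀ a b : H, a * b = b * a) ∧ ∀ h : H, γ h = h⁻¹) ∧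
    ((Nat.card {h : H // γ h = h} = 2 ∧ ∃ M : Subgroup H, M.index = 2) →
      ∃ A : Subgroup H, A.index = 2 ∧ IsMulCommutative A ∧ (∀ a ∈ A, γ a ∈ A) ∧ ∀ a ∈ A, γ a = a⁻¹) := by
  classical
  have hγ2 : ∀ h : H, γ (γ h) = h := by
    intro h
    have h1 : γ ^ 2 = 1 := by rw [← hγ]; exact pow_orderOf_eq_one γ
    have h2 : (γ ^ 2) h = h := by rw [h1]; rfl
    simpa [pow_two] using h2
  -- the map f h = h⁻¹ * γ h
  have hfinv : ∀ h : H, γ (h⁻¹ * γ h) = (h⁻¹ * γ h)⁻¹ := by
    intro h
    simp [hγ2]
  -- fibres
  have hfib : ∀ h k : H, h⁻¹ * γ h = k⁻¹ * γ k → γ (k * h⁻¹) = k * h⁻¹ := by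
    intro h k hk
    have h1 : γ k = k * (h⁻¹ * γ h) := by rw [hk]; simp
    simp [h1, mul_assoc]
  -- inverted by an automorphism implies commuting
  have hcomm : ∀ a b : H, γ a = a⁻¹ → γ b = b⁻¹ → γ (a * b) = (a * b)⁻¹ → a * b = b * a := by
    intro a b ha hb hab
    rw [map_mul, ha, hb, mul_inv_rev] at hab
    have : (a * b)⁻¹ = (b * a)⁻¹ := by simp [hab]
    exact inv_injective this
  refine ⟨?_, ?_⟩
  · intro hfpf
    have hinj : Function.Injective (fun h : H => h⁻¹ * γ h) := by
      intro h k hk
      have h1 := hfpf _ (hfib h k hk)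
      exact (mul_inv_eq_one.mp h1).symm
    have hsurj : Function.Surjective (fun h : H => h⁻¹ * γ h) := Finite.injective_iff_surjective.mp hinj
    have hinvall : ∀ h : H, γ h = h⁻¹ := by
      intro g
      obtain ⟨h, rfl⟩ := hsurj g
      exact hfinv h
    exact ⟨fun a b => hcomm a b (hinvall a) (hinvall b) (hinvall _), hinvall⟩
  · rintro ⟨hcard, M, hM⟩
    -- an index two subgroup containing all h⁻¹ * γ h
    have hex : ∃ A : Subgroup H, A.index = 2 ∧ ∀ h : H, h⁻¹ * γ h ∈ A := by
      by_cases hP : ∀ h : H, h ∈ M ↔ γ h ∈ M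
      · refine ⟨M, hM, fun h => ?_⟩
        rw [Subgroup.mul_mem_iff_of_index_two hM, inv_mem_iff]
        exact hP h
      · push Not at hP
        obtain ⟨h₀, hh₀⟩ := hP
        let N : Subgroup H :=
          { carrier := {h | h ∈ M ↔ γ h ∈ M}
            one_mem' := by simp
            mul_mem' := by
              intro a b ha hb
              simp only [Set.mem_ofPred_eq] at ha hb ⊢
              rw [map_mul, Subgroup.mul_mem_iff_of_index_two hM, Subgroup.mul_mem_iff_of_index_two hM, ha, hb]
            inv_mem' := by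
              intro a ha
              simp only [Set.mem_ofPred_eq] at ha ⊢
              rw [map_inv, inv_mem_iff, inv_mem_iff, ha] }
        have hN : ∀ h : H, h ∈ N ↔ (h ∈ M ↔ γ h ∈ M) := fun h => Iff.rfl
        refine ⟨N, ?_, fun h => ?_⟩
        · rw [Subgroup.index_eq_two_iff]
          refine ⟨h₀, fun b => ?_⟩
          rw [hN, hN, map_mul, Subgroup.mul_mem_iff_of_index_two hM, Subgroup.mul_mem_iff_of_index_two hM]
          by_cases h1 : h₀ ∈ M <;> by_cases h2 : γ h₀ ∈ M <;> by_cases h3 : b ∈ M <;> by_cases h4 : γ b ∈ M <;>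
            simp_all [Xor]
        · rw [hN, map_mul, map_inv, hγ2, Subgroup.mul_mem_iff_of_index_two hM, Subgroup.mul_mem_iff_of_index_two hM,
            inv_mem_iff, inv_mem_iff]
          tauto
    obtain ⟨A, hA2, hfA⟩ := hex
    -- counting
    haveI : Fintype H := Fintype.ofFinite H
    have hfibcard : ∀ a ∈ (Finset.univ : Finset H).image (fun h : H => h⁻¹ * γ h),
        ((Finset.univ : Finset H).filter (fun x => x⁻¹ * γ x = a)).card ≤ 2 := by
      intro a ha
      obtain ⟨h, -, rfl⟩ := Finset.mem_image.mp ha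
      rw [← hcard, ← Nat.card_eq_finsetCard]
      let g : {x // x ∈ (Finset.univ : Finset H).filter (fun x => x⁻¹ * γ x = h⁻¹ * γ h)} → {c : H // γ c = c} :=
        fun k => ⟨k.1 * h⁻¹, hfib h k.1 ((Finset.mem_filter.mp k.2).2).symm⟩
      have hg : Function.Injective g := by
        intro k₁ k₂ hk
        have := congrArg Subtype.val hk
        simp only [g] at this
        exact Subtype.ext (mul_right_cancel this)
      exact Nat.card_le_card_of_injective g hg
    have hle := Finset.card_le_mul_card_image (Finset.univ : Finset H) 2 hfibcard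
    have hAcard : Nat.card A * 2 = Nat.card H := by
      rw [← hA2]; exact Subgroup.card_mul_index A
    have himg_sub : (Finset.univ : Finset H).image (fun h : H => h⁻¹ * γ h) ⊆ (Finset.univ : Finset H).filter (· ∈ A) := by
      intro a ha
      obtain ⟨h, -, rfl⟩ := Finset.mem_image.mp ha
      simp [hfA h]
    have hAfin : ((Finset.univ : Finset H).filter (· ∈ A)).card = Nat.card A := by
      rw [← Nat.card_eq_finsetCard]
      apply Nat.card_congr
      exact Equiv.subtypeEquivRight (fun x => by simp)
    have hHcard : (Finset.univ : Finset H).card = Nat.card H := by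
      rw [Finset.card_univ, Nat.card_eq_fintype_card]
    have himg_eq : (Finset.univ : Finset H).image (fun h : H => h⁻¹ * γ h) = (Finset.univ : Finset H).filter (· ∈ A) := by
      apply Finset.eq_of_subset_of_card_le himg_sub
      rw [hAfin]
      omega
    have hAinv : ∀ a ∈ A, γ a = a⁻¹ := by
      intro a ha
      have : a ∈ (Finset.univ : Finset H).filter (· ∈ A) := by simp [ha]
      rw [← himg_eq] at this
      obtain ⟨h, -, rfl⟩ := Finset.mem_image.mp this
      exact hfinv h
    refine ⟨A, hA2, ?_, ?_, hAinv⟩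
    · constructor
      constructor
      rintro ⟨a, ha⟩ ⟨b, hb⟩
      apply Subtype.ext
      exact hcomm a b (hAinv a ha) (hAinv b hb) (hAinv _ (A.mul_mem ha hb))
    · intro a ha
      rw [hAinv a ha]
      exact A.inv_mem ha

end Cfsg.Agent.S3375
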