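import Mathlib
import Cfsg.Statements.S3379

set_option autoImplicit false
open Cfsg

namespace Cfsg.Agent.S3379

/-- Let G be a finite group all of whose Sylow subgroups are cyclic. Then G is generated by two elements x and y of coprime orders n and m with x⁻¹yx = y^r, where gcd(r − 1, m) = 1 and r^n ≡ 1 (mod m). -/
theorem result {G : Type*} [Group G] [Finite G]
    (hZ : ∀ (p : ℕ) [Fact p.Prime] (P : Sylow p G), IsCyclic (P : Subgroup G)) :
    ∃ (x y : G) (n m r : ℕ), Subgroup.closure {x, y} = ⊤ ∧ orderOf x = n ∧ orderOf y = m ∧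
      x⁻¹ * y * x = y ^ r ∧ Nat.Coprime (r - 1) m ∧ Nat.Coprime n m ∧ 1 ≤ r ∧ r ^ n % m = 1 % m := by
  classical
  have : IsZGroup G := ⟨fun p hp P => by have := Fact.mk hp; exact hZ p P⟩
  have hNcyc : IsCyclic (commutator G) := IsZGroup.isCyclic_commutator G
  have hcop := IsZGroup.coprime_commutator_index G
  obtain ⟨H, hH⟩ := Subgroup.exists_right_complement'_of_coprime hcop
  have h1 : Abelianization G ≃* H := hH.symm.QuotientMulEquiv
  have hHcyc : IsCyclic H := isCyclic_of_surjective _ h1.surjective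
  obtain ⟨⟨y, hyN⟩, hy⟩ := hNcyc.exists_generator
  obtain ⟨⟨x, hxH⟩, hx⟩ := hHcyc.exists_generator
  have hN : commutator G = Subgroup.zpowers y := by
    apply le_antisymm
    · intro u hu
      obtain ⟨k, hk⟩ := Subgroup.mem_zpowers_iff.mp (hy ⟨u, hu⟩)
      refine Subgroup.mem_zpowers_iff.mpr ⟨k, ?_⟩
      have := congrArg Subtype.val hk
      simpa using this
    · rw [Subgroup.zpowers_le]; exact hyN
  have hHx : H = Subgroup.zpowers x := by
    apply le_antisymm
    · intro u hu
      obtain ⟨k, hk⟩ := Subgroup.mem_zpowers_iff.mp (hx ⟨u, hu⟩)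
      refine Subgroup.mem_zpowers_iff.mpr ⟨k, ?_⟩
      have := congrArg Subtype.val hk
      simpa using this
    · rw [Subgroup.zpowers_le]; exact hxH
  have hm : Nat.card (commutator G) = orderOf y := by rw [hN, Nat.card_zpowers]
  have hn : Nat.card H = orderOf x := by rw [hHx, Nat.card_zpowers]
  have hmpos : 0 < orderOf y := orderOf_pos y
  -- every conjugate of y is a power of y
  have hconj : ∀ g : G, ∃ k : ℤ, g * y * g⁻¹ = y ^ k := by
    intro g
    have h2 : g * y * g⁻¹ ∈ commutator G := (inferInstance : (commutator G).Normal).conj_mem y hyN g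
    rw [hN] at h2
    obtain ⟨k, hk⟩ := Subgroup.mem_zpowers_iff.mp h2
    exact ⟨k, hk.symm⟩
  obtain ⟨k, hk⟩ := hconj x⁻¹
  rw [inv_inv] at hk
  set m := orderOf y with hmdef
  set r : ℕ := (k % (m : ℤ)).toNat + m with hr
  have hkmod : 0 ≤ k % (m : ℤ) := Int.emod_nonneg _ (by exact_mod_cast hmpos.ne')
  have hyr : x⁻¹ * y * x = y ^ r := by
    rw [hk, hr, pow_add, pow_orderOf_eq_one, mul_one, ← zpow_natCast, Int.toNat_of_nonneg hkmod,
      zpow_mod_orderOf]
  have hr1 : 1 ≤ r := by omega
  -- closure
  have hclos : Subgroup.closure {x, y} = ⊤ := by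
    have h3 : Subgroup.closure ({x, y} : Set G) = Subgroup.zpowers x ⊔ Subgroup.zpowers y := by
      rw [Set.insert_eq, Subgroup.closure_union, Subgroup.zpowers_eq_closure, Subgroup.zpowers_eq_closure]
    rw [h3, ← hN, ← hHx, sup_comm]
    exact hH.sup_eq_top
  -- coprimality of orders
  have hcop' : Nat.Coprime (orderOf x) m := by
    have h4 : (commutator G).index = Nat.card H := hH.symm.index_eq_card
    rw [h4, hm, hn] at hcop
    exact hcop.symm
  -- r ^ n ≡ 1 mod m
  have hpowconj : ∀ j : ℕ, (x ^ j)⁻¹ * y * x ^ j = y ^ (r ^ j) := by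
    intro j
    induction j with
    | zero => simp
    | succ j ih =>
      have : (x ^ (j + 1))⁻¹ * y * x ^ (j + 1) = x⁻¹ * ((x ^ j)⁻¹ * y * x ^ j) * x := by
        rw [pow_succ]; simp [mul_assoc]
      rw [this, ih]
      have h5 : x⁻¹ * y ^ (r ^ j) * x = (x⁻¹ * y * x) ^ (r ^ j) := by
        have := map_pow (MulAut.conj x⁻¹) y (r ^ j)
        simpa [MulAut.conj_apply] using this
      rw [h5, hyr, ← pow_mul, pow_succ, mul_comm]
  have hrn : r ^ orderOf x % m = 1 % m := by
    have h6 := hpowconj (orderOf x)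
    rw [pow_orderOf_eq_one] at h6
    simp only [inv_one, one_mul, mul_one] at h6
    have h7 : y ^ (r ^ orderOf x) = y ^ 1 := by rw [← h6, pow_one]
    exact (pow_eq_pow_iff_modEq.mp h7)
  -- gcd (r - 1, m) = 1
  have hcop2 : Nat.Coprime (r - 1) m := by
    set M : Subgroup G := Subgroup.zpowers (y ^ (r - 1)) with hM
    have hMn : M.Normal := by
      constructor
      intro u hu g
      obtain ⟨j, rfl⟩ := Subgroup.mem_zpowers_iff.mp hu
      obtain ⟨k', hk'⟩ := hconj g
      have h8 : g * (y ^ (r - 1)) ^ j * g⁻¹ = ((g * y * g⁻¹) ^ (r - 1)) ^ j := by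
        have e1 := map_zpow (MulAut.conj g) (y ^ (r - 1)) j
        have e2 := map_pow (MulAut.conj g) y (r - 1)
        simp only [MulAut.conj_apply] at e1 e2
        rw [e1, e2]
      rw [h8, hk']
      refine Subgroup.mem_zpowers_iff.mpr ⟨k' * j, ?_⟩
      rw [← zpow_natCast, ← zpow_natCast, ← zpow_mul, ← zpow_mul, ← zpow_mul]
      congr 1
      ring
    have hQ : IsMulCommutative (G ⧸ M) := by
      have hgen : Subgroup.closure ({(QuotientGroup.mk' M x), (QuotientGroup.mk' M y)} : Set (G ⧸ M)) = ⊤ := by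
        have h9 : ({(QuotientGroup.mk' M x), (QuotientGroup.mk' M y)} : Set (G ⧸ M)) = (QuotientGroup.mk' M) '' {x, y} := by
          rw [Set.image_pair]
        rw [h9, ← MonoidHom.map_closure, hclos, ← MonoidHom.range_eq_map, MonoidHom.range_eq_top]
        exact QuotientGroup.mk'_surjective M
      have hxy : (QuotientGroup.mk' M x) * (QuotientGroup.mk' M y) = (QuotientGroup.mk' M y) * (QuotientGroup.mk' M x) := by
        rw [← map_mul, ← map_mul]
        apply (QuotientGroup.eq).mpr
        -- (x * y)⁻¹ * (y * x) ∈ M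
        have h10 : (x * y)⁻¹ * (y * x) = (y ^ (r - 1)) := by
          have : (x * y)⁻¹ * (y * x) = y⁻¹ * (x⁻¹ * y * x) := by simp [mul_assoc]
          rw [this, hyr]
          have : r = (r - 1) + 1 := by omega
          conv_lhs => rw [this, pow_succ']
          simp
        rw [h10]
        exact Subgroup.mem_zpowers _
      have hcl : IsMulCommutative (Subgroup.closure ({(QuotientGroup.mk' M x), (QuotientGroup.mk' M y)} : Set (G ⧸ M))) := by
        apply Subgroup.isMulCommutative_closure
        intro a ha b hb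
        rcases ha with rfl | ha <;> rcases hb with rfl | hb
        · rfl
        · rw [Set.mem_singleton_iff] at hb; subst hb; exact hxy
        · rw [Set.mem_singleton_iff] at ha; subst ha; exact hxy.symm
        · rw [Set.mem_singleton_iff] at ha hb; subst ha; subst hb; rfl
      rw [hgen] at hcl
      constructor
      constructor
      intro a b
      exact setLike_mul_comm (s := (⊤ : Subgroup (G ⧸ M))) (Subgroup.mem_top a) (Subgroup.mem_top b)
    have hle : commutator G ≤ M := Subgroup.Normal.quotient_commutative_iff_commutator_le.mp hQ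
    have hyM : y ∈ M := hle hyN
    -- orders
    have hMle : M ≤ Subgroup.zpowers y := by
      rw [hM, Subgroup.zpowers_le]
      exact Subgroup.pow_mem _ (Subgroup.mem_zpowers y) _
    have hMeq : M = Subgroup.zpowers y := le_antisymm hMle (by rw [Subgroup.zpowers_le]; exact hyM)
    have hord : orderOf (y ^ (r - 1)) = orderOf y := by
      rw [← Nat.card_zpowers, ← hM, hMeq, Nat.card_zpowers]
    rw [orderOf_pow] at hord
    have hg : Nat.gcd m (r - 1) = 1 := by
      have hgpos : 0 < Nat.gcd m (r - 1) := Nat.gcd_pos_of_pos_left _ hmpos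
      have hdvd : Nat.gcd m (r - 1) ∣ m := Nat.gcd_dvd_left _ _
      have := Nat.div_eq_self.mp hord
      rcases this with h | h
      · omega
      · exact h
    exact (Nat.coprime_comm).mp hg
  exact ⟨x, y, orderOf x, m, r, hclos, rfl, rfl, hyr, hcop2, hcop', hr1, hrn⟩

end Cfsg.Agent.S3379
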