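import Mathlib
import Cfsg.Statements.S3381

set_option autoImplicit false
open Cfsg

namespace Cfsg.Agent.S3381

section
variable (q : ℕ) [Fact q.Prime] {V : Type*} [AddCommGroup V] [Module (ZMod q) V]
  {G : Type*} [Group G] (ρ : G →* (V ≃ₗ[ZMod q] V))

/-- The fixed space of `g`. -/
def fixSub (g : G) : Submodule (ZMod q) V where
  carrier := {v | ρ g v = v}
  add_mem' := by
    intro a b ha hb
    simp only [Set.mem_ofPred_eq] at ha hb ⊢
    rw [map_add, ha, hb]
  zero_mem' := map_zero _
  smul_mem' := by
    intro c v hv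
    simp only [Set.mem_ofPred_eq] at hv ⊢
    rw [map_smul, hv]

theorem mem_fixSub {g : G} {v : V} : v ∈ fixSub q ρ g ↔ ρ g v = v := Iff.rfl

variable {q} {ρ}

theorem rho_mul (a b : G) (v : V) : ρ (a * b) v = ρ a (ρ b v) := by
  rw [map_mul]; rfl

theorem rho_one (v : V) : ρ 1 v = v := by
  rw [map_one]; rfl

/-- Two non-identity elements fixing the same non-zero vector are equal. -/
theorem stab_unique (hstab : ∀ v : V, v ≠ 0 → Nat.card {g : G // ρ g v = v} = 2)
    (v : V) (hv : v ≠ 0) (g h : G) (hg : ρ g v = v) (hh : ρ h v = v) (hg1 : g ≠ 1) (hh1 : h ≠ 1) :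
    g = h := by
  obtain ⟨x, y, hxy, huniv⟩ := Nat.card_eq_two_iff.mp (hstab v hv)
  have mem : ∀ a : {g : G // ρ g v = v}, a = x ∨ a = y := by
    intro a
    have : a ∈ ({x, y} : Set {g : G // ρ g v = v}) := by rw [huniv]; trivial
    simpa using this
  have h1 := mem ⟨1, rho_one v⟩
  have h2 := mem ⟨g, hg⟩
  have h3 := mem ⟨h, hh⟩
  have hg1' : (⟨g, hg⟩ : {g : G // ρ g v = v}) ≠ ⟨1, rho_one v⟩ := fun e => hg1 (congrArg Subtype.val e)
  have hh1' : (⟨h, hh⟩ : {g : G // ρ g v = v}) ≠ ⟨1, rho_one v⟩ := fun e => hh1 (congrArg Subtype.val e)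
  have : (⟨g, hg⟩ : {g : G // ρ g v = v}) = ⟨h, hh⟩ := by
    rcases h1 with h1 | h1 <;> rcases h2 with h2 | h2 <;> rcases h3 with h3 | h3
    · exact absurd (h2.trans h1.symm) hg1'
    · exact absurd (h2.trans h1.symm) hg1'
    · exact absurd (h3.trans h1.symm) hh1'
    · exact h2.trans h3.symm
    · exact h2.trans h3.symm
    · exact absurd (h3.trans h1.symm) hh1'
    · exact absurd (h2.trans h1.symm) hg1'
    · exact absurd (h2.trans h1.symm) hg1'
  exact congrArg Subtype.val this

/-- Every non-zero vector is fixed by a non-identity element. -/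
theorem stab_exists (hstab : ∀ v : V, v ≠ 0 → Nat.card {g : G // ρ g v = v} = 2)
    (v : V) (hv : v ≠ 0) : ∃ t : G, t ≠ 1 ∧ ρ t v = v := by
  obtain ⟨x, y, hxy, -⟩ := Nat.card_eq_two_iff.mp (hstab v hv)
  by_cases hx : x.1 = 1
  · refine ⟨y.1, ?_, y.2⟩
    intro hy
    exact hxy (Subtype.ext (hx.trans hy.symm))
  · exact ⟨x.1, hx, x.2⟩

/-- A non-identity element fixing a non-zero vector is an involution. -/
theorem stab_sq (hstab : ∀ v : V, v ≠ 0 → Nat.card {g : G // ρ g v = v} = 2)
    (v : V) (hv : v ≠ 0) (t : G) (ht1 : t ≠ 1) (ht : ρ t v = v) : t * t = 1 := by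
  by_contra hne
  have h2 : ρ (t * t) v = v := by rw [rho_mul, ht, ht]
  have := stab_unique hstab v hv (t * t) t h2 ht hne ht1
  exact ht1 (mul_eq_left.mp this)

/-- A central involution acts as `-1` or as `1` on each vector. -/
theorem central_dich (hstab : ∀ v : V, v ≠ 0 → Nat.card {g : G // ρ g v = v} = 2)
    (c : G) (hc1 : c ≠ 1) (hc2 : c * c = 1) (hcc : c ∈ Subgroup.center G) (w : V) :
    ρ c w = w ∨ ρ c w = -w := by
  by_cases hw : w = 0
  · left; rw [hw, map_zero]
  by_cases hu : ρ c w + w = 0
  · right; exact eq_neg_of_add_eq_zero_left hu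
  left
  obtain ⟨t, ht1, ht⟩ := stab_exists hstab w hw
  have hcu : ρ c (ρ c w + w) = ρ c w + w := by
    rw [map_add, ← rho_mul, hc2, rho_one, add_comm]
  have htu : ρ t (ρ c w + w) = ρ c w + w := by
    have hcomm : t * c = c * t := Subgroup.mem_center_iff.mp hcc t
    rw [map_add, ← rho_mul, hcomm, rho_mul, ht]
  have := stab_unique hstab _ hu t c htu hcu ht1 hc1
  rw [← this]; exact ht

/-- A central involution acts as `-1`. -/
theorem central_neg (hρ : Function.Injective ρ)
    (hstab : ∀ v : V, v ≠ 0 → Nat.card {g : G // ρ g v = v} = 2)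
    (c : G) (hc1 : c ≠ 1) (hc2 : c * c = 1) (hcc : c ∈ Subgroup.center G) (w : V) :
    ρ c w = -w := by
  have hex : ∃ w₁ : V, ρ c w₁ ≠ w₁ := by
    by_contra hall
    push Not at hall
    apply hc1
    apply hρ
    rw [map_one]
    ext v
    exact hall v
  obtain ⟨w₁, hw₁⟩ := hex
  have hw₁' : ρ c w₁ = -w₁ := (central_dich hstab c hc1 hc2 hcc w₁).resolve_left hw₁
  rcases central_dich hstab c hc1 hc2 hcc w with h | h
  · rcases central_dich hstab c hc1 hc2 hcc (w + w₁) with h' | h'
    · rw [map_add, h, hw₁'] at h'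
      have : -w₁ = w₁ := add_left_cancel h'
      exact absurd (hw₁'.trans this) hw₁
    · rw [map_add, h, hw₁', neg_add] at h'
      have : w = -w := add_right_cancel h'
      rw [h]; exact this
  · exact h

/-- In the presence of a central involution, no non-zero vector equals its negative. -/
theorem neg_ne_self (hρ : Function.Injective ρ)
    (hstab : ∀ v : V, v ≠ 0 → Nat.card {g : G // ρ g v = v} = 2)
    (c : G) (hc1 : c ≠ 1) (hc2 : c * c = 1) (hcc : c ∈ Subgroup.center G) :
    (2 : ZMod q) ≠ 0 := by
  intro h2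
  apply hc1
  apply hρ
  rw [map_one]
  ext v
  rw [central_neg hρ hstab c hc1 hc2 hcc v]
  have : (2 : ZMod q) • v = 0 := by rw [h2, zero_smul]
  rw [two_smul] at this
  have h3 : -v = v := neg_eq_of_add_eq_zero_left this
  rw [h3]; rfl

theorem eq_zero_of_eq_neg (h2 : (2 : ZMod q) ≠ 0) (v : V) (hv : v = -v) : v = 0 := by
  have h3 : (2 : ZMod q) • v = 0 := by
    rw [two_smul]
    nth_rewrite 2 [hv]
    exact add_neg_cancel v
  rcases smul_eq_zero.mp h3 with h | h
  · exact absurd h h2
  · exact h

/-- The fixed spaces of `t` and `t * c` are complementary. -/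
theorem isCompl_fix (hρ : Function.Injective ρ)
    (hstab : ∀ v : V, v ≠ 0 → Nat.card {g : G // ρ g v = v} = 2)
    (c : G) (hc1 : c ≠ 1) (hc2 : c * c = 1) (hcc : c ∈ Subgroup.center G)
    (t : G) (ht : t * t = 1) : IsCompl (fixSub q ρ t) (fixSub q ρ (t * c)) := by
  have h2 := neg_ne_self hρ hstab c hc1 hc2 hcc
  have hneg := central_neg hρ hstab c hc1 hc2 hcc
  have htt : ∀ v : V, ρ t (ρ t v) = v := fun v => by rw [← rho_mul, ht, rho_one]
  have hB : ∀ v : V, v ∈ fixSub q ρ (t * c) ↔ ρ t v = -v := by
    intro v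
    rw [mem_fixSub, rho_mul, hneg, map_neg]
    constructor
    · intro h; exact neg_eq_iff_eq_neg.mp h
    · intro h; rw [h, neg_neg]
  constructor
  · rw [Submodule.disjoint_def]
    intro v hvA hvB
    rw [mem_fixSub] at hvA
    rw [hB] at hvB
    exact eq_zero_of_eq_neg h2 v (hvA.symm.trans hvB)
  · rw [codisjoint_iff, eq_top_iff]
    intro v _
    have hv : v = (2 : ZMod q)⁻¹ • (v + ρ t v) + (2 : ZMod q)⁻¹ • (v - ρ t v) := by
      rw [← smul_add]
      have : v + ρ t v + (v - ρ t v) = (2 : ZMod q) • v := by rw [two_smul]; abel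
      rw [this, smul_smul, inv_mul_cancel₀ h2, one_smul]
    rw [hv]
    apply Submodule.add_mem_sup
    · apply Submodule.smul_mem
      rw [mem_fixSub, map_add, htt, add_comm]
    · apply Submodule.smul_mem
      rw [hB, map_sub, htt, neg_sub]

end

/-- Let G be a finite group acting faithfully and linearly on a non-trivial finite vector space V over the field with q elements (q prime) so that every non-zero vector has a stabilizer of order 2, and suppose G has a central involution. Then V has q^(2r) elements for some r and G contains exactly q^r + 1 non-central involutions. -/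
theorem result
    (q : ℕ) [Fact q.Prime] {V : Type*} [AddCommGroup V] [Module (ZMod q) V] [Finite V] [Nontrivial V]
    {G : Type*} [Group G] [Finite G] (ρ : G →* (V ≃ₗ[ZMod q] V)) (hρ : Function.Injective ρ)
    (hstab : ∀ v : V, v ≠ 0 → Nat.card {g : G // ρ g v = v} = 2)
    (z : G) (hz : orderOf z = 2) (hzc : z ∈ Subgroup.center G) :
    ∃ r : ℕ, Nat.card V = q ^ (2 * r) ∧
      Nat.card {g : G // orderOf g = 2 ∧ g ∉ Subgroup.center G} = q ^ r + 1 := by
  classical
  have hz1 : z ≠ 1 := by
    intro h; rw [h, orderOf_one] at hz; omega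
  have hz2 : z * z = 1 := by
    have := pow_orderOf_eq_one z
    rwa [hz, pow_two] at this
  have h2 := neg_ne_self hρ hstab z hz1 hz2 hzc
  have hneg := central_neg hρ hstab z hz1 hz2 hzc
  have hcomm : ∀ g : G, g * z = z * g := fun g => Subgroup.mem_center_iff.mp hzc g
  -- the dimension function
  set d : G → ℕ := fun g => Module.finrank (ZMod q) (fixSub q ρ g) with hd
  set n := Module.finrank (ZMod q) V with hn
  have hcompl : ∀ t : G, t * t = 1 → d t + d (t * z) = n := fun t ht =>
    Submodule.finrank_add_eq_of_isCompl (isCompl_fix hρ hstab z hz1 hz2 hzc t ht)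
  -- non-identity elements fixing a non-zero vector
  have hI : ∀ (v : V) (t : G), v ≠ 0 → t ≠ 1 → ρ t v = v →
      t * t = 1 ∧ orderOf t = 2 ∧ t ∉ Subgroup.center G := by
    intro v t hv ht1 ht
    have hsq := stab_sq hstab v hv t ht1 ht
    refine ⟨hsq, orderOf_eq_prime (by rw [pow_two]; exact hsq) ht1, ?_⟩
    intro htc
    have := central_neg hρ hstab t ht1 hsq htc v
    rw [ht] at this
    exact hv (eq_zero_of_eq_neg h2 v this)
  -- distinct involutions have disjoint fixed spaces
  have hdisj : ∀ s t : G, s ≠ 1 → t ≠ 1 → s ≠ t → d s + d t ≤ n := by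
    intro s t hs ht hst
    apply Submodule.finrank_add_finrank_le_of_disjoint
    rw [Submodule.disjoint_def]
    intro v hvs hvt
    by_contra hv
    exact hst (stab_unique hstab v hv s t hvs hvt hs ht)
  -- key: dimension of the fixed space of a non-identity element fixing a non-zero vector
  have hhalf : ∀ (v : V) (t : G), v ≠ 0 → t ≠ 1 → ρ t v = v → 2 * d t = n := by
    intro v t hv ht1 ht
    obtain ⟨hsq, -, htc⟩ := hI v t hv ht1 ht
    have htz1 : t * z ≠ 1 := by
      intro h
      apply htc
      have : t = z := by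
        have h3 : t * z = z * z := h.trans hz2.symm
        exact mul_right_cancel h3
      rw [this]; exact hzc
    -- a non-zero vector fixed by t * z
    have hB : ∃ b : V, b ≠ 0 ∧ ρ (t * z) b = b := by
      by_contra hno
      push Not at hno
      have hbot : fixSub q ρ (t * z) = ⊥ := by
        rw [eq_bot_iff]
        intro b hb
        by_contra hb0
        exact hno b hb0 hb
      have h4 := hcompl t hsq
      have h5 : d (t * z) = 0 := by
        simp only [hd]
        rw [hbot]; exact finrank_bot _ _
      have h6 : fixSub q ρ t = ⊤ := by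
        apply Submodule.eq_top_of_finrank_eq
        have : d t = n := by omega
        exact this
      apply ht1
      apply hρ
      rw [map_one]
      ext w
      have : w ∈ fixSub q ρ t := by rw [h6]; trivial
      exact this
    obtain ⟨b, hb0, hb⟩ := hB
    have hvb : v + b ≠ 0 := by
      intro h
      -- v = -b is fixed by both t and t * z
      have hvb' : v = -b := eq_neg_of_add_eq_zero_left h
      have h7 : ρ (t * z) v = v := by rw [hvb', map_neg, hb]
      have h8 : ρ (t * z) v = -v := by rw [rho_mul, hneg, map_neg, ht]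
      exact hv (eq_zero_of_eq_neg h2 v (h7.symm.trans h8))
    obtain ⟨s, hs1, hs⟩ := stab_exists hstab (v + b) hvb
    obtain ⟨hssq, -, hsc⟩ := hI (v + b) s hvb hs1 hs
    have hst : s ≠ t := by
      intro h
      rw [h, map_add, ht] at hs
      have h9 : ρ t b = b := add_left_cancel hs
      have h10 : ρ (t * z) b = -b := by rw [rho_mul, hneg, map_neg, h9]
      exact hb0 (eq_zero_of_eq_neg h2 b (hb.symm.trans h10))
    have hstz : s ≠ t * z := by
      intro h
      rw [h, map_add, hb] at hs
      have h9 : ρ (t * z) v = v := add_right_cancel hs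
      have h10 : ρ (t * z) v = -v := by rw [rho_mul, hneg, map_neg, ht]
      exact hv (eq_zero_of_eq_neg h2 v (h9.symm.trans h10))
    have hsz1 : s * z ≠ 1 := by
      intro h
      apply hsc
      have : s = z := by
        have h3 : s * z = z * z := h.trans hz2.symm
        exact mul_right_cancel h3
      rw [this]; exact hzc
    have hszt : s * z ≠ t := by
      intro h
      apply hstz
      rw [← h, mul_assoc, hz2, mul_one]
    have hsztz : s * z ≠ t * z := fun h => hst (mul_right_cancel h)
    have e1 := hcompl t hsq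
    have e2 := hcompl s hssq
    have i1 := hdisj s t hs1 ht1 hst
    have i2 := hdisj s (t * z) hs1 htz1 hstz
    have i3 := hdisj (s * z) t hsz1 ht1 hszt
    have i4 := hdisj (s * z) (t * z) hsz1 htz1 hsztz
    omega
  -- fix one involution
  obtain ⟨v₀, hv₀⟩ := exists_ne (0 : V)
  obtain ⟨t₀, ht₀1, ht₀⟩ := stab_exists hstab v₀ hv₀
  have hn2 : 2 * d t₀ = n := hhalf v₀ t₀ hv₀ ht₀1 ht₀
  have hqcard : Nat.card (ZMod q) = q := Nat.card_zmod q
  have hVcard : Nat.card V = q ^ n := by
    rw [Module.natCard_eq_pow_finrank (K := ZMod q), hqcard]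
  have hFcard : ∀ g : G, Nat.card (fixSub q ρ g) = q ^ d g := by
    intro g
    rw [Module.natCard_eq_pow_finrank (K := ZMod q), hqcard]
  refine ⟨d t₀, ?_, ?_⟩
  · rw [hVcard, hn2]
  · -- counting
    let I := {g : G // orderOf g = 2 ∧ g ∉ Subgroup.center G}
    have hfinI : Finite I := inferInstance
    have : Fintype I := Fintype.ofFinite I
    let X : I → Type _ := fun t => {v : V // v ≠ 0 ∧ ρ t.1 v = v}
    have hchoose : ∀ v : {v : V // v ≠ 0}, ∃ t : G, t ≠ 1 ∧ ρ t v.1 = v.1 := fun v =>
      stab_exists hstab v.1 v.2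
    let e : {v : V // v ≠ 0} ≃ Sigma X :=
      { toFun := fun v => ⟨⟨Classical.choose (hchoose v),
            (hI v.1 _ v.2 (Classical.choose_spec (hchoose v)).1 (Classical.choose_spec (hchoose v)).2).2⟩,
            ⟨v.1, v.2, (Classical.choose_spec (hchoose v)).2⟩⟩
        invFun := fun p => ⟨p.2.1, p.2.2.1⟩
        left_inv := fun v => rfl
        right_inv := by
          rintro ⟨⟨t, ht⟩, ⟨v, hv0, hv⟩⟩
          have ht1 : t ≠ 1 := by
            intro h
            rw [h, orderOf_one] at ht
            omega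
          have heq : Classical.choose (hchoose ⟨v, hv0⟩) = t :=
            stab_unique hstab v hv0 _ t (Classical.choose_spec (hchoose ⟨v, hv0⟩)).2 hv
              (Classical.choose_spec (hchoose ⟨v, hv0⟩)).1 ht1
          simp only
          subst heq
          rfl }
    have hXcard : ∀ t : I, Nat.card (X t) = q ^ d t₀ - 1 := by
      intro t
      have ht1 : t.1 ≠ 1 := by
        intro h
        have := t.2.1
        rw [h, orderOf_one] at this
        omega
      -- the fixed space of t is non-zero
      have hdt : 2 * d t.1 = n := by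
        have htsq : t.1 * t.1 = 1 := by
          have := pow_orderOf_eq_one t.1
          rwa [t.2.1, pow_two] at this
        by_cases hex : ∃ v : V, v ≠ 0 ∧ ρ t.1 v = v
        · obtain ⟨v, hv0, hv⟩ := hex
          exact hhalf v t.1 hv0 ht1 hv
        · exfalso
          push Not at hex
          have hbot : fixSub q ρ t.1 = ⊥ := by
            rw [eq_bot_iff]
            intro b hb
            by_contra hb0
            exact hex b hb0 hb
          have h4 := hcompl t.1 htsq
          have h5 : d t.1 = 0 := by
            simp only [hd]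
            rw [hbot]; exact finrank_bot _ _
          have h6 : fixSub q ρ (t.1 * z) = ⊤ := by
            apply Submodule.eq_top_of_finrank_eq
            have : d (t.1 * z) = n := by omega
            exact this
          have h7 : t.1 * z = 1 := by
            apply hρ
            rw [map_one]
            ext w
            have : w ∈ fixSub q ρ (t.1 * z) := by rw [h6]; trivial
            exact this
          apply t.2.2
          have : t.1 = z := by
            have h3 : t.1 * z = z * z := h7.trans hz2.symm
            exact mul_right_cancel h3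
          rw [this]; exact hzc
      have hdd : d t.1 = d t₀ := by omega
      have e2 : X t ≃ {a : fixSub q ρ t.1 // a ≠ 0} :=
        { toFun := fun v => ⟨⟨v.1, v.2.2⟩, fun h => v.2.1 (congrArg Subtype.val h)⟩
          invFun := fun a => ⟨a.1.1, fun h => a.2 (Subtype.ext h), a.1.2⟩
          left_inv := fun v => rfl
          right_inv := fun a => rfl }
      rw [Nat.card_congr e2]
      have h8 : Nat.card {a : fixSub q ρ t.1 // a ≠ 0} = ({0}ᶜ : Set (fixSub q ρ t.1)).ncard := by
        rw [← Nat.card_coe_set_eq]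
        rfl
      rw [h8, Set.ncard_compl, Set.ncard_singleton, hFcard, hdd]
    have hVne : Nat.card {v : V // v ≠ 0} = q ^ n - 1 := by
      have h8 : Nat.card {v : V // v ≠ 0} = ({0}ᶜ : Set V).ncard := by
        rw [← Nat.card_coe_set_eq]
        rfl
      rw [h8, Set.ncard_compl, Set.ncard_singleton, hVcard]
    have hcount : q ^ n - 1 = Nat.card I * (q ^ d t₀ - 1) := by
      rw [← hVne, Nat.card_congr e, Nat.card_sigma]
      simp only [hXcard]
      rw [Finset.sum_const, Finset.card_univ, smul_eq_mul, Nat.card_eq_fintype_card]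
    -- arithmetic
    have hq : 2 ≤ q := (Fact.out : q.Prime).two_le
    have hdpos : 0 < d t₀ := by
      simp only [hd]
      rw [Module.finrank_pos_iff]
      exact ⟨⟨⟨v₀, ht₀⟩, 0, fun h => hv₀ (congrArg Subtype.val h)⟩⟩
    have hpow : 2 ≤ q ^ d t₀ := by
      calc 2 ≤ q := hq
        _ = q ^ 1 := (pow_one q).symm
        _ ≤ q ^ d t₀ := Nat.pow_le_pow_right (by omega) hdpos
    have hsq : q ^ n = q ^ d t₀ * q ^ d t₀ := by rw [← hn2, two_mul, pow_add]
    rw [hsq] at hcount
    set m := q ^ d t₀ with hm
    have h9 : m * m - 1 = (m + 1) * (m - 1) := by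
      have := Nat.sq_sub_sq m 1
      simpa [pow_two] using this
    rw [h9] at hcount
    have h10 : m - 1 ≠ 0 := by omega
    exact (Nat.eq_of_mul_eq_mul_right (Nat.pos_of_ne_zero h10) hcount).symm

end Cfsg.Agent.S3381
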