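import Mathlib
import Cfsg.Statements.S3382

set_option autoImplicit false
open Cfsg

namespace Cfsg.Agent.S3382

/-- An abstract criterion for every automorphism to have 2-power order. -/
theorem aut_pow_eq_one {T : Type*} [Group T] (D : Subgroup T) (u e : T) (m : ℕ)
    (hDcomm : ∀ x ∈ D, ∀ y ∈ D, x * y = y * x)
    (hDinv : ∀ φ : MulAut T, ∀ x ∈ D, φ x ∈ D)
    (hu : ∀ φ : MulAut T, φ u = u) (huD : u ∈ D) (hu2 : u * u = 1)
    (hΩ : ∀ x ∈ D, x * x = 1 → x = 1 ∨ x = u ∨ x = e ∨ x = u * e)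
    (hexp : ∀ x ∈ D, x ^ (2 ^ m) = 1)
    (hidx : ∀ w w' : T, w ∉ D → w' ∉ D → w * w' ∈ D)
    (φ : MulAut T) : φ ^ (2 ^ (2 * m + 1)) = 1 := by
  -- step 1: φ * φ fixes the involutions of D
  have h1 : ∀ x ∈ D, x * x = 1 → φ (φ x) = x := by
    intro x hx hx2
    have he : e ∈ D → e * e = 1 → φ (φ e) = e := by
      intro heD he2
      have h' := hΩ (φ e) (hDinv φ e heD) (by rw [← map_mul, he2, map_one])
      rcases h' with h' | h' | h' | h'
      · have h3 : e = 1 := by
          have h4 : (φ⁻¹ : MulAut T) (φ e) = (φ⁻¹ : MulAut T) 1 := by rw [h']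
          rwa [MulAut.inv_apply_self, map_one] at h4
        rw [h3, map_one, map_one]
      · have h3 : e = u := by
          have h4 : (φ⁻¹ : MulAut T) (φ e) = (φ⁻¹ : MulAut T) u := by rw [h']
          rwa [MulAut.inv_apply_self, hu] at h4
        rw [h3, hu, hu]
      · rw [h', h']
      · rw [h', map_mul, hu, h', ← mul_assoc, hu2, one_mul]
    rcases hΩ x hx hx2 with rfl | rfl | rfl | rfl
    · rw [map_one, map_one]
    · rw [hu, hu]
    · exact he hx hx2
    · have heD : e ∈ D := by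
        have h5 : e = u * (u * e) := by rw [← mul_assoc, hu2, one_mul]
        rw [h5]; exact D.mul_mem huD hx
      have he2 : e * e = 1 := by
        have hc := hDcomm u huD e heD
        have h6 : u * e * (u * e) = (u * u) * (e * e) := by
          rw [mul_assoc, ← mul_assoc e u e, ← hc, mul_assoc, mul_assoc]
        rw [h6, hu2, one_mul] at hx2
        exact hx2
      rw [map_mul, map_mul, hu, hu, he heD he2]
  -- step 2: lifting
  have h2 : ∀ j : ℕ, ∀ x ∈ D, x ^ (2 ^ (j + 1)) = 1 → (φ ^ (2 ^ (j + 1))) x = x := by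
    intro j
    induction j with
    | zero =>
      intro x hx hx2
      have h7 : x * x = 1 := by simpa [pow_two] using hx2
      have h8 : (φ ^ (2 ^ (0 + 1))) x = φ (φ x) := by
        simp [pow_two]
      rw [h8]; exact h1 x hx h7
    | succ j ih =>
      intro x hx hx2
      set ψ := φ ^ (2 ^ (j + 1)) with hψ
      have h9 : (x * x) ^ (2 ^ (j + 1)) = 1 := by
        rw [← pow_two, ← pow_mul, ← pow_succ']; exact hx2
      have h10 : ψ (x * x) = x * x := ih (x * x) (D.mul_mem hx hx) h9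
      rw [map_mul] at h10
      have hψx : ψ x ∈ D := hDinv ψ x hx
      set c := ψ x * x⁻¹ with hc
      have hcD : c ∈ D := D.mul_mem hψx (D.inv_mem hx)
      have hcx : ψ x = c * x := by rw [hc]; group
      have hcc : c * c = 1 := by
        have h11 : ψ x * x⁻¹ = x⁻¹ * ψ x := hDcomm _ hψx _ (D.inv_mem hx)
        calc c * c = ψ x * x⁻¹ * (ψ x * x⁻¹) := rfl
          _ = ψ x * x⁻¹ * (x⁻¹ * ψ x) := by rw [h11]
          _ = ψ x * (x⁻¹ * x⁻¹) * ψ x := by group
          _ = ψ x * ψ x * (x⁻¹ * x⁻¹) := by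
            rw [mul_assoc, hDcomm _ (D.mul_mem (D.inv_mem hx) (D.inv_mem hx)) _ hψx, ← mul_assoc]
          _ = x * x * (x⁻¹ * x⁻¹) := by rw [h10]
          _ = 1 := by group
      have hcpow : c ^ (2 ^ (j + 1)) = 1 := by
        rw [pow_succ', pow_mul, pow_two, hcc, one_pow]
      have hψc : ψ c = c := ih c hcD hcpow
      have h12 : φ ^ (2 ^ (j + 1 + 1)) = ψ * ψ := by
        rw [hψ, ← pow_add, ← two_mul, ← pow_succ']
      rw [h12, MulAut.mul_apply, hcx, map_mul, hψc, hcx, ← mul_assoc, hcc, one_mul]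
  -- step 3
  set θ := φ ^ (2 ^ (m + 1)) with hθ
  have h3 : ∀ x ∈ D, θ x = x := by
    intro x hx
    apply h2 m x hx
    rw [pow_succ, pow_mul, hexp x hx, one_pow]
  have h3' : ∀ (k : ℕ), ∀ x ∈ D, (θ ^ k) x = x := by
    intro k
    induction k with
    | zero => intro x _; simp
    | succ k ih =>
      intro x hx
      rw [pow_succ, MulAut.mul_apply, h3 x hx, ih x hx]
  -- step 4
  have h4 : ∀ w : T, w ∉ D → ∀ k : ℕ, (θ ^ k) w = w * (w⁻¹ * θ w) ^ k := by
    intro w hw
    have hθw : θ w ∉ D := by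
      intro h
      apply hw
      have h13 := hDinv θ⁻¹ _ h
      rwa [MulAut.inv_apply_self] at h13
    have hcD : w⁻¹ * θ w ∈ D := by
      have h14 : w * θ w ∈ D := hidx w (θ w) hw hθw
      have h15 : w * w ∈ D := hidx w w hw hw
      have h16 : w⁻¹ * θ w = (w * w)⁻¹ * (w * θ w) := by group
      rw [h16]; exact D.mul_mem (D.inv_mem h15) h14
    intro k
    induction k with
    | zero => simp
    | succ k ih =>
      rw [pow_succ', MulAut.mul_apply, ih, map_mul, map_pow, h3 _ hcD, pow_succ', ← mul_assoc w,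
        mul_inv_cancel_left]
  have h5 : θ ^ (2 ^ m) = 1 := by
    ext x
    by_cases hx : x ∈ D
    · rw [h3' _ x hx]; rfl
    · rw [h4 x hx]
      have hθx : θ x ∉ D := by
        intro h
        apply hx
        have h13 := hDinv θ⁻¹ _ h
        rwa [MulAut.inv_apply_self] at h13
      have hcD : x⁻¹ * θ x ∈ D := by
        have h14 : x * θ x ∈ D := hidx x (θ x) hx hθx
        have h15 : x * x ∈ D := hidx x x hx hx
        have h16 : x⁻¹ * θ x = (x * x)⁻¹ * (x * θ x) := by group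
        rw [h16]; exact D.mul_mem (D.inv_mem h15) h14
      rw [hexp _ hcD, mul_one]; rfl
  have h6 : φ ^ (2 ^ (2 * m + 1)) = θ ^ (2 ^ m) := by
    rw [hθ, ← pow_mul, ← pow_add]
    congr 2
    omega
  rw [h6, h5]


section concrete
variable {q : ℕ} [Fact q.Prime]

/-- Diagonal shape. -/
def IsD (f : (Fin 2 → ZMod q) ≃ₗ[ZMod q] (Fin 2 → ZMod q)) (a b : ZMod q) : Prop :=
  ∀ v, f v = ![a * v 0, b * v 1]

/-- Anti-diagonal shape. -/
def IsW (f : (Fin 2 → ZMod q) ≃ₗ[ZMod q] (Fin 2 → ZMod q)) (a b : ZMod q) : Prop :=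
  ∀ v, f v = ![b * v 1, a * v 0]

variable {f g : (Fin 2 → ZMod q) ≃ₗ[ZMod q] (Fin 2 → ZMod q)} {a b a' b' : ZMod q}

theorem isD_mul (hf : IsD f a b) (hg : IsD g a' b') : IsD (f * g) (a * a') (b * b') := by
  intro v
  rw [LinearEquiv.mul_apply, hg, hf]
  simp [mul_assoc]

theorem isW_mul_isW (hf : IsW f a b) (hg : IsW g a' b') : IsD (f * g) (b * a') (a * b') := by
  intro v
  rw [LinearEquiv.mul_apply, hg, hf]
  simp [mul_assoc]

theorem isD_mul_isW (hf : IsD f a b) (hg : IsW g a' b') : IsW (f * g) (b * a') (a * b') := by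
  intro v
  rw [LinearEquiv.mul_apply, hg, hf]
  simp [mul_assoc]

theorem isW_mul_isD (hf : IsW f a b) (hg : IsD g a' b') : IsW (f * g) (a * a') (b * b') := by
  intro v
  rw [LinearEquiv.mul_apply, hg, hf]
  simp [mul_assoc]

theorem isD_ext (hf : IsD f a b) (hg : IsD g a b) : f = g :=
  LinearEquiv.ext fun v => (hf v).trans (hg v).symm

theorem isW_ext (hf : IsW f a b) (hg : IsW g a b) : f = g :=
  LinearEquiv.ext fun v => (hf v).trans (hg v).symm

theorem isD_inj (hf : IsD f a b) (hg : IsD f a' b') : a = a' ∧ b = b' := by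
  have h := (hf ![1, 1]).symm.trans (hg ![1, 1])
  have h0 := congrFun h 0
  have h1 := congrFun h 1
  simp at h0 h1
  exact ⟨h0, h1⟩

theorem isW_inj (hf : IsW f a b) (hg : IsW f a' b') : a = a' ∧ b = b' := by
  have h := (hf ![1, 1]).symm.trans (hg ![1, 1])
  have h0 := congrFun h 0
  have h1 := congrFun h 1
  simp at h0 h1
  exact ⟨h1, h0⟩

theorem isD_ne_zero (hf : IsD f a b) : a ≠ 0 ∧ b ≠ 0 := by
  constructor
  · rintro rfl
    have h := hf ![1, 0]
    have h' : f ![1, 0] = f 0 := by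
      rw [h, map_zero]; ext i; fin_cases i <;> simp
    have h'' := congrFun (f.injective h') 0
    simp at h''
  · rintro rfl
    have h := hf ![0, 1]
    have h' : f ![0, 1] = f 0 := by
      rw [h, map_zero]; ext i; fin_cases i <;> simp
    have h'' := congrFun (f.injective h') 1
    simp at h''

theorem isW_ne_zero (hf : IsW f a b) : a ≠ 0 ∧ b ≠ 0 := by
  constructor
  · rintro rfl
    have h := hf ![1, 0]
    have h' : f ![1, 0] = f 0 := by
      rw [h, map_zero]; ext i; fin_cases i <;> simp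
    have h'' := congrFun (f.injective h') 0
    simp at h''
  · rintro rfl
    have h := hf ![0, 1]
    have h' : f ![0, 1] = f 0 := by
      rw [h, map_zero]; ext i; fin_cases i <;> simp
    have h'' := congrFun (f.injective h') 1
    simp at h''

theorem isD_isW_false (hf : IsD f a b) (hg : IsW f a' b') : False := by
  have h := (hf ![1, 0]).symm.trans (hg ![1, 0])
  have h0 := congrFun h 0
  simp at h0
  exact (isD_ne_zero hf).1 h0

theorem isD_one : IsD (1 : (Fin 2 → ZMod q) ≃ₗ[ZMod q] (Fin 2 → ZMod q)) 1 1 := by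
  intro v
  ext i
  fin_cases i <;> simp

theorem isD_pow (hf : IsD f a b) (n : ℕ) : IsD (f ^ n) (a ^ n) (b ^ n) := by
  induction n with
  | zero => simpa using isD_one
  | succ n ih =>
    rw [pow_succ, pow_succ, pow_succ]
    exact isD_mul ih hf

/-- A diagonal map. -/
def dE (a b : ZMod q) (ha : a ≠ 0) (hb : b ≠ 0) : (Fin 2 → ZMod q) ≃ₗ[ZMod q] (Fin 2 → ZMod q) where
  toFun := fun v => ![a * v 0, b * v 1]
  map_add' := by
    intro v w; ext i; fin_cases i <;> simp [mul_add]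
  map_smul' := by
    intro c v; ext i; fin_cases i <;> simp [mul_left_comm]
  invFun := fun v => ![a⁻¹ * v 0, b⁻¹ * v 1]
  left_inv := by
    intro v; ext i; fin_cases i <;> simp [ha, hb]
  right_inv := by
    intro v; ext i; fin_cases i <;> simp [ha, hb]

theorem dE_isD (a b : ZMod q) (ha : a ≠ 0) (hb : b ≠ 0) : IsD (dE a b ha hb) a b := fun _ => rfl

/-- An anti-diagonal map. -/
def wE (a b : ZMod q) (ha : a ≠ 0) (hb : b ≠ 0) : (Fin 2 → ZMod q) ≃ₗ[ZMod q] (Fin 2 → ZMod q) where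
  toFun := fun v => ![b * v 1, a * v 0]
  map_add' := by
    intro v w; ext i; fin_cases i <;> simp [mul_add]
  map_smul' := by
    intro c v; ext i; fin_cases i <;> simp [mul_left_comm]
  invFun := fun v => ![a⁻¹ * v 1, b⁻¹ * v 0]
  left_inv := by
    intro v; ext i; fin_cases i <;> simp [ha, hb]
  right_inv := by
    intro v; ext i; fin_cases i <;> simp [ha, hb]

theorem wE_isW (a b : ZMod q) (ha : a ≠ 0) (hb : b ≠ 0) : IsW (wE a b ha hb) a b := fun _ => rfl

variable (T : Subgroup ((Fin 2 → ZMod q) ≃ₗ[ZMod q] (Fin 2 → ZMod q)))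
  (hT : ∀ f, f ∈ T ↔ ∃ a s : ZMod q, a ≠ 0 ∧ (s = 1 ∨ s = -1) ∧
      ((∀ v, f v = ![a * v 0, s * a⁻¹ * v 1]) ∨ (∀ v, f v = ![s * a⁻¹ * v 1, a * v 0])))

include hT

theorem mem_T_of_isD (hf : IsD f a b) (hab : a * b = 1 ∨ a * b = -1) : f ∈ T := by
  rw [hT]
  have ha := (isD_ne_zero hf).1
  refine ⟨a, a * b, ha, hab, Or.inl ?_⟩
  intro v
  rw [hf v]
  have : a * b * a⁻¹ = b := by field_simp
  rw [this]

theorem mem_T_of_isW (hf : IsW f a b) (hab : a * b = 1 ∨ a * b = -1) : f ∈ T := by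
  rw [hT]
  have ha := (isW_ne_zero hf).1
  refine ⟨a, a * b, ha, hab, Or.inr ?_⟩
  intro v
  rw [hf v]
  have : a * b * a⁻¹ = b := by field_simp
  rw [this]

theorem T_cases (hf : f ∈ T) :
    (∃ a b : ZMod q, (a * b = 1 ∨ a * b = -1) ∧ IsD f a b) ∨
      (∃ a b : ZMod q, (a * b = 1 ∨ a * b = -1) ∧ IsW f a b) := by
  rw [hT] at hf
  obtain ⟨a, s, ha, hs, h | h⟩ := hf
  · left
    refine ⟨a, s * a⁻¹, ?_, h⟩
    have : a * (s * a⁻¹) = s := by field_simp
    rw [this]; exact hs
  · right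
    refine ⟨a, s * a⁻¹, ?_, h⟩
    have : a * (s * a⁻¹) = s := by field_simp
    rw [this]; exact hs


/-- Minus the identity, as an element of `T`. -/
def uT : T :=
  ⟨dE (-1) (-1) (neg_ne_zero.mpr one_ne_zero) (neg_ne_zero.mpr one_ne_zero),
    mem_T_of_isD T hT (dE_isD (-1) (-1) (neg_ne_zero.mpr one_ne_zero) (neg_ne_zero.mpr one_ne_zero))
      (Or.inl (by ring))⟩

theorem uT_isD : IsD (uT T hT).1 (-1) (-1) := fun _ => rfl

theorem uT_central (y : T) : uT T hT * y = y * uT T hT := by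
  have hneg : ∀ w : Fin 2 → ZMod q, (uT T hT).1 w = -w := by
    intro w
    rw [uT_isD T hT w]
    ext i
    fin_cases i <;> simp
  apply Subtype.ext
  apply LinearEquiv.ext
  intro v
  rw [Subgroup.coe_mul, Subgroup.coe_mul, LinearEquiv.mul_apply, LinearEquiv.mul_apply, hneg, hneg,
    map_neg]

theorem uT_sq : uT T hT * uT T hT = 1 := by
  apply Subtype.ext
  have h := isD_mul (uT_isD T hT) (uT_isD T hT)
  have h' : IsD ((uT T hT).1 * (uT T hT).1) 1 1 := by simpa using h
  exact isD_ext h' isD_one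

theorem uT_ne_one (h2 : (2 : ZMod q) ≠ 0) : uT T hT ≠ 1 := by
  intro h
  have h1 : IsD (uT T hT).1 1 1 := by rw [h]; exact isD_one
  obtain ⟨h3, -⟩ := isD_inj (uT_isD T hT) h1
  apply h2
  linear_combination -h3

/-- The only central involution is minus the identity. -/
theorem central_inv (h2 : (2 : ZMod q) ≠ 0) (x : T) (hc : ∀ y : T, x * y = y * x)
    (hx2 : x * x = 1) (hx1 : x ≠ 1) : x = uT T hT := by
  have hcE : ∀ y : (Fin 2 → ZMod q) ≃ₗ[ZMod q] (Fin 2 → ZMod q), y ∈ T → x.1 * y = y * x.1 :=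
    fun y hy => congrArg Subtype.val (hc ⟨y, hy⟩)
  rcases T_cases T hT x.2 with ⟨a, b, -, hx⟩ | ⟨a, b, -, hx⟩
  · have h1 : IsD (x.1 * x.1) (a * a) (b * b) := isD_mul hx hx
    have h1' : IsD (x.1 * x.1) 1 1 := by
      have : x.1 * x.1 = 1 := congrArg Subtype.val hx2
      rw [this]; exact isD_one
    obtain ⟨haa, -⟩ := isD_inj h1 h1'
    have hs := hcE (wE 1 1 one_ne_zero one_ne_zero)
      (mem_T_of_isW T hT (wE_isW 1 1 one_ne_zero one_ne_zero) (Or.inl (by ring)))
    have h3 : IsW (x.1 * wE 1 1 one_ne_zero one_ne_zero) (b * 1) (a * 1) :=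
      isD_mul_isW hx (fun _ => rfl)
    have h4 : IsW (wE 1 1 one_ne_zero one_ne_zero * x.1) (1 * a) (1 * b) :=
      isW_mul_isD (fun _ => rfl) hx
    rw [hs] at h3
    obtain ⟨h5, -⟩ := isW_inj h3 h4
    have hab' : b = a := by simpa using h5
    subst hab'
    rcases mul_self_eq_one_iff.mp haa with h | h
    · exfalso
      apply hx1
      apply Subtype.ext
      rw [h] at hx
      exact isD_ext hx isD_one
    · apply Subtype.ext
      rw [h] at hx
      exact isD_ext hx (uT_isD T hT)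
  · exfalso
    have he := hcE (dE 1 (-1) one_ne_zero (neg_ne_zero.mpr one_ne_zero))
      (mem_T_of_isD T hT (dE_isD 1 (-1) one_ne_zero (neg_ne_zero.mpr one_ne_zero)) (Or.inr (by ring)))
    have h3 : IsW (x.1 * dE 1 (-1) one_ne_zero (neg_ne_zero.mpr one_ne_zero)) (a * 1) (b * (-1)) :=
      isW_mul_isD hx (fun _ => rfl)
    have h4 : IsW (dE 1 (-1) one_ne_zero (neg_ne_zero.mpr one_ne_zero) * x.1) ((-1) * a) (1 * b) :=
      isD_mul_isW (fun _ => rfl) hx
    rw [he] at h3
    obtain ⟨h5, -⟩ := isW_inj h3 h4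
    have h6 : (2 : ZMod q) * a = 0 := by linear_combination h5
    rcases mul_eq_zero.mp h6 with h | h
    · exact h2 h
    · exact (isW_ne_zero hx).1 h

theorem uT_fixed (h2 : (2 : ZMod q) ≠ 0) (φ : MulAut T) : φ (uT T hT) = uT T hT := by
  apply central_inv T hT h2
  · intro y
    have hy : φ ((φ⁻¹ : MulAut T) y) = y := by simp
    rw [← hy, ← map_mul, ← map_mul, uT_central]
  · rw [← map_mul, uT_sq, map_one]
  · intro h
    apply uT_ne_one T hT h2
    have h1 : (φ⁻¹ : MulAut T) (φ (uT T hT)) = (φ⁻¹ : MulAut T) 1 := by rw [h]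
    rwa [MulAut.inv_apply_self, map_one] at h1

/-- The case `q > 5`. -/
theorem case_big (m : ℕ) (hq : q = 2 ^ m + 1) (h2 : (2 : ZMod q) ≠ 0) (h15 : (15 : ZMod q) ≠ 0) :
    IsPGroup 2 (MulAut T) := by
  let Sq : Set T := {x | ∃ y : T, x = y * y}
  let D : Subgroup T := Subgroup.centralizer Sq
  have sq_isD : ∀ y : T, ∃ a b, IsD (y * y : T).1 a b := by
    intro y
    rcases T_cases T hT y.2 with ⟨a, b, -, hy⟩ | ⟨a, b, -, hy⟩
    · exact ⟨_, _, isD_mul hy hy⟩
    · exact ⟨_, _, isW_mul_isW hy hy⟩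
  have memD : ∀ x : T, x ∈ D ↔ ∃ a b, IsD x.1 a b := by
    intro x
    constructor
    · intro hx
      rcases T_cases T hT x.2 with ⟨a, b, -, hx'⟩ | ⟨a, b, -, hx'⟩
      · exact ⟨a, b, hx'⟩
      · exfalso
        let y : T := ⟨dE 2 2⁻¹ h2 (inv_ne_zero h2),
          mem_T_of_isD T hT (dE_isD 2 2⁻¹ h2 (inv_ne_zero h2)) (Or.inl (mul_inv_cancel₀ h2))⟩
        have hy : IsD y.1 2 2⁻¹ := fun _ => rfl
        have hyy : IsD (y * y : T).1 (2 * 2) (2⁻¹ * 2⁻¹) := isD_mul hy hy
        have hcomm : (y * y) * x = x * (y * y) := Subgroup.mem_centralizer_iff.mp hx (y * y) ⟨y, rfl⟩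
        have hcomm' : (y * y : T).1 * x.1 = x.1 * (y * y : T).1 := congrArg Subtype.val hcomm
        have h3 : IsW ((y * y : T).1 * x.1) (2⁻¹ * 2⁻¹ * a) (2 * 2 * b) := isD_mul_isW hyy hx'
        have h4 : IsW (x.1 * (y * y : T).1) (a * (2 * 2)) (b * (2⁻¹ * 2⁻¹)) := isW_mul_isD hx' hyy
        rw [hcomm'] at h3
        obtain ⟨h5, -⟩ := isW_inj h3 h4
        have ha := (isW_ne_zero hx').1
        have h6 : a = 2 * 2 * (a * (2 * 2)) := by
          rw [← h5]; field_simp
        have h7 : (15 : ZMod q) * a = 0 := by linear_combination -h6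
        rcases mul_eq_zero.mp h7 with h | h
        · exact h15 h
        · exact ha h
    · rintro ⟨a, b, hx⟩
      rw [Subgroup.mem_centralizer_iff]
      rintro s ⟨y, rfl⟩
      obtain ⟨c, d, hyy⟩ := sq_isD y
      apply Subtype.ext
      have h1 := isD_mul hyy hx
      have h2' := isD_mul hx hyy
      rw [mul_comm a c, mul_comm b d] at h2'
      exact isD_ext h1 h2'
  have hDcomm : ∀ x ∈ D, ∀ y ∈ D, x * y = y * x := by
    intro x hx y hy
    obtain ⟨a, b, hx'⟩ := (memD x).mp hx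
    obtain ⟨c, d, hy'⟩ := (memD y).mp hy
    apply Subtype.ext
    have h1 := isD_mul hx' hy'
    have h2' := isD_mul hy' hx'
    rw [mul_comm c a, mul_comm d b] at h2'
    exact isD_ext h1 h2'
  have hDinv : ∀ φ : MulAut T, ∀ x ∈ D, φ x ∈ D := by
    intro φ x hx
    rw [Subgroup.mem_centralizer_iff]
    rintro s ⟨y, rfl⟩
    have hy : φ ((φ⁻¹ : MulAut T) y) = y := by simp
    have h3 := Subgroup.mem_centralizer_iff.mp hx ((φ⁻¹ : MulAut T) y * (φ⁻¹ : MulAut T) y)
      ⟨(φ⁻¹ : MulAut T) y, rfl⟩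
    have h4 := congrArg φ h3
    rw [map_mul, map_mul, map_mul, map_mul, hy] at h4
    exact h4
  let e : T := ⟨dE 1 (-1) one_ne_zero (neg_ne_zero.mpr one_ne_zero),
    mem_T_of_isD T hT (dE_isD 1 (-1) one_ne_zero (neg_ne_zero.mpr one_ne_zero)) (Or.inr (by ring))⟩
  have he : IsD e.1 1 (-1) := fun _ => rfl
  have hΩ : ∀ x ∈ D, x * x = 1 → x = 1 ∨ x = uT T hT ∨ x = e ∨ x = uT T hT * e := by
    intro x hx hx2
    obtain ⟨a, b, hx'⟩ := (memD x).mp hx
    have h1 : IsD (x.1 * x.1) (a * a) (b * b) := isD_mul hx' hx'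
    have h1' : IsD (x.1 * x.1) 1 1 := by
      have : x.1 * x.1 = 1 := congrArg Subtype.val hx2
      rw [this]; exact isD_one
    obtain ⟨haa, hbb⟩ := isD_inj h1 h1'
    rcases mul_self_eq_one_iff.mp haa with ha | ha <;> rcases mul_self_eq_one_iff.mp hbb with hb | hb
    · left
      apply Subtype.ext
      rw [ha, hb] at hx'
      exact isD_ext hx' isD_one
    · right; right; left
      apply Subtype.ext
      rw [ha, hb] at hx'
      exact isD_ext hx' he
    · right; right; right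
      apply Subtype.ext
      rw [ha, hb] at hx'
      have h5 := isD_mul (uT_isD T hT) he
      have h5' : IsD ((uT T hT).1 * e.1) (-1) 1 := by simpa using h5
      exact isD_ext hx' h5'
    · right; left
      apply Subtype.ext
      rw [ha, hb] at hx'
      exact isD_ext hx' (uT_isD T hT)
  have hexp : ∀ x ∈ D, x ^ (2 ^ m) = 1 := by
    intro x hx
    obtain ⟨a, b, hx'⟩ := (memD x).mp hx
    obtain ⟨ha, hb⟩ := isD_ne_zero hx'
    have hq1 : q - 1 = 2 ^ m := by rw [hq]; simp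
    have h1 := isD_pow hx' (2 ^ m)
    rw [← hq1, ZMod.pow_card_sub_one_eq_one ha, ZMod.pow_card_sub_one_eq_one hb] at h1
    apply Subtype.ext
    rw [Subgroup.coe_pow, ← hq1]
    exact isD_ext h1 isD_one
  have hidx : ∀ w w' : T, w ∉ D → w' ∉ D → w * w' ∈ D := by
    intro w w' hw hw'
    rcases T_cases T hT w.2 with ⟨a, b, -, h⟩ | ⟨a, b, -, h⟩
    · exact absurd ((memD w).mpr ⟨a, b, h⟩) hw
    rcases T_cases T hT w'.2 with ⟨a', b', -, h'⟩ | ⟨a', b', -, h'⟩
    · exact absurd ((memD w').mpr ⟨a', b', h'⟩) hw'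
    exact (memD (w * w')).mpr ⟨_, _, isW_mul_isW h h'⟩
  intro φ
  exact ⟨2 * m + 1, aut_pow_eq_one D (uT T hT) e m hDcomm hDinv (uT_fixed T hT h2)
    ((memD _).mpr ⟨_, _, uT_isD T hT⟩) (uT_sq T hT) hΩ hexp hidx φ⟩

/-- The case `q = 2`. -/
theorem case_two (h1 : ∀ a : ZMod q, a ≠ 0 → a = 1) : IsPGroup 2 (MulAut T) := by
  have key : ∀ x : T, x = 1 ∨ IsW x.1 1 1 := by
    intro x
    rcases T_cases T hT x.2 with ⟨a, b, -, hx⟩ | ⟨a, b, -, hx⟩
    · left
      obtain ⟨ha, hb⟩ := isD_ne_zero hx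
      rw [h1 a ha, h1 b hb] at hx
      exact Subtype.ext (isD_ext hx isD_one)
    · right
      obtain ⟨ha, hb⟩ := isW_ne_zero hx
      rw [h1 a ha, h1 b hb] at hx
      exact hx
  intro φ
  refine ⟨0, ?_⟩
  rw [pow_zero, pow_one]
  apply MulEquiv.ext
  intro x
  rcases key x with rfl | hx
  · rw [map_one]; rfl
  · rcases key (φ x) with h | h
    · exfalso
      have hx1 : x = 1 := by
        have h4 : (φ⁻¹ : MulAut T) (φ x) = (φ⁻¹ : MulAut T) 1 := by rw [h]
        rwa [MulAut.inv_apply_self, map_one] at h4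
      rw [hx1] at hx
      exact isD_isW_false isD_one hx
    · exact Subtype.ext (isW_ext h hx)

end concrete

theorem z2_one : ∀ a : ZMod 2, a ≠ 0 → a = 1 := by decide
theorem z3_sq_ne : ∀ a : ZMod 3, a * a ≠ -1 := by decide
theorem z3_sq : ∀ a : ZMod 3, a ≠ 0 → a * a = 1 := by decide
theorem z3_eq : ∀ a b : ZMod 3, a * b = 1 → a = b := by decide
theorem z3_cases : ∀ a : ZMod 3, a ≠ 0 → a = 1 ∨ a = -1 := by decide
theorem z3_comm : ∀ a b a' b' : ZMod 3, a * b = -1 → a' * b' = -1 →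
    b * a' = b' * a ∧ a * b' = a' * b := by decide
theorem z3_two : (2 : ZMod 3) ≠ 0 := by decide
theorem z3_neg : (-1 : ZMod 3) ≠ 1 := by decide

/-- The case `q = 3`. -/
theorem case_three [Fact (Nat.Prime 3)]
    (T : Subgroup ((Fin 2 → ZMod 3) ≃ₗ[ZMod 3] (Fin 2 → ZMod 3)))
    (hT : ∀ f, f ∈ T ↔ ∃ a s : ZMod 3, a ≠ 0 ∧ (s = 1 ∨ s = -1) ∧
      ((∀ v, f v = ![a * v 0, s * a⁻¹ * v 1]) ∨ (∀ v, f v = ![s * a⁻¹ * v 1, a * v 0]))) :
    IsPGroup 2 (MulAut T) := by
  set u := uT T hT with hu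
  let Q : T → Prop := fun x =>
    (∃ a b : ZMod 3, a * b = 1 ∧ IsD x.1 a b) ∨ (∃ a b : ZMod 3, a * b = -1 ∧ IsW x.1 a b)
  let S : Set T := {x | x * x = u}
  let D : Subgroup T := Subgroup.closure S
  have Qone : Q 1 := Or.inl ⟨1, 1, by ring, isD_one⟩
  have Qmul : ∀ x y : T, Q x → Q y → Q (x * y) := by
    rintro x y (⟨a, b, hab, hx⟩ | ⟨a, b, hab, hx⟩) (⟨c, d, hcd, hy⟩ | ⟨c, d, hcd, hy⟩)
    · exact Or.inl ⟨_, _, by linear_combination (c * d) * hab + hcd, isD_mul hx hy⟩
    · exact Or.inr ⟨_, _, by linear_combination (c * d) * hab + hcd, isD_mul_isW hx hy⟩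
    · exact Or.inr ⟨_, _, by linear_combination (c * d) * hab - hcd, isW_mul_isD hx hy⟩
    · exact Or.inl ⟨_, _, by linear_combination (c * d) * hab - hcd, isW_mul_isW hx hy⟩
  have hP : ∀ x : T, ¬ Q x →
      (∃ a b : ZMod 3, a * b = -1 ∧ IsD x.1 a b) ∨ (∃ a b : ZMod 3, a * b = 1 ∧ IsW x.1 a b) := by
    intro x hx
    rcases T_cases T hT x.2 with ⟨a, b, hab | hab, h⟩ | ⟨a, b, hab | hab, h⟩
    · exact absurd (Or.inl ⟨a, b, hab, h⟩) hx
    · exact Or.inl ⟨a, b, hab, h⟩
    · exact Or.inr ⟨a, b, hab, h⟩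
    · exact absurd (Or.inr ⟨a, b, hab, h⟩) hx
  have PP : ∀ x y : T, ¬ Q x → ¬ Q y → Q (x * y) := by
    intro x y hx hy
    rcases hP x hx with ⟨a, b, hab, hx'⟩ | ⟨a, b, hab, hx'⟩ <;>
      rcases hP y hy with ⟨c, d, hcd, hy'⟩ | ⟨c, d, hcd, hy'⟩
    · exact Or.inl ⟨_, _, by linear_combination (c * d) * hab - hcd, isD_mul hx' hy'⟩
    · exact Or.inr ⟨_, _, by linear_combination (c * d) * hab - hcd, isD_mul_isW hx' hy'⟩
    · exact Or.inr ⟨_, _, by linear_combination (c * d) * hab + hcd, isW_mul_isD hx' hy'⟩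
    · exact Or.inl ⟨_, _, by linear_combination (c * d) * hab + hcd, isW_mul_isW hx' hy'⟩
  have sq_sq : ∀ x : T, (x * x) * (x * x) = 1 := by
    intro x
    have h1 : ∃ c d, IsD (x * x : T).1 c d := by
      rcases T_cases T hT x.2 with ⟨a, b, -, hx⟩ | ⟨a, b, -, hx⟩
      · exact ⟨_, _, isD_mul hx hx⟩
      · exact ⟨_, _, isW_mul_isW hx hx⟩
    obtain ⟨c, d, h⟩ := h1
    obtain ⟨hc, hd⟩ := isD_ne_zero h
    have h2 := isD_mul h h
    rw [z3_sq c hc, z3_sq d hd] at h2
    exact Subtype.ext (isD_ext h2 isD_one)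
  have Qinv : ∀ x : T, Q x → Q x⁻¹ := by
    intro x hx
    have h1 : x⁻¹ = x * (x * x) := by
      apply inv_eq_of_mul_eq_one_right
      rw [← mul_assoc]; exact sq_sq x
    rw [h1]; exact Qmul _ _ hx (Qmul _ _ hx hx)
  have memS : ∀ x : T, x * x = u → ∃ a b : ZMod 3, a * b = -1 ∧ IsW x.1 a b := by
    intro x hx
    have hx' : IsD (x.1 * x.1) (-1) (-1) := by
      have : x.1 * x.1 = u.1 := congrArg Subtype.val hx
      rw [this]; exact uT_isD T hT
    rcases T_cases T hT x.2 with ⟨a, b, -, h⟩ | ⟨a, b, -, h⟩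
    · exfalso
      obtain ⟨h1, -⟩ := isD_inj (isD_mul h h) hx'
      exact z3_sq_ne a h1
    · obtain ⟨-, h1⟩ := isD_inj (isW_mul_isW h h) hx'
      exact ⟨a, b, h1, h⟩
  have memD : ∀ x : T, x ∈ D ↔ Q x := by
    intro x
    constructor
    · intro hx
      induction hx using Subgroup.closure_induction with
      | mem x hx => exact Or.inr (memS x hx)
      | one => exact Qone
      | mul x y _ _ hx hy => exact Qmul x y hx hy
      | inv x _ hx => exact Qinv x hx
    · rintro (⟨a, b, hab, hx⟩ | ⟨a, b, hab, hx⟩)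
      · have hab' := z3_eq a b hab
        subst hab'
        rcases z3_cases a (isD_ne_zero hx).1 with rfl | rfl
        · have : x = 1 := Subtype.ext (isD_ext hx isD_one)
          rw [this]; exact D.one_mem
        · have : x = u := Subtype.ext (isD_ext hx (uT_isD T hT))
          rw [this]
          let R : T := ⟨wE 1 (-1) one_ne_zero (neg_ne_zero.mpr one_ne_zero),
            mem_T_of_isW T hT (wE_isW 1 (-1) one_ne_zero (neg_ne_zero.mpr one_ne_zero))
              (Or.inr (by ring))⟩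
          have hR : IsW R.1 1 (-1) := fun _ => rfl
          have hRR : R * R = u := by
            apply Subtype.ext
            have h := isW_mul_isW hR hR
            have h' : IsD (R.1 * R.1) (-1) (-1) := by simpa using h
            exact isD_ext h' (uT_isD T hT)
          have hRS : R ∈ D := Subgroup.subset_closure hRR
          rw [← hRR]; exact D.mul_mem hRS hRS
      · apply Subgroup.subset_closure
        show x * x = u
        apply Subtype.ext
        have h := isW_mul_isW hx hx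
        rw [mul_comm b a, hab] at h
        exact isD_ext h (uT_isD T hT)
  have hufix : ∀ φ : MulAut T, φ u = u := uT_fixed T hT z3_two
  have hDcomm : ∀ x ∈ D, ∀ y ∈ D, x * y = y * x := by
    intro x hx y hy
    rcases (memD x).mp hx with ⟨a, b, hab, hx'⟩ | ⟨a, b, hab, hx'⟩ <;>
      rcases (memD y).mp hy with ⟨c, d, hcd, hy'⟩ | ⟨c, d, hcd, hy'⟩
    · apply Subtype.ext
      have h1 := isD_mul hx' hy'
      have h2' := isD_mul hy' hx'
      rw [mul_comm c a, mul_comm d b] at h2'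
      exact isD_ext h1 h2'
    · apply Subtype.ext
      have hab' := z3_eq a b hab
      subst hab'
      have h1 := isD_mul_isW hx' hy'
      have h2' := isW_mul_isD hy' hx'
      rw [mul_comm c a, mul_comm d a] at h2'
      exact isW_ext h1 h2'
    · apply Subtype.ext
      have hcd' := z3_eq c d hcd
      subst hcd'
      have h1 := isW_mul_isD hx' hy'
      have h2' := isD_mul_isW hy' hx'
      rw [mul_comm c a, mul_comm c b] at h2'
      exact isW_ext h1 h2'
    · apply Subtype.ext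
      have h1 := isW_mul_isW hx' hy'
      have h2' := isW_mul_isW hy' hx'
      obtain ⟨e1, e2⟩ := z3_comm a b c d hab hcd
      rw [e1, e2] at h1
      exact isD_ext h1 h2'
  have hDinv : ∀ φ : MulAut T, ∀ x ∈ D, φ x ∈ D := by
    intro φ x hx
    induction hx using Subgroup.closure_induction with
    | mem x hx =>
      apply Subgroup.subset_closure
      show φ x * φ x = u
      rw [← map_mul, show x * x = u from hx, hufix]
    | one => rw [map_one]; exact D.one_mem
    | mul x y _ _ hx hy => rw [map_mul]; exact D.mul_mem hx hy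
    | inv x _ hx => rw [map_inv]; exact D.inv_mem hx
  have huD : u ∈ D := (memD u).mpr (Or.inl ⟨-1, -1, by ring, uT_isD T hT⟩)
  have hΩ : ∀ x ∈ D, x * x = 1 → x = 1 ∨ x = u ∨ x = 1 ∨ x = u * 1 := by
    intro x hx hx2
    have hx2' : IsD (x.1 * x.1) 1 1 := by
      have : x.1 * x.1 = 1 := congrArg Subtype.val hx2
      rw [this]; exact isD_one
    rcases (memD x).mp hx with ⟨a, b, hab, hx'⟩ | ⟨a, b, hab, hx'⟩
    · have hab' := z3_eq a b hab
      subst hab'
      rcases z3_cases a (isD_ne_zero hx').1 with rfl | rfl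
      · left; exact Subtype.ext (isD_ext hx' isD_one)
      · right; left; exact Subtype.ext (isD_ext hx' (uT_isD T hT))
    · exfalso
      obtain ⟨-, h1⟩ := isD_inj (isW_mul_isW hx' hx') hx2'
      rw [hab] at h1
      exact z3_neg h1
  have hexp : ∀ x ∈ D, x ^ (2 ^ 2) = 1 := by
    intro x _
    have h1 : x ^ (2 ^ 2) = (x * x) * (x * x) := by
      rw [show (2 : ℕ) ^ 2 = 2 * 2 from rfl, pow_mul, pow_two, pow_two]
    rw [h1]; exact sq_sq x
  have hidx : ∀ w w' : T, w ∉ D → w' ∉ D → w * w' ∈ D := by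
    intro w w' hw hw'
    exact (memD _).mpr (PP w w' (fun h => hw ((memD w).mpr h)) (fun h => hw' ((memD w').mpr h)))
  intro φ
  exact ⟨2 * 2 + 1, aut_pow_eq_one D u 1 2 hDcomm hDinv hufix huD (uT_sq T hT) hΩ hexp hidx φ⟩

/-- Let q = 2^m + 1 be a prime other than 5. Then the automorphism group of the group of linear maps of F_q² of the forms (x, y) ↦ (a x, ± a⁻¹ y) and (x, y) ↦ (± a⁻¹ y, a x) with a ≠ 0 is itself a 2-group. -/
theorem result (q m : ℕ) [Fact q.Prime] (hq : q = 2 ^ m + 1) (hq5 : q ≠ 5)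
    (T : Subgroup ((Fin 2 → ZMod q) ≃ₗ[ZMod q] (Fin 2 → ZMod q)))
    (hT : ∀ f, f ∈ T ↔ ∃ a s : ZMod q, a ≠ 0 ∧ (s = 1 ∨ s = -1) ∧
      ((∀ v, f v = ![a * v 0, s * a⁻¹ * v 1]) ∨ (∀ v, f v = ![s * a⁻¹ * v 1, a * v 0]))) :
    IsPGroup 2 (MulAut T) := by
  by_cases hm : m < 3
  · interval_cases m
    · have h2 : q = 2 := by simpa using hq
      subst h2
      exact case_two T hT z2_one
    · have h3 : q = 3 := by simpa using hq
      subst h3
      exact case_three T hT
    · exact absurd (by simpa using hq) hq5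
  · have h8 : 2 ^ 3 ≤ 2 ^ m := Nat.pow_le_pow_right (by norm_num) (not_lt.mp hm)
    have hq9 : 9 ≤ q := by omega
    have h2 : (2 : ZMod q) ≠ 0 := by
      intro h
      have h' : ((2 : ℕ) : ZMod q) = 0 := by exact_mod_cast h
      rw [ZMod.natCast_eq_zero_iff] at h'
      have := Nat.le_of_dvd (by norm_num) h'
      omega
    have h15 : (15 : ZMod q) ≠ 0 := by
      intro h
      have h' : ((15 : ℕ) : ZMod q) = 0 := by exact_mod_cast h
      rw [ZMod.natCast_eq_zero_iff] at h'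
      obtain ⟨k, hk⟩ := h'
      have hk1 : k ≤ 1 := by
        by_contra hk2
        push Not at hk2
        nlinarith
      have hq15 : q = 15 := by
        interval_cases k <;> omega
      have hp : q.Prime := Fact.out
      rw [hq15] at hp
      exact absurd hp (by norm_num)
    exact case_big T hT m hq h2 h15

end Cfsg.Agent.S3382
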