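import Cfsg.Statements.S3383

set_option autoImplicit false
open Cfsg
open scoped Pointwise

namespace Cfsg.Agent.S3383

theorem result {L : Type*} [Group L] [Finite L]
    (H : Subgroup L) (hH : Cfsg.IsFrobeniusComplement H)
    (K : Subgroup L) (hK : (K : Set L) = Cfsg.frobeniusKernel H) :
    K.Characteristic ∧ ∀ N : Subgroup L, N.Normal → K ≤ N ∨ N ≤ K := by
  classical
  have hconj : ∀ (g x : L), x ∈ MulAut.conj g • H ↔ g⁻¹ * x * g ∈ H := by
    intro g x
    rw [Subgroup.mem_pointwise_smul_iff_inv_smul_mem]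
    simp [MulAut.smul_def]
  have hmem : ∀ x : L, x ∈ K ↔ (x = 1 ∨ ∀ g : L, g⁻¹ * x * g ∉ H) := by
    intro x
    have : x ∈ (K : Set L) ↔ x ∈ Cfsg.frobeniusKernel H := by rw [hK]
    simp only [Cfsg.frobeniusKernel, Set.mem_ofPred_eq, SetLike.mem_coe, hconj] at this
    exact this
  obtain ⟨-, -, hTI⟩ := hH
  have hTI' : ∀ g : L, g ∉ H → ∀ h : L, h ∈ H → g⁻¹ * h * g ∈ H → h = 1 := by
    intro g hg h hh hgh
    have h1 : h ∈ H ⊓ (MulAut.conj g • H) :=
      Subgroup.mem_inf.mpr ⟨hh, (hconj g h).mpr hgh⟩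
    rw [hTI g hg] at h1
    simpa using h1
  -- K is normal
  have hKn : K.Normal := by
    constructor
    intro n hn g
    rw [hmem] at hn ⊢
    rcases hn with rfl | hn
    · left; simp
    · right
      intro g'
      have := hn (g⁻¹ * g')
      simpa [mul_assoc] using this
  have part2 : ∀ N : Subgroup L, N.Normal → K ≤ N ∨ N ≤ K := by
    intro N hN
    by_cases hNK : N ≤ K
    · right; exact hNK
    left
    obtain ⟨n, hnN, hnK⟩ := SetLike.not_le_iff_exists.mp hNK
    rw [hmem] at hnK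
    push Not at hnK
    obtain ⟨hn1, g, hg⟩ := hnK
    set h := g⁻¹ * n * g with hh
    have hhN : h ∈ N := by
      have := hN.conj_mem n hnN g⁻¹
      simpa [hh] using this
    have hh1 : h ≠ 1 := by
      intro h1
      apply hn1
      have : n = g * h * g⁻¹ := by simp [hh, mul_assoc]
      rw [this, h1]; simp
    -- the map k ↦ k * h * k⁻¹ * h⁻¹ is injective from K into K ⊓ N
    have hmap : ∀ k : L, k ∈ K → k * h * k⁻¹ * h⁻¹ ∈ K ⊓ N := by
      intro k hk
      refine ⟨?_, ?_⟩
      · have h2 : h * k⁻¹ * h⁻¹ ∈ K := hKn.conj_mem _ (K.inv_mem hk) h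
        have := K.mul_mem hk h2
        simpa [mul_assoc] using this
      · have h2 : k * h * k⁻¹ ∈ N := hN.conj_mem _ hhN k
        exact N.mul_mem h2 (N.inv_mem hhN)
    have hinj : ∀ k₁ ∈ K, ∀ k₂ ∈ K, k₁ * h * k₁⁻¹ * h⁻¹ = k₂ * h * k₂⁻¹ * h⁻¹ → k₁ = k₂ := by
      intro k₁ hk₁ k₂ hk₂ heq
      have heq' : k₁ * h * k₁⁻¹ = k₂ * h * k₂⁻¹ := mul_right_cancel heq
      set c := k₂⁻¹ * k₁ with hc
      have hcK : c ∈ K := K.mul_mem (K.inv_mem hk₂) hk₁
      have hch : c⁻¹ * h * c = h := by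
        have : h = k₁⁻¹ * (k₂ * h * k₂⁻¹) * k₁ := by
          rw [← heq']; simp [mul_assoc]
        rw [hc]
        conv_rhs => rw [this]
        simp [mul_assoc]
      have hcH : c ∈ H := by
        by_contra hcH
        exact hh1 (hTI' c hcH h hg (by rw [hch]; exact hg))
      rw [hmem] at hcK
      rcases hcK with hc1 | hcK
      · have : k₂⁻¹ * k₁ = 1 := hc1
        have := inv_mul_eq_one.mp this
        exact this.symm
      · exact absurd (by simpa using hcH) (hcK 1)
    intro k hk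
    -- cardinality argument
    have hcard : Nat.card K ≤ Nat.card (K ⊓ N : Subgroup L) := by
      let f : K → (K ⊓ N : Subgroup L) := fun k => ⟨k.1 * h * k.1⁻¹ * h⁻¹, hmap k.1 k.2⟩
      have hf : Function.Injective f := by
        intro a b hab
        have := congrArg Subtype.val hab
        exact Subtype.ext (hinj a.1 a.2 b.1 b.2 this)
      exact Nat.card_le_card_of_injective f hf
    have hle : K ⊓ N ≤ K := inf_le_left
    have heq : K ⊓ N = K := Subgroup.eq_of_le_of_card_ge hle hcard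
    have : k ∈ K ⊓ N := by rw [heq]; exact hk
    exact this.2
  refine ⟨?_, part2⟩
  rw [Subgroup.characteristic_iff_map_eq]
  intro ϕ
  have hn : (K.map ϕ.toMonoidHom).Normal := by
    have := hKn
    exact Subgroup.Normal.map hKn ϕ.toMonoidHom ϕ.surjective
  have hc : Nat.card (K.map ϕ.toMonoidHom) = Nat.card K :=
    Subgroup.card_map_of_injective ϕ.injective
  rcases part2 _ hn with h | h
  · exact (Subgroup.eq_of_le_of_card_ge h (le_of_eq hc)).symm
  · exact Subgroup.eq_of_le_of_card_ge h (le_of_eq hc.symm)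

end Cfsg.Agent.S3383
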