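import Cfsg.Statements.S3419
import Cfsg.Agent.Lib.Helper57.SolvPQ
import Cfsg.Agent.Lib.Helper57.PermPQ
import Cfsg.Agent.Lib.Helper57.AltPrimes

set_option autoImplicit false
open Cfsg

namespace Cfsg.Agent.S3419

open Cfsg.Agent.Lib.Helper57 in
/-- Let n ≥ 5 and let G be a finite group with the same order and the same set of element orders as the alternating group of degree n. Then G is not solvable. -/
theorem result {G : Type*} [Group G] [Finite G] (n : ℕ) (hn : 5 ≤ n)
    (hcard : Nat.card G = Nat.card ↥(alternatingGroup (Fin n)))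
    (hspec : Set.range (orderOf : G → ℕ) = Set.range (orderOf : ↥(alternatingGroup (Fin n)) → ℕ)) :
    ¬ Group.IsSolvable G := by
  intro hsolv
  have hnt : Nontrivial (Fin n) := Fin.nontrivial_iff_two_le.mpr (by omega)
  have hc : Nat.card G = n.factorial / 2 := by
    rw [hcard, nat_card_alternatingGroup, Nat.card_fin]
  obtain ⟨p, q, hp, hq, hpq, hpd, hqd, hlt, h1, h2⟩ := alt_primes n hn
  rw [← hc] at hpd hqd h1 h2
  obtain ⟨g, hg⟩ := exists_orderOf_mul_of_solvable hp hq hpq hpd hqd h1 h2
  have hmem : p * q ∈ Set.range (orderOf : G → ℕ) := ⟨g, hg⟩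
  rw [hspec] at hmem
  obtain ⟨σ, hσ⟩ := hmem
  exact orderOf_alt_ne_mul hp hq hpq hlt σ hσ

end Cfsg.Agent.S3419
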