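import Cfsg.Statements.S3420
import Cfsg.Agent.Lib.Helper57.SolvPQ
import Cfsg.Agent.Lib.Helper57.PermPQ
import Cfsg.Agent.Lib.Helper57.AltPrimes
import Cfsg.Agent.Lib.Helper57.ChiefP

set_option autoImplicit false
open Cfsg

namespace Cfsg.Agent.S3420

open Cfsg.Agent.Lib.Helper57

/-- For distinct odd primes `p`, `r` with `n < 2p` and `r ≤ n`, `p` does not divide `r - 1`. -/
theorem not_dvd_pred {p r n : ℕ} (hp : p.Prime) (hr : r.Prime) (hp2 : p ≠ 2) (hr2 : r ≠ 2)
    (hnp : n < 2 * p) (hrn : r ≤ n) : ¬ p ∣ r - 1 := by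
  intro hdvd
  obtain ⟨c, hc⟩ := hdvd
  have hr2' := hr.two_le
  have hc1 : c = 1 := by
    rcases Nat.lt_or_ge c 1 with h | h
    · have : c = 0 := by omega
      subst this
      omega
    · rcases Nat.lt_or_ge c 2 with h' | h'
      · omega
      · have : p * 2 ≤ p * c := Nat.mul_le_mul_left p h'
        omega
  subst hc1
  have hqp : r = p + 1 := by omega
  rcases hp.eq_two_or_odd with h | h
  · exact hp2 h
  · rcases hr.eq_two_or_odd with h' | h'
    · exact hr2 h'
    · omega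

theorem two_primes_half (n : ℕ) (hn : 11 ≤ n) :
    ∃ p r : ℕ, p.Prime ∧ r.Prime ∧ p ≤ n ∧ r ≤ n ∧ n < 2 * p ∧ n < 2 * r ∧ p ≠ r := by
  rcases Nat.lt_or_ge n 12 with h | h
  · have : n = 11 := by omega
    subst this
    exact ⟨7, 11, by norm_num, by norm_num, by norm_num, by norm_num, by norm_num, by norm_num,
      by norm_num⟩
  · obtain ⟨p, q, hp, hq, hmp, hpq, hq2m⟩ := exists_two_primes (n / 2) (by omega)
    exact ⟨p, q, hp, hq, by omega, by omega, by omega, by omega, hpq.ne⟩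

/-- Let n ≥ 11 and let G be a finite group with the same order and the same set of element orders as the alternating group of degree n. Then G has normal subgroups N < H such that H/N is a non-abelian simple group whose order is divisible by every prime p with n/2 < p ≤ n. -/
theorem result {G : Type*} [Group G] [Finite G] (n : ℕ) (hn : 11 ≤ n)
    (hcard : Nat.card G = Nat.card ↥(alternatingGroup (Fin n)))
    (hspec : Set.range (orderOf : G → ℕ) = Set.range (orderOf : ↥(alternatingGroup (Fin n)) → ℕ)) :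
    ∃ (N H : Subgroup G) (_ : N.Normal), H.Normal ∧ N < H ∧
      IsSimpleGroup (↥H ⧸ N.subgroupOf H) ∧ ¬ IsMulCommutative (↥H ⧸ N.subgroupOf H) ∧
      ∀ p : ℕ, p.Prime → n < 2 * p → p ≤ n → p ∣ Nat.card (↥H ⧸ N.subgroupOf H) := by
  classical
  have hnt : Nontrivial (Fin n) := Fin.nontrivial_iff_two_le.mpr (by omega)
  have hc : Nat.card G = n.factorial / 2 := by
    rw [hcard, nat_card_alternatingGroup, Nat.card_fin]
  obtain ⟨p₀, r₀, hp₀, hr₀, hp₀n, hr₀n, h2p₀, h2r₀, hne⟩ := two_primes_half n hn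
  have hP : ∀ r : ℕ, r.Prime → n < 2 * r → r ≤ n →
      r ≠ 2 ∧ r ∣ Nat.card G ∧ ¬ r ^ 2 ∣ Nat.card G := by
    intro r hr h2r hrn
    have hr2 : r ≠ 2 := by omega
    refine ⟨hr2, ?_, ?_⟩
    · rw [hc]; exact prime_dvd_half_factorial hr hr2 hrn
    · rw [hc]
      intro h
      exact sq_not_dvd_factorial hr h2r (h.trans (half_factorial_dvd (by omega)))
  have hF : ∀ r s : ℕ, r.Prime → s.Prime → r ≠ s → n < r + s → ∀ g : G, orderOf g ≠ r * s := by
    intro r s hr hs hrs hlt g hg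
    have hmem : r * s ∈ Set.range (orderOf : G → ℕ) := ⟨g, hg⟩
    rw [hspec] at hmem
    obtain ⟨σ, hσ⟩ := hmem
    exact orderOf_alt_ne_mul hr hs hrs hlt σ hσ
  obtain ⟨hp₀2, hp₀G, hp₀sq⟩ := hP p₀ hp₀ h2p₀ hp₀n
  obtain ⟨N, H, hN, hH, hlt, hpH, hpN, hsimple⟩ := exists_simple_chief_factor hp₀ hp₀G hp₀sq
  have hHdvd : Nat.card H ∣ Nat.card G := Subgroup.card_subgroup_dvd_card H
  have hNdvd : Nat.card N ∣ Nat.card G := Subgroup.card_subgroup_dvd_card N
  have hHpos : Nat.card H ≠ 0 := Nat.card_pos.ne'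
  have hNpos : Nat.card N ≠ 0 := Nat.card_pos.ne'
  have hdiv : ∀ r : ℕ, r.Prime → n < 2 * r → r ≤ n → r ∣ Nat.card H ∧ ¬ r ∣ Nat.card N := by
    intro r hr h2r hrn
    by_cases hrp : r = p₀
    · subst hrp; exact ⟨hpH, hpN⟩
    · obtain ⟨hr2, hrG, hrsq⟩ := hP r hr h2r hrn
      constructor
      · by_contra hrH
        have hk : (Nat.card H).factorization p₀ = 1 := by
          have h1 : 0 < (Nat.card H).factorization p₀ := hp₀.factorization_pos_of_dvd hHpos hpH
          have h2 : (Nat.card H).factorization p₀ ≤ 1 :=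
            le_of_pow_dvd (k := 1) hp₀sq ((Nat.ordProj_dvd (Nat.card H) p₀).trans hHdvd)
          omega
        obtain ⟨g, hg⟩ := exists_orderOf_of_normal H hr hp₀ hrp hrH hrG hpH
          (by rw [hk, pow_one]; exact not_dvd_pred hr hp₀ hr2 hp₀2 h2r hp₀n)
        exact hF r p₀ hr hp₀ hrp (by omega) g hg
      · intro hrN
        have hk : (Nat.card N).factorization r = 1 := by
          have h1 : 0 < (Nat.card N).factorization r := hr.factorization_pos_of_dvd hNpos hrN
          have h2 : (Nat.card N).factorization r ≤ 1 :=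
            le_of_pow_dvd (k := 1) hrsq ((Nat.ordProj_dvd (Nat.card N) r).trans hNdvd)
          omega
        obtain ⟨g, hg⟩ := exists_orderOf_of_normal N hp₀ hr (Ne.symm hrp) hpN hp₀G hrN
          (by rw [hk, pow_one]; exact not_dvd_pred hp₀ hr hp₀2 hr2 h2p₀ hrn)
        exact hF p₀ r hp₀ hr (Ne.symm hrp) (by omega) g hg
  have hNcard : Nat.card (N.subgroupOf H) = Nat.card N :=
    Nat.card_congr (Subgroup.subgroupOfEquivOfLe hlt.le).toEquiv
  have hquot : Nat.card ↥H = Nat.card (↥H ⧸ N.subgroupOf H) * Nat.card (N.subgroupOf H) :=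
    Subgroup.card_eq_card_quotient_mul_card_subgroup _
  refine ⟨N, H, hN, hH, hlt, hsimple, ?_, ?_⟩
  · intro hcomm
    have hcomm' : ∀ a b : ↥H ⧸ N.subgroupOf H, a * b = b * a := isMulCommutative_iff.mp hcomm
    obtain ⟨hr₀H, hr₀N⟩ := hdiv r₀ hr₀ h2r₀ hr₀n
    obtain ⟨g, hg⟩ := exists_orderOf_of_comm_quotient (G := ↥H) (N.subgroupOf H) hcomm' hp₀ hr₀ hne
      (by rw [hNcard]; exact hpN) (by rw [hNcard]; exact hr₀N) hpH hr₀H
    exact hF p₀ r₀ hp₀ hr₀ hne (by omega) (g : G) (by rw [Subgroup.orderOf_coe]; exact hg)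
  · intro r hr h2r hrn
    obtain ⟨h1, h2⟩ := hdiv r hr h2r hrn
    rw [hquot, hNcard] at h1
    rcases (Nat.Prime.dvd_mul hr).mp h1 with h | h
    · exact h
    · exact absurd h h2

end Cfsg.Agent.S3420
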