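import Cfsg.Statements.S3704
import Mathlib

set_option autoImplicit false
open Cfsg

namespace Cfsg.Agent.S3704

open MulAction
open scoped Matrix

section cls
variable {G Ω : Type*} [Group G] [MulAction G Ω] (H : Subgroup G)

/-- the `H`-orbit class of `g⁻¹ • ω`; it only depends on the coset `gH`. -/
noncomputable def cls (x : G ⧸ H) (ω : Ω) : orbitRel.Quotient H Ω :=
  Quotient.mk'' ((Quotient.out x : G)⁻¹ • ω)

theorem cls_mk (g : G) (ω : Ω) :
    cls H (QuotientGroup.mk g) ω = Quotient.mk'' (g⁻¹ • ω) := by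
  obtain ⟨h, hh⟩ := QuotientGroup.mk_out_eq_mul H g
  unfold cls
  rw [hh, Quotient.eq'', orbitRel_apply]
  refine ⟨h⁻¹, ?_⟩
  simp [Subgroup.smul_def, mul_smul]

theorem cls_one (ω : Ω) :
    cls H (QuotientGroup.mk (1 : G)) ω = Quotient.mk'' ω := by
  rw [cls_mk]; simp

theorem cls_smul (g : G) (x : G ⧸ H) (ω : Ω) : cls H (g • x) (g • ω) = cls H x ω := by
  induction x using QuotientGroup.induction_on with
  | H a =>
    rw [MulAction.Quotient.smul_mk, cls_mk, cls_mk]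
    congr 1
    simp [mul_smul]

variable [Fintype (G ⧸ H)]

open Classical in
/-- number of cosets `x` with prescribed classes for `ω` and `ω'`. -/
noncomputable def P (c c' : orbitRel.Quotient H Ω) (ω ω' : Ω) : ℚ :=
  ∑ x : G ⧸ H, (if cls H x ω = c then (1 : ℚ) else 0) * (if cls H x ω' = c' then 1 else 0)

theorem P_smul (c c' : orbitRel.Quotient H Ω) (g : G) (ω ω' : Ω) :
    P H c c' (g • ω) (g • ω') = P H c c' ω ω' := by
  classical
  unfold P
  rw [← Equiv.sum_comp (MulAction.toPerm g : Equiv.Perm (G ⧸ H))]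
  apply Finset.sum_congr rfl
  intro x _
  simp only [MulAction.toPerm_apply, cls_smul]

theorem P_values [DecidableEq Ω] (h2 : IsMultiplyPretransitive G Ω 2) (c c' : orbitRel.Quotient H Ω) :
    ∃ a b : ℚ, ∀ ω ω', P H c c' ω ω' = if ω = ω' then a else b := by
  have : IsPretransitive G Ω := @isPretransitive_of_is_two_pretransitive G Ω _ _ h2
  rw [is_two_pretransitive_iff] at h2
  by_cases hne : ∃ ω₁ ω₂ : Ω, ω₁ ≠ ω₂
  · obtain ⟨ω₁, ω₂, h12⟩ := hne
    refine ⟨P H c c' ω₁ ω₁, P H c c' ω₁ ω₂, fun ω ω' => ?_⟩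
    split_ifs with h
    · subst h
      obtain ⟨g, rfl⟩ := exists_smul_eq G ω₁ ω
      exact P_smul H c c' g ω₁ ω₁
    · obtain ⟨g, rfl, rfl⟩ := h2 h12 h
      exact P_smul H c c' g ω₁ ω₂
  · push Not at hne
    by_cases hemp : Nonempty Ω
    · obtain ⟨ω₀⟩ := hemp
      refine ⟨P H c c' ω₀ ω₀, 0, fun ω ω' => ?_⟩
      rw [if_pos (hne ω ω'), hne ω ω₀, hne ω' ω₀]
    · exact ⟨0, 0, fun ω => (hemp ⟨ω⟩).elim⟩

theorem P_diag_zero {c c' : orbitRel.Quotient H Ω} (hc : c ≠ c') (ω : Ω) :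
    P H c c' ω ω = 0 := by
  classical
  unfold P
  apply Finset.sum_eq_zero
  intro x _
  by_cases h : cls H x ω = c
  · simp [h, hc]
  · simp [h]

theorem P_nonneg (c c' : orbitRel.Quotient H Ω) (ω ω' : Ω) : 0 ≤ P H c c' ω ω' := by
  classical
  unfold P
  apply Finset.sum_nonneg
  intro x _
  exact mul_nonneg (by split_ifs <;> norm_num) (by split_ifs <;> norm_num)

theorem P_lt {c : orbitRel.Quotient H Ω} {ω₁ ω₂ : Ω}
    (h1 : (Quotient.mk'' ω₁ : orbitRel.Quotient H Ω) = c)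
    (h2 : (Quotient.mk'' ω₂ : orbitRel.Quotient H Ω) ≠ c) :
    P H c c ω₁ ω₂ < P H c c ω₁ ω₁ := by
  classical
  unfold P
  apply Finset.sum_lt_sum
  · intro x _
    by_cases h : cls H x ω₁ = c
    · simp only [h, if_true, one_mul]
      split_ifs <;> norm_num
    · simp [h]
  · refine ⟨QuotientGroup.mk 1, Finset.mem_univ _, ?_⟩
    rw [cls_one, cls_one]
    simp [h1, h2]

end cls

theorem left_cancel {Ω : Type*} [Fintype Ω] [DecidableEq Ω] (B : Matrix Ω Ω ℚ) (a b : ℚ)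
    (hb : 0 ≤ b) (hab : b < a)
    (hB : ∀ ω ω', (B * Bᵀ) ω ω' = if ω = ω' then a else b) (Y : Matrix Ω Ω ℚ)
    (hY : B * Y = 0) : Y = 0 := by
  set J : Matrix Ω Ω ℚ := Matrix.of fun _ _ => (1 : ℚ) with hJ
  have hJJ : J * J = (Fintype.card Ω : ℚ) • J := by
    ext i j
    simp [hJ, Matrix.mul_apply]
  obtain ⟨d, hd⟩ : ∃ d : ℚ, d = a - b := ⟨_, rfl⟩
  obtain ⟨s, hs⟩ : ∃ s : ℚ, s = d + b * (Fintype.card Ω : ℚ) := ⟨_, rfl⟩
  have hd0 : 0 < d := by rw [hd]; linarith
  have hs0 : 0 < s := by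
    rw [hs]
    have : 0 ≤ b * (Fintype.card Ω : ℚ) := mul_nonneg hb (Nat.cast_nonneg _)
    linarith
  have hd' : d ≠ 0 := hd0.ne'
  have hs' : s ≠ 0 := hs0.ne'
  have hM : B * Bᵀ = d • (1 : Matrix Ω Ω ℚ) + b • J := by
    ext i j
    rw [hB]
    simp only [Matrix.add_apply, Matrix.smul_apply, Matrix.one_apply, hJ, Matrix.of_apply,
      smul_eq_mul]
    split_ifs <;> simp [hd]
  let K : Matrix Ω Ω ℚ := d⁻¹ • (1 : Matrix Ω Ω ℚ) - (b / (d * s)) • J
  have hMK : (d • (1 : Matrix Ω Ω ℚ) + b • J) * K = 1 := by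
    simp only [K, add_mul, mul_sub, Matrix.smul_mul, Matrix.mul_smul, Matrix.one_mul,
      Matrix.mul_one, hJJ, smul_smul]
    ext i j
    simp only [Matrix.add_apply, Matrix.sub_apply, Matrix.smul_apply, Matrix.one_apply, hJ,
      Matrix.of_apply, smul_eq_mul]
    split_ifs
    · field_simp
      rw [hs]; ring
    · field_simp
      rw [hs]; ring
  have hBC : B * (Bᵀ * K) = 1 := by rw [← Matrix.mul_assoc, hM, hMK]
  have hCB : (Bᵀ * K) * B = 1 := mul_eq_one_comm.mp hBC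
  calc Y = ((Bᵀ * K) * B) * Y := by rw [hCB, Matrix.one_mul]
    _ = (Bᵀ * K) * (B * Y) := Matrix.mul_assoc _ _ _
    _ = 0 := by rw [hY, Matrix.mul_zero]

theorem result {G Ω : Type*} [Group G] [Finite G] [MulAction G Ω] [FaithfulSMul G Ω] [Finite Ω] (h2 : MulAction.IsMultiplyPretransitive G Ω 2) (H : Subgroup G) (hidx : H.index = Nat.card Ω) (hnt : ¬ MulAction.IsPretransitive H Ω) (hfix : ∀ a : Ω, ∃ h : H, h • a ≠ a) : Nat.card (MulAction.orbitRel.Quotient H Ω) = 2 := by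
  classical
  have := Fintype.ofFinite Ω
  have := Fintype.ofFinite (G ⧸ H)
  obtain ⟨e⟩ : Nonempty ((G ⧸ H) ≃ Ω) := Finite.card_eq.mp hidx
  have key : ∀ c₁ c₂ c₃ : orbitRel.Quotient H Ω, c₁ ≠ c₂ → c₁ ≠ c₃ → c₂ ≠ c₃ → False := by
    intro c₁ c₂ c₃ h12 h13 h23
    let B : orbitRel.Quotient H Ω → Matrix Ω Ω ℚ := fun c =>
      Matrix.of fun ω η => if cls H (e.symm η) ω = c then (1 : ℚ) else 0
    have hBB : ∀ c c' ω ω', (B c * (B c')ᵀ) ω ω' = P H c c' ω ω' := by
      intro c c' ω ω'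
      rw [Matrix.mul_apply]
      exact Equiv.sum_comp e.symm
        (fun x => (if cls H x ω = c then (1 : ℚ) else 0) * (if cls H x ω' = c' then 1 else 0))
    obtain ⟨η₀, hη₀⟩ : ∃ η₀ : Ω, η₀ = e (QuotientGroup.mk 1) := ⟨_, rfl⟩
    have hBη : ∀ c ω, B c ω η₀ =
        if (Quotient.mk'' ω : orbitRel.Quotient H Ω) = c then 1 else 0 := by
      intro c ω
      simp only [B, Matrix.of_apply, hη₀, Equiv.symm_apply_apply, cls_one]
    have hω₁ : (Quotient.mk'' (Quotient.out c₁) : orbitRel.Quotient H Ω) = c₁ :=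
      Quotient.out_eq' c₁
    have hω₂ : (Quotient.mk'' (Quotient.out c₂) : orbitRel.Quotient H Ω) = c₂ :=
      Quotient.out_eq' c₂
    have hω₃ : (Quotient.mk'' (Quotient.out c₃) : orbitRel.Quotient H Ω) = c₃ :=
      Quotient.out_eq' c₃
    obtain ⟨a₁, b₁, hv1⟩ := P_values H h2 c₁ c₁
    obtain ⟨a₂, b₂, hv2⟩ := P_values H h2 c₁ c₂
    obtain ⟨a₃, b₃, hv3⟩ := P_values H h2 c₁ c₃
    have hne12 : Quotient.out c₁ ≠ Quotient.out c₂ := by
      intro h; apply h12; rw [← hω₁, ← hω₂, h]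
    have ha₂ : a₂ = 0 := by
      have h := hv2 (Quotient.out c₁) (Quotient.out c₁)
      rw [if_pos rfl, P_diag_zero H h12] at h
      exact h.symm
    have ha₃ : a₃ = 0 := by
      have h := hv3 (Quotient.out c₁) (Quotient.out c₁)
      rw [if_pos rfl, P_diag_zero H h13] at h
      exact h.symm
    have hb₁ : 0 ≤ b₁ := by
      have h := hv1 (Quotient.out c₁) (Quotient.out c₂)
      rw [if_neg hne12] at h
      rw [← h]; exact P_nonneg H _ _ _ _
    have hab₁ : b₁ < a₁ := by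
      have e1 := hv1 (Quotient.out c₁) (Quotient.out c₂)
      have e2 := hv1 (Quotient.out c₁) (Quotient.out c₁)
      rw [if_neg hne12] at e1
      rw [if_pos rfl] at e2
      rw [← e1, ← e2]
      exact P_lt H hω₁ (by rw [hω₂]; exact h12.symm)
    have hLC := left_cancel (B c₁) a₁ b₁ hb₁ hab₁ (fun ω ω' => by rw [hBB, hv1])
    have hY : B c₁ * (b₃ • (B c₂)ᵀ - b₂ • (B c₃)ᵀ) = 0 := by
      rw [Matrix.mul_sub, Matrix.mul_smul, Matrix.mul_smul]
      ext ω ω'
      simp only [Matrix.sub_apply, Matrix.smul_apply, hBB, hv2, hv3, ha₂, ha₃, smul_eq_mul,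
        Matrix.zero_apply]
      split_ifs <;> ring
    have hY0 := hLC _ hY
    have hb₃ : b₃ = 0 := by
      have h := Matrix.ext_iff.mpr hY0 η₀ (Quotient.out c₂)
      simp only [Matrix.sub_apply, Matrix.smul_apply, Matrix.transpose_apply, hBη, hω₂, hω₃,
        smul_eq_mul, Matrix.zero_apply] at h
      simpa [h23] using h
    have hb₂ : b₂ = 0 := by
      have h := Matrix.ext_iff.mpr hY0 η₀ (Quotient.out c₃)
      simp only [Matrix.sub_apply, Matrix.smul_apply, Matrix.transpose_apply, hBη, hω₂, hω₃,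
        smul_eq_mul, Matrix.zero_apply] at h
      simpa [h23.symm] using h
    have hZ : B c₁ * (B c₂)ᵀ = 0 := by
      ext ω ω'
      rw [hBB, hv2, ha₂, hb₂]; simp
    have hZ0 := hLC _ hZ
    have h := Matrix.ext_iff.mpr hZ0 η₀ (Quotient.out c₂)
    simp only [Matrix.transpose_apply, hBη, hω₂, Matrix.zero_apply] at h
    simp at h
  have hnontriv : Nontrivial (orbitRel.Quotient H Ω) := by
    by_contra h
    rw [not_nontrivial_iff_subsingleton] at h
    exact hnt ((MulAction.pretransitive_iff_subsingleton_quotient H Ω).mpr h)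
  have hle : Nat.card (orbitRel.Quotient H Ω) ≤ 2 := by
    by_contra h
    push Not at h
    have := Fintype.ofFinite (orbitRel.Quotient H Ω)
    rw [Nat.card_eq_fintype_card, Fintype.two_lt_card_iff] at h
    obtain ⟨a, b, c, hab, hac, hbc⟩ := h
    exact key a b c hab hac hbc
  have hge : 1 < Nat.card (orbitRel.Quotient H Ω) :=
    Finite.one_lt_card_iff_nontrivial.mpr hnontriv
  omega

end Cfsg.Agent.S3704
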