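import Cfsg.Statements.S3707

set_option autoImplicit false
open Cfsg
open scoped Pointwise

namespace Cfsg.Agent.S3707

/-- `Δ` is pointwise fixed by a subgroup of `G` that is transitive on the complement of `Δ`. -/
def Jor (G : Type*) {Ω : Type*} [Group G] [MulAction G Ω] (Δ : Set Ω) : Prop :=
  ∀ x ∉ Δ, ∀ y ∉ Δ, ∃ g : G, (∀ z ∈ Δ, g • z = z) ∧ g • x = y

section

variable {G Ω : Type*} [Group G] [MulAction G Ω]

theorem Jor.smul {Δ : Set Ω} (h : Jor G Δ) (g : G) : Jor G (g • Δ) := by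
  intro x hx y hy
  have hx' : g⁻¹ • x ∉ Δ := fun hh => hx (Set.mem_smul_set_iff_inv_smul_mem.mpr hh)
  have hy' : g⁻¹ • y ∉ Δ := fun hh => hy (Set.mem_smul_set_iff_inv_smul_mem.mpr hh)
  obtain ⟨k, hk, hkx⟩ := h _ hx' _ hy'
  refine ⟨g * k * g⁻¹, ?_, ?_⟩
  · intro z hz
    have hz' := Set.mem_smul_set_iff_inv_smul_mem.mp hz
    rw [mul_smul, mul_smul, hk _ hz', smul_inv_smul]
  · rw [mul_smul, mul_smul, hkx, smul_inv_smul]

theorem Jor.inter {Δ₁ Δ₂ : Set Ω} (h₁ : Jor G Δ₁) (h₂ : Jor G Δ₂) (w : Ω) (hw₁ : w ∉ Δ₁)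
    (hw₂ : w ∉ Δ₂) : Jor G (Δ₁ ∩ Δ₂) := by
  have key : ∀ x ∉ Δ₁ ∩ Δ₂, ∃ g : G, (∀ z ∈ Δ₁ ∩ Δ₂, g • z = z) ∧ g • x = w := by
    intro x hx
    by_cases hx1 : x ∈ Δ₁
    · have hx2 : x ∉ Δ₂ := fun h => hx ⟨hx1, h⟩
      obtain ⟨g, hg, hgx⟩ := h₂ x hx2 w hw₂
      exact ⟨g, fun z hz => hg z hz.2, hgx⟩
    · obtain ⟨g, hg, hgx⟩ := h₁ x hx1 w hw₁
      exact ⟨g, fun z hz => hg z hz.1, hgx⟩
  intro x hx y hy
  obtain ⟨g₁, hg₁, hg₁x⟩ := key x hx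
  obtain ⟨g₂, hg₂, hg₂y⟩ := key y hy
  refine ⟨g₂⁻¹ * g₁, ?_, ?_⟩
  · intro z hz
    rw [mul_smul, hg₁ z hz, inv_smul_eq_iff, hg₂ z hz]
  · rw [mul_smul, hg₁x, inv_smul_eq_iff, hg₂y]

theorem three_trans_of
    (h2 : ∀ {a b c d : Ω}, a ≠ b → c ≠ d → ∃ g : G, g • a = c ∧ g • b = d)
    (a b : Ω) (hab : a ≠ b)
    (h3 : ∀ x, x ≠ a → x ≠ b → ∀ y, y ≠ a → y ≠ b →
      ∃ g : G, g • a = a ∧ g • b = b ∧ g • x = y) :
    MulAction.IsMultiplyPretransitive G Ω 3 := by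
  refine ⟨fun x y => ?_⟩
  have hx01 : x 0 ≠ x 1 := fun h => absurd (x.injective h) (by decide)
  have hx02 : x 2 ≠ x 0 := fun h => absurd (x.injective h) (by decide)
  have hx12 : x 2 ≠ x 1 := fun h => absurd (x.injective h) (by decide)
  have hy01 : y 0 ≠ y 1 := fun h => absurd (y.injective h) (by decide)
  have hy02 : y 2 ≠ y 0 := fun h => absurd (y.injective h) (by decide)
  have hy12 : y 2 ≠ y 1 := fun h => absurd (y.injective h) (by decide)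
  obtain ⟨g₁, hg₁a, hg₁b⟩ := h2 hx01 hab
  obtain ⟨g₂, hg₂a, hg₂b⟩ := h2 hy01 hab
  have hx2a : g₁ • x 2 ≠ a := by
    rw [← hg₁a]; exact fun h => hx02 (MulAction.injective g₁ h)
  have hx2b : g₁ • x 2 ≠ b := by
    rw [← hg₁b]; exact fun h => hx12 (MulAction.injective g₁ h)
  have hy2a : g₂ • y 2 ≠ a := by
    rw [← hg₂a]; exact fun h => hy02 (MulAction.injective g₂ h)
  have hy2b : g₂ • y 2 ≠ b := by
    rw [← hg₂b]; exact fun h => hy12 (MulAction.injective g₂ h)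
  obtain ⟨k, hka, hkb, hkx⟩ := h3 _ hx2a hx2b _ hy2a hy2b
  refine ⟨g₂⁻¹ * k * g₁, ?_⟩
  ext i
  rw [Function.Embedding.smul_apply, mul_smul, mul_smul, inv_smul_eq_iff]
  fin_cases i
  · show k • g₁ • x 0 = g₂ • y 0
    rw [hg₁a, hka, hg₂a]
  · show k • g₁ • x 1 = g₂ • y 1
    rw [hg₁b, hkb, hg₂b]
  · show k • g₁ • x 2 = g₂ • y 2
    exact hkx

end

theorem result {G Ω : Type*} [Group G] [Finite G] [MulAction G Ω] [FaithfulSMul G Ω] [Finite Ω] (hprim : MulAction.IsPreprimitive G Ω) (Γ : Set Ω) (h1 : 1 < Γ.ncard) (h2 : 2 * Γ.ncard ≤ Nat.card Ω) (htr : ∀ x ∈ Γ, ∀ y ∈ Γ, ∃ g : G, (∀ z ∉ Γ, g • z = z) ∧ g • x = y) : MulAction.IsMultiplyPretransitive G Ω 3 := by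
  classical
  have hn : Γ.ncard + Γᶜ.ncard = Nat.card Ω := Set.ncard_add_ncard_compl Γ
  have hJ0 : Jor G Γᶜ := by
    intro x hx y hy
    have hx' : x ∈ Γ := Set.notMem_compl_iff.mp hx
    have hy' : y ∈ Γ := Set.notMem_compl_iff.mp hy
    obtain ⟨g, hg, hgx⟩ := htr x hx' y hy'
    exact ⟨g, fun z hz => hg z hz, hgx⟩
  -- 2-transitivity from Jordan's theorem
  have h2T : MulAction.IsMultiplyPretransitive G Ω 2 := by
    have hpt : MulAction.IsPretransitive (fixingSubgroup G Γᶜ)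
        (SubMulAction.ofFixingSubgroup G Γᶜ) := by
      refine ⟨fun x y => ?_⟩
      obtain ⟨g, hg, hgx⟩ := hJ0 x.1 x.2 y.1 y.2
      refine ⟨⟨g, (mem_fixingSubgroup_iff G).mpr hg⟩, ?_⟩
      apply Subtype.ext
      exact hgx
    obtain ⟨n', hn'⟩ : ∃ n', Γᶜ.ncard = n' + 1 := ⟨Γᶜ.ncard - 1, by omega⟩
    exact hprim.is_two_pretransitive hn' (by omega) hpt
  have h2T' : ∀ {a b c d : Ω}, a ≠ b → c ≠ d → ∃ g : G, g • a = c ∧ g • b = d :=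
    MulAction.is_two_pretransitive_iff.mp h2T
  -- a minimal member of the family of Jordan complements
  have hex : ∃ k, ∃ Δ : Set Ω, (Jor G Δ ∧ 2 ≤ Δ.ncard ∧ Δ.ncard + 2 ≤ Nat.card Ω) ∧ Δ.ncard = k :=
    ⟨_, Γᶜ, ⟨hJ0, by omega, by omega⟩, rfl⟩
  obtain ⟨Δ, ⟨hΔJ, hΔ2, hΔn⟩, hk⟩ := Nat.find_spec hex
  have hmin : ∀ Δ' : Set Ω, Jor G Δ' → 2 ≤ Δ'.ncard → Δ'.ncard + 2 ≤ Nat.card Ω →
      Δ.ncard ≤ Δ'.ncard := fun Δ' h1' h2' h3' => by
    rw [hk]; exact Nat.find_min' hex ⟨Δ', ⟨h1', h2', h3'⟩, rfl⟩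
  rcases Nat.lt_or_ge 2 Δ.ncard with h3 | h3
  swap
  · -- a Jordan set with complement of size two
    have hΔ2' : Δ.ncard = 2 := le_antisymm h3 hΔ2
    obtain ⟨a, b, hab, rfl⟩ := Set.ncard_eq_two.mp hΔ2'
    refine three_trans_of h2T' a b hab ?_
    intro x hxa hxb y hya hyb
    obtain ⟨g, hg, hgx⟩ := hΔJ x (by simp [hxa, hxb]) y (by simp [hya, hyb])
    exact ⟨g, hg a (by simp), hg b (by simp), hgx⟩
  exfalso
  have hA1 : ∀ g : G, g • Δ ≠ Δ → ∀ w, w ∉ Δ → w ∉ g • Δ → (Δ ∩ g • Δ).ncard ≤ 1 := by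
    intro g hg w hw1 hw2
    by_contra hcon
    have hJ := hΔJ.inter (hΔJ.smul g) w hw1 hw2
    have hle : (Δ ∩ g • Δ).ncard ≤ Δ.ncard := Set.ncard_le_ncard Set.inter_subset_left
    have hge := hmin _ hJ (by omega) (by omega)
    have heq : Δ ∩ g • Δ = Δ := Set.eq_of_subset_of_ncard_le Set.inter_subset_left hge
    have hsub : Δ ⊆ g • Δ := fun x hx => (show x ∈ Δ ∩ g • Δ by rw [heq]; exact hx).2
    have heq2 : Δ = g • Δ :=
      Set.eq_of_subset_of_ncard_le hsub (by rw [Set.ncard_smul_set])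
    exact hg heq2.symm
  have hcompl : Δ.ncard + Δᶜ.ncard = Nat.card Ω := Set.ncard_add_ncard_compl Δ
  have hA2 : 2 * Δ.ncard ≤ Nat.card Ω + 1 := by
    by_contra hcon
    have hblock : MulAction.IsBlock G Δᶜ := by
      rw [MulAction.isBlock_iff_smul_eq_or_disjoint]
      intro g
      by_cases hg : g • Δ = Δ
      · left
        rw [Set.smul_set_compl, hg]
      · right
        rw [Set.smul_set_compl, Set.disjoint_left]
        intro x hx1 hx2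
        have h1 := hA1 g hg x hx2 hx1
        have h2 := Set.ncard_union_add_ncard_inter Δ (g • Δ)
        have h3 : (Δ ∪ g • Δ).ncard ≤ Nat.card Ω := by
          rw [← Set.ncard_univ]; exact Set.ncard_le_ncard (Set.subset_univ _)
        rw [Set.ncard_smul_set] at h2
        omega
    rcases hprim.isTrivialBlock_of_isBlock hblock with hs | hu
    · have : Δᶜ.ncard ≤ 1 := by
        rw [Set.ncard_le_one_iff]
        intro a b ha hb
        exact hs ha hb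
      omega
    · rw [hu, Set.ncard_univ] at hcompl
      omega
  have hA3 : ∀ g : G, g • Δ ≠ Δ → (Δ ∩ g • Δ).ncard ≤ 1 := by
    intro g hg
    by_cases hw : ∃ w, w ∉ Δ ∧ w ∉ g • Δ
    · obtain ⟨w, hw1, hw2⟩ := hw
      exact hA1 g hg w hw1 hw2
    · have hu : Δ ∪ g • Δ = Set.univ := by
        ext x
        simp only [Set.mem_union, Set.mem_univ, iff_true]
        by_contra hx
        exact hw ⟨x, fun h => hx (Or.inl h), fun h => hx (Or.inr h)⟩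
      have h2 := Set.ncard_union_add_ncard_inter Δ (g • Δ)
      rw [hu, Set.ncard_univ, Set.ncard_smul_set] at h2
      omega
  -- lines: the translates of Δ
  have hL1 : ∀ p s : Ω, p ≠ s → ∃ g : G, p ∈ g • Δ ∧ s ∈ g • Δ := by
    intro p s hps
    obtain ⟨a, b, ha, hb, hab⟩ := (Set.one_lt_ncard_iff (Set.toFinite _)).mp (by omega : 1 < Δ.ncard)
    obtain ⟨g, hga, hgb⟩ := h2T' hab hps
    exact ⟨g, hga ▸ Set.smul_mem_smul_set ha, hgb ▸ Set.smul_mem_smul_set hb⟩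
  have hL2 : ∀ (g₁ g₂ : G) (p s : Ω), p ≠ s → p ∈ g₁ • Δ → s ∈ g₁ • Δ → p ∈ g₂ • Δ →
      s ∈ g₂ • Δ → g₁ • Δ = g₂ • Δ := by
    intro g₁ g₂ p s hps hp1 hs1 hp2 hs2
    by_contra hne
    have hne' : (g₁⁻¹ * g₂) • Δ ≠ Δ := by
      intro h
      apply hne
      rw [mul_smul, inv_smul_eq_iff] at h
      exact h.symm
    have h1 := hA3 _ hne'
    have hp1' : g₁⁻¹ • p ∈ Δ := Set.mem_smul_set_iff_inv_smul_mem.mp hp1
    have hs1' : g₁⁻¹ • s ∈ Δ := Set.mem_smul_set_iff_inv_smul_mem.mp hs1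
    have hp2' : g₁⁻¹ • p ∈ (g₁⁻¹ * g₂) • Δ := by
      rw [mul_smul]; exact Set.smul_mem_smul_set hp2
    have hs2' : g₁⁻¹ • s ∈ (g₁⁻¹ * g₂) • Δ := by
      rw [mul_smul]; exact Set.smul_mem_smul_set hs2
    have h2 : 1 < (Δ ∩ (g₁⁻¹ * g₂) • Δ).ncard :=
      (Set.one_lt_ncard_iff (Set.toFinite _)).mpr ⟨_, _, ⟨hp1', hp2'⟩, ⟨hs1', hs2'⟩,
        fun h => hps (MulAction.injective _ h)⟩
    omega
  have hL3 : ∀ (g : G) (w : Ω), w ∈ Γ → w ∉ g • Δ →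
      (g • Δ ∩ Γᶜ).ncard ≤ 1 ∨ g • Δ ⊆ Γᶜ := by
    intro g w hwΓ hw
    by_contra hcon
    push Not at hcon
    obtain ⟨hc1, hc2⟩ := hcon
    have hJ := (hΔJ.smul g).inter hJ0 w hw (fun h => h hwΓ)
    have hle : (g • Δ ∩ Γᶜ).ncard ≤ (g • Δ).ncard := Set.ncard_le_ncard Set.inter_subset_left
    rw [Set.ncard_smul_set] at hle
    have hge := hmin _ hJ (by omega) (by omega)
    have heq : g • Δ ∩ Γᶜ = g • Δ :=
      Set.eq_of_subset_of_ncard_le Set.inter_subset_left (by rw [Set.ncard_smul_set]; exact hge)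
    exact hc2 (fun x hx => (show x ∈ g • Δ ∩ Γᶜ by rw [heq]; exact hx).2)
  obtain ⟨p, p', hpΓ, hp'Γ, hpp'⟩ := (Set.one_lt_ncard_iff (Set.toFinite _)).mp h1
  -- points of a line through `p` outside `Γᶜ`
  have hline : ∀ (g : G), p ∈ g • Δ → (g • Δ ∩ Γᶜ).ncard ≤ 1 → 1 < (g • Δ \ Γᶜ).ncard := by
    intro g _ hle
    have h := Set.ncard_inter_add_ncard_sdiff_eq_ncard (g • Δ) Γᶜ
    rw [Set.ncard_smul_set] at h
    omega
  by_cases hB : ∃ g₀ : G, Γ ⊆ g₀ • Δ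
  · obtain ⟨g₀, hg₀⟩ := hB
    have hall : ∀ s : Ω, s ∈ g₀ • Δ := by
      intro s
      by_contra hs
      have hsΓ : s ∉ Γ := fun h => hs (hg₀ h)
      have hps : p ≠ s := fun h => hsΓ (h ▸ hpΓ)
      obtain ⟨g, hpg, hsg⟩ := hL1 p s hps
      have hne : g • Δ ≠ g₀ • Δ := fun h => hs (h ▸ hsg)
      have hnot : ¬ Γ ⊆ g • Δ := fun h =>
        hne (hL2 g g₀ p p' hpp' (h hpΓ) (h hp'Γ) (hg₀ hpΓ) (hg₀ hp'Γ))
      obtain ⟨w, hwΓ, hw⟩ := Set.not_subset.mp hnot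
      rcases hL3 g w hwΓ hw with h | h
      · obtain ⟨q, q', hq, hq', hqq'⟩ := (Set.one_lt_ncard_iff (Set.toFinite _)).mp (hline g hpg h)
        have hqΓ : q ∈ Γ := Set.notMem_compl_iff.mp hq.2
        have hq'Γ : q' ∈ Γ := Set.notMem_compl_iff.mp hq'.2
        exact hne (hL2 g g₀ q q' hqq' hq.1 hq'.1 (hg₀ hqΓ) (hg₀ hq'Γ))
      · exact (h hpg) hpΓ
    have hu : g₀ • Δ = Set.univ := Set.eq_univ_of_forall hall
    have := Set.ncard_smul_set g₀ Δ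
    rw [hu, Set.ncard_univ] at this
    omega
  · push Not at hB
    have hchoice : ∀ s : Ω, s ∈ Γᶜ → ∃ q : Ω, q ∈ Γ ∧ q ≠ p ∧
        ∃ g : G, p ∈ g • Δ ∧ s ∈ g • Δ ∧ q ∈ g • Δ ∧ (g • Δ ∩ Γᶜ).ncard ≤ 1 := by
      intro s hs
      have hps : p ≠ s := fun h => hs (h ▸ hpΓ)
      obtain ⟨g, hpg, hsg⟩ := hL1 p s hps
      obtain ⟨w, hwΓ, hw⟩ := Set.not_subset.mp (hB g)
      rcases hL3 g w hwΓ hw with h | h
      · obtain ⟨q, hq, hqp⟩ := Set.exists_ne_of_one_lt_ncard (hline g hpg h) p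
        exact ⟨q, Set.notMem_compl_iff.mp hq.2, hqp, g, hpg, hsg, hq.1, h⟩
      · exact absurd hpΓ (h hpg)
    choose! f hf using hchoice
    have hinj : Set.InjOn f Γᶜ := by
      intro s hs s' hs' hff
      obtain ⟨hq1, hq2, g, hpg, hsg, hqg, hle⟩ := hf s hs
      obtain ⟨hq1', hq2', g', hpg', hsg', hqg', hle'⟩ := hf s' hs'
      rw [← hff] at hqg'
      have heq : g • Δ = g' • Δ := hL2 g g' p (f s) (Ne.symm hq2) hpg hqg hpg' hqg'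
      rw [← heq] at hsg'
      exact ((Set.ncard_le_one_iff (Set.toFinite _)).mp hle) ⟨hsg, hs⟩ ⟨hsg', hs'⟩
    have hcard : Γᶜ.ncard ≤ (Γ \ {p}).ncard :=
      Set.ncard_le_ncard_of_injOn f (fun s hs => ⟨(hf s hs).1, (hf s hs).2.1⟩) hinj
    rw [Set.ncard_sdiff_singleton_of_mem hpΓ] at hcard
    omega

end Cfsg.Agent.S3707
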