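import Cfsg.Statements.S3733
import Mathlib

set_option autoImplicit false
open Cfsg

namespace Cfsg.Agent.S3733

open scoped IsMulCommutative

/-- conjugation of an element of `V` by `a` (junk value `1` if the conjugate leaves `V`). -/
noncomputable def cj {G : Type*} [Group G] (V : Subgroup G) (a : G) (w : V) : V :=
  open Classical in
  if h : a * (w : G) * a⁻¹ ∈ V then ⟨a * w * a⁻¹, h⟩ else 1

theorem cj_coe {G : Type*} [Group G] (V : Subgroup G) {a : G}
    (ha : a ∈ Subgroup.normalizer (V : Set G)) (w : V) :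
    ((cj V a w : V) : G) = a * w * a⁻¹ := by
  have h : a * (w : G) * a⁻¹ ∈ V := (Subgroup.mem_normalizer_iff.mp ha w).mp w.2
  simp [cj, h]

theorem norm_mem_centralizer {G : Type*} [Group G] [Fintype G] (V : Subgroup G)
    [IsMulCommutative V]
    (B : Subgroup G) [DecidablePred (· ∈ B)] (hB : B ≤ Subgroup.normalizer (V : Set G)) (w : V) :
    ((∏ a ∈ Finset.univ.filter (· ∈ B), cj V a w : V) : G) ∈
      Subgroup.centralizer (B : Set G) := by
  rw [Subgroup.mem_centralizer_iff]
  intro b hb
  set P : V := ∏ a ∈ Finset.univ.filter (· ∈ B), cj V a w with hP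
  have hbN : b ∈ Subgroup.normalizer (V : Set G) := hB hb
  have key : cj V b P = P := by
    have hmul : ∀ x y : V, cj V b (x * y) = cj V b x * cj V b y := by
      intro x y
      apply Subtype.ext
      rw [Subgroup.coe_mul, cj_coe V hbN, cj_coe V hbN, cj_coe V hbN, Subgroup.coe_mul]
      group
    have hone : cj V b 1 = 1 := by
      apply Subtype.ext
      rw [cj_coe V hbN]; simp
    let φ : V →* V := ⟨⟨cj V b, hone⟩, hmul⟩
    have h1 : φ P = ∏ a ∈ Finset.univ.filter (· ∈ B), φ (cj V a w) := by
      rw [hP]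
      exact map_prod φ _ _
    have h1' : cj V b P = ∏ a ∈ Finset.univ.filter (· ∈ B), cj V b (cj V a w) := h1
    rw [h1']
    have h2 : ∀ a ∈ Finset.univ.filter (· ∈ B), cj V b (cj V a w) = cj V (b * a) w := by
      intro a ha
      have haB : a ∈ B := (Finset.mem_filter.mp ha).2
      apply Subtype.ext
      rw [cj_coe V hbN, cj_coe V (hB haB), cj_coe V (hB (B.mul_mem hb haB))]
      group
    rw [Finset.prod_congr rfl h2, hP]
    apply Finset.prod_bij (fun a _ => b * a)
    · intro a ha
      simp only [Finset.mem_filter, Finset.mem_univ, true_and] at ha ⊢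
      exact B.mul_mem hb ha
    · intro a₁ _ a₂ _ h
      exact mul_left_cancel h
    · intro c hc
      simp only [Finset.mem_filter, Finset.mem_univ, true_and] at hc
      refine ⟨b⁻¹ * c, ?_, by simp⟩
      simp only [Finset.mem_filter, Finset.mem_univ, true_and]
      exact B.mul_mem (B.inv_mem hb) hc
    · intro a _; rfl
  have h3 := congrArg (fun x : V => (x : G)) key
  simp only [cj_coe V hbN] at h3
  calc b * (P : G) = b * P * b⁻¹ * b := by group
    _ = P * b := by rw [h3]

/-- Let A and V be subgroups of a finite group with V abelian and nontrivial and A normalizing V. Suppose a nonempty finite family of proper subgroups of A partitions A: every non-identity element of A lies in exactly one member. If the number of members minus one is coprime to the order of V, then some member B of the family has a non-identity fixed point on V, that is V ∩ C(B) ≠ 1. -/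
theorem result {G : Type*} [Group G] [Finite G] (A V : Subgroup G) (hVab : IsMulCommutative V) (hV : V ≠ ⊥) (hAV : A ≤ Subgroup.normalizer (V : Set G)) (𝒜 : Finset (Subgroup G)) (hne : 𝒜.Nonempty) (hprop : ∀ B ∈ 𝒜, B < A) (hpart : ∀ a ∈ A, a ≠ 1 → ∃! B, B ∈ 𝒜 ∧ a ∈ B) (hk : (𝒜.card - 1).Coprime (Nat.card V)) : ∃ B ∈ 𝒜, V ⊓ Subgroup.centralizer (B : Set G) ≠ ⊥ := by
  classical
  have := Fintype.ofFinite G
  by_contra hcon
  push Not at hcon
  apply hV
  rw [Subgroup.eq_bot_iff_forall]
  intro v hv
  let w : V := ⟨v, hv⟩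
  have hBA : ∀ B ∈ 𝒜, B ≤ A := fun B hB => (hprop B hB).le
  have hnorm : ∀ B : Subgroup G, B ≤ A → (∃ B₀ ∈ 𝒜, B₀ ≤ B) →
      ∏ a ∈ Finset.univ.filter (· ∈ B), cj V a w = 1 := by
    rintro B hB ⟨B₀, hB₀, hle⟩
    have h1 := norm_mem_centralizer V B (hB.trans hAV) w
    have h2 : ((∏ a ∈ Finset.univ.filter (· ∈ B), cj V a w : V) : G) ∈
        V ⊓ Subgroup.centralizer (B₀ : Set G) :=
      ⟨Subtype.property _, Subgroup.centralizer_le (SetLike.coe_subset_coe.mpr hle) h1⟩
    rw [hcon B₀ hB₀, Subgroup.mem_bot] at h2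
    exact Subtype.ext h2
  have hA := hnorm A le_rfl (by obtain ⟨B₀, hB₀⟩ := hne; exact ⟨B₀, hB₀, hBA B₀ hB₀⟩)
  have hprod : ∏ B ∈ 𝒜, ∏ a ∈ Finset.univ.filter (· ∈ B), cj V a w = 1 := by
    apply Finset.prod_eq_one
    intro B hB
    exact hnorm B (hBA B hB) ⟨B, hB, le_rfl⟩
  have hcount : ∏ B ∈ 𝒜, ∏ a ∈ Finset.univ.filter (· ∈ B), cj V a w
      = (∏ a ∈ Finset.univ.filter (· ∈ A), cj V a w) * w ^ (𝒜.card - 1) := by
    have e1 : ∀ B ∈ 𝒜, ∏ a ∈ Finset.univ.filter (· ∈ B), cj V a w
        = ∏ a ∈ Finset.univ.filter (· ∈ A), if a ∈ B then cj V a w else 1 := by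
      intro B hB
      rw [← Finset.prod_filter, Finset.filter_filter]
      apply Finset.prod_congr _ (fun _ _ => rfl)
      ext a
      simp only [Finset.mem_filter, Finset.mem_univ, true_and]
      constructor
      · intro h; exact ⟨hBA B hB h, h⟩
      · intro h; exact h.2
    rw [Finset.prod_congr rfl e1, Finset.prod_comm]
    have e2 : ∀ a ∈ Finset.univ.filter (· ∈ A), ∏ B ∈ 𝒜, (if a ∈ B then cj V a w else 1)
        = cj V a w * (if a = 1 then w ^ (𝒜.card - 1) else 1) := by
      intro a ha
      have haA : a ∈ A := (Finset.mem_filter.mp ha).2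
      rw [Finset.prod_ite, Finset.prod_const_one, mul_one, Finset.prod_const]
      by_cases h1 : a = 1
      · subst h1
        have hf : 𝒜.filter (fun B => (1 : G) ∈ B) = 𝒜 := by
          apply Finset.filter_true_of_mem
          intro B _; exact B.one_mem
        rw [hf, if_pos rfl]
        have hc1 : cj V 1 w = w := by
          apply Subtype.ext; rw [cj_coe V (Subgroup.one_mem _)]; simp
        rw [hc1, ← pow_succ']
        congr 1
        have := Finset.card_pos.mpr hne
        omega
      · rw [if_neg h1, mul_one]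
        obtain ⟨B₁, ⟨hB₁, haB₁⟩, huniq⟩ := hpart a haA h1
        have hf : 𝒜.filter (fun B => a ∈ B) = {B₁} := by
          ext B
          simp only [Finset.mem_filter, Finset.mem_singleton]
          constructor
          · intro h; exact huniq B h
          · rintro rfl; exact ⟨hB₁, haB₁⟩
        rw [hf, Finset.card_singleton, pow_one]
    rw [Finset.prod_congr rfl e2, Finset.prod_mul_distrib]
    congr 1
    rw [Finset.prod_ite_eq']
    simp [A.one_mem]
  rw [hcount, hA, one_mul] at hprod
  have hord : orderOf w ∣ 𝒜.card - 1 := orderOf_dvd_of_pow_eq_one hprod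
  have hord2 : orderOf w ∣ Nat.card V := orderOf_dvd_natCard w
  have h1 := Nat.dvd_gcd hord hord2
  rw [Nat.Coprime.gcd_eq_one hk] at h1
  have h2 : orderOf w = 1 := Nat.dvd_one.mp h1
  rw [orderOf_eq_one_iff] at h2
  exact congrArg Subtype.val h2

end Cfsg.Agent.S3733
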