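import Mathlib
import Cfsg.Agent.Lib.Helper61.Coprime
import Cfsg.Agent.Lib.Helper61.AbGen
import Cfsg.Agent.Lib.Helper1.Tools
import Cfsg.Agent.S0026
import Cfsg.Statements.S3734

namespace Cfsg.Agent.S3734

open Cfsg.Agent.Lib.Helper61 Cfsg.Agent.Lib.Helper1 in
/-- Part 1: generation by the centralizers of subgroups with cyclic quotient. -/
theorem part1 {X : Type*} [Group X] [Finite X] (A G : Subgroup X) (hAab : IsMulCommutative A)
    (hAG : A ≤ Subgroup.normalizer (G : Set X)) (hcop : (Nat.card A).Coprime (Nat.card G)) :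
    G ≤ ⨆ B ∈ {B : Subgroup X | B ≤ A ∧ ∃ a ∈ A, B ⊔ Subgroup.zpowers a = A},
      G ⊓ Subgroup.centralizer (B : Set X) := by
  have hcomm : ∀ x ∈ A, ∀ y ∈ A, x * y = y * x := by
    intro x hx y hy
    have := hAab.is_comm.comm (⟨x, hx⟩ : A) ⟨y, hy⟩
    exact congrArg Subtype.val this
  have key : ∀ m : ℕ, ∀ D Y : Subgroup X, Nat.card A - Nat.card D = m → D ≤ A → Y ≤ G →
      Y ≤ Subgroup.centralizer (D : Set X) → A ≤ Subgroup.normalizer (Y : Set X) →
      Y ≤ ⨆ B ∈ {B : Subgroup X | B ≤ A ∧ ∃ a ∈ A, B ⊔ Subgroup.zpowers a = A},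
        G ⊓ Subgroup.centralizer (B : Set X) := by
    intro m
    induction m using Nat.strong_induction_on with
    | _ m ih =>
    intro D Y hm hDA hYG hYD hAY
    by_cases hD : ∃ a ∈ A, D ⊔ Subgroup.zpowers a = A
    · exact le_iSup₂_of_le D ⟨hDA, hD⟩ (le_inf hYG hYD)
    · obtain ⟨p, hp, hpA, x, hx, y, hy, hxp, hyp, hyD, hxy⟩ :=
        exists_prime_pair_of_not_cyclic_quotient A D hAab hDA hD
      have : Fact p.Prime := ⟨hp⟩
      have hcopY : (Nat.card A).Coprime (Nat.card Y) :=
        hcop.coprime_dvd_right (Subgroup.card_dvd_of_le hYG)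
      have hpY : ¬ p ∣ Nat.card Y := fun h =>
        hp.one_lt.ne' (Nat.eq_one_of_dvd_coprimes hcopY hpA h)
      have hDY : D ≤ Subgroup.centralizer (Y : Set X) := Subgroup.le_centralizer_iff.mp hYD
      have hgen := coprime_generation_abelian A Y hcomm hAY hcopY hpY x y hx hy
        (hDY hxp) (hDY hyp)
      have step : ∀ g ∈ A, g ∉ D → Y ⊓ Subgroup.centralizer ({g} : Set X) ≤
          ⨆ B ∈ {B : Subgroup X | B ≤ A ∧ ∃ a ∈ A, B ⊔ Subgroup.zpowers a = A},
            G ⊓ Subgroup.centralizer (B : Set X) := by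
        intro u huA huD
        have hzuA : Subgroup.zpowers u ≤ A := by
          rw [Subgroup.zpowers_le]; exact huA
        have hD'A : D ⊔ Subgroup.zpowers u ≤ A := sup_le hDA hzuA
        have hlt : D < D ⊔ Subgroup.zpowers u := by
          refine lt_of_le_of_ne le_sup_left ?_
          intro h
          exact huD (h ▸ Subgroup.mem_sup_right (Subgroup.mem_zpowers u))
        have hcardlt : Nat.card A - Nat.card (D ⊔ Subgroup.zpowers u : Subgroup X) < m := by
          have h1 := card_lt_card_of_lt hlt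
          have h2 := Subgroup.card_le_of_le hD'A
          omega
        have hY'cent : Y ⊓ Subgroup.centralizer ({u} : Set X) ≤
            Subgroup.centralizer ((D ⊔ Subgroup.zpowers u : Subgroup X) : Set X) := by
          rw [Subgroup.le_centralizer_iff]
          refine sup_le ?_ ?_
          · rw [← Subgroup.le_centralizer_iff]
            exact inf_le_left.trans hYD
          · rw [Subgroup.zpowers_le, Subgroup.mem_centralizer_iff]
            intro y hy
            have := Subgroup.mem_centralizer_iff.mp hy.2 u (Set.mem_singleton u)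
            exact this.symm
        have hAY' : A ≤ Subgroup.normalizer
            ((Y ⊓ Subgroup.centralizer ({u} : Set X) : Subgroup X) : Set X) := by
          rw [Subgroup.le_normalizer_iff]
          intro a ha y hy
          refine Subgroup.mem_inf.mpr ⟨(Subgroup.le_normalizer_iff.mp hAY) a ha y hy.1, ?_⟩
          rw [Subgroup.mem_centralizer_iff]
          intro v hv
          rw [Set.mem_singleton_iff] at hv
          subst hv
          have h1 : v * y = y * v := Subgroup.mem_centralizer_iff.mp hy.2 v (Set.mem_singleton v)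
          have h2 : v * a = a * v := hcomm v huA a ha
          have h3 : v * a⁻¹ = a⁻¹ * v := by
            have : a⁻¹ * (v * a) * a⁻¹ = a⁻¹ * (a * v) * a⁻¹ := by rw [h2]
            simpa [mul_assoc] using this.symm
          calc v * (a * y * a⁻¹) = (v * a) * y * a⁻¹ := by group
            _ = a * (v * y) * a⁻¹ := by rw [h2]; group
            _ = a * y * (v * a⁻¹) := by rw [h1]; group
            _ = a * y * a⁻¹ * v := by rw [h3]; group
        exact ih _ hcardlt (D ⊔ Subgroup.zpowers u) _ rfl hD'A (inf_le_left.trans hYG) hY'cent hAY'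
      exact hgen.trans (sup_le (step y hy hyD)
        (iSup_le fun i => step _ (A.mul_mem hx (A.pow_mem hy i)) (hxy i)))
  refine key _ ⊥ G rfl bot_le le_rfl ?_ hAG
  intro y _
  rw [Subgroup.mem_centralizer_iff]
  intro h hh
  have : h = 1 := Subgroup.mem_bot.mp hh
  rw [this]; simp

open Cfsg.Agent.Lib.Helper61 in
theorem result {X : Type*} [Group X] [Finite X] (A G : Subgroup X) (hAab : IsMulCommutative A) (hAG : A ≤ Subgroup.normalizer (G : Set X)) (hcop : (Nat.card A).Coprime (Nat.card G)) : (⨆ B ∈ {B : Subgroup X | B ≤ A ∧ ∃ a ∈ A, B ⊔ Subgroup.zpowers a = A}, G ⊓ Subgroup.centralizer (B : Set X)) = G ∧ (⨆ B ∈ {B : Subgroup X | B ≤ A ∧ ∃ a ∈ A, B ⊔ Subgroup.zpowers a = A}, ⁅G ⊓ Subgroup.centralizer (B : Set X), A⁆) = ⁅G, A⁆ := by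
  have h1 := part1 A G hAab hAG hcop
  have hcomm : ∀ x ∈ A, ∀ y ∈ A, x * y = y * x := by
    intro x hx y hy
    have := hAab.is_comm.comm (⟨x, hx⟩ : A) ⟨y, hy⟩
    exact congrArg Subtype.val this
  have hsolvA : Group.IsSolvable A :=
    Group.isSolvable_of_comm (fun x y => Subtype.ext (hcomm x x.2 y y.2))
  refine ⟨le_antisymm (iSup₂_le fun B _ => inf_le_left) h1, ?_⟩
  apply le_antisymm
  · exact iSup₂_le fun B _ => Subgroup.commutator_mono inf_le_left le_rfl
  · -- the hard direction
    set T₂ := ⨆ B ∈ {B : Subgroup X | B ≤ A ∧ ∃ a ∈ A, B ⊔ Subgroup.zpowers a = A},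
      ⁅G ⊓ Subgroup.centralizer (B : Set X), A⁆ with hT₂
    -- A normalizes each G ⊓ C(B)
    have hAK : ∀ B : Subgroup X, B ≤ A →
        A ≤ Subgroup.normalizer ((G ⊓ Subgroup.centralizer (B : Set X) : Subgroup X) : Set X) := by
      intro B hBA
      rw [Subgroup.le_normalizer_iff]
      intro a ha y hy
      refine Subgroup.mem_inf.mpr ⟨(Subgroup.le_normalizer_iff.mp hAG) a ha y hy.1, ?_⟩
      have haC : a ∈ Subgroup.centralizer (B : Set X) := by
        rw [Subgroup.mem_centralizer_iff]
        intro b hb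
        exact hcomm b (hBA hb) a ha
      exact Subgroup.mul_mem _ (Subgroup.mul_mem _ haC hy.2) (Subgroup.inv_mem _ haC)
    have hAT₂ : A ≤ Subgroup.normalizer (T₂ : Set X) := by
      intro a ha
      rw [hT₂]
      apply mem_normalizer_iSup
      intro B
      apply mem_normalizer_iSup
      intro hB
      exact normalizer_inf_le_normalizer_commutator _ A ⟨hAK B hB.1 ha, Subgroup.le_normalizer ha⟩
    have hCT₂ : G ⊓ Subgroup.centralizer (A : Set X) ≤ Subgroup.normalizer (T₂ : Set X) := by
      intro c hc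
      rw [hT₂]
      apply mem_normalizer_iSup
      intro B
      apply mem_normalizer_iSup
      intro hB
      have hcK : c ∈ G ⊓ Subgroup.centralizer (B : Set X) :=
        Subgroup.mem_inf.mpr ⟨hc.1, Subgroup.centralizer_le hB.1 hc.2⟩
      exact normalizer_inf_le_normalizer_commutator _ A
        ⟨Subgroup.le_normalizer hcK, Subgroup.centralizer_le_normalizer _ hc.2⟩
    have hG : G ≤ T₂ ⊔ (G ⊓ Subgroup.centralizer (A : Set X)) := by
      refine h1.trans (iSup₂_le fun B hB => ?_)
      have hcopK : (Nat.card A).Coprime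
          (Nat.card (G ⊓ Subgroup.centralizer (B : Set X) : Subgroup X)) :=
        hcop.coprime_dvd_right (Subgroup.card_dvd_of_le inf_le_left)
      have h26 := Cfsg.Agent.S0026.result A (G ⊓ Subgroup.centralizer (B : Set X))
        (hAK B hB.1) hcopK (Or.inl hsolvA)
      rw [← h26]
      refine sup_le_sup ?_ (inf_le_inf_right _ inf_le_left)
      exact le_iSup₂_of_le B hB le_rfl
    rw [Subgroup.commutator_le]
    intro g hg a ha
    obtain ⟨t, ht, c, hc, rfl⟩ := exists_mul_of_mem_sup_of_le_normalizer hCT₂ (hG hg)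
    have hca : a * c = c * a := Subgroup.mem_centralizer_iff.mp hc.2 a ha
    have h2 : a * t⁻¹ * a⁻¹ ∈ T₂ :=
      (Subgroup.mem_normalizer_iff.mp (hAT₂ ha) t⁻¹).1 (T₂.inv_mem ht)
    have h3 : (t * c) * a * (t * c)⁻¹ * a⁻¹ = t * (a * t⁻¹ * a⁻¹) := by
      have h4 : c * a * c⁻¹ = a := by rw [← hca]; group
      calc (t * c) * a * (t * c)⁻¹ * a⁻¹ = t * (c * a * c⁻¹) * t⁻¹ * a⁻¹ := by group
        _ = t * (a * t⁻¹ * a⁻¹) := by rw [h4]; group
    show (t * c) * a * (t * c)⁻¹ * a⁻¹ ∈ T₂
    rw [h3]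
    exact T₂.mul_mem ht h2

end Cfsg.Agent.S3734
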