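import Cfsg.Statements.S3735
import Mathlib

set_option autoImplicit false
open Cfsg

namespace Cfsg.Agent.S3735

open scoped Pointwise

theorem mem_conj_smul {G : Type*} [Group G] (g x : G) (W : Subgroup G) :
    x ∈ MulAut.conj g • W ↔ g⁻¹ * x * g ∈ W := by
  rw [Subgroup.mem_pointwise_smul_iff_inv_smul_mem]
  simp [MulAut.smul_def]

theorem mem_normalizer_iff_conj {G : Type*} [Group G] (g : G) (W : Subgroup G) :
    g ∈ Subgroup.normalizer (W : Set G) ↔ MulAut.conj g • W = W := by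
  rw [Subgroup.mem_normalizer_iff'']
  constructor
  · intro h; ext x; rw [mem_conj_smul]; exact (h x).symm
  · intro h x; rw [← mem_conj_smul, h]

theorem normalizer_of_conj_le {G : Type*} [Group G] (K W : Subgroup G)
    (h : ∀ k ∈ K, MulAut.conj k • W ≤ W) : K ≤ Subgroup.normalizer (W : Set G) := by
  intro k hk
  rw [mem_normalizer_iff_conj]
  apply le_antisymm (h k hk)
  have := h k⁻¹ (K.inv_mem hk)
  rw [map_inv, Subgroup.pointwise_smul_subset_iff, inv_inv] at this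
  exact this

theorem conj_inv_of_normalizer {G : Type*} [Group G] (A W : Subgroup G) (h : G)
    (hh : h ∈ Subgroup.normalizer (A : Set G)) (hW : A ≤ Subgroup.normalizer (W : Set G)) :
    A ≤ Subgroup.normalizer ((MulAut.conj h • W : Subgroup G) : Set G) := by
  intro a ha
  rw [mem_normalizer_iff_conj]
  have ha' : h⁻¹ * a * h ∈ A := (Subgroup.mem_normalizer_iff''.mp hh a).mp ha
  have h1 : MulAut.conj (h⁻¹ * a * h) • W = W := (mem_normalizer_iff_conj _ _).mp (hW ha')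
  calc MulAut.conj a • MulAut.conj h • W = MulAut.conj (h * (h⁻¹ * a * h)) • W := by
        rw [← mul_smul, ← map_mul]; congr 2; group
    _ = MulAut.conj h • MulAut.conj (h⁻¹ * a * h) • W := by rw [map_mul, mul_smul]
    _ = MulAut.conj h • W := by rw [h1]

theorem normalizer_sup {G : Type*} [Group G] (A W₁ W₂ : Subgroup G)
    (h1 : A ≤ Subgroup.normalizer (W₁ : Set G)) (h2 : A ≤ Subgroup.normalizer (W₂ : Set G)) :
    A ≤ Subgroup.normalizer ((W₁ ⊔ W₂ : Subgroup G) : Set G) := by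
  intro a ha
  rw [mem_normalizer_iff_conj, Subgroup.smul_sup, (mem_normalizer_iff_conj _ _).mp (h1 ha),
    (mem_normalizer_iff_conj _ _).mp (h2 ha)]

theorem normalizer_inf {G : Type*} [Group G] (A W₁ W₂ : Subgroup G)
    (h1 : A ≤ Subgroup.normalizer (W₁ : Set G)) (h2 : A ≤ Subgroup.normalizer (W₂ : Set G)) :
    A ≤ Subgroup.normalizer ((W₁ ⊓ W₂ : Subgroup G) : Set G) := by
  intro a ha
  rw [Subgroup.mem_normalizer_iff]
  intro x
  rw [Subgroup.mem_inf, Subgroup.mem_inf, ← Subgroup.mem_normalizer_iff.mp (h1 ha) x,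
    ← Subgroup.mem_normalizer_iff.mp (h2 ha) x]

theorem exists_mul_of_mem_sup {G : Type*} [Group G] (V W S : Subgroup G) [IsMulCommutative V]
    (hW : W ≤ V) (hS : S ≤ V) {x : G} (hx : x ∈ W ⊔ S) : ∃ w ∈ W, ∃ s ∈ S, x = w * s := by
  let P : Subgroup G :=
    { carrier := {x | ∃ w ∈ W, ∃ s ∈ S, x = w * s}
      mul_mem' := by
        rintro _ _ ⟨w, hw, s, hs, rfl⟩ ⟨w', hw', s', hs', rfl⟩
        refine ⟨w * w', W.mul_mem hw hw', s * s', S.mul_mem hs hs', ?_⟩
        have hc : s * w' = w' * s := setLike_mul_comm (hS hs) (hW hw')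
        calc w * s * (w' * s') = w * (s * w') * s' := by group
          _ = w * (w' * s) * s' := by rw [hc]
          _ = w * w' * (s * s') := by group
      one_mem' := ⟨1, W.one_mem, 1, S.one_mem, by simp⟩
      inv_mem' := by
        rintro _ ⟨w, hw, s, hs, rfl⟩
        refine ⟨w⁻¹, W.inv_mem hw, s⁻¹, S.inv_mem hs, ?_⟩
        have hc : s⁻¹ * w⁻¹ = w⁻¹ * s⁻¹ :=
          setLike_mul_comm (V.inv_mem (hS hs)) (V.inv_mem (hW hw))
        rw [mul_inv_rev, hc] }
  have hle : W ⊔ S ≤ P := by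
    apply sup_le
    · intro w hw; exact ⟨w, hw, 1, S.one_mem, by simp⟩
    · intro s hs; exact ⟨1, W.one_mem, s, hs, by simp⟩
  exact hle hx

theorem result {G : Type*} [Group G] [Finite G] (H A V : Subgroup G) (hVab : IsMulCommutative V) (hHV : H ≤ Subgroup.normalizer (V : Set G)) (hAH : A ≤ H) (hAn : H ≤ Subgroup.normalizer (A : Set G)) (hss : ∀ U : Subgroup G, U ≤ V → H ≤ Subgroup.normalizer (U : Set G) → ∃ W : Subgroup G, W ≤ V ∧ H ≤ Subgroup.normalizer (W : Set G) ∧ U ⊓ W = ⊥ ∧ U ⊔ W = V) (U : Subgroup G) (hUV : U ≤ V) (hAU : A ≤ Subgroup.normalizer (U : Set G)) : ∃ W : Subgroup G, W ≤ V ∧ A ≤ Subgroup.normalizer (W : Set G) ∧ U ⊓ W = ⊥ ∧ U ⊔ W = V := by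
  classical
  have key : ∀ X : Subgroup G, X ≤ V → A ≤ Subgroup.normalizer (X : Set G) → X ≠ V →
      ∃ S : Subgroup G, S ≠ ⊥ ∧ S ≤ V ∧ A ≤ Subgroup.normalizer (S : Set G) ∧ S ⊓ X = ⊥ := by
    intro X hXV hXA hXne
    set XH : Subgroup G := ⨅ h : H, MulAut.conj (h : G) • X with hXH
    have hXH_le : XH ≤ X := by
      have h1 := iInf_le (fun h : H => MulAut.conj (h : G) • X) 1
      simpa using h1
    have hXH_inv : H ≤ Subgroup.normalizer (XH : Set G) := by
      apply normalizer_of_conj_le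
      intro h hh
      rw [hXH]
      apply le_iInf
      intro h'
      rw [Subgroup.pointwise_smul_subset_iff]
      have h1 := iInf_le (fun h : H => MulAut.conj (h : G) • X) (⟨h, hh⟩⁻¹ * h')
      simpa [mul_smul] using h1
    obtain ⟨Y, hYV, hYH, hXY, hXYV⟩ := hss XH (hXH_le.trans hXV) hXH_inv
    have hY0 : Y ≠ ⊥ := by
      rintro rfl
      rw [sup_bot_eq] at hXYV
      exact hXne (le_antisymm hXV (hXYV ▸ hXH_le))
    obtain ⟨Y₀, hY₀le, hY₀min⟩ := Finite.exists_le_minimal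
      (p := fun W : Subgroup G => W ≠ ⊥ ∧ W ≤ Y ∧ H ≤ Subgroup.normalizer (W : Set G))
      (a := Y) ⟨hY0, le_rfl, hYH⟩
    obtain ⟨⟨hY₀0, hY₀Y, hY₀H⟩, hY₀m⟩ := hY₀min
    have hY₀X : ¬ Y₀ ≤ X := by
      intro hle
      apply hY₀0
      rw [eq_bot_iff, ← hXY]
      refine le_inf ?_ hY₀Y
      rw [hXH]
      apply le_iInf
      intro h
      have h1 : MulAut.conj (h : G) • Y₀ = Y₀ := (mem_normalizer_iff_conj _ _).mp (hY₀H h.2)
      rw [← h1]
      exact Subgroup.pointwise_smul_le_pointwise_smul_iff.mpr hle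
    obtain ⟨S₀, hS₀le, hS₀min⟩ := Finite.exists_le_minimal
      (p := fun W : Subgroup G => W ≠ ⊥ ∧ W ≤ Y₀ ∧ A ≤ Subgroup.normalizer (W : Set G))
      (a := Y₀) ⟨hY₀0, le_rfl, hAH.trans hY₀H⟩
    obtain ⟨⟨hS₀0, hS₀Y, hS₀A⟩, hS₀m⟩ := hS₀min
    set T : Subgroup G := ⨆ h : H, MulAut.conj (h : G) • S₀ with hT
    have hS₀T : S₀ ≤ T := by
      have h1 := le_iSup (fun h : H => MulAut.conj (h : G) • S₀) 1
      simpa using h1
    have hTY₀ : T ≤ Y₀ := by
      rw [hT]; apply iSup_le; intro h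
      have h1 : MulAut.conj (h : G) • Y₀ = Y₀ := (mem_normalizer_iff_conj _ _).mp (hY₀H h.2)
      rw [← h1]
      exact Subgroup.pointwise_smul_le_pointwise_smul_iff.mpr hS₀Y
    have hT_inv : H ≤ Subgroup.normalizer (T : Set G) := by
      apply normalizer_of_conj_le
      intro h hh
      rw [Subgroup.pointwise_smul_subset_iff, hT]
      apply iSup_le
      intro h'
      rw [← Subgroup.pointwise_smul_subset_iff]
      have h1 := le_iSup (fun h : H => MulAut.conj (h : G) • S₀) (⟨h, hh⟩ * h')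
      simpa [mul_smul] using h1
    have hTeq : T = Y₀ := le_antisymm hTY₀
      (hY₀m ⟨fun h0 => hS₀0 (eq_bot_iff.mpr (h0 ▸ hS₀T)), hTY₀.trans hY₀Y, hT_inv⟩ hTY₀)
    have hex : ∃ h : H, ¬ MulAut.conj (h : G) • S₀ ≤ X := by
      by_contra hall
      push Not at hall
      apply hY₀X
      rw [← hTeq, hT]
      exact iSup_le hall
    obtain ⟨h, hh⟩ := hex
    have hSA : A ≤ Subgroup.normalizer ((MulAut.conj (h : G) • S₀ : Subgroup G) : Set G) :=
      conj_inv_of_normalizer A S₀ h (hAn h.2) hS₀A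
    have hSY₀ : MulAut.conj (h : G) • S₀ ≤ Y₀ :=
      (le_iSup (fun h : H => MulAut.conj (h : G) • S₀) h).trans hTY₀
    refine ⟨MulAut.conj (h : G) • S₀, ?_, hSY₀.trans (hY₀Y.trans hYV), hSA, ?_⟩
    · intro h0; apply hh; rw [h0]; exact bot_le
    · by_contra hne
      have e : MulAut.conj (h : G) • MulAut.conj ((h : G)⁻¹) • (MulAut.conj (h : G) • S₀ ⊓ X)
          = MulAut.conj (h : G) • S₀ ⊓ X := by
        rw [← mul_smul, ← map_mul]; simp
      have hRS₀ : MulAut.conj ((h : G)⁻¹) • (MulAut.conj (h : G) • S₀ ⊓ X) ≤ S₀ := by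
        rw [← Subgroup.pointwise_smul_le_pointwise_smul_iff (a := MulAut.conj (h : G)), e]
        exact inf_le_left
      have hR0 : MulAut.conj ((h : G)⁻¹) • (MulAut.conj (h : G) • S₀ ⊓ X) ≠ ⊥ := by
        intro h0
        apply hne
        rw [← e, h0, Subgroup.smul_bot]
      have hRA : A ≤ Subgroup.normalizer
          ((MulAut.conj ((h : G)⁻¹) • (MulAut.conj (h : G) • S₀ ⊓ X) : Subgroup G) : Set G) :=
        conj_inv_of_normalizer A _ (h : G)⁻¹ (hAn (H.inv_mem h.2)) (normalizer_inf A _ _ hSA hXA)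
      have hS₀R : S₀ ≤ MulAut.conj ((h : G)⁻¹) • (MulAut.conj (h : G) • S₀ ⊓ X) :=
        hS₀m ⟨hR0, hRS₀.trans hS₀Y, hRA⟩ hRS₀
      apply hh
      have h2 : MulAut.conj (h : G) • S₀ ≤ MulAut.conj (h : G) • S₀ ⊓ X := by
        rw [← e]
        exact Subgroup.pointwise_smul_le_pointwise_smul_iff.mpr hS₀R
      exact h2.trans inf_le_right
  obtain ⟨W, -, hWmax⟩ := Finite.exists_le_maximal
    (p := fun W : Subgroup G => W ≤ V ∧ A ≤ Subgroup.normalizer (W : Set G) ∧ U ⊓ W = ⊥)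
    (a := ⊥) ⟨bot_le, by
      intro a _
      rw [Subgroup.mem_normalizer_iff]
      intro x
      simp only [SetLike.mem_coe, Subgroup.mem_bot]
      constructor
      · rintro rfl; simp
      · intro h
        have : a⁻¹ * (a * x * a⁻¹) * a = a⁻¹ * 1 * a := by rw [h]
        simpa [mul_assoc] using this, inf_bot_eq _⟩
  obtain ⟨⟨hWV, hWA, hUW⟩, hmax⟩ := hWmax
  refine ⟨W, hWV, hWA, hUW, ?_⟩
  by_contra hne
  obtain ⟨S, hS0, hSV, hSA, hSX⟩ := key (U ⊔ W) (sup_le hUV hWV) (normalizer_sup A U W hAU hWA) hne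
  have hp : (W ⊔ S) ≤ V ∧ A ≤ Subgroup.normalizer ((W ⊔ S : Subgroup G) : Set G) ∧
      U ⊓ (W ⊔ S) = ⊥ := by
    refine ⟨sup_le hWV hSV, normalizer_sup A W S hWA hSA, ?_⟩
    rw [eq_bot_iff]
    rintro x ⟨hxU, hxWS⟩
    obtain ⟨w, hw, s, hs, rfl⟩ := exists_mul_of_mem_sup V W S hWV hSV hxWS
    have hsX : s ∈ U ⊔ W := by
      have h1 : s = w⁻¹ * (w * s) := by group
      rw [h1]
      exact Subgroup.mul_mem _ (Subgroup.mem_sup_right (W.inv_mem hw)) (Subgroup.mem_sup_left hxU)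
    have hs1 : s ∈ S ⊓ (U ⊔ W) := ⟨hs, hsX⟩
    rw [hSX, Subgroup.mem_bot] at hs1
    subst hs1
    rw [mul_one] at hxU ⊢
    have hw1 : w ∈ U ⊓ W := ⟨hxU, hw⟩
    rw [hUW] at hw1
    exact hw1
  have hle : W ⊔ S ≤ W := hmax hp le_sup_left
  have hSW : S ≤ W := le_sup_right.trans hle
  apply hS0
  rw [eq_bot_iff, ← hSX]
  exact le_inf le_rfl (hSW.trans le_sup_right)

end Cfsg.Agent.S3735
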