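import Mathlib
import Cfsg.Agent.Lib.Helper61.Coprime
import Cfsg.Agent.Lib.Helper61.CoprimeAb
import Cfsg.Agent.Lib.Helper2.FrattiniP
import Cfsg.Agent.Lib.Helper2.Class2
import Cfsg.Agent.S0027
import Cfsg.Statements.S3736

namespace Cfsg.Agent.S3736

open scoped commutatorElement in
open Cfsg.Agent.Lib.Helper61 Cfsg.Agent.Lib.Helper48 Cfsg.Agent.Lib.Helper2 in
theorem result {X : Type*} [Group X] [Finite X] {p : ℕ} [Fact p.Prime] (B A P : Subgroup X) (hP : IsPGroup p P) (hBP : B ≤ Subgroup.normalizer (P : Set X)) (hAB : A ≤ B) (hAn : B ≤ Subgroup.normalizer (A : Set X)) (hAp : (Nat.card A).Coprime p) (hnt : ⁅P, A⁆ ≠ ⊥) (hmin : ∀ U : Subgroup X, U < P → B ≤ Subgroup.normalizer (U : Set X) → ⁅U, A⁆ = ⊥) : ⁅P, A⁆ = P ∧ (Cfsg.IsElementaryAbelian p P ∨ Cfsg.IsSpecial p ↥P) ∧ (∀ U : Subgroup X, (frattini ↥P).map P.subtype ≤ U → U ≤ P → B ≤ Subgroup.normalizer (U : Set X) → U = (frattini ↥P).map P.subtype ∨ U = P) ∧ (p ≠ 2 → ∀ x ∈ P, x ^ p = 1) := by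
  have hp : p.Prime := Fact.out
  have hAP : A ≤ Subgroup.normalizer (P : Set X) := hAB.trans hBP
  obtain ⟨k, hk⟩ := hP.exists_card_eq
  have hcop : (Nat.card A).Coprime (Nat.card P) := by
    rw [hk]; exact Nat.Coprime.pow_right k hAp
  have hnil : Group.IsNilpotent P := hP.isNilpotent
  have hsolv : Group.IsSolvable P := inferInstance
  -- Step 1: [P, A] = P
  have hPA : ⁅P, A⁆ = P := by
    by_contra hne
    have hlt : ⁅P, A⁆ < P := lt_of_le_of_ne (commutator_le_of_le_normalizer hAP) hne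
    have hB : B ≤ Subgroup.normalizer ((⁅P, A⁆ : Subgroup X) : Set X) :=
      fun x hx => normalizer_inf_le_normalizer_commutator P A ⟨hBP hx, hAn hx⟩
    have h1 := hmin _ hlt hB
    rw [Cfsg.Agent.S0027.result A P hAP hcop (Or.inr hsolv)] at h1
    exact hnt h1
  have hBC : B ≤ Subgroup.normalizer
      ((P ⊓ Subgroup.centralizer (A : Set X) : Subgroup X) : Set X) := by
    intro x hx
    have h1 := hBP hx
    have h2 := normalizer_le_normalizer_centralizer A (hAn hx)
    rw [Subgroup.mem_normalizer_iff] at h1 h2 ⊢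
    intro y
    rw [Subgroup.mem_inf, Subgroup.mem_inf, h1 y, h2 y]
  have hsub : ∀ U : Subgroup X, U < P → B ≤ Subgroup.normalizer (U : Set X) →
      U ≤ P ⊓ Subgroup.centralizer (A : Set X) := by
    intro U hU hBU
    exact le_inf hU.le (Subgroup.commutator_eq_bot_iff_le_centralizer.mp (hmin U hU hBU))
  have hCP' : P ⊓ Subgroup.centralizer (A : Set X) ≤ ⁅P, P⁆ :=
    inf_centralizer_le_commutator_of_commutator_eq P A hAP hcop hPA
  have hP'F : ⁅P, P⁆ ≤ (frattini ↥P).map P.subtype := by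
    rw [← Subgroup.map_subtype_commutator]
    exact Subgroup.map_mono (commutator_le_frattini hP)
  have hFleP : (frattini ↥P).map P.subtype ≤ P := Subgroup.map_subtype_le _
  have hPnt : P ≠ ⊥ := by
    intro h
    apply hnt
    rw [h]; exact Subgroup.commutator_bot_left A
  have hFneP : (frattini ↥P).map P.subtype ≠ P := by
    intro h
    have h1 : frattini ↥P = ⊤ := by
      apply Subgroup.map_injective P.subtype_injective
      rw [h, ← MonoidHom.range_eq_map, Subgroup.range_subtype]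
    rcases eq_top_or_exists_le_coatom (⊥ : Subgroup P) with hbt | ⟨M, hM, -⟩
    · apply hPnt
      rw [eq_bot_iff]
      intro x hx
      have h2 : (⟨x, hx⟩ : P) ∈ (⊥ : Subgroup P) := by rw [hbt]; trivial
      rw [Subgroup.mem_bot] at h2 ⊢
      exact congrArg Subtype.val h2
    · have h2 := frattini_le_coatom hM
      rw [h1] at h2
      exact hM.1 (top_le_iff.mp h2)
  have hPF : P ≤ Subgroup.normalizer (((frattini ↥P).map P.subtype : Subgroup X) : Set X) := by
    rw [Subgroup.le_normalizer_iff]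
    rintro x hx _ ⟨f, hf, rfl⟩
    have hn : (frattini ↥P).Normal := inferInstance
    exact ⟨⟨x, hx⟩ * f * ⟨x, hx⟩⁻¹, hn.conj_mem f hf ⟨x, hx⟩, rfl⟩
  have hBF : B ≤ Subgroup.normalizer (((frattini ↥P).map P.subtype : Subgroup X) : Set X) := by
    rw [Subgroup.le_normalizer_iff]
    rintro x hx _ ⟨f, hf, rfl⟩
    have h1 := Subgroup.characteristic_iff_map_eq.mp (frattini_characteristic (G := P))
      (normConj P ⟨x, hBP hx⟩)
    have h2 : (normConj P ⟨x, hBP hx⟩) f ∈ frattini P := by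
      rw [← h1]; exact ⟨f, hf, rfl⟩
    exact ⟨_, h2, rfl⟩
  have hFC : (frattini ↥P).map P.subtype ≤ P ⊓ Subgroup.centralizer (A : Set X) :=
    hsub _ (lt_of_le_of_ne hFleP hFneP) hBF
  have hCF : P ⊓ Subgroup.centralizer (A : Set X) ≤ (frattini ↥P).map P.subtype :=
    hCP'.trans hP'F
  have hP'eqF : ⁅P, P⁆ = (frattini ↥P).map P.subtype :=
    le_antisymm hP'F (hFC.trans hCP')
  have hFA : ⁅(frattini ↥P).map P.subtype, A⁆ = ⊥ :=
    Subgroup.commutator_eq_bot_iff_le_centralizer.mpr (hFC.trans inf_le_right)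
  have hFZ : (frattini ↥P).map P.subtype ≤ Subgroup.centralizer (P : Set X) := by
    have e1 : ⁅⁅P, (frattini ↥P).map P.subtype⁆, A⁆ = ⊥ := by
      rw [eq_bot_iff]
      have h1 : ⁅P, (frattini ↥P).map P.subtype⁆ ≤ (frattini ↥P).map P.subtype := by
        rw [Subgroup.commutator_comm]; exact commutator_le_of_le_normalizer hPF
      rw [← hFA]; exact Subgroup.commutator_mono h1 le_rfl
    have e2 : ⁅⁅(frattini ↥P).map P.subtype, A⁆, P⁆ = ⊥ := by
      rw [hFA, Subgroup.commutator_bot_left]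
    have e3 : ⁅⁅A, P⁆, (frattini ↥P).map P.subtype⁆ = ⊥ :=
      Subgroup.commutator_commutator_eq_bot_of_rotate e1 e2
    rw [Subgroup.commutator_comm A P, hPA] at e3
    exact Subgroup.le_centralizer_iff.mp (Subgroup.commutator_eq_bot_iff_le_centralizer.mp e3)
  have hirr : ∀ U : Subgroup X, (frattini ↥P).map P.subtype ≤ U → U ≤ P →
      B ≤ Subgroup.normalizer (U : Set X) → U = (frattini ↥P).map P.subtype ∨ U = P := by
    intro U hFU hUP hBU
    by_cases h : U = P
    · exact Or.inr h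
    · left
      exact le_antisymm ((hsub U (lt_of_le_of_ne hUP h) hBU).trans hCF) hFU
  have hcentral : ∀ x y : P, ⁅x, y⁆ ∈ Subgroup.center P := by
    intro x y
    have h1 : ((⁅x, y⁆ : P) : X) ∈ ⁅P, P⁆ := Subgroup.commutator_mem_commutator x.2 y.2
    have h2 := hFZ (hP'F h1)
    rw [Subgroup.mem_center_iff]
    intro g
    apply Subtype.ext
    exact Subgroup.mem_centralizer_iff.mp h2 g g.2
  have hpowF : ∀ y : P, ((y ^ p : P) : X) ∈ (frattini ↥P).map P.subtype :=
    fun y => ⟨y ^ p, pow_mem_frattini hP y, rfl⟩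
  have hpowcentral : ∀ y : P, y ^ p ∈ Subgroup.center P := by
    intro y
    have h2 := hFZ (hpowF y)
    rw [Subgroup.mem_center_iff]
    intro g
    apply Subtype.ext
    exact Subgroup.mem_centralizer_iff.mp h2 g g.2
  have hcommpow : ∀ x y : P, ⁅y, x⁆ ^ p = 1 := by
    intro x y
    rw [← commutatorElement_pow_left y x (hcentral y x) p]
    have h1 := Subgroup.mem_center_iff.mp (hpowcentral y) x
    rw [commutatorElement_def, ← h1]; group
  have hexp : p ≠ 2 → ∀ x ∈ P, x ^ p = 1 := by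
    intro hp2
    have hmul : ∀ x y : P, (x * y) ^ p = x ^ p * y ^ p := fun x y =>
      mul_pow_prime_of_commutator_central hp hp2 x y (hcentral y x) (hcommpow x y)
    let Ω : Subgroup X :=
      { carrier := {x | ∃ hx : x ∈ P, (⟨x, hx⟩ : P) ^ p = 1}
        one_mem' := ⟨P.one_mem, one_pow p⟩
        mul_mem' := by
          rintro a b ⟨ha, ha'⟩ ⟨hb, hb'⟩
          refine ⟨P.mul_mem ha hb, ?_⟩
          have h1 := hmul ⟨a, ha⟩ ⟨b, hb⟩
          rw [ha', hb', one_mul] at h1
          exact h1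
        inv_mem' := by
          rintro a ⟨ha, ha'⟩
          refine ⟨P.inv_mem ha, ?_⟩
          have h1 : (⟨a⁻¹, P.inv_mem ha⟩ : P) = (⟨a, ha⟩ : P)⁻¹ := rfl
          rw [h1, inv_pow, ha', inv_one] }
    have hΩ : ⁅P, A⁆ ≤ Ω := by
      rw [Subgroup.commutator_le]
      intro x hx a ha
      have hy : a * x⁻¹ * a⁻¹ ∈ P :=
        (Subgroup.mem_normalizer_iff.mp (hAP ha) x⁻¹).1 (P.inv_mem hx)
      have hcomm_eq : ⁅x, a⁆ = x * (a * x⁻¹ * a⁻¹) := by
        rw [commutatorElement_def]; group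
      have hcP : ⁅x, a⁆ ∈ P := by rw [hcomm_eq]; exact P.mul_mem hx hy
      refine ⟨hcP, ?_⟩
      have e : (⟨⁅x, a⁆, hcP⟩ : P) = ⟨x, hx⟩ * ⟨a * x⁻¹ * a⁻¹, hy⟩ := Subtype.ext hcomm_eq
      rw [e, hmul]
      apply Subtype.ext
      show x ^ p * (a * x⁻¹ * a⁻¹) ^ p = 1
      have h1 : (a * x⁻¹ * a⁻¹) ^ p = a * (x ^ p)⁻¹ * a⁻¹ := by rw [conj_pow, inv_pow]
      have h2 : x ^ p ∈ Subgroup.centralizer (A : Set X) := (hFC (hpowF ⟨x, hx⟩)).2
      have h3 : a * x ^ p = x ^ p * a := Subgroup.mem_centralizer_iff.mp h2 a ha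
      have h4 : a * (x ^ p)⁻¹ * a⁻¹ = (x ^ p)⁻¹ := by
        have : a * (x ^ p)⁻¹ * a⁻¹ = (a * x ^ p * a⁻¹)⁻¹ := by group
        rw [this, h3]; group
      rw [h1, h4, mul_inv_cancel]
    intro x hx
    have hxΩ : x ∈ Ω := hΩ (by rw [hPA]; exact hx)
    obtain ⟨hx', h⟩ := hxΩ
    exact congrArg Subtype.val h
  have hstruct : Cfsg.IsElementaryAbelian p P ∨ Cfsg.IsSpecial p ↥P := by
    by_cases hab : ⁅P, P⁆ = ⊥
    · left
      have hFbot : (frattini ↥P).map P.subtype = ⊥ := by rw [← hP'eqF]; exact hab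
      refine ⟨⟨⟨fun a b => ?_⟩⟩, ?_⟩
      · have h1 := Subgroup.commutator_eq_bot_iff_le_centralizer.mp hab
        apply Subtype.ext
        exact (Subgroup.mem_centralizer_iff.mp (h1 b.2) a a.2)
      · intro x hx
        have h1 := hpowF ⟨x, hx⟩
        rw [hFbot, Subgroup.mem_bot] at h1
        exact h1
    · right
      have hZP : P ⊓ Subgroup.centralizer (P : Set X) < P := by
        refine lt_of_le_of_ne inf_le_left ?_
        intro h
        apply hab
        rw [Subgroup.commutator_eq_bot_iff_le_centralizer]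
        exact (le_of_eq h.symm).trans inf_le_right
      have hBZ : B ≤ Subgroup.normalizer
          ((P ⊓ Subgroup.centralizer (P : Set X) : Subgroup X) : Set X) := by
        intro x hx
        have h1 := hBP hx
        have h2 := normalizer_le_normalizer_centralizer P (hBP hx)
        rw [Subgroup.mem_normalizer_iff] at h1 h2 ⊢
        intro y
        rw [Subgroup.mem_inf, Subgroup.mem_inf, h1 y, h2 y]
      have hZC := hsub _ hZP hBZ
      have hZeqF : P ⊓ Subgroup.centralizer (P : Set X) = (frattini ↥P).map P.subtype :=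
        le_antisymm (hZC.trans hCF) (le_inf hFleP hFZ)
      refine ⟨hP, ?_, ?_⟩
      · apply Subgroup.map_injective P.subtype_injective
        rw [map_subtype_center, hZeqF]
      · apply Subgroup.map_injective P.subtype_injective
        rw [map_subtype_center, hZeqF, Subgroup.map_subtype_commutator, hP'eqF]
  exact ⟨hPA, hstruct, hirr, hexp⟩

end Cfsg.Agent.S3736
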