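import Cfsg.Statements.S3737
import Cfsg.Agent.S0093
import Cfsg.Agent.Lib.Helper61.Coprime

set_option autoImplicit false
open Cfsg
open scoped commutatorElement

namespace Cfsg.Agent.S3737

universe u

/-! ### Part 1: the abelian case, in action form -/

section Abelian

variable {A : Type*} {V : Type*} [Group A] [CommGroup V] (ψ : A →* MulAut V) (Q : Subgroup A)
  [Fintype Q]

/-- The norm map of `Q` acting on the abelian group `V`. -/
def normHom : V →* V := ∏ q : Q, (ψ (q : A)).toMonoidHom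

theorem normHom_apply (v : V) : normHom ψ Q v = ∏ q : Q, ψ (q : A) v := by
  unfold normHom
  rw [MonoidHom.finsetProd_apply]
  rfl

theorem normHom_smul (q₀ : A) (hq₀ : q₀ ∈ Q) (v : V) :
    normHom ψ Q (ψ q₀ v) = normHom ψ Q v := by
  rw [normHom_apply, normHom_apply,
    ← Equiv.prod_comp (Equiv.mulRight (⟨q₀, hq₀⟩ : Q)) (fun q : Q => ψ (q : A) v)]
  refine Finset.prod_congr rfl (fun q _ => ?_)
  simp [map_mul]

theorem normHom_conj {P : Subgroup A} (hPQ : P ≤ Subgroup.normalizer (Q : Set A)) (g : A)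
    (hg : g ∈ P) (v : V) : normHom ψ Q (ψ g v) = ψ g (normHom ψ Q v) := by
  rw [normHom_apply, normHom_apply, map_prod]
  let e : Q ≃ Q :=
    { toFun := fun q => ⟨g * q * g⁻¹, (Subgroup.mem_normalizer_iff.mp (hPQ hg) q).mp q.2⟩
      invFun := fun q => ⟨g⁻¹ * q * g, by
        have := (Subgroup.mem_normalizer_iff.mp (Subgroup.inv_mem _ (hPQ hg)) q).mp q.2
        simpa using this⟩
      left_inv := fun q => by
        apply Subtype.ext
        show g⁻¹ * (g * (q : A) * g⁻¹) * g = q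
        group
      right_inv := fun q => by
        apply Subtype.ext
        show g * (g⁻¹ * (q : A) * g) * g⁻¹ = q
        group }
  rw [← Equiv.prod_comp e (fun q : Q => ψ (q : A) (ψ g v))]
  refine Finset.prod_congr rfl (fun q _ => ?_)
  show ψ (g * (q : A) * g⁻¹) (ψ g v) = ψ g (ψ (q : A) v)
  rw [← MulAut.mul_apply, ← map_mul, ← MulAut.mul_apply, ← map_mul]
  congr 2
  group

theorem normHom_fixed (v : V) (hv : ∀ q ∈ Q, ψ q v = v) :
    normHom ψ Q v = v ^ Nat.card Q := by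
  rw [normHom_apply, Nat.card_eq_fintype_card, ← Finset.card_univ, ← Finset.prod_const]
  exact Finset.prod_congr rfl (fun q _ => hv q q.2)

end Abelian

theorem abelian_case {A : Type*} {V : Type*} [Group A] [CommGroup V] [Finite V] {p : ℕ}
    [Fact p.Prime] (hV : IsPGroup p V) (ψ : A →* MulAut V) (P Q : Subgroup A) [Finite Q]
    (hP : IsPGroup p P) (hQ : (Nat.card Q).Coprime p)
    (hPQ : P ≤ Subgroup.normalizer (Q : Set A))
    (hC : ∀ v : V, (∀ g ∈ P, ψ g v = v) → ∀ q ∈ Q, ψ q v = v) :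
    ∀ q ∈ Q, ∀ v : V, ψ q v = v := by
  classical
  let _ : Fintype Q := Fintype.ofFinite Q
  have hker : (normHom ψ Q).ker = ⊥ := by
    by_contra hne
    let act : MulAction ↥P ↥(normHom ψ Q).ker :=
      { smul := fun g w => ⟨ψ (g : A) (w : V), by
            rw [MonoidHom.mem_ker, normHom_conj ψ Q hPQ g g.2, MonoidHom.mem_ker.mp w.2, map_one]⟩
        one_smul := fun w => by
          apply Subtype.ext
          show ψ ((1 : ↥P) : A) (w : V) = w
          simp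
        mul_smul := fun g h w => by
          apply Subtype.ext
          show ψ ((g * h : ↥P) : A) (w : V) = ψ (g : A) (ψ (h : A) (w : V))
          simp [map_mul] }
    have hKp : IsPGroup p (normHom ψ Q).ker := hV.to_subgroup _
    have hdvd : p ∣ Nat.card (normHom ψ Q).ker := by
      rcases hKp.card_eq_or_dvd with h | h
      · exact absurd (Subgroup.card_eq_one.mp h) hne
      · exact h
    obtain ⟨b, hb, hne'⟩ := hP.exists_fixed_point_of_prime_dvd_card_of_fixed_point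
      (↥(normHom ψ Q).ker) hdvd (a := (1 : ↥(normHom ψ Q).ker)) (by
        intro g
        apply Subtype.ext
        show ψ (g : A) ((1 : ↥(normHom ψ Q).ker) : V) = _
        simp)
    have hbP : ∀ g ∈ P, ψ g (b : V) = b := fun g hg => congrArg Subtype.val (hb ⟨g, hg⟩)
    have hbQ := hC b hbP
    have h1 : (b : V) ^ Nat.card Q = 1 := by
      rw [← normHom_fixed ψ Q b hbQ]; exact MonoidHom.mem_ker.mp b.2
    obtain ⟨k, hk⟩ := hV (b : V)
    have hd1 : orderOf (b : V) ∣ Nat.card Q := orderOf_dvd_of_pow_eq_one h1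
    have hd2 : orderOf (b : V) ∣ p ^ k := orderOf_dvd_of_pow_eq_one hk
    have hcop : (orderOf (b : V)).Coprime (orderOf (b : V)) :=
      Nat.Coprime.coprime_dvd_left hd1
        (Nat.Coprime.coprime_dvd_right hd2 (Nat.Coprime.pow_right k hQ))
    rw [Nat.coprime_self] at hcop
    have hb1 : (b : V) = 1 := orderOf_eq_one_iff.mp hcop
    exact hne' (Subtype.ext hb1.symm)
  intro q hq v
  have h1 : normHom ψ Q (ψ q v * v⁻¹) = 1 := by
    rw [map_mul, normHom_smul ψ Q q hq, map_inv, mul_inv_cancel]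
  have h2 : ψ q v * v⁻¹ ∈ (normHom ψ Q).ker := h1
  rw [hker, Subgroup.mem_bot] at h2
  exact mul_inv_eq_one.mp h2

/-! ### Part 2: the Baer trick -/

section Baer

variable {H : Type u} [Group H]

/-- Baer multiplication on a group of class at most two. -/
def bmul (m : ℕ) (x y : H) : H := x * y * ⁅y, x⁆ ^ m

theorem bmul_one_left (m : ℕ) (x : H) : bmul m 1 x = x := by
  unfold bmul; simp

theorem bmul_inv_left (m : ℕ) (x : H) : bmul m x⁻¹ x = 1 := by
  unfold bmul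
  have : ⁅x, x⁻¹⁆ = 1 := by rw [commutatorElement_def]; group
  rw [this]; simp

theorem map_bmul (m : ℕ) (f : H ≃* H) (x y : H) : f (bmul m x y) = bmul m (f x) (f y) := by
  unfold bmul
  rw [map_mul, map_mul, map_pow, map_commutatorElement]

section Class2

variable (hcl : ∀ a b c : H, ⁅a, b⁆ * c = c * ⁅a, b⁆)
include hcl

theorem comm_pow_central (a b c : H) (n : ℕ) : ⁅a, b⁆ ^ n * c = c * ⁅a, b⁆ ^ n := by
  have h : Commute ⁅a, b⁆ c := hcl a b c
  exact (h.pow_left n).eq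

theorem comm_mul_left (a b c : H) : ⁅a * b, c⁆ = ⁅a, c⁆ * ⁅b, c⁆ := by
  have h1 : ⁅a * b, c⁆ = a * ⁅b, c⁆ * a⁻¹ * ⁅a, c⁆ := by
    simp only [commutatorElement_def]; group
  rw [h1, ← hcl b c a, mul_assoc ⁅b, c⁆ a, mul_inv_cancel, mul_one, hcl b c ⁅a, c⁆]

theorem comm_mul_right (a b c : H) : ⁅a, b * c⁆ = ⁅a, b⁆ * ⁅a, c⁆ := by
  rw [← commutatorElement_inv (b * c) a, comm_mul_left hcl, mul_inv_rev, commutatorElement_inv,
    commutatorElement_inv, hcl a c ⁅a, b⁆]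

theorem comm_pow_right_eq_one (a b c : H) (n : ℕ) : ⁅a, ⁅b, c⁆ ^ n⁆ = 1 := by
  rw [commutatorElement_eq_one_iff_commute]
  exact ((show Commute ⁅b, c⁆ a from hcl b c a).pow_left n).symm

theorem comm_pow_left_eq_one (a b c : H) (n : ℕ) : ⁅⁅b, c⁆ ^ n, a⁆ = 1 := by
  rw [commutatorElement_eq_one_iff_commute]
  exact ((show Commute ⁅b, c⁆ a from hcl b c a).pow_left n)

theorem bmul_assoc (m : ℕ) (x y z : H) : bmul m (bmul m x y) z = bmul m x (bmul m y z) := by
  unfold bmul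
  rw [comm_mul_right hcl z (x * y), comm_pow_right_eq_one hcl, mul_one, comm_mul_right hcl z x y,
    comm_mul_left hcl (y * z), comm_pow_left_eq_one hcl, mul_one, comm_mul_left hcl y z]
  have e1 : (⁅z, x⁆ * ⁅z, y⁆) ^ m = ⁅z, x⁆ ^ m * ⁅z, y⁆ ^ m :=
    (show Commute ⁅z, x⁆ ⁅z, y⁆ from hcl z x _).mul_pow m
  have e2 : (⁅y, x⁆ * ⁅z, x⁆) ^ m = ⁅y, x⁆ ^ m * ⁅z, x⁆ ^ m :=
    (show Commute ⁅y, x⁆ ⁅z, x⁆ from hcl y x _).mul_pow m
  rw [e1, e2]
  have hA : ∀ c, ⁅y, x⁆ ^ m * c = c * ⁅y, x⁆ ^ m := fun c => comm_pow_central hcl y x c m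
  have hC : ∀ c, ⁅z, y⁆ ^ m * c = c * ⁅z, y⁆ ^ m := fun c => comm_pow_central hcl z y c m
  calc x * y * ⁅y, x⁆ ^ m * z * (⁅z, x⁆ ^ m * ⁅z, y⁆ ^ m)
      = x * y * (⁅y, x⁆ ^ m * z) * (⁅z, x⁆ ^ m * ⁅z, y⁆ ^ m) := by simp only [mul_assoc]
    _ = x * y * (z * ⁅y, x⁆ ^ m) * (⁅z, x⁆ ^ m * ⁅z, y⁆ ^ m) := by rw [hA z]
    _ = x * y * z * (⁅y, x⁆ ^ m * ⁅z, x⁆ ^ m * ⁅z, y⁆ ^ m) := by simp only [mul_assoc]
    _ = x * y * z * (⁅z, y⁆ ^ m * (⁅y, x⁆ ^ m * ⁅z, x⁆ ^ m)) := by
      rw [hC (⁅y, x⁆ ^ m * ⁅z, x⁆ ^ m)]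
    _ = x * (y * z * ⁅z, y⁆ ^ m) * (⁅y, x⁆ ^ m * ⁅z, x⁆ ^ m) := by simp only [mul_assoc]

theorem bmul_comm (m : ℕ) (hm : ∀ z : H, z ^ (2 * m) = z) (x y : H) :
    bmul m x y = bmul m y x := by
  unfold bmul
  have hyx : ⁅y, x⁆ = ⁅x, y⁆⁻¹ := (commutatorElement_inv x y).symm
  have hxy : x * y = y * x * ⁅x, y⁆ := by
    rw [← hcl x y (y * x), commutatorElement_def]; group
  have hc2 : ⁅x, y⁆ ^ m * ⁅x, y⁆ ^ m = ⁅x, y⁆ := by
    rw [← pow_add, ← two_mul]; exact hm _
  rw [hyx, hxy, inv_pow, mul_assoc]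
  congr 1
  rw [mul_inv_eq_iff_eq_mul]; exact hc2.symm

end Class2

/-- The Baer group: the same underlying set with the Baer multiplication. -/
def BaerT (m : ℕ) (_hcl : ∀ a b c : H, ⁅a, b⁆ * c = c * ⁅a, b⁆)
    (_hm : ∀ z : H, z ^ (2 * m) = z) : Type u := H

/-- Cast from the Baer group to the group. -/
def BaerT.val {m : ℕ} {hcl : ∀ a b c : H, ⁅a, b⁆ * c = c * ⁅a, b⁆}
    {hm : ∀ z : H, z ^ (2 * m) = z} (x : BaerT m hcl hm) : H := x

/-- Cast from the group to the Baer group. -/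
def BaerT.of {m : ℕ} (hcl : ∀ a b c : H, ⁅a, b⁆ * c = c * ⁅a, b⁆)
    (hm : ∀ z : H, z ^ (2 * m) = z) (x : H) : BaerT m hcl hm := x

instance baerCommGroup (m : ℕ) (hcl : ∀ a b c : H, ⁅a, b⁆ * c = c * ⁅a, b⁆)
    (hm : ∀ z : H, z ^ (2 * m) = z) : CommGroup (BaerT m hcl hm) :=
  letI : Mul (BaerT m hcl hm) := ⟨fun x y => bmul (H := H) m x y⟩
  letI : One (BaerT m hcl hm) := ⟨(1 : H)⟩
  letI : Inv (BaerT m hcl hm) := ⟨fun x => ((x : H)⁻¹ : H)⟩
  { Group.ofLeftAxioms (bmul_assoc hcl m) (bmul_one_left (H := H) m) (bmul_inv_left (H := H) m) with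
    mul_comm := bmul_comm hcl m hm }

instance baerFinite (m : ℕ) (hcl : ∀ a b c : H, ⁅a, b⁆ * c = c * ⁅a, b⁆)
    (hm : ∀ z : H, z ^ (2 * m) = z) [Finite H] : Finite (BaerT m hcl hm) :=
  inferInstanceAs (Finite H)

/-- Automorphisms of `H` are automorphisms of the Baer group. -/
def baerAut (m : ℕ) (hcl : ∀ a b c : H, ⁅a, b⁆ * c = c * ⁅a, b⁆)
    (hm : ∀ z : H, z ^ (2 * m) = z) : MulAut H →* MulAut (BaerT m hcl hm) where
  toFun f :=
    { toFun := fun x => f x
      invFun := fun x => f.symm x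
      left_inv := fun x => f.symm_apply_apply x
      right_inv := fun x => f.apply_symm_apply x
      map_mul' := fun x y => map_bmul m f x y }
  map_one' := rfl
  map_mul' := fun _ _ => rfl

end Baer

/-! ### Part 3: the class two case -/

theorem class2_case {X : Type u} [Group X] [Finite X] {p : ℕ} [Fact p.Prime] (hp : p ≠ 2)
    (P Q G : Subgroup X) (hP : IsPGroup p P) (hQ : (Nat.card Q).Coprime p)
    (hPQ : P ≤ Subgroup.normalizer (Q : Set X)) (hG : IsPGroup p G)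
    (hPG : P ≤ Subgroup.normalizer (G : Set X)) (hQG : Q ≤ Subgroup.normalizer (G : Set X))
    (hcl : ⁅G, G⁆ ≤ Subgroup.centralizer (G : Set X))
    (hC : G ⊓ Subgroup.centralizer (P : Set X) ≤ Subgroup.centralizer (Q : Set X)) :
    Q ≤ Subgroup.centralizer (G : Set X) := by
  have hcl' : ∀ a b c : ↥G, ⁅a, b⁆ * c = c * ⁅a, b⁆ := by
    intro a b c
    apply Subtype.ext
    have h1 : ((⁅a, b⁆ : ↥G) : X) = ⁅(a : X), (b : X)⁆ := rfl
    have h2 : ⁅(a : X), (b : X)⁆ ∈ Subgroup.centralizer (G : Set X) :=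
      hcl (Subgroup.commutator_mem_commutator a.2 b.2)
    have h3 := Subgroup.mem_centralizer_iff.mp h2 c c.2
    rw [Subgroup.coe_mul, Subgroup.coe_mul, h1]
    exact h3.symm
  obtain ⟨k, hk⟩ := hG.exists_card_eq
  have hodd : Odd (Nat.card G) := by
    rw [hk]
    exact Odd.pow ((Fact.out : p.Prime).odd_of_ne_two hp)
  obtain ⟨m, hm⟩ := hodd
  have hm' : ∀ z : ↥G, z ^ (2 * (m + 1)) = z := by
    intro z
    have : 2 * (m + 1) = Nat.card G + 1 := by omega
    rw [this, pow_succ, pow_card_eq_one', one_mul]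
  have hBp : IsPGroup p (BaerT (m + 1) hcl' hm') := IsPGroup.of_card (n := k) hk
  let ψ : ↥(Subgroup.normalizer (G : Set X)) →* MulAut (BaerT (m + 1) hcl' hm') :=
    (baerAut (m + 1) hcl' hm').comp (Subgroup.normalizerMonoidHom G)
  have hψ : ∀ (g : ↥(Subgroup.normalizer (G : Set X))) (v : BaerT (m + 1) hcl' hm'),
      (((ψ g v).val : ↥G) : X) = g * ((v.val : ↥G) : X) * (g : X)⁻¹ := fun g v => rfl
  have hcardQ : Nat.card (Q.subgroupOf (Subgroup.normalizer (G : Set X))) = Nat.card Q :=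
    Nat.card_congr (Subgroup.subgroupOfEquivOfLe hQG).toEquiv
  have hnorm : P.subgroupOf (Subgroup.normalizer (G : Set X)) ≤
      Subgroup.normalizer ((Q.subgroupOf (Subgroup.normalizer (G : Set X)) :
        Subgroup ↥(Subgroup.normalizer (G : Set X))) : Set ↥(Subgroup.normalizer (G : Set X))) := by
    intro x hx
    rw [Subgroup.mem_subgroupOf] at hx
    rw [Subgroup.mem_normalizer_iff]
    intro y
    simp only [Subgroup.mem_subgroupOf]
    exact Subgroup.mem_normalizer_iff.mp (hPQ hx) y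
  have key := abelian_case hBp ψ (P.subgroupOf (Subgroup.normalizer (G : Set X)))
    (Q.subgroupOf (Subgroup.normalizer (G : Set X))) hP.comap_subtype (by rw [hcardQ]; exact hQ)
    hnorm (by
      intro v hv q hq
      have hvP : ((v.val : ↥G) : X) ∈ Subgroup.centralizer (P : Set X) := by
        rw [Subgroup.mem_centralizer_iff]
        intro g hg
        have h1 := hv ⟨g, hPG hg⟩ hg
        have h2 : g * ((v.val : ↥G) : X) * g⁻¹ = ((v.val : ↥G) : X) :=
          (hψ ⟨g, hPG hg⟩ v).symm.trans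
            (congrArg (fun w : BaerT (m + 1) hcl' hm' => ((w.val : ↥G) : X)) h1)
        exact (mul_inv_eq_iff_eq_mul.mp h2)
      have hvQ := hC ⟨(v.val : ↥G).2, hvP⟩
      have h3 := Subgroup.mem_centralizer_iff.mp hvQ q hq
      have h4 : (((ψ q v).val : ↥G) : X) = ((v.val : ↥G) : X) := by
        rw [hψ q v, h3, mul_inv_cancel_right]
      have h5 : (ψ q v).val = v.val := Subtype.ext h4
      exact h5)
  intro q hq
  rw [Subgroup.mem_centralizer_iff]
  intro g hg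
  have h1 := key ⟨q, hQG hq⟩ hq (BaerT.of hcl' hm' (⟨g, hg⟩ : ↥G))
  have h2 : q * g * q⁻¹ = g :=
    (hψ ⟨q, hQG hq⟩ (BaerT.of hcl' hm' (⟨g, hg⟩ : ↥G))).symm.trans
      (congrArg (fun w : BaerT (m + 1) hcl' hm' => ((w.val : ↥G) : X)) h1)
  exact (mul_inv_eq_iff_eq_mul.mp h2).symm

/-! ### Part 4: the general case via a critical subgroup -/

theorem result {X : Type*} [Group X] [Finite X] {p : ℕ} [Fact p.Prime] (hp : p ≠ 2) (P Q G : Subgroup X) (hP : IsPGroup p P) (hQ : (Nat.card Q).Coprime p) (hPQ : P ≤ Subgroup.normalizer (Q : Set X)) (hG : IsPGroup p G) (hPG : P ≤ Subgroup.normalizer (G : Set X)) (hQG : Q ≤ Subgroup.normalizer (G : Set X)) (hC : G ⊓ Subgroup.centralizer (P : Set X) ≤ Subgroup.centralizer (Q : Set X)) : Q ≤ Subgroup.centralizer (G : Set X) := by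
  obtain ⟨H, hchar, -, hHtop, hCH⟩ := Cfsg.Agent.S0093.result (P := ↥G) hG
  set K : Subgroup X := H.map G.subtype with hKdef
  have hKG : K ≤ G := Subgroup.map_subtype_le H
  have hconj : ∀ g ∈ Subgroup.normalizer (G : Set X), ∀ x ∈ K, g * x * g⁻¹ ∈ K := by
    intro g hg x hx
    obtain ⟨h, hh, rfl⟩ := hx
    have h1 := Subgroup.characteristic_iff_map_eq.mp hchar (Subgroup.normalizerMonoidHom G ⟨g, hg⟩)
    have h2 : (Subgroup.normalizerMonoidHom G ⟨g, hg⟩) h ∈
        H.map (Subgroup.normalizerMonoidHom G ⟨g, hg⟩).toMonoidHom :=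
      Subgroup.mem_map_of_mem _ hh
    rw [h1] at h2
    exact ⟨_, h2, rfl⟩
  have hNK : Subgroup.normalizer (G : Set X) ≤ Subgroup.normalizer (K : Set X) := by
    intro g hg
    rw [Subgroup.mem_normalizer_iff]
    intro x
    constructor
    · exact hconj g hg x
    · intro hx
      have := hconj g⁻¹ (Subgroup.inv_mem _ hg) _ hx
      have e : g⁻¹ * (g * x * g⁻¹) * g⁻¹⁻¹ = x := by group
      rwa [e] at this
  have hcl : ⁅K, K⁆ ≤ Subgroup.centralizer (K : Set X) := by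
    rw [Subgroup.commutator_le]
    intro a ha b hb
    obtain ⟨a', ha', rfl⟩ := ha
    obtain ⟨b', hb', rfl⟩ := hb
    rw [Subgroup.mem_centralizer_iff]
    rintro c ⟨c', hc', rfl⟩
    have h1 : ⁅a', b'⁆ ∈ Subgroup.centralizer (H : Set ↥G) :=
      (hHtop (Subgroup.commutator_mem_commutator ha' (Subgroup.mem_top b'))).2
    have h2 := Subgroup.mem_centralizer_iff.mp h1 c' hc'
    exact congrArg Subtype.val h2
  have hK : IsPGroup p K := hG.to_le hKG
  have hQK : Q ≤ Subgroup.centralizer (K : Set X) :=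
    class2_case hp P Q K hP hQ hPQ hK (hPG.trans hNK) (hQG.trans hNK) hcl
      (fun x hx => hC ⟨hKG hx.1, hx.2⟩)
  have h1 : ⁅K, Q⁆ = ⊥ := by
    rw [Subgroup.commutator_comm, Subgroup.commutator_eq_bot_iff_le_centralizer]; exact hQK
  have hGK : ⁅G, K⁆ ≤ K := by
    rw [Subgroup.commutator_comm]
    exact Cfsg.Agent.Lib.Helper61.commutator_le_of_le_normalizer
      (Subgroup.le_normalizer.trans hNK)
  have h2 : ⁅⁅G, K⁆, Q⁆ = ⊥ := by
    rw [eq_bot_iff, ← h1]; exact Subgroup.commutator_mono hGK le_rfl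
  have h3 : ⁅⁅K, Q⁆, G⁆ = ⊥ := by rw [h1, Subgroup.commutator_bot_left]
  have h4 : ⁅⁅Q, G⁆, K⁆ = ⊥ := Subgroup.commutator_commutator_eq_bot_of_rotate h2 h3
  have h5 : ⁅Q, G⁆ ≤ Subgroup.centralizer (K : Set X) :=
    Subgroup.commutator_eq_bot_iff_le_centralizer.mp h4
  have h6 : ⁅Q, G⁆ ≤ G := by
    rw [Subgroup.commutator_comm]
    exact Cfsg.Agent.Lib.Helper61.commutator_le_of_le_normalizer hQG
  have h7 : G ⊓ Subgroup.centralizer (K : Set X) ≤ K := by
    rintro x ⟨hxG, hxC⟩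
    have : (⟨x, hxG⟩ : ↥G) ∈ Subgroup.centralizer (H : Set ↥G) := by
      rw [Subgroup.mem_centralizer_iff]
      intro h hh
      apply Subtype.ext
      exact Subgroup.mem_centralizer_iff.mp hxC h ⟨h, hh, rfl⟩
    exact ⟨⟨x, hxG⟩, hCH this, rfl⟩
  have h8 : ⁅G, Q⁆ ≤ K := by
    rw [Subgroup.commutator_comm]; exact fun x hx => h7 ⟨h6 hx, h5 hx⟩
  exact Cfsg.Agent.Lib.Helper61.le_centralizer_of_le_centralizer_commutator p Q G hQ hG hQG
    (hQK.trans (Subgroup.centralizer_le (SetLike.coe_subset_coe.mpr h8)))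

end Cfsg.Agent.S3737
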