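import Mathlib
import Cfsg.Statements.S3738
import Cfsg.Agent.Lib.Helper64.Fpf3

set_option autoImplicit false
open Cfsg

namespace Cfsg.Agent.S3738

/-- Let d be a non-identity 3-element of a finite group and P a 2-subgroup normalized by d on which ⟨d⟩ acts faithfully (no non-identity power of d centralizes P) and without non-identity fixed points (C_P(d) = 1). If every abelian subgroup of P has 2-rank at most 2, then d has order 3. -/
theorem result {X : Type*} [Group X] [Finite X] (d : X) (n : ℕ) (hn : 1 ≤ n) (hd : orderOf d = 3 ^ n) (P : Subgroup X) (hP : IsPGroup 2 P) (hdP : d ∈ Subgroup.normalizer (P : Set X)) (hfaith : Subgroup.zpowers d ⊓ Subgroup.centralizer (P : Set X) = ⊥) (hfpf : P ⊓ Subgroup.centralizer {d} = ⊥) (hrank : ∀ V : Subgroup X, V ≤ P → IsMulCommutative V → Cfsg.PRankLE 2 2 V) : orderOf d = 3 := by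
  have hd1 : d ^ 3 ^ n = 1 := by rw [← hd]; exact pow_orderOf_eq_one d
  have hfpf' : ∀ x ∈ P, d * x = x * d → x = 1 := by
    intro x hx hdx
    have hmem : x ∈ P ⊓ Subgroup.centralizer {d} := by
      refine Subgroup.mem_inf.mpr ⟨hx, ?_⟩
      rw [Subgroup.mem_centralizer_iff]
      intro h hh
      rw [Set.mem_singleton_iff] at hh
      rw [hh]; exact hdx
    rw [hfpf, Subgroup.mem_bot] at hmem
    exact hmem
  have hrank' : ∀ E : Subgroup X, E ≤ P → (∀ x ∈ E, ∀ y ∈ E, x * y = y * x) →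
      (∀ x ∈ E, x * x = 1) → Nat.card E ≤ 4 := by
    intro E hE hcomm h2
    have hEc : IsMulCommutative E := ⟨⟨fun a b => Subtype.ext (hcomm a a.2 b b.2)⟩⟩
    have hT : IsMulCommutative (⊤ : Subgroup E) :=
      ⟨⟨fun a b => Subtype.ext (Subtype.ext (hcomm a.1 a.1.2 b.1 b.1.2))⟩⟩
    have h4 := hrank E hE hEc ⊤ hT (fun a _ => by
      apply Subtype.ext
      rw [pow_two]
      exact h2 a a.2)
    rw [Subgroup.card_top] at h4
    simpa using h4
  have hcen := Cfsg.Agent.Lib.Helper64.Fpf3.fpf3 d n hd1 (Nat.card P) P rfl hP hdP hfpf' hrank'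
  have hmem : d ^ 3 ∈ Subgroup.zpowers d ⊓ Subgroup.centralizer (P : Set X) := by
    refine Subgroup.mem_inf.mpr ⟨Subgroup.pow_mem _ (Subgroup.mem_zpowers d) 3, ?_⟩
    rw [Subgroup.mem_centralizer_iff]
    intro x hx
    exact (hcen x hx).symm
  rw [hfaith, Subgroup.mem_bot] at hmem
  have hdvd : orderOf d ∣ 3 := orderOf_dvd_of_pow_eq_one hmem
  have h3 : 3 ∣ orderOf d := by rw [hd]; exact dvd_pow_self 3 (by omega)
  exact Nat.dvd_antisymm hdvd h3

end Cfsg.Agent.S3738
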