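import Cfsg.Statements.S3739
import Cfsg.Agent.Lib.Helper90.R2TSix
import Cfsg.Agent.Lib.Helper84.PCoreBasic

set_option autoImplicit false
open Cfsg

namespace Cfsg.Agent.S3739

/-- Let G be a finite group with C_G(O₂(G)) ≤ O₂(G) containing an element of order 6, and let d be a non-identity 3-element of G normalizing a nontrivial elementary abelian 2-subgroup W with C_W(d) = 1. Then G has an elementary abelian subgroup of order 8. -/
theorem result {G : Type*} [Group G] [Finite G] (hchar : Subgroup.centralizer (Cfsg.pCore 2 G : Set G) ≤ Cfsg.pCore 2 G) (hsix : ∃ g : G, orderOf g = 6) (d : G) (hd1 : d ≠ 1) (hd : IsPGroup 3 ↥(Subgroup.zpowers d)) (W : Subgroup G) (hW : Cfsg.IsElementaryAbelian 2 W) (hW1 : W ≠ ⊥) (hdW : d ∈ Subgroup.normalizer (W : Set G)) (hfpf : W ⊓ Subgroup.centralizer {d} = ⊥) : ∃ E : Subgroup G, Cfsg.IsElementaryAbelian 2 E ∧ Nat.card E = 8 := by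
  classical
  by_contra hno
  have hWc : ∀ x ∈ W, ∀ y ∈ W, x * y = y * x := by
    intro x hx y hy
    have h1 := hW.1.is_comm.comm (⟨x, hx⟩ : W) ⟨y, hy⟩
    exact congrArg Subtype.val h1
  have hW2 : ∀ x ∈ W, x * x = 1 := by
    intro x hx
    rw [← pow_two]
    exact hW.2 x hx
  obtain ⟨g, hg⟩ := hsix
  refine Cfsg.Agent.Lib.Helper90.R2T.no_rank_two_config ?_ (Cfsg.pCore 2 G)
    (Cfsg.Agent.Lib.Helper84.pCore_isPGroup 2 G) hchar g hg d hd W hWc hW2 hW1 hdW hfpf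
  intro A hAc hA2
  by_contra hcard
  push Not at hcard
  have hA2g : IsPGroup 2 A := by
    rintro ⟨x, hx⟩
    refine ⟨1, ?_⟩
    apply Subtype.ext
    rw [pow_one, Subgroup.coe_pow, Subgroup.coe_one, pow_two]
    exact hA2 x hx
  obtain ⟨k, hk⟩ := IsPGroup.iff_card.mp hA2g
  have hk3 : 3 ≤ k := by
    by_contra hlt
    push Not at hlt
    have : 2 ^ k ≤ 2 ^ 2 := Nat.pow_le_pow_right (by norm_num) (by omega)
    omega
  obtain ⟨H, hH⟩ := Sylow.exists_subgroup_card_pow_prime 2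
    (show 2 ^ 3 ∣ Nat.card A by rw [hk]; exact pow_dvd_pow 2 hk3)
  apply hno
  refine ⟨H.map A.subtype, ⟨⟨⟨?_⟩⟩, ?_⟩, ?_⟩
  · rintro ⟨x, hx⟩ ⟨y, hy⟩
    apply Subtype.ext
    obtain ⟨x', -, rfl⟩ := hx
    obtain ⟨y', -, rfl⟩ := hy
    exact hAc _ x'.2 _ y'.2
  · rintro a ⟨a', -, rfl⟩
    rw [pow_two]
    exact hA2 _ a'.2
  · rw [Subgroup.card_map_of_injective A.subtype_injective, hH]
    norm_num

end Cfsg.Agent.S3739
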