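import Cfsg.Statements.S3741
import Mathlib

set_option autoImplicit false
open Cfsg

namespace Cfsg.Agent.S3741

/-- In a `p`-group, a subgroup of order `p` is centralized by its normalizer. -/
theorem central_of_card_prime {G : Type*} [Group G] [Finite G] {p : ℕ} [Fact p.Prime]
    (hG : IsPGroup p G) (Z : Subgroup G) (hZ : Nat.card Z = p) :
    ∀ n ∈ Subgroup.normalizer (Z : Set G), ∀ z ∈ Z, n * z = z * n := by
  have hN : IsPGroup p (Subgroup.normalizer (Z : Set G)) := hG.to_subgroup _
  have h1 : (1 : Z) ∈ MulAction.fixedPoints (Subgroup.normalizer (Z : Set G)) Z := by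
    intro n; exact smul_one n
  obtain ⟨z₀, hz₀, hne⟩ := hN.exists_fixed_point_of_prime_dvd_card_of_fixed_point (α := Z)
    (by rw [hZ]) h1
  intro n hn z hz
  have hgen : (⟨z, hz⟩ : Z) ∈ Subgroup.zpowers z₀ := mem_zpowers_of_prime_card hZ (Ne.symm hne)
  obtain ⟨k, hk⟩ := hgen
  have hz' : z = (z₀ : G) ^ k := by
    have := congrArg (fun x : Z => (x : G)) hk
    simpa using this.symm
  have hfix := hz₀ ⟨n, hn⟩
  have hfix' : n * (z₀ : G) * n⁻¹ = z₀ := congrArg (fun x : Z => (x : G)) hfix
  have hc : Commute n (z₀ : G) := by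
    unfold Commute SemiconjBy
    calc n * (z₀ : G) = n * z₀ * n⁻¹ * n := by group
      _ = z₀ * n := by rw [hfix']
  rw [hz']
  exact (hc.zpow_right k).eq

/-- If all commutators `[a, b]`, `b ∈ B`, lie in a subgroup `Z` of order `p` centralized by `B`,
then `a` centralizes `B` or `C_B(a)` has index `p` in `B`. -/
theorem card_commuting {G : Type*} [Group G] [Finite G] {p : ℕ} [Fact p.Prime]
    (B Z : Subgroup G) (hZ : Nat.card Z = p)
    (hZc : ∀ b ∈ B, ∀ z ∈ Z, b * z = z * b) (a : G) (ha : ∀ b ∈ B, a * b * a⁻¹ * b⁻¹ ∈ Z) :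
    (∀ b ∈ B, a * b = b * a) ∨ p * Nat.card {b : B // a * (b : G) = b * a} = Nat.card B := by
  let f : B →* Z :=
    { toFun := fun b => ⟨a * b * a⁻¹ * (b : G)⁻¹, ha b b.2⟩
      map_one' := by
        apply Subtype.ext
        simp
      map_mul' := by
        intro b b'
        apply Subtype.ext
        have h := hZc b b.2 _ (ha b' b'.2)
        show a * ((b : G) * b') * a⁻¹ * ((b : G) * b')⁻¹
          = (a * b * a⁻¹ * (b : G)⁻¹) * (a * b' * a⁻¹ * (b' : G)⁻¹)
        calc a * ((b : G) * b') * a⁻¹ * ((b : G) * b')⁻¹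
            = a * b * a⁻¹ * (b : G)⁻¹ * ((b : G) * (a * b' * a⁻¹ * (b' : G)⁻¹)) * (b : G)⁻¹ := by
              group
          _ = a * b * a⁻¹ * (b : G)⁻¹ * ((a * b' * a⁻¹ * (b' : G)⁻¹) * b) * (b : G)⁻¹ := by
              rw [h]
          _ = (a * b * a⁻¹ * (b : G)⁻¹) * (a * b' * a⁻¹ * (b' : G)⁻¹) := by group }
  have hf : ∀ b : B, ((f b : Z) : G) = a * b * a⁻¹ * (b : G)⁻¹ := fun b => rfl
  have hker : ∀ b : B, b ∈ f.ker ↔ a * (b : G) = b * a := by
    intro b
    rw [MonoidHom.mem_ker]
    constructor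
    · intro h
      have h' := congrArg (fun x : Z => (x : G)) h
      simp only [hf, Subgroup.coe_one] at h'
      calc a * (b : G) = a * b * a⁻¹ * (b : G)⁻¹ * (b * a) := by group
        _ = b * a := by rw [h', one_mul]
    · intro h
      apply Subtype.ext
      rw [hf, h]
      simp
  have : Fact (Nat.card Z).Prime := by rw [hZ]; infer_instance
  rcases f.range.eq_bot_or_eq_top_of_prime_card with hr | hr
  · left
    intro b hb
    have : (⟨b, hb⟩ : B) ∈ f.ker := by
      rw [MonoidHom.mem_ker]
      have : f ⟨b, hb⟩ ∈ f.range := ⟨_, rfl⟩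
      rw [hr] at this
      exact Subgroup.mem_bot.mp this
    exact (hker ⟨b, hb⟩).mp this
  · right
    have h1 : Nat.card f.ker * f.ker.index = Nat.card B := Subgroup.card_mul_index _
    rw [Subgroup.index_ker, hr, Subgroup.card_top, hZ] at h1
    have h2 : Nat.card f.ker = Nat.card {b : B // a * (b : G) = b * a} :=
      Nat.card_congr (Equiv.subtypeEquivRight hker)
    rw [← h2, mul_comm]
    exact h1

/-- the sum form of the count -/
theorem sum_commuting {G : Type*} [Group G] [Finite G] {p : ℕ} [Fact p.Prime]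
    (A B Z : Subgroup G) (hZ : Nat.card Z = p)
    (hZc : ∀ b ∈ B, ∀ z ∈ Z, b * z = z * b) (ha : ∀ a ∈ A, ∀ b ∈ B, a * b * a⁻¹ * b⁻¹ ∈ Z)
    [Fintype A] [Fintype B] :
    p * ∑ a : A, Nat.card {b : B // (a : G) * (b : G) = b * a}
      = Nat.card A * Nat.card B
        + Nat.card ((A ⊓ Subgroup.centralizer (B : Set G)).subgroupOf A) * ((p - 1) * Nat.card B) := by
  classical
  have hp : 1 ≤ p := (Fact.out : p.Prime).one_lt.le
  have key : ∀ a : A, p * Nat.card {b : B // (a : G) * (b : G) = b * a}
      = Nat.card B + (if a ∈ (A ⊓ Subgroup.centralizer (B : Set G)).subgroupOf A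
          then (p - 1) * Nat.card B else 0) := by
    intro a
    have hmem : a ∈ (A ⊓ Subgroup.centralizer (B : Set G)).subgroupOf A ↔
        ∀ b ∈ B, (a : G) * b = b * a := by
      rw [Subgroup.mem_subgroupOf, Subgroup.mem_inf, Subgroup.mem_centralizer_iff]
      constructor
      · intro h b hb; exact (h.2 b hb).symm
      · intro h; exact ⟨a.2, fun b hb => (h b hb).symm⟩
    by_cases hc : ∀ b ∈ B, (a : G) * b = b * a
    · rw [if_pos (hmem.mpr hc)]
      have : Nat.card {b : B // (a : G) * (b : G) = b * a} = Nat.card B :=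
        Nat.card_congr (Equiv.subtypeUnivEquiv (fun b => hc b b.2))
      rw [this]
      have : p = 1 + (p - 1) := by omega
      nth_rewrite 1 [this]
      ring
    · rw [if_neg (fun h => hc (hmem.mp h)), add_zero]
      rcases card_commuting B Z hZ hZc (a : G) (ha a a.2) with h | h
      · exact absurd h hc
      · exact h
  rw [Finset.mul_sum, Finset.sum_congr rfl (fun a _ => key a), Finset.sum_add_distrib,
    Finset.sum_const, Finset.card_univ, smul_eq_mul, ← Nat.card_eq_fintype_card,
    ← Finset.sum_filter, Finset.sum_const, smul_eq_mul]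
  congr 2
  rw [Nat.card_eq_fintype_card, Fintype.card_subtype]

theorem result {G : Type*} [Group G] [Finite G] {p : ℕ} [Fact p.Prime] (hG : IsPGroup p G) (A B : Subgroup G) (hAB : ⁅A, B⁆ ≤ A ⊓ B) (hcard : Nat.card ↥⁅A, B⁆ ≤ p) : (A ⊓ Subgroup.centralizer (B : Set G)).relIndex A = (B ⊓ Subgroup.centralizer (A : Set G)).relIndex B := by
  classical
  have hp1 : 1 < p := (Fact.out : p.Prime).one_lt
  obtain ⟨n, hn⟩ := (hG.to_subgroup ⁅A, B⁆).exists_card_eq
  have hn1 : n ≤ 1 := by
    by_contra h
    have h2 : 2 ≤ n := by omega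
    have : p ^ 2 ≤ p ^ n := Nat.pow_le_pow_right hp1.le h2
    have : p * p ≤ p := by nlinarith
    nlinarith
  rcases Nat.le_one_iff_eq_zero_or_eq_one.mp hn1 with h0 | h1
  · -- trivial commutator
    rw [h0, pow_zero] at hn
    have hbot : ⁅A, B⁆ = ⊥ := Subgroup.card_eq_one.mp hn
    have hA : A ≤ Subgroup.centralizer (B : Set G) :=
      Subgroup.commutator_eq_bot_iff_le_centralizer.mp hbot
    have hB : B ≤ Subgroup.centralizer (A : Set G) := by
      rw [Subgroup.commutator_comm] at hbot
      exact Subgroup.commutator_eq_bot_iff_le_centralizer.mp hbot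
    rw [inf_of_le_left hA, inf_of_le_left hB, Subgroup.relIndex_self, Subgroup.relIndex_self]
  · rw [h1, pow_one] at hn
    set Z : Subgroup G := ⁅A, B⁆ with hZdef
    have hZA : Z ≤ A := hAB.trans inf_le_left
    have hZB : Z ≤ B := hAB.trans inf_le_right
    have hcomm : ∀ a ∈ A, ∀ b ∈ B, a * b * a⁻¹ * b⁻¹ ∈ Z := fun a ha b hb =>
      Subgroup.commutator_mem_commutator ha hb
    have hcomm' : ∀ b ∈ B, ∀ a ∈ A, b * a * b⁻¹ * a⁻¹ ∈ Z := by
      intro b hb a ha
      have : b * a * b⁻¹ * a⁻¹ ∈ ⁅B, A⁆ := Subgroup.commutator_mem_commutator hb ha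
      rwa [Subgroup.commutator_comm] at this
    -- A and B normalize Z
    have hAconj : ∀ a ∈ A, ∀ z ∈ Z, a * z * a⁻¹ ∈ Z := by
      intro a ha z hz
      have h := Z.mul_mem (hcomm a ha z (hZB hz)) hz
      have e : a * z * a⁻¹ * z⁻¹ * z = a * z * a⁻¹ := by group
      rwa [e] at h
    have hBconj : ∀ b ∈ B, ∀ z ∈ Z, b * z * b⁻¹ ∈ Z := by
      intro b hb z hz
      have h := Z.mul_mem (hcomm' b hb z (hZA hz)) hz
      have e : b * z * b⁻¹ * z⁻¹ * z = b * z * b⁻¹ := by group
      rwa [e] at h
    have hAN : A ≤ Subgroup.normalizer (Z : Set G) := by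
      intro a ha
      rw [Subgroup.mem_normalizer_iff]
      intro z
      constructor
      · exact hAconj a ha z
      · intro h
        have h' := hAconj a⁻¹ (A.inv_mem ha) _ h
        have e : a⁻¹ * (a * z * a⁻¹) * a⁻¹⁻¹ = z := by group
        rwa [e] at h'
    have hBN : B ≤ Subgroup.normalizer (Z : Set G) := by
      intro b hb
      rw [Subgroup.mem_normalizer_iff]
      intro z
      constructor
      · exact hBconj b hb z
      · intro h
        have h' := hBconj b⁻¹ (B.inv_mem hb) _ h
        have e : b⁻¹ * (b * z * b⁻¹) * b⁻¹⁻¹ = z := by group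
        rwa [e] at h'
    have hcen := central_of_card_prime hG Z hn
    have hZcA : ∀ a ∈ A, ∀ z ∈ Z, a * z = z * a := fun a ha z hz => hcen a (hAN ha) z hz
    have hZcB : ∀ b ∈ B, ∀ z ∈ Z, b * z = z * b := fun b hb z hz => hcen b (hBN hb) z hz
    have := Fintype.ofFinite A
    have := Fintype.ofFinite B
    have s1 := sum_commuting A B Z hn hZcB hcomm
    have s2 := sum_commuting B A Z hn hZcA hcomm'
    have hswap : ∑ a : A, Nat.card {b : B // (a : G) * (b : G) = b * a}
        = ∑ b : B, Nat.card {a : A // (b : G) * (a : G) = a * b} := by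
      have e1 : ∀ a : A, Nat.card {b : B // (a : G) * (b : G) = b * a}
          = ∑ b : B, if (a : G) * (b : G) = b * a then 1 else 0 := by
        intro a
        rw [Nat.card_eq_fintype_card, Fintype.card_subtype, Finset.card_filter]
      have e2 : ∀ b : B, Nat.card {a : A // (b : G) * (a : G) = a * b}
          = ∑ a : A, if (a : G) * (b : G) = b * a then 1 else 0 := by
        intro b
        rw [Nat.card_eq_fintype_card, Fintype.card_subtype, Finset.card_filter]
        apply Finset.sum_congr rfl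
        intro a _
        simp only [eq_comm]
      rw [Finset.sum_congr rfl (fun a _ => e1 a), Finset.sum_congr rfl (fun b _ => e2 b),
        Finset.sum_comm]
    rw [hswap, s2] at s1
    -- s1 : |B||A| + cB (p-1)|A| = |A||B| + cA (p-1)|B|
    set cA := Nat.card ((A ⊓ Subgroup.centralizer (B : Set G)).subgroupOf A) with hcA
    set cB := Nat.card ((B ⊓ Subgroup.centralizer (A : Set G)).subgroupOf B) with hcB
    have hrA : cA * (A ⊓ Subgroup.centralizer (B : Set G)).relIndex A = Nat.card A :=
      Subgroup.card_mul_index _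
    have hrB : cB * (B ⊓ Subgroup.centralizer (A : Set G)).relIndex B = Nat.card B :=
      Subgroup.card_mul_index _
    have hcApos : 0 < cA := Nat.card_pos
    have hcBpos : 0 < cB := Nat.card_pos
    have h3 : cB * ((p - 1) * Nat.card A) = cA * ((p - 1) * Nat.card B) := by
      have : Nat.card B * Nat.card A = Nat.card A * Nat.card B := mul_comm _ _
      omega
    have hp0 : 0 < p - 1 := by omega
    have h4 : cB * Nat.card A = cA * Nat.card B := by
      have : (p - 1) * (cB * Nat.card A) = (p - 1) * (cA * Nat.card B) := by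
        calc (p - 1) * (cB * Nat.card A) = cB * ((p - 1) * Nat.card A) := by ring
          _ = cA * ((p - 1) * Nat.card B) := h3
          _ = (p - 1) * (cA * Nat.card B) := by ring
      exact Nat.eq_of_mul_eq_mul_left hp0 this
    rw [← hrA, ← hrB] at h4
    -- cB * (cA * rA) = cA * (cB * rB)
    have h5 : (cA * cB) * (A ⊓ Subgroup.centralizer (B : Set G)).relIndex A
        = (cA * cB) * (B ⊓ Subgroup.centralizer (A : Set G)).relIndex B := by
      calc (cA * cB) * (A ⊓ Subgroup.centralizer (B : Set G)).relIndex A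
          = cB * (cA * (A ⊓ Subgroup.centralizer (B : Set G)).relIndex A) := by ring
        _ = cA * (cB * (B ⊓ Subgroup.centralizer (A : Set G)).relIndex B) := h4
        _ = (cA * cB) * (B ⊓ Subgroup.centralizer (A : Set G)).relIndex B := by ring
    exact Nat.eq_of_mul_eq_mul_left (Nat.mul_pos hcApos hcBpos) h5

end Cfsg.Agent.S3741
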