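import Cfsg.Statements.S3742

set_option autoImplicit false
open Cfsg
open scoped Pointwise

namespace Cfsg.Agent.S3742

/-- The quaternion group of order 8. -/
abbrev Q8 := QuaternionGroup 2

/-- The map of `Q8` determined by the images of the two generators `a 1` and `xa 0`. -/
def g (p : Q8 × Q8) : Q8 → Q8
  | .a i => p.1 ^ i.val
  | .xa i => p.2 * p.1 ^ i.val

/-- The pairs of images of the generators that define automorphisms. -/
def good (p : Q8 × Q8) : Prop :=
  (∀ x y : Q8, g p (x * y) = g p x * g p y) ∧ Function.Injective (g p)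

instance goodDec : DecidablePred good := fun p => by unfold good; infer_instance

theorem card_good : (Finset.univ.filter good).card = 24 := by decide +kernel

/-- The action of a pair on a set of pairs of elements of `Q8`. -/
def act (p : Q8 × Q8) (Y : Finset (Q8 × Q8)) : Finset (Q8 × Q8) :=
  Y.image (Prod.map (g p) (g p))

open QuaternionGroup in
/-- The six ordered pairs attached to a pair of opposite frames. -/
def Y0 : Finset (Q8 × Q8) :=
  {(a 1, xa 0), (xa 0, xa 3), (xa 3, a 1), (xa 2, a 3), (a 3, xa 1), (xa 1, xa 2)}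

open QuaternionGroup in
def Y1 : Finset (Q8 × Q8) := act (a 1, xa 2) Y0
open QuaternionGroup in
def Y2 : Finset (Q8 × Q8) := act (a 3, xa 0) Y0
open QuaternionGroup in
def Y3 : Finset (Q8 × Q8) := act (a 3, xa 2) Y0

/-- The four sets permuted by the automorphisms. -/
def XX : Finset (Finset (Q8 × Q8)) := {Y0, Y1, Y2, Y3}

theorem card_XX : XX.card = 4 := by decide +kernel

theorem act_mem : ∀ p : Q8 × Q8, good p → act p Y0 ∈ XX := by decide +kernel

open QuaternionGroup in
set_option maxRecDepth 100000 in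
theorem faithful : ∀ p : Q8 × Q8, good p →
    act p Y0 = Y0 → act p Y1 = Y1 → act p Y2 = Y2 → act p Y3 = Y3 → p = (a 1, xa 0) := by
  decide +kernel

open QuaternionGroup in
theorem good_reps : good (a 1, xa 0) ∧ good (a 1, xa 2) ∧ good (a 3, xa 0) ∧ good (a 3, xa 2) := by
  decide +kernel

open QuaternionGroup in
theorem act_Y0 : act (a 1, xa 0) Y0 = Y0 := by decide +kernel

open QuaternionGroup in
theorem g_eq (φ : MulAut Q8) : g (φ (a 1), φ (xa 0)) = ⇑φ := by
  funext x
  cases x with
  | a i =>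
    show (φ (a 1)) ^ i.val = φ (a i)
    rw [← map_pow, a_one_pow, ZMod.natCast_zmod_val]
  | xa i =>
    show φ (xa 0) * (φ (a 1)) ^ i.val = φ (xa i)
    rw [← map_pow, ← map_mul, a_one_pow, xa_mul_a, zero_add, ZMod.natCast_zmod_val]

open QuaternionGroup in
theorem good_of (φ : MulAut Q8) : good (φ (a 1), φ (xa 0)) := by
  unfold good
  rw [g_eq]
  exact ⟨fun x y => map_mul φ x y, φ.injective⟩

/-- The automorphism attached to a good pair. -/
noncomputable def aut (p : Q8 × Q8) (hp : good p) : MulAut Q8 :=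
  MulEquiv.ofBijective (MonoidHom.mk' (g p) hp.1)
    ⟨hp.2, Finite.injective_iff_surjective.mp hp.2⟩

theorem aut_apply (p : Q8 × Q8) (hp : good p) (x : Q8) : aut p hp x = g p x := rfl

open QuaternionGroup in
theorem g_gen (p : Q8 × Q8) : (g p (a 1), g p (xa 0)) = p := by
  have h1 : g p (a 1) = p.1 := by
    show p.1 ^ (1 : ZMod (2 * 2)).val = p.1
    have : (1 : ZMod (2 * 2)).val = 1 := by decide
    rw [this, pow_one]
  have h2 : g p (xa 0) = p.2 := by
    show p.2 * p.1 ^ (0 : ZMod (2 * 2)).val = p.2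
    have : (0 : ZMod (2 * 2)).val = 0 := by decide
    rw [this, pow_zero, mul_one]
  rw [h1, h2]

open QuaternionGroup in
/-- Automorphisms correspond to good pairs. -/
noncomputable def autEquiv : MulAut Q8 ≃ {p : Q8 × Q8 // good p} where
  toFun φ := ⟨(φ (a 1), φ (xa 0)), good_of φ⟩
  invFun p := aut p.1 p.2
  left_inv φ := by
    apply MulEquiv.ext
    intro x
    show g (φ (a 1), φ (xa 0)) x = φ x
    rw [g_eq]
  right_inv p := by
    apply Subtype.ext
    show (g p.1 (a 1), g p.1 (xa 0)) = p.1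
    exact g_gen p.1

theorem card_aut : Nat.card (MulAut Q8) = 24 := by
  rw [Nat.card_congr autEquiv, Nat.card_eq_fintype_card, Fintype.card_subtype]
  exact card_good

open QuaternionGroup in
theorem smul_eq_act (φ : MulAut Q8) (Y : Finset (Q8 × Q8)) :
    φ • Y = act (φ (a 1), φ (xa 0)) Y := by
  unfold act
  rw [g_eq]
  rfl

open QuaternionGroup in
theorem aut_smul (p : Q8 × Q8) (hp : good p) (Y : Finset (Q8 × Q8)) :
    aut p hp • Y = act p Y := by
  rw [smul_eq_act]
  show act (g p (a 1), g p (xa 0)) Y = act p Y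
  rw [g_gen]

open QuaternionGroup in
theorem orbit_eq : MulAction.orbit (MulAut Q8) Y0 = (XX : Set (Finset (Q8 × Q8))) := by
  ext Y
  constructor
  · rintro ⟨φ, rfl⟩
    show φ • Y0 ∈ XX
    rw [smul_eq_act]
    exact act_mem _ (good_of φ)
  · intro hY
    have hY' : Y ∈ XX := hY
    unfold XX at hY'
    simp only [Finset.mem_insert, Finset.mem_singleton] at hY'
    obtain ⟨h0, h1, h2, h3⟩ := good_reps
    rcases hY' with rfl | rfl | rfl | rfl
    · exact ⟨aut _ h0, by show aut _ h0 • Y0 = Y0; rw [aut_smul]; exact act_Y0⟩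
    · exact ⟨aut _ h1, by show aut _ h1 • Y0 = Y1; rw [aut_smul]; rfl⟩
    · exact ⟨aut _ h2, by show aut _ h2 • Y0 = Y2; rw [aut_smul]; rfl⟩
    · exact ⟨aut _ h3, by show aut _ h3 • Y0 = Y3; rw [aut_smul]; rfl⟩

theorem card_orbit : Nat.card ↥(MulAction.orbit (MulAut Q8) Y0) = 4 := by
  rw [Nat.card_coe_set_eq, orbit_eq, Set.ncard_coe_finset]
  exact card_XX

/-- The automorphism group of the quaternion group of order 8 is isomorphic to the symmetric group of degree 4. -/
theorem result : Nonempty (MulAut (QuaternionGroup 2) ≃* Equiv.Perm (Fin 4)) := by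
  classical
  let O : Set (Finset (Q8 × Q8)) := MulAction.orbit (MulAut Q8) Y0
  let f : MulAut Q8 →* Equiv.Perm ↥O := MulAction.toPermHom (MulAut Q8) ↥O
  have hmem : ∀ Y ∈ XX, Y ∈ O := fun Y hY => by
    show Y ∈ MulAction.orbit (MulAut Q8) Y0
    rw [orbit_eq]; exact hY
  have hinj : Function.Injective f := by
    rw [injective_iff_map_eq_one]
    intro φ hφ
    have hfix : ∀ Y ∈ XX, act (φ (QuaternionGroup.a 1), φ (QuaternionGroup.xa 0)) Y = Y := by
      intro Y hY
      have h1 : f φ ⟨Y, hmem Y hY⟩ = ⟨Y, hmem Y hY⟩ := by rw [hφ]; rfl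
      have h2 : φ • Y = Y := congrArg Subtype.val h1
      rw [← smul_eq_act]; exact h2
    have hp := faithful _ (good_of φ) (hfix Y0 (by unfold XX; simp))
      (hfix Y1 (by unfold XX; simp)) (hfix Y2 (by unfold XX; simp)) (hfix Y3 (by unfold XX; simp))
    apply autEquiv.injective
    apply Subtype.ext
    show (φ (QuaternionGroup.a 1), φ (QuaternionGroup.xa 0)) =
      ((1 : MulAut Q8) (QuaternionGroup.a 1), (1 : MulAut Q8) (QuaternionGroup.xa 0))
    rw [hp]; rfl
  have hcardO : Nat.card ↥O = 4 := card_orbit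
  have hcardP : Nat.card (Equiv.Perm ↥O) = 24 := by
    rw [Nat.card_perm, hcardO]; rfl
  have hbij : Function.Bijective f :=
    hinj.bijective_of_nat_card_le (by rw [hcardP, card_aut])
  have e1 : MulAut Q8 ≃* Equiv.Perm ↥O := MulEquiv.ofBijective f hbij
  have e2 : ↥O ≃ Fin 4 := Finite.equivFinOfCardEq hcardO
  exact ⟨e1.trans e2.permCongrHom⟩

end Cfsg.Agent.S3742
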