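import Cfsg.Statements.S3744
import Cfsg.Agent.Lib.Helper1.Hall

set_option autoImplicit false
open Cfsg
open scoped Pointwise

namespace Cfsg.Agent.S3744

universe u

theorem exists_normal_of_isPSolvable {G : Type*} [Group G] [Nontrivial G] (q : ℕ)
    [Fact q.Prime] (h : Cfsg.IsPSolvable q G) :
    ∃ N : Subgroup G, N.Normal ∧ N ≠ ⊥ ∧ (IsPGroup q N ∨ (Nat.card N).Coprime q) := by
  obtain ⟨n, S, h0, hlast, hmono, hnorm, hfac⟩ := h
  by_contra hcon
  have key : ∀ i : Fin (n + 1), S i = ⊥ := by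
    intro i
    induction i using Fin.induction with
    | zero => exact h0
    | succ i ih =>
      by_contra hne
      have h1 := hfac i
      rw [ih, Subgroup.relIndex_bot_left] at h1
      apply hcon
      refine ⟨S i.succ, hnorm _, hne, ?_⟩
      rcases h1 with ⟨m, hm⟩ | hc
      · left
        exact IsPGroup.of_card hm
      · right
        exact hc
  have h2 := key (Fin.last n)
  rw [hlast] at h2
  exact top_ne_bot h2

theorem isPSolvable_of_surjective {G G' : Type*} [Group G] [Group G'] [Finite G] (p : ℕ)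
    [Fact p.Prime] (f : G →* G') (hf : Function.Surjective f) (h : Cfsg.IsPSolvable p G) :
    Cfsg.IsPSolvable p G' := by
  have hp : p.Prime := Fact.out
  obtain ⟨n, S, h0, hlast, hmono, hnorm, hfac⟩ := h
  refine ⟨n, fun i => (S i).map f, ?_, ?_, ?_, ?_, ?_⟩
  · simp [h0]
  · simp only [hlast]
    exact Subgroup.map_top_of_surjective f hf
  · intro i j hij
    exact Subgroup.map_mono (hmono hij)
  · intro i
    exact (hnorm i).map f hf
  · intro i
    have hAB : S i.castSucc ≤ S i.succ := hmono (Fin.castSucc_le_succ i)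
    have hdiv : ((S i.castSucc).map f).relIndex ((S i.succ).map f) ∣
        (S i.castSucc).relIndex (S i.succ) := by
      rw [Subgroup.relIndex_map_map]
      have := hnorm i.castSucc
      have : (S i.castSucc ⊔ f.ker).Normal := inferInstance
      have h1 : S i.succ ⊔ f.ker = S i.succ ⊔ (S i.castSucc ⊔ f.ker) := by
        rw [← sup_assoc, sup_of_le_left hAB]
      rw [h1, Subgroup.relIndex_sup_right]
      exact Subgroup.relIndex_dvd_of_le_left _ le_sup_left
    rcases hfac i with ⟨m, hm⟩ | hcop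
    · left
      rw [hm] at hdiv
      obtain ⟨m', -, hm'⟩ := (Nat.dvd_prime_pow hp).mp hdiv
      exact ⟨m', hm'⟩
    · right
      exact Nat.Coprime.coprime_dvd_left hdiv hcop

/-- Schur–Zassenhaus containment: a subgroup of `H N` of order prime to `|N|` is conjugate
into the `|N|'`-subgroup `H`, when `N` is a solvable normal subgroup. -/
theorem sz_contain {G : Type u} [Group G] [Finite G] (N : Subgroup G) [N.Normal]
    (hsolv : Group.IsSolvable N) (H U : Subgroup G)
    (hH : (Nat.card H).Coprime (Nat.card N)) (hU : (Nat.card U).Coprime (Nat.card N))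
    (hle : U ≤ H ⊔ N) : ∃ g : G, MulAut.conj g • U ≤ H := by
  have hUN : U ⊓ N = ⊥ := (Subgroup.disjoint_of_coprime_natCard hU).eq_bot
  have hHN : H ⊓ N = ⊥ := (Subgroup.disjoint_of_coprime_natCard hH).eq_bot
  have hNL : N ≤ U ⊔ N := le_sup_right
  have hUL : U ≤ U ⊔ N := le_sup_left
  have hH₁ : (H ⊓ (U ⊔ N)) ⊔ N = U ⊔ N := by
    apply le_antisymm (sup_le inf_le_right hNL)
    intro l hl
    have hl' : l ∈ ((H ⊔ N : Subgroup G) : Set G) := (sup_le hle le_sup_right) hl
    rw [Subgroup.mul_normal] at hl'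
    obtain ⟨h, hh, n, hn, rfl⟩ := Set.mem_mul.mp hl'
    have hhL : h ∈ U ⊔ N := by
      have : h = (h * n) * n⁻¹ := by group
      rw [this]; exact Subgroup.mul_mem _ hl (Subgroup.inv_mem _ (hNL hn))
    exact Subgroup.mul_mem _ (Subgroup.mem_sup_left ⟨hh, hhL⟩) (Subgroup.mem_sup_right hn)
  have hcardU : N.relIndex (U ⊔ N) = Nat.card U := by
    rw [Subgroup.relIndex_sup_right, ← Subgroup.inf_relIndex_right, inf_comm, hUN,
      Subgroup.relIndex_bot_left]
  have hcardH : N.relIndex (U ⊔ N) = Nat.card (H ⊓ (U ⊔ N) : Subgroup G) := by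
    have h0 : N ⊓ (H ⊓ (U ⊔ N)) = ⊥ := by
      rw [eq_bot_iff, ← hHN]; exact le_inf (inf_le_right.trans inf_le_left) inf_le_left
    calc N.relIndex (U ⊔ N) = N.relIndex ((H ⊓ (U ⊔ N)) ⊔ N) := by rw [hH₁]
      _ = Nat.card (H ⊓ (U ⊔ N) : Subgroup G) := by
        rw [Subgroup.relIndex_sup_right, ← Subgroup.inf_relIndex_right, h0,
          Subgroup.relIndex_bot_left]
  have hN' : (Nat.card (N.subgroupOf (U ⊔ N))).Coprime (N.subgroupOf (U ⊔ N)).index := by
    rw [Cfsg.Agent.Lib.Helper1.card_subgroupOf_of_le hNL]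
    show (Nat.card N).Coprime (N.relIndex (U ⊔ N))
    rw [hcardU]; exact hU.symm
  have hsolv' : Group.IsSolvable (N.subgroupOf (U ⊔ N)) :=
    Group.isSolvable_of_isSolvable_injective (f := (Subgroup.subgroupOfEquivOfLe hNL).toMonoidHom)
      (Subgroup.subgroupOfEquivOfLe hNL).injective
  obtain ⟨g, hg⟩ := Cfsg.Agent.Lib.Helper1.sz_conj_card (N.subgroupOf (U ⊔ N)) hN'
    (Or.inl hsolv') (U.subgroupOf (U ⊔ N)) ((H ⊓ (U ⊔ N)).subgroupOf (U ⊔ N))
    (by rw [Cfsg.Agent.Lib.Helper1.card_subgroupOf_of_le hUL]; exact hcardU.symm)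
    (by rw [Cfsg.Agent.Lib.Helper1.card_subgroupOf_of_le inf_le_right]; exact hcardH.symm)
  refine ⟨(g : G), ?_⟩
  rw [Cfsg.Agent.Lib.Helper1.conj_smul_of_subgroupOf hUL inf_le_right g hg]
  exact inf_le_left

theorem pcompl_aux (p : ℕ) [Fact p.Prime] : ∀ (n : ℕ) (G : Type u) [Group G] [Finite G],
    Nat.card G = n → Cfsg.IsPSolvable p G →
    (∃ H : Subgroup G, (Nat.card H).Coprime p ∧ ∃ k : ℕ, H.index = p ^ k) ∧
    (∀ H U : Subgroup G, (Nat.card H).Coprime p → (∃ k : ℕ, H.index = p ^ k) →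
      (Nat.card U).Coprime p → ∃ g : G, MulAut.conj g • U ≤ H) := by
  intro n
  induction n using Nat.strong_induction_on with
  | _ n ih =>
  intro G _ _ hn hps
  have hp : p.Prime := Fact.out
  rcases subsingleton_or_nontrivial G with hsub | hnt
  · refine ⟨⟨⊤, ?_, 0, ?_⟩, ?_⟩
    · rw [Subgroup.card_top, Nat.card_unique]; exact Nat.coprime_one_left p
    · simp
    · intro H U _ _ _
      refine ⟨1, ?_⟩
      intro x hx
      have : x = 1 := Subsingleton.elim _ _
      rw [this]; exact H.one_mem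
  obtain ⟨N, hNn, hN0, hN⟩ := exists_normal_of_isPSolvable p hps
  have hsurj := QuotientGroup.mk'_surjective N
  have hps' : Cfsg.IsPSolvable p (G ⧸ N) :=
    isPSolvable_of_surjective p (QuotientGroup.mk' N) hsurj hps
  have hcardG : Nat.card G = Nat.card (G ⧸ N) * Nat.card N :=
    Subgroup.card_eq_card_quotient_mul_card_subgroup N
  have hNcard : 1 < Nat.card N := (Subgroup.one_lt_card_iff_ne_bot N).mpr hN0
  have hlt : Nat.card (G ⧸ N) < n := by
    rw [← hn, hcardG]
    have hpos : 0 < Nat.card (G ⧸ N) := Nat.card_pos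
    nlinarith
  obtain ⟨⟨H', hH'c, k, hH'k⟩, hcont⟩ := ih _ hlt (G ⧸ N) rfl hps'
  -- reduction of containment to the subgroup `H ⊔ N`
  have hred : ∀ H U : Subgroup G, (Nat.card H).Coprime p → (∃ k : ℕ, H.index = p ^ k) →
      (Nat.card U).Coprime p → ∃ g : G, MulAut.conj g • U ≤ H ⊔ N := by
    intro H U hHc hHk hUc
    have h1 : (Nat.card (H.map (QuotientGroup.mk' N))).Coprime p :=
      Nat.Coprime.coprime_dvd_left (Subgroup.card_map_dvd _ _) hHc
    have h2 : ∃ k : ℕ, (H.map (QuotientGroup.mk' N)).index = p ^ k := by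
      obtain ⟨a, ha⟩ := hHk
      have hd : (H.map (QuotientGroup.mk' N)).index ∣ p ^ a := by
        rw [← ha]; exact Subgroup.index_map_dvd H hsurj
      obtain ⟨m', -, hm'⟩ := (Nat.dvd_prime_pow hp).mp hd
      exact ⟨m', hm'⟩
    have h3 : (Nat.card (U.map (QuotientGroup.mk' N))).Coprime p :=
      Nat.Coprime.coprime_dvd_left (Subgroup.card_map_dvd _ _) hUc
    obtain ⟨g', hg'⟩ := hcont _ _ h1 h2 h3
    obtain ⟨g, rfl⟩ := hsurj g'
    refine ⟨g, ?_⟩
    rw [← Cfsg.Agent.Lib.Helper1.map_conj_smul, Subgroup.map_le_iff_le_comap,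
      Subgroup.comap_map_eq, QuotientGroup.ker_mk'] at hg'
    exact hg'
  rcases hN with hNp | hNp'
  · -- `N` is a `p`-group
    obtain ⟨b, hb⟩ := hNp.exists_card_eq
    constructor
    · -- existence via Schur–Zassenhaus
      have hNK : N ≤ H'.comap (QuotientGroup.mk' N) := by
        have := Subgroup.ker_le_comap (QuotientGroup.mk' N) H'
        rwa [QuotientGroup.ker_mk'] at this
      have hcK : Nat.card (H'.comap (QuotientGroup.mk' N)) = Nat.card H' * Nat.card N :=
        Cfsg.Agent.Lib.Helper1.card_comap_mk' N H'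
      have hrel : N.relIndex (H'.comap (QuotientGroup.mk' N)) = Nat.card H' := by
        have h1 := Cfsg.Agent.Lib.Helper1.card_eq_card_mul_relIndex hNK
        rw [hcK, mul_comm] at h1
        exact (Nat.eq_of_mul_eq_mul_left (by omega) h1).symm
      have hcop : (Nat.card (N.subgroupOf (H'.comap (QuotientGroup.mk' N)))).Coprime
          (N.subgroupOf (H'.comap (QuotientGroup.mk' N))).index := by
        rw [Cfsg.Agent.Lib.Helper1.card_subgroupOf_of_le hNK]
        show (Nat.card N).Coprime (N.relIndex (H'.comap (QuotientGroup.mk' N)))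
        rw [hrel, hb]
        exact Nat.Coprime.pow_left b hH'c.symm
      obtain ⟨C, hC⟩ := Subgroup.exists_right_complement'_of_coprime hcop
      have hcC : Nat.card C = Nat.card H' := by
        have h1 := hC.card_mul_card
        rw [Cfsg.Agent.Lib.Helper1.card_subgroupOf_of_le hNK, hcK, mul_comm] at h1
        exact Nat.eq_of_mul_eq_mul_right (by omega) h1
      have hcH : Nat.card (C.map (H'.comap (QuotientGroup.mk' N)).subtype) = Nat.card H' := by
        rw [← hcC]
        exact Nat.card_congr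
          (C.equivMapOfInjective _ (Subgroup.subtype_injective _)).toEquiv.symm
      refine ⟨C.map (H'.comap (QuotientGroup.mk' N)).subtype, ?_, k + b, ?_⟩
      · rw [hcH]; exact hH'c
      · have h1 := Subgroup.card_mul_index (C.map (H'.comap (QuotientGroup.mk' N)).subtype)
        have h2 := Subgroup.card_mul_index H'
        rw [hcH, hcardG, ← h2, hH'k, hb, mul_assoc, ← pow_add] at h1
        have hpos : 0 < Nat.card H' := Nat.card_pos
        exact Nat.eq_of_mul_eq_mul_left hpos h1
    · intro H U hHc hHk hUc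
      obtain ⟨g, hg⟩ := hred H U hHc hHk hUc
      have hnil : Group.IsNilpotent N := hNp.isNilpotent
      obtain ⟨x, hx⟩ := sz_contain N inferInstance H (MulAut.conj g • U)
        (by rw [hb]; exact Nat.Coprime.pow_right b hHc)
        (by rw [Cfsg.Agent.Lib.Helper1.card_conj_smul, hb]; exact Nat.Coprime.pow_right b hUc) hg
      refine ⟨x * g, ?_⟩
      rw [map_mul, mul_smul]
      exact hx
  · -- `N` is a `p'`-group
    constructor
    · refine ⟨H'.comap (QuotientGroup.mk' N), ?_, k, ?_⟩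
      · rw [Cfsg.Agent.Lib.Helper1.card_comap_mk' N H']
        exact Nat.Coprime.mul_left hH'c hNp'
      · rw [Subgroup.index_comap_of_surjective H' hsurj]; exact hH'k
    · intro H U hHc hHk hUc
      obtain ⟨g, hg⟩ := hred H U hHc hHk hUc
      have hsupc : (Nat.card (N ⊔ H : Subgroup G)).Coprime p := by
        have h1 := Cfsg.Agent.Lib.Helper1.card_sup_mul_card_inf N H
        exact Nat.Coprime.coprime_dvd_left (Dvd.intro _ h1) (Nat.Coprime.mul_left hNp' hHc)
      obtain ⟨a, ha⟩ := hHk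
      have hrel1 : H.relIndex (N ⊔ H) = 1 := by
        have hd1 : H.relIndex (N ⊔ H) ∣ p ^ a := by
          rw [← ha]; exact Dvd.intro _ (Subgroup.relIndex_mul_index le_sup_right)
        have hd2 : H.relIndex (N ⊔ H) ∣ Nat.card (N ⊔ H : Subgroup G) :=
          Subgroup.relIndex_dvd_card H (N ⊔ H)
        exact Nat.Coprime.eq_one_of_dvd
          (Nat.Coprime.pow_right a (Nat.Coprime.coprime_dvd_left hd2 hsupc)) hd1
      have hNH : N ≤ H := le_sup_left.trans (Subgroup.relIndex_eq_one.mp hrel1)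
      refine ⟨g, ?_⟩
      rwa [sup_eq_left.mpr hNH] at hg

theorem card_eq_of_pcompl {p a b k l : ℕ} (ha : a.Coprime p) (hb : b.Coprime p)
    (h : a * p ^ k = b * p ^ l) : a = b := by
  apply Nat.dvd_antisymm
  · exact Nat.Coprime.dvd_of_dvd_mul_right (Nat.Coprime.pow_right l ha) (Dvd.intro _ h)
  · exact Nat.Coprime.dvd_of_dvd_mul_right (Nat.Coprime.pow_right k hb) (Dvd.intro _ h.symm)

/-- A finite p-soluble group has a p-complement, all its p-complements are conjugate, and every subgroup of order prime to p lies in one of them. Here a p-complement is a subgroup of order prime to p whose index is a power of p. -/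
theorem result {G : Type*} [Group G] [Finite G] {p : ℕ} [Fact p.Prime] (hG : Cfsg.IsPSolvable p G) : (∃ H : Subgroup G, (Nat.card H).Coprime p ∧ ∃ n : ℕ, H.index = p ^ n) ∧ (∀ H₁ H₂ : Subgroup G, (Nat.card H₁).Coprime p → (∃ n : ℕ, H₁.index = p ^ n) → (Nat.card H₂).Coprime p → (∃ n : ℕ, H₂.index = p ^ n) → ∃ g : G, H₂ = H₁.map (MulAut.conj g).toMonoidHom) ∧ (∀ U : Subgroup G, (Nat.card U).Coprime p → ∃ H : Subgroup G, (Nat.card H).Coprime p ∧ (∃ n : ℕ, H.index = p ^ n) ∧ ∃ g : G, U.map (MulAut.conj g).toMonoidHom ≤ H) := by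
  obtain ⟨hex, hcont⟩ := pcompl_aux p _ G rfl hG
  refine ⟨hex, ?_, ?_⟩
  · intro H₁ H₂ h1c h1k h2c h2k
    obtain ⟨g, hg⟩ := hcont H₁ H₂ h1c h1k h2c
    obtain ⟨a, ha⟩ := h1k
    obtain ⟨b, hb⟩ := h2k
    have hcard : Nat.card H₁ = Nat.card H₂ := by
      have e1 := Subgroup.card_mul_index H₁
      have e2 := Subgroup.card_mul_index H₂
      rw [ha] at e1
      rw [hb] at e2
      exact card_eq_of_pcompl h1c h2c (e1.trans e2.symm)
    have heq : MulAut.conj g • H₂ = H₁ :=
      Subgroup.eq_of_le_of_card_ge hg (by rw [Cfsg.Agent.Lib.Helper1.card_conj_smul, hcard])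
    have key : ∀ y : G, y ∈ H₁ ↔ g⁻¹ * y * g ∈ H₂ := by
      intro y
      rw [← heq]
      exact Cfsg.Agent.Lib.Helper1.mem_conj_smul H₂ g y
    refine ⟨g⁻¹, ?_⟩
    ext x
    constructor
    · intro hx
      refine ⟨g * x * g⁻¹, ?_, ?_⟩
      · rw [SetLike.mem_coe, key]
        have : g⁻¹ * (g * x * g⁻¹) * g = x := by group
        rw [this]; exact hx
      · simp [mul_assoc]
    · rintro ⟨y, hy, rfl⟩
      rw [SetLike.mem_coe, key] at hy
      simpa [mul_assoc] using hy
  · intro U hUc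
    obtain ⟨H, hHc, hHk⟩ := hex
    obtain ⟨g, hg⟩ := hcont H U hHc hHk hUc
    refine ⟨H, hHc, hHk, g, ?_⟩
    rintro _ ⟨u, hu, rfl⟩
    apply hg
    rw [Cfsg.Agent.Lib.Helper1.mem_conj_smul]
    have : g⁻¹ * ((MulAut.conj g).toMonoidHom u) * g = u := by simp [mul_assoc]
    rw [this]; exact hu

end Cfsg.Agent.S3744
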