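import Cfsg.Statements.S3746
import Cfsg.Agent.Lib.Helper22.Quasi

set_option autoImplicit false
open Cfsg
open scoped commutatorElement

namespace Cfsg.Agent.S3746

/-- A perfect central extension of a quasisimple group is quasisimple. -/
theorem isQuasisimple_of_central_extension {D Q : Type*} [Group D] [Group Q] (f : D →* Q)
    (hf : Function.Surjective f) (hker : f.ker ≤ Subgroup.center D) (hD : Group.IsPerfect D)
    (hQ : Cfsg.IsQuasisimple Q) : Cfsg.IsQuasisimple D := by
  refine ⟨hD, ?_⟩
  let g : D →* Q ⧸ Subgroup.center Q := (QuotientGroup.mk' (Subgroup.center Q)).comp f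
  have hg : Function.Surjective g := (QuotientGroup.mk'_surjective _).comp hf
  have hker' : g.ker = Subgroup.center D := by
    apply le_antisymm
    · intro y hy
      have hy' : f y ∈ Subgroup.center Q := by
        rw [MonoidHom.mem_ker] at hy
        exact (QuotientGroup.eq_one_iff _).mp hy
      have hc : ∀ d : D, ⁅d, y⁆ ∈ Subgroup.center D := by
        intro d
        apply hker
        rw [MonoidHom.mem_ker, map_commutatorElement, commutatorElement_eq_one_iff_mul_comm]
        exact (Subgroup.mem_center_iff.mp hy' (f d))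
      have hcent : (⊤ : Subgroup D) ≤ Subgroup.centralizer {y} := by
        rw [← hD.commutator_eq_top, commutator_def, Subgroup.commutator_le]
        intro a _ b _
        rw [Subgroup.mem_centralizer_iff]
        intro y' hy'
        rw [Set.mem_singleton_iff] at hy'
        subst hy'
        have h1 : y' * ⁅a, b⁆ * y'⁻¹ = ⁅a, b⁆ := by
          have ea : y' * a * y'⁻¹ = a * ⁅a⁻¹, y'⁆ := by rw [commutatorElement_def]; group
          have eb : y' * b * y'⁻¹ = b * ⁅b⁻¹, y'⁆ := by rw [commutatorElement_def]; group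
          have : y' * ⁅a, b⁆ * y'⁻¹ = ⁅y' * a * y'⁻¹, y' * b * y'⁻¹⁆ := by
            rw [commutatorElement_def, commutatorElement_def]; group
          rw [this, ea, eb]
          have hza := Subgroup.mem_center_iff.mp (hc a⁻¹)
          have hzb := Subgroup.mem_center_iff.mp (hc b⁻¹)
          exact Cfsg.Agent.Lib.Helper22.commutatorElement_mul_central a b _ _
            (hza b).symm (hza _).symm (hzb a).symm
        calc y' * ⁅a, b⁆ = (y' * ⁅a, b⁆ * y'⁻¹) * y' := by group
          _ = ⁅a, b⁆ * y' := by rw [h1]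
      rw [Subgroup.mem_center_iff]
      intro d
      have := Subgroup.mem_centralizer_iff.mp (hcent (Subgroup.mem_top d)) y rfl
      exact this.symm
    · intro z hz
      rw [MonoidHom.mem_ker]
      show QuotientGroup.mk' _ (f z) = 1
      rw [QuotientGroup.mk'_apply, QuotientGroup.eq_one_iff, Subgroup.mem_center_iff]
      intro y
      obtain ⟨x, rfl⟩ := hf y
      rw [← map_mul, ← map_mul, (Subgroup.mem_center_iff.mp hz x)]
  have e1 : D ⧸ g.ker ≃* Q ⧸ Subgroup.center Q := QuotientGroup.quotientKerEquivOfSurjective g hg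
  have e2 : D ⧸ Subgroup.center D ≃* D ⧸ g.ker := QuotientGroup.quotientMulEquivOfEq hker'.symm
  have hs : IsSimpleGroup (Q ⧸ Subgroup.center Q) := hQ.2
  exact (e2.trans e1).isSimpleGroup

/-- Let Z ≤ Z(G) be a central subgroup of a finite group G and E a subgroup of G containing Z whose image E/Z is a component of G/Z (subnormal and quasisimple). Then the derived subgroup [E, E] is a component of G. -/
theorem result {G : Type*} [Group G] [Finite G] (Z : Subgroup G) (hZ : Z ≤ Subgroup.center G) [Z.Normal] (E : Subgroup G) (hZE : Z ≤ E) (hE : Cfsg.IsComponent (E.map (QuotientGroup.mk' Z))) : Cfsg.IsComponent ⁅E, E⁆ := by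
  obtain ⟨hsub, hqs⟩ := hE
  have hDE : ⁅E, E⁆ ≤ E := by
    rw [Subgroup.commutator_le]
    intro a ha b hb
    rw [commutatorElement_def]
    exact E.mul_mem (E.mul_mem (E.mul_mem ha hb) (E.inv_mem ha)) (E.inv_mem hb)
  have hEs : E.IsSubnormal := by
    have := hsub.comap (QuotientGroup.mk' Z)
    rwa [Subgroup.comap_map_eq, QuotientGroup.ker_mk', sup_eq_left.mpr hZE] at this
  have hDs : (⁅E, E⁆ : Subgroup G).IsSubnormal := by
    rw [← Subgroup.map_subtype_commutator]
    exact (Subgroup.Normal.isSubnormal inferInstance).trans' hEs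
  have hmap : (⁅E, E⁆ : Subgroup G).map (QuotientGroup.mk' Z) = E.map (QuotientGroup.mk' Z) := by
    rw [Subgroup.map_commutator]
    exact Subgroup.isPerfect_iff.mp hqs.1
  -- every element of E is a product of an element of D and a central element
  have hdec : ∀ a ∈ E, ∃ d ∈ (⁅E, E⁆ : Subgroup G), ∃ z ∈ Z, a = d * z := by
    intro a ha
    have h1 : QuotientGroup.mk' Z a ∈ (⁅E, E⁆ : Subgroup G).map (QuotientGroup.mk' Z) := by
      rw [hmap]; exact Subgroup.mem_map_of_mem _ ha
    obtain ⟨d, hd, hda⟩ := h1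
    refine ⟨d, hd, d⁻¹ * a, ?_, by group⟩
    have h2 : QuotientGroup.mk' Z (d⁻¹ * a) = 1 := by
      rw [map_mul, map_inv, hda]; group
    rwa [QuotientGroup.mk'_apply, QuotientGroup.eq_one_iff] at h2
  have hperf : ⁅(⁅E, E⁆ : Subgroup G), (⁅E, E⁆ : Subgroup G)⁆ = ⁅E, E⁆ := by
    apply le_antisymm
    · exact Subgroup.commutator_mono hDE hDE
    · rw [Subgroup.commutator_le]
      intro a ha b hb
      obtain ⟨d₁, hd₁, z₁, hz₁, rfl⟩ := hdec a ha
      obtain ⟨d₂, hd₂, z₂, hz₂, rfl⟩ := hdec b hb
      have hz₁' := Subgroup.mem_center_iff.mp (hZ hz₁)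
      have hz₂' := Subgroup.mem_center_iff.mp (hZ hz₂)
      rw [Cfsg.Agent.Lib.Helper22.commutatorElement_mul_central d₁ d₂ z₁ z₂
        (hz₁' d₂).symm (hz₁' z₂).symm (hz₂' d₁).symm]
      exact Subgroup.commutator_mem_commutator hd₁ hd₂
  have hperf' : Group.IsPerfect (⁅E, E⁆ : Subgroup G) := Subgroup.isPerfect_iff.mpr hperf
  refine ⟨hDs, ?_⟩
  let f : (⁅E, E⁆ : Subgroup G) →* (E.map (QuotientGroup.mk' Z)) :=
    ((QuotientGroup.mk' Z).subgroupMap E).comp (Subgroup.inclusion hDE)
  have hf : Function.Surjective f := by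
    intro x
    have hx : (x : G ⧸ Z) ∈ (⁅E, E⁆ : Subgroup G).map (QuotientGroup.mk' Z) := by
      rw [hmap]; exact x.2
    obtain ⟨d, hd, hdx⟩ := hx
    exact ⟨⟨d, hd⟩, Subtype.ext hdx⟩
  have hker : f.ker ≤ Subgroup.center (⁅E, E⁆ : Subgroup G) := by
    intro d hd
    rw [MonoidHom.mem_ker] at hd
    have h1 : QuotientGroup.mk' Z (d : G) = 1 := congrArg Subtype.val hd
    rw [QuotientGroup.mk'_apply, QuotientGroup.eq_one_iff] at h1
    have h2 := Subgroup.mem_center_iff.mp (hZ h1)
    rw [Subgroup.mem_center_iff]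
    intro g
    exact Subtype.ext (h2 g)
  exact isQuasisimple_of_central_extension f hf hker hperf' hqs

end Cfsg.Agent.S3746
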