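import Cfsg.Statements.S3747
import Cfsg.Agent.Lib.Helper22.Comp
import Cfsg.Agent.Lib.Helper22.Fstar
import Cfsg.Agent.Lib.Helper22.Layer
import Cfsg.Agent.Lib.Helper30.Bender

set_option autoImplicit false
open Cfsg
open scoped commutatorElement

namespace Cfsg.Agent.S3747

universe u

/-- A central element of a join of finitely many pairwise distinct components with trivial
centres is trivial. -/
theorem eq_one_of_central {G : Type u} [Group G] [Finite G] (S : Finset (Subgroup G))
    (hS : ∀ L ∈ S, Cfsg.IsComponent L ∧ ∀ x ∈ L, (∀ y ∈ L, y * x = x * y) → x = 1) :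
    ∀ z ∈ sSup (S : Set (Subgroup G)), (∀ L ∈ S, ∀ y ∈ L, y * z = z * y) → z = 1 := by
  classical
  induction S using Finset.induction_on with
  | empty =>
    intro z hz _
    rw [Finset.coe_empty, sSup_empty, Subgroup.mem_bot] at hz
    exact hz
  | insert L S' hL ih =>
    intro z hz hcomm
    rw [Finset.coe_insert, sSup_insert] at hz
    have hLc : Cfsg.IsComponent L := (hS L (Finset.mem_insert_self _ _)).1
    have hLz := (hS L (Finset.mem_insert_self _ _)).2
    have hle : sSup (S' : Set (Subgroup G)) ≤ Subgroup.centralizer (L : Set G) := by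
      apply sSup_le
      intro L' hL'
      have hL'S : L' ∈ S' := hL'
      have hL'c : Cfsg.IsComponent L' := (hS L' (Finset.mem_insert_of_mem hL'S)).1
      have hne : L' ≠ L := fun h => hL (h ▸ hL'S)
      have h1 := Cfsg.Agent.Lib.Helper22.components_commute hL'c hLc hne
      rwa [Subgroup.commutator_eq_bot_iff_le_centralizer] at h1
    obtain ⟨l, hl, m, hm, rfl⟩ := Cfsg.Agent.Lib.Helper22.mem_sup_of_comm
      (A := L) (B := sSup (S' : Set (Subgroup G)))
      (fun a ha b hb => ((Subgroup.mem_centralizer_iff.mp (hle hb)) a ha)) hz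
    have hl1 : l = 1 := by
      apply hLz l hl
      intro y hy
      have h1 := hcomm L (Finset.mem_insert_self _ _) y hy
      have h2 : y * m = m * y := (Subgroup.mem_centralizer_iff.mp (hle hm)) y hy
      have h3 : y * l * m = l * y * m := by
        calc y * l * m = y * (l * m) := by group
          _ = l * m * y := h1
          _ = l * (m * y) := by group
          _ = l * (y * m) := by rw [h2]
          _ = l * y * m := by group
      exact mul_right_cancel h3
    rw [hl1, one_mul]
    apply ih (fun L' hL' => hS L' (Finset.mem_insert_of_mem hL')) m hm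
    intro L' hL' y hy
    have := hcomm L' (Finset.mem_insert_of_mem hL') y hy
    rwa [hl1, one_mul] at this

/-- Part (a). -/
theorem partA {G : Type u} [Group G] [Finite G] (K : Subgroup G) (hK : Cfsg.IsComponent K)
    (hZ : Subgroup.center ↥K = ⊥) :
    Subgroup.normalClosure (K : Set G) ≠ ⊥ ∧ ∀ N : Subgroup G, N.Normal →
      N ≤ Subgroup.normalClosure (K : Set G) → N = ⊥ ∨ N = Subgroup.normalClosure (K : Set G) := by
  classical
  have hKle : K ≤ Subgroup.normalClosure (K : Set G) := Subgroup.le_normalClosure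
  refine ⟨fun h => Cfsg.Agent.Lib.Helper22.IsComponent.ne_bot hK (le_bot_iff.mp (h ▸ hKle)), ?_⟩
  intro N hN hNle
  rcases Cfsg.Agent.Lib.Helper22.component_le_or_commute_normal hK hN with h | h
  · right
    exact le_antisymm hNle (Subgroup.normalClosure_le_normal h)
  · left
    rw [Subgroup.commutator_eq_bot_iff_le_centralizer] at h
    -- the set of conjugates of `K`
    let T : Set (Subgroup G) := {L | ∃ g : G, L = K.map (MulAut.conj g).toMonoidHom}
    have hTfin : T.Finite := Set.toFinite T
    have hTS : ∀ L ∈ hTfin.toFinset,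
        Cfsg.IsComponent L ∧ ∀ x ∈ L, (∀ y ∈ L, y * x = x * y) → x = 1 := by
      intro L hL
      rw [Set.Finite.mem_toFinset] at hL
      obtain ⟨g, rfl⟩ := hL
      refine ⟨Cfsg.Agent.Lib.Helper22.isComponent_map_equiv (MulAut.conj g) hK, ?_⟩
      rintro _ ⟨k, hk, rfl⟩ hcomm
      have hk1 : (⟨k, hk⟩ : K) ∈ Subgroup.center ↥K := by
        rw [Subgroup.mem_center_iff]
        intro y
        apply Subtype.ext
        have h1 := hcomm ((MulAut.conj g).toMonoidHom y) ⟨y, y.2, rfl⟩
        have h2 : (MulAut.conj g).toMonoidHom ((y : G) * k) =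
            (MulAut.conj g).toMonoidHom (k * (y : G)) := by
          rw [map_mul, map_mul]; exact h1
        exact (MulAut.conj g).injective h2
      rw [hZ, Subgroup.mem_bot] at hk1
      have hk2 : k = 1 := congrArg Subtype.val hk1
      rw [hk2, map_one]
    have hncl : Subgroup.normalClosure (K : Set G) ≤ sSup (hTfin.toFinset : Set (Subgroup G)) := by
      unfold Subgroup.normalClosure
      rw [Subgroup.closure_le]
      intro a ha
      rw [Group.mem_conjugatesOfSet_iff] at ha
      obtain ⟨b, hb, hba⟩ := ha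
      rw [isConj_iff] at hba
      obtain ⟨c, rfl⟩ := hba
      have hmem : K.map (MulAut.conj c).toMonoidHom ∈ (hTfin.toFinset : Set (Subgroup G)) := by
        rw [Finset.mem_coe, Set.Finite.mem_toFinset]
        exact ⟨c, rfl⟩
      exact (le_sSup hmem) ⟨b, hb, rfl⟩
    rw [eq_bot_iff]
    intro z hz
    rw [Subgroup.mem_bot]
    apply eq_one_of_central hTfin.toFinset hTS z (hncl (hNle hz))
    intro L hL y hy
    rw [Set.Finite.mem_toFinset] at hL
    obtain ⟨g, rfl⟩ := hL
    obtain ⟨k, hk, rfl⟩ := hy
    have hzg : g⁻¹ * z * g ∈ N := by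
      have := hN.conj_mem z hz g⁻¹
      simpa using this
    have h1 : g⁻¹ * z * g * k = k * (g⁻¹ * z * g) := Subgroup.mem_centralizer_iff.mp (h hk) _ hzg
    show g * k * g⁻¹ * z = z * (g * k * g⁻¹)
    calc g * k * g⁻¹ * z = g * (k * (g⁻¹ * z * g)) * g⁻¹ := by group
      _ = g * (g⁻¹ * z * g * k) * g⁻¹ := by rw [h1]
      _ = z * (g * k * g⁻¹) := by group

/-- The centre of a component is trivial when the Fitting subgroup is. -/
theorem center_eq_bot {G : Type u} [Group G] [Finite G] (hF : Cfsg.fittingSubgroup G = ⊥)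
    (K : Subgroup G) (hK : Cfsg.IsComponent K) : Subgroup.center ↥K = ⊥ := by
  have hsn : ((Subgroup.center ↥K).map K.subtype).IsSubnormal :=
    (Subgroup.Normal.isSubnormal (inferInstance : (Subgroup.center ↥K).Normal)).trans' hK.1
  have hnil : Group.IsNilpotent ↥((Subgroup.center ↥K).map K.subtype) := by
    apply Cfsg.Agent.Lib.Helper22.isNilpotent_of_comm
    rintro ⟨_, a, ha, rfl⟩ ⟨_, b, hb, rfl⟩
    apply Subtype.ext
    show K.subtype a * K.subtype b = K.subtype b * K.subtype a
    rw [← map_mul, ← map_mul, (Subgroup.mem_center_iff.mp hb a)]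
  have hle := Cfsg.Agent.Lib.Helper22.le_fittingSubgroup_of_subnormal_nilpotent hsn hnil
  rw [hF, le_bot_iff] at hle
  exact (Subgroup.map_eq_bot_iff_of_injective _ K.subtype_injective).mp hle

/-- Let G be a finite group. (a) If K is a component of G with trivial centre, then the normal closure of K in G is a minimal normal subgroup of G. (b) If the Fitting subgroup of G is trivial, then the layer E(G) is generated by the minimal normal subgroups of G. -/
theorem result {G : Type*} [Group G] [Finite G] : (∀ K : Subgroup G, Cfsg.IsComponent K → Subgroup.center ↥K = ⊥ → (Subgroup.normalClosure (K : Set G) ≠ ⊥ ∧ ∀ N : Subgroup G, N.Normal → N ≤ Subgroup.normalClosure (K : Set G) → N = ⊥ ∨ N = Subgroup.normalClosure (K : Set G))) ∧ (Cfsg.fittingSubgroup G = ⊥ → sSup {N : Subgroup G | N ≠ ⊥ ∧ N.Normal ∧ ∀ N' : Subgroup G, N'.Normal → N' ≤ N → N' = ⊥ ∨ N' = N} = Cfsg.layer G) := by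
  refine ⟨fun K hK hZ => partA K hK hZ, fun hF => ?_⟩
  have hLn : (Cfsg.layer G).Normal := Cfsg.Agent.Lib.Helper22.layer_normal' G
  apply le_antisymm
  · apply sSup_le
    rintro N ⟨hN0, hNn, hNmin⟩
    have hB := Cfsg.Agent.Lib.Helper30.centralizer_generalizedFittingSubgroup_le G
    have hgF : Cfsg.generalizedFittingSubgroup G = Cfsg.layer G := by
      unfold Cfsg.generalizedFittingSubgroup
      rw [hF, sup_bot_eq]
    rw [hgF] at hB
    have hinf : (N ⊓ Cfsg.layer G).Normal := Subgroup.normal_inf_normal N (Cfsg.layer G)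
    rcases hNmin _ hinf inf_le_left with h | h
    · exfalso
      apply hN0
      have hcomm : ⁅N, Cfsg.layer G⁆ = ⊥ := by
        rw [eq_bot_iff, ← h]
        exact Subgroup.commutator_le_inf N (Cfsg.layer G)
      rw [Subgroup.commutator_eq_bot_iff_le_centralizer] at hcomm
      rw [eq_bot_iff, ← h]
      exact le_inf le_rfl (hcomm.trans hB)
    · rw [← h]; exact inf_le_right
  · unfold Cfsg.layer
    apply sSup_le
    intro K hK
    have hZ := center_eq_bot hF K hK
    obtain ⟨h1, h2⟩ := partA K hK hZ
    exact (Subgroup.le_normalClosure).trans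
      (le_sSup ⟨h1, Subgroup.normalClosure_normal, h2⟩)

end Cfsg.Agent.S3747
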