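import Cfsg.Statements.S3748
import Cfsg.Agent.Lib.Helper9.Subnormal
import Cfsg.Agent.Lib.Helper71.Fitting

set_option autoImplicit false
open Cfsg
open scoped Pointwise

namespace Cfsg.Agent.S3748

theorem isSubnormal_of_normalizerCondition {F : Type*} [Group F] [Finite F]
    (h : NormalizerCondition F) (H : Subgroup F) : H.IsSubnormal := by
  induction H using WellFoundedGT.induction with
  | ind H ih =>
    by_cases hH : H = ⊤
    · subst hH; exact Subgroup.IsSubnormal.top
    · have hlt : H < Subgroup.normalizer (H : Set F) := h H (lt_top_iff_ne_top.mpr hH)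
      exact Subgroup.IsSubnormal.step H _ hlt.le (ih _ hlt) Subgroup.normal_in_normalizer

theorem mem_normalizer_of_conj_le {G : Type*} [Group G] {H : Subgroup G} {g : G}
    (h1 : MulAut.conj g • H ≤ H) (h2 : MulAut.conj g⁻¹ • H ≤ H) :
    g ∈ Subgroup.normalizer (H : Set G) := by
  rw [Subgroup.mem_normalizer_iff]
  intro h
  constructor
  · intro hh
    have : MulAut.conj g • h ∈ MulAut.conj g • H := Subgroup.smul_mem_pointwise_smul _ _ _ hh
    simpa [MulAut.smul_def] using h1 this
  · intro hh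
    have : MulAut.conj g⁻¹ • (g * h * g⁻¹) ∈ MulAut.conj g⁻¹ • H :=
      Subgroup.smul_mem_pointwise_smul _ _ _ hh
    have h3 := h2 this
    simpa [MulAut.smul_def, mul_assoc] using h3

/-- Call a proper subgroup M of G primitive when M = N_G(N) for every non-trivial normal subgroup N of M. If M is a primitive subgroup of the finite group G, then no non-trivial subnormal subgroup of G is contained in M; in particular M ∩ F(G) = 1. -/
theorem result {G : Type*} [Group G] [Finite G] (M : Subgroup G) (hM : M ≠ ⊤) (hprim : ∀ N : Subgroup G, N ≤ M → M ≤ Subgroup.normalizer (N : Set G) → N ≠ ⊥ → Subgroup.normalizer (N : Set G) = M) : (∀ L : Subgroup G, L.IsSubnormal → L ≤ M → L = ⊥) ∧ M ⊓ Cfsg.fittingSubgroup G = ⊥ := by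
  have part1 : ∀ L : Subgroup G, L.IsSubnormal → L ≤ M → L = ⊥ := by
    intro L hLs hLM
    by_contra hL0
    obtain ⟨L₀, hLL₀, hmax⟩ := Finite.exists_le_maximal
      (p := fun X : Subgroup G => X.IsSubnormal ∧ X ≤ M) (a := L) ⟨hLs, hLM⟩
    obtain ⟨⟨hs, hM0⟩, hmax'⟩ := hmax
    have hL₀0 : L₀ ≠ ⊥ := fun h => hL0 (le_bot_iff.mp (h ▸ hLL₀))
    have hNs : (⨆ m : M, MulAut.conj (m : G) • L₀).IsSubnormal := by
      rw [iSup]
      apply Cfsg.Agent.Lib.Helper9.isSubnormal_sSup
      rintro X ⟨m, rfl⟩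
      exact hs.smul _
    have hNM : (⨆ m : M, MulAut.conj (m : G) • L₀) ≤ M := by
      apply iSup_le
      rintro m x hx
      rw [Subgroup.mem_pointwise_smul_iff_inv_smul_mem] at hx
      have hy := hM0 hx
      have : x = m * ((MulAut.conj (m:G))⁻¹ • x) * (m : G)⁻¹ := by
        simp [MulAut.smul_def, mul_assoc]
      rw [this]; exact M.mul_mem (M.mul_mem m.2 hy) (M.inv_mem m.2)
    have hLN : L₀ ≤ (⨆ m : M, MulAut.conj (m : G) • L₀) := by
      have := le_iSup (fun m : M => MulAut.conj (m : G) • L₀) 1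
      simpa using this
    have hNL : (⨆ m : M, MulAut.conj (m : G) • L₀) ≤ L₀ := hmax' ⟨hNs, hNM⟩ hLN
    have hMn : M ≤ Subgroup.normalizer (L₀ : Set G) := by
      intro m hm
      apply mem_normalizer_of_conj_le
      · exact (le_iSup (fun m : M => MulAut.conj (m : G) • L₀) ⟨m, hm⟩).trans hNL
      · exact (le_iSup (fun m : M => MulAut.conj (m : G) • L₀) ⟨m⁻¹, M.inv_mem hm⟩).trans hNL
    have hnorm := hprim L₀ hM0 hMn hL₀0
    rcases Subgroup.IsSubnormal.iff_eq_top_or_exists.mp hs with htop | ⟨K, hLK, hKs, hKn⟩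
    · exact hM (top_le_iff.mp (htop ▸ hM0))
    · have hKM : K ≤ M := by
        rw [← hnorm]
        exact (Subgroup.normal_subgroupOf_iff_le_normalizer hLK.le).mp hKn
      exact hLK.not_ge (hmax' ⟨hKs, hKM⟩ hLK.le)
  refine ⟨part1, ?_⟩
  apply part1
  · have hF : (Cfsg.fittingSubgroup G).IsSubnormal :=
      (Cfsg.Agent.Lib.Helper71.fittingSubgroup_normal (G := G)).isSubnormal
    haveI := Cfsg.Agent.Lib.Helper71.fittingSubgroup_isNilpotent (G := G)
    have h1 : ((M ⊓ Cfsg.fittingSubgroup G).subgroupOf (Cfsg.fittingSubgroup G)).IsSubnormal :=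
      isSubnormal_of_normalizerCondition Group.normalizerCondition_of_isNilpotent _
    exact Subgroup.IsSubnormal.trans inf_le_right h1 hF
  · exact inf_le_left

end Cfsg.Agent.S3748
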