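import Cfsg.Statements.S3749
import Mathlib

set_option autoImplicit false
open Cfsg

namespace Cfsg.Agent.S3749

open MulAction
open scoped Pointwise

/-- conjugation action of `G` on a normal subgroup -/
@[reducible] def conjN {G : Type*} [Group G] (N : Subgroup G) [N.Normal] :
    MulDistribMulAction G N :=
  MulDistribMulAction.compHom N (MulAut.conjNormal (H := N))

section
variable {G : Type*} [Group G] (N : Subgroup G) [hNn : N.Normal]

attribute [local instance] conjN

theorem coe_smul_N (g : G) (n : N) : ((g • n : N) : G) = g * n * g⁻¹ := rfl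

theorem mem_smul_sylow {q : ℕ} (g : G) (S : Sylow q N) (y : N) :
    y ∈ g • S ↔ g⁻¹ • y ∈ S := by
  show y ∈ g • (S : Subgroup N) ↔ _
  exact Subgroup.mem_pointwise_smul_iff_inv_smul_mem

/-- fixed by `g` iff `g` normalizes the image in `G` -/
theorem smul_sylow_eq_iff {q : ℕ} (g : G) (S : Sylow q N) :
    g • S = S ↔
      g ∈ Subgroup.normalizer (((S : Subgroup N).map N.subtype : Subgroup G) : Set G) := by
  rw [Subgroup.mem_normalizer_iff'']
  constructor
  · intro h x
    have hmem : ∀ y : N, g⁻¹ • y ∈ S ↔ y ∈ S := by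
      intro y
      rw [← mem_smul_sylow, h]
    constructor
    · rintro ⟨y, hy, rfl⟩
      refine ⟨g⁻¹ • y, (hmem y).mpr hy, ?_⟩
      simp [coe_smul_N]
    · rintro ⟨y', hy', hxy⟩
      have hxy' : (y' : G) = g⁻¹ * x * g := hxy
      have hxN : x ∈ N := by
        have : x = g * (y' : G) * g⁻¹ := by
          rw [hxy']; group
        rw [this]; exact hNn.conj_mem _ y'.2 g
      refine ⟨⟨x, hxN⟩, ?_, rfl⟩
      apply (hmem ⟨x, hxN⟩).mp
      have : g⁻¹ • (⟨x, hxN⟩ : N) = y' := by
        apply Subtype.ext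
        rw [coe_smul_N, hxy']
        simp
      rw [this]; exact hy'
  · intro h
    apply Sylow.ext
    ext y
    rw [Sylow.pointwise_smul_def, Subgroup.mem_pointwise_smul_iff_inv_smul_mem]
    have h1 : N.subtype y ∈ (S : Subgroup N).map N.subtype ↔ y ∈ (S : Subgroup N) :=
      Subgroup.mem_map_iff_mem N.subtype_injective
    have h2 : N.subtype (g⁻¹ • y) ∈ (S : Subgroup N).map N.subtype ↔
        g⁻¹ • y ∈ (S : Subgroup N) :=
      Subgroup.mem_map_iff_mem N.subtype_injective
    rw [← h1, ← h2]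
    have h3 := (h (y : G)).symm
    simpa [coe_smul_N] using h3

theorem conj_smul_sylow {q : ℕ} (n : N) (S : Sylow q N) :
    MulAut.conj n • S = (n : G) • S := by
  apply Sylow.ext
  ext y
  rw [Sylow.pointwise_smul_def, Sylow.pointwise_smul_def,
    Subgroup.mem_pointwise_smul_iff_inv_smul_mem, Subgroup.mem_pointwise_smul_iff_inv_smul_mem]
  have : (MulAut.conj n)⁻¹ • y = (n : G)⁻¹ • y := by
    apply Subtype.ext
    rw [coe_smul_N]
    simp [MulAut.smul_def]
  rw [this]

end

theorem result {G : Type*} [Group G] [Finite G] (M : Subgroup G) (hM : M ≠ ⊤) (hprim : ∀ N : Subgroup G, N ≤ M → M ≤ Subgroup.normalizer (N : Set G) → N ≠ ⊥ → Subgroup.normalizer (N : Set G) = M) {p : ℕ} [Fact p.Prime] (hOp : Cfsg.pCore p ↥M ≠ ⊥) (N : Subgroup G) [N.Normal] (hMN : M ⊓ N = ⊥) : ¬ p ∣ Nat.card N ∧ (∀ q : ℕ, [Fact q.Prime] → ∃! Q : Sylow q ↥N, M ≤ Subgroup.normalizer ((Q : Subgroup ↥N).map N.subtype : Set G)) ∧ ((∃ q r : ℕ, q.Prime ∧ r.Prime ∧ q ≠ r ∧ q ∣ Nat.card N ∧ r ∣ Nat.card N)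 → ¬ IsCoatom M) := by
  classical
  let _ : MulDistribMulAction G N := conjN N
  set Q₀ : Subgroup G := (Cfsg.pCore p ↥M).map M.subtype with hQ₀
  have hQp : IsPGroup p Q₀ := by
    have : IsPGroup p (Cfsg.pCore p ↥M) :=
      Sylow.sSup_of_normal _ (fun H hH => hH.2) (fun H hH => hH.1)
    exact this.map _
  have hQM : Q₀ ≤ M := Subgroup.map_subtype_le _
  have hMQ : M ≤ Subgroup.normalizer (Q₀ : Set G) := by
    have h1 := Subgroup.le_normalizer_map (H := Cfsg.pCore p ↥M) M.subtype
    rw [Subgroup.normalizer_eq_top, ← MonoidHom.range_eq_map, Subgroup.range_subtype] at h1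
    exact h1
  have hQne : Q₀ ≠ ⊥ := by
    rw [hQ₀, Ne, Subgroup.map_eq_bot_iff_of_injective _ M.subtype_injective]; exact hOp
  have hNQ : Subgroup.normalizer (Q₀ : Set G) = M := hprim Q₀ hQM hMQ hQne
  -- C_N(Q₀) = 1
  have hfree : ∀ n : N, (∀ x ∈ Q₀, x • n = n) → n = 1 := by
    intro n hn
    have h1 : (n : G) ∈ Subgroup.centralizer (Q₀ : Set G) := by
      rw [Subgroup.mem_centralizer_iff]
      intro x hx
      have h := congrArg (fun y : N => (y : G)) (hn x hx)
      simp only [coe_smul_N] at h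
      calc x * (n : G) = x * n * x⁻¹ * x := by group
        _ = n * x := by rw [h]
    have h2 : (n : G) ∈ M := by
      rw [← hNQ]; exact Subgroup.centralizer_le_normalizer _ h1
    have h3 : (n : G) ∈ M ⊓ N := ⟨h2, n.2⟩
    rw [hMN, Subgroup.mem_bot] at h3
    exact Subtype.ext h3
  have hpN : ¬ p ∣ Nat.card N := by
    have hmod := hQp.card_modEq_card_fixedPoints N
    have hfix : Nat.card (fixedPoints Q₀ N) = 1 := by
      rw [Nat.card_eq_one_iff_unique]
      refine ⟨⟨?_⟩, ⟨⟨1, fun x => smul_one x⟩⟩⟩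
      rintro ⟨a, ha⟩ ⟨b, hb⟩
      have ha1 : a = 1 := hfree a (fun x hx => ha ⟨x, hx⟩)
      have hb1 : b = 1 := hfree b (fun x hx => hb ⟨x, hx⟩)
      subst ha1; subst hb1; rfl
    rw [hfix] at hmod
    intro hdvd
    have h : Nat.card N % p = 1 % p := hmod
    rw [Nat.mod_eq_zero_of_dvd hdvd, Nat.mod_eq_of_lt (Fact.out : p.Prime).one_lt] at h
    exact zero_ne_one h
  have huniq : ∀ (q : ℕ) [Fact q.Prime] (S₁ S₂ : Sylow q N),
      (∀ x ∈ Q₀, x • S₁ = S₁) → (∀ x ∈ Q₀, x • S₂ = S₂) → S₁ = S₂ := by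
    intro q _ S₁ S₂ h1 h2
    let T : SubMulAction Q₀ N :=
      { carrier := {n : N | (n : G) • S₁ = S₂}
        smul_mem' := by
          intro x n hn
          show ((x • n : N) : G) • S₁ = S₂
          have e : ((x • n : N) : G) = (x : G) * n * (x : G)⁻¹ := rfl
          rw [e, mul_smul, mul_smul]
          have h3 : (x : G)⁻¹ • S₁ = S₁ := by rw [inv_smul_eq_iff]; exact (h1 x x.2).symm
          rw [h3]
          have hn' : (n : G) • S₁ = S₂ := hn
          rw [hn', h2 x x.2] }
    obtain ⟨n₀, hn₀⟩ : ∃ n₀ : N, (n₀ : G) • S₁ = S₂ := by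
      obtain ⟨n, hn⟩ := (Sylow.isPretransitive_of_finite (p := q) (G := ↥N)).exists_smul_eq S₁ S₂
      refine ⟨n, ?_⟩
      rw [← hn, Sylow.smul_def, conj_smul_sylow]
    let Stab : Subgroup N := (MulAction.stabilizer G S₁).subgroupOf N
    have hTcard : Nat.card T = Nat.card Stab := by
      apply Nat.card_congr
      refine ⟨fun t => ⟨n₀⁻¹ * (t : N), ?_⟩, fun s => ⟨n₀ * (s : N), ?_⟩, ?_, ?_⟩
      · rw [Subgroup.mem_subgroupOf, MulAction.mem_stabilizer_iff]
        have ht : ((t : N) : G) • S₁ = S₂ := t.2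
        rw [Subgroup.coe_mul, Subgroup.coe_inv, mul_smul, ht, inv_smul_eq_iff, hn₀]
      · show ((n₀ * (s : N) : N) : G) • S₁ = S₂
        have hs : ((s : N) : G) • S₁ = S₁ := by
          have := s.2
          rw [Subgroup.mem_subgroupOf, MulAction.mem_stabilizer_iff] at this
          exact this
        rw [Subgroup.coe_mul, mul_smul, hs, hn₀]
      · intro t; apply Subtype.ext; simp
      · intro s; apply Subtype.ext; simp
    have hTp : ¬ p ∣ Nat.card T := by
      rw [hTcard]; intro hd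
      exact hpN (hd.trans (Subgroup.card_subgroup_dvd_card Stab))
    obtain ⟨t, ht⟩ := hQp.nonempty_fixed_point_of_prime_not_dvd_card T hTp
    have ht1 : (t : N) = 1 := hfree t (fun x hx => by
      have := ht ⟨x, hx⟩
      exact congrArg Subtype.val this)
    have ht2 : ((t : N) : G) • S₁ = S₂ := t.2
    rw [ht1] at ht2
    simpa using ht2
  have hexists : ∀ (q : ℕ) [Fact q.Prime], ∃ S : Sylow q N, ∀ x ∈ Q₀, x • S = S := by
    intro q _
    have hS : ¬ p ∣ Nat.card (Sylow q N) := by
      intro hd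
      have S : Sylow q N := default
      exact hpN (hd.trans ((Sylow.card_dvd_index S).trans (Subgroup.index_dvd_card _)))
    obtain ⟨S, hS⟩ := hQp.nonempty_fixed_point_of_prime_not_dvd_card (Sylow q N) hS
    exact ⟨S, fun x hx => hS ⟨x, hx⟩⟩
  have hMinv : ∀ (q : ℕ) [Fact q.Prime] (S : Sylow q N), (∀ x ∈ Q₀, x • S = S) →
      ∀ m ∈ M, m • S = S := by
    intro q _ S hS m hm
    apply huniq q (m • S) S _ hS
    intro x hx
    have hx' : m⁻¹ * x * m ∈ Q₀ := ((Subgroup.mem_normalizer_iff''.mp (hMQ hm)) x).mp hx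
    calc x • m • S = (m * (m⁻¹ * x * m)) • S := by rw [← mul_smul]; congr 1; group
      _ = m • (m⁻¹ * x * m) • S := mul_smul _ _ _
      _ = m • S := by rw [hS _ hx']
  refine ⟨hpN, ?_, ?_⟩
  · intro q _
    obtain ⟨S, hS⟩ := hexists q
    refine ⟨S, ?_, ?_⟩
    · intro m hm
      exact (smul_sylow_eq_iff N m S).mp (hMinv q S hS m hm)
    · intro S' hS'
      apply huniq q S' S _ hS
      intro x hx
      exact (smul_sylow_eq_iff N x S').mpr (hS' (hQM hx))
  · rintro ⟨q, r, hq, hr, hqr, hqN, hrN⟩ hco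
    have : Fact q.Prime := ⟨hq⟩
    obtain ⟨S, hS⟩ := hexists q
    set St : Subgroup G := (S : Subgroup N).map N.subtype with hSt
    have hMSt : M ≤ Subgroup.normalizer (St : Set G) := fun m hm =>
      (smul_sylow_eq_iff N m S).mp (hMinv q S hS m hm)
    have hStN : St ≤ N := Subgroup.map_subtype_le _
    have hStne : St ≠ ⊥ := by
      rw [hSt, Ne, Subgroup.map_eq_bot_iff_of_injective _ N.subtype_injective]
      exact S.ne_bot_of_dvd_card hqN
    have hdisj : M ⊓ St = ⊥ := by
      rw [eq_bot_iff, ← hMN]; exact inf_le_inf_left M hStN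
    have hlt : M < M ⊔ St := by
      rw [left_lt_sup]
      intro hle
      apply hStne
      rw [eq_bot_iff, ← hdisj]
      exact le_inf hle le_rfl
    have htop : M ⊔ St = ⊤ := hco.2 _ hlt
    have hStnormal : St.Normal := by
      rw [← Subgroup.normalizer_eq_top_iff, eq_top_iff, ← htop]
      exact sup_le hMSt Subgroup.le_normalizer
    have h1 : St.relIndex (M ⊔ St) = St.relIndex M := Subgroup.relIndex_sup_right M St
    rw [htop, Subgroup.relIndex_top_right] at h1
    have h2 : St.relIndex M = Nat.card M := by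
      rw [← Subgroup.inf_relIndex_right, inf_comm, hdisj, Subgroup.relIndex_bot_left]
    have hG : Nat.card G = Nat.card St * Nat.card M := by
      rw [← h2, ← h1, Subgroup.card_mul_index]
    have h3 : N.relIndex (M ⊔ N) = N.relIndex M := Subgroup.relIndex_sup_right M N
    have h4 : N.relIndex M = Nat.card M := by
      rw [← Subgroup.inf_relIndex_right, inf_comm, hMN, Subgroup.relIndex_bot_left]
    have h5 : Nat.card (N.subgroupOf (M ⊔ N)) * N.relIndex (M ⊔ N) = Nat.card (M ⊔ N : Subgroup G) :=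
      Subgroup.card_mul_index _
    have h6 : Nat.card (N.subgroupOf (M ⊔ N)) = Nat.card N :=
      Nat.card_congr (Subgroup.subgroupOfEquivOfLe le_sup_right).toEquiv
    rw [h6, h3, h4] at h5
    have h7 : Nat.card N * Nat.card M ∣ Nat.card St * Nat.card M := by
      rw [h5, ← hG]; exact Subgroup.card_subgroup_dvd_card _
    have hMpos : 0 < Nat.card M := Nat.card_pos
    have h8 : Nat.card N ∣ Nat.card St := Nat.dvd_of_mul_dvd_mul_right hMpos h7
    have h9 : Nat.card St = Nat.card S := Subgroup.card_subtype _ _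
    obtain ⟨k, hk⟩ := (S.isPGroup').exists_card_eq
    have h10 : r ∣ q ^ k := by
      have := hrN.trans h8
      rw [h9] at this
      rw [← hk]; exact this
    have h11 : r ∣ q := hr.dvd_of_dvd_pow h10
    exact hqr ((Nat.prime_dvd_prime_iff_eq hr hq).mp h11).symm

end Cfsg.Agent.S3749
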