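import Cfsg.Statements.S3750
import Cfsg.Agent.S3748
import Cfsg.Agent.Lib.Helper21.Fit
import Cfsg.Agent.Lib.Helper22.Comp

set_option autoImplicit false
open Cfsg
open scoped Pointwise

namespace Cfsg.Agent.S3750

/-- A nilpotent group with trivial centre is trivial. -/
theorem top_eq_bot_of_center_eq_bot {H : Type*} [Group H] [hn : Group.IsNilpotent H]
    (hc : Subgroup.center H = ⊥) : (⊤ : Subgroup H) = ⊥ := by
  obtain ⟨n, hn⟩ := hn.nilpotent
  have key : ∀ k, Subgroup.upperCentralSeries H k = ⊥ := by
    intro k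
    induction k with
    | zero => exact Subgroup.upperCentralSeries_zero H
    | succ k ih =>
      rw [eq_bot_iff]
      intro x hx
      rw [Subgroup.mem_upperCentralSeries_succ_iff] at hx
      rw [← hc, Subgroup.mem_center_iff]
      intro y
      have := hx y
      rw [ih, Subgroup.mem_bot, commutatorElement_eq_one_iff_mul_comm] at this
      exact this.symm
  rw [← hn, key]

/-- Call a proper subgroup M of G primitive when M = N_G(N) for every non-trivial normal subgroup N of M. Let M be a primitive subgroup of the finite group G and N a normal subgroup of G with M ∩ F*(N) ≠ 1. Then F(G) = 1 and F*(N) = F*(G) = E(G); in particular every minimal normal subgroup of G is contained in N. -/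
theorem result {G : Type*} [Group G] [Finite G] (M : Subgroup G) (hM : M ≠ ⊤) (hprim : ∀ N : Subgroup G, N ≤ M → M ≤ Subgroup.normalizer (N : Set G) → N ≠ ⊥ → Subgroup.normalizer (N : Set G) = M) (N : Subgroup G) [N.Normal] (hMF : M ⊓ (Cfsg.generalizedFittingSubgroup ↥N).map N.subtype ≠ ⊥) : Cfsg.fittingSubgroup G = ⊥ ∧ (Cfsg.generalizedFittingSubgroup ↥N).map N.subtype = Cfsg.generalizedFittingSubgroup G ∧ Cfsg.generalizedFittingSubgroup G = Cfsg.layer G ∧ ∀ K : Subgroup G, K.Normal → K ≠ ⊥ → (∀ K' : Subgroup G, K'.Normal → K' ≤ K → K' = ⊥ ∨ K' = K) → K ≤ N := by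
  obtain ⟨hsub, hMFit⟩ := Cfsg.Agent.S3748.result M hM hprim
  have hNn : N.Normal := inferInstance
  have hNsub : N.IsSubnormal := Subgroup.Normal.isSubnormal hNn
  have hFNnormal : ((Cfsg.generalizedFittingSubgroup ↥N).map N.subtype).Normal :=
    ConjAct.normal_of_characteristic_of_normal
  have hFNN : (Cfsg.generalizedFittingSubgroup ↥N).map N.subtype ≤ N := Subgroup.map_subtype_le _
  have hMD : M ≤ Subgroup.normalizer
      ((M ⊓ (Cfsg.generalizedFittingSubgroup ↥N).map N.subtype : Subgroup G) : Set G) := by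
    intro m hm
    rw [Subgroup.mem_normalizer_iff]
    intro x
    constructor
    · rintro ⟨hxM, hxF⟩
      exact ⟨M.mul_mem (M.mul_mem hm hxM) (M.inv_mem hm), hFNnormal.conj_mem x hxF m⟩
    · rintro ⟨hxM, hxF⟩
      refine ⟨?_, ?_⟩
      · have := M.mul_mem (M.mul_mem (M.inv_mem hm) hxM) hm
        simpa [mul_assoc] using this
      · have := hFNnormal.conj_mem _ hxF m⁻¹
        simpa [mul_assoc] using this
  have hnD := hprim _ inf_le_left hMD hMF
  -- anything centralizing `F*(N)` lies in `M`
  have hCM : Subgroup.centralizer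
      (((Cfsg.generalizedFittingSubgroup ↥N).map N.subtype : Subgroup G) : Set G) ≤ M := by
    refine le_trans ?_ hnD.le
    refine le_trans ?_ (Subgroup.centralizer_le_normalizer _)
    exact Subgroup.centralizer_le (fun x hx => hx.2)
  have hCN : Subgroup.centralizer (N : Set G) ≤ M :=
    le_trans (Subgroup.centralizer_le (fun x hx => hFNN hx)) hCM
  have hEN : (Cfsg.layer ↥N).map N.subtype ≤ Cfsg.layer G := by
    unfold Cfsg.layer
    rw [sSup_eq_iSup', Subgroup.map_iSup]
    exact iSup_le fun K => le_sSup (Cfsg.Agent.Lib.Helper22.isComponent_map_subtype hNsub K.2)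
  have hFN' : (Cfsg.fittingSubgroup ↥N).map N.subtype ≤ Cfsg.fittingSubgroup G :=
    Cfsg.Agent.Lib.Helper21.fittingSubgroup_map_subtype_le_of_normal N
  have hFNle : (Cfsg.generalizedFittingSubgroup ↥N).map N.subtype
      ≤ Cfsg.layer G ⊔ Cfsg.fittingSubgroup G := by
    unfold Cfsg.generalizedFittingSubgroup
    rw [Subgroup.map_sup]
    exact sup_le_sup hEN hFN'
  -- the centre of `F(G)` is trivial
  have hZ : (Subgroup.center ↥(Cfsg.fittingSubgroup G)).map (Cfsg.fittingSubgroup G).subtype
      = ⊥ := by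
    have hZF : (Subgroup.center ↥(Cfsg.fittingSubgroup G)).map (Cfsg.fittingSubgroup G).subtype
        ≤ Cfsg.fittingSubgroup G := Subgroup.map_subtype_le _
    have h1 : Cfsg.layer G ⊔ Cfsg.fittingSubgroup G ≤ Subgroup.centralizer
        (((Subgroup.center ↥(Cfsg.fittingSubgroup G)).map
          (Cfsg.fittingSubgroup G).subtype : Subgroup G) : Set G) := by
      apply sup_le
      · have h2 := Cfsg.Agent.Lib.Helper22.commutator_layer_fittingSubgroup (G := G)
        rw [Subgroup.commutator_eq_bot_iff_le_centralizer] at h2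
        exact le_trans h2 (Subgroup.centralizer_le hZF)
      · intro x hx
        rw [Subgroup.mem_centralizer_iff]
        rintro _ ⟨z, hz, rfl⟩
        have := Subgroup.mem_center_iff.mp hz ⟨x, hx⟩
        exact (congrArg Subtype.val this).symm
    have h3 : (Subgroup.center ↥(Cfsg.fittingSubgroup G)).map (Cfsg.fittingSubgroup G).subtype
        ≤ M := by
      refine le_trans ?_ hCM
      rw [Subgroup.le_centralizer_iff]
      exact le_trans hFNle h1
    rw [eq_bot_iff, ← hMFit]
    exact le_inf h3 hZF
  have hF : Cfsg.fittingSubgroup G = ⊥ := by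
    have hc : Subgroup.center ↥(Cfsg.fittingSubgroup G) = ⊥ :=
      (Subgroup.map_eq_bot_iff_of_injective _ (Subgroup.subtype_injective _)).mp hZ
    have hnil : Group.IsNilpotent (Cfsg.fittingSubgroup G) :=
      Cfsg.Agent.Lib.Helper71.fittingSubgroup_isNilpotent
    have htop := top_eq_bot_of_center_eq_bot hc
    rw [eq_bot_iff]
    intro x hx
    have h1 : (⟨x, hx⟩ : ↥(Cfsg.fittingSubgroup G)) ∈ (⊤ : Subgroup ↥(Cfsg.fittingSubgroup G)) :=
      Subgroup.mem_top _
    rw [htop, Subgroup.mem_bot] at h1
    rw [Subgroup.mem_bot]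
    exact congrArg Subtype.val h1
  have hFstar : Cfsg.generalizedFittingSubgroup G = Cfsg.layer G := by
    unfold Cfsg.generalizedFittingSubgroup
    rw [hF, sup_bot_eq]
  have hEG : Cfsg.layer G ≤ (Cfsg.layer ↥N).map N.subtype := by
    rw [Cfsg.Agent.Lib.Helper22.layer_le_iff]
    intro K hK
    rcases Cfsg.Agent.Lib.Helper22.component_le_or_commute_normal hK hNn with h | h
    · have h1 : K.subgroupOf N ≤ Cfsg.layer ↥N :=
        Cfsg.Agent.Lib.Helper22.component_le_layer
          (Cfsg.Agent.Lib.Helper22.isComponent_subgroupOf hK h)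
      have h2 := Subgroup.map_mono (f := N.subtype) h1
      rwa [Subgroup.map_subgroupOf_eq_of_le h] at h2
    · exfalso
      rw [Subgroup.commutator_eq_bot_iff_le_centralizer] at h
      exact Cfsg.Agent.Lib.Helper22.IsComponent.ne_bot hK (hsub K hK.1 (le_trans h hCN))
  refine ⟨hF, ?_, hFstar, ?_⟩
  · apply le_antisymm
    · unfold Cfsg.generalizedFittingSubgroup at hFNle ⊢
      exact hFNle
    · rw [hFstar]
      refine le_trans hEG (Subgroup.map_mono ?_)
      unfold Cfsg.generalizedFittingSubgroup
      exact le_sup_left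
  · intro K hKn hK0 hmin
    have hKNn : (K ⊓ N).Normal := inferInstance
    rcases hmin (K ⊓ N) hKNn inf_le_left with h | h
    · exfalso
      have h1 : ⁅K, N⁆ = ⊥ := by
        rw [eq_bot_iff, ← h]
        exact Subgroup.commutator_le_inf K N
      rw [Subgroup.commutator_eq_bot_iff_le_centralizer] at h1
      exact hK0 (hsub K hKn.isSubnormal (le_trans h1 hCN))
    · exact inf_eq_left.mp h

end Cfsg.Agent.S3750
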