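import Cfsg.Statements.S3760
import Mathlib

set_option autoImplicit false
open Cfsg

namespace Cfsg.Agent.S3760

theorem mem_map_conj_iff {G : Type*} [Group G] (K : Subgroup G) (g y : G) :
    y ∈ K.map (MulAut.conj g).toMonoidHom ↔ g⁻¹ * y * g ∈ K := by
  constructor
  · rintro ⟨k, hk, rfl⟩
    have : g⁻¹ * ((MulAut.conj g).toMonoidHom k) * g = k := by
      simp [MulAut.conj_apply, mul_assoc]
    rw [this]; exact hk
  · intro h
    refine ⟨g⁻¹ * y * g, h, ?_⟩
    simp [MulAut.conj_apply, mul_assoc]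

theorem exists_normalizer_of_fixed {G : Type*} [Group G] {X : Type*} [MulAction G X]
    (htrans : ∀ a b : X, ∃ g : G, g • a = b) (x : X) (K : Subgroup G)
    (hC : ∀ g : G, K.map (MulAut.conj g).toMonoidHom ≤ MulAction.stabilizer G x →
      ∃ h ∈ MulAction.stabilizer G x,
        K.map (MulAut.conj g).toMonoidHom = K.map (MulAut.conj h).toMonoidHom)
    (a : X) (ha : ∀ k ∈ K, k • a = a) :
    ∃ n ∈ Subgroup.normalizer (K : Set G), n • x = a := by
  obtain ⟨g, hg⟩ := htrans x a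
  have hgx : g⁻¹ • a = x := by rw [← hg, inv_smul_smul]
  have hle : K.map (MulAut.conj g⁻¹).toMonoidHom ≤ MulAction.stabilizer G x := by
    intro y hy
    rw [mem_map_conj_iff] at hy
    rw [MulAction.mem_stabilizer_iff]
    have h1 := ha _ hy
    simp only [inv_inv] at h1
    have h2 : y • g⁻¹ • a = g⁻¹ • a := by
      have e : y • g⁻¹ • a = g⁻¹ • ((g * y * g⁻¹) • a) := by
        simp [mul_smul]
      rw [e, h1]
    rwa [hgx] at h2
  obtain ⟨h, hh, heq⟩ := hC g⁻¹ hle
  refine ⟨g * h, ?_, ?_⟩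
  · rw [Subgroup.mem_normalizer_iff]
    intro k
    have key := SetLike.ext_iff.mp heq (h * k * h⁻¹)
    rw [mem_map_conj_iff, mem_map_conj_iff] at key
    have e1 : g⁻¹⁻¹ * (h * k * h⁻¹) * g⁻¹ = g * h * k * (g * h)⁻¹ := by
      simp [mul_assoc]
    have e2 : h⁻¹ * (h * k * h⁻¹) * h = k := by simp [mul_assoc]
    rw [e1, e2] at key
    exact key.symm
  · rw [MulAction.mem_stabilizer_iff] at hh
    rw [mul_smul, hh, hg]

theorem result {G : Type*} [Group G] {X : Type*} [MulAction G X] (htrans : ∀ a b : X, ∃ g : G, g • a = b) (x : X) (K : Subgroup G) (hK : K ≤ MulAction.stabilizer G x) : (∀ a b : X, (∀ k ∈ K, k • a = a) → (∀ k ∈ K, k • b = b) → ∃ g ∈ Subgroup.normalizer (K : Set G), g • a = b) ↔ ∀ g : G, K.map (MulAut.conj g).toMonoidHom ≤ MulAction.stabilizer G x → ∃ h ∈ MulAction.stabilizer G x, K.map (MulAut.conj g).toMonoidHom = K.map (MulAut.conj h).toMonoidHom := by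
  constructor
  · intro hN g hg
    have hfix : ∀ k ∈ K, k • (g⁻¹ • x) = g⁻¹ • x := by
      intro k hk
      have h1 : g * k * g⁻¹ ∈ K.map (MulAut.conj g).toMonoidHom := by
        rw [mem_map_conj_iff]
        simpa [mul_assoc] using hk
      have h2 := hg h1
      rw [MulAction.mem_stabilizer_iff] at h2
      have e : k • g⁻¹ • x = g⁻¹ • ((g * k * g⁻¹) • x) := by
        simp [mul_smul]
      rw [e, h2]
    have hfix' : ∀ k ∈ K, k • x = x := fun k hk => MulAction.mem_stabilizer_iff.mp (hK hk)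
    obtain ⟨n, hn, hnx⟩ := hN (g⁻¹ • x) x hfix hfix'
    refine ⟨g * n⁻¹, ?_, ?_⟩
    · rw [MulAction.mem_stabilizer_iff, mul_smul]
      have : n⁻¹ • x = g⁻¹ • x := inv_smul_eq_iff.mpr hnx.symm
      rw [this, smul_inv_smul]
    · ext y
      rw [mem_map_conj_iff, mem_map_conj_iff]
      rw [Subgroup.mem_normalizer_iff] at hn
      have := hn (g⁻¹ * y * g)
      have e : (g * n⁻¹)⁻¹ * y * (g * n⁻¹) = n * (g⁻¹ * y * g) * n⁻¹ := by
        simp [mul_assoc]
      rw [e]
      exact this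
  · intro hC a b ha hb
    obtain ⟨na, hna, hnax⟩ := exists_normalizer_of_fixed htrans x K hC a ha
    obtain ⟨nb, hnb, hnbx⟩ := exists_normalizer_of_fixed htrans x K hC b hb
    refine ⟨nb * na⁻¹, Subgroup.mul_mem _ hnb (Subgroup.inv_mem _ hna), ?_⟩
    rw [mul_smul, ← hnax, inv_smul_smul, hnbx]

end Cfsg.Agent.S3760
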