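import Cfsg.Statements.S3761
import Mathlib
import Cfsg.Agent.Lib.Helper73.SelfCentB
import Cfsg.Agent.Lib.Helper73.SelfCentTwo
import Cfsg.Agent.Lib.Helper73.SelfCentOdd

set_option autoImplicit false
open Cfsg

namespace Cfsg.Agent.S3761

open Cfsg.Agent.Lib.Helper73

/-- Let G be a finite non-abelian p-group with a cyclic normal subgroup U of order p^n such that C_G(U) = U. Then either p = 2 and G is dihedral, generalized quaternion or semidihedral of order 2^(n+1); or, writing U₁ for the subgroup generated by the p-th powers of elements of U and M = C_G(U₁), the subgroup U has index p in M and the subgroup Ω₁(M) generated by the elements of M of order dividing p is elementary abelian of order p² and characteristic in G. -/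
theorem result {G : Type*} [Group G] [Finite G] {p : ℕ} [Fact p.Prime] (hG : IsPGroup p G) (hna : ¬ IsMulCommutative G) (U : Subgroup G) [U.Normal] (hU : IsCyclic U) (n : ℕ) (hUn : Nat.card U = p ^ n) (hC : Subgroup.centralizer (U : Set G) = U) : (p = 2 ∧ Nat.card G = 2 ^ (n + 1) ∧ ((∃ m : ℕ, Nonempty (G ≃* DihedralGroup m)) ∨ (∃ m : ℕ, Nonempty (G ≃* QuaternionGroup m)) ∨ Cfsg.IsQuasiDihedral G)) ∨ (U.relIndex (Subgroup.centralizer (Cfsg.powerClosure p 1 U : Set G)) = p ∧ Cfsg.IsElementaryAbelian p (Cfsg.omegaOne p (Subgroup.centralizer (Cfsg.powerClosure p 1 U : Set G))) ∧ Nat.card ↥(Cfsg.omegaOne p (Subgroup.centralizer (Cfsg.powerClosure p 1 U : Set G))) = p ^ 2 ∧ (Cfsg.omegaOne p (Subgroup.centralizer (Cfsg.powerClosure p 1 U : Set G))).Characteristic) := by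
  have hp : p.Prime := Fact.out
  obtain ⟨a, rfl⟩ := exists_zpowers_eq_of_isCyclic U hU
  have ha : orderOf a = p ^ n := by rw [← Nat.card_zpowers, hUn]
  have hcent : ∀ s : G, s * a = a * s → s ∈ Subgroup.zpowers a := by
    intro s hs
    rw [← hC, Subgroup.mem_centralizer_iff]
    intro h hh
    obtain ⟨k, rfl⟩ := Subgroup.mem_zpowers_iff.mp hh
    exact ((show Commute s a from hs).zpow_right k).eq.symm
  have hUtop : Subgroup.zpowers a ≠ ⊤ := by
    intro h
    apply hna
    refine ⟨⟨fun x y => ?_⟩⟩
    have hx : x ∈ Subgroup.zpowers a := by rw [h]; trivial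
    have hy : y ∈ Subgroup.zpowers a := by rw [h]; trivial
    obtain ⟨i, rfl⟩ := Subgroup.mem_zpowers_iff.mp hx
    obtain ⟨j, rfl⟩ := Subgroup.mem_zpowers_iff.mp hy
    exact ((Commute.refl a).zpow_zpow i j).eq
  have hn : 2 ≤ n := by
    by_contra hlt
    apply hUtop
    rw [Subgroup.eq_top_iff']
    intro g
    apply hcent
    rcases Nat.lt_or_ge n 1 with h0 | h1
    · have hn0 : n = 0 := by omega
      subst hn0
      rw [pow_zero, orderOf_eq_one_iff] at ha
      rw [ha, mul_one, one_mul]
    · have hn1 : n = 1 := by omega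
      subst hn1
      have h2 := central_pow_of_normal_zpowers hG (le_refl 1) ha g
      simpa using h2
  by_cases hp2 : p = 2
  · subst hp2
    rcases selfcent_two hG hna a n hn ha hC with ⟨hcard, h⟩ | ⟨l, b, hl, rfl, hb, hb2, hba⟩
    · left
      exact ⟨rfl, hcard, h⟩
    · right
      exact selfcent_final hG a (l + 2) (by omega) ha hC b (a ^ (2 ^ (l + 2 - 1))) hb hb2
        (Subgroup.mem_zpowers _) (by rw [hba, pow_add, pow_one]; rfl)
        (selfcent_two_H2 a b l hl ha hb2 hba)
  · right
    obtain ⟨b, ζ, hb, hbp, hζ, hba, H2⟩ := selfcent_odd hp2 hG hna a n hn ha hC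
    exact selfcent_final hG a n hn ha hC b ζ hb hbp hζ hba H2

end Cfsg.Agent.S3761
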