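import Cfsg.Statements.S3764
import Cfsg.Agent.S0095
import Cfsg.Agent.Lib.Helper91.Coprime2
import Cfsg.Agent.Lib.Helper97.SectMod
import Cfsg.Agent.Lib.Helper97.FrobCountMod
import Cfsg.Agent.Lib.Helper97.HHMul

set_option autoImplicit false
open Cfsg
open scoped commutatorElement

namespace Cfsg.Agent.S3764

/-- Let p, q, r be distinct primes and let X, Q, V be subgroups of a finite group with X of order r, Q an extraspecial q-group normalized by X with C_Q(X) = Z(Q), and V an elementary abelian p-group normalized by X and Q on which XQ acts faithfully ((X ⊔ Q) ∩ C(V) = 1). If C_V(X) = 1, then q = 2, r = 2^n + 1 for some n, and Q has order 2^(2n+1). -/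
theorem result {G : Type*} [Group G] [Finite G] {p q r : ℕ} (hp : p.Prime) (hq : q.Prime) (hr : r.Prime) (hpq : p ≠ q) (hpr : p ≠ r) (hqr : q ≠ r) (X Q V : Subgroup G) (hX : Nat.card X = r) (hQ : Cfsg.IsExtraspecial q ↥Q) (hXQ : X ≤ Subgroup.normalizer (Q : Set G)) (hCQ : Q ⊓ Subgroup.centralizer (X : Set G) = (Subgroup.center ↥Q).map Q.subtype) (hV : Cfsg.IsElementaryAbelian p V) (hXV : X ≤ Subgroup.normalizer (V : Set G)) (hQV : Q ≤ Subgroup.normalizer (V : Set G)) (hfaith : (X ⊔ Q) ⊓ Subgroup.centralizer (V : Set G) = ⊥) (hCV : V ⊓ Subgroup.centralizer (X : Set G) = ⊥) : q = 2 ∧ ∃ n : ℕ, r = 2 ^ n + 1 ∧ Nat.card Q = 2 ^ (2 * n + 1) := by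
  classical
  have hfq : Fact q.Prime := ⟨hq⟩
  have hfr : Fact r.Prime := ⟨hr⟩
  have hZ : Nat.card (Subgroup.center ↥Q) = q := hQ.2
  have hcommQ : commutator ↥Q = Subgroup.center ↥Q := hQ.1.2.2
  obtain ⟨n, hn1, hQcard⟩ := Cfsg.Agent.S0095.result hQ
  -- a generator of `X`
  obtain ⟨x₀, hx₀X, hx₀1⟩ : ∃ x₀ ∈ X, x₀ ≠ 1 := by
    have h1 : 1 < Nat.card X := by rw [hX]; exact hr.one_lt
    have : Nontrivial X := Finite.one_lt_card_iff_nontrivial.mp h1
    obtain ⟨x, hx⟩ := exists_ne (1 : X)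
    exact ⟨x.1, x.2, fun h => hx (Subtype.ext h)⟩
  have hXgen : ∀ y ∈ X, ∃ k : ℕ, x₀ ^ k = y := by
    intro y hy
    have h1 : (⟨y, hy⟩ : X) ∈ Subgroup.zpowers (⟨x₀, hx₀X⟩ : X) := by
      rw [zpowers_eq_top_of_prime_card hX (fun h => hx₀1 (congrArg Subtype.val h))]
      trivial
    obtain ⟨k, hk⟩ := mem_powers_iff_mem_zpowers.mpr h1
    exact ⟨k, congrArg Subtype.val hk⟩
  have hx₀r : x₀ ^ r = 1 := by
    have h1 : (⟨x₀, hx₀X⟩ : X) ^ Nat.card X = 1 := pow_card_eq_one'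
    rw [hX] at h1
    exact congrArg Subtype.val h1
  have hcommX : ∀ g : G, x₀ * g = g * x₀ → g ∈ Subgroup.centralizer (X : Set G) := by
    intro g hg
    rw [Subgroup.mem_centralizer_iff]
    intro y hy
    obtain ⟨k, rfl⟩ := hXgen y hy
    have : Commute x₀ g := hg
    exact (this.pow_left k).eq
  have hnorm : ∀ e ∈ X, ∀ z ∈ Q, e * z * e⁻¹ ∈ Q := fun e he z hz =>
    (Subgroup.mem_normalizer_iff.mp (hXQ he) z).mp hz
  have hcenX : ∀ z : ↥Q, z ∈ Subgroup.center ↥Q → x₀ * (z : G) = (z : G) * x₀ := by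
    intro z hz
    have h1 : (z : G) ∈ Q ⊓ Subgroup.centralizer (X : Set G) := by
      rw [hCQ]
      exact ⟨z, hz, rfl⟩
    exact Subgroup.mem_centralizer_iff.mp h1.2 x₀ hx₀X
  letI cg : CommGroup ↥V :=
    { (inferInstance : Group ↥V) with mul_comm := fun a b => hV.1.is_comm.comm a b }
  letI act : MulDistribMulAction ↥(X ⊔ Q) ↥V :=
    Cfsg.Agent.Lib.Helper97.SectMod.conjAct (X ⊔ Q) V (sup_le hXV hQV)
  have hact : ∀ (g : ↥(X ⊔ Q)) (v : ↥V), ((g • v : ↥V) : G) = (g : G) * v * (g : G)⁻¹ :=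
    fun _ _ => rfl
  let ι : ↥Q →* ↥(X ⊔ Q) := Subgroup.inclusion (le_sup_right : Q ≤ X ⊔ Q)
  let x : ↥(X ⊔ Q) := ⟨x₀, (le_sup_left : X ≤ X ⊔ Q) hx₀X⟩
  let α : ↥Q ≃* ↥Q := Cfsg.Agent.Lib.Helper97.FrobCount.conjOn X Q hnorm ⟨x₀, hx₀X⟩
  have hαv : ∀ g : ↥Q, ((α g : ↥Q) : G) = x₀ * g * x₀⁻¹ := fun _ => rfl
  have hαr : α ^ r = 1 := by
    change (Cfsg.Agent.Lib.Helper97.FrobCount.conjOn X Q hnorm ⟨x₀, hx₀X⟩) ^ r = 1
    rw [← map_pow]
    have h1 : (⟨x₀, hx₀X⟩ : X) ^ r = 1 := Subtype.ext hx₀r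
    rw [h1, map_one]
  have hαZ : ∀ z ∈ Subgroup.center ↥Q, α z = z := by
    intro z hz
    apply Subtype.ext
    rw [hαv, hcenX z hz, mul_inv_cancel_right]
  have hαpow : ∀ (g z : ↥Q), z ∈ Subgroup.center ↥Q → α g = g * z →
      ∀ k : ℕ, (α ^ k) g = g * z ^ k := by
    intro g z hz hgz k
    induction k with
    | zero => simp
    | succ k ih =>
      rw [pow_succ', MulAut.mul_apply, ih, map_mul, map_pow, hgz, hαZ z hz, pow_succ,
        mul_assoc, ← pow_succ, ← pow_succ']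
  have hαfpf : ∀ g, g⁻¹ * α g ∈ Subgroup.center ↥Q → g ∈ Subgroup.center ↥Q := by
    intro g hg
    set z := g⁻¹ * α g with hz
    have hgz : α g = g * z := by rw [hz, mul_inv_cancel_left]
    have h1 := hαpow g z hg hgz r
    rw [hαr, MulAut.one_apply] at h1
    have hzr : z ^ r = 1 := by
      have : g * z ^ r = g * 1 := by rw [← h1, mul_one]
      exact mul_left_cancel this
    have hzq : z ^ q = 1 := by
      have h2 : (⟨z, hg⟩ : Subgroup.center ↥Q) ^ Nat.card (Subgroup.center ↥Q) = 1 :=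
        pow_card_eq_one'
      rw [hZ] at h2
      exact congrArg Subtype.val h2
    have hz1 : z = 1 := by
      have h3 : orderOf z ∣ r := orderOf_dvd_of_pow_eq_one hzr
      have h4 : orderOf z ∣ q := orderOf_dvd_of_pow_eq_one hzq
      have h5 : orderOf z ∣ Nat.gcd q r := Nat.dvd_gcd h4 h3
      rw [(Nat.coprime_primes hq hr).mpr hqr] at h5
      exact orderOf_eq_one_iff.mp (Nat.dvd_one.mp h5)
    rw [hz1, mul_one] at hgz
    have h6 : x₀ * (g : G) = (g : G) * x₀ := by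
      have h := congrArg Subtype.val hgz
      rw [hαv] at h
      calc x₀ * (g : G) = (x₀ * (g : G) * x₀⁻¹) * x₀ := by rw [inv_mul_cancel_right]
        _ = (g : G) * x₀ := by rw [h]
    have h7 : (g : G) ∈ Q ⊓ Subgroup.centralizer (X : Set G) := ⟨g.2, hcommX _ h6⟩
    rw [hCQ] at h7
    obtain ⟨g', hg', hg'eq⟩ := h7
    have : g' = g := Subtype.ext hg'eq
    rw [← this]
    exact hg'
  have hcardSup : Nat.card ↥(X ⊔ Q) ∣ q ^ (2 * n + 1) * r := by
    have h1 := Cfsg.Agent.Lib.Helper91.card_sup_mul_card_inf_of_le_normalizer Q X hXQ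
    rw [hQcard, hX, sup_comm] at h1
    exact Dvd.intro _ h1
  have hHcop : ¬ p ∣ Nat.card ↥(X ⊔ Q) := by
    intro h
    have h1 : p ∣ q ^ (2 * n + 1) * r := h.trans hcardSup
    rcases (Nat.Prime.dvd_mul hp).mp h1 with h2 | h2
    · exact hpq ((Nat.prime_dvd_prime_iff_eq hp hq).mp (hp.dvd_of_dvd_pow h2))
    · exact hpr ((Nat.prime_dvd_prime_iff_eq hp hr).mp h2)
  have hQcop : ¬ p ∣ Nat.card ↥Q := by
    intro h
    rw [hQcard] at h
    exact hpq ((Nat.prime_dvd_prime_iff_eq hp hq).mp (hp.dvd_of_dvd_pow h))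
  have hcomm : ∀ g h : ↥Q, ⁅g, h⁆ ∈ Subgroup.center ↥Q := by
    intro g h
    rw [← hcommQ, commutator_def]
    exact Subgroup.commutator_mem_commutator (Subgroup.mem_top g) (Subgroup.mem_top h)
  have hgen : Subgroup.closure (Set.range ι ∪ {x}) = ⊤ := by
    set S := Subgroup.closure (Set.range ι ∪ {x}) with hS
    have hXS : X ≤ S.map (X ⊔ Q).subtype := by
      intro y hy
      obtain ⟨k, rfl⟩ := hXgen y hy
      refine ⟨x ^ k, S.pow_mem (Subgroup.subset_closure (Or.inr rfl)) k, ?_⟩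
      simp [x]
    have hQS : Q ≤ S.map (X ⊔ Q).subtype := by
      intro y hy
      exact ⟨ι ⟨y, hy⟩, Subgroup.subset_closure (Or.inl ⟨_, rfl⟩), rfl⟩
    rw [eq_top_iff]
    intro h _
    obtain ⟨s, hs, hseq⟩ := (sup_le hXS hQS) h.2
    have : s = h := Subtype.ext hseq
    rw [← this]
    exact hs
  have hbound := Cfsg.Agent.Lib.Helper97.HH.hh_mul (H := ↥(X ⊔ Q)) (V := ↥V) (Qg := ↥Q)
    ι x α (fun g => rfl) hgen hp hq hr hpr hHcop hQcop hZ hcomm hαr hαfpf hαZ
    (Subtype.ext (by simpa [x] using hx₀r))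
    (fun v => Subtype.ext (by
      rw [Subgroup.coe_pow]
      exact hV.2 _ v.2))
    (by
      obtain ⟨z, hzZ, hz1⟩ : ∃ z ∈ Subgroup.center ↥Q, z ≠ 1 := by
        have h1 : 1 < Nat.card (Subgroup.center ↥Q) := by rw [hZ]; exact hq.one_lt
        have : Nontrivial (Subgroup.center ↥Q) := Finite.one_lt_card_iff_nontrivial.mp h1
        obtain ⟨x, hx⟩ := exists_ne (1 : Subgroup.center ↥Q)
        exact ⟨x.1, x.2, fun h => hx (Subtype.ext h)⟩
      refine ⟨z, hzZ, ?_⟩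
      by_contra hcon
      push Not at hcon
      apply hz1
      have h1 : ((z : ↥Q) : G) ∈ (X ⊔ Q) ⊓ Subgroup.centralizer (V : Set G) := by
        refine Subgroup.mem_inf.mpr ⟨(le_sup_right : Q ≤ X ⊔ Q) z.2, ?_⟩
        rw [Subgroup.mem_centralizer_iff]
        intro v hv
        have h2 := congrArg Subtype.val (hcon ⟨v, hv⟩)
        rw [hact] at h2
        have h3 : ((z : ↥Q) : G) * v * ((z : ↥Q) : G)⁻¹ = v := h2
        calc v * ((z : ↥Q) : G) = (((z : ↥Q) : G) * v * ((z : ↥Q) : G)⁻¹) * ((z : ↥Q) : G) := by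
              rw [h3]
          _ = ((z : ↥Q) : G) * v := by rw [inv_mul_cancel_right]
      rw [hfaith] at h1
      exact Subtype.ext (Subgroup.mem_bot.mp h1))
    (by
      intro v hv
      have h2 := congrArg Subtype.val hv
      rw [hact] at h2
      have h3 : x₀ * (v : G) * x₀⁻¹ = v := h2
      have h4 : x₀ * (v : G) = (v : G) * x₀ := by
        calc x₀ * (v : G) = (x₀ * (v : G) * x₀⁻¹) * x₀ := by rw [inv_mul_cancel_right]
          _ = (v : G) * x₀ := by rw [h3]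
      have h5 : (v : G) ∈ V ⊓ Subgroup.centralizer (X : Set G) := ⟨v.2, hcommX _ h4⟩
      rw [hCV] at h5
      exact Subtype.ext (Subgroup.mem_bot.mp h5))
  -- arithmetic
  have hquot : Nat.card (↥Q ⧸ Subgroup.center ↥Q) = q ^ (2 * n) := by
    have h1 := Subgroup.card_eq_card_quotient_mul_card_subgroup (Subgroup.center ↥Q)
    rw [hQcard, hZ, pow_succ] at h1
    exact (Nat.eq_of_mul_eq_mul_right hq.pos h1).symm
  have hdvd := Cfsg.Agent.Lib.Helper97.HH.card_sub_one_dvd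
    (Cfsg.Agent.Lib.Helper97.HH.quotPerm α) hr
    (Cfsg.Agent.Lib.Helper97.HH.quotPerm_pow_eq_one α hαr) 1
    (Cfsg.Agent.Lib.Helper97.HH.quotPerm_one α)
    (Cfsg.Agent.Lib.Helper97.HH.quotPerm_fix α hαfpf)
  rw [hquot] at hbound hdvd
  have hq2 := hq.two_le
  have hr2 := hr.two_le
  have hqn : 2 ≤ q ^ n := by
    calc 2 ≤ q := hq2
      _ = q ^ 1 := (pow_one q).symm
      _ ≤ q ^ n := Nat.pow_le_pow_right hq.pos hn1
  have hle : q ^ n ≤ r - 1 := by
    have h1 : (q ^ n) ^ 2 ≤ (r - 1) ^ 2 := by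
      rw [← pow_mul, mul_comm]
      exact hbound
    exact (Nat.pow_le_pow_iff_left (by norm_num)).mp h1
  have hfac : q ^ (2 * n) - 1 = (q ^ n - 1) * (q ^ n + 1) := by
    have h1 : q ^ (2 * n) = q ^ n * q ^ n := by rw [two_mul, pow_add]
    rw [h1]
    obtain ⟨m, hm⟩ : ∃ m, q ^ n = m + 1 := ⟨q ^ n - 1, by omega⟩
    rw [hm]
    simp only [Nat.add_sub_cancel]
    have : (m + 1) * (m + 1) = m * (m + 1 + 1) + 1 := by ring
    rw [this, Nat.add_sub_cancel]
  rw [hfac] at hdvd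
  have hreq : r = q ^ n + 1 := by
    rcases (Nat.Prime.dvd_mul hr).mp hdvd with h | h
    · have := Nat.le_of_dvd (by omega) h
      omega
    · have := Nat.le_of_dvd (by omega) h
      omega
  have hq2' : q = 2 := by
    rcases hq.eq_two_or_odd with h | h
    · exact h
    · exfalso
      have hodd : (q ^ n) % 2 = 1 := by
        rw [Nat.pow_mod, h, one_pow]
        rfl
      rcases hr.eq_two_or_odd with h' | h'
      · omega
      · omega
  refine ⟨hq2', n, ?_, ?_⟩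
  · rw [hreq, hq2']
  · rw [hQcard, hq2']

end Cfsg.Agent.S3764
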