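import Cfsg.Statements.S3767
import Cfsg.Agent.Lib.Helper66.ExtraChar
import Cfsg.Agent.Lib.Helper75.FrobRam2

set_option autoImplicit false
open Cfsg

namespace Cfsg.Agent.S3767

/-- Let P be an extraspecial p-group of order p^(2n+1) and H a cyclic group of order h prime to p acting on P (inside a common finite group: H normalizes P) so that C_P(x) = Z(P) for every non-identity x ∈ H. Then h divides p^n + 1 or h divides p^n − 1. -/
theorem result {G : Type*} [Group G] [Finite G] {p : ℕ} [Fact p.Prime] (P H : Subgroup G) (hP : Cfsg.IsExtraspecial p ↥P) (n : ℕ) (hn : Nat.card P = p ^ (2 * n + 1)) (hH : IsCyclic H) (hcop : (Nat.card H).Coprime p) (hHP : H ≤ Subgroup.normalizer (P : Set G)) (hfix : ∀ x ∈ H, x ≠ 1 → P ⊓ Subgroup.centralizer {x} = (Subgroup.center ↥P).map P.subtype) : Nat.card H ∣ p ^ n + 1 ∨ Nat.card H ∣ p ^ n - 1 := by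
  classical
  have hp : p.Prime := Fact.out
  by_cases hH1 : Nat.card H = 1
  · left; rw [hH1]; exact one_dvd _
  -- the centre
  set Z : Subgroup G := (Subgroup.center ↥P).map P.subtype with hZdef
  have hZP : Z ≤ P := by
    rintro _ ⟨y, -, rfl⟩; exact y.2
  have hZc : ∀ g (hg : g ∈ Z), (⟨g, hZP hg⟩ : ↥P) ∈ Subgroup.center ↥P := by
    rintro _ ⟨y, hy, rfl⟩; exact hy
  -- P centralizes Z
  have hPZ : ∀ a ∈ P, ∀ z ∈ Z, a * z = z * a := by
    intro a ha z hz
    have := Subgroup.mem_center_iff.mp (hZc z hz) ⟨a, ha⟩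
    exact congrArg Subtype.val this
  have hHZ : ∀ h ∈ H, ∀ z ∈ Z, h * z = z * h := by
    intro h hh z hz
    by_cases h1 : h = 1
    · subst h1; simp
    · have hz' : z ∈ P ⊓ Subgroup.centralizer {h} := by rw [hfix h hh h1]; exact hz
      exact (Subgroup.mem_centralizer_singleton_iff.mp hz'.2).symm
  set K : Subgroup G := H ⊔ P with hKdef
  have hKZ : ∀ x ∈ K, ∀ z ∈ Z, x * z = z * x := by
    intro x hx z hz
    have hle : K ≤ Subgroup.centralizer (Z : Set G) := by
      refine sup_le ?_ ?_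
      · intro h hh; rw [Subgroup.mem_centralizer_iff]; intro z hz; exact (hHZ h hh z hz).symm
      · intro a ha; rw [Subgroup.mem_centralizer_iff]; intro z hz; exact (hPZ a ha z hz).symm
    exact ((Subgroup.mem_centralizer_iff.mp (hle hx)) z hz).symm
  have hdisj : Disjoint P H := Subgroup.disjoint_of_coprime_natCard
    (by rw [hn]; exact Nat.Coprime.pow_left _ hcop.symm)
  have hGsN : (P.subgroupOf K).Normal := Subgroup.normal_subgroupOf_sup_of_le_normalizer hHP
  have hNsN : (Z.subgroupOf K).Normal := by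
    constructor
    intro m hm g
    rw [Subgroup.mem_subgroupOf] at hm ⊢
    have e1 : ((g * m * g⁻¹ : ↥K) : G) = (m : G) := by
      push_cast
      rw [hKZ g g.2 m hm, mul_inv_cancel_right]
    rw [e1]; exact hm
  have hNG : Z.subgroupOf K ≤ P.subgroupOf K := by
    intro m hm
    rw [Subgroup.mem_subgroupOf] at hm ⊢
    exact hZP hm
  -- second isomorphism theorem
  have hPH : P.subgroupOf H = ⊥ := Subgroup.subgroupOf_eq_bot.mpr hdisj
  let iso := QuotientGroup.quotientInfEquivProdNormalizerQuotient H P hHP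
  have hidx : (P.subgroupOf K).index = Nat.card H := by
    rw [Subgroup.index_eq_card, ← Nat.card_congr iso.toEquiv, ← Subgroup.index_eq_card, hPH,
      Subgroup.index_bot]
  have hcyc : IsCyclic (↥K ⧸ P.subgroupOf K) := by
    have hN' : (P.subgroupOf H).Normal := Subgroup.normal_subgroupOf_of_le_normalizer hHP
    exact isCyclic_of_surjective (iso.toMonoidHom.comp (QuotientGroup.mk' (P.subgroupOf H)))
      (iso.surjective.comp (QuotientGroup.mk'_surjective _))
  have hGlt : P.subgroupOf K ≠ ⊤ := by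
    intro htop
    rw [htop, Subgroup.index_top] at hidx
    exact hH1 hidx.symm
  -- commutators of elements of P lie in Z
  have hcomm : ∀ a ∈ P, ∀ b ∈ P, a * b * a⁻¹ * b⁻¹ ∈ Z := by
    intro a ha b hb
    have h1 := Cfsg.Agent.Lib.Helper66.ExtraChar.comm_mem_center hP (⟨a, ha⟩ : ↥P) ⟨b, hb⟩
    exact ⟨_, h1, rfl⟩
  have hZpow : ∀ c ∈ Z, c ^ p = 1 := by
    rintro _ ⟨y, hy, rfl⟩
    have h1 : (⟨y, hy⟩ : Subgroup.center ↥P) ^ Nat.card (Subgroup.center ↥P) = 1 :=
      pow_card_eq_one'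
    rw [hP.2] at h1
    have h2 : y ^ p = 1 := by
      have := congrArg Subtype.val h1
      simpa using this
    rw [← map_pow, h2, map_one]
  have hfrob : ∀ x : ↥K, x ∉ P.subgroupOf K → ∀ g : ↥K, g ∈ P.subgroupOf K →
      x * g * x⁻¹ * g⁻¹ ∈ Z.subgroupOf K → g ∈ Z.subgroupOf K := by
    intro x hx g hg hc
    rw [Subgroup.mem_subgroupOf] at hx hg hc ⊢
    have hxK : (x : G) ∈ ((H ⊔ P : Subgroup G) : Set G) := x.2
    rw [Subgroup.coe_mul_of_left_le_normalizer_right H P hHP] at hxK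
    obtain ⟨h, hh, a, ha, hxe⟩ := Set.mem_mul.mp hxK
    have hh1 : h ≠ 1 := by
      rintro rfl
      apply hx; rw [← hxe, one_mul]; exact ha
    set g' : G := (g : G) with hg'
    have hc1 : a * g' * a⁻¹ * g'⁻¹ ∈ Z := hcomm a ha g' hg
    have hcZ : h * g' * h⁻¹ * g'⁻¹ ∈ Z := by
      have e1 : ((x * g * x⁻¹ * g⁻¹ : ↥K) : G)
          = (a * g' * a⁻¹ * g'⁻¹) * (h * g' * h⁻¹ * g'⁻¹) := by
        push_cast
        rw [← hxe]
        have hcm := hHZ h hh _ hc1
        calc h * a * g' * (h * a)⁻¹ * g'⁻¹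
            = h * (a * g' * a⁻¹ * g'⁻¹) * g' * h⁻¹ * g'⁻¹ := by group
          _ = (a * g' * a⁻¹ * g'⁻¹) * h * g' * h⁻¹ * g'⁻¹ := by rw [hcm]
          _ = _ := by group
      rw [e1] at hc
      exact (Subgroup.mul_mem_cancel_left Z hc1).mp hc
    set c : G := h * g' * h⁻¹ * g'⁻¹ with hcdef
    have hconj : h * g' * h⁻¹ = c * g' := by rw [hcdef]; group
    have hhc : h * c = c * h := hHZ h hh c hcZ
    have hpow : ∀ k : ℕ, h ^ k * g' * (h ^ k)⁻¹ = c ^ k * g' := by
      intro k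
      induction k with
      | zero => simp
      | succ k ih =>
        have hck : h * c ^ k = c ^ k * h := Commute.pow_right hhc k
        calc h ^ (k + 1) * g' * (h ^ (k + 1))⁻¹ = h * (h ^ k * g' * (h ^ k)⁻¹) * h⁻¹ := by
              rw [pow_succ', mul_inv_rev]; simp only [mul_assoc]
          _ = h * (c ^ k * g') * h⁻¹ := by rw [ih]
          _ = c ^ k * (h * g' * h⁻¹) := by
              rw [← mul_assoc h (c ^ k) g', hck]; simp only [mul_assoc]
          _ = c ^ (k + 1) * g' := by rw [hconj, ← mul_assoc, ← pow_succ]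
    have hck1 : c ^ orderOf h = 1 := by
      have := hpow (orderOf h)
      rw [pow_orderOf_eq_one, one_mul, inv_one, mul_one] at this
      exact (mul_eq_right.mp this.symm)
    have hcp : c ^ p = 1 := hZpow c hcZ
    have hcop' : Nat.Coprime (orderOf h) p :=
      Nat.Coprime.coprime_dvd_left (Subgroup.orderOf_dvd_natCard H hh) hcop
    have hc_one : c = 1 := by
      have hgcd : c ^ Nat.gcd (orderOf h) p = 1 := pow_gcd_eq_one.mpr ⟨hck1, hcp⟩
      rwa [Nat.Coprime.gcd_eq_one hcop', pow_one] at hgcd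
    rw [hc_one, one_mul] at hconj
    have hcent : g' ∈ P ⊓ Subgroup.centralizer {h} := by
      refine ⟨hg, Subgroup.mem_centralizer_singleton_iff.mpr ?_⟩
      calc g' * h = h * g' * h⁻¹ * h := by rw [hconj]
        _ = h * g' := by group
    rw [hfix h hh hh1] at hcent
    exact hcent
  -- the characters
  obtain ⟨χ₀, hχ₀, f₀, hf₀, hvan₀⟩ :=
    Cfsg.Agent.Lib.Helper66.ExtraChar.exists_faithful_char p n hP hn
  let eP : ↥(P.subgroupOf K) ≃* ↥P := Subgroup.subgroupOfEquivOfLe (le_sup_right : P ≤ K)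
  have hχ : Cfsg.IsIrrCharacter ↥(P.subgroupOf K) (fun g => χ₀ (eP g)) :=
    Cfsg.Agent.Lib.Helper80.isIrrCharacter_comp_mulEquiv eP hχ₀
  let φ : ↥(Z.subgroupOf K) →* ↥(Subgroup.center ↥P) :=
    { toFun := fun m => ⟨⟨((m : ↥K) : G), hZP m.2⟩, hZc _ m.2⟩
      map_one' := rfl
      map_mul' := fun a b => rfl }
  have hθ : Cfsg.IsIrrCharacter ↥(Z.subgroupOf K) (fun m => ((f₀ (φ m) : ℂˣ) : ℂ)) :=
    Cfsg.Agent.Lib.Helper80.isIrrCharacter_of_hom (f₀.comp φ)
  let _ : Fintype ↥K := Fintype.ofFinite _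
  let _ : Fintype ↥(P.subgroupOf K) := Fintype.ofFinite _
  let _ : Fintype ↥(Z.subgroupOf K) := Fintype.ofFinite _
  have hinv : ∀ (x : ↥K) (m : ↥(Z.subgroupOf K)),
      (fun m : ↥(Z.subgroupOf K) => ((f₀ (φ m) : ℂˣ) : ℂ)) ⟨x * m * x⁻¹, hNsN.conj_mem m m.2 x⟩
        = (fun m : ↥(Z.subgroupOf K) => ((f₀ (φ m) : ℂˣ) : ℂ)) m := by
    intro x m
    have e1 : (⟨x * m * x⁻¹, hNsN.conj_mem m m.2 x⟩ : ↥(Z.subgroupOf K)) = m := by
      apply Subtype.ext
      apply Subtype.ext
      push_cast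
      rw [hKZ x x.2 m m.2, mul_inv_cancel_right]
    rw [e1]
  -- cardinalities
  have hcardGs : Nat.card ↥(P.subgroupOf K) = p ^ (2 * n + 1) := by
    rw [Nat.card_congr eP.toEquiv, hn]
  have hcardM : Nat.card ↥((Z.subgroupOf K).subgroupOf (P.subgroupOf K)) = p := by
    rw [Nat.card_congr (Subgroup.subgroupOfEquivOfLe hNG).toEquiv,
      Nat.card_congr (Subgroup.subgroupOfEquivOfLe (hZP.trans le_sup_right)).toEquiv, hZdef,
      Subgroup.card_map_of_injective P.subtype_injective, hP.2]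
  have hMidx : ((Z.subgroupOf K).subgroupOf (P.subgroupOf K)).index = p ^ (2 * n) := by
    have h1 := Subgroup.index_mul_card ((Z.subgroupOf K).subgroupOf (P.subgroupOf K))
    rw [hcardM, hcardGs, pow_succ] at h1
    exact Nat.eq_of_mul_eq_mul_right hp.pos h1
  have hram : Cfsg.indFun ((Z.subgroupOf K).subgroupOf (P.subgroupOf K))
      (fun m : (Z.subgroupOf K).subgroupOf (P.subgroupOf K) =>
        (fun m : ↥(Z.subgroupOf K) => ((f₀ (φ m) : ℂˣ) : ℂ)) ⟨(m : P.subgroupOf K), m.2⟩)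
      = fun g => ((p ^ n : ℕ) : ℂ) * (fun g => χ₀ (eP g)) g := by
    apply Cfsg.Agent.Lib.Helper66.ExtraChar.indFun_central
    · intro g hg
      rw [Subgroup.mem_center_iff]
      intro a
      apply Subtype.ext
      apply Subtype.ext
      exact hPZ _ a.2 _ hg
    · intro z
      have hc : eP (z : ↥(P.subgroupOf K)) ∈ Subgroup.center ↥P := hZc _ z.2
      have h1 := hf₀ ⟨eP (z : ↥(P.subgroupOf K)), hc⟩
      change χ₀ (eP (z : ↥(P.subgroupOf K))) = _ at h1
      have h2 : φ ⟨(z : ↥(P.subgroupOf K)), z.2⟩ = ⟨eP (z : ↥(P.subgroupOf K)), hc⟩ := rfl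
      simp only [h2]
      rw [h1, hMidx]
      push_cast
      ring
    · intro g hg
      apply hvan₀
      intro hc
      exact hg ⟨eP g, hc, rfl⟩
  have key := Cfsg.Agent.Lib.Helper75.fully_ramified_frobenius_ind (P.subgroupOf K)
    (Z.subgroupOf K) hNG hGlt hcyc hfrob hθ hinv hχ (p ^ n) hram
  rw [hidx] at key
  have hpn : 1 ≤ p ^ n := Nat.one_le_pow _ _ hp.pos
  rcases key with h | h
  · right
    have e1 : ((p ^ n : ℕ) : ℤ) - 1 = ((p ^ n - 1 : ℕ) : ℤ) := by
      rw [Nat.cast_sub hpn]; simp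
    rw [e1] at h
    exact Int.natCast_dvd_natCast.mp h
  · left
    have e1 : ((p ^ n : ℕ) : ℤ) + 1 = ((p ^ n + 1 : ℕ) : ℤ) := by
      push_cast; ring
    rw [e1] at h
    exact Int.natCast_dvd_natCast.mp h

end Cfsg.Agent.S3767
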