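import Cfsg.Statements.S3768
import Cfsg.Agent.S0035
import Cfsg.Agent.S0039

set_option autoImplicit false
open Cfsg

namespace Cfsg.Agent.S3768

open scoped Pointwise


/-- Let G be a finite Frobenius group with Frobenius complement R and Frobenius kernel K (the identity together with the elements in no conjugate of R), and let N be a normal subgroup of G not containing K. Then G/N is a Frobenius group with Frobenius complement RN/N whose Frobenius kernel is the image of K. -/
theorem result {G : Type*} [Group G] [Finite G] (R : Subgroup G) (hR : Cfsg.IsFrobeniusComplement R) (N : Subgroup G) [N.Normal] (hKN : ¬ Cfsg.frobeniusKernel R ⊆ N) : Cfsg.IsFrobeniusComplement (R.map (QuotientGroup.mk' N)) ∧ Cfsg.frobeniusKernel (R.map (QuotientGroup.mk' N)) = QuotientGroup.mk' N '' Cfsg.frobeniusKernel R := by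
  classical
  obtain ⟨K, hKset, hKn, hKc⟩ := Cfsg.Agent.S0035.result R hR
  haveI := hKn
  have hKR : ∀ x, x ∈ K → x ∈ R → x = 1 := by
    intro x hxK hxR
    have : x ∈ K ⊓ R := Subgroup.mem_inf.mpr ⟨hxK, hxR⟩
    rw [hKc.disjoint.eq_bot] at this
    exact Subgroup.mem_bot.mp this
  have hK1 : K ≠ ⊥ := by
    intro h
    apply hKN
    rw [← hKset, h]
    intro x hx
    rw [Subgroup.coe_bot, Set.mem_singleton_iff] at hx
    rw [hx]
    exact N.one_mem
  have hfpf := (Cfsg.Agent.S0039.result K R hKc hK1 hR.1).mp hR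
  have hinj : ∀ r ∈ R, r ≠ 1 → ∀ k ∈ K, ∀ k' ∈ K,
      k * (r * k⁻¹ * r⁻¹) = k' * (r * k'⁻¹ * r⁻¹) → k = k' := by
    intro r hr hr1 k hk k' hk' h
    have h1 : k'⁻¹ * k ∈ K ⊓ Subgroup.centralizer {r} := by
      refine Subgroup.mem_inf.mpr ⟨K.mul_mem (K.inv_mem hk') hk, ?_⟩
      rw [Subgroup.mem_centralizer_iff]
      intro x hx
      rw [Set.mem_singleton_iff] at hx
      subst hx
      have e1 : k'⁻¹ * k = (x * k'⁻¹ * x⁻¹) * (x * k⁻¹ * x⁻¹)⁻¹ := by
        rw [eq_mul_inv_iff_mul_eq, mul_assoc, h, ← mul_assoc, inv_mul_cancel, one_mul]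
      have e2 : k'⁻¹ * k = x * (k'⁻¹ * k) * x⁻¹ := by
        calc k'⁻¹ * k = (x * k'⁻¹ * x⁻¹) * (x * k⁻¹ * x⁻¹)⁻¹ := e1
          _ = x * (k'⁻¹ * k) * x⁻¹ := by group
      calc x * (k'⁻¹ * k) = (x * (k'⁻¹ * k) * x⁻¹) * x := by group
        _ = k'⁻¹ * k * x := by rw [← e2]
    rw [hfpf r hr hr1] at h1
    exact (inv_mul_eq_one.mp (Subgroup.mem_bot.mp h1)).symm
  -- surjectivity of the commutator map on a normal subgroup inside K
  have hsurj : ∀ (M : Subgroup G), M.Normal → M ≤ K → ∀ r ∈ R, r ≠ 1 → ∀ m ∈ M,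
      ∃ k ∈ M, k * (r * k⁻¹ * r⁻¹) = m := by
    intro M hM hMK r hr hr1 m hm
    have hmem : ∀ k : M, (k : G) * (r * (k : G)⁻¹ * r⁻¹) ∈ M :=
      fun k => M.mul_mem k.2 (hM.conj_mem _ (M.inv_mem k.2) r)
    have hi : Function.Injective (fun k : M => (⟨(k : G) * (r * (k : G)⁻¹ * r⁻¹), hmem k⟩ : M)) := by
      intro k k' hkk
      exact Subtype.ext (hinj r hr hr1 k (hMK k.2) k' (hMK k'.2) (congrArg Subtype.val hkk))
    obtain ⟨k, hk⟩ := (Finite.injective_iff_surjective.mp hi) ⟨m, hm⟩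
    exact ⟨k, k.2, congrArg Subtype.val hk⟩
  -- N ≤ K
  have hNK : N ≤ K := by
    by_contra hcon
    obtain ⟨n, hnN, hnK⟩ := SetLike.not_le_iff_exists.mp hcon
    have h1 : n ∉ Cfsg.frobeniusKernel R := by rw [← hKset]; exact hnK
    unfold Cfsg.frobeniusKernel at h1
    simp only [Set.mem_ofPred_eq, not_or, not_forall, not_not] at h1
    obtain ⟨hn1, g, hg⟩ := h1
    rw [Subgroup.mem_pointwise_smul_iff_inv_smul_mem] at hg
    set r : G := (MulAut.conj g)⁻¹ • n with hr
    have hr_eq : r = g⁻¹ * n * g := by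
      rw [hr, MulAut.smul_def, ← map_inv, MulAut.conj_apply, inv_inv]
    have hrN : r ∈ N := by
      rw [hr_eq]
      have := ‹N.Normal›.conj_mem n hnN g⁻¹
      simpa using this
    have hr1 : r ≠ 1 := by
      intro h
      apply hn1
      have : n = g * r * g⁻¹ := by rw [hr_eq]; group
      rw [this, h, mul_one, mul_inv_cancel]
    apply hKN
    rw [← hKset]
    intro k hk
    obtain ⟨k₀, hk₀, hk₀e⟩ := hsurj K hKn le_rfl r hg hr1 k hk
    have : k = (k₀ * r * k₀⁻¹) * r⁻¹ := by rw [← hk₀e]; group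
    show k ∈ N
    rw [this]
    exact N.mul_mem (‹N.Normal›.conj_mem r hrN k₀) (N.inv_mem hrN)
  -- the quotient
  set π := QuotientGroup.mk' N with hπ
  have hπs : Function.Surjective π := QuotientGroup.mk'_surjective N
  haveI hKbn : (K.map π).Normal := Subgroup.Normal.map hKn π hπs
  have hdisj : ∀ x, x ∈ K.map π → x ∈ R.map π → x = 1 := by
    rintro x ⟨k, hk, rfl⟩ ⟨r, hr, hkr⟩
    have h1 : r⁻¹ * k ∈ N := by
      rw [← QuotientGroup.eq]
      exact hkr
    have h2 : r ∈ K := by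
      have := K.mul_mem hk (K.inv_mem (hNK h1))
      simpa using this
    have h3 : r = 1 := hKR r h2 hr
    rw [← hkr, h3, map_one]
  have hcomp : Subgroup.IsComplement' (K.map π) (R.map π) := by
    apply Subgroup.isComplement'_of_disjoint_and_mul_eq_univ
    · rw [disjoint_iff, eq_bot_iff]
      intro x hx
      rw [Subgroup.mem_inf] at hx
      exact Subgroup.mem_bot.mpr (hdisj x hx.1 hx.2)
    · apply Set.eq_univ_of_forall
      intro x
      obtain ⟨g, rfl⟩ := hπs x
      obtain ⟨⟨k, r⟩, hkr⟩ := hKc.2 g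
      have hkr' : (k : G) * r = g := hkr
      rw [Set.mem_mul]
      exact ⟨π k, Subgroup.mem_map_of_mem π k.2, π r, Subgroup.mem_map_of_mem π r.2, by
        rw [← map_mul, hkr']⟩
  have hKb1 : K.map π ≠ ⊥ := by
    intro h
    apply hKN
    rw [← hKset]
    intro k hk
    have : π k ∈ K.map π := Subgroup.mem_map_of_mem π hk
    rw [h, Subgroup.mem_bot] at this
    exact (QuotientGroup.eq_one_iff k).mp this
  have hRb1 : R.map π ≠ ⊥ := by
    intro h
    apply hR.1
    rw [eq_bot_iff]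
    intro r hr
    have : π r ∈ R.map π := Subgroup.mem_map_of_mem π hr
    rw [h, Subgroup.mem_bot] at this
    have hrN : r ∈ N := (QuotientGroup.eq_one_iff r).mp this
    exact Subgroup.mem_bot.mpr (hKR r (hNK hrN) hr)
  have hfrob : Cfsg.IsFrobeniusComplement (R.map π) := by
    rw [Cfsg.Agent.S0039.result (K.map π) (R.map π) hcomp hKb1 hRb1]
    rintro h ⟨r, hr, rfl⟩ hh1
    have hr1 : r ≠ 1 := by
      intro h
      apply hh1
      rw [h, map_one]
    rw [eq_bot_iff]
    rintro x hx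
    rw [Subgroup.mem_inf] at hx
    obtain ⟨⟨k, hk, rfl⟩, hx2⟩ := hx
    rw [Subgroup.mem_centralizer_iff] at hx2
    have h1 : π r * π k = π k * π r := hx2 (π r) rfl
    have h2 : k * (r * k⁻¹ * r⁻¹) ∈ N := by
      rw [← QuotientGroup.eq_one_iff]
      show π (k * (r * k⁻¹ * r⁻¹)) = 1
      rw [map_mul, map_mul, map_mul, map_inv, map_inv, ← mul_assoc, ← mul_assoc, ← h1]
      group
    obtain ⟨n, hn, hne⟩ := hsurj N ‹N.Normal› hNK r hr hr1 _ h2
    have hkn : n = k := hinj r hr hr1 n (hNK hn) k hk hne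
    rw [Subgroup.mem_bot]
    exact (QuotientGroup.eq_one_iff k).mpr (by rw [← hkn]; exact hn)
  refine ⟨hfrob, ?_⟩
  obtain ⟨M, hMset, hMn, hMc⟩ := Cfsg.Agent.S0035.result (R.map π) hfrob
  have hKM : K.map π ≤ M := by
    intro x hx
    rw [← SetLike.mem_coe, hMset]
    unfold Cfsg.frobeniusKernel
    by_cases hx1 : x = 1
    · exact Or.inl hx1
    · right
      intro g hg
      rw [Subgroup.mem_pointwise_smul_iff_inv_smul_mem] at hg
      have h1 : (MulAut.conj g)⁻¹ • x ∈ K.map π := by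
        rw [MulAut.smul_def, ← map_inv, MulAut.conj_apply, inv_inv]
        have := hKbn.conj_mem x hx g⁻¹
        simpa using this
      have h2 := hdisj _ h1 hg
      apply hx1
      rw [MulAut.smul_def, ← map_inv, MulAut.conj_apply, inv_inv] at h2
      have : x = g * (g⁻¹ * x * g) * g⁻¹ := by group
      rw [this, h2, mul_one, mul_inv_cancel]
  have hcardeq : Nat.card M ≤ Nat.card (K.map π) := by
    have h1 := hMc.card_mul_card
    have h2 := hcomp.card_mul_card
    have h3 : 0 < Nat.card (R.map π) := Nat.card_pos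
    have h4 : Nat.card M * Nat.card (R.map π) = Nat.card (K.map π) * Nat.card (R.map π) := by
      rw [h1, h2]
    exact le_of_eq (Nat.eq_of_mul_eq_mul_right h3 h4)
  have hKMeq : K.map π = M := Subgroup.eq_of_le_of_card_ge hKM hcardeq
  rw [← hMset, ← hKMeq, Subgroup.coe_map, hKset]

end Cfsg.Agent.S3768
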