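import Cfsg.Statements.S3769
import Cfsg.Agent.Lib.Helper91.Coprime2
import Cfsg.Agent.Lib.Helper97.SectMod
import Cfsg.Agent.Lib.Helper97.HHRed
import Cfsg.Agent.Lib.Helper97.HHSylow

set_option autoImplicit false
open Cfsg
open scoped commutatorElement

namespace Cfsg.Agent.S3769

/-- Let G and V be subgroups of a finite group with G solvable of odd order normalizing V, V an elementary abelian ℓ-group for a prime ℓ not dividing the order of G, and suppose G has a normal Hall subgroup K with a complement R of prime order. If C_V(R) = 1, then [R, K] centralizes V. -/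
theorem result {X : Type*} [Group X] [Finite X] (G : Subgroup X) (hsolv : Group.IsSolvable G) (hodd : Odd (Nat.card G)) (V : Subgroup X) {ℓ : ℕ} (hℓ : ℓ.Prime) (hV : Cfsg.IsElementaryAbelian ℓ V) (hℓG : ¬ ℓ ∣ Nat.card G) (hGV : G ≤ Subgroup.normalizer (V : Set X)) (K R : Subgroup X) (hKG : K ≤ G) (hKn : G ≤ Subgroup.normalizer (K : Set X)) (hHall : (Nat.card K).Coprime (K.relIndex G)) (hRG : R ≤ G) (hR : (Nat.card R).Prime) (hKR : K ⊓ R = ⊥) (hKRG : K ⊔ R = G) (hCV : V ⊓ Subgroup.centralizer (R : Set X) = ⊥) : ⁅R, K⁆ ≤ Subgroup.centralizer (V : Set X) := by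
  classical
  have hfr : Fact (Nat.card R).Prime := ⟨hR⟩
  have hfℓ : Fact ℓ.Prime := ⟨hℓ⟩
  letI cg : CommGroup ↥V :=
    { (inferInstance : Group ↥V) with mul_comm := fun a b => hV.1.is_comm.comm a b }
  letI act : MulDistribMulAction ↥G ↥V := Cfsg.Agent.Lib.Helper97.SectMod.conjAct G V hGV
  have hact : ∀ (g : ↥G) (v : ↥V), ((g • v : ↥V) : X) = (g : X) * v * (g : X)⁻¹ :=
    fun _ _ => rfl
  -- orders
  have hcardG : Nat.card K * Nat.card R = Nat.card G := by
    have h1 := Cfsg.Agent.Lib.Helper91.card_sup_mul_card_inf_of_le_normalizer K R (hRG.trans hKn)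
    rw [hKR, Subgroup.card_bot, mul_one, hKRG] at h1
    exact h1.symm
  have hrel : K.relIndex G = Nat.card R := by
    have h1 := Cfsg.Agent.Lib.Helper1.card_eq_card_mul_relIndex hKG
    rw [← hcardG] at h1
    exact (Nat.eq_of_mul_eq_mul_left Nat.card_pos h1).symm
  rw [hrel] at hHall
  have hrK : ¬ Nat.card R ∣ Nat.card K := by
    intro h
    have := Nat.eq_one_of_dvd_coprimes hHall h dvd_rfl
    exact hR.one_lt.ne' this
  have hKdvd : Nat.card K ∣ Nat.card G := Dvd.intro _ hcardG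
  have hRdvd : Nat.card R ∣ Nat.card G := Dvd.intro_left _ hcardG
  have hℓr : ℓ ≠ Nat.card R := fun h => hℓG (h ▸ hRdvd)
  rw [Subgroup.commutator_le]
  intro y hy k hk
  by_cases hy1 : y = 1
  · rw [hy1, commutatorElement_one_left]
    exact Subgroup.one_mem _
  have hRgen : ∀ z ∈ R, ∃ j : ℕ, y ^ j = z := by
    intro z hz
    have h1 : (⟨z, hz⟩ : R) ∈ Subgroup.zpowers (⟨y, hy⟩ : R) := by
      rw [zpowers_eq_top_of_prime_card rfl (fun h => hy1 (congrArg Subtype.val h))]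
      trivial
    obtain ⟨j, hj⟩ := mem_powers_iff_mem_zpowers.mpr h1
    exact ⟨j, congrArg Subtype.val hj⟩
  have hyr : y ^ Nat.card R = 1 := by
    have h1 : (⟨y, hy⟩ : R) ^ Nat.card R = 1 := pow_card_eq_one'
    exact congrArg Subtype.val h1
  have hcommR : ∀ g : X, y * g = g * y → g ∈ Subgroup.centralizer (R : Set X) := by
    intro g hg
    rw [Subgroup.mem_centralizer_iff]
    intro z hz
    obtain ⟨j, rfl⟩ := hRgen z hz
    have : Commute y g := hg
    exact (this.pow_left j).eq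
  let x : ↥G := ⟨y, hRG hy⟩
  have hxr : x ^ Nat.card R = 1 := Subtype.ext (by
    rw [Subgroup.coe_pow]
    exact hyr)
  have hfix : ∀ v : ↥V, x • v = v → v = 1 := by
    intro v hv
    have h2 := congrArg Subtype.val hv
    rw [hact] at h2
    have h3 : y * (v : X) * y⁻¹ = v := h2
    have h4 : y * (v : X) = (v : X) * y := by
      calc y * (v : X) = (y * (v : X) * y⁻¹) * y := by rw [inv_mul_cancel_right]
        _ = (v : X) * y := by rw [h3]
    have h5 : (v : X) ∈ V ⊓ Subgroup.centralizer (R : Set X) := ⟨v.2, hcommR _ h4⟩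
    rw [hCV] at h5
    exact Subtype.ext (Subgroup.mem_bot.mp h5)
  have hexp : ∀ v : ↥V, v ^ ℓ = 1 := fun v => Subtype.ext (by
    rw [Subgroup.coe_pow]
    exact hV.2 _ v.2)
  let ψ : ↥G →* MulAut ↥V := MulDistribMulAction.toMulAut ↥G ↥V
  let M : Subgroup ↥G := (Subgroup.centralizer {ψ x}).comap ψ
  have hMmem : ∀ g : ↥G, g ∈ M ↔ ψ x * ψ g = ψ g * ψ x := by
    intro g
    change ψ g ∈ Subgroup.centralizer {ψ x} ↔ _
    rw [Subgroup.mem_centralizer_iff]
    constructor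
    · intro h
      exact h (ψ x) rfl
    · intro h z hz
      rw [Set.mem_singleton_iff.mp hz]
      exact h
  have key : ∀ q : ℕ, q.Prime → ∃ Q : Subgroup X, Q ≤ K ∧ Q ≤ M.map G.subtype ∧
      ¬ q ∣ Q.relIndex K := by
    intro q hq
    have hfq : Fact q.Prime := ⟨hq⟩
    obtain ⟨Q, hQK, hQp, hQinv, hQidx⟩ :=
      Cfsg.Agent.Lib.Helper97.HH.exists_invariant_sylow K R (hRG.trans hKn)
        (r := Nat.card R) (q := q) (IsPGroup.of_card (n := 1) (by rw [pow_one])) hrK
    refine ⟨Q, hQK, ?_, hQidx⟩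
    by_cases hqK : q ∣ Nat.card K
    · have hqG : q ∣ Nat.card G := hqK.trans hKdvd
      have hℓq : ℓ ≠ q := fun h => hℓG (h ▸ hqG)
      have hqr : q ≠ Nat.card R := by
        intro h
        exact hrK (h ▸ hqK)
      have hq2 : q ≠ 2 := by
        intro h
        exact hodd.not_two_dvd_nat (h ▸ hqG)
      have hQ' : IsPGroup q (Q.subgroupOf G) := hQp.comap_subtype
      have hc := Cfsg.Agent.Lib.Helper97.HH.hh_centralize (H := ↥G) (V := ↥V) hℓ hq hR hℓq hℓr
        hqr (Q.subgroupOf G) hQ' x hxr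
        (by
          intro g hg
          rw [Subgroup.mem_subgroupOf] at hg ⊢
          exact hQinv y hy _ hg)
        (fun h => absurd h hq2) hexp hfix
      intro g hg
      refine ⟨⟨g, hKG (hQK hg)⟩, ?_, rfl⟩
      rw [SetLike.mem_coe, hMmem]
      have h1 : ψ (x * ⟨g, hKG (hQK hg)⟩ * x⁻¹) = ψ ⟨g, hKG (hQK hg)⟩ :=
        MulEquiv.ext (fun v => hc ⟨g, hKG (hQK hg)⟩ (Subgroup.mem_subgroupOf.mpr hg) v)
      rw [map_mul, map_mul, map_inv] at h1
      calc ψ x * ψ ⟨g, hKG (hQK hg)⟩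
          = (ψ x * ψ ⟨g, hKG (hQK hg)⟩ * (ψ x)⁻¹) * ψ x := by rw [inv_mul_cancel_right]
        _ = ψ ⟨g, hKG (hQK hg)⟩ * ψ x := by rw [h1]
    · intro g hg
      have hg1 : g = 1 := by
        obtain ⟨j, hj⟩ := hQp ⟨g, hg⟩
        have hj' : g ^ q ^ j = 1 := by
          have := congrArg Subtype.val hj
          rwa [Subgroup.coe_pow] at this
        have h3 : orderOf g ∣ q ^ j := orderOf_dvd_of_pow_eq_one hj'
        have h4 : orderOf g ∣ Nat.card K := by
          have h5 : orderOf (⟨g, hQK hg⟩ : ↥K) ∣ Nat.card K := orderOf_dvd_natCard _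
          rwa [Subgroup.orderOf_mk] at h5
        have h6 : Nat.Coprime (q ^ j) (Nat.card K) :=
          Nat.Coprime.pow_left j ((Nat.Prime.coprime_iff_not_dvd hq).mpr hqK)
        exact orderOf_eq_one_iff.mp (Nat.eq_one_of_dvd_coprimes h6 h3 h4)
      rw [hg1]
      exact Subgroup.one_mem _
  have hKM : K ≤ M.map G.subtype :=
    Cfsg.Agent.Lib.Helper97.HH.le_of_forall_prime_sylow K _ key
  obtain ⟨k', hk'M, hk'eq⟩ := hKM hk
  have hcomm : ψ x * ψ k' = ψ k' * ψ x := (hMmem k').mp hk'M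
  rw [Subgroup.mem_centralizer_iff]
  intro v hv
  have h2 : ψ (x * k' * x⁻¹ * k'⁻¹) = 1 := by
    rw [map_mul, map_mul, map_mul, map_inv, map_inv, hcomm, mul_inv_cancel_right,
      mul_inv_cancel]
  have h3 := congrArg (fun f : MulAut ↥V => ((f ⟨v, hv⟩ : ↥V) : X)) h2
  have hk'eq' : (k' : X) = k := hk'eq
  have h4 : (y * k * y⁻¹ * k⁻¹) * v * (y * k * y⁻¹ * k⁻¹)⁻¹ = v := by
    rw [← hk'eq']
    exact h3
  rw [commutatorElement_def]
  calc v * (y * k * y⁻¹ * k⁻¹)
      = ((y * k * y⁻¹ * k⁻¹) * v * (y * k * y⁻¹ * k⁻¹)⁻¹) * (y * k * y⁻¹ * k⁻¹) := by rw [h4]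
    _ = (y * k * y⁻¹ * k⁻¹) * v := by rw [inv_mul_cancel_right]

end Cfsg.Agent.S3769
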