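import Mathlib
import Cfsg.Statements.S3771

set_option autoImplicit false
open Cfsg

namespace Cfsg.Agent.S3771

theorem card_le_mul {R : Type*} [Group R] [Finite R] (y : R) (Z1 : Subgroup R)
    (hy : ∀ g : R, g * y * g⁻¹ * y⁻¹ ∈ Z1) :
    Nat.card R ≤ Nat.card (Subgroup.centralizer ({y} : Set R)) * Nat.card Z1 := by
  classical
  haveI : Fintype R := Fintype.ofFinite R
  let f : R → Z1 := fun g => ⟨g * y * g⁻¹ * y⁻¹, hy g⟩
  have hC : Nat.card (Subgroup.centralizer ({y} : Set R)) =
      (Finset.univ.filter (fun x : R => x ∈ Subgroup.centralizer ({y} : Set R))).card := by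
    rw [Nat.card_eq_fintype_card, Fintype.card_subtype]
  have h1 := Finset.card_le_mul_card_image (f := f) (Finset.univ : Finset R)
    (Nat.card (Subgroup.centralizer ({y} : Set R))) (by
      intro a ha
      obtain ⟨g0, -, hg0⟩ := Finset.mem_image.mp ha
      rw [hC]
      apply Finset.card_le_card_of_injOn (fun x => g0⁻¹ * x)
      · intro x hx
        have hx' : f x = a := by simpa using hx
        rw [← hg0] at hx'
        have hx'' : x * y * x⁻¹ * y⁻¹ = g0 * y * g0⁻¹ * y⁻¹ := congrArg Subtype.val hx'
        have hx3 : x * y * x⁻¹ = g0 * y * g0⁻¹ := mul_right_cancel hx''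
        simp only [Finset.coe_filter, Finset.mem_univ, true_and, Set.mem_ofPred_eq]
        rw [Subgroup.mem_centralizer_iff]
        intro h hh
        rw [Set.mem_singleton_iff] at hh
        rw [hh]
        have : y * (g0⁻¹ * x) = g0⁻¹ * (g0 * y * g0⁻¹) * x := by group
        rw [this, ← hx3]
        group
      · intro x _ x' _ hxx
        exact mul_left_cancel hxx)
  calc Nat.card R = (Finset.univ : Finset R).card := by
        rw [Nat.card_eq_fintype_card, Finset.card_univ]
    _ ≤ _ := h1
    _ ≤ Nat.card (Subgroup.centralizer ({y} : Set R)) * Nat.card Z1 := by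
        apply Nat.mul_le_mul_left
        rw [Nat.card_eq_fintype_card, ← Finset.card_univ]
        exact Finset.card_le_card (Finset.subset_univ _)

theorem card_lt_of_lt {R : Type*} [Group R] [Finite R] (H K : Subgroup R) (hle : H ≤ K)
    (x : R) (hxK : x ∈ K) (hxH : x ∉ H) : Nat.card H < Nat.card K := by
  have h1 : Nat.card H ≤ Nat.card K := Subgroup.card_le_of_le hle
  have h2 : Nat.card H ≠ Nat.card K := by
    intro h
    have := Subgroup.eq_of_le_of_card_ge hle h.ge
    exact hxH (this ▸ hxK)
  omega

/-- Let p be a prime and R a finite p-group of p-rank at most 2 (no elementary abelian subgroup of order p³) in which every element has order dividing p. Then R has order at most p³. -/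
theorem result {R : Type*} [Group R] [Finite R] {p : ℕ} [Fact p.Prime] (hR : IsPGroup p R) (hrank : Cfsg.PRankLE p 2 R) (hexp : ∀ x : R, x ^ p = 1) : Nat.card R ≤ p ^ 3 := by
  by_contra hcon
  push Not at hcon
  have hp : p.Prime := Fact.out
  have hab : ∀ A : Subgroup R, IsMulCommutative A → Nat.card A ≤ p ^ 2 :=
    fun A hA => hrank A hA (fun a _ => hexp a)
  haveI : Nontrivial R := by
    rw [← Finite.one_lt_card_iff_nontrivial]
    exact lt_trans (Nat.one_lt_pow (by norm_num) hp.one_lt) hcon
  haveI := hR.center_nontrivial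
  obtain ⟨z, hz⟩ := exists_ne (1 : Subgroup.center R)
  have hzc : (z : R) ∈ Subgroup.center R := z.2
  have hz1 : (z : R) ≠ 1 := fun h => hz (Subtype.ext h)
  set Z1 : Subgroup R := Subgroup.zpowers (z : R) with hZ1
  have hZ1n : Z1.Normal := by
    constructor
    intro n hn g
    have hnc : n ∈ Subgroup.center R := (Subgroup.zpowers_le.mpr hzc) hn
    rw [Subgroup.mem_center_iff] at hnc
    rw [hnc g, mul_inv_cancel_right]
    exact hn
  have hZ1card : Nat.card Z1 = p := by
    rw [hZ1, Nat.card_zpowers]
    exact orderOf_eq_prime (hexp _) hz1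
  have hquot : Nat.card R = Nat.card (R ⧸ Z1) * Nat.card Z1 :=
    Subgroup.card_eq_card_quotient_mul_card_subgroup Z1
  haveI : Nontrivial (R ⧸ Z1) := by
    rw [← Finite.one_lt_card_iff_nontrivial]
    by_contra h
    push Not at h
    rw [hZ1card] at hquot
    have : Nat.card R ≤ p := by
      rw [hquot]
      calc Nat.card (R ⧸ Z1) * p ≤ 1 * p := Nat.mul_le_mul_right p h
        _ = p := one_mul p
    have h3 : p ≤ p ^ 3 := Nat.le_self_pow (by norm_num) p
    omega
  haveI := (hR.to_quotient Z1).center_nontrivial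
  obtain ⟨ybar, hybar⟩ := exists_ne (1 : Subgroup.center (R ⧸ Z1))
  obtain ⟨y, hy⟩ := QuotientGroup.mk_surjective (ybar : R ⧸ Z1)
  have hyZ : y ∉ Z1 := by
    intro h
    apply hybar
    apply Subtype.ext
    rw [← hy]
    exact (QuotientGroup.eq_one_iff y).mpr h
  have hcomm : ∀ g : R, g * y * g⁻¹ * y⁻¹ ∈ Z1 := by
    intro g
    rw [← QuotientGroup.eq_one_iff]
    have hc : (ybar : R ⧸ Z1) ∈ Subgroup.center (R ⧸ Z1) := ybar.2
    rw [Subgroup.mem_center_iff] at hc
    have := hc (g : R ⧸ Z1)
    simp only [QuotientGroup.mk_mul, QuotientGroup.mk_inv, hy]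
    rw [this, mul_inv_cancel_right, mul_inv_cancel]
  have hC := card_le_mul y Z1 hcomm
  rw [hZ1card] at hC
  set C : Subgroup R := Subgroup.centralizer ({y} : Set R) with hCdef
  have hCcard : p ^ 2 < Nat.card C := by
    by_contra h
    push Not at h
    have : Nat.card R ≤ p ^ 2 * p := hC.trans (Nat.mul_le_mul_right p h)
    have e : p ^ 2 * p = p ^ 3 := by ring
    omega
  have hzcomm : ∀ g : R, (z : R) * g = g * z := fun g => ((Subgroup.mem_center_iff.mp hzc) g).symm
  -- B = ⟨z, y⟩
  have hBab : IsMulCommutative (Subgroup.closure ({(z : R), y} : Set R)) := by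
    apply Subgroup.isMulCommutative_closure
    intro a ha b hb
    simp only [Set.mem_insert_iff, Set.mem_singleton_iff] at ha hb
    rcases ha with rfl | rfl <;> rcases hb with rfl | rfl
    · rfl
    · exact hzcomm _
    · exact (hzcomm _).symm
    · rfl
  have hBcard := hab _ hBab
  have hyC : y ∈ C := by
    rw [hCdef, Subgroup.mem_centralizer_iff]
    intro h hh
    rw [Set.mem_singleton_iff] at hh
    rw [hh]
  have hzC : (z : R) ∈ C := by
    rw [hCdef, Subgroup.mem_centralizer_iff]
    intro h hh
    exact (hzcomm h).symm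
  have hBC : Subgroup.closure ({(z : R), y} : Set R) ≤ C := by
    rw [Subgroup.closure_le]
    intro a ha
    simp only [Set.mem_insert_iff, Set.mem_singleton_iff] at ha
    rcases ha with rfl | rfl
    · exact hzC
    · exact hyC
  obtain ⟨x, hxC, hxB⟩ : ∃ x ∈ C, x ∉ Subgroup.closure ({(z : R), y} : Set R) := by
    by_contra h
    push Not at h
    have : Nat.card C ≤ Nat.card (Subgroup.closure ({(z : R), y} : Set R)) :=
      Subgroup.card_le_of_le h
    omega
  have hxy : x * y = y * x := by
    rw [hCdef, Subgroup.mem_centralizer_iff] at hxC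
    exact (hxC y rfl).symm
  have hAab : IsMulCommutative (Subgroup.closure ({(z : R), y, x} : Set R)) := by
    apply Subgroup.isMulCommutative_closure
    intro a ha b hb
    simp only [Set.mem_insert_iff, Set.mem_singleton_iff] at ha hb
    rcases ha with rfl | rfl | rfl <;> rcases hb with rfl | rfl | rfl
    · rfl
    · exact hzcomm _
    · exact hzcomm _
    · exact (hzcomm _).symm
    · rfl
    · exact hxy.symm
    · exact (hzcomm _).symm
    · exact hxy
    · rfl
  have hAcard := hab _ hAab
  -- strict chain
  have h1 : Nat.card Z1 < Nat.card (Subgroup.closure ({(z : R), y} : Set R)) := by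
    apply card_lt_of_lt Z1 _ _ y _ hyZ
    · rw [hZ1, Subgroup.zpowers_le]
      exact Subgroup.subset_closure (by simp)
    · exact Subgroup.subset_closure (by simp)
  have h2 : Nat.card (Subgroup.closure ({(z : R), y} : Set R)) <
      Nat.card (Subgroup.closure ({(z : R), y, x} : Set R)) := by
    apply card_lt_of_lt _ _ _ x _ hxB
    · apply Subgroup.closure_mono
      intro a ha
      simp only [Set.mem_insert_iff, Set.mem_singleton_iff] at ha ⊢
      tauto
    · exact Subgroup.subset_closure (by simp)
  obtain ⟨b, hb⟩ := IsPGroup.iff_card.mp (hR.to_subgroup (Subgroup.closure ({(z : R), y} : Set R)))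
  obtain ⟨a, ha⟩ := IsPGroup.iff_card.mp (hR.to_subgroup (Subgroup.closure ({(z : R), y, x} : Set R)))
  rw [hZ1card, hb] at h1
  rw [hb, ha] at h2
  rw [ha] at hAcard
  have hb1 : 1 < b := by
    have : p ^ 1 < p ^ b := by simpa using h1
    exact (Nat.pow_lt_pow_iff_right hp.one_lt).mp this
  have hab' : b < a := (Nat.pow_lt_pow_iff_right hp.one_lt).mp h2
  have ha2 : a ≤ 2 := (Nat.pow_le_pow_iff_right hp.one_lt).mp hAcard
  omega

end Cfsg.Agent.S3771
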