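import Mathlib
import Cfsg.Statements.S3772
import Cfsg.Agent.Lib.Helper2.FrattiniP
import Cfsg.Agent.Lib.Helper30.TIFamily

set_option autoImplicit false
open Cfsg

namespace Cfsg.Agent.S3772

theorem natCard_subtype {G : Type*} (P : G → Prop) :
    Nat.card {g : G // P g} = {g | P g}.ncard :=
  Nat.card_coe_set_eq {g | P g}

/-- splitting a count along an "index two" predicate -/
theorem split {G : Type*} [Group G] [Finite G] (cx : G → Prop)
    (hA : ∀ g h : G, cx (g * h) ↔ (cx g ↔ cx h)) (t : G) (ht : ¬ cx t) (P : G → Prop) :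
    {g | P g}.ncard = {g | cx g ∧ P g}.ncard + {g | cx g ∧ P (t * g)}.ncard := by
  have c1 : cx 1 := by
    have := hA 1 1
    rw [mul_one] at this
    exact this.2 Iff.rfl
  have ct : ¬ cx t⁻¹ := by
    have := hA t⁻¹ t
    rw [inv_mul_cancel] at this
    intro h
    exact ht ((this.1 c1).1 h)
  have h1 : {g | P g} = {g | cx g ∧ P g} ∪ (fun g => t * g) '' {g | cx g ∧ P (t * g)} := by
    ext g
    simp only [Set.mem_ofPred_eq, Set.mem_union, Set.mem_image]
    constructor
    · intro hP
      by_cases hg : cx g
      · exact Or.inl ⟨hg, hP⟩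
      · right
        refine ⟨t⁻¹ * g, ⟨(hA _ _).2 ⟨fun h => absurd h ct, fun h => absurd h hg⟩, ?_⟩, ?_⟩
        · rw [mul_inv_cancel_left]; exact hP
        · rw [mul_inv_cancel_left]
    · rintro (⟨_, hP⟩ | ⟨g', ⟨_, hP⟩, rfl⟩)
      · exact hP
      · exact hP
  have hdisj : Disjoint {g | cx g ∧ P g} ((fun g => t * g) '' {g | cx g ∧ P (t * g)}) := by
    rw [Set.disjoint_left]
    rintro g ⟨hg, _⟩ ⟨g', ⟨hg', _⟩, rfl⟩
    exact ht (((hA _ _).1 hg).2 hg')
  rw [h1, Set.ncard_union_eq hdisj (Set.toFinite _) (Set.toFinite _),
    Set.ncard_image_of_injective _ (mul_right_injective t)]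

structure Good (G : Type*) [Group G] (z : G) : Prop where
  sq : z * z = 1
  cen : ∀ g : G, g * z = z * g
  pow : ∀ g : G, g * g = 1 ∨ g * g = z
  comm : ∀ g h : G, g * h = h * g ∨ g * h = h * g * z

theorem Good.ncomm {G : Type*} [Group G] {z : G} (hz : z ≠ 1) {g x : G}
    (h : g * x = x * g * z) : ¬ (g * x = x * g) := by
  intro hh
  rw [hh] at h
  exact hz (mul_left_cancel (h.symm.trans (mul_one _).symm))

theorem Good.factA {G : Type*} [Group G] {z : G} (hG : Good G z) (hz : z ≠ 1) (x : G) (g h : G) :
    (g * h) * x = x * (g * h) ↔ (g * x = x * g ↔ h * x = x * h) := by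
  rcases hG.comm g x with h1 | h1 <;> rcases hG.comm h x with h2 | h2
  · have e : g * h * x = x * (g * h) := by
      calc g * h * x = g * (h * x) := mul_assoc _ _ _
        _ = g * (x * h) := by rw [h2]
        _ = (g * x) * h := by simp only [mul_assoc]
        _ = (x * g) * h := by rw [h1]
        _ = x * (g * h) := by simp only [mul_assoc]
    exact ⟨fun _ => ⟨fun _ => h2, fun _ => h1⟩, fun _ => e⟩
  · have e : g * h * x = x * (g * h) * z := by
      calc g * h * x = g * (h * x) := mul_assoc _ _ _
        _ = g * (x * h * z) := by rw [h2]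
        _ = (g * x) * h * z := by simp only [mul_assoc]
        _ = (x * g) * h * z := by rw [h1]
        _ = x * (g * h) * z := by simp only [mul_assoc]
    exact ⟨fun hh => absurd hh (Good.ncomm hz e), fun hh => absurd (hh.1 h1) (Good.ncomm hz h2)⟩
  · have e : g * h * x = x * (g * h) * z := by
      calc g * h * x = g * (h * x) := mul_assoc _ _ _
        _ = g * (x * h) := by rw [h2]
        _ = (g * x) * h := by simp only [mul_assoc]
        _ = (x * g * z) * h := by rw [h1]
        _ = x * g * (z * h) := by simp only [mul_assoc]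
        _ = x * g * (h * z) := by rw [hG.cen h]
        _ = x * (g * h) * z := by simp only [mul_assoc]
    exact ⟨fun hh => absurd hh (Good.ncomm hz e), fun hh => absurd (hh.2 h2) (Good.ncomm hz h1)⟩
  · have e : g * h * x = x * (g * h) := by
      calc g * h * x = g * (h * x) := mul_assoc _ _ _
        _ = g * (x * h * z) := by rw [h2]
        _ = (g * x) * h * z := by simp only [mul_assoc]
        _ = (x * g * z) * h * z := by rw [h1]
        _ = x * g * (z * h) * z := by simp only [mul_assoc]
        _ = x * g * (h * z) * z := by rw [hG.cen h]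
        _ = x * (g * h) * (z * z) := by simp only [mul_assoc]
        _ = x * (g * h) := by rw [hG.sq, mul_one]
    exact ⟨fun _ => ⟨fun hh => absurd hh (Good.ncomm hz h1), fun hh => absurd hh (Good.ncomm hz h2)⟩,
      fun _ => e⟩

theorem arith (J a c u : ℕ)
    (h1 : a * (u * 2) = c * (u + 1) ∨ a * (u * 2) + c = c * u)
    (h2 : J = 2 * a + c ∨ J + 2 * a = 3 * c) :
    J * (u * 2 * 2) = 4 * c * (u * 2 + 1) ∨ J * (u * 2 * 2) + 4 * c = 4 * c * (u * 2) := by
  rcases h1 with h1 | h1 <;> rcases h2 with h2 | h2
  · left; subst h2; linarith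
  · right
    have h3 : (J + 2 * a) * (4 * u) = 3 * c * (4 * u) := by rw [h2]
    linarith
  · right; subst h2; linarith
  · left
    have h3 : (J + 2 * a) * (4 * u) = 3 * c * (4 * u) := by rw [h2]
    linarith

theorem count.{u} (n : ℕ) : ∀ (G : Type u) [Group G] [Finite G] (z : G), Good G z → Nat.card G ≤ n →
    (Nat.card {x : G // x * x = 1} * 2 = Nat.card G) ∨
    ∃ r : ℕ, Nat.card G = Nat.card (Subgroup.center G) * 4 ^ r ∧
      (Nat.card {x : G // x * x = 1} * 2 ^ (r + 1) = Nat.card G * (2 ^ r + 1) ∨
       Nat.card {x : G // x * x = 1} * 2 ^ (r + 1) + Nat.card G = Nat.card G * 2 ^ r) := by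
  induction n with
  | zero =>
    intro G _ _ z _ hc
    have := Nat.card_pos (α := G)
    omega
  | succ n ih =>
    intro G _ _ z hG hc
    by_cases hab : ∀ g h : G, g * h = h * g
    · -- abelian
      have hcen : Nat.card (Subgroup.center G) = Nat.card G := by
        have : Subgroup.center G = ⊤ := by
          rw [eq_top_iff]; intro g _
          rw [Subgroup.mem_center_iff]; intro h; exact hab h g
        rw [this, Subgroup.card_top]
      by_cases hsq : ∀ g : G, g * g = 1
      · right
        refine ⟨0, by rw [hcen]; simp, Or.inl ?_⟩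
        have : Nat.card {x : G // x * x = 1} = Nat.card G :=
          Nat.card_congr (Equiv.subtypeUnivEquiv hsq)
        rw [this]; norm_num
      · left
        push Not at hsq
        obtain ⟨x₀, hx₀⟩ := hsq
        have hx₀z : x₀ * x₀ = z := (hG.pow x₀).resolve_left hx₀
        have hz : z ≠ 1 := fun h => hx₀ (hx₀z.trans h)
        have e : {x : G // x * x = 1} ≃ {x : G // ¬ x * x = 1} :=
          { toFun := fun x => ⟨x.1 * x₀, by
              have : x.1 * x₀ * (x.1 * x₀) = z := by
                calc x.1 * x₀ * (x.1 * x₀) = x.1 * (x₀ * x.1) * x₀ := by simp only [mul_assoc]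
                  _ = x.1 * (x.1 * x₀) * x₀ := by rw [hab x₀ x.1]
                  _ = (x.1 * x.1) * (x₀ * x₀) := by simp only [mul_assoc]
                  _ = z := by rw [x.2, hx₀z, one_mul]
              rw [this]; exact hz⟩
            invFun := fun y => ⟨y.1 * x₀⁻¹, by
              have hy : y.1 * y.1 = z := (hG.pow y.1).resolve_left y.2
              calc y.1 * x₀⁻¹ * (y.1 * x₀⁻¹) = y.1 * (x₀⁻¹ * y.1) * x₀⁻¹ := by simp only [mul_assoc]
                _ = y.1 * (y.1 * x₀⁻¹) * x₀⁻¹ := by rw [hab x₀⁻¹ y.1]
                _ = (y.1 * y.1) * (x₀ * x₀)⁻¹ := by simp only [mul_assoc, mul_inv_rev]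
                _ = 1 := by rw [hy, hx₀z, mul_inv_cancel]⟩
            left_inv := fun x => by simp
            right_inv := fun y => by simp }
        have h1 : Nat.card {x : G // x * x = 1} + Nat.card {x : G // ¬ x * x = 1} = Nat.card G := by
          classical
          rw [← Nat.card_sum]
          exact Nat.card_congr (Equiv.sumCompl (fun x : G => x * x = 1))
        rw [← Nat.card_congr e] at h1
        omega
    · -- nonabelian
      push Not at hab
      obtain ⟨x, y, hxy⟩ := hab
      have hxy' : x * y = y * x * z := (hG.comm x y).resolve_left hxy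
      have hz : z ≠ 1 := by
        rintro rfl
        rw [mul_one] at hxy'
        exact hxy hxy'
      have hyx : ¬ (y * x = x * y) := fun h => hxy h.symm
      let cx : G → Prop := fun g => g * x = x * g
      let cy : G → Prop := fun g => g * y = y * g
      have hAx : ∀ g h : G, cx (g * h) ↔ (cx g ↔ cx h) := fun g h => hG.factA hz x g h
      have hAy : ∀ g h : G, cy (g * h) ↔ (cy g ↔ cy h) := fun g h => hG.factA hz y g h
      have cxx : cx x := rfl
      have cyy : cy y := rfl
      have cx1 : cx 1 := by show (1 : G) * x = x * 1; rw [one_mul, mul_one]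
      have cy1 : cy 1 := by show (1 : G) * y = y * 1; rw [one_mul, mul_one]
      have cxinv : ∀ u, cx u⁻¹ ↔ cx u := by
        intro u
        have := hAx u⁻¹ u
        rw [inv_mul_cancel] at this
        exact this.1 cx1
      have cyinv : ∀ u, cy u⁻¹ ↔ cy u := by
        intro u
        have := hAy u⁻¹ u
        rw [inv_mul_cancel] at this
        exact this.1 cy1
      -- general 4-term split
      have split4 : ∀ P : G → Prop, {g | P g}.ncard =
          {g | cy g ∧ cx g ∧ P g}.ncard +
          {g | cy g ∧ cx g ∧ P (x * g)}.ncard +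
          {g | cy g ∧ cx g ∧ P (y * g)}.ncard +
          {g | cy g ∧ cx g ∧ P (y * (x * g))}.ncard := by
        intro P
        rw [split cx hAx y hyx P, split cy hAy x hxy (fun g => cx g ∧ P g),
          split cy hAy x hxy (fun g => cx g ∧ P (y * g))]
        have e1 : ∀ g, cx (x * g) ↔ cx g := fun g => by
          rw [hAx]; exact ⟨fun h => h.1 cxx, fun h => ⟨fun _ => h, fun _ => cxx⟩⟩
        simp only [e1]
        ring
      -- the subgroup C
      let C : Subgroup G := Subgroup.centralizer ({x, y} : Set G)
      have hCmem : ∀ g, g ∈ C ↔ (cy g ∧ cx g) := by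
        intro g
        show g ∈ Subgroup.centralizer ({x, y} : Set G) ↔ _
        rw [Subgroup.mem_centralizer_iff]
        constructor
        · intro h
          exact ⟨(h y (by simp)).symm, (h x (by simp)).symm⟩
        · rintro ⟨h1, h2⟩ h hh
          rcases hh with rfl | rfl
          · exact h2.symm
          · exact h1.symm
      have hzC : z ∈ C := (hCmem z).2 ⟨(hG.cen y).symm, (hG.cen x).symm⟩
      have hGC : Good C ⟨z, hzC⟩ :=
        { sq := Subtype.ext hG.sq
          cen := fun g => Subtype.ext (hG.cen g)
          pow := fun g => (hG.pow g).imp (fun h => Subtype.ext h) (fun h => Subtype.ext h)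
          comm := fun g h => (hG.comm g h).imp (fun h => Subtype.ext h) (fun h => Subtype.ext h) }
      set a := {g : G | cy g ∧ cx g ∧ g * g = 1}.ncard with ha
      set b := {g : G | cy g ∧ cx g ∧ ¬ g * g = 1}.ncard with hb
      set c := {g : G | cy g ∧ cx g ∧ True}.ncard with hc'
      have habc : a + b = c := by
        rw [ha, hb, hc', ← Set.ncard_union_eq _ (Set.toFinite _) (Set.toFinite _)]
        · congr 1
          ext g
          simp only [Set.mem_union, Set.mem_ofPred_eq]
          tauto
        · rw [Set.disjoint_left]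
          rintro g ⟨_, _, h3⟩ ⟨_, _, h4⟩
          exact h4 h3
      have hjC : Nat.card {c : C // c * c = 1} = a := by
        have e : {c : C // c * c = 1} ≃ {g : G // cy g ∧ cx g ∧ g * g = 1} :=
          { toFun := fun c => ⟨c.1.1, ((hCmem _).1 c.1.2).1, ((hCmem _).1 c.1.2).2,
              congrArg Subtype.val c.2⟩
            invFun := fun g => ⟨⟨g.1, (hCmem _).2 ⟨g.2.1, g.2.2.1⟩⟩, Subtype.ext g.2.2.2⟩
            left_inv := fun _ => rfl
            right_inv := fun _ => rfl }
        rw [Nat.card_congr e, natCard_subtype]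
      have hcC : Nat.card C = c := by
        have e : C ≃ {g : G // cy g ∧ cx g ∧ True} :=
          { toFun := fun c => ⟨c.1, ((hCmem _).1 c.2).1, ((hCmem _).1 c.2).2, trivial⟩
            invFun := fun g => ⟨g.1, (hCmem _).2 ⟨g.2.1, g.2.2.1⟩⟩
            left_inv := fun _ => rfl
            right_inv := fun _ => rfl }
        rw [Nat.card_congr e, natCard_subtype]
      have hjG : Nat.card {g : G // g * g = 1} = {g : G | g * g = 1}.ncard :=
        natCard_subtype _
      have hcG : Nat.card G = 4 * c := by
        have h1 := split4 (fun _ => True)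
        have h2 : {g : G | True}.ncard = Nat.card G := by
          rw [← natCard_subtype]
          exact Nat.card_congr (Equiv.subtypeUnivEquiv (fun _ => trivial))
        rw [h2] at h1
        rw [h1, hc']; ring
      -- the key count
      have key : ∀ (Q : G → Prop) (w : G), (∀ g, cy g → cx g → (Q g ↔ w * (g * g) = 1)) →
          (w = 1 → {g : G | cy g ∧ cx g ∧ Q g}.ncard = a) ∧
          (w = z → {g : G | cy g ∧ cx g ∧ Q g}.ncard = b) := by
        intro Q w hQ
        constructor
        · intro hw
          rw [ha]
          congr 1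
          ext g
          simp only [Set.mem_ofPred_eq]
          constructor
          · rintro ⟨h1, h2, h3⟩
            refine ⟨h1, h2, ?_⟩
            have := (hQ g h1 h2).1 h3
            rwa [hw, one_mul] at this
          · rintro ⟨h1, h2, h3⟩
            refine ⟨h1, h2, (hQ g h1 h2).2 ?_⟩
            rw [hw, one_mul, h3]
        · intro hw
          rw [hb]
          congr 1
          ext g
          simp only [Set.mem_ofPred_eq]
          constructor
          · rintro ⟨h1, h2, h3⟩
            refine ⟨h1, h2, ?_⟩
            have := (hQ g h1 h2).1 h3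
            intro h4
            rw [hw, h4, mul_one] at this
            exact hz this
          · rintro ⟨h1, h2, h3⟩
            refine ⟨h1, h2, (hQ g h1 h2).2 ?_⟩
            rw [hw, (hG.pow g).resolve_left h3, hG.sq]
      have hw3 : y * x * (y * x) = (y * y) * (x * x) * z := by
        calc y * x * (y * x) = y * (x * y) * x := by simp only [mul_assoc]
          _ = y * (y * x * z) * x := by rw [hxy']
          _ = y * y * x * (z * x) := by simp only [mul_assoc]
          _ = y * y * x * (x * z) := by rw [← hG.cen x]
          _ = (y * y) * (x * x) * z := by simp only [mul_assoc]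
      have kx := key (fun g => x * g * (x * g) = 1) (x * x) (by
        intro g _ h2
        have e : x * g * (x * g) = x * x * (g * g) := by
          calc x * g * (x * g) = x * (g * x) * g := by simp only [mul_assoc]
            _ = x * (x * g) * g := by rw [show g * x = x * g from h2]
            _ = x * x * (g * g) := by simp only [mul_assoc]
        rw [e])
      have ky := key (fun g => y * g * (y * g) = 1) (y * y) (by
        intro g h1 _
        have e : y * g * (y * g) = y * y * (g * g) := by
          calc y * g * (y * g) = y * (g * y) * g := by simp only [mul_assoc]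
            _ = y * (y * g) * g := by rw [show g * y = y * g from h1]
            _ = y * y * (g * g) := by simp only [mul_assoc]
        rw [e])
      have kyx := key (fun g => y * (x * g) * (y * (x * g)) = 1) (y * x * (y * x)) (by
        intro g h1 h2
        have e : y * (x * g) * (y * (x * g)) = y * x * (y * x) * (g * g) := by
          calc y * (x * g) * (y * (x * g)) = y * x * (g * y) * (x * g) := by simp only [mul_assoc]
            _ = y * x * (y * g) * (x * g) := by rw [show g * y = y * g from h1]
            _ = y * x * y * (g * x) * g := by simp only [mul_assoc]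
            _ = y * x * y * (x * g) * g := by rw [show g * x = x * g from h2]
            _ = y * x * (y * x) * (g * g) := by simp only [mul_assoc]
        rw [e])
      have hsplit := split4 (fun g => g * g = 1)
      rw [← hjG] at hsplit
      -- j(G) in terms of a, b
      have hcount : Nat.card {g : G // g * g = 1} = 2 * a + c ∨
          Nat.card {g : G // g * g = 1} + 2 * a = 3 * c := by
        rcases hG.pow x with hx | hx <;> rcases hG.pow y with hy | hy
        · left
          rw [hsplit, kx.1 hx, ky.1 hy, kyx.2 (by rw [hw3, hx, hy, one_mul, one_mul])]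
          omega
        · left
          rw [hsplit, kx.1 hx, ky.2 hy, kyx.1 (by rw [hw3, hx, hy, mul_one, hG.sq])]
          omega
        · left
          rw [hsplit, kx.2 hx, ky.1 hy, kyx.1 (by rw [hw3, hx, hy, one_mul, hG.sq])]
          omega
        · right
          rw [hsplit, kx.2 hx, ky.2 hy, kyx.2 (by rw [hw3, hx, hy, hG.sq, one_mul])]
          omega
      have hcpos : 0 < c := by rw [← hcC]; exact Nat.card_pos
      have hCn : Nat.card C ≤ n := by rw [hcC]; omega
      have hZ : Nat.card (Subgroup.center C) = Nat.card (Subgroup.center G) := by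
        have hdec : ∀ h : G, ∃ u : G, (cx u ↔ cx h) ∧ (cy u ↔ cy h) ∧
            ∀ c' ∈ C, u * c' = c' * u := by
          intro h
          have comm_x : ∀ c' ∈ C, x * c' = c' * x := fun c' hc' => (((hCmem c').1 hc').2).symm
          have comm_y : ∀ c' ∈ C, y * c' = c' * y := fun c' hc' => (((hCmem c').1 hc').1).symm
          by_cases h1 : cx h <;> by_cases h2 : cy h
          · exact ⟨1, ⟨fun _ => h1, fun _ => cx1⟩, ⟨fun _ => h2, fun _ => cy1⟩,
              fun c' _ => by rw [one_mul, mul_one]⟩
          · exact ⟨x, ⟨fun _ => h1, fun _ => cxx⟩,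
              ⟨fun hh => absurd hh hxy, fun hh => absurd hh h2⟩, comm_x⟩
          · exact ⟨y, ⟨fun hh => absurd hh hyx, fun hh => absurd hh h1⟩,
              ⟨fun _ => h2, fun _ => cyy⟩, comm_y⟩
          · refine ⟨y * x, ⟨fun hh => absurd (((hAx y x).1 hh).2 cxx) hyx, fun hh => absurd hh h1⟩,
              ⟨fun hh => absurd (((hAy y x).1 hh).1 cyy) hxy, fun hh => absurd hh h2⟩, ?_⟩
            intro c' hc'
            rw [mul_assoc, comm_x c' hc', ← mul_assoc, comm_y c' hc', mul_assoc]
        have hmap : (Subgroup.center C).map C.subtype = Subgroup.center G := by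
          ext g
          constructor
          · rintro ⟨c₀, hc₀, rfl⟩
            rw [Subgroup.mem_center_iff]
            intro h
            obtain ⟨u, hu1, hu2, hu3⟩ := hdec h
            have hmem : u⁻¹ * h ∈ C := by
              rw [hCmem]
              exact ⟨(hAy _ _).2 ((cyinv u).trans hu2), (hAx _ _).2 ((cxinv u).trans hu1)⟩
            have h1 := Subgroup.mem_center_iff.1 hc₀ ⟨u⁻¹ * h, hmem⟩
            have h2 : u⁻¹ * h * (c₀ : G) = (c₀ : G) * (u⁻¹ * h) := congrArg Subtype.val h1
            have h3 := hu3 c₀ c₀.2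
            show h * (c₀ : G) = (c₀ : G) * h
            calc h * (c₀ : G) = u * (u⁻¹ * h * (c₀ : G)) := by
                  simp only [mul_assoc, mul_inv_cancel_left]
              _ = u * ((c₀ : G) * (u⁻¹ * h)) := by rw [h2]
              _ = (u * (c₀ : G)) * (u⁻¹ * h) := by simp only [mul_assoc]
              _ = ((c₀ : G) * u) * (u⁻¹ * h) := by rw [h3]
              _ = (c₀ : G) * h := by simp only [mul_assoc, mul_inv_cancel_left]
          · intro hg
            rw [Subgroup.mem_center_iff] at hg
            have hgC : g ∈ C := (hCmem g).2 ⟨(hg y).symm, (hg x).symm⟩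
            refine ⟨⟨g, hgC⟩, ?_, rfl⟩
            exact Subgroup.mem_center_iff.2 (fun c' => Subtype.ext (hg c'))
        rw [← hmap, Subgroup.card_map_of_injective C.subtype_injective]
      have hih := ih C ⟨z, hzC⟩ hGC hCn
      rw [hjC, hcC, hZ] at hih
      rw [hcG]
      rcases hih with h0 | ⟨r, hr1, hr2⟩
      · left
        rcases hcount with h | h <;> omega
      · right
        refine ⟨r + 1, by rw [hr1]; ring, ?_⟩
        rw [pow_succ 2 (r + 1), pow_succ 2 r]
        rw [pow_succ 2 r] at hr2
        exact arith _ a c (2 ^ r) hr2 hcount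

/-- Let G be a finite 2-group whose Frattini subgroup Φ(G) has order 2, with |G : Φ(G)| = 2^d, and let j be the number of elements x of G with x² = 1. Then j = 2^d, or j = 2^d + 2^(d−r) or j = 2^d − 2^(d−r) for some positive integer r with 2r ≤ d. Moreover if d = 2r and j is 2^d + 2^r or 2^d − 2^r, then G is extraspecial. -/
theorem result {G : Type*} [Group G] [Finite G] (hG : IsPGroup 2 G) (hΦ : Nat.card (frattini G) = 2) (d : ℕ) (hd : (frattini G).index = 2 ^ d) : (Nat.card {x : G // x ^ 2 = 1} = 2 ^ d ∨ ∃ r : ℕ, 1 ≤ r ∧ 2 * r ≤ d ∧ (Nat.card {x : G // x ^ 2 = 1} = 2 ^ d + 2 ^ (d - r) ∨ Nat.card {x : G // x ^ 2 = 1} + 2 ^ (d - r) = 2 ^ d)) ∧ (∀ r : ℕ, d = 2 * r → (Nat.card {x : G // x ^ 2 = 1} = 2 ^ d + 2 ^ r ∨ Nat.card {x : G // x ^ 2 = 1} + 2 ^ r = 2 ^ d) → Cfsg.IsExtraspecial 2 G) := by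
  haveI : Fact (Nat.Prime 2) := ⟨Nat.prime_two⟩
  obtain ⟨y₀, hy₀, huniq⟩ := (Nat.card_eq_two_iff' (1 : frattini G)).1 hΦ
  set z : G := (y₀ : G) with hzdef
  have hzΦ : z ∈ frattini G := y₀.2
  have hz1 : z ≠ 1 := fun h => hy₀ (Subtype.ext h)
  have hΦz : ∀ g ∈ frattini G, g = 1 ∨ g = z := by
    intro g hg
    by_cases h1 : g = 1
    · exact Or.inl h1
    · right
      have := huniq ⟨g, hg⟩ (fun h => h1 (congrArg Subtype.val h))
      exact congrArg Subtype.val this
  have hΦne : frattini G ≠ ⊥ := by
    intro h
    rw [h, Subgroup.mem_bot] at hzΦ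
    exact hz1 hzΦ
  have hΦn : (frattini G).Normal := inferInstance
  have hsq : z * z = 1 := by
    rcases hΦz (z * z) (mul_mem hzΦ hzΦ) with h | h
    · exact h
    · exfalso; exact hz1 (mul_eq_left.1 h)
  have hcen : ∀ g : G, g * z = z * g := by
    intro g
    rcases hΦz (g * z * g⁻¹) (hΦn.conj_mem z hzΦ g) with h | h
    · exfalso
      apply hz1
      have e : z = g⁻¹ * (g * z * g⁻¹) * g := by group
      rw [e, h]; group
    · calc g * z = g * z * g⁻¹ * g := by group
        _ = z * g := by rw [h]
  have hgood : Good G z :=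
    { sq := hsq
      cen := hcen
      pow := by
        intro g
        have := Cfsg.Agent.Lib.Helper2.pow_mem_frattini hG g
        rw [pow_two] at this
        exact hΦz _ this
      comm := by
        intro g h
        have h1 : g * h * g⁻¹ * h⁻¹ ∈ frattini G := by
          apply Cfsg.Agent.Lib.Helper2.commutator_le_frattini hG
          rw [commutator_def]
          exact Subgroup.commutator_mem_commutator (Subgroup.mem_top g) (Subgroup.mem_top h)
        rcases hΦz _ h1 with h2 | h2
        · left
          calc g * h = g * h * g⁻¹ * h⁻¹ * (h * g) := by group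
            _ = h * g := by rw [h2, one_mul]
        · right
          calc g * h = g * h * g⁻¹ * h⁻¹ * (h * g) := by group
            _ = z * (h * g) := by rw [h2]
            _ = h * g * z := (hcen (h * g)).symm }
  have hcardG : Nat.card G = 2 ^ (d + 1) := by
    rw [← (frattini G).card_mul_index, hΦ, hd, pow_succ]; ring
  have hj : Nat.card {x : G // x ^ 2 = 1} = Nat.card {x : G // x * x = 1} :=
    Nat.card_congr (Equiv.subtypeEquivRight (fun x => by rw [pow_two]))
  have hcount := count (Nat.card G) G z hgood le_rfl
  rw [← hj, hcardG] at hcount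
  have hjpos : 0 < Nat.card {x : G // x ^ 2 = 1} := by
    haveI : Nonempty {x : G // x ^ 2 = 1} := ⟨⟨1, one_pow 2⟩⟩
    exact Nat.card_pos
  have hjall : Nat.card {x : G // x ^ 2 = 1} = Nat.card G → False := by
    intro hjG
    have hbij := Function.Injective.bijective_of_nat_card_le
      (f := (Subtype.val : {x : G // x ^ 2 = 1} → G)) Subtype.val_injective hjG.ge
    obtain ⟨u, hu⟩ := Cfsg.Agent.Lib.Helper30.exists_sq_ne_one_of_frattini_ne_bot (P := G) hΦne
    obtain ⟨⟨v, hv⟩, rfl⟩ := hbij.2 u
    exact hu hv
  generalize Nat.card {x : G // x ^ 2 = 1} = j at hcount hjpos hjall ⊢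
  have hZdvd : Nat.card (Subgroup.center G) ∣ 2 ^ (d + 1) := by
    rw [← hcardG]; exact Subgroup.card_subgroup_dvd_card _
  obtain ⟨k, hk, hZ⟩ := (Nat.dvd_prime_pow Nat.prime_two).1 hZdvd
  have hzc : z ∈ Subgroup.center G := Subgroup.mem_center_iff.2 (fun g => hcen g)
  have hk1 : 1 ≤ k := by
    by_contra h
    have hk0 : k = 0 := by omega
    rw [hk0, pow_zero] at hZ
    have : Subgroup.center G = ⊥ := Subgroup.eq_bot_of_card_eq _ hZ
    rw [this, Subgroup.mem_bot] at hzc
    exact hz1 hzc
  have hmain : j = 2 ^ d ∨ ∃ r, 1 ≤ r ∧ k + 2 * r = d + 1 ∧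
      (j = 2 ^ d + 2 ^ (d - r) ∨ j + 2 ^ (d - r) = 2 ^ d) := by
    rcases hcount with h | ⟨r, hr1, hr2⟩
    · left
      rw [pow_succ] at h; omega
    · right
      rw [hZ] at hr1
      have hkr : d + 1 = k + 2 * r := by
        have : (2:ℕ) ^ (d + 1) = 2 ^ (k + 2 * r) := by rw [hr1, pow_add, pow_mul]; norm_num
        exact Nat.pow_right_injective (le_refl 2) this
      have hr0 : 1 ≤ r := by
        by_contra h
        have hr0 : r = 0 := by omega
        subst hr0
        simp only [zero_add, pow_one, pow_zero] at hr2
        rcases hr2 with h2 | h2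
        · exact hjall (by rw [hcardG]; omega)
        · omega
      refine ⟨r, hr0, by omega, ?_⟩
      have hrd : r ≤ d := by omega
      obtain ⟨e, rfl⟩ := Nat.exists_eq_add_of_le hrd
      have he : r + e - r = e := by omega
      rw [he]
      have hpow : (2:ℕ) ^ (r + e + 1) = 2 ^ (r + 1) * 2 ^ e := by
        rw [← pow_add]; congr 1; omega
      have hpos : 0 < 2 ^ (r + 1) := by positivity
      rw [hpow] at hr2
      rcases hr2 with h2 | h2
      · left
        have : j = 2 ^ e * (2 ^ r + 1) := by
          apply Nat.eq_of_mul_eq_mul_right hpos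
          rw [h2]; ring
        rw [this, pow_add]; ring
      · right
        have : j + 2 ^ e = 2 ^ e * 2 ^ r := by
          apply Nat.eq_of_mul_eq_mul_right hpos
          linarith
        rw [this, pow_add]; ring
  refine ⟨?_, ?_⟩
  · rcases hmain with h | ⟨r, hr1, hr2, hr3⟩
    · exact Or.inl h
    · exact Or.inr ⟨r, hr1, by omega, hr3⟩
  · intro r₀ hdr hj'
    have hp0 : 0 < 2 ^ r₀ := by positivity
    have hkd : k = 1 ∧ 2 ≤ d := by
      rcases hmain with h | ⟨r, hr1, hr2, hr3⟩
      · exfalso
        rcases hj' with h' | h' <;> omega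
      · have hp1 : 0 < 2 ^ (d - r) := by positivity
        have key : 2 ^ (d - r) = 2 ^ r₀ := by
          rcases hr3 with h3 | h3 <;> rcases hj' with h' | h' <;> omega
        have := Nat.pow_right_injective (le_refl 2) key
        constructor <;> omega
    obtain ⟨hk1', hd2⟩ := hkd
    rw [hk1', pow_one] at hZ
    have hΦZ : frattini G ≤ Subgroup.center G := by
      intro g hg
      rcases hΦz g hg with h | h
      · rw [h]; exact one_mem _
      · rw [h]; exact hzc
    have hfc : frattini G = Subgroup.center G :=
      Subgroup.eq_of_le_of_card_ge hΦZ (by rw [hZ, hΦ])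
    have hcomm_le : commutator G ≤ Subgroup.center G := by
      rw [← hfc]; exact Cfsg.Agent.Lib.Helper2.commutator_le_frattini hG
    have hcomm_ne : commutator G ≠ ⊥ := by
      intro hbot
      have hab : ∀ g h : G, g * h = h * g := by
        intro g h
        have h1 : g * h * g⁻¹ * h⁻¹ ∈ commutator G := by
          rw [commutator_def]
          exact Subgroup.commutator_mem_commutator (Subgroup.mem_top g) (Subgroup.mem_top h)
        rw [hbot, Subgroup.mem_bot] at h1
        calc g * h = g * h * g⁻¹ * h⁻¹ * (h * g) := by group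
          _ = h * g := by rw [h1, one_mul]
      have htop : Subgroup.center G = ⊤ := by
        rw [eq_top_iff]; intro g _
        exact Subgroup.mem_center_iff.2 (fun h => hab h g)
      rw [htop, Subgroup.card_top, hcardG] at hZ
      have : (2:ℕ) ^ (d + 1) = 2 ^ 1 := by rw [hZ, pow_one]
      have := Nat.pow_right_injective (le_refl 2) this
      omega
    have hcc : commutator G = Subgroup.center G := by
      apply Subgroup.eq_of_le_of_card_ge hcomm_le
      rw [hZ]
      by_contra hlt
      push Not at hlt
      have h1 : Nat.card (commutator G) = 1 := by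
        have := Nat.card_pos (α := commutator G)
        omega
      exact hcomm_ne (Subgroup.eq_bot_of_card_eq _ h1)
    exact ⟨⟨hG, hfc, hcc⟩, hZ⟩

end Cfsg.Agent.S3772
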