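import Mathlib
import Cfsg.Statements.S3773
import Cfsg.Agent.Lib.Helper2.FrattiniP
import Cfsg.Agent.Lib.Helper47.Frat

set_option autoImplicit false
open Cfsg

namespace Cfsg.Agent.S3773

open scoped commutatorElement

theorem add_list_prod {Γ : Type*} [Group Γ] (f : Γ → ZMod 2) (hf : ∀ g h, f (g * h) = f g + f h) :
    ∀ (t : ℕ) (g : Fin t → Γ), f (List.ofFn g).prod = ∑ i, f (g i)
  | 0, g => by
    have h1 : f 1 = 0 := by
      have := hf 1 1
      rw [mul_one] at this
      exact left_eq_add.1 this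
    simp [h1]
  | t + 1, g => by
    rw [List.ofFn_succ, List.prod_cons, hf, add_list_prod f hf t (fun i => g i.succ),
      Fin.sum_univ_succ]

theorem quad_list_prod {Γ : Type*} [Group Γ] (μ : Γ → ZMod 2) (β : Γ → Γ → ZMod 2)
    (h1 : ∀ g h, μ (g * h) = μ g + μ h + β g h)
    (h2 : ∀ g h h', β g (h * h') = β g h + β g h') (h0 : μ 1 = 0) :
    ∀ (t : ℕ) (g : Fin t → Γ), μ (List.ofFn g).prod =
      ∑ i, μ (g i) + ∑ i, ∑ j, if i < j then β (g i) (g j) else 0
  | 0, g => by simp [h0]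
  | t + 1, g => by
    rw [List.ofFn_succ, List.prod_cons, h1, quad_list_prod μ β h1 h2 h0 t (fun i => g i.succ),
      add_list_prod (β (g 0)) (h2 (g 0)) t (fun i => g i.succ)]
    rw [Fin.sum_univ_succ (fun i => μ (g i)), Fin.sum_univ_succ (fun i => ∑ j, if i < j then β (g i) (g j) else 0)]
    simp only [Fin.sum_univ_succ, lt_irrefl, if_false, Fin.succ_pos, if_true, Fin.not_lt_zero,
      Fin.succ_lt_succ_iff, zero_add]
    ring

theorem cw {Γ : Type*} [Group Γ] {w : ℕ} (μ : Fin w → Γ → ZMod 2) (β : Fin w → Γ → Γ → ZMod 2)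
    (h1 : ∀ k g h, μ k (g * h) = μ k g + μ k h + β k g h)
    (h2 : ∀ k g h h', β k g (h * h') = β k g h + β k g h') (h0 : ∀ k, μ k 1 = 0)
    {t : ℕ} (ht : 2 * w < t) (x : Fin t → Γ) :
    ∃ a : Fin t → ZMod 2, a ≠ 0 ∧ ∀ k, μ k (List.ofFn fun i => x i ^ (a i).val).prod = 0 := by
  classical
  have hε : ∀ ε : ZMod 2, ε = 0 ∨ ε = 1 := by decide
  have hv1 : ZMod.val (1 : ZMod 2) = 1 := by decide
  have hβ1 : ∀ k h, β k 1 h = 0 := by
    intro k h
    have := h1 k 1 h
    rw [one_mul, h0 k, zero_add] at this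
    exact left_eq_add.1 this
  have hβ2 : ∀ k g, β k g 1 = 0 := by
    intro k g
    have := h2 k g 1 1
    rw [mul_one] at this
    exact left_eq_add.1 this
  let P : Fin w → MvPolynomial (Fin t) (ZMod 2) := fun k =>
    ∑ i, MvPolynomial.C (μ k (x i)) * MvPolynomial.X i +
      ∑ i, ∑ j, if i < j then MvPolynomial.C (β k (x i) (x j)) * MvPolynomial.X i * MvPolynomial.X j
        else 0
  have heval : ∀ k a, MvPolynomial.eval a (P k) =
      μ k (List.ofFn fun i => x i ^ (a i).val).prod := by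
    intro k a
    rw [quad_list_prod (μ k) (β k) (h1 k) (h2 k) (h0 k)]
    simp only [P, map_add, map_sum]
    congr 1
    · apply Finset.sum_congr rfl
      intro i _
      rw [map_mul, MvPolynomial.eval_C, MvPolynomial.eval_X]
      rcases hε (a i) with h | h <;> simp [h, h0 k, hv1]
    · apply Finset.sum_congr rfl
      intro i _
      apply Finset.sum_congr rfl
      intro j _
      split_ifs with hij
      · rw [map_mul, map_mul, MvPolynomial.eval_C, MvPolynomial.eval_X, MvPolynomial.eval_X]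
        rcases hε (a i) with h | h <;> rcases hε (a j) with h' | h' <;>
          simp [h, h', hβ1, hβ2, hv1]
      · simp
  have hdeg : ∀ k, (P k).totalDegree ≤ 2 := by
    intro k
    refine (MvPolynomial.totalDegree_add _ _).trans (max_le ?_ ?_)
    · refine (MvPolynomial.totalDegree_finsetSum _ _).trans (Finset.sup_le ?_)
      intro i _
      refine (MvPolynomial.totalDegree_mul _ _).trans ?_
      rw [MvPolynomial.totalDegree_C, MvPolynomial.totalDegree_X]
      omega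
    · refine (MvPolynomial.totalDegree_finsetSum _ _).trans (Finset.sup_le ?_)
      intro i _
      refine (MvPolynomial.totalDegree_finsetSum _ _).trans (Finset.sup_le ?_)
      intro j _
      split_ifs
      · refine (MvPolynomial.totalDegree_mul _ _).trans ?_
        rw [MvPolynomial.totalDegree_X]
        have := MvPolynomial.totalDegree_mul (MvPolynomial.C (β k (x i) (x j)))
          (MvPolynomial.X i : MvPolynomial (Fin t) (ZMod 2))
        rw [MvPolynomial.totalDegree_C, MvPolynomial.totalDegree_X] at this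
        omega
      · simp
  haveI : Fact (Nat.Prime 2) := ⟨Nat.prime_two⟩
  have hcw := char_dvd_card_solutions_of_sum_lt (K := ZMod 2) (σ := Fin t) 2
    (s := (Finset.univ : Finset (Fin w))) (f := P) (by
      calc ∑ k : Fin w, (P k).totalDegree ≤ ∑ _k : Fin w, 2 := Finset.sum_le_sum (fun k _ => hdeg k)
        _ = 2 * w := by simp [mul_comm]
        _ < t := ht
        _ = Fintype.card (Fin t) := (Fintype.card_fin t).symm)
  by_contra hno
  push Not at hno
  have hsub : Subsingleton {a : Fin t → ZMod 2 // ∀ k ∈ (Finset.univ : Finset (Fin w)),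
      MvPolynomial.eval a (P k) = 0} := by
    refine ⟨fun a b => Subtype.ext ?_⟩
    have ha : a.1 = 0 := by
      by_contra h
      obtain ⟨k, hk⟩ := hno a.1 h
      exact hk (by rw [← heval]; exact a.2 k (Finset.mem_univ k))
    have hb : b.1 = 0 := by
      by_contra h
      obtain ⟨k, hk⟩ := hno b.1 h
      exact hk (by rw [← heval]; exact b.2 k (Finset.mem_univ k))
    rw [ha, hb]
  have hcw' : 2 ∣ Nat.card {a : Fin t → ZMod 2 // ∀ k ∈ (Finset.univ : Finset (Fin w)),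
      MvPolynomial.eval a (P k) = 0} := by
    rw [Nat.card_eq_fintype_card]
    convert hcw
  have hle := Finite.card_le_one_iff_subsingleton.2 hsub
  haveI : Nonempty {a : Fin t → ZMod 2 // ∀ k ∈ (Finset.univ : Finset (Fin w)),
      MvPolynomial.eval a (P k) = 0} := by
    refine ⟨⟨0, fun k _ => ?_⟩⟩
    rw [heval]
    simp [h0 k]
  have hpos : 0 < Nat.card {a : Fin t → ZMod 2 // ∀ k ∈ (Finset.univ : Finset (Fin w)),
      MvPolynomial.eval a (P k) = 0} := Nat.card_pos
  have := Nat.le_of_dvd hpos hcw'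
  omega

theorem exists_coords_module (V : Type*) [AddCommGroup V] [Module (ZMod 2) V] [Finite V] :
    ∃ (t : ℕ) (e : Fin t → V) (l : Fin t → V → ZMod 2), Nat.card V = 2 ^ t ∧
      (∀ i a b, l i (a + b) = l i a + l i b) ∧ (∀ a, (∀ i, l i a = 0) → a = 0) ∧
      (∀ i j, l i (e j) = if i = j then 1 else 0) := by
  classical
  haveI : Fact (Nat.Prime 2) := ⟨Nat.prime_two⟩
  let b := Module.finBasis (ZMod 2) V
  refine ⟨Module.finrank (ZMod 2) V, fun i => b i, fun i a => b.repr a i, ?_, ?_, ?_, ?_⟩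
  · rw [Nat.card_congr b.equivFun.toEquiv, Nat.card_fun, Nat.card_zmod, Nat.card_fin]
  · intro i a c
    show b.repr (a + c) i = b.repr a i + b.repr c i
    rw [map_add, Finsupp.add_apply]
  · intro a ha
    have : b.repr a = 0 := Finsupp.ext ha
    exact (LinearEquiv.map_eq_zero_iff b.repr).1 this
  · intro i j
    show b.repr (b j) i = if i = j then 1 else 0
    rw [Module.Basis.repr_self, Finsupp.single_apply]
    simp [eq_comm]

theorem exists_coords {A : Type*} [Group A] [Finite A] (hcomm : ∀ a b : A, a * b = b * a)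
    (hexp : ∀ a : A, a ^ 2 = 1) :
    ∃ (t : ℕ) (e : Fin t → A) (l : Fin t → A → ZMod 2), Nat.card A = 2 ^ t ∧
      (∀ i a b, l i (a * b) = l i a + l i b) ∧ (∀ a, (∀ i, l i a = 0) → a = 1) ∧
      (∀ i j, l i (e j) = if i = j then 1 else 0) := by
  letI instC : CommGroup A := { (inferInstance : Group A) with mul_comm := hcomm }
  have hexp' : ∀ a : Additive A, 2 • a = 0 := by
    intro a
    show Additive.ofMul ((Additive.toMul a) ^ 2) = 0
    rw [hexp]; rfl
  obtain ⟨t, e, l, h1, h2, h3, h4⟩ := @exists_coords_module (Additive A) _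
    (AddCommGroup.zmodModule hexp') _
  refine ⟨t, fun i => Additive.toMul (e i), fun i a => l i (Additive.ofMul a), h1, ?_, ?_, ?_⟩
  · intro i a b
    exact h2 i (Additive.ofMul a) (Additive.ofMul b)
  · intro a ha
    have := h3 (Additive.ofMul a) ha
    exact this
  · intro i j
    exact h4 i j

structure Hyp (Γ : Type*) [Group Γ] : Prop where
  exp4 : ∀ x : Γ, x ^ 4 = 1
  cc : ∀ x y g : Γ, ⁅x, y⁆ * g = g * ⁅x, y⁆
  inv : ∀ x y : Γ, x ^ 2 = 1 → y ^ 2 = 1 → (x * y) ^ 2 = 1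

/-- the subgroup of involutions -/
def Hyp.N {Γ : Type*} [Group Γ] (h : Hyp Γ) : Subgroup Γ where
  carrier := {x | x ^ 2 = 1}
  mul_mem' := fun ha hb => h.inv _ _ ha hb
  one_mem' := one_pow 2
  inv_mem' := fun {x} hx => by
    show (x⁻¹) ^ 2 = 1
    rw [inv_pow, show x ^ 2 = 1 from hx, inv_one]

theorem Hyp.mem_N {Γ : Type*} [Group Γ] (h : Hyp Γ) (x : Γ) : x ∈ h.N ↔ x ^ 2 = 1 := Iff.rfl

theorem Hyp.N_normal {Γ : Type*} [Group Γ] (h : Hyp Γ) : h.N.Normal :=
  ⟨fun n hn g => by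
    rw [h.mem_N] at hn ⊢
    rw [conj_pow, hn, mul_one, mul_inv_cancel]⟩

theorem Hyp.sq_mem {Γ : Type*} [Group Γ] (h : Hyp Γ) (x : Γ) : x ^ 2 ∈ h.N := by
  rw [h.mem_N, ← pow_mul]; exact h.exp4 x

theorem Hyp.comm_mem {Γ : Type*} [Group Γ] (h : Hyp Γ) (x y : Γ) : ⁅x, y⁆ ∈ h.N := by
  have e : ⁅x, y⁆ = (x * y) * (x * y) * (y⁻¹ * (x⁻¹ * x⁻¹) * y⁻¹⁻¹) * (y⁻¹ * y⁻¹) := by
    rw [commutatorElement_def]; group
  rw [e]
  have h1 : ∀ u : Γ, u * u ∈ h.N := fun u => by rw [← pow_two]; exact h.sq_mem u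
  exact mul_mem (mul_mem (h1 _) (h.N_normal.conj_mem _ (h1 _) _)) (h1 _)

theorem Hyp.comm_sq {Γ : Type*} [Group Γ] (h : Hyp Γ) (x y : Γ) : ⁅x, y⁆ * ⁅x, y⁆ = 1 := by
  have := h.comm_mem x y
  rw [h.mem_N, pow_two] at this
  exact this

theorem Hyp.mul_sq {Γ : Type*} [Group Γ] (h : Hyp Γ) (g k : Γ) :
    (g * k) ^ 2 = g ^ 2 * k ^ 2 * ⁅k, g⁆ := by
  have e1 : k * g = ⁅k, g⁆ * (g * k) := by rw [commutatorElement_def]; group
  calc (g * k) ^ 2 = g * (k * g) * k := by rw [pow_two]; simp only [mul_assoc]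
    _ = g * (⁅k, g⁆ * (g * k)) * k := by rw [e1]
    _ = (g * ⁅k, g⁆) * (g * k) * k := by simp only [mul_assoc]
    _ = (⁅k, g⁆ * g) * (g * k) * k := by rw [h.cc k g g]
    _ = ⁅k, g⁆ * (g ^ 2 * k ^ 2) := by simp only [pow_two, mul_assoc]
    _ = g ^ 2 * k ^ 2 * ⁅k, g⁆ := h.cc k g (g ^ 2 * k ^ 2)

theorem Hyp.comm_mul_left {Γ : Type*} [Group Γ] (h : Hyp Γ) (k k' g : Γ) :
    ⁅k * k', g⁆ = ⁅k, g⁆ * ⁅k', g⁆ := by
  have e : ⁅k * k', g⁆ = k * ⁅k', g⁆ * k⁻¹ * ⁅k, g⁆ := by
    simp only [commutatorElement_def]; group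
  rw [e, ← h.cc k' g k, mul_inv_cancel_right, h.cc k' g ⁅k, g⁆]

theorem Hyp.N_comm {Γ : Type*} [Group Γ] (h : Hyp Γ) (a b : Γ) (ha : a ∈ h.N) (hb : b ∈ h.N) :
    a * b = b * a := by
  rw [h.mem_N] at ha hb
  have hab : (a * b) ^ 2 = 1 := h.inv _ _ ha hb
  have ha' : a⁻¹ = a := inv_eq_of_mul_eq_one_left (by rw [← pow_two]; exact ha)
  have hb' : b⁻¹ = b := inv_eq_of_mul_eq_one_left (by rw [← pow_two]; exact hb)
  have : (a * b)⁻¹ = a * b := inv_eq_of_mul_eq_one_left (by rw [← pow_two]; exact hab)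
  rw [mul_inv_rev, ha', hb'] at this
  exact this.symm

theorem Hyp.subgroup {Γ : Type*} [Group Γ] (h : Hyp Γ) (S : Subgroup Γ) : Hyp S :=
  { exp4 := fun x => Subtype.ext (by simpa using h.exp4 x)
    cc := fun x y g => Subtype.ext (by simpa [commutatorElement_def] using h.cc x y g)
    inv := fun x y hx hy => Subtype.ext (by
      have hx' : (x : Γ) ^ 2 = 1 := by simpa using congrArg Subtype.val hx
      have hy' : (y : Γ) ^ 2 = 1 := by simpa using congrArg Subtype.val hy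
      simpa using h.inv _ _ hx' hy') }

theorem Hyp.card_N_subgroup {Γ : Type*} [Group Γ] (h : Hyp Γ) (S : Subgroup Γ) (hS : h.N ≤ S) :
    Nat.card (h.subgroup S).N = Nat.card h.N := by
  have : (h.subgroup S).N.map S.subtype = h.N := by
    ext g; constructor
    · rintro ⟨y, hy, rfl⟩
      have hy' : y ^ 2 = 1 := hy
      show (y : Γ) ^ 2 = 1
      simpa using congrArg Subtype.val hy'
    · intro hg
      have hg' : g ^ 2 = 1 := hg
      refine ⟨⟨g, hS hg⟩, ?_, rfl⟩
      show (⟨g, hS hg⟩ : S) ^ 2 = 1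
      exact Subtype.ext (by simpa using hg')
  rw [← this, Subgroup.card_map_of_injective S.subtype_injective]

/-- quotients of subgroups of `N` are elementary abelian -/
theorem Hyp.quot_sub {Γ : Type*} [Group Γ] (h : Hyp Γ) (T : Subgroup Γ) (hT : T ≤ h.N)
    (K' : Subgroup T) [K'.Normal] :
    (∀ a b : T ⧸ K', a * b = b * a) ∧ (∀ a : T ⧸ K', a ^ 2 = 1) := by
  constructor
  · intro a b
    induction a using QuotientGroup.induction_on with
    | H a =>
      induction b using QuotientGroup.induction_on with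
      | H b =>
        rw [← QuotientGroup.mk_mul, ← QuotientGroup.mk_mul]
        congr 1
        exact Subtype.ext (h.N_comm a b (hT a.2) (hT b.2))
  · intro a
    induction a using QuotientGroup.induction_on with
    | H a =>
      rw [← QuotientGroup.mk_pow]
      have : a ^ 2 = 1 := Subtype.ext (hT a.2)
      rw [this, QuotientGroup.mk_one]

theorem Hyp.sub_normal {Γ : Type*} [Group Γ] (h : Hyp Γ) (T : Subgroup Γ) (hT : T ≤ h.N)
    (K' : Subgroup T) : K'.Normal :=
  ⟨fun n hn g => by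
    have : g * n * g⁻¹ = n := by
      have hc : g * n = n * g := Subtype.ext (h.N_comm g n (hT g.2) (hT n.2))
      rw [hc, mul_inv_cancel_right]
    rw [this]; exact hn⟩

theorem Hyp.quot_N {Γ : Type*} [Group Γ] (h : Hyp Γ) [h.N.Normal] :
    (∀ a b : Γ ⧸ h.N, a * b = b * a) ∧ (∀ a : Γ ⧸ h.N, a ^ 2 = 1) := by
  constructor
  · intro a b
    induction a using QuotientGroup.induction_on with
    | H a =>
      induction b using QuotientGroup.induction_on with
      | H b =>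
        rw [← QuotientGroup.mk_mul, ← QuotientGroup.mk_mul, QuotientGroup.eq]
        have : (a * b)⁻¹ * (b * a) = ⁅b⁻¹, a⁻¹⁆ := by rw [commutatorElement_def]; group
        rw [this]; exact h.comm_mem _ _
  · intro a
    induction a using QuotientGroup.induction_on with
    | H a =>
      rw [← QuotientGroup.mk_pow, QuotientGroup.eq_one_iff]
      exact h.sq_mem a

theorem add_one_eq_zero {A : Type*} [Group A] (l : A → ZMod 2) (hadd : ∀ a b, l (a * b) = l a + l b) :
    l 1 = 0 := by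
  have := hadd 1 1
  rw [mul_one] at this
  exact left_eq_add.1 this

theorem lemQ {Γ : Type*} [Group Γ] [Finite Γ] (h : Hyp Γ) (T K : Subgroup Γ) (hT : T ≤ h.N)
    (hsqT : ∀ g : Γ, g ^ 2 ∈ T) (hcT : ∀ g k : Γ, ⁅g, k⁆ ∈ T) (hKT : K ≤ T) (w : ℕ)
    (hw : Nat.card T ≤ Nat.card K * 2 ^ w) {t : ℕ} (ht : 2 * w < t) (x : Fin t → Γ) :
    ∃ a : Fin t → ZMod 2, a ≠ 0 ∧ ((List.ofFn fun i => x i ^ (a i).val).prod) ^ 2 ∈ K := by
  let K' : Subgroup T := K.subgroupOf T
  haveI hK'n : K'.Normal := h.sub_normal T hT K'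
  obtain ⟨hAc, hAe⟩ := h.quot_sub T hT K'
  obtain ⟨t', e, l, hcard, hadd, hsep, -⟩ := exists_coords hAc hAe
  have ht' : t' ≤ w := by
    have h1 : Nat.card T = Nat.card (T ⧸ K') * Nat.card K' :=
      Subgroup.card_eq_card_quotient_mul_card_subgroup K'
    have h2 : Nat.card K' = Nat.card K :=
      Nat.card_congr (Subgroup.subgroupOfEquivOfLe hKT).toEquiv
    rw [h1, hcard, h2, mul_comm] at hw
    have hKpos : 0 < Nat.card K := Nat.card_pos
    have : 2 ^ t' ≤ 2 ^ w := Nat.le_of_mul_le_mul_left hw hKpos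
    exact (Nat.pow_le_pow_iff_right (by norm_num)).1 this
  let μ : Fin t' → Γ → ZMod 2 := fun k g => l k (QuotientGroup.mk (⟨g ^ 2, hsqT g⟩ : T))
  let β : Fin t' → Γ → Γ → ZMod 2 :=
    fun k g g' => l k (QuotientGroup.mk (⟨⁅g', g⁆, hcT g' g⟩ : T))
  have hl1 : ∀ k, l k 1 = 0 := fun k => add_one_eq_zero (l k) (hadd k)
  have hc1 : ∀ k g g', μ k (g * g') = μ k g + μ k g' + β k g g' := by
    intro k g g'
    show l k (QuotientGroup.mk ⟨(g * g') ^ 2, _⟩) = l k (QuotientGroup.mk ⟨g ^ 2, _⟩) +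
      l k (QuotientGroup.mk ⟨g' ^ 2, _⟩) + l k (QuotientGroup.mk ⟨⁅g', g⁆, _⟩)
    rw [← hadd, ← hadd, ← QuotientGroup.mk_mul, ← QuotientGroup.mk_mul]
    congr 2
    exact Subtype.ext (h.mul_sq g g')
  have hc2 : ∀ k g g' g'', β k g (g' * g'') = β k g g' + β k g g'' := by
    intro k g g' g''
    show l k (QuotientGroup.mk ⟨⁅g' * g'', g⁆, _⟩) = l k (QuotientGroup.mk ⟨⁅g', g⁆, _⟩) +
      l k (QuotientGroup.mk ⟨⁅g'', g⁆, _⟩)
    rw [← hadd, ← QuotientGroup.mk_mul]
    congr 2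
    exact Subtype.ext (h.comm_mul_left g' g'' g)
  have hc3 : ∀ k, μ k 1 = 0 := by
    intro k
    show l k (QuotientGroup.mk ⟨(1 : Γ) ^ 2, _⟩) = 0
    have : (⟨(1 : Γ) ^ 2, hsqT 1⟩ : T) = 1 := Subtype.ext (one_pow 2)
    rw [this, QuotientGroup.mk_one, hl1]
  obtain ⟨a, ha0, ha⟩ := cw μ β hc1 hc2 hc3 (show 2 * t' < t by omega) x
  refine ⟨a, ha0, ?_⟩
  have h1 : (QuotientGroup.mk (⟨((List.ofFn fun i => x i ^ (a i).val).prod) ^ 2, hsqT _⟩ : T) :
      T ⧸ K') = 1 := hsep _ (fun k => ha k)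
  rw [QuotientGroup.eq_one_iff] at h1
  exact h1

theorem lemI {Γ : Type*} [Group Γ] [Finite Γ] (h : Hyp Γ) :
    ∃ (t : ℕ) (x : Fin t → Γ), Nat.card Γ = 2 ^ t * Nat.card h.N ∧
      ∀ a : Fin t → ZMod 2, a ≠ 0 → (List.ofFn fun i => x i ^ (a i).val).prod ∉ h.N := by
  haveI := h.N_normal
  obtain ⟨hAc, hAe⟩ := h.quot_N
  obtain ⟨t, e, l, hcard, hadd, hsep, hdual⟩ := exists_coords hAc hAe
  have hε : ∀ ε : ZMod 2, ε = 0 ∨ ε = 1 := by decide
  have hv1 : ZMod.val (1 : ZMod 2) = 1 := by decide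
  refine ⟨t, fun i => Quotient.out (e i), ?_, ?_⟩
  · rw [Subgroup.card_eq_card_quotient_mul_card_subgroup h.N, hcard]
  · intro a ha hmem
    apply ha
    funext i
    have h1 : (QuotientGroup.mk (List.ofFn fun j => Quotient.out (e j) ^ (a j).val).prod :
        Γ ⧸ h.N) = 1 := (QuotientGroup.eq_one_iff _).2 hmem
    have h2 := add_list_prod (fun g : Γ => l i (QuotientGroup.mk g))
      (fun g k => by rw [QuotientGroup.mk_mul, hadd]) t (fun j => Quotient.out (e j) ^ (a j).val)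
    rw [h1] at h2
    have hl1 : l i 1 = 0 := add_one_eq_zero (l i) (hadd i)
    have h3 : ∀ j, l i (QuotientGroup.mk (Quotient.out (e j) ^ (a j).val)) =
        a j * (if i = j then 1 else 0) := by
      intro j
      rw [QuotientGroup.mk_pow, QuotientGroup.out_eq']
      rcases hε (a j) with h | h
      · rw [h]; simp [hl1]
      · rw [h]; simp [hv1, hdual]
    rw [hl1] at h2
    simp only [h3] at h2
    simp at h2
    simpa using h2.symm

theorem lemKer {Γ : Type*} [Group Γ] [Finite Γ] (σ : Γ → ZMod 2)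
    (hσ : ∀ g k, σ (g * k) = σ g + σ k) :
    ∃ Γ₁ : Subgroup Γ, (∀ g, g ∈ Γ₁ ↔ σ g = 0) ∧ Nat.card Γ ≤ 2 * Nat.card Γ₁ := by
  let f : Γ →* Multiplicative (ZMod 2) :=
    MonoidHom.mk' (fun g => Multiplicative.ofAdd (σ g)) (fun g k => by rw [hσ]; rfl)
  refine ⟨f.ker, fun g => ?_, ?_⟩
  · rw [MonoidHom.mem_ker]; exact Iff.rfl
  · have h1 := Subgroup.card_mul_index f.ker
    have h2 : f.ker.index ≤ 2 := by
      rw [Subgroup.index_ker]
      calc Nat.card f.range ≤ Nat.card (Multiplicative (ZMod 2)) := Subgroup.card_le_card_group _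
        _ = 2 := by rw [Nat.card_congr Multiplicative.toAdd, Nat.card_zmod]
    calc Nat.card Γ = Nat.card f.ker * f.ker.index := h1.symm
      _ ≤ Nat.card f.ker * 2 := Nat.mul_le_mul_left _ h2
      _ = 2 * Nat.card f.ker := mul_comm _ _

/-- Let G be a finite 2-group of nilpotency class at most 2 and exponent dividing 4 in which the elements x with x² = 1 form a subgroup N. Then |G| ≤ |N|³, and |G| < |N|³ unless G is special. -/
theorem result {G : Type*} [Group G] [Finite G] (hG : IsPGroup 2 G) (hcl : (⊤ : Subgroup G).lowerCentralSeries 2 = ⊥) (hexp : ∀ x : G, x ^ 4 = 1) (hN : ∀ x y : G, x ^ 2 = 1 → y ^ 2 = 1 → (x * y) ^ 2 = 1) : Nat.card G ≤ Nat.card {x : G // x ^ 2 = 1} ^ 3 ∧ (¬ Cfsg.IsSpecial 2 G → Nat.card G < Nat.card {x : G // x ^ 2 = 1} ^ 3) := by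
  haveI : Fact (Nat.Prime 2) := ⟨Nat.prime_two⟩
  have hcc : ∀ x y g : G, ⁅x, y⁆ * g = g * ⁅x, y⁆ := by
    intro x y g
    have h1 : ⁅⁅x, y⁆, g⁆ ∈ (⊤ : Subgroup G).lowerCentralSeries 2 :=
      Subgroup.commutator_mem_commutator
        (Subgroup.commutator_mem_commutator (Subgroup.mem_top x) (Subgroup.mem_top y))
        (Subgroup.mem_top g)
    rw [hcl, Subgroup.mem_bot] at h1
    exact commutatorElement_eq_one_iff_mul_comm.1 h1
  have h : Hyp G := ⟨hexp, hcc, hN⟩
  haveI hNn := h.N_normal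
  have hj : Nat.card {x : G // x ^ 2 = 1} = Nat.card h.N := rfl
  rw [hj]
  obtain ⟨m, hm⟩ := IsPGroup.iff_card.1 (hG.to_subgroup h.N)
  obtain ⟨t, x, hcard, hind⟩ := lemI h
  have htm : t ≤ 2 * m := by
    by_contra hlt
    push Not at hlt
    obtain ⟨a, ha0, ha⟩ := lemQ h h.N ⊥ le_rfl h.sq_mem h.comm_mem bot_le m
      (by rw [Subgroup.card_bot, one_mul, hm]) hlt x
    rw [Subgroup.mem_bot] at ha
    exact hind a ha0 ha
  have hle : Nat.card G ≤ Nat.card h.N ^ 3 := by
    rw [hcard, hm, ← pow_add, ← pow_mul]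
    exact Nat.pow_le_pow_right (by norm_num) (by omega)
  refine ⟨hle, ?_⟩
  intro hns
  by_contra hnlt
  push Not at hnlt
  have heq : t = 2 * m := by
    rw [hcard, hm, ← pow_add, ← pow_mul] at hnlt
    have := (Nat.pow_le_pow_iff_right (by norm_num : 1 < 2)).1 hnlt
    omega
  subst heq
  apply hns
  have hcomm_le : commutator G ≤ h.N := by
    rw [commutator_def, Subgroup.commutator_le]
    intro g _ k _
    exact h.comm_mem g k
  have hsubI : ∀ Γ₁ : Subgroup G, h.N ≤ Γ₁ → Nat.card G ≤ 2 * Nat.card Γ₁ →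
      ∃ (t₁ : ℕ) (x₁ : Fin t₁ → Γ₁), 2 * m ≤ t₁ + 1 ∧
        ∀ a : Fin t₁ → ZMod 2, a ≠ 0 →
          (List.ofFn fun i => x₁ i ^ (a i).val).prod ∉ (h.subgroup Γ₁).N := by
    intro Γ₁ hN₁ hc₁
    obtain ⟨t₁, x₁, hcard₁, hind₁⟩ := lemI (h.subgroup Γ₁)
    refine ⟨t₁, x₁, ?_, hind₁⟩
    rw [h.card_N_subgroup Γ₁ hN₁, hm] at hcard₁
    rw [hcard, hm, hcard₁, ← pow_add, ← pow_add] at hc₁
    have h2 : 2 ^ (2 * m + m) ≤ 2 ^ (t₁ + m + 1) := by rw [pow_succ]; omega
    have := (Nat.pow_le_pow_iff_right (by norm_num : 1 < 2)).1 h2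
    omega
  have hcommN : commutator G = h.N := by
    by_contra hne
    have hnle : ¬ h.N ≤ commutator G := fun hle' => hne (le_antisymm hcomm_le hle')
    obtain ⟨n₀, hn₀N, hn₀⟩ := SetLike.not_le_iff_exists.1 hnle
    let D : Subgroup h.N := (commutator G).subgroupOf h.N
    haveI hDn : D.Normal := h.sub_normal h.N le_rfl D
    obtain ⟨hAc, hAe⟩ := h.quot_sub h.N le_rfl D
    obtain ⟨t', e, l, hcard', hadd, hsep, -⟩ := exists_coords hAc hAe
    have hex : ∃ i, l i (QuotientGroup.mk (⟨n₀, hn₀N⟩ : h.N)) ≠ 0 := by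
      by_contra hall
      push Not at hall
      have := hsep _ hall
      rw [QuotientGroup.eq_one_iff] at this
      exact hn₀ this
    obtain ⟨i, hi⟩ := hex
    have hl1 : l i 1 = 0 := add_one_eq_zero (l i) (hadd i)
    let σ : G → ZMod 2 := fun g => l i (QuotientGroup.mk (⟨g ^ 2, h.sq_mem g⟩ : h.N))
    have hσ : ∀ g k, σ (g * k) = σ g + σ k := by
      intro g k
      have e1 : (⟨(g * k) ^ 2, h.sq_mem _⟩ : h.N) =
          ⟨g ^ 2, h.sq_mem g⟩ * ⟨k ^ 2, h.sq_mem k⟩ * ⟨⁅k, g⁆, h.comm_mem k g⟩ :=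
        Subtype.ext (h.mul_sq g k)
      have e2 : (QuotientGroup.mk (⟨⁅k, g⁆, h.comm_mem k g⟩ : h.N) : h.N ⧸ D) = 1 := by
        rw [QuotientGroup.eq_one_iff]
        show ⁅k, g⁆ ∈ commutator G
        rw [commutator_def]
        exact Subgroup.commutator_mem_commutator (Subgroup.mem_top k) (Subgroup.mem_top g)
      show l i (QuotientGroup.mk ⟨(g * k) ^ 2, _⟩) = _
      rw [e1, QuotientGroup.mk_mul, QuotientGroup.mk_mul, e2, mul_one, hadd]
    obtain ⟨G₀, hG₀, hG₀card⟩ := lemKer σ hσ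
    have hNG₀ : h.N ≤ G₀ := by
      intro n hn
      rw [hG₀]
      show l i (QuotientGroup.mk ⟨n ^ 2, _⟩) = 0
      have : (⟨n ^ 2, h.sq_mem n⟩ : h.N) = 1 := Subtype.ext ((h.mem_N n).1 hn)
      rw [this, QuotientGroup.mk_one, hl1]
    obtain ⟨t₀, x₀, ht₀, hind₀⟩ := hsubI G₀ hNG₀ hG₀card
    let τ : h.N →* Multiplicative (ZMod 2) :=
      MonoidHom.mk' (fun n => Multiplicative.ofAdd (l i (QuotientGroup.mk n)))
        (fun a b => by rw [QuotientGroup.mk_mul, hadd]; rfl)
    let H : Subgroup G := τ.ker.map h.N.subtype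
    have hHN : H ≤ h.N := Subgroup.map_subtype_le _
    have hHmem : ∀ g : G, g ∈ H ↔
        ∃ hg : g ∈ h.N, l i (QuotientGroup.mk (⟨g, hg⟩ : h.N)) = 0 := by
      intro g
      constructor
      · rintro ⟨n, hn, rfl⟩
        exact ⟨n.2, hn⟩
      · rintro ⟨hg, hl⟩
        exact ⟨⟨g, hg⟩, hl, rfl⟩
    have hHcard : Nat.card H * 2 ≤ 2 ^ m := by
      have h1 : Nat.card H = Nat.card τ.ker :=
        Subgroup.card_map_of_injective h.N.subtype_injective
      have h2 := Subgroup.card_mul_index τ.ker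
      have h3 : 2 ≤ τ.ker.index := by
        by_contra hlt
        have hidx : τ.ker.index = 1 := by
          have := Subgroup.index_ne_zero_of_finite (H := τ.ker)
          omega
        rw [Subgroup.index_eq_one] at hidx
        have : (⟨n₀, hn₀N⟩ : h.N) ∈ τ.ker := by rw [hidx]; trivial
        exact hi this
      rw [h1, ← hm, ← h2]
      exact Nat.mul_le_mul_left _ h3
    have hm1 : 1 ≤ m := by
      by_contra hm0
      have : m = 0 := by omega
      rw [this, pow_zero] at hHcard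
      have := Nat.card_pos (α := H)
      omega
    let T₀ : Subgroup G₀ := H.subgroupOf G₀
    have h₀ := h.subgroup G₀
    have hT₀N : T₀ ≤ h₀.N := by
      intro g hg
      have hg' : (g : G) ∈ H := hg
      have : (g : G) ^ 2 = 1 := hHN hg'
      show g ^ 2 = 1
      exact Subtype.ext (by simpa using this)
    have hsqT₀ : ∀ g : G₀, g ^ 2 ∈ T₀ := by
      intro g
      show ((g ^ 2 : G₀) : G) ∈ H
      rw [hHmem]
      refine ⟨by simpa using h.sq_mem (g : G), ?_⟩
      have := (hG₀ g).1 g.2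
      simpa using this
    have hcT₀ : ∀ g k : G₀, ⁅g, k⁆ ∈ T₀ := by
      intro g k
      show ((⁅g, k⁆ : G₀) : G) ∈ H
      rw [hHmem]
      have hmem : ((⁅g, k⁆ : G₀) : G) = ⁅(g : G), (k : G)⁆ := by simp [commutatorElement_def]
      refine ⟨by rw [hmem]; exact h.comm_mem _ _, ?_⟩
      have e2 : (QuotientGroup.mk (⟨((⁅g, k⁆ : G₀) : G), by rw [hmem]; exact h.comm_mem _ _⟩ : h.N) :
          h.N ⧸ D) = 1 := by
        rw [QuotientGroup.eq_one_iff]
        show ((⁅g, k⁆ : G₀) : G) ∈ commutator G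
        rw [hmem, commutator_def]
        exact Subgroup.commutator_mem_commutator (Subgroup.mem_top _) (Subgroup.mem_top _)
      rw [e2, hl1]
    have hT₀card : Nat.card T₀ ≤ Nat.card (⊥ : Subgroup G₀) * 2 ^ (m - 1) := by
      rw [Subgroup.card_bot, one_mul]
      have h1 : Nat.card T₀ = Nat.card H :=
        Nat.card_congr (Subgroup.subgroupOfEquivOfLe (hHN.trans hNG₀)).toEquiv
      rw [h1]
      have : 2 ^ m = 2 ^ (m - 1) * 2 := by rw [← pow_succ]; congr 1; omega
      omega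
    obtain ⟨a, ha0, ha⟩ := lemQ h₀ T₀ ⊥ hT₀N hsqT₀ hcT₀ bot_le (m - 1) hT₀card
      (show 2 * (m - 1) < t₀ by omega) x₀
    rw [Subgroup.mem_bot] at ha
    exact hind₀ a ha0 ha
  have hN_le_center : h.N ≤ Subgroup.center G := by
    rw [← hcommN, commutator_def, Subgroup.commutator_le]
    intro g _ k _
    rw [Subgroup.mem_center_iff]
    intro g'
    exact (hcc g k g').symm
  have hcenter : Subgroup.center G = h.N := by
    apply le_antisymm _ hN_le_center
    by_contra hnle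
    obtain ⟨z, hzc, hzN⟩ := SetLike.not_le_iff_exists.1 hnle
    have hzcomm : ∀ g : G, g * z = z * g := Subgroup.mem_center_iff.1 hzc
    obtain ⟨hAc, hAe⟩ := h.quot_N
    obtain ⟨t', e, l, hcard', hadd, hsep, -⟩ := exists_coords hAc hAe
    have hex : ∃ i, l i (QuotientGroup.mk z) ≠ 0 := by
      by_contra hall
      push Not at hall
      have := hsep _ hall
      rw [QuotientGroup.eq_one_iff] at this
      exact hzN this
    obtain ⟨i, hi⟩ := hex
    have hl1 : l i 1 = 0 := add_one_eq_zero (l i) (hadd i)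
    obtain ⟨G₁, hG₁, hG₁card⟩ := lemKer (fun g => l i (QuotientGroup.mk g))
      (fun g k => by rw [QuotientGroup.mk_mul, hadd])
    have hNG₁ : h.N ≤ G₁ := by
      intro n hn
      rw [hG₁]
      show l i (QuotientGroup.mk n) = 0
      rw [(QuotientGroup.eq_one_iff n).2 hn, hl1]
    have hzG₁ : z ∉ G₁ := fun hz => hi ((hG₁ z).1 hz)
    obtain ⟨t₁, x₁, ht₁, hind₁⟩ := hsubI G₁ hNG₁ hG₁card
    have hz2 : z ^ 2 ≠ 1 := fun hz => hzN hz
    have hz2N : z ^ 2 ∈ h.N := h.sq_mem z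
    have hm1 : 1 ≤ m := by
      by_contra hm0
      have hm0' : m = 0 := by omega
      rw [hm0', pow_zero] at hm
      have := Subgroup.eq_bot_of_card_eq _ hm
      rw [this, Subgroup.mem_bot] at hz2N
      exact hz2 hz2N
    let c : G₁ := ⟨z ^ 2, hNG₁ hz2N⟩
    have hc1 : c ≠ 1 := fun hc => hz2 (congrArg Subtype.val hc)
    have hcc' : c * c = 1 := Subtype.ext (by
      show z ^ 2 * z ^ 2 = 1
      rw [← pow_add]; exact hexp z)
    let K₁ : Subgroup G₁ := Subgroup.zpowers c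
    have h₁ := h.subgroup G₁
    have hK₁N : K₁ ≤ h₁.N := by
      rw [Subgroup.zpowers_le]
      show c ^ 2 = 1
      rw [pow_two]; exact hcc'
    have hK₁card : 2 ≤ Nat.card K₁ := by
      by_contra hlt
      have h1 : Nat.card K₁ = 1 := by have := Nat.card_pos (α := K₁); omega
      have hbot := Subgroup.eq_bot_of_card_eq _ h1
      have h2 : c ∈ K₁ := Subgroup.mem_zpowers c
      rw [hbot, Subgroup.mem_bot] at h2
      exact hc1 h2
    have hw : Nat.card h₁.N ≤ Nat.card K₁ * 2 ^ (m - 1) := by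
      rw [h.card_N_subgroup G₁ hNG₁, hm]
      have h1 : 2 ^ m = 2 * 2 ^ (m - 1) := by rw [← pow_succ']; congr 1; omega
      rw [h1]
      exact Nat.mul_le_mul_right _ hK₁card
    obtain ⟨a, ha0, ha⟩ := lemQ h₁ h₁.N K₁ le_rfl h₁.sq_mem h₁.comm_mem hK₁N (m - 1) hw
      (show 2 * (m - 1) < t₁ by omega) x₁
    obtain ⟨k, hk⟩ := Subgroup.mem_zpowers_iff.1 ha
    have hck : c ^ k = 1 ∨ c ^ k = c := by
      rcases Int.even_or_odd k with ⟨j, rfl⟩ | ⟨j, rfl⟩
      · left
        rw [← two_mul, zpow_mul, zpow_two, hcc', one_zpow]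
      · right
        rw [zpow_add, zpow_mul, zpow_two, hcc', one_zpow, one_mul, zpow_one]
    rcases hck with h1 | h1
    · rw [h1] at hk
      exact hind₁ a ha0 hk.symm
    · rw [h1] at hk
      have hYz : (((List.ofFn fun i => x₁ i ^ (a i).val).prod : G₁) : G) ^ 2 = z ^ 2 := by
        have := congrArg Subtype.val hk
        simpa [c] using this.symm
      generalize ((List.ofFn fun i => x₁ i ^ (a i).val).prod : G₁) = Y at hYz
      have hmem : (Y : G) * z⁻¹ ∈ h.N := by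
        rw [h.mem_N, pow_two]
        have hzi : z⁻¹ * (Y : G) = (Y : G) * z⁻¹ := by
          have := hzcomm (Y : G)
          calc z⁻¹ * (Y : G) = z⁻¹ * ((Y : G) * z) * z⁻¹ := by group
            _ = z⁻¹ * (z * (Y : G)) * z⁻¹ := by rw [this]
            _ = (Y : G) * z⁻¹ := by group
        calc (Y : G) * z⁻¹ * ((Y : G) * z⁻¹) = (Y : G) * (z⁻¹ * (Y : G)) * z⁻¹ := by
              simp only [mul_assoc]
          _ = (Y : G) * ((Y : G) * z⁻¹) * z⁻¹ := by rw [hzi]
          _ = (Y : G) ^ 2 * (z ^ 2)⁻¹ := by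
              rw [pow_two, pow_two, mul_inv_rev]; simp only [mul_assoc]
          _ = 1 := by rw [hYz, mul_inv_cancel]
      apply hzG₁
      have h2 : (Y : G) * z⁻¹ ∈ G₁ := hNG₁ hmem
      have h3 : z⁻¹ ∈ G₁ := by
        have := G₁.mul_mem (G₁.inv_mem Y.2) h2
        simpa using this
      simpa using G₁.inv_mem h3
  have hfrat : frattini G = h.N := by
    apply le_antisymm
    · have := Cfsg.Agent.Lib.Helper47.frattini_le_ker_of_elementary (p := 2)
        (QuotientGroup.mk' h.N) (fun u v => h.quot_N.1 _ _) (fun u => h.quot_N.2 _)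
      rwa [QuotientGroup.ker_mk'] at this
    · rw [← hcommN]; exact Cfsg.Agent.Lib.Helper2.commutator_le_frattini hG
  exact ⟨hG, hfrat.trans hcenter.symm, hcommN.trans hcenter.symm⟩

end Cfsg.Agent.S3773
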