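import Mathlib
import Cfsg.Statements.S3774

set_option autoImplicit false
open Cfsg

namespace Cfsg.Agent.S3774

/-- number theory: `2^B - 1 ∣ 2^A - 1` forces `B ∣ A` -/
theorem dvd_of_two_pow_sub_one_dvd (A B : ℕ) (h : 2 ^ B - 1 ∣ 2 ^ A - 1) : B ∣ A := by
  have hg := Nat.pow_sub_one_gcd_pow_sub_one 2 A B
  rw [Nat.gcd_eq_right h] at hg
  have h1 : 1 ≤ 2 ^ B := Nat.one_le_two_pow
  have h2 : 1 ≤ 2 ^ Nat.gcd A B := Nat.one_le_two_pow
  have h3 : 2 ^ B = 2 ^ Nat.gcd A B := by omega
  have h4 : B = Nat.gcd A B := Nat.pow_right_injective le_rfl h3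
  rw [h4]
  exact Nat.gcd_dvd_left A B

/-- the involution power of a nonidentity element -/
noncomputable def invPow {G : Type*} [Group G] (x : G) : G := x ^ (orderOf x / 2)

theorem invPow_map {G : Type*} [Group G] (a : MulAut G) (x : G) : invPow (a x) = a (invPow x) := by
  unfold invPow
  rw [MulEquiv.orderOf_eq, map_pow]

theorem invPow_spec {G : Type*} [Group G] [Finite G] (hG : IsPGroup 2 G) (x : G) (hx : x ≠ 1) :
    invPow x ≠ 1 ∧ invPow x ^ 2 = 1 := by
  obtain ⟨k, hk⟩ := (IsPGroup.iff_orderOf.mp hG) x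
  have hk0 : k ≠ 0 := by
    rintro rfl
    rw [pow_zero, orderOf_eq_one_iff] at hk
    exact hx hk
  have h2 : 2 ∣ orderOf x := by rw [hk]; exact dvd_pow_self 2 hk0
  have hpos : 0 < orderOf x := orderOf_pos x
  unfold invPow
  constructor
  · intro h
    have := orderOf_dvd_of_pow_eq_one h
    have hle := Nat.le_of_dvd (Nat.div_pos (Nat.le_of_dvd hpos h2) (by norm_num)) this
    omega
  · rw [← pow_mul, Nat.div_mul_cancel h2, pow_orderOf_eq_one]

/-- Let G be a nontrivial finite 2-group whose automorphism group permutes the involutions of G transitively. Then every involution of G is central, so that the involutions together with 1 form the subgroup Ω₁(Z(G)), and if this subgroup has order q then |G| is a power of q. -/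
theorem result {G : Type*} [Group G] [Finite G] [Nontrivial G] (hG : IsPGroup 2 G) (htrans : ∀ x y : G, x ≠ 1 → x ^ 2 = 1 → y ≠ 1 → y ^ 2 = 1 → ∃ a : MulAut G, a x = y) : (∀ x : G, x ^ 2 = 1 → x ∈ Subgroup.center G) ∧ ∃ m : ℕ, Nat.card G = Nat.card {z : G // z ^ 2 = 1} ^ m := by
  classical
  haveI : Fintype G := Fintype.ofFinite G
  -- a central involution
  obtain ⟨z0, hz0c, hz01, hz02⟩ : ∃ z0 : G, z0 ∈ Subgroup.center G ∧ z0 ≠ 1 ∧ z0 ^ 2 = 1 := by
    haveI := hG.center_nontrivial
    have h2 : 2 ∣ Nat.card (Subgroup.center G) := by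
      rcases (hG.to_subgroup (Subgroup.center G)).card_eq_or_dvd with h | h
      · exfalso
        have := Finite.one_lt_card (α := Subgroup.center G)
        omega
      · exact h
    obtain ⟨z, hz⟩ := exists_prime_orderOf_dvd_card' 2 h2
    refine ⟨(z : G), z.2, ?_, ?_⟩
    · intro h
      have : z = 1 := Subtype.ext h
      rw [this, orderOf_one] at hz
      omega
    · have := pow_orderOf_eq_one z
      rw [hz] at this
      exact_mod_cast congrArg Subtype.val this
  have hcent : ∀ x : G, x ^ 2 = 1 → x ∈ Subgroup.center G := by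
    intro x hx
    by_cases hx1 : x = 1
    · rw [hx1]; exact Subgroup.one_mem _
    · obtain ⟨a, ha⟩ := htrans z0 x hz01 hz02 hx1 hx
      rw [Subgroup.mem_center_iff] at hz0c ⊢
      intro g
      have := hz0c (a.symm g)
      have h2 := congrArg a this
      rw [map_mul, map_mul, ha, MulEquiv.apply_symm_apply] at h2
      exact h2
  refine ⟨hcent, ?_⟩
  -- the subgroup of elements of square one
  let Ω : Subgroup G :=
    { carrier := {z | z ^ 2 = 1}
      one_mem' := by simp
      mul_mem' := by
        intro a b ha hb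
        have hc : Commute a b := by
          have := hcent b hb
          rw [Subgroup.mem_center_iff] at this
          exact (this a)
        show (a * b) ^ 2 = 1
        rw [hc.mul_pow, show a ^ 2 = 1 from ha, show b ^ 2 = 1 from hb, one_mul]
      inv_mem' := by
        intro a ha
        show a⁻¹ ^ 2 = 1
        rw [inv_pow, show a ^ 2 = 1 from ha, inv_one] }
  have hΩ : Nat.card {z : G // z ^ 2 = 1} = Nat.card Ω := rfl
  obtain ⟨A, hA⟩ := IsPGroup.iff_card.mp hG
  obtain ⟨B, hB⟩ := IsPGroup.iff_card.mp (hG.to_subgroup Ω)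
  -- counting
  let s : Finset G := Finset.univ.filter (fun x => x ≠ 1)
  let t : Finset G := Finset.univ.filter (fun z => z ≠ 1 ∧ z ^ 2 = 1)
  have hst : ∀ x ∈ s, invPow x ∈ t := by
    intro x hx
    have hx1 : x ≠ 1 := (Finset.mem_filter.mp hx).2
    exact Finset.mem_filter.mpr ⟨Finset.mem_univ _, invPow_spec hG x hx1⟩
  have hcount := Finset.card_eq_sum_card_fiberwise hst
  have hfib : ∀ z ∈ t, (s.filter (fun x => invPow x = z)).card =
      (s.filter (fun x => invPow x = z0)).card := by
    intro z hz
    obtain ⟨hz1, hz2⟩ := (Finset.mem_filter.mp hz).2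
    obtain ⟨a, ha⟩ := htrans z0 z hz01 hz02 hz1 hz2
    refine Finset.card_nbij' (fun x => a.symm x) (fun x => a x) ?_ ?_ ?_ ?_
    · intro x hx
      simp only [Finset.coe_filter, Set.mem_setOf_eq, s, Finset.mem_filter, Finset.mem_univ, true_and] at hx ⊢
      refine ⟨?_, ?_⟩
      · intro h
        apply hx.1
        have := congrArg a h
        simpa using this
      · have h1 := invPow_map a.symm x
        rw [show (a.symm x) = (a.symm : MulAut G) x from rfl] at *
        rw [h1, hx.2, ← ha]
        simp
    · intro x hx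
      simp only [Finset.coe_filter, Set.mem_setOf_eq, s, Finset.mem_filter, Finset.mem_univ, true_and] at hx ⊢
      refine ⟨?_, ?_⟩
      · intro h
        apply hx.1
        have := congrArg a.symm h
        simpa using this
      · rw [invPow_map, hx.2, ha]
    · intro x _
      simp
    · intro x _
      simp
  rw [Finset.sum_congr rfl hfib, Finset.sum_const, smul_eq_mul] at hcount
  have hs : s.card + 1 = Nat.card G := by
    rw [Nat.card_eq_fintype_card, ← Finset.card_univ]
    have : s = Finset.univ.erase (1 : G) := by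
      ext x; simp [s]
    rw [this, Finset.card_erase_of_mem (Finset.mem_univ _)]
    have : 0 < (Finset.univ : Finset G).card := Finset.card_pos.mpr ⟨1, Finset.mem_univ _⟩
    omega
  have ht : t.card + 1 = Nat.card Ω := by
    have h1 : Nat.card Ω = (Finset.univ.filter (fun z : G => z ^ 2 = 1)).card := by
      rw [← hΩ, Nat.card_eq_fintype_card, Fintype.card_subtype]
    have h2 : t = (Finset.univ.filter (fun z : G => z ^ 2 = 1)).erase 1 := by
      ext x; simp [t]
    rw [h1, h2, Finset.card_erase_of_mem (by simp)]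
    have : 0 < (Finset.univ.filter (fun z : G => z ^ 2 = 1)).card :=
      Finset.card_pos.mpr ⟨1, by simp⟩
    omega
  have hdvd : 2 ^ B - 1 ∣ 2 ^ A - 1 := by
    have e1 : 2 ^ A - 1 = s.card := by omega
    have e2 : 2 ^ B - 1 = t.card := by omega
    rw [e1, e2, hcount]
    exact Dvd.intro _ rfl
  obtain ⟨m, hm⟩ := dvd_of_two_pow_sub_one_dvd A B hdvd
  refine ⟨m, ?_⟩
  rw [hΩ, hA, hB, hm, pow_mul]

end Cfsg.Agent.S3774
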