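import Mathlib
import Cfsg.Statements.S3775

set_option autoImplicit false
open Cfsg

namespace Cfsg.Agent.S3775

variable {A : Type*} [CommGroup A]

/-- forward invariance -/
def FInv (X : Subgroup (MulAut A)) (B : Subgroup A) : Prop := ∀ x ∈ X, ∀ a ∈ B, x a ∈ B

theorem finv_iff (X : Subgroup (MulAut A)) (B : Subgroup A) :
    FInv X B ↔ ∀ x ∈ X, B.map x.toMonoidHom = B := by
  constructor
  · intro h x hx
    apply le_antisymm
    · rintro _ ⟨a, ha, rfl⟩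
      exact h x hx a ha
    · intro a ha
      refine ⟨x⁻¹ a, h x⁻¹ (inv_mem hx) a ha, ?_⟩
      simp
  · intro h x hx a ha
    rw [← h x hx]
    exact ⟨a, ha, rfl⟩

theorem mem_of_pow_mem {p : ℕ} (hp : p.Prime) (T : Subgroup A) (s : A) (k : ℤ)
    (hk : ¬ (p : ℤ) ∣ k) (h1 : s ^ p ∈ T) (h2 : s ^ k ∈ T) : s ∈ T := by
  have hcop : IsCoprime (p : ℤ) k :=
    ((Nat.prime_iff_prime_int.1 hp).coprime_iff_not_dvd).2 hk
  obtain ⟨u, v, huv⟩ := hcop
  have : s = (s ^ (p : ℤ)) ^ u * (s ^ k) ^ v := by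
    rw [← zpow_mul, ← zpow_mul, ← zpow_add, mul_comm (p : ℤ) u, mul_comm k v, huv, zpow_one]
  rw [this]
  exact mul_mem (zpow_mem (by rw [zpow_natCast]; exact h1) u) (zpow_mem h2 v)

theorem exists_compl {p : ℕ} [Fact p.Prime] [Finite A] (e : ℕ) (he : 1 ≤ e)
    (hexp : ∀ a : A, a ^ p ^ e = 1) (B : Subgroup A)
    (hB : ∀ b ∈ B, b ^ p ^ (e - 1) = 1 → ∃ b₁ ∈ B, b₁ ^ p = b) :
    ∃ C : Subgroup A, B ⊓ C = ⊥ ∧ B ⊔ C = ⊤ := by
  classical
  have hp : p.Prime := Fact.out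
  obtain ⟨C, hC, hCmax⟩ := Set.exists_max_image {C : Subgroup A | B ⊓ C = ⊥}
    (fun C => Nat.card C) (Set.toFinite _) ⟨⊥, inf_bot_eq _⟩
  have hC' : B ⊓ C = ⊥ := hC
  refine ⟨C, hC', ?_⟩
  by_contra hne
  obtain ⟨a₀, ha₀⟩ : ∃ a₀, a₀ ∉ B ⊔ C := by
    by_contra h
    push Not at h
    exact hne (eq_top_iff.2 fun a _ => h a)
  have hex : ∃ j, a₀ ^ p ^ j ∈ B ⊔ C := ⟨e, by rw [hexp]; exact one_mem _⟩
  have hj : a₀ ^ p ^ Nat.find hex ∈ B ⊔ C := Nat.find_spec hex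
  have hj0 : Nat.find hex ≠ 0 := by
    intro h0
    rw [h0, pow_zero, pow_one] at hj
    exact ha₀ hj
  obtain ⟨j', hj'⟩ := Nat.exists_eq_succ_of_ne_zero hj0
  have haT : a₀ ^ p ^ j' ∉ B ⊔ C := Nat.find_min hex (by omega)
  have hap : (a₀ ^ p ^ j') ^ p ∈ B ⊔ C := by
    rw [← pow_mul, ← pow_succ, ← Nat.succ_eq_add_one, ← hj']; exact hj
  generalize a₀ ^ p ^ j' = a at haT hap
  obtain ⟨b, hb, c, hc, hbc⟩ := Subgroup.mem_sup.1 hap
  have hb1 : b ^ p ^ (e - 1) = 1 := by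
    have h1 : (a ^ p) ^ p ^ (e - 1) = 1 := by
      rw [← pow_mul, ← pow_succ', show e - 1 + 1 = e by omega]; exact hexp a
    rw [← hbc, mul_pow] at h1
    have h2 : b ^ p ^ (e - 1) ∈ B ⊓ C := by
      refine Subgroup.mem_inf.2 ⟨pow_mem hb _, ?_⟩
      have : b ^ p ^ (e - 1) = (c ^ p ^ (e - 1))⁻¹ := eq_inv_of_mul_eq_one_left h1
      rw [this]; exact inv_mem (pow_mem hc _)
    rw [hC', Subgroup.mem_bot] at h2
    exact h2
  obtain ⟨b₁, hb₁, hb₁p⟩ := hB b hb hb1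
  have ha'T : a * b₁⁻¹ ∉ B ⊔ C := by
    intro h
    apply haT
    have : a = a * b₁⁻¹ * b₁ := by rw [inv_mul_cancel_right]
    rw [this]
    exact mul_mem h (Subgroup.mem_sup_left hb₁)
  have ha'p : (a * b₁⁻¹) ^ p = c := by
    rw [mul_pow, inv_pow, hb₁p, ← hbc, mul_comm b c, mul_inv_cancel_right]
  generalize a * b₁⁻¹ = a' at ha'T ha'p
  have ha'C : a' ∉ C := fun h => ha'T (Subgroup.mem_sup_right h)
  have hne' : B ⊓ (C ⊔ Subgroup.zpowers a') ≠ ⊥ := by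
    intro hbot
    have h1 : Nat.card (C ⊔ Subgroup.zpowers a' : Subgroup A) ≤ Nat.card C := hCmax _ hbot
    have h2 : C = C ⊔ Subgroup.zpowers a' := Subgroup.eq_of_le_of_card_ge le_sup_left h1
    apply ha'C
    rw [h2]
    exact Subgroup.mem_sup_right (Subgroup.mem_zpowers a')
  obtain ⟨y, hy, hy1⟩ : ∃ y ∈ B ⊓ (C ⊔ Subgroup.zpowers a'), y ≠ 1 := by
    by_contra h
    push Not at h
    exact hne' ((Subgroup.eq_bot_iff_forall _).2 h)
  obtain ⟨hyB, hyCz⟩ := Subgroup.mem_inf.1 hy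
  obtain ⟨c', hc', z, hz, hyz⟩ := Subgroup.mem_sup.1 hyCz
  obtain ⟨k, rfl⟩ := Subgroup.mem_zpowers_iff.1 hz
  by_cases hk : (p : ℤ) ∣ k
  · obtain ⟨k', rfl⟩ := hk
    have h1 : a' ^ ((p : ℤ) * k') ∈ C := by
      rw [zpow_mul, zpow_natCast, ha'p]; exact zpow_mem hc k'
    have h2 : y ∈ B ⊓ C := Subgroup.mem_inf.2 ⟨hyB, by rw [← hyz]; exact mul_mem hc' h1⟩
    rw [hC', Subgroup.mem_bot] at h2
    exact hy1 h2
  · apply ha'T
    apply mem_of_pow_mem hp _ a' k hk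
    · rw [ha'p]; exact Subgroup.mem_sup_right hc
    · have : a' ^ k = y * c'⁻¹ := by rw [← hyz, mul_comm c', mul_inv_cancel_right]
      rw [this]
      exact mul_mem (Subgroup.mem_sup_left hyB) (Subgroup.mem_sup_right (inv_mem hc'))

theorem exists_compl_mod {p : ℕ} [Fact p.Prime] [Finite A] (M K S : Subgroup A) (hMK : M ≤ K)
    (hKS : K ≤ S) (hS : ∀ s ∈ S, s ^ p ∈ M) :
    ∃ L₀ : Subgroup A, M ≤ L₀ ∧ L₀ ≤ S ∧ L₀ ⊓ K ≤ M ∧ S ≤ L₀ ⊔ K := by
  classical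
  have hp : p.Prime := Fact.out
  obtain ⟨L₀, hL₀, hmax⟩ := Set.exists_max_image {L : Subgroup A | M ≤ L ∧ L ≤ S ∧ L ⊓ K ≤ M}
    (fun L => Nat.card L) (Set.toFinite _) ⟨M, le_rfl, hMK.trans hKS, inf_le_left⟩
  obtain ⟨h1, h2, h3⟩ := hL₀
  refine ⟨L₀, h1, h2, h3, ?_⟩
  intro s hs
  by_contra hsT
  have hsL : s ∉ L₀ := fun h => hsT (Subgroup.mem_sup_left h)
  have hnot : ¬ ((L₀ ⊔ Subgroup.zpowers s) ⊓ K ≤ M) := by
    intro hle
    have h4 : Nat.card (L₀ ⊔ Subgroup.zpowers s : Subgroup A) ≤ Nat.card L₀ :=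
      hmax _ ⟨h1.trans le_sup_left, sup_le h2 (Subgroup.zpowers_le.2 hs), hle⟩
    have h5 : L₀ = L₀ ⊔ Subgroup.zpowers s := Subgroup.eq_of_le_of_card_ge le_sup_left h4
    apply hsL
    rw [h5]
    exact Subgroup.mem_sup_right (Subgroup.mem_zpowers s)
  obtain ⟨y, hy, hyM⟩ := SetLike.not_le_iff_exists.1 hnot
  obtain ⟨hyLs, hyK⟩ := Subgroup.mem_inf.1 hy
  obtain ⟨l, hl, z, hz, hyz⟩ := Subgroup.mem_sup.1 hyLs
  obtain ⟨k, rfl⟩ := Subgroup.mem_zpowers_iff.1 hz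
  by_cases hk : (p : ℤ) ∣ k
  · obtain ⟨k', rfl⟩ := hk
    have h4 : s ^ ((p : ℤ) * k') ∈ M := by
      rw [zpow_mul, zpow_natCast]; exact zpow_mem (hS s hs) k'
    apply hyM
    apply h3
    exact Subgroup.mem_inf.2 ⟨by rw [← hyz]; exact mul_mem hl (h1 h4), hyK⟩
  · apply hsT
    apply mem_of_pow_mem hp _ s k hk
    · exact Subgroup.mem_sup_left (h1 (hS s hs))
    · have : s ^ k = y * l⁻¹ := by rw [← hyz, mul_comm l, mul_inv_cancel_right]
      rw [this]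
      exact mul_mem (Subgroup.mem_sup_right hyK) (Subgroup.mem_sup_left (inv_mem hl))

theorem rel_avg [Finite A] (X : Subgroup (MulAut A)) (N' : ℕ)
    (hN : ∀ a : A, a ^ (Nat.card X * N') = a)
    (M K S : Subgroup A) (hMK : M ≤ K) (hKS : K ≤ S)
    (hM : FInv X M) (hK : FInv X K) (hS : FInv X S)
    (L₀ : Subgroup A) (h1 : M ≤ L₀) (h2 : L₀ ≤ S) (h3 : L₀ ⊓ K ≤ M) (h4 : S ≤ L₀ ⊔ K) :
    ∃ L : Subgroup A, FInv X L ∧ M ≤ L ∧ L ≤ S ∧ L ⊓ K ≤ M ∧ S ≤ L ⊔ K := by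
  classical
  haveI : Finite X := inferInstance
  letI : Fintype X := Fintype.ofFinite X
  have hθ : ∀ a : A, ∃ k : A, a ∈ S → k ∈ K ∧ a * k⁻¹ ∈ L₀ := by
    intro a
    by_cases ha : a ∈ S
    · obtain ⟨l, hl, k, hk, hlk⟩ := Subgroup.mem_sup.1 (h4 ha)
      refine ⟨k, fun _ => ⟨hk, ?_⟩⟩
      rw [← hlk, mul_inv_cancel_right]; exact hl
    · exact ⟨1, fun h => absurd h ha⟩
  choose θ hθ using hθ
  set q : A →* A ⧸ M := QuotientGroup.mk' M with hq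
  have hq1 : ∀ a : A, q a = 1 ↔ a ∈ M := fun a => QuotientGroup.eq_one_iff a
  have hqeq : ∀ a b : A, q a = q b ↔ a * b⁻¹ ∈ M := by
    intro a b
    rw [← hq1, map_mul, map_inv, mul_inv_eq_one]
  set r : A →* A ⧸ L₀ := QuotientGroup.mk' L₀ with hr
  have hr1 : ∀ a : A, r a = 1 ↔ a ∈ L₀ := fun a => QuotientGroup.eq_one_iff a
  have hreq : ∀ a b : A, r a = r b ↔ a * b⁻¹ ∈ L₀ := by
    intro a b
    rw [← hr1, map_mul, map_inv, mul_inv_eq_one]
  have hθr : ∀ s ∈ S, r s = r (θ s) := fun s hs => (hreq _ _).2 (hθ s hs).2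
  have hθmul : ∀ s ∈ S, ∀ s' ∈ S, q (θ (s * s')) = q (θ s) * q (θ s') := by
    intro s hs s' hs'
    rw [← map_mul, hqeq]
    apply h3
    refine Subgroup.mem_inf.2 ⟨?_, mul_mem (hθ _ (mul_mem hs hs')).1
      (inv_mem (mul_mem (hθ s hs).1 (hθ s' hs').1))⟩
    apply (hreq _ _).1
    rw [← hθr _ (mul_mem hs hs'), map_mul, map_mul, hθr s hs, hθr s' hs']
  have hθK : ∀ k ∈ K, q (θ k) = q k := by
    intro k hk
    apply (hqeq _ _).2
    apply h3
    exact Subgroup.mem_inf.2 ⟨(hreq _ _).1 (hθr k (hKS hk)).symm,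
      mul_mem (hθ k (hKS hk)).1 (inv_mem hk)⟩
  have hqx : ∀ x ∈ X, ∀ a b : A, q a = q b → q (x a) = q (x b) := by
    intro x hx a b h
    rw [hqeq] at h ⊢
    have := hM x hx _ h
    rwa [map_mul, map_inv] at this
  set Ψ : A → A := fun a => ∏ x : X, ((x : MulAut A)⁻¹) (θ ((x : MulAut A) a)) with hΨ
  have hΨmul : ∀ s ∈ S, ∀ s' ∈ S, q (Ψ (s * s')) = q (Ψ s) * q (Ψ s') := by
    intro s hs s' hs'
    simp only [hΨ, map_prod]
    rw [← Finset.prod_mul_distrib]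
    apply Finset.prod_congr rfl
    intro x _
    rw [← map_mul q, ← map_mul ((x : MulAut A)⁻¹)]
    apply hqx _ (inv_mem x.2)
    rw [map_mul, map_mul]
    exact hθmul _ (hS x x.2 s hs) _ (hS x x.2 s' hs')
  have hΨK : ∀ k ∈ K, q (Ψ k) = q k ^ Nat.card X := by
    intro k hk
    simp only [hΨ, map_prod]
    rw [Nat.card_eq_fintype_card, ← Finset.card_univ, ← Finset.prod_const]
    apply Finset.prod_congr rfl
    intro x _
    have h5 : q (θ ((x : MulAut A) k)) = q ((x : MulAut A) k) := hθK _ (hK x x.2 k hk)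
    have h6 := hqx _ (inv_mem x.2) _ _ h5
    rw [h6]; simp
  have hΨx : ∀ x₀ ∈ X, ∀ a, Ψ (x₀ a) = x₀ (Ψ a) := by
    intro x₀ hx₀ a
    simp only [hΨ, map_prod]
    rw [← Equiv.prod_comp (Equiv.mulRight (⟨x₀, hx₀⟩ : X))
      (fun y : X => x₀ ((y : MulAut A)⁻¹ (θ ((y : MulAut A) a))))]
    apply Finset.prod_congr rfl
    intro x _
    simp [mul_inv_rev, MulAut.mul_apply]
  have hΨmem : ∀ s ∈ S, Ψ s ∈ K := fun s hs =>
    Subgroup.prod_mem _ (fun x _ => hK _ (inv_mem x.2) _ (hθ _ (hS x x.2 s hs)).1)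
  have hΨ1 : q (Ψ 1) = 1 := by
    have h5 := hΨmul 1 (one_mem _) 1 (one_mem _)
    rw [mul_one] at h5
    have h6 : q (Ψ 1) * 1 = q (Ψ 1) * q (Ψ 1) := by rw [mul_one]; exact h5
    exact (mul_left_cancel h6).symm
  have hmul : ∀ {a b : A}, a ∈ {a | a ∈ S ∧ q (Ψ a) = 1} → b ∈ {a | a ∈ S ∧ q (Ψ a) = 1} →
      a * b ∈ {a | a ∈ S ∧ q (Ψ a) = 1} := by
    intro a b ha hb
    exact ⟨mul_mem ha.1 hb.1, by rw [hΨmul a ha.1 b hb.1, ha.2, hb.2, mul_one]⟩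
  have hinv : ∀ {a : A}, a ∈ {a | a ∈ S ∧ q (Ψ a) = 1} → a⁻¹ ∈ {a | a ∈ S ∧ q (Ψ a) = 1} := by
    intro a ha
    refine ⟨inv_mem ha.1, ?_⟩
    have h5 := hΨmul a ha.1 a⁻¹ (inv_mem ha.1)
    rw [mul_inv_cancel, hΨ1, ha.2, one_mul] at h5
    exact h5.symm
  let L : Subgroup A :=
    { carrier := {a | a ∈ S ∧ q (Ψ a) = 1}
      mul_mem' := hmul
      one_mem' := ⟨one_mem _, hΨ1⟩
      inv_mem' := hinv }
  have hL : ∀ a, a ∈ L ↔ a ∈ S ∧ q (Ψ a) = 1 := fun a => Iff.rfl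
  refine ⟨L, ?_, ?_, ?_, ?_, ?_⟩
  · intro x hx a ha
    rw [hL] at ha ⊢
    refine ⟨hS x hx a ha.1, ?_⟩
    rw [hΨx x hx, hq1]
    exact hM x hx _ ((hq1 _).1 ha.2)
  · intro m hm
    rw [hL]
    refine ⟨hKS (hMK hm), ?_⟩
    rw [hΨK m (hMK hm), (hq1 m).2 hm, one_pow]
  · intro a ha; exact ((hL a).1 ha).1
  · intro k hk
    obtain ⟨hkL, hkK⟩ := Subgroup.mem_inf.1 hk
    have h5 := hΨK k hkK
    rw [((hL k).1 hkL).2, ← map_pow] at h5
    have h6 : k ^ Nat.card X ∈ M := (hq1 _).1 h5.symm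
    have h7 := pow_mem h6 N'
    rwa [← pow_mul, hN] at h7
  · intro s hs
    have hκ : (Ψ s) ^ N' ∈ K := pow_mem (hΨmem s hs) N'
    have h5 : s = (s * ((Ψ s) ^ N')⁻¹) * (Ψ s) ^ N' := by rw [inv_mul_cancel_right]
    rw [h5]
    refine mul_mem (Subgroup.mem_sup_left ?_) (Subgroup.mem_sup_right hκ)
    rw [hL]
    refine ⟨mul_mem hs (inv_mem (hKS hκ)), ?_⟩
    rw [hΨmul s hs _ (inv_mem (hKS hκ)), hΨK _ (inv_mem hκ), map_inv, map_pow, inv_pow,
      ← pow_mul, mul_comm N', ← map_pow, hN, mul_inv_cancel]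

theorem finv_bot (X : Subgroup (MulAut A)) : FInv X ⊥ := by
  intro x _ a ha
  rw [Subgroup.mem_bot] at ha ⊢
  rw [ha, map_one]

theorem finv_top (X : Subgroup (MulAut A)) : FInv X ⊤ := fun _ _ _ _ => Subgroup.mem_top _

theorem finv_map_pow (X : Subgroup (MulAut A)) (k : ℕ) (B : Subgroup A) (hB : FInv X B) :
    FInv X (B.map (powMonoidHom k)) := by
  rintro x hx _ ⟨b, hb, rfl⟩
  refine ⟨x b, hB x hx b hb, ?_⟩
  simp [powMonoidHom_apply]

theorem irr_of_indec [Finite A] {p : ℕ} [Fact p.Prime] (hA : IsPGroup p A)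
    (X : Subgroup (MulAut A)) (N' : ℕ) (hN : ∀ a : A, a ^ (Nat.card X * N') = a)
    (hi : ¬ ∃ B C : Subgroup A, B ≠ ⊥ ∧ C ≠ ⊥ ∧ FInv X B ∧ FInv X C ∧ B ⊓ C = ⊥ ∧ B ⊔ C = ⊤)
    (V : Subgroup A) (hV : FInv X V) (hVp : ∀ b ∈ V, b ^ p = 1) (hV1 : V ≠ ⊥) :
    ∀ a : A, a ^ p = 1 → a ∈ V := by
  classical
  have hp : p.Prime := Fact.out
  obtain ⟨E, hE⟩ := IsPGroup.iff_card.1 hA
  have hex : ∃ e, ∀ a : A, a ^ p ^ e = 1 := ⟨E, fun a => by rw [← hE]; exact pow_card_eq_one'⟩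
  obtain ⟨e', hexp, hmin⟩ : ∃ e', (∀ a : A, a ^ p ^ (e' + 1) = 1) ∧ ¬ ∀ a : A, a ^ p ^ e' = 1 := by
    have he0 : Nat.find hex ≠ 0 := by
      intro h0
      have h := Nat.find_spec hex
      rw [h0] at h
      apply hV1
      rw [Subgroup.eq_bot_iff_forall]
      intro v _
      have := h v
      rwa [pow_zero, pow_one] at this
    obtain ⟨e', he'⟩ := Nat.exists_eq_succ_of_ne_zero he0
    refine ⟨e', ?_, Nat.find_min hex (by omega)⟩
    have h := Nat.find_spec hex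
    rw [he'] at h; exact h
  obtain ⟨a₀, ha₀⟩ : ∃ a₀ : A, a₀ ^ p ^ e' ≠ 1 := by
    by_contra h; push Not at h; exact hmin h
  set P : A →* A := powMonoidHom (p ^ e') with hP
  have hPa : ∀ a, P a = a ^ p ^ e' := fun a => rfl
  have hPx : ∀ x : MulAut A, ∀ a, P (x a) = x (P a) := by
    intro x a; rw [hPa, hPa, map_pow]
  have hPp' : ∀ a, P (a ^ p) = 1 := by
    intro a; rw [hPa, ← pow_mul, ← pow_succ']; exact hexp a
  set W : Subgroup A := (⊤ : Subgroup A).map P with hW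
  have hWinv : FInv X W := finv_map_pow X _ _ (finv_top X)
  have hW1 : W ≠ ⊥ := by
    intro h
    have : P a₀ ∈ W := ⟨a₀, Subgroup.mem_top _, rfl⟩
    rw [h, Subgroup.mem_bot] at this
    exact ha₀ this
  obtain ⟨U, ⟨hUinv, hU1, hUW⟩, hUmin⟩ := Set.exists_min_image
    {U : Subgroup A | FInv X U ∧ U ≠ ⊥ ∧ U ≤ W}
    (fun U => Nat.card U) (Set.toFinite _) ⟨W, hWinv, hW1, le_rfl⟩
  obtain ⟨B, ⟨hBinv, hUB⟩, hBmin⟩ := Set.exists_min_image
    {B : Subgroup A | FInv X B ∧ U ≤ B.map P}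
    (fun B => Nat.card B) (Set.toFinite _) ⟨⊤, finv_top X, hUW⟩
  -- (a)
  have hBU : B.map P ≤ U := by
    have h1 : FInv X (B ⊓ U.comap P) := by
      intro x hx b hb
      obtain ⟨hb1, hb2⟩ := Subgroup.mem_inf.1 hb
      refine Subgroup.mem_inf.2 ⟨hBinv x hx b hb1, ?_⟩
      rw [Subgroup.mem_comap, hPx]
      exact hUinv x hx _ hb2
    have h2 : U ≤ (B ⊓ U.comap P).map P := by
      intro u hu
      obtain ⟨b, hb, rfl⟩ := hUB hu
      exact ⟨b, Subgroup.mem_inf.2 ⟨hb, hu⟩, rfl⟩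
    have h3 : Nat.card B ≤ Nat.card (B ⊓ U.comap P : Subgroup A) := hBmin _ ⟨h1, h2⟩
    have h4 : B ⊓ U.comap P = B := Subgroup.eq_of_le_of_card_ge inf_le_left h3
    rintro _ ⟨b, hb, rfl⟩
    rw [← h4] at hb
    exact (Subgroup.mem_inf.1 hb).2
  have hU1' : ∃ u ∈ U, u ≠ 1 := by
    by_contra h; push Not at h
    exact hU1 ((Subgroup.eq_bot_iff_forall _).2 h)
  -- (b)
  have hb : ∀ M : Subgroup A, FInv X M → M ≤ B → M = B ∨ ∀ m ∈ M, P m = 1 := by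
    intro M hM hMB
    by_cases hbot : M.map P = ⊥
    · right
      intro m hm
      have : P m ∈ M.map P := ⟨m, hm, rfl⟩
      rwa [hbot, Subgroup.mem_bot] at this
    · left
      have h1 : M.map P ≤ U := (Subgroup.map_mono hMB).trans hBU
      have h2 : Nat.card U ≤ Nat.card (M.map P) :=
        hUmin _ ⟨finv_map_pow X _ _ hM, hbot, h1.trans hUW⟩
      have h3 : M.map P = U := Subgroup.eq_of_le_of_card_ge h1 h2
      have h4 : Nat.card B ≤ Nat.card M := hBmin _ ⟨hM, h3.ge⟩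
      exact Subgroup.eq_of_le_of_card_ge hMB h4
  -- (c)
  have hc : ∀ b ∈ B, P b = 1 → ∃ b₁ ∈ B, b₁ ^ p = b := by
    have hK₀inv : FInv X (B ⊓ P.ker) := by
      intro x hx b hb
      obtain ⟨hb1, hb2⟩ := Subgroup.mem_inf.1 hb
      refine Subgroup.mem_inf.2 ⟨hBinv x hx b hb1, ?_⟩
      rw [MonoidHom.mem_ker] at hb2 ⊢
      rw [hPx, hb2, map_one]
    have hM₀inv : FInv X (B.map (powMonoidHom p)) := finv_map_pow X _ _ hBinv
    have hMK : B.map (powMonoidHom p) ≤ B ⊓ P.ker := by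
      rintro _ ⟨b, hb, rfl⟩
      refine Subgroup.mem_inf.2 ⟨pow_mem hb _, ?_⟩
      rw [MonoidHom.mem_ker]; exact hPp' b
    have hKS : B ⊓ P.ker ≤ B := inf_le_left
    have hS : ∀ s ∈ B, s ^ p ∈ B.map (powMonoidHom p) := fun s hs => ⟨s, hs, rfl⟩
    obtain ⟨L₀, l1, l2, l3, l4⟩ := exists_compl_mod (p := p) _ _ B hMK hKS hS
    obtain ⟨L, hLinv, m1, m2, m3, m4⟩ :=
      rel_avg X N' hN _ _ B hMK hKS hM₀inv hK₀inv hBinv L₀ l1 l2 l3 l4
    have hKM : B ⊓ P.ker ≤ B.map (powMonoidHom p) := by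
      rcases hb L hLinv m2 with h | h
      · intro k hk
        apply m3
        rw [h]
        exact Subgroup.mem_inf.2 ⟨hKS hk, hk⟩
      · exfalso
        have hLK : L ≤ B ⊓ P.ker :=
          fun l hl => Subgroup.mem_inf.2 ⟨m2 hl, MonoidHom.mem_ker.2 (h l hl)⟩
        have hBK : B ≤ B ⊓ P.ker := m4.trans (sup_le hLK le_rfl)
        obtain ⟨u, hu, hu1⟩ := hU1'
        obtain ⟨b, hb', rfl⟩ := hUB hu
        exact hu1 (MonoidHom.mem_ker.1 (Subgroup.mem_inf.1 (hBK hb')).2)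
    intro b hb' hPb
    obtain ⟨b₁, hb₁, h⟩ := hKM (Subgroup.mem_inf.2 ⟨hb', MonoidHom.mem_ker.2 hPb⟩)
    exact ⟨b₁, hb₁, h⟩
  -- (d)
  have hBtop : B = ⊤ := by
    obtain ⟨C, hC1, hC2⟩ := exists_compl (p := p) (e' + 1) (by omega) hexp B (by
      intro b hb' h
      exact hc b hb' h)
    obtain ⟨L, hLinv, -, -, m3, m4⟩ := rel_avg X N' hN ⊥ B ⊤ bot_le le_top (finv_bot X) hBinv
      (finv_top X) C bot_le le_top (by rw [inf_comm, hC1]) (by rw [sup_comm, hC2])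
    have hB1 : B ≠ ⊥ := by
      intro h
      obtain ⟨u, hu, hu1⟩ := hU1'
      obtain ⟨b, hb', rfl⟩ := hUB hu
      have hb2 : b ∈ B := hb'
      rw [h, Subgroup.mem_bot] at hb2
      rw [hb2, map_one] at hu1
      exact hu1 rfl
    have hL1 : L = ⊥ := by
      by_contra hL1
      exact hi ⟨B, L, hB1, hL1, hBinv, hLinv, by rw [inf_comm]; exact le_bot_iff.1 m3,
        by rw [sup_comm]; exact top_le_iff.1 m4⟩
    rw [hL1, bot_sup_eq] at m4
    exact top_le_iff.1 m4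
  subst hBtop
  -- (e)
  have he : ∀ j, j ≤ e' → ∀ a : A, a ^ p = 1 → ∃ c : A, c ^ p ^ j = a := by
    intro j
    induction j with
    | zero => intro _ a _; exact ⟨a, by rw [pow_zero, pow_one]⟩
    | succ j ih =>
      intro hj a ha
      obtain ⟨c, hc'⟩ := ih (by omega) a ha
      have h1 : c ^ p ^ (j + 1) = 1 := by rw [pow_succ, pow_mul, hc', ha]
      have h2 : P c = 1 := by
        rw [hPa]
        have h3 : p ^ e' = p ^ (j + 1) * p ^ (e' - (j + 1)) := by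
          rw [← pow_add]; congr 1; omega
        rw [h3, pow_mul, h1, one_pow]
      obtain ⟨d, -, hd⟩ := hc c (Subgroup.mem_top _) h2
      exact ⟨d, by rw [pow_succ', pow_mul, hd, hc']⟩
  intro a ha
  obtain ⟨c, hc'⟩ := he e' le_rfl a ha
  have haU : a ∈ U := hBU ⟨c, Subgroup.mem_top _, hc'⟩
  -- (f)
  have hVU : V ≤ U := fun v hv => by
    obtain ⟨c, hc'⟩ := he e' le_rfl v (hVp v hv)
    exact hBU ⟨c, Subgroup.mem_top _, hc'⟩
  have h1 : Nat.card U ≤ Nat.card V := hUmin _ ⟨hV, hV1, hVU.trans hUW⟩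
  have h2 : V = U := Subgroup.eq_of_le_of_card_ge hVU h1
  rw [h2]; exact haU

/-- Let A be a finite abelian p-group and X a group of automorphisms of A of order prime to p. Call a subgroup of A invariant when every element of X maps it onto itself. Then the following are equivalent: (i) A is not the direct product of two nontrivial invariant subgroups; (ii) every invariant subgroup of A is one of the subgroups Ω_i(A) = {a : a^(p^i) = 1}; (iii) the subgroup Ω₁(A) of elements of order dividing p has no invariant subgroups other than 1 and itself. -/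
theorem result {A : Type*} [CommGroup A] [Finite A] {p : ℕ} [Fact p.Prime] (hA : IsPGroup p A) (X : Subgroup (MulAut A)) (hX : (Nat.card X).Coprime p) : ((¬ ∃ B C : Subgroup A, B ≠ ⊥ ∧ C ≠ ⊥ ∧ (∀ x ∈ X, B.map x.toMonoidHom = B) ∧ (∀ x ∈ X, C.map x.toMonoidHom = C) ∧ B ⊓ C = ⊥ ∧ B ⊔ C = ⊤) ↔ (∀ B : Subgroup A, (∀ x ∈ X, B.map x.toMonoidHom = B) → ∃ i : ℕ, ∀ a : A, a ∈ B ↔ a ^ p ^ i = 1)) ∧ ((∀ B : Subgroup A, (∀ x ∈ X, B.map x.toMonoidHom = B) → ∃ i : ℕ, ∀ a : A, a ∈ B ↔ a ^ p ^ i = 1) ↔ (∀ B : Subgroup A, (∀ x ∈ X, B.map x.toMonoidHom = B) → (∀ b ∈ B, b ^ p = 1) → B = ⊥ ∨ ∀ a : A, a ∈ B ↔ a ^ p = 1)) := by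
  classical
  have hp : p.Prime := Fact.out
  obtain ⟨E, hE⟩ := IsPGroup.iff_card.1 hA
  have hpE : ∀ a : A, a ^ p ^ E = 1 := fun a => by rw [← hE]; exact pow_card_eq_one'
  obtain ⟨N', hN⟩ : ∃ N' : ℕ, ∀ a : A, a ^ (Nat.card X * N') = a := by
    by_cases h1 : Nat.card A = 1
    · refine ⟨0, fun a => ?_⟩
      have : Subsingleton A := (Nat.card_eq_one_iff_unique.1 h1).1
      exact Subsingleton.elim _ _
    · have h2 : 1 < Nat.card A := by have := Nat.card_pos (α := A); omega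
      have hcop : (Nat.card X).Coprime (Nat.card A) := by
        rw [hE]; exact Nat.Coprime.pow_right _ hX
      obtain ⟨m, -, hm⟩ := Nat.exists_mul_mod_eq_one_of_coprime hcop h2
      refine ⟨m, fun a => ?_⟩
      rw [← Nat.div_add_mod (Nat.card X * m) (Nat.card A), hm, pow_add, pow_mul,
        pow_card_eq_one', one_pow, one_mul, pow_one]
  simp only [← finv_iff]
  have h13 : (¬ ∃ B C : Subgroup A, B ≠ ⊥ ∧ C ≠ ⊥ ∧ FInv X B ∧ FInv X C ∧ B ⊓ C = ⊥ ∧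
      B ⊔ C = ⊤) → (∀ B : Subgroup A, FInv X B → (∀ b ∈ B, b ^ p = 1) →
      B = ⊥ ∨ ∀ a : A, a ∈ B ↔ a ^ p = 1) := by
    intro hi B hB hBp
    by_cases hB1 : B = ⊥
    · exact Or.inl hB1
    · right
      intro a
      exact ⟨hBp a, irr_of_indec hA X N' hN hi B hB hBp hB1 a⟩
  have h21 : (∀ B : Subgroup A, FInv X B → ∃ i : ℕ, ∀ a : A, a ∈ B ↔ a ^ p ^ i = 1) →
      (¬ ∃ B C : Subgroup A, B ≠ ⊥ ∧ C ≠ ⊥ ∧ FInv X B ∧ FInv X C ∧ B ⊓ C = ⊥ ∧
      B ⊔ C = ⊤) := by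
    rintro h ⟨B, C, hB1, hC1, hB, hC, hBC, -⟩
    obtain ⟨i, hi⟩ := h B hB
    obtain ⟨j, hj⟩ := h C hC
    rcases le_total i j with hij | hij
    · apply hB1
      have hle : B ≤ C := by
        intro a ha
        rw [hj]
        have h5 := (hi a).1 ha
        obtain ⟨d, rfl⟩ := Nat.exists_eq_add_of_le hij
        rw [pow_add, pow_mul, h5, one_pow]
      rw [← hBC]; exact (inf_eq_left.2 hle).symm
    · apply hC1
      have hle : C ≤ B := by
        intro a ha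
        rw [hi]
        have h5 := (hj a).1 ha
        obtain ⟨d, rfl⟩ := Nat.exists_eq_add_of_le hij
        rw [pow_add, pow_mul, h5, one_pow]
      rw [← hBC]; exact (inf_eq_right.2 hle).symm
  have h23 : (∀ B : Subgroup A, FInv X B → ∃ i : ℕ, ∀ a : A, a ∈ B ↔ a ^ p ^ i = 1) →
      (∀ B : Subgroup A, FInv X B → (∀ b ∈ B, b ^ p = 1) →
      B = ⊥ ∨ ∀ a : A, a ∈ B ↔ a ^ p = 1) := by
    intro h B hB hBp
    obtain ⟨i, hi⟩ := h B hB
    rcases Nat.eq_zero_or_pos i with h0 | h0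
    · left
      rw [Subgroup.eq_bot_iff_forall]
      intro b hb
      have h5 := (hi b).1 hb
      rwa [h0, pow_zero, pow_one] at h5
    · right
      intro a
      refine ⟨hBp a, fun ha => (hi a).2 ?_⟩
      obtain ⟨i', rfl⟩ := Nat.exists_eq_succ_of_ne_zero (by omega : i ≠ 0)
      rw [pow_succ', pow_mul, ha, one_pow]
  have h32 : (∀ B : Subgroup A, FInv X B → (∀ b ∈ B, b ^ p = 1) →
      B = ⊥ ∨ ∀ a : A, a ∈ B ↔ a ^ p = 1) →
      (∀ B : Subgroup A, FInv X B → ∃ i : ℕ, ∀ a : A, a ∈ B ↔ a ^ p ^ i = 1) := by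
    intro h B hB
    have hex : ∃ i, ∀ b ∈ B, b ^ p ^ i = 1 := ⟨E, fun b _ => hpE b⟩
    rcases Nat.eq_zero_or_pos (Nat.find hex) with h0 | h0
    · refine ⟨0, fun a => ?_⟩
      have hs := Nat.find_spec hex
      rw [h0] at hs
      constructor
      · intro ha; exact hs a ha
      · intro ha; rw [pow_zero, pow_one] at ha; rw [ha]; exact one_mem _
    · obtain ⟨i', hi'⟩ := Nat.exists_eq_succ_of_ne_zero (by omega : Nat.find hex ≠ 0)
      have hs : ∀ b ∈ B, b ^ p ^ (i' + 1) = 1 := by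
        have h5 := Nat.find_spec hex; rwa [hi'] at h5
      have hm : ¬ ∀ b ∈ B, b ^ p ^ i' = 1 := Nat.find_min hex (by omega)
      push Not at hm
      obtain ⟨b₀, hb₀, hb₀1⟩ := hm
      refine ⟨i' + 1, fun a => ⟨hs a, ?_⟩⟩
      have hVinv : FInv X (B.map (powMonoidHom (p ^ i'))) := finv_map_pow X _ _ hB
      have hVp : ∀ v ∈ B.map (powMonoidHom (p ^ i')), v ^ p = 1 := by
        rintro _ ⟨b, hb, rfl⟩
        rw [powMonoidHom_apply, ← pow_mul, ← pow_succ]; exact hs b hb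
      have hV1 : B.map (powMonoidHom (p ^ i')) ≠ ⊥ := by
        intro hbot
        have h5 : b₀ ^ p ^ i' ∈ B.map (powMonoidHom (p ^ i')) := ⟨b₀, hb₀, rfl⟩
        rw [hbot, Subgroup.mem_bot] at h5
        exact hb₀1 h5
      have hV := (h _ hVinv hVp).resolve_left hV1
      have key : ∀ k, k ≤ i' + 1 → ∀ a : A, a ^ p ^ k = 1 → a ∈ B := by
        intro k
        induction k with
        | zero => intro _ a ha; rw [pow_zero, pow_one] at ha; rw [ha]; exact one_mem _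
        | succ k ih =>
          intro hk a ha
          have h1 : a ^ p ^ k ∈ B.map (powMonoidHom (p ^ i')) := by
            rw [hV, ← pow_mul, ← pow_succ]; exact ha
          obtain ⟨b, hb, hb'⟩ := h1
          rw [powMonoidHom_apply] at hb'
          have h2 : (b ^ p ^ (i' - k)) ^ p ^ k = a ^ p ^ k := by
            rw [← pow_mul, ← pow_add, show i' - k + k = i' by omega]; exact hb'
          have h3 : (a * (b ^ p ^ (i' - k))⁻¹) ^ p ^ k = 1 := by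
            rw [mul_pow, inv_pow, h2, mul_inv_cancel]
          have h4 := ih (by omega) _ h3
          have h5 : a = a * (b ^ p ^ (i' - k))⁻¹ * b ^ p ^ (i' - k) := by
            rw [inv_mul_cancel_right]
          rw [h5]
          exact mul_mem h4 (pow_mem hb _)
      exact key (i' + 1) le_rfl a
  exact ⟨⟨fun h => h32 (h13 h), h21⟩, ⟨h23, h32⟩⟩

end Cfsg.Agent.S3775
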