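-- Statement S3785 (helper1).
import Mathlib
import Cfsg.Statements.S3785
import Cfsg.Agent.Lib.Helper1.FittingOmega

set_option autoImplicit false
open Cfsg

namespace Cfsg.Agent.S3785

/-- Let G be a finite solvable group whose Fitting subgroup F(G) has odd order. If an element g of G commutes with every element of prime order of F(G), then g ∈ F(G). -/
theorem result {G : Type*} [Group G] [Finite G] (hG : Group.IsSolvable G) (hodd : Odd (Nat.card (Cfsg.fittingSubgroup G))) (g : G) (hg : ∀ x ∈ Cfsg.fittingSubgroup G, (orderOf x).Prime → g * x = x * g) : g ∈ Cfsg.fittingSubgroup G := by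
  exact Cfsg.Agent.Lib.Helper1.mem_fitting_of_commute_prime hG hodd g hg

end Cfsg.Agent.S3785
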