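import Mathlib
import Cfsg.Statements.S3790
import Cfsg.Agent.Lib.Helper63.PLength

set_option autoImplicit false
open Cfsg

namespace Cfsg.Agent.S3790

open Cfsg.Agent.Lib.Helper63

/-- `p`-length of the preimage of a subgroup `K` of `G ⧸ A`. -/
theorem step {G : Type*} [Group G] [Finite G] {p : ℕ} [Fact p.Prime] (A : Subgroup G) [A.Normal]
    (K : Subgroup (G ⧸ A)) {a b : ℕ} (ha : PLengthLE p a A) (hb : PLengthLE p b K) :
    PLengthLE p (a + b) ↥(K.comap (QuotientGroup.mk' A)) := by
  let f := (QuotientGroup.mk' A).subgroupComap K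
  have hf : Function.Surjective f :=
    MonoidHom.subgroupComap_surjective_of_surjective _ _ (QuotientGroup.mk'_surjective A)
  refine plengthLE_of_ker f hf ?_ hb
  let g : ↥f.ker →* G := (K.comap (QuotientGroup.mk' A)).subtype.comp f.ker.subtype
  have hg : ∀ x, g x ∈ A := by
    intro x
    have h1 : f x.1 = 1 := x.2
    have h2 : QuotientGroup.mk' A (x.1 : G) = 1 := congrArg Subtype.val h1
    exact (QuotientGroup.eq_one_iff _).1 h2
  refine plengthLE_of_injective (g.codRestrict A hg) ?_ ha
  rw [MonoidHom.injective_codRestrict]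
  exact (Subgroup.subtype_injective _).comp (Subgroup.subtype_injective _)

theorem plengthLE_of_eq {G : Type*} [Group G] [Finite G] {p : ℕ} [Fact p.Prime]
    {A B : Subgroup G} (h : A = B) {k : ℕ} (hA : PLengthLE p k A) : PLengthLE p k B := by
  subst h; exact hA

theorem main.{u} (p : ℕ) [Fact p.Prime] (r : ℕ) :
    ∀ (G : Type u) [Group G] [Finite G] (q : Fin r → ℕ), (∀ i, (q i).Prime ∧ q i ≠ p) →
      (∀ s : ℕ, s.Prime → s ∣ Nat.card G → s ≠ p → ∃ i, q i = s) → ∀ (l : Fin r → ℕ),
      (∀ i, Cfsg.PLengthLE (q i) (l i) G) →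
      Cfsg.PLengthLE p (Finset.univ.prod fun i => 1 + l i) G := by
  have hp : p.Prime := Fact.out
  induction r with
  | zero =>
    intro G _ _ q hq hcover l hl
    have hpg : IsPGroup p G := by
      apply IsPGroup.of_card (n := (Nat.card G).primeFactorsList.length)
      apply Nat.eq_prime_pow_of_unique_prime_dvd Nat.card_pos.ne'
      intro s hs hsd
      by_contra hne
      obtain ⟨i, _⟩ := hcover s hs hsd hne
      exact i.elim0
    simpa using plengthLE_one_of_isPGroup hpg
  | succ r ih =>
    intro G _ _ q hq hcover l hl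
    rw [Fin.prod_univ_castSucc]
    set m := Finset.univ.prod fun i : Fin r => 1 + l i.castSucc with hm
    set q₀ := q (Fin.last r) with hq₀
    have hq₀p : q₀.Prime := (hq _).1
    have := Fact.mk hq₀p
    -- sections with order prime to q₀ have p-length ≤ m
    have hsec : ∀ (A : Subgroup G) [A.Normal] (K : Subgroup (G ⧸ A)),
        (Nat.card K).Coprime q₀ → PLengthLE p m K := by
      intro A _ K hK
      refine ih ↥K (fun i => q i.castSucc) (fun i => hq _) ?_ (fun i => l i.castSucc) ?_
      · intro s hs hsd hsp
        have h1 : s ∣ Nat.card G :=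
          hsd.trans ((Subgroup.card_subgroup_dvd_card K).trans (Subgroup.card_quotient_dvd_card A))
        obtain ⟨i, hi⟩ := hcover s hs h1 hsp
        have hne : i ≠ Fin.last r := by
          rintro rfl
          have h2 : q₀ ∣ Nat.card K := by rw [hq₀, hi]; exact hsd
          exact (Nat.Prime.coprime_iff_not_dvd hq₀p).1 (Nat.coprime_comm.1 hK) h2
        exact ⟨i.castPred hne, by simpa using hi⟩
      · intro i
        have := Fact.mk (hq i.castSucc).1
        exact plengthLE_subgroup K (plengthLE_quotient A (hl i.castSucc))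
    have claim : ∀ n, PLengthLE p (((n + 1) / 2) * m) ↥(U q₀ G n) := by
      intro n
      induction n with
      | zero =>
        have h0 : (0 + 1) / 2 * m = 0 := by simp
        rw [h0, plengthLE_zero_iff]
        have h1 : U q₀ G 0 = ⊥ := U_zero q₀ G
        rw [h1, Subgroup.card_bot]
        exact Nat.coprime_one_left p
      | succ n ihn =>
        by_cases hev : Even n
        · have h1 := step (U q₀ G n) (pPrimeCore q₀ (G ⧸ U q₀ G n)) ihn
            (hsec _ _ (card_pPrimeCore_coprime' q₀ _))
          have h2 := plengthLE_of_eq (U_succ_even q₀ G hev).symm h1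
          have h3 : (n + 1 + 1) / 2 * m = (n + 1) / 2 * m + m := by
            have : (n + 1 + 1) / 2 = (n + 1) / 2 + 1 := by
              have := Nat.even_iff.1 hev
              omega
            rw [this]; ring
          rw [h3]; exact h2
        · have hK : PLengthLE p 0 ↥(pCore q₀ (G ⧸ U q₀ G n)) := by
            rw [plengthLE_zero_iff]
            obtain ⟨k, hk⟩ := (IsPGroup.iff_card).1 (pCore_isPGroup' q₀ (G ⧸ U q₀ G n))
            rw [hk]
            apply Nat.Coprime.pow_left
            rw [Nat.coprime_primes hq₀p hp]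
            exact (hq _).2
          have h1 := step (U q₀ G n) (pCore q₀ (G ⧸ U q₀ G n)) ihn hK
          have h2 := plengthLE_of_eq (U_succ_odd q₀ G hev).symm h1
          have h3 : (n + 1 + 1) / 2 * m = (n + 1) / 2 * m + 0 := by
            have : (n + 1 + 1) / 2 = (n + 1) / 2 := by
              have := Nat.even_iff.not.1 hev
              omega
            rw [this]; ring
          rw [h3]; exact h2
    have h1 := claim (2 * l (Fin.last r) + 1)
    have h2 : U q₀ G (2 * l (Fin.last r) + 1) = ⊤ := hl (Fin.last r)
    have h3 := plengthLE_of_mulEquiv Subgroup.topEquiv (plengthLE_of_eq h2 h1)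
    have h4 : (2 * l (Fin.last r) + 1 + 1) / 2 * m = m * (1 + l (Fin.last r)) := by
      have : (2 * l (Fin.last r) + 1 + 1) / 2 = 1 + l (Fin.last r) := by omega
      rw [this]; ring
    rw [← h4]; exact h3

/-- Let G be a finite solvable group and p a prime. Suppose p₁, …, p_r are distinct primes, all different from p, that include every prime dividing the order of G other than p, and that G has p_i-length at most l_i for each i. Then G has p-length at most the product of the numbers 1 + l_i. -/
theorem result {G : Type*} [Group G] [Finite G] (hG : Group.IsSolvable G) (p : ℕ) [Fact p.Prime] (r : ℕ) (q : Fin r → ℕ) (hq : ∀ i, (q i).Prime ∧ q i ≠ p) (hinj : Function.Injective q) (hcover : ∀ s : ℕ, s.Prime → s ∣ Nat.card G → s ≠ p → ∃ i, q i = s) (l : Fin r → ℕ) (hl : ∀ i, Cfsg.PLengthLE (q i) (l i) G) : Cfsg.PLengthLE p (Finset.univ.prod fun i => 1 + l i) G := by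
  exact main p r G q hq hcover l hl

end Cfsg.Agent.S3790
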