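import Mathlib
import Cfsg.Statements.S3791
import Cfsg.Agent.Lib.Helper63.PLength

set_option autoImplicit false
open Cfsg

namespace Cfsg.Agent.S3791

open Cfsg.Agent.Lib.Helper63

theorem derivedSeries_le_of_quotient {G : Type*} [Group G] (N : Subgroup G) [N.Normal] (a : ℕ)
    (ha : derivedSeries (G ⧸ N) a = ⊥) : derivedSeries G a ≤ N := by
  have h := map_derivedSeries_eq (f := QuotientGroup.mk' N) (QuotientGroup.mk'_surjective N) a
  rw [ha, Subgroup.map_eq_bot_iff, QuotientGroup.ker_mk'] at h
  exact h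

/-- derived length of an extension. -/
theorem derivedSeries_add_of_quotient {G : Type*} [Group G] (N : Subgroup G) [N.Normal] (a b : ℕ)
    (ha : derivedSeries (G ⧸ N) a = ⊥) (hb : derivedSeries N b = ⊥) :
    derivedSeries G (a + b) = ⊥ := by
  have h1 : derivedSeries G a ≤ N := derivedSeries_le_of_quotient N a ha
  have h2 : ∀ j, derivedSeries G (a + j) ≤ (derivedSeries N j).map N.subtype := by
    intro j
    induction j with
    | zero =>
      rw [derivedSeries_zero, ← MonoidHom.range_eq_map, Subgroup.range_subtype]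
      exact h1
    | succ j ih =>
      rw [← add_assoc, derivedSeries_succ, derivedSeries_succ, Subgroup.map_commutator]
      exact Subgroup.commutator_mono ih ih
  have h3 := h2 b
  rw [hb, Subgroup.map_bot] at h3
  exact le_bot_iff.1 h3

theorem derivedSeries_eq_bot_of_quotients {G : Type*} [Group G] (N M : Subgroup G) [N.Normal]
    [M.Normal] (h : N ⊓ M = ⊥) (a : ℕ) (hN : derivedSeries (G ⧸ N) a = ⊥)
    (hM : derivedSeries (G ⧸ M) a = ⊥) : derivedSeries G a = ⊥ := by
  rw [← le_bot_iff, ← h]
  exact le_inf (derivedSeries_le_of_quotient N a hN) (derivedSeries_le_of_quotient M a hM)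

theorem derived_sylow_quotient {G : Type*} [Group G] [Finite G] (N : Subgroup G) [N.Normal]
    (q : ℕ) (hq : q.Prime) (d : ℕ)
    (hd : ∀ P : Subgroup G, (∃ S : Sylow q G, (S : Subgroup G) = P) → derivedSeries ↥P d = ⊥) :
    ∀ P : Subgroup (G ⧸ N), (∃ S : Sylow q (G ⧸ N), (S : Subgroup (G ⧸ N)) = P) →
      derivedSeries ↥P d = ⊥ := by
  intro P hP
  have := Fact.mk hq
  obtain ⟨S, rfl⟩ := hP
  obtain ⟨T, rfl⟩ := Sylow.mapSurjective_surjective (QuotientGroup.mk'_surjective N) q S
  have h1 := hd T ⟨T, rfl⟩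
  have h2 := map_derivedSeries_eq (f := (QuotientGroup.mk' N).subgroupMap (T : Subgroup G))
    (MonoidHom.subgroupMap_surjective _ _) d
  rw [h1, Subgroup.map_bot] at h2
  exact h2.symm

theorem derivedSeries_eq_bot_of_le {G : Type*} [Group G] {A B : Subgroup G} (h : A ≤ B) (d : ℕ)
    (hB : derivedSeries ↥B d = ⊥) : derivedSeries ↥A d = ⊥ := by
  have h1 := map_derivedSeries_le_derivedSeries (Subgroup.inclusion h) d
  rw [hB, le_bot_iff, Subgroup.map_eq_bot_iff_of_injective _ (Subgroup.inclusion_injective h)] at h1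
  exact h1

/-- a nontrivial finite solvable group has a nontrivial `O_p`. -/
theorem exists_pCore_ne_bot (G : Type*) [Group G] [Finite G] [Nontrivial G]
    (hsol : Group.IsSolvable G) : ∃ p : ℕ, p.Prime ∧ pCore p G ≠ ⊥ := by
  classical
  obtain ⟨n, hn⟩ := hsol.solvable
  have hex : ∃ n, derivedSeries G n = ⊥ := ⟨n, hn⟩
  have hfind := Nat.find_spec hex
  have hpos : Nat.find hex ≠ 0 := by
    intro h0
    rw [h0, derivedSeries_zero] at hfind
    exact top_ne_bot hfind
  obtain ⟨m, hm⟩ := Nat.exists_eq_succ_of_ne_zero hpos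
  have hA : derivedSeries G m ≠ ⊥ := Nat.find_min hex (by omega)
  rw [hm, Nat.succ_eq_add_one, derivedSeries_succ] at hfind
  set A := derivedSeries G m with hAdef
  have hAn : A.Normal := derivedSeries_normal G m
  have hcomm : ∀ a ∈ A, ∀ b ∈ A, a * b = b * a := by
    intro a ha b hb
    have h1 := (Subgroup.commutator_eq_bot_iff_le_centralizer.1 hfind) ha
    rw [Subgroup.mem_centralizer_iff] at h1
    exact (h1 b hb).symm
  have hcard : Nat.card A ≠ 1 := by
    intro h1
    exact hA (Subgroup.eq_bot_of_card_eq A h1)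
  obtain ⟨p, hp, hpd⟩ := Nat.exists_prime_and_dvd hcard
  have := Fact.mk hp
  obtain ⟨S⟩ := (inferInstance : Nonempty (Sylow p A))
  have hSn : (S : Subgroup A).Normal := by
    constructor
    intro x hx g
    have : g * x * g⁻¹ = x := by
      apply Subtype.ext
      have h2 := hcomm g g.2 x x.2
      simp only [Subgroup.coe_mul, Subgroup.coe_inv]
      rw [h2]; group
    rw [this]; exact hx
  haveI : (S : Subgroup A).Characteristic := Sylow.characteristic_of_normal S hSn
  have hSG : ((S : Subgroup A).map A.subtype).Normal := ConjAct.normal_of_characteristic_of_normal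
  have hSp : IsPGroup p ((S : Subgroup A).map A.subtype) := S.isPGroup'.map A.subtype
  have hSne : (S : Subgroup A).map A.subtype ≠ ⊥ := by
    rw [Ne, Subgroup.map_eq_bot_iff_of_injective _ A.subtype_injective]
    exact Sylow.ne_bot_of_dvd_card S hpd
  refine ⟨p, hp, fun h => hSne ?_⟩
  have := le_pCore' hSG hSp
  rw [h] at this
  exact le_bot_iff.1 this

theorem main.{u} (r : ℕ) (q : Fin r → ℕ) (hq : ∀ i, (q i).Prime) (d : Fin r → ℕ) :
    ∀ (c : ℕ) (G : Type u) [Group G] [Finite G], Nat.card G = c → Group.IsSolvable G →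
      (∀ s : ℕ, s.Prime → s ∣ Nat.card G → ∃ i, q i = s) → ∀ (l : Fin r → ℕ),
      (∀ i, ∀ P : Subgroup G, (∃ S : Sylow (q i) G, (S : Subgroup G) = P) →
        derivedSeries ↥P (d i) = ⊥) →
      (∀ i, Cfsg.PLengthLE (q i) (l i) G) →
      derivedSeries G (Finset.univ.sum fun i => d i * l i) = ⊥ := by
  intro c
  induction c using Nat.strong_induction_on with
  | _ c ih =>
  intro G _ _ hc hsol hcover l hd hl
  by_cases htriv : Subsingleton G
  · exact Subsingleton.elim _ _
  rw [not_subsingleton_iff_nontrivial] at htriv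
  obtain ⟨p, hp, hP⟩ := exists_pCore_ne_bot G hsol
  have := Fact.mk hp
  have hPp := pCore_isPGroup' p G
  obtain ⟨k, hk⟩ := (IsPGroup.iff_card).1 hPp
  have hpd : p ∣ Nat.card G := by
    have hk0 : k ≠ 0 := by
      rintro rfl
      rw [pow_zero] at hk
      exact hP (Subgroup.eq_bot_of_card_eq _ hk)
    exact (dvd_pow_self p hk0).trans (hk ▸ Subgroup.card_subgroup_dvd_card _)
  obtain ⟨i₀, hi₀⟩ := hcover p hp hpd
  -- facts on quotients
  have hquot : ∀ (N : Subgroup G) [N.Normal], N ≠ ⊥ → ∀ l' : Fin r → ℕ,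
      (∀ i, Cfsg.PLengthLE (q i) (l' i) (G ⧸ N)) →
      derivedSeries (G ⧸ N) (Finset.univ.sum fun i => d i * l' i) = ⊥ := by
    intro N _ hN l' hl'
    have hcard : Nat.card (G ⧸ N) < c := by
      have h1 := Subgroup.card_eq_card_quotient_mul_card_subgroup N
      have h2 : 1 < Nat.card N := (Subgroup.one_lt_card_iff_ne_bot N).2 hN
      have h3 : 0 < Nat.card (G ⧸ N) := Nat.card_pos
      rw [← hc, h1]
      nlinarith
    have := hsol
    refine ih _ hcard (G ⧸ N) rfl inferInstance ?_ l' ?_ hl'
    · intro s hs hsd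
      exact hcover s hs (hsd.trans (Subgroup.card_quotient_dvd_card N))
    · intro i
      exact derived_sylow_quotient N (q i) (hq i) (d i) (hd i)
  by_cases hM : pPrimeCore p G = ⊥
  · -- shift
    have hl0 : l i₀ ≠ 0 := by
      intro h0
      have h1 := hl i₀
      rw [h0, hi₀] at h1
      have h2 := (plengthLE_zero_iff (p := p) (G := G)).1 h1
      exact (Nat.Prime.coprime_iff_not_dvd hp).1 (Nat.coprime_comm.1 h2) hpd
    obtain ⟨k', hk'⟩ := Nat.exists_eq_succ_of_ne_zero hl0
    have hl' : ∀ i, Cfsg.PLengthLE (q i) (Function.update l i₀ k' i) (G ⧸ pCore p G) := by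
      intro i
      by_cases hi : i = i₀
      · subst hi
        rw [Function.update_self]
        have h1 := hl i
        rw [hk', hi₀] at h1
        rw [hi₀]
        exact plengthLE_shift hM h1
      · rw [Function.update_of_ne hi]
        have := Fact.mk (hq i)
        exact plengthLE_quotient _ (hl i)
    have h1 := hquot (pCore p G) hP _ hl'
    have h2 : derivedSeries ↥(pCore p G) (d i₀) = ⊥ := by
      obtain ⟨S⟩ := (inferInstance : Nonempty (Sylow p G))
      have h3 : derivedSeries ↥(S : Subgroup G) (d i₀) = ⊥ := by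
        apply hd i₀
        rw [hi₀]
        exact ⟨S, rfl⟩
      exact derivedSeries_eq_bot_of_le (pCore_le_sylow' p S) _ h3
    have h3 := derivedSeries_add_of_quotient (pCore p G) _ _ h1 h2
    have h4 : (Finset.univ.sum fun i => d i * l i)
        = (Finset.univ.sum fun i => d i * Function.update l i₀ k' i) + d i₀ := by
      rw [← Finset.add_sum_erase Finset.univ (fun i => d i * l i) (Finset.mem_univ i₀),
        ← Finset.add_sum_erase Finset.univ (fun i => d i * Function.update l i₀ k' i)
          (Finset.mem_univ i₀)]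
      have h5 : ∀ i ∈ Finset.univ.erase i₀, d i * Function.update l i₀ k' i = d i * l i := by
        intro i hi
        rw [Function.update_of_ne (Finset.ne_of_mem_erase hi)]
      rw [Finset.sum_congr rfl h5, Function.update_self, hk', Nat.succ_eq_add_one]
      ring
    rw [h4]
    exact h3
  · have hl' : ∀ (N : Subgroup G) [N.Normal], ∀ i, Cfsg.PLengthLE (q i) (l i) (G ⧸ N) := by
      intro N _ i
      have := Fact.mk (hq i)
      exact plengthLE_quotient _ (hl i)
    have h1 := hquot (pCore p G) hP l (hl' _)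
    have h2 := hquot (pPrimeCore p G) hM l (hl' _)
    refine derivedSeries_eq_bot_of_quotients (pCore p G) (pPrimeCore p G) ?_ _ h1 h2
    have h3 : Nat.card ↥(pCore p G ⊓ pPrimeCore p G) ∣ Nat.card (pCore p G) :=
      Subgroup.card_dvd_of_le inf_le_left
    have h4 : Nat.card ↥(pCore p G ⊓ pPrimeCore p G) ∣ Nat.card (pPrimeCore p G) :=
      Subgroup.card_dvd_of_le inf_le_right
    have h5 : (Nat.card (pPrimeCore p G)).Coprime (p ^ k) :=
      Nat.Coprime.pow_right k (card_pPrimeCore_coprime' p G)
    rw [hk] at h3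
    exact Subgroup.eq_bot_of_card_eq _ (Nat.Coprime.eq_one_of_dvd (Nat.Coprime.coprime_dvd_left h4 h5) h3)

/-- The Hall–Higman bound on derived length: let G be a finite solvable group, let p₁, …, p_r be distinct primes that include every prime dividing the order of G, and suppose that for each i the Sylow p_i-subgroups of G have derived length at most d_i and G has p_i-length at most l_i. Then G has derived length at most Σ d_i l_i. -/
theorem result {G : Type*} [Group G] [Finite G] (hG : Group.IsSolvable G) (r : ℕ) (q : Fin r → ℕ) (hq : ∀ i, (q i).Prime) (hinj : Function.Injective q) (hcover : ∀ s : ℕ, s.Prime → s ∣ Nat.card G → ∃ i, q i = s) (d l : Fin r → ℕ) (hd : ∀ i, ∀ P : Subgroup G, (haveI := Fact.mk (hq i); ∃ S : Sylow (q i) G, (S : Subgroup G) = P) → derivedSeries ↥P (d i) = ⊥) (hl : ∀ i, Cfsg.PLengthLE (q i) (l i) G) : derivedSeries G (Finset.univ.sum fun i => d i * l i) = ⊥ := by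
  exact main r q hq d (Nat.card G) G rfl hG hcover l hd hl

end Cfsg.Agent.S3791
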