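import Mathlib
import Cfsg.Statements.S3794
import Cfsg.Agent.S0044
import Cfsg.Agent.S0009
import Cfsg.Agent.S0070
import Cfsg.Agent.Lib.Helper90.Frattini
import Cfsg.Agent.Lib.Helper71.Fitting
import Cfsg.Agent.Lib.Helper63.HallHigman
import Cfsg.Agent.Lib.Helper63.PLength

set_option autoImplicit false
open Cfsg
open scoped commutatorElement

namespace Cfsg.Agent.S3794

theorem lam_surj {K : Type*} [Group K] [Finite K] (s : K →* K) (M : Subgroup K)
    (hM : ∀ k ∈ M, s k ∈ M) (hfp : ∀ k ∈ M, s k = k → k = 1) :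
    ∀ m ∈ M, ∃ y ∈ M, y⁻¹ * s y = m := by
  have hinj : Function.Injective (fun y : M => (⟨(y : K)⁻¹ * s y, M.mul_mem (M.inv_mem y.2) (hM y y.2)⟩ : M)) := by
    intro y y' h
    have h1 : (y : K)⁻¹ * s y = (y' : K)⁻¹ * s y' := congrArg Subtype.val h
    have h2 : s ((y' : K) * (y : K)⁻¹) = (y' : K) * (y : K)⁻¹ := by
      rw [map_mul, map_inv]
      have : s (y' : K) = (y' : K) * ((y : K)⁻¹ * s y) := by rw [h1]; group
      rw [this]; group
    have h3 := hfp _ (M.mul_mem y'.2 (M.inv_mem y.2)) h2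
    exact Subtype.ext (mul_inv_eq_one.1 h3).symm
  have hsurj := Finite.surjective_of_injective hinj
  intro m hm
  obtain ⟨y, hy⟩ := hsurj ⟨m, hm⟩
  exact ⟨y, y.2, congrArg Subtype.val hy⟩

theorem mem_of_lam_mem {K : Type*} [Group K] [Finite K] (s : K →* K) (M Q : Subgroup K)
    (hM : ∀ k ∈ M, s k ∈ M) (hMQ : M ≤ Q) (hfp : ∀ k ∈ Q, s k = k → k = 1)
    (e : K) (heQ : e ∈ Q) (h : e⁻¹ * s e ∈ M) : e ∈ M := by
  obtain ⟨y, hy, hye⟩ := lam_surj s M hM (fun k hk => hfp k (hMQ hk)) _ h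
  have h2 : s (e * y⁻¹) = e * y⁻¹ := by
    rw [map_mul, map_inv]
    have : s e = e * (y⁻¹ * s y) := by rw [hye]; group
    rw [this]; group
  have h3 := hfp _ (Q.mul_mem heQ (Q.inv_mem (hMQ hy))) h2
  rw [mul_inv_eq_one.1 h3]; exact hy

theorem eq_one_of_sq {H : Type*} [Group H] (q j : ℕ) (hq : q.Prime) (hq2 : q ≠ 2) (y : H)
    (h1 : y ^ (q ^ j) = 1) (h2 : y * y = 1) : y = 1 := by
  have h3 : orderOf y ∣ q ^ j := orderOf_dvd_of_pow_eq_one h1
  have h4 : orderOf y ∣ 2 := orderOf_dvd_of_pow_eq_one (by rw [pow_two]; exact h2)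
  have hc : Nat.Coprime (q ^ j) 2 :=
    Nat.Coprime.pow_left j ((Nat.coprime_primes hq Nat.prime_two).2 hq2)
  have h5 : orderOf y = 1 := Nat.eq_one_of_dvd_coprimes hc h3 h4
  exact orderOf_eq_one_iff.1 h5

theorem reindex {W : Type*} [CommGroup W] (A : Subgroup (MulAut W)) [Fintype A] (h : MulAut W)
    (hnorm : ∀ a ∈ A, h * a * h⁻¹ ∈ A) (hfp : ∀ c ∈ A, h * c * h⁻¹ = c → c = 1) (x : W) :
    ∏ a : A, ((a : MulAut W) * h * (a : MulAut W)⁻¹) x = ∏ a : A, (a : MulAut W) (h x) := by
  have hinj : Function.Injective (fun a : A => (⟨(a : MulAut W) * (h * a * h⁻¹)⁻¹,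
      A.mul_mem a.2 (A.inv_mem (hnorm a a.2))⟩ : A)) := by
    intro a a' hh
    have h1 : (a : MulAut W) * (h * a * h⁻¹)⁻¹ = (a' : MulAut W) * (h * a' * h⁻¹)⁻¹ :=
      congrArg Subtype.val hh
    have h2 : h * ((a' : MulAut W)⁻¹ * a) * h⁻¹ = (a' : MulAut W)⁻¹ * a := by
      have : (a : MulAut W) = (a' : MulAut W) * (h * a' * h⁻¹)⁻¹ * (h * a * h⁻¹) := by
        rw [← h1]; group
      conv_rhs => rw [this]
      group
    have h3 := hfp _ (A.mul_mem (A.inv_mem a'.2) a.2) h2
    exact Subtype.ext (inv_mul_eq_one.1 h3).symm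
  have hbij : Function.Bijective (fun a : A => (⟨(a : MulAut W) * (h * a * h⁻¹)⁻¹,
      A.mul_mem a.2 (A.inv_mem (hnorm a a.2))⟩ : A)) :=
    ⟨hinj, Finite.surjective_of_injective hinj⟩
  refine Fintype.prod_bijective _ hbij _ _ ?_
  intro a
  simp [MulAut.mul_apply, mul_assoc]


theorem lemFP {W : Type*} [CommGroup W] [Finite W] (A : Subgroup (MulAut W)) [Finite A]
    (f : MulAut W) (hf4 : ∀ w, f (f (f (f w))) = w) (hfpf : ∀ w, f w = w → w = 1)
    (hnorm : ∀ a ∈ A, f * a * f⁻¹ ∈ A)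
    (hinv : ∀ a ∈ A, f * f * a * (f * f)⁻¹ = a⁻¹)
    (hsq : ∀ a ∈ A, a * a = 1 → a = 1)
    (hcop : (Nat.card A).Coprime (Nat.card W)) : ∀ a ∈ A, a = 1 := by
  classical
  haveI : Fintype A := Fintype.ofFinite A
  have hN : ∀ w : W, w * f w * f (f w) * f (f (f w)) = 1 := by
    intro w
    apply hfpf
    rw [map_mul, map_mul, map_mul, hf4, mul_comm (f w * f (f w) * f (f (f w))) w]
    simp only [mul_assoc]
  set f2 : MulAut W := f * f with hf2
  set f3 : MulAut W := f * f * f with hf3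
  have hn2 : ∀ a ∈ A, f2 * a * f2⁻¹ ∈ A := by
    intro a ha
    have := hnorm _ (hnorm a ha)
    have e : f * (f * a * f⁻¹) * f⁻¹ = f2 * a * f2⁻¹ := by rw [hf2]; group
    rw [e] at this; exact this
  have hn3 : ∀ a ∈ A, f3 * a * f3⁻¹ ∈ A := by
    intro a ha
    have := hnorm _ (hn2 a ha)
    have e : f * (f2 * a * f2⁻¹) * f⁻¹ = f3 * a * f3⁻¹ := by rw [hf2, hf3]; group
    rw [e] at this; exact this
  have hp2 : ∀ c ∈ A, f2 * c * f2⁻¹ = c → c = 1 := by
    intro c hc h
    rw [hinv c hc] at h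
    apply hsq c hc
    have h' := congrArg (· * c) h
    simpa using h'.symm
  have hp1 : ∀ c ∈ A, f * c * f⁻¹ = c → c = 1 := by
    intro c hc h
    apply hp2 c hc
    calc f2 * c * f2⁻¹ = f * (f * c * f⁻¹) * f⁻¹ := by rw [hf2]; group
      _ = c := by rw [h, h]
  have hp3 : ∀ c ∈ A, f3 * c * f3⁻¹ = c → c = 1 := by
    intro c hc h
    have e : f3 * c * f3⁻¹ = f2 * (f * c * f⁻¹) * f2⁻¹ := by rw [hf2, hf3]; group
    rw [e, hinv _ (hnorm c hc)] at h
    apply hp2 c hc
    have h' : f * c * f⁻¹ = c⁻¹ := inv_eq_iff_eq_inv.1 h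
    calc f2 * c * f2⁻¹ = f * (f * c * f⁻¹) * f⁻¹ := by rw [hf2]; group
      _ = f * c⁻¹ * f⁻¹ := by rw [h']
      _ = (f * c * f⁻¹)⁻¹ := by group
      _ = c := by rw [h']; simp
  have key : ∀ w : W, w ^ (Fintype.card A) = ∏ a : A, (a : MulAut W) w := by
    intro w
    have e1 : ∏ a : A, (w * ((a : MulAut W) * f * (a : MulAut W)⁻¹) w *
        ((a : MulAut W) * f2 * (a : MulAut W)⁻¹) w * ((a : MulAut W) * f3 * (a : MulAut W)⁻¹) w) = 1 := by
      apply Finset.prod_eq_one
      intro a _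
      have := congrArg (a : MulAut W) (hN ((a : MulAut W)⁻¹ w))
      simp only [map_mul, map_one] at this
      rw [← this]
      simp [MulAut.mul_apply, hf2, hf3]
    rw [Finset.prod_mul_distrib, Finset.prod_mul_distrib, Finset.prod_mul_distrib,
      reindex A f hnorm hp1, reindex A f2 hn2 hp2, reindex A f3 hn3 hp3] at e1
    have e3 : ∏ a : A, ((a : MulAut W) w * (a : MulAut W) (f w) * (a : MulAut W) (f2 w) *
        (a : MulAut W) (f3 w)) = 1 := by
      apply Finset.prod_eq_one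
      intro a _
      have := congrArg (a : MulAut W) (hN w)
      simp only [map_mul, map_one] at this
      rw [← this]
      simp [MulAut.mul_apply, hf2, hf3]
    rw [Finset.prod_mul_distrib, Finset.prod_mul_distrib, Finset.prod_mul_distrib] at e3
    rw [Finset.prod_const, Finset.card_univ] at e1
    exact mul_right_cancel (mul_right_cancel (mul_right_cancel (e1.trans e3.symm)))
  intro b hb
  ext w
  have h1 : b (∏ a : A, (a : MulAut W) w) = ∏ a : A, (a : MulAut W) w := by
    rw [map_prod]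
    exact Fintype.prod_equiv (Equiv.mulLeft (⟨b, hb⟩ : A)) _ _ (fun a => rfl)
  rw [← key, map_pow] at h1
  have h2 : (b w * w⁻¹) ^ (Fintype.card A) = 1 := by rw [mul_pow, h1, inv_pow, mul_inv_cancel]
  have h3 : orderOf (b w * w⁻¹) ∣ Fintype.card A := orderOf_dvd_of_pow_eq_one h2
  have h4 : orderOf (b w * w⁻¹) ∣ Nat.card W := orderOf_dvd_natCard _
  rw [← Nat.card_eq_fintype_card] at h3
  have h5 := Nat.eq_one_of_dvd_coprimes hcop h3 h4
  have h6 := orderOf_eq_one_iff.1 h5
  simpa [mul_inv_eq_one] using h6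


theorem lemC2 {W : Type*} [CommGroup W] [Finite W] (f z : MulAut W)
    (hf4 : ∀ w, f (f (f (f w))) = w) (hfpf : ∀ w, f w = w → w = 1)
    (hfz : f * z * f⁻¹ = z⁻¹)
    (n : ℕ) (hzn : z ^ n = 1) (hn2 : Nat.Coprime 2 n) (hnW : n.Coprime (Nat.card W))
    (B : Set (MulAut W)) (hBz : ∀ b ∈ B, b * z = z * b)
    (hz : ∀ u : W, (∀ b ∈ B, (b⁻¹ * (f * f * b * (f * f)⁻¹)) u = u) → z u = u) : z = 1 := by
  have h1 : ∀ w, f (z w) = z⁻¹ (f w) := by
    intro w
    have e : f * z = z⁻¹ * f := by rw [← hfz]; group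
    have := congrArg (fun g : MulAut W => g w) e
    simpa [MulAut.mul_apply] using this
  have h1' : ∀ w, f (z⁻¹ w) = z (f w) := by
    intro w
    have e2 : f * z⁻¹ * f⁻¹ = z := by
      calc f * z⁻¹ * f⁻¹ = (f * z * f⁻¹)⁻¹ := by group
        _ = z⁻¹⁻¹ := by rw [hfz]
        _ = z := inv_inv z
    have e : f * z⁻¹ = z * f := by
      calc f * z⁻¹ = (f * z⁻¹ * f⁻¹) * f := by group
        _ = z * f := by rw [e2]
    have := congrArg (fun g : MulAut W => g w) e
    simpa [MulAut.mul_apply] using this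
  have htz : ∀ w, f (f (z w)) = z (f (f w)) := by
    intro w; rw [h1, h1']
  have ha : ∀ w, f (f w) = w → f w = w⁻¹ := by
    intro w hw
    have : f (w * f w) = w * f w := by rw [map_mul, hw, mul_comm]
    exact eq_inv_of_mul_eq_one_right (hfpf _ this)
  have hb : ∀ w, f (f w) = w → z w = w := by
    intro w hw
    have hzw : f (f (z w)) = z w := by rw [htz, hw]
    have e1 := ha (z w) hzw
    rw [h1, ha w hw, map_inv, inv_inj] at e1
    have e2 : z (z w) = w := by rw [← e1]; simp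
    have hpow : ∀ m : ℕ, (z ^ (2 * m)) w = w := by
      intro m
      induction m with
      | zero => simp
      | succ m ih =>
        have : z ^ (2 * (m + 1)) = z ^ (2 * m) * z * z := by
          rw [show 2 * (m + 1) = 2 * m + 1 + 1 by ring, pow_succ, pow_succ]
        rw [this, MulAut.mul_apply, MulAut.mul_apply, e2, ih]
    rcases Nat.lt_or_ge 1 n with hn | hn
    · obtain ⟨m, -, hm⟩ := Nat.exists_mul_mod_eq_one_of_coprime hn2 hn
      have := hpow m
      rw [pow_eq_pow_mod (2 * m) hzn, hm, pow_one] at this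
      exact this
    · have hn0 : n ≠ 0 := by
        rintro rfl
        simp at hn2
      have : n = 1 := by omega
      rw [this, pow_one] at hzn
      rw [hzn]; rfl
  have hc : ∀ w, f (f (z w * w⁻¹)) = (z w * w⁻¹)⁻¹ := by
    intro w
    have hfix : f (f (w * f (f w))) = w * f (f w) := by
      rw [map_mul, map_mul, hf4, mul_comm]
    have H := hb _ hfix
    rw [map_mul] at H
    rw [map_mul, map_mul, map_inv, map_inv, htz, mul_inv_rev, inv_inv]
    calc z (f (f w)) * (f (f w))⁻¹ = (z w)⁻¹ * (z w * z (f (f w))) * (f (f w))⁻¹ := by group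
      _ = (z w)⁻¹ * (w * f (f w)) * (f (f w))⁻¹ := by rw [H]
      _ = w * (z w)⁻¹ := by rw [mul_assoc, mul_inv_cancel_right, mul_comm]
  have hd : ∀ w, z (z w * w⁻¹) = z w * w⁻¹ := by
    intro w
    apply hz
    intro b hb'
    have hbz : ∀ x, b (z x) = z (b x) := by
      intro x
      have := congrArg (fun g : MulAut W => g x) (hBz b hb')
      simpa [MulAut.mul_apply] using this
    have hbu : b (z w * w⁻¹) = z (b w) * (b w)⁻¹ := by rw [map_mul, map_inv, hbz]
    have hti : (f * f)⁻¹ (z w * w⁻¹) = (z w * w⁻¹)⁻¹ := by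
      apply (f * f).injective
      rw [MulAut.apply_inv_self, MulAut.mul_apply, map_inv, map_inv, hc, inv_inv]
    rw [MulAut.mul_apply, MulAut.mul_apply, MulAut.mul_apply, MulAut.mul_apply, hti, map_inv,
      hbu, map_inv, map_inv, hc, inv_inv, ← hbu, MulAut.inv_apply_self]
  ext w
  have hpow : ∀ j : ℕ, (z ^ j) w = w * (z w * w⁻¹) ^ j := by
    intro j
    induction j with
    | zero => simp
    | succ j ih =>
      have hu : w * (z w * w⁻¹) = z w := by rw [mul_comm (z w), mul_inv_cancel_left]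
      rw [pow_succ', MulAut.mul_apply, ih, map_mul, map_pow, hd, pow_succ, ← mul_assoc,
        mul_right_comm, hu]
  have h2 := hpow n
  rw [hzn] at h2
  have h3 : (z w * w⁻¹) ^ n = 1 := by
    have : w * (z w * w⁻¹) ^ n = w * 1 := by rw [mul_one]; exact h2.symm
    exact mul_left_cancel this
  have h4 := Nat.eq_one_of_dvd_coprimes hnW (orderOf_dvd_of_pow_eq_one h3) (orderOf_dvd_natCard _)
  have h5 := orderOf_eq_one_iff.1 h4
  simpa [mul_inv_eq_one] using h5


theorem lemL {K W : Type*} [Group K] [Finite K] [CommGroup W] [Finite W] (q : ℕ)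
    [hqf : Fact q.Prime] (hq2 : q ≠ 2) (s2 : K →* K) (hs4 : ∀ k, s2 (s2 (s2 (s2 k))) = k)
    (f : MulAut W) (hf4 : ∀ w, f (f (f (f w))) = w) (hfpf : ∀ w, f w = w → w = 1)
    (hWq : (Nat.card W).Coprime q)
    (ρ : K →* MulAut W) (hcomp : ∀ k w, f (ρ k w) = ρ (s2 k) (f w)) :
    ∀ n : ℕ, ∀ Q : Subgroup K, Nat.card Q ≤ n → IsPGroup q Q → (∀ k ∈ Q, s2 k ∈ Q) →
      (∀ k ∈ Q, s2 k = k → k = 1) → ∀ s ∈ Q, ρ (s⁻¹ * s2 (s2 s)) = 1 := by
  have hq := hqf.out
  have hconj : ∀ k, f * ρ k * f⁻¹ = ρ (s2 k) := by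
    intro k
    ext w
    have := hcomp k (f⁻¹ w)
    simpa [MulAut.mul_apply] using this
  have hconj2 : ∀ k, f * f * ρ k * (f * f)⁻¹ = ρ (s2 (s2 k)) := by
    intro k
    rw [← hconj, ← hconj]; group
  have hqpow : ∀ (Q : Subgroup K), IsPGroup q Q → ∀ s ∈ Q, ∃ j, s ^ (q ^ j) = 1 := by
    intro Q hQ s hs
    obtain ⟨j, hj⟩ := hQ ⟨s, hs⟩
    exact ⟨j, by simpa using congrArg Subtype.val hj⟩
  intro n
  induction n with
  | zero =>
    intro Q hcard
    have := Nat.card_pos (α := Q)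
    omega
  | succ n ih =>
    intro Q hcard hQp hQs hQfp
    set X : Set K := {x | ∃ u ∈ Q, x = u⁻¹ * s2 (s2 u)} with hX
    have hXQ : X ⊆ Q := by
      rintro x ⟨u, hu, rfl⟩
      exact Q.mul_mem (Q.inv_mem hu) (hQs _ (hQs u hu))
    have hQ₁le : Subgroup.closure X ≤ Q := (Subgroup.closure_le Q).2 hXQ
    have hQ₁s : ∀ k ∈ Subgroup.closure X, s2 k ∈ Subgroup.closure X := by
      intro k hk
      have : Subgroup.closure X ≤ (Subgroup.closure X).comap s2 := by
        rw [Subgroup.closure_le]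
        rintro x ⟨u, hu, rfl⟩
        apply Subgroup.subset_closure
        refine ⟨s2 u, hQs u hu, ?_⟩
        rw [map_mul, map_inv]
      exact this hk
    have hτX : ∀ u, s2 (s2 (u⁻¹ * s2 (s2 u))) = (u⁻¹ * s2 (s2 u))⁻¹ := by
      intro u
      rw [map_mul, map_mul, map_inv, map_inv, hs4, mul_inv_rev, inv_inv]
    by_cases hQ₁ : Subgroup.closure X = Q
    · by_cases hbot : Q = ⊥
      · intro s hs
        rw [hbot, Subgroup.mem_bot] at hs
        rw [hs]; simp
      have hQ'le : ⁅Q, Q⁆ ≤ Q := Subgroup.commutator_le.2 (fun a ha b hb =>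
        Q.mul_mem (Q.mul_mem (Q.mul_mem ha hb) (Q.inv_mem ha)) (Q.inv_mem hb))
      have hQ'ne : ⁅Q, Q⁆ ≠ Q := by
        intro h
        haveI : Nontrivial Q := (Subgroup.nontrivial_iff_ne_bot Q).2 hbot
        haveI : Group.IsNilpotent Q := hQp.isNilpotent
        have hlt := Group.IsSolvable.commutator_lt_top_of_nontrivial Q
        have hmap : (commutator Q).map Q.subtype = ⁅Q, Q⁆ := by
          rw [commutator_def, Subgroup.map_commutator, ← MonoidHom.range_eq_map,
            Subgroup.range_subtype]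
        have : (commutator Q).map Q.subtype = (⊤ : Subgroup Q).map Q.subtype := by
          rw [hmap, h, ← MonoidHom.range_eq_map, Subgroup.range_subtype]
        exact hlt.ne (Subgroup.map_injective Q.subtype_injective this)
      have hQ's : ∀ k ∈ ⁅Q, Q⁆, s2 k ∈ ⁅Q, Q⁆ := by
        intro k hk
        have h1 : (⁅Q, Q⁆).map s2 ≤ ⁅Q, Q⁆ := by
          rw [Subgroup.map_commutator]
          have : Q.map s2 ≤ Q := by rintro _ ⟨x, hx, rfl⟩; exact hQs x hx
          exact Subgroup.commutator_mono this this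
        exact h1 ⟨k, hk, rfl⟩
      have hcard' : Nat.card (⁅Q, Q⁆ : Subgroup K) ≤ n := by
        by_contra h
        push Not at h
        exact hQ'ne (Subgroup.eq_of_le_of_card_ge hQ'le (by omega))
      have hB' := ih ⁅Q, Q⁆ hcard' (hQp.to_le hQ'le) hQ's (fun k hk => hQfp k (hQ'le hk))
      have hτ' : ∀ d ∈ ⁅Q, Q⁆, ρ (s2 (s2 d)) = ρ d := by
        intro d hd
        have := hB' d hd
        rw [map_mul, map_inv, inv_mul_eq_one] at this
        exact this.symm
      have hcent : ∀ d ∈ ⁅Q, Q⁆, ∀ s ∈ Q, ρ d * ρ s = ρ s * ρ d := by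
        intro d hd s hs
        rw [← hQ₁] at hs
        induction hs using Subgroup.closure_induction with
        | mem x hx =>
          obtain ⟨u, hu, rfl⟩ := hx
          have hd' : u * d * u⁻¹ ∈ ⁅Q, Q⁆ := by
            have : u * d * u⁻¹ = ⁅u, d⁆ * d := by rw [commutatorElement_def]; group
            rw [this]
            exact Subgroup.mul_mem _ (Subgroup.commutator_mem_commutator hu (hQ'le hd)) hd
          have e1 := hτ' _ hd'
          simp only [map_mul, map_inv] at e1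
          rw [hτ' d hd] at e1
          simp only [map_mul, map_inv]
          calc ρ d * ((ρ u)⁻¹ * ρ (s2 (s2 u)))
              = (ρ u)⁻¹ * (ρ u * ρ d * (ρ u)⁻¹) * ρ (s2 (s2 u)) := by group
            _ = (ρ u)⁻¹ * (ρ (s2 (s2 u)) * ρ d * (ρ (s2 (s2 u)))⁻¹) * ρ (s2 (s2 u)) := by rw [e1]
            _ = (ρ u)⁻¹ * ρ (s2 (s2 u)) * ρ d := by group
        | one => simp
        | mul x y _ _ hx hy => rw [map_mul, ← mul_assoc, hx, mul_assoc, hy, mul_assoc]
        | inv x _ hx =>
          rw [map_inv]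
          calc ρ d * (ρ x)⁻¹ = (ρ x)⁻¹ * (ρ x * ρ d) * (ρ x)⁻¹ := by group
            _ = (ρ x)⁻¹ * (ρ d * ρ x) * (ρ x)⁻¹ := by rw [hx]
            _ = (ρ x)⁻¹ * ρ d := by group
      by_cases hI : ∀ d ∈ ⁅Q, Q⁆, ρ d = 1
      · have hab : ∀ s ∈ Q, ∀ t ∈ Q, ρ s * ρ t = ρ t * ρ s := by
          intro s hs t ht
          have := hI _ (Subgroup.commutator_mem_commutator hs ht)
          rw [commutatorElement_def, map_mul, map_mul, map_mul, map_inv, map_inv] at this
          calc ρ s * ρ t = (ρ s * ρ t * (ρ s)⁻¹ * (ρ t)⁻¹) * (ρ t * ρ s) := by group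
            _ = ρ t * ρ s := by rw [this, one_mul]
        have hinvQ : ∀ s ∈ Q, ρ (s2 (s2 s)) = (ρ s)⁻¹ := by
          intro s hs
          rw [← hQ₁] at hs
          induction hs using Subgroup.closure_induction with
          | mem x hx =>
            obtain ⟨u, hu, rfl⟩ := hx
            rw [hτX, map_inv]
          | one => simp
          | mul x y hx hy ihx ihy =>
            have hc := hab x (hQ₁le hx) y (hQ₁le hy)
            simp only [map_mul, ihx, ihy, mul_inv_rev]
            rw [← mul_inv_rev, ← mul_inv_rev, hc]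
          | inv x hx ihx => simp only [map_inv, ihx]
        have hA := lemFP (Q.map ρ) f hf4 hfpf ?_ ?_ ?_ ?_
        · intro s hs
          exact hA _ ⟨_, Q.mul_mem (Q.inv_mem hs) (hQs _ (hQs s hs)), rfl⟩
        · rintro _ ⟨k, hk, rfl⟩
          rw [hconj]; exact ⟨_, hQs k hk, rfl⟩
        · rintro _ ⟨k, hk, rfl⟩
          rw [hconj2, hinvQ k hk]
        · rintro _ ⟨k, hk, rfl⟩ h
          obtain ⟨j, hj⟩ := hqpow Q hQp k hk
          exact eq_one_of_sq q j hq hq2 _ (by rw [← map_pow, hj, map_one]) h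
        · have hAp : IsPGroup q (Q.map ρ) := hQp.map ρ
          obtain ⟨k, hk⟩ := hAp.exists_card_eq
          rw [hk]
          exact Nat.Coprime.pow_left k hWq.symm
      · push Not at hI
        obtain ⟨d, hd, hd1⟩ := hI
        exfalso
        apply hd1
        obtain ⟨j, hj⟩ := hqpow Q hQp d (hQ'le hd)
        have hfz : f * ρ d * f⁻¹ = (ρ d)⁻¹ := by
          rw [hconj]
          have heQ' : d * s2 d ∈ ⁅Q, Q⁆ := Subgroup.mul_mem _ hd (hQ's d hd)
          have h1 : ρ ((d * s2 d)⁻¹ * s2 (d * s2 d)) = 1 := by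
            rw [map_mul, map_inv, inv_mul_eq_one, map_mul, map_mul, map_mul, hτ' d hd]
            exact hcent d hd (s2 d) (hQ'le (hQ's d hd))
          have hM : (d * s2 d)⁻¹ * s2 (d * s2 d) ∈ ⁅Q, Q⁆ ⊓ ρ.ker :=
            Subgroup.mem_inf.2 ⟨Subgroup.mul_mem _ (Subgroup.inv_mem _ heQ') (hQ's _ heQ'),
              MonoidHom.mem_ker.2 h1⟩
          have heM := mem_of_lam_mem s2 (⁅Q, Q⁆ ⊓ ρ.ker) Q ?_ (inf_le_left.trans hQ'le) hQfp
            (d * s2 d) (hQ'le heQ') hM
          · have h2 : ρ (d * s2 d) = 1 := MonoidHom.mem_ker.1 (Subgroup.mem_inf.1 heM).2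
            rw [map_mul] at h2
            exact eq_inv_of_mul_eq_one_right h2
          · intro k hk
            refine Subgroup.mem_inf.2 ⟨hQ's k (Subgroup.mem_inf.1 hk).1, MonoidHom.mem_ker.2 ?_⟩
            have hk1 : ρ k = 1 := MonoidHom.mem_ker.1 (Subgroup.mem_inf.1 hk).2
            rw [← hconj, hk1]; group
        refine lemC2 f (ρ d) hf4 hfpf hfz (q ^ j) (by rw [← map_pow, hj, map_one]) ?_ ?_
          {b | ∃ v ∈ Q, b = ρ v} ?_ ?_
        · exact Nat.Coprime.pow_right j ((Nat.coprime_primes Nat.prime_two hq).2 (Ne.symm hq2))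
        · exact Nat.Coprime.pow_left j hWq.symm
        · rintro b ⟨v, hv, rfl⟩
          exact (hcent d hd v hv).symm
        · intro u hu
          have hall : ∀ s ∈ Q, ρ s u = u := by
            intro s hs
            rw [← hQ₁] at hs
            induction hs using Subgroup.closure_induction with
            | mem x hx =>
              obtain ⟨v, hv, rfl⟩ := hx
              have := hu (ρ v) ⟨v, hv, rfl⟩
              rw [hconj2] at this
              rw [map_mul, map_inv]; exact this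
            | one => simp
            | mul x y _ _ ihx ihy => rw [map_mul, MulAut.mul_apply, ihy, ihx]
            | inv x _ ihx =>
              rw [map_inv]
              conv_lhs => rw [← ihx]
              exact MulAut.inv_apply_self _ _ _
          exact hall d (hQ'le hd)
    · have hlt : Nat.card (Subgroup.closure X) ≤ n := by
        by_contra h
        push Not at h
        exact hQ₁ (Subgroup.eq_of_le_of_card_ge hQ₁le (by omega))
      have hB := ih (Subgroup.closure X) hlt (hQp.to_le hQ₁le) hQ₁s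
        (fun k hk => hQfp k (hQ₁le hk))
      intro s hs
      have hu : s⁻¹ * s2 (s2 s) ∈ Subgroup.closure X := Subgroup.subset_closure ⟨s, hs, rfl⟩
      have h1 := hB _ hu
      rw [hτX, ← mul_inv_rev, map_inv, inv_eq_one, map_mul] at h1
      obtain ⟨j, hj⟩ := hqpow Q hQp _ (hQ₁le hu)
      exact eq_one_of_sq q j hq hq2 _ (by rw [← map_pow, hj, map_one]) h1


theorem lemL' {K W : Type*} [Group K] [Finite K] [Group W] [Finite W]
    (hW : ∀ a b : W, a * b = b * a) (q : ℕ)
    [hqf : Fact q.Prime] (hq2 : q ≠ 2) (s2 : K →* K) (hs4 : ∀ k, s2 (s2 (s2 (s2 k))) = k)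
    (f : MulAut W) (hf4 : ∀ w, f (f (f (f w))) = w) (hfpf : ∀ w, f w = w → w = 1)
    (hWq : (Nat.card W).Coprime q)
    (ρ : K →* MulAut W) (hcomp : ∀ k w, f (ρ k w) = ρ (s2 k) (f w)) :
    ∀ n : ℕ, ∀ Q : Subgroup K, Nat.card Q ≤ n → IsPGroup q Q → (∀ k ∈ Q, s2 k ∈ Q) →
      (∀ k ∈ Q, s2 k = k → k = 1) → ∀ s ∈ Q, ρ (s⁻¹ * s2 (s2 s)) = 1 := by
  letI : CommGroup W := { ‹Group W› with mul_comm := hW }
  exact lemL q hq2 s2 hs4 f hf4 hfpf hWq ρ hcomp

/-- A hom with `s⁴ = id` as a `MulEquiv`. -/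
def toEquiv {K : Type*} [Group K] (s : K →* K) (h4 : ∀ x, s (s (s (s x))) = x) : K ≃* K :=
  { toFun := s, invFun := fun x => s (s (s x)), left_inv := fun x => h4 x,
    right_inv := fun x => h4 x, map_mul' := s.map_mul }

theorem char_inv {K : Type*} [Group K] (H : Subgroup K) [hH : H.Characteristic] (s : K →* K)
    (h4 : ∀ x, s (s (s (s x))) = x) : ∀ x ∈ H, s x ∈ H := by
  intro x hx
  exact Subgroup.characteristic_iff_map_le.1 hH (toEquiv s h4) ⟨x, hx, rfl⟩

theorem quot_fpf {G : Type*} [Group G] [Finite G] (σ : G →* G) (hfpf : ∀ g, σ g = g → g = 1)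
    (N : Subgroup G) [N.Normal] (hN : N ≤ N.comap σ) :
    ∀ y : G ⧸ N, QuotientGroup.map N N σ hN y = y → y = 1 := by
  intro y
  induction y using QuotientGroup.induction_on with
  | H x =>
    intro h
    rw [QuotientGroup.map_mk] at h
    have h1 : x⁻¹ * σ x ∈ N := by
      rw [← QuotientGroup.eq]; exact h.symm
    have := mem_of_lam_mem σ N ⊤ (fun k hk => hN hk) le_top (fun k _ => hfpf k) x
      (Subgroup.mem_top x) h1
    exact (QuotientGroup.eq_one_iff x).2 this

theorem quot_pow4 {G : Type*} [Group G] (σ : G →* G) (h4 : ∀ x, σ (σ (σ (σ x))) = x)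
    (N : Subgroup G) [N.Normal] (hN : N ≤ N.comap σ) :
    ∀ y : G ⧸ N, QuotientGroup.map N N σ hN (QuotientGroup.map N N σ hN
      (QuotientGroup.map N N σ hN (QuotientGroup.map N N σ hN y))) = y := by
  intro y
  induction y using QuotientGroup.induction_on with
  | H x => simp only [QuotientGroup.map_mk, h4]

theorem odd_of_fpf {G : Type*} [Group G] [Finite G] (σ : G →* G)
    (h4 : ∀ x, σ (σ (σ (σ x))) = x) (hfpf : ∀ g, σ g = g → g = 1) :
    ∀ x : G, x * x = 1 → x = 1 := by
  set e : MulAut G := toEquiv σ h4 with he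
  have hex : ∀ x, e x = σ x := fun x => rfl
  have he4 : e ^ 4 = 1 := by
    ext x
    simp only [pow_succ, pow_zero, one_mul, MulAut.mul_apply, MulAut.one_apply, hex]
    exact h4 x
  have hP : IsPGroup 2 (Subgroup.zpowers e) := by
    rintro ⟨g, hg⟩
    refine ⟨2, ?_⟩
    obtain ⟨k, rfl⟩ := Subgroup.mem_zpowers_iff.1 hg
    apply Subtype.ext
    show (e ^ k) ^ (2 ^ 2) = 1
    rw [← zpow_natCast, ← zpow_mul, mul_comm, zpow_mul, zpow_natCast]
    norm_num
    rw [he4, one_zpow]
  have hcard := hP.card_modEq_card_fixedPoints G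
  have hfix : MulAction.fixedPoints (Subgroup.zpowers e) G = {1} := by
    ext x
    rw [MulAction.mem_fixedPoints, Set.mem_singleton_iff]
    constructor
    · intro h
      exact hfpf x (h ⟨e, Subgroup.mem_zpowers e⟩)
    · rintro rfl g
      exact map_one (g : MulAut G)
  rw [hfix] at hcard
  have h1 : Nat.card ({1} : Set G) = 1 := by simp
  rw [h1] at hcard
  intro x hx
  by_contra hx1
  have h2 : orderOf x = 2 := orderOf_eq_prime (by rw [pow_two]; exact hx) hx1
  have h3 : 2 ∣ Nat.card G := h2 ▸ orderOf_dvd_natCard x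
  have h5 := (Nat.modEq_zero_iff_dvd.2 h3).symm.trans hcard
  exact absurd h5 (by decide)



theorem coreStep {G : Type*} [Group G] [Finite G] (σ : G →* G)
    (h4 : ∀ x, σ (σ (σ (σ x))) = x) (hfpf : ∀ g, σ g = g → g = 1)
    (F : Subgroup G) [hFn : F.Normal] (hFab : ∀ a ∈ F, ∀ b ∈ F, a * b = b * a)
    (hFσ : F ≤ F.comap σ)
    (hFmax : ∀ C : Subgroup G, C.Normal → Group.IsNilpotent C → C ≤ F)
    (q : ℕ) [hqf : Fact q.Prime] (hq2 : q ≠ 2)
    (T : Subgroup G) [hTn : T.Normal] (hTσ : T ≤ T.comap σ)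
    (hTq : ∀ t ∈ T, ∃ j, t ^ (q ^ j) ∈ F) :
    ∀ t ∈ T, t⁻¹ * σ (σ t) ∈ F := by
  classical
  have hq := hqf.out
  set N := Nat.card G with hN
  set m := N / q ^ N.factorization q with hm
  set i := N.factorization q with hi
  have hNpos : 0 < N := Nat.card_pos
  have hNm : q ^ i * m = N := Nat.ordProj_mul_ordCompl_eq_self N q
  have hmq : Nat.Coprime q m := Nat.coprime_ordCompl hq hNpos.ne'
  let V : Subgroup G :=
    { carrier := {v | v ∈ F ∧ v ^ m = 1}
      mul_mem' := by
        rintro a b ⟨ha, ha'⟩ ⟨hb, hb'⟩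
        refine ⟨F.mul_mem ha hb, ?_⟩
        have hc : Commute a b := hFab a ha b hb
        rw [hc.mul_pow, ha', hb', one_mul]
      one_mem' := ⟨F.one_mem, one_pow m⟩
      inv_mem' := by
        rintro a ⟨ha, ha'⟩
        exact ⟨F.inv_mem ha, by rw [inv_pow, ha', inv_one]⟩ }
  have hVF : V ≤ F := fun v hv => hv.1
  haveI hVn : V.Normal := ⟨by
    intro v hv g
    refine ⟨hFn.conj_mem v hv.1 g, ?_⟩
    rw [conj_pow, hv.2, mul_one, mul_inv_cancel]⟩
  have hVσ : V ≤ V.comap σ := by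
    intro v hv
    refine ⟨hFσ hv.1, ?_⟩
    rw [← map_pow, hv.2, map_one]
  have hVab : ∀ a b : V, a * b = b * a := fun a b => Subtype.ext (hFab a a.2.1 b b.2.1)
  have hVcop : (Nat.card V).Coprime q := by
    rw [Nat.coprime_comm, Nat.Prime.coprime_iff_not_dvd hq]
    intro hdvd
    obtain ⟨x, hx⟩ := exists_prime_orderOf_dvd_card' q hdvd
    have h1 : (x : G) ^ m = 1 := x.2.2
    have h2 : orderOf (x : G) = q := by rw [Subgroup.orderOf_coe]; exact hx
    have h3 : q ∣ m := h2 ▸ orderOf_dvd_of_pow_eq_one h1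
    exact (Nat.Prime.coprime_iff_not_dvd hq).1 hmq h3
  have hFV : ∀ u ∈ F, u ^ (q ^ i) ∈ V := by
    intro u hu
    refine ⟨F.pow_mem hu _, ?_⟩
    rw [← pow_mul, hNm]; exact pow_card_eq_one'
  have hTV : ∀ t ∈ T, ∃ j, t ^ (q ^ j) ∈ V := by
    intro t ht
    obtain ⟨j, hj⟩ := hTq t ht
    refine ⟨j + i, ?_⟩
    rw [pow_add, pow_mul]
    exact hFV _ hj
  set s2 : G ⧸ V →* G ⧸ V := QuotientGroup.map V V σ hVσ with hs2
  have hs4 := quot_pow4 σ h4 V hVσ
  have hs2fp := quot_fpf σ hfpf V hVσ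
  set Q : Subgroup (G ⧸ V) := T.map (QuotientGroup.mk' V) with hQ
  have hQp : IsPGroup q Q := by
    rintro ⟨_, t, ht, rfl⟩
    obtain ⟨j, hj⟩ := hTV t ht
    refine ⟨j, Subtype.ext ?_⟩
    show (QuotientGroup.mk' V t) ^ (q ^ j) = 1
    rw [← map_pow]; exact (QuotientGroup.eq_one_iff _).2 hj
  have hQs : ∀ k ∈ Q, s2 k ∈ Q := by
    rintro _ ⟨t, ht, rfl⟩
    exact ⟨σ t, hTσ ht, rfl⟩
  let f : MulAut V :=
    { toFun := fun v => ⟨σ v, hVσ v.2⟩
      invFun := fun v => ⟨σ (σ (σ v)), hVσ (hVσ (hVσ v.2))⟩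
      left_inv := fun v => Subtype.ext (h4 v)
      right_inv := fun v => Subtype.ext (h4 v)
      map_mul' := fun a b => Subtype.ext (σ.map_mul a b) }
  have hfval : ∀ v : V, ((f v : V) : G) = σ v := fun v => rfl
  have hker : V ≤ (MulAut.conjNormal : G →* MulAut V).ker := by
    intro v hv
    rw [MonoidHom.mem_ker]
    ext w
    rw [MulAut.conjNormal_apply, MulAut.one_apply]
    have := hFab v hv.1 w w.2.1
    rw [this, mul_inv_cancel_right]
  set ρ : G ⧸ V →* MulAut V := QuotientGroup.lift V MulAut.conjNormal hker with hρ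
  have hρmk : ∀ (g : G) (w : V), ((ρ (QuotientGroup.mk' V g) w : V) : G) = g * w * g⁻¹ := by
    intro g w
    rw [hρ]
    show ((QuotientGroup.lift V MulAut.conjNormal hker (g : G ⧸ V)) w : G) = g * w * g⁻¹
    rw [QuotientGroup.lift_mk, MulAut.conjNormal_apply]
  have hcomp : ∀ k w, f (ρ k w) = ρ (s2 k) (f w) := by
    intro k w
    induction k using QuotientGroup.induction_on with
    | H g =>
      apply Subtype.ext
      have e1 : s2 (g : G ⧸ V) = QuotientGroup.mk' V (σ g) := rfl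
      rw [e1, hρmk, hfval, hfval]
      have e2 := hρmk g w
      rw [show ((g : G ⧸ V)) = QuotientGroup.mk' V g from rfl, e2, map_mul, map_mul, map_inv]
  have hL := lemL' hVab q hq2 s2 hs4 f (fun w => Subtype.ext (h4 w))
    (fun w h => Subtype.ext (hfpf w (congrArg Subtype.val h))) hVcop ρ hcomp (Nat.card Q) Q le_rfl
    hQp hQs (fun k _ => hs2fp k)
  set C : Subgroup G := T ⊓ Subgroup.centralizer (V : Set G) with hC
  haveI hCn : C.Normal := inferInstance
  have hCnil : Group.IsNilpotent C := by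
    let φ : C →* Q := ((QuotientGroup.mk' V).comp C.subtype).codRestrict Q
      (fun x => ⟨x.1, (inf_le_left : C ≤ T) x.2, rfl⟩)
    haveI : Group.IsNilpotent Q := hQp.isNilpotent
    refine Subgroup.isNilpotent_of_ker_le_center φ ?_
    intro x hx
    rw [MonoidHom.mem_ker] at hx
    have hxV : (x : G) ∈ V := by
      have h1 : QuotientGroup.mk' V (x : G) = 1 := congrArg Subtype.val hx
      exact (QuotientGroup.eq_one_iff _).1 h1
    rw [Subgroup.mem_center_iff]
    intro y
    apply Subtype.ext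
    have hy : (y : G) ∈ Subgroup.centralizer (V : Set G) := (Subgroup.mem_inf.1 y.2).2
    exact (Subgroup.mem_centralizer_iff.1 hy x hxV).symm
  have hCF := hFmax C hCn hCnil
  intro t ht
  apply hCF
  refine Subgroup.mem_inf.2 ⟨T.mul_mem (T.inv_mem ht) (hTσ (hTσ ht)), ?_⟩
  rw [Subgroup.mem_centralizer_iff]
  intro v hv
  have h1 := hL (QuotientGroup.mk' V t) ⟨t, ht, rfl⟩
  have e1 : (QuotientGroup.mk' V t)⁻¹ * s2 (s2 (QuotientGroup.mk' V t)) =
      QuotientGroup.mk' V (t⁻¹ * σ (σ t)) := by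
    rw [map_mul, map_inv]; rfl
  rw [e1] at h1
  have h2 := hρmk (t⁻¹ * σ (σ t)) ⟨v, hv⟩
  rw [h1, MulAut.one_apply] at h2
  have h3 : v = t⁻¹ * σ (σ t) * v * (t⁻¹ * σ (σ t))⁻¹ := h2
  calc v * (t⁻¹ * σ (σ t)) = (t⁻¹ * σ (σ t) * v * (t⁻¹ * σ (σ t))⁻¹) * (t⁻¹ * σ (σ t)) := by
        rw [← h3]
    _ = t⁻¹ * σ (σ t) * v := by group

theorem frat_free.{u} {G : Type u} [Group G] [Finite G] (hG : Group.IsSolvable G) (σ : G →* G)
    (h4 : ∀ x, σ (σ (σ (σ x))) = x) (hfpf : ∀ g, σ g = g → g = 1) (hΦ : frattini G = ⊥) :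
    commutator G ≤ fittingSubgroup G := by
  set F := fittingSubgroup G with hF
  haveI hFn : F.Normal := Cfsg.Agent.Lib.Helper71.fittingSubgroup_normal
  have hFnil : Group.IsNilpotent F := Cfsg.Agent.Lib.Helper71.fittingSubgroup_isNilpotent
  have hFab := Cfsg.Agent.Lib.Helper90.comm_of_nilpotent_normal_of_frattini_eq_bot hΦ F hFnil
  have hFmax : ∀ C : Subgroup G, C.Normal → Group.IsNilpotent C → C ≤ F := fun C hC hn => by
    haveI := hC; exact Cfsg.Agent.Lib.Helper71.le_fittingSubgroup C hn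
  have hFσ : F ≤ F.comap σ := by
    intro x hx
    have hmapn : (F.map (toEquiv σ h4).toMonoidHom).Normal :=
      hFn.map (toEquiv σ h4).toMonoidHom (toEquiv σ h4).surjective
    have hmapnil : Group.IsNilpotent (F.map (toEquiv σ h4).toMonoidHom) :=
      Group.nilpotent_of_mulEquiv
        (F.equivMapOfInjective (toEquiv σ h4).toMonoidHom (toEquiv σ h4).injective)
    exact hFmax _ hmapn hmapnil ⟨x, hx, rfl⟩
  set σb : G ⧸ F →* G ⧸ F := QuotientGroup.map F F σ hFσ with hσb
  have hσbmk : ∀ g : G, σb (g : G ⧸ F) = ((σ g : G) : G ⧸ F) := fun g => rfl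
  have hb4 := quot_pow4 σ h4 F hFσ
  have hbfp := quot_fpf σ hfpf F hFσ
  have hodd := odd_of_fpf σb hb4 hbfp
  haveI : Group.IsSolvable G := hG
  haveI : Group.IsSolvable (G ⧸ F) := inferInstance
  have hii : ∀ q : Nat.Primes, ∀ x ∈ pCore (q : ℕ) (G ⧸ F), σb (σb x) = x := by
    intro q x hx
    haveI : Fact (q : ℕ).Prime := ⟨q.2⟩
    have hPq := Cfsg.Agent.Lib.Helper63.pCore_isPGroup' (q : ℕ) (G ⧸ F)
    by_cases hq2 : (q : ℕ) = 2
    · obtain ⟨k, hk⟩ := hPq ⟨x, hx⟩
      have hk' : x ^ (2 ^ k) = 1 := by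
        rw [← hq2]; exact congrArg Subtype.val hk
      have hall : ∀ k : ℕ, ∀ y : G ⧸ F, y ^ (2 ^ k) = 1 → y = 1 := by
        intro k
        induction k with
        | zero => intro y hy; simpa using hy
        | succ k ih =>
          intro y hy
          apply ih
          apply hodd
          rw [← pow_two, ← pow_mul, ← pow_succ]; exact hy
      rw [hall k x hk']; simp
    · induction x using QuotientGroup.induction_on with
      | H t =>
        haveI hchar : (pCore (q : ℕ) (G ⧸ F)).Characteristic :=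
          Cfsg.Agent.Lib.Helper63.pCore_characteristic' _ _
        haveI hPn : (pCore (q : ℕ) (G ⧸ F)).Normal := Subgroup.normal_of_characteristic _
        set T := (pCore (q : ℕ) (G ⧸ F)).comap (QuotientGroup.mk' F) with hT
        haveI : T.Normal := hPn.comap _
        have hTσ : T ≤ T.comap σ := by
          intro y hy
          exact char_inv (pCore (q : ℕ) (G ⧸ F)) σb hb4 _ hy
        have hTq : ∀ y ∈ T, ∃ j, y ^ ((q : ℕ) ^ j) ∈ F := by
          intro y hy
          obtain ⟨j, hj⟩ := hPq ⟨QuotientGroup.mk' F y, hy⟩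
          refine ⟨j, ?_⟩
          have h1 : (QuotientGroup.mk' F y) ^ ((q : ℕ) ^ j) = 1 := congrArg Subtype.val hj
          rw [← map_pow] at h1
          exact (QuotientGroup.eq_one_iff _).1 h1
        have hc := coreStep σ h4 hfpf F hFab hFσ hFmax (q : ℕ) hq2 T hTσ hTq t hx
        have h1 : ((t⁻¹ * σ (σ t) : G) : G ⧸ F) = 1 := (QuotientGroup.eq_one_iff _).2 hc
        rw [QuotientGroup.mk_mul, QuotientGroup.mk_inv, inv_mul_eq_one] at h1
        rw [hσbmk, hσbmk]
        exact h1.symm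
  have hiii : ∀ x ∈ fittingSubgroup (G ⧸ F), σb (σb x) = x := by
    have hle : fittingSubgroup (G ⧸ F) ≤ MonoidHom.eqLocus (σb.comp σb) (MonoidHom.id _) := by
      rw [Cfsg.Agent.S0009.result]
      exact iSup_le (fun q x hx => hii q x hx)
    exact fun x hx => hle hx
  have hiv : ∀ x : G ⧸ F, σb (σb x) = x := by
    intro x
    set c := x⁻¹ * σb (σb x) with hc
    have hcent : c ∈ Subgroup.centralizer (fittingSubgroup (G ⧸ F) : Set (G ⧸ F)) := by
      rw [Subgroup.mem_centralizer_iff]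
      intro y hy
      have hconj : x * y * x⁻¹ ∈ fittingSubgroup (G ⧸ F) :=
        (Cfsg.Agent.Lib.Helper71.fittingSubgroup_normal).conj_mem y hy x
      have h1 := hiii _ hconj
      rw [map_mul, map_mul, map_mul, map_mul, map_inv, map_inv, hiii y hy] at h1
      rw [hc]
      calc y * (x⁻¹ * σb (σb x)) = x⁻¹ * (x * y * x⁻¹) * σb (σb x) := by group
        _ = x⁻¹ * (σb (σb x) * y * (σb (σb x))⁻¹) * σb (σb x) := by rw [h1]
        _ = x⁻¹ * σb (σb x) * y := by group
    have hcF : c ∈ fittingSubgroup (G ⧸ F) := Cfsg.Agent.S0044.result hcent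
    have h1 := hiii c hcF
    have h2 : σb (σb c) = c⁻¹ := by
      rw [hc, map_mul, map_mul, map_inv, map_inv, hb4, mul_inv_rev, inv_inv]
    have h3 : c * c = 1 := by
      rw [h2] at h1
      calc c * c = c⁻¹ * c := by rw [h1]
        _ = 1 := inv_mul_cancel c
    have h4' := hodd c h3
    rw [hc, inv_mul_eq_one] at h4'
    exact h4'.symm
  have hinv : ∀ x : G ⧸ F, σb x = x⁻¹ := by
    intro x
    obtain ⟨y, -, hy⟩ := lam_surj σb ⊤ (fun k _ => Subgroup.mem_top _) (fun k _ => hbfp k) x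
      (Subgroup.mem_top x)
    rw [← hy, map_mul, map_inv, hiv, mul_inv_rev, inv_inv]
  have hcomm : ∀ a b : G ⧸ F, a * b = b * a := by
    intro a b
    have h1 := hinv (a * b)
    rw [map_mul, hinv, hinv, ← mul_inv_rev, inv_inj] at h1
    exact h1.symm
  rw [commutator_eq_closure, Subgroup.closure_le]
  rintro g ⟨a, b, rfl⟩
  rw [SetLike.mem_coe, ← QuotientGroup.eq_one_iff, commutatorElement_def]
  simp only [QuotientGroup.mk_mul, QuotientGroup.mk_inv]
  rw [hcomm (a : G ⧸ F) (b : G ⧸ F)]; group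

theorem nil_of_le {G : Type*} [Group G] {H K : Subgroup G} (hle : H ≤ K)
    (hK : Group.IsNilpotent K) : Group.IsNilpotent H := by
  haveI := hK
  refine Subgroup.isNilpotent_of_ker_le_center (Subgroup.inclusion hle) ?_
  rw [(MonoidHom.ker_eq_bot_iff _).2 (Subgroup.inclusion_injective hle)]
  exact bot_le

theorem mainT.{u} : ∀ n : ℕ, ∀ (G : Type u) [Group G] [Finite G], Nat.card G ≤ n →
    Group.IsSolvable G → ∀ σ : G →* G, (∀ x, σ (σ (σ (σ x))) = x) → (∀ g, σ g = g → g = 1) →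
    Group.IsNilpotent (commutator G) := by
  intro n
  induction n with
  | zero =>
    intro G _ _ hc
    have := Nat.card_pos (α := G)
    omega
  | succ n ih =>
    intro G _ _ hcard hG σ h4 hfpf
    by_cases hΦ : frattini G = ⊥
    · have hle := frat_free hG σ h4 hfpf hΦ
      exact nil_of_le hle Cfsg.Agent.Lib.Helper71.fittingSubgroup_isNilpotent
    · haveI hΦn : (frattini G).Normal := Subgroup.normal_of_characteristic _
      have hΦσ : frattini G ≤ (frattini G).comap σ := fun x hx => char_inv (frattini G) σ h4 x hx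
      have hcardlt : Nat.card (G ⧸ frattini G) ≤ n := by
        have h1 := Subgroup.card_eq_card_quotient_mul_card_subgroup (frattini G)
        have h2 : 1 < Nat.card (frattini G) := (Subgroup.one_lt_card_iff_ne_bot _).2 hΦ
        have h3 : 0 < Nat.card (G ⧸ frattini G) := Nat.card_pos
        nlinarith
      haveI : Group.IsSolvable G := hG
      have hnil := ih (G ⧸ frattini G) hcardlt inferInstance
        (QuotientGroup.map (frattini G) (frattini G) σ hΦσ)
        (quot_pow4 σ h4 (frattini G) hΦσ) (quot_fpf σ hfpf (frattini G) hΦσ)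
      set N := commutator G ⊔ frattini G with hN
      haveI : N.Normal := inferInstance
      have hmap : N.map (QuotientGroup.mk' (frattini G)) = commutator (G ⧸ frattini G) := by
        rw [hN, Subgroup.map_sup, QuotientGroup.map_mk'_self, sup_bot_eq, commutator_def,
          commutator_def, Subgroup.map_commutator,
          Subgroup.map_top_of_surjective _ (QuotientGroup.mk'_surjective (frattini G))]
      have hNnil : Group.IsNilpotent N := by
        apply Cfsg.Agent.S0070.nilpotent_of_frattini_quotient N le_sup_right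
        rw [hmap]; exact hnil
      exact nil_of_le le_sup_left hNnil

/-- Let G be a finite solvable group with an automorphism σ satisfying σ⁴ = 1 and fixing only the identity. Then the derived subgroup G' is nilpotent. -/
theorem result {G : Type*} [Group G] [Finite G] (hG : Group.IsSolvable G) (σ : MulAut G) (hσ : σ ^ 4 = 1) (hfpf : ∀ g : G, σ g = g → g = 1) : Group.IsNilpotent (commutator G) := by

  apply mainT (Nat.card G) G le_rfl hG σ.toMonoidHom
  · intro x
    have := congrArg (fun e : MulAut G => e x) hσ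
    simpa [pow_succ, MulAut.mul_apply] using this
  · exact hfpf

end Cfsg.Agent.S3794
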