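import Cfsg.Statements.S3798
import Mathlib
import Cfsg.Agent.Lib.Helper32.GYCore

set_option autoImplicit false
open Cfsg

namespace Cfsg.Agent.S3798

/-- The Gaschütz–Yen Theorem: let G be a finite p-soluble group, p an odd prime dividing its order, such that the automorphism group of G permutes the subgroups of G of order p transitively. Then G has p-length at most 1. -/
theorem result {G : Type*} [Group G] [Finite G] {p : ℕ} [Fact p.Prime] (hp : p ≠ 2) (hdvd : p ∣ Nat.card G) (hG : Cfsg.IsPSolvable p G) (htrans : ∀ U V : Subgroup G, Nat.card U = p → Nat.card V = p → ∃ a : MulAut G, U.map a.toMonoidHom = V) : Cfsg.PLengthLE p 1 G := by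
  classical
  have hpp : p.Prime := Fact.out
  set N := Cfsg.pPrimeCore p G with hN
  have hNchar : N.Characteristic := Cfsg.Agent.Lib.Helper63.pPrimeCore_characteristic' p G
  have hNcop : (Nat.card N).Coprime p := Cfsg.Agent.Lib.Helper63.card_pPrimeCore_coprime' p G
  have hN0 : Cfsg.PLengthLE p 0 ↥N := by
    rw [Cfsg.Agent.Lib.Helper63.plengthLE_zero_iff]
    exact hNcop
  suffices hH : Cfsg.PLengthLE p 1 (G ⧸ N) by
    have h1 := Cfsg.Agent.Lib.Helper63.plengthLE_of_normal N hN0 hH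
    rwa [zero_add] at h1
  have hsolH : Cfsg.IsPSolvable p (G ⧸ N) :=
    Cfsg.Agent.Lib.Helper69.isPSolvable_of_surj p (QuotientGroup.mk' N)
      (QuotientGroup.mk'_surjective N) hG
  have h0 : Cfsg.pPrimeCore p (G ⧸ N) = ⊥ :=
    Cfsg.Agent.Lib.Helper63.pPrimeCore_quotient_eq_bot p G
  set R := Cfsg.pCore p (G ⧸ N) with hR
  have hRp : IsPGroup p R := Cfsg.Agent.Lib.Helper63.pCore_isPGroup' p _
  have hR1 : Cfsg.PLengthLE p 1 ↥R := Cfsg.Agent.Lib.Helper63.plengthLE_one_of_isPGroup hRp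
  suffices hQ : Cfsg.PLengthLE p 0 ((G ⧸ N) ⧸ R) by
    have h1 := Cfsg.Agent.Lib.Helper63.plengthLE_of_normal R hR1 hQ
    rwa [add_zero] at h1
  rw [Cfsg.Agent.Lib.Helper63.plengthLE_zero_iff]
  -- lifting subgroups of order `p`
  have hlift : ∀ Ub : Subgroup (G ⧸ N), Nat.card Ub = p →
      ∃ U : Subgroup G, Nat.card U = p ∧ U.map (QuotientGroup.mk' N) = Ub := by
    intro Ub hUb
    have hnt : Nontrivial ↥Ub :=
      (Finite.one_lt_card_iff_nontrivial).1 (by rw [hUb]; exact hpp.one_lt)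
    obtain ⟨gb, hgb1⟩ := exists_ne (1 : ↥Ub)
    have hgbp : (gb : G ⧸ N) ^ p = 1 := by
      have h1 : gb ^ Nat.card ↥Ub = 1 := pow_card_eq_one'
      rw [hUb] at h1
      exact congrArg Subtype.val h1
    have hgb1' : (gb : G ⧸ N) ≠ 1 := fun h => hgb1 (Subtype.ext h)
    obtain ⟨g, hg⟩ := QuotientGroup.mk'_surjective N (gb : G ⧸ N)
    have hgpN : g ^ p ∈ N := by
      have h1 : QuotientGroup.mk' N (g ^ p) = 1 := by rw [map_pow, hg, hgbp]
      exact (QuotientGroup.eq_one_iff _).1 h1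
    have h1p : (g ^ Nat.card N) ^ p = 1 := by
      rw [← pow_mul, mul_comm, pow_mul]
      have h1 : (⟨g ^ p, hgpN⟩ : ↥N) ^ Nat.card ↥N = 1 := pow_card_eq_one'
      exact congrArg Subtype.val h1
    have hbn1 : (gb : G ⧸ N) ^ Nat.card N ≠ 1 := by
      intro h2
      have h3 : (gb : G ⧸ N) ∈ (⊥ : Subgroup (G ⧸ N)) :=
        Cfsg.Agent.Lib.Helper87.mem_of_pow_mem_of_coprime ⊥
          (by rw [h2]; exact Subgroup.one_mem _) (by rw [hgbp]; exact Subgroup.one_mem _) hNcop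
      exact hgb1' (Subgroup.mem_bot.1 h3)
    have hbnp : ((gb : G ⧸ N) ^ Nat.card N) ^ p = 1 := by
      rw [← pow_mul, mul_comm, pow_mul, hgbp, one_pow]
    have hmk : QuotientGroup.mk' N (g ^ Nat.card N) = (gb : G ⧸ N) ^ Nat.card N := by
      rw [map_pow, hg]
    have h11 : g ^ Nat.card N ≠ 1 := by
      intro h
      rw [h, map_one] at hmk
      exact hbn1 hmk.symm
    refine ⟨Subgroup.zpowers (g ^ Nat.card N), by
      rw [Nat.card_zpowers, orderOf_eq_prime h1p h11], ?_⟩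
    apply Subgroup.eq_of_le_of_card_ge
    · rw [Subgroup.map_le_iff_le_comap, Subgroup.zpowers_le]
      show QuotientGroup.mk' N (g ^ Nat.card N) ∈ Ub
      rw [hmk]
      exact Ub.pow_mem gb.2 _
    · rw [MonoidHom.map_zpowers, hmk, Nat.card_zpowers, orderOf_eq_prime hbnp hbn1, hUb]
  have htransH : ∀ U V : Subgroup (G ⧸ N), Nat.card U = p → Nat.card V = p →
      ∃ a : MulAut (G ⧸ N), U.map a.toMonoidHom = V := by
    intro Ub Vb hU hV
    obtain ⟨U, hUc, hUm⟩ := hlift Ub hU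
    obtain ⟨V, hVc, hVm⟩ := hlift Vb hV
    obtain ⟨a, ha⟩ := htrans U V hUc hVc
    refine ⟨Cfsg.Agent.Lib.Helper50.fr_autQuot N a, ?_⟩
    rw [← hUm, ← hVm, ← ha, Subgroup.map_map, Subgroup.map_map]
    congr 1
  exact Cfsg.Agent.Lib.Helper32.gy_core hp hsolH h0 htransH

end Cfsg.Agent.S3798
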