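import Mathlib
import Cfsg.Statements.S3800

set_option autoImplicit false
open Cfsg

namespace Cfsg.Agent.S3800

open scoped Pointwise

theorem relIndex_sup_dvd {G : Type*} [Group G] [Finite G] (P N : Subgroup G) [N.Normal] :
    P.relIndex (P ⊔ N) ∣ Nat.card N := by
  have h1 : Nat.card P * P.relIndex (P ⊔ N) = Nat.card (P ⊔ N : Subgroup G) := by
    have := Subgroup.relIndex_mul_relIndex ⊥ P (P ⊔ N) bot_le le_sup_left
    simpa using this
  have h2 : Nat.card N * N.relIndex (P ⊔ N) = Nat.card (P ⊔ N : Subgroup G) := by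
    have := Subgroup.relIndex_mul_relIndex ⊥ N (P ⊔ N) bot_le le_sup_right
    simpa using this
  have h3 : N.relIndex (P ⊔ N) = N.relIndex P := Subgroup.relIndex_sup_right P N
  obtain ⟨c, hc⟩ : N.relIndex P ∣ Nat.card P := Subgroup.relIndex_dvd_card N P
  have hpos : 0 < N.relIndex P := by
    rcases Nat.eq_zero_or_pos (N.relIndex P) with h | h
    · rw [h, zero_mul] at hc
      exact absurd hc (Nat.card_pos).ne'
    · exact h
  rw [h3] at h2
  rw [hc, ← h2] at h1
  have h4 : N.relIndex P * (c * P.relIndex (P ⊔ N)) = N.relIndex P * Nat.card N := by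
    rw [← mul_assoc, h1, mul_comm]
  exact Dvd.intro_left c (Nat.eq_of_mul_eq_mul_left hpos h4)

theorem conj_into {G : Type*} [Group G] [Finite G] {p : ℕ} [Fact p.Prime] (P N : Subgroup G) [N.Normal]
    (hP : IsPGroup p P) (hN : (Nat.card N).Coprime p) (Q : Subgroup G) (hQ : IsPGroup p Q)
    (hQK : Q ≤ P ⊔ N) : ∃ k ∈ P ⊔ N, ∀ x ∈ Q, k⁻¹ * x * k ∈ P := by
  have hp : p.Prime := Fact.out
  have hidx : ¬ p ∣ (P.subgroupOf (P ⊔ N)).index := by
    intro h
    have h1 : p ∣ Nat.card N := h.trans (relIndex_sup_dvd P N)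
    have := Nat.dvd_gcd h1 (dvd_refl p)
    rw [hN] at this
    exact hp.one_lt.ne' (Nat.dvd_one.mp this)
  let P1 : Sylow p (P ⊔ N : Subgroup G) := (hP.comap_subtype (K := P ⊔ N)).toSylow hidx
  obtain ⟨Q1, hQ1⟩ := (hQ.comap_subtype (K := P ⊔ N)).exists_le_sylow
  obtain ⟨k, hk⟩ := MulAction.exists_smul_eq (P ⊔ N : Subgroup G) P1 Q1
  refine ⟨(k : G), k.2, ?_⟩
  intro x hx
  have hxQ1 : (⟨x, hQK hx⟩ : (P ⊔ N : Subgroup G)) ∈ Q1 := hQ1 hx
  rw [← hk, Sylow.smul_def] at hxQ1
  have h2 : (⟨x, hQK hx⟩ : (P ⊔ N : Subgroup G)) ∈ MulAut.conj k • (P1 : Subgroup (P ⊔ N : Subgroup G)) := hxQ1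
  rw [Subgroup.mem_pointwise_smul_iff_inv_smul_mem] at h2
  have h3 : ((MulAut.conj k)⁻¹ • (⟨x, hQK hx⟩ : (P ⊔ N : Subgroup G)) : (P ⊔ N : Subgroup G)) ∈ P.subgroupOf (P ⊔ N) := h2
  rw [Subgroup.mem_subgroupOf] at h3
  simpa [MulAut.smul_def, MulAut.conj_inv_apply] using h3

theorem mem_normalizer_of_conj_le {G : Type*} [Group G] [Finite G] (P : Subgroup G) (m : G)
    (h : ∀ u ∈ P, m * u * m⁻¹ ∈ P) : m ∈ Subgroup.normalizer (P : Set G) := by
  rw [Subgroup.mem_normalizer_iff_map_conj_eq]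
  apply Subgroup.eq_of_le_of_card_ge
  · rintro _ ⟨u, hu, rfl⟩
    simpa using h u hu
  · exact (Subgroup.card_map_of_injective (MulAut.conj m).injective).ge

/-- Let G be a finite group, N a normal subgroup of G whose order is prime to p, and P a p-subgroup of G. Then in G/N the normalizer of the image of P is the image of N_G(P), and the centralizer of the image of P is the image of C_G(P). -/
theorem result {G : Type*} [Group G] [Finite G] {p : ℕ} [Fact p.Prime] (N : Subgroup G) [N.Normal] (hN : (Nat.card N).Coprime p) (P : Subgroup G) (hP : IsPGroup p P) : Subgroup.normalizer ((P.map (QuotientGroup.mk' N)) : Set (G ⧸ N)) = (Subgroup.normalizer (P : Set G)).map (QuotientGroup.mk' N) ∧ Subgroup.centralizer ((P.map (QuotientGroup.mk' N)) : Set (G ⧸ N)) = (Subgroup.centralizer (P : Set G)).map (QuotientGroup.mk' N) := by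
  have hnorm : Subgroup.normalizer ((P.map (QuotientGroup.mk' N)) : Set (G ⧸ N)) =
      (Subgroup.normalizer (P : Set G)).map (QuotientGroup.mk' N) := by
    apply le_antisymm
    · intro y hy
      obtain ⟨g, rfl⟩ := QuotientGroup.mk'_surjective N y
      have hQK : P.map (MulAut.conj g).toMonoidHom ≤ P ⊔ N := by
        rintro _ ⟨u, hu, rfl⟩
        have h1 : QuotientGroup.mk' N g * QuotientGroup.mk' N u * (QuotientGroup.mk' N g)⁻¹ ∈
            P.map (QuotientGroup.mk' N) :=
          (Subgroup.mem_normalizer_iff.mp hy _).mp (Subgroup.mem_map_of_mem _ hu)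
        obtain ⟨u', hu', he⟩ := h1
        have h2 : u'⁻¹ * (g * u * g⁻¹) ∈ N := by
          rw [← QuotientGroup.eq]
          simpa using he
        have : g * u * g⁻¹ = u' * (u'⁻¹ * (g * u * g⁻¹)) := by group
        simp only [MulEquiv.toMonoidHom_eq_coe, MonoidHom.coe_coe, MulAut.conj_apply]
        rw [this]
        exact Subgroup.mul_mem _ (Subgroup.mem_sup_left hu') (Subgroup.mem_sup_right h2)
      have hQ : IsPGroup p (P.map (MulAut.conj g).toMonoidHom) := hP.map _
      obtain ⟨k, hk, hkP⟩ := conj_into P N hP hN _ hQ hQK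
      have hn : k⁻¹ * g ∈ Subgroup.normalizer (P : Set G) := by
        apply mem_normalizer_of_conj_le
        intro u hu
        have := hkP (g * u * g⁻¹) ⟨u, hu, by simp⟩
        have e : k⁻¹ * g * u * (k⁻¹ * g)⁻¹ = k⁻¹ * (g * u * g⁻¹) * k := by group
        rw [e]
        exact this
      rw [← SetLike.mem_coe, Subgroup.mul_normal, Set.mem_mul] at hk
      obtain ⟨u, hu, n, hn', rfl⟩ := hk
      refine ⟨u * ((u * n)⁻¹ * g), ?_, ?_⟩
      · exact Subgroup.mul_mem _ (Subgroup.le_normalizer hu) hn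
      · have e : u * ((u * n)⁻¹ * g) = (u * n⁻¹ * u⁻¹) * g := by group
        rw [e, map_mul]
        have : QuotientGroup.mk' N (u * n⁻¹ * u⁻¹) = 1 := by
          rw [QuotientGroup.mk'_apply, QuotientGroup.eq_one_iff]
          exact Subgroup.Normal.conj_mem inferInstance _ (N.inv_mem hn') u
        rw [this, one_mul]
    · exact Subgroup.le_normalizer_map _
  refine ⟨hnorm, ?_⟩
  have hPN : P ⊓ N = ⊥ := by
    apply disjoint_iff.mp
    apply Subgroup.disjoint_of_coprime_natCard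
    obtain ⟨k, hk⟩ := IsPGroup.iff_card.mp hP
    rw [hk]
    exact Nat.Coprime.pow_left k hN.symm
  apply le_antisymm
  · intro y hy
    have hy' : y ∈ Subgroup.normalizer ((P.map (QuotientGroup.mk' N)) : Set (G ⧸ N)) :=
      Subgroup.centralizer_le_normalizer _ hy
    rw [hnorm] at hy'
    obtain ⟨c, hc, rfl⟩ := hy'
    refine ⟨c, Subgroup.mem_centralizer_iff.mpr ?_, rfl⟩
    intro u hu
    have h1 : c * u * c⁻¹ * u⁻¹ ∈ P := by
      apply P.mul_mem _ (P.inv_mem hu)
      exact (Subgroup.mem_normalizer_iff.mp hc u).mp hu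
    have h2 : c * u * c⁻¹ * u⁻¹ ∈ N := by
      rw [← QuotientGroup.eq_one_iff, ← QuotientGroup.mk'_apply]
      have := (Subgroup.mem_centralizer_iff.mp hy) (QuotientGroup.mk' N u) (Subgroup.mem_map_of_mem _ hu)
      simp only [map_mul, map_inv]
      rw [← this]
      group
    have h3 : c * u * c⁻¹ * u⁻¹ ∈ P ⊓ N := ⟨h1, h2⟩
    rw [hPN, Subgroup.mem_bot] at h3
    have : c * u = (c * u * c⁻¹ * u⁻¹) * (u * c) := by group
    rw [this, h3, one_mul]
  · rintro _ ⟨c, hc, rfl⟩
    rw [Subgroup.mem_centralizer_iff]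
    rintro _ ⟨u, hu, rfl⟩
    rw [← map_mul, ← map_mul, (Subgroup.mem_centralizer_iff.mp hc) u hu]

end Cfsg.Agent.S3800
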