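import Cfsg.Statements.S3950
import Mathlib
import Cfsg.Agent.Lib.Helper29.BilCover
-- import your own Cfsg.Agent.* helpers here

set_option autoImplicit false
open Cfsg

namespace Cfsg.Agent.S3950

open Cfsg.Agent.Lib.Helper29

/-- A product of cyclic groups of pairwise coprime orders is cyclic. -/
theorem isCyclic_of_pi_coprime {G : Type*} [CommGroup G] {ι : Type} [Fintype ι] (n : ι → ℕ)
    (e : G ≃* ((i : ι) → Multiplicative (ZMod (n i))))
    (cop : Pairwise (Function.onFun Nat.Coprime n)) : IsCyclic G := by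
  let e2 : Multiplicative (ZMod (∏ i, n i)) ≃* ((i : ι) → Multiplicative (ZMod (n i))) :=
    (AddEquiv.toMultiplicative (ZMod.prodEquivPi n cop).toAddEquiv).trans
      (MulEquiv.piMultiplicative _)
  exact isCyclic_of_surjective (e2.trans e.symm) (e2.trans e.symm).surjective

/-- A non-cyclic finite abelian group has two homomorphisms to some `ZMod p` that are
independent on a pair of elements. -/
theorem exists_indep_homs_of_not_isCyclic {G : Type*} [CommGroup G] [Finite G]
    (h : ¬ IsCyclic G) :
    ∃ (p : ℕ) (_ : p.Prime) (α β : G →* Multiplicative (ZMod p)) (g g' : G),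
      Multiplicative.toAdd (α g) * Multiplicative.toAdd (β g') -
        Multiplicative.toAdd (α g') * Multiplicative.toAdd (β g) = 1 := by
  classical
  obtain ⟨ι, _, n, hn, ⟨e⟩⟩ := CommGroup.equiv_prod_multiplicative_zmod_of_finite G
  have hex : ∃ i j, i ≠ j ∧ ¬ Nat.Coprime (n i) (n j) := by
    by_contra hcon
    push Not at hcon
    exact h (isCyclic_of_pi_coprime n e (fun i j hij => hcon i j hij))
  obtain ⟨i, j, hij, hnc⟩ := hex
  obtain ⟨p, hp, hpi, hpj⟩ := Nat.Prime.not_coprime_iff_dvd.mp hnc
  refine ⟨p, hp,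
    (AddMonoidHom.toMultiplicative (ZMod.castHom hpi (ZMod p)).toAddMonoidHom).comp
      ((Pi.evalMonoidHom _ i).comp e.toMonoidHom),
    (AddMonoidHom.toMultiplicative (ZMod.castHom hpj (ZMod p)).toAddMonoidHom).comp
      ((Pi.evalMonoidHom _ j).comp e.toMonoidHom),
    e.symm (Pi.mulSingle i (Multiplicative.ofAdd 1)),
    e.symm (Pi.mulSingle j (Multiplicative.ofAdd 1)), ?_⟩
  have e1 : Multiplicative.toAdd
      (((AddMonoidHom.toMultiplicative (ZMod.castHom hpi (ZMod p)).toAddMonoidHom).comp
        ((Pi.evalMonoidHom _ i).comp e.toMonoidHom))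
        (e.symm (Pi.mulSingle i (Multiplicative.ofAdd 1)))) = 1 := by
    simp only [MonoidHom.coe_comp, Function.comp_apply, MulEquiv.coe_toMonoidHom,
      MulEquiv.apply_symm_apply, Pi.evalMonoidHom_apply, Pi.mulSingle_eq_same]
    exact map_one (ZMod.castHom hpi (ZMod p))
  have e2 : Multiplicative.toAdd
      (((AddMonoidHom.toMultiplicative (ZMod.castHom hpj (ZMod p)).toAddMonoidHom).comp
        ((Pi.evalMonoidHom _ j).comp e.toMonoidHom))
        (e.symm (Pi.mulSingle j (Multiplicative.ofAdd 1)))) = 1 := by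
    simp only [MonoidHom.coe_comp, Function.comp_apply, MulEquiv.coe_toMonoidHom,
      MulEquiv.apply_symm_apply, Pi.evalMonoidHom_apply, Pi.mulSingle_eq_same]
    exact map_one (ZMod.castHom hpj (ZMod p))
  have e3 : Multiplicative.toAdd
      (((AddMonoidHom.toMultiplicative (ZMod.castHom hpi (ZMod p)).toAddMonoidHom).comp
        ((Pi.evalMonoidHom _ i).comp e.toMonoidHom))
        (e.symm (Pi.mulSingle j (Multiplicative.ofAdd 1)))) = 0 := by
    simp only [MonoidHom.coe_comp, Function.comp_apply, MulEquiv.coe_toMonoidHom,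
      MulEquiv.apply_symm_apply, Pi.evalMonoidHom_apply, Pi.mulSingle_eq_of_ne hij]
    exact map_zero (ZMod.castHom hpi (ZMod p))
  rw [e1, e2, e3]
  ring

/-- A finite abelian group has trivial Schur multiplier if and only if it is cyclic. -/
theorem result {G : Type*} [CommGroup G] [Finite G] : Cfsg.HasCyclicSchurMultiplier G 1 ↔ IsCyclic G := by
  constructor
  · intro h
    by_contra hnc
    obtain ⟨p, hp, α, β, g, g', hdet⟩ := exists_indep_homs_of_not_isCyclic hnc
    have : Fact p.Prime := ⟨hp⟩
    have : NeZero p := ⟨hp.ne_zero⟩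
    obtain ⟨Γ, _, _, σ, hst, ⟨eqv⟩⟩ := exists_stem_cover p α β g g' (mul_comm _ _) hdet
    obtain ⟨π, hπ⟩ := h.2 Γ σ hst
    have : Subsingleton (Multiplicative (ZMod 1)) := inferInstanceAs (Subsingleton (ZMod 1))
    obtain ⟨a0, ha0⟩ := hπ (eqv.symm (Multiplicative.ofAdd 0))
    obtain ⟨a1, ha1⟩ := hπ (eqv.symm (Multiplicative.ofAdd 1))
    have h01 : eqv.symm (Multiplicative.ofAdd (0 : ZMod p)) = eqv.symm (Multiplicative.ofAdd 1) := by
      rw [← ha0, ← ha1, Subsingleton.elim a0 a1]
    have h2 : (0 : ZMod p) = 1 := Multiplicative.ofAdd.injective (eqv.symm.injective h01)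
    exact zero_ne_one h2
  · intro hcyc
    apply hasCyclicSchurMultiplier_one_of
    intro Γ _ _ σ hst
    have hcomm : ∀ a b : Γ, a * b = b * a := commutative_of_cyclic_center_quotient σ hst.2.1
    have hbot : commutator Γ = ⊥ := by
      rw [eq_bot_iff, commutator_def, Subgroup.commutator_le]
      intro a _ b _
      rw [Subgroup.mem_bot, commutatorElement_def, hcomm a b, mul_inv_cancel_right,
        mul_inv_cancel]
    rw [eq_bot_iff, ← hbot]
    exact hst.2.2

end Cfsg.Agent.S3950
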