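import Cfsg.Statements.S3951
import Mathlib
import Cfsg.Agent.Lib.Helper29.BilCover
-- import your own Cfsg.Agent.* helpers here

set_option autoImplicit false
open Cfsg

namespace Cfsg.Agent.S3951

open Cfsg.Agent.Lib.Helper29

theorem zmod_prod_gen1 (m n : ℕ) [NeZero m] [NeZero n] (a : ZMod m) :
    Multiplicative.ofAdd ((a, 0) : ZMod m × ZMod n) =
      (Multiplicative.ofAdd ((1 : ZMod m), (0 : ZMod n))) ^ a.val := by
  rw [← ofAdd_nsmul, Prod.smul_mk, nsmul_one, smul_zero, ZMod.natCast_zmod_val]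

theorem zmod_prod_gen2 (m n : ℕ) [NeZero m] [NeZero n] (b : ZMod n) :
    Multiplicative.ofAdd ((0, b) : ZMod m × ZMod n) =
      (Multiplicative.ofAdd ((0 : ZMod m), (1 : ZMod n))) ^ b.val := by
  rw [← ofAdd_nsmul, Prod.smul_mk, nsmul_one, smul_zero, ZMod.natCast_zmod_val]

theorem zmod_prod_split (m n : ℕ) (g : Multiplicative (ZMod m × ZMod n)) :
    g = Multiplicative.ofAdd ((Multiplicative.toAdd g).1, (0 : ZMod n)) *
      Multiplicative.ofAdd ((0 : ZMod m), (Multiplicative.toAdd g).2) := by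
  rw [← ofAdd_add, Prod.mk_add_mk, add_zero, zero_add]
  rfl

theorem zmod_prod_closure (m n : ℕ) [NeZero m] [NeZero n] :
    Subgroup.closure ({Multiplicative.ofAdd ((1 : ZMod m), (0 : ZMod n)),
      Multiplicative.ofAdd ((0 : ZMod m), (1 : ZMod n))} :
      Set (Multiplicative (ZMod m × ZMod n))) = ⊤ := by
  rw [eq_top_iff]
  intro g _
  have hg : g = (Multiplicative.ofAdd ((1 : ZMod m), (0 : ZMod n))) ^ (Multiplicative.toAdd g).1.val *
      (Multiplicative.ofAdd ((0 : ZMod m), (1 : ZMod n))) ^ (Multiplicative.toAdd g).2.val :=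
    (zmod_prod_split m n g).trans
      (congrArg₂ (· * ·) (zmod_prod_gen1 m n _) (zmod_prod_gen2 m n _))
  have hmem : (Multiplicative.ofAdd ((1 : ZMod m), (0 : ZMod n))) ^ (Multiplicative.toAdd g).1.val *
      (Multiplicative.ofAdd ((0 : ZMod m), (1 : ZMod n))) ^ (Multiplicative.toAdd g).2.val ∈
      Subgroup.closure ({Multiplicative.ofAdd ((1 : ZMod m), (0 : ZMod n)),
        Multiplicative.ofAdd ((0 : ZMod m), (1 : ZMod n))} :
        Set (Multiplicative (ZMod m × ZMod n))) :=
    Subgroup.mul_mem _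
      (Subgroup.pow_mem _ (Subgroup.subset_closure (Set.mem_insert _ _)) _)
      (Subgroup.pow_mem _ (Subgroup.subset_closure
        (Set.mem_insert_of_mem _ (Set.mem_singleton _))) _)
  exact hg.symm ▸ hmem

theorem zmod_prod_det (m n : ℕ) (hnm : n ∣ m) :
    Multiplicative.toAdd ((AddMonoidHom.toMultiplicative
        (((ZMod.castHom hnm (ZMod n)).toAddMonoidHom).comp (AddMonoidHom.fst (ZMod m) (ZMod n))))
        (Multiplicative.ofAdd ((1 : ZMod m), (0 : ZMod n)))) *
      Multiplicative.toAdd ((AddMonoidHom.toMultiplicative (AddMonoidHom.snd (ZMod m) (ZMod n)))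
        (Multiplicative.ofAdd ((0 : ZMod m), (1 : ZMod n)))) -
    Multiplicative.toAdd ((AddMonoidHom.toMultiplicative
        (((ZMod.castHom hnm (ZMod n)).toAddMonoidHom).comp (AddMonoidHom.fst (ZMod m) (ZMod n))))
        (Multiplicative.ofAdd ((0 : ZMod m), (1 : ZMod n)))) *
      Multiplicative.toAdd ((AddMonoidHom.toMultiplicative (AddMonoidHom.snd (ZMod m) (ZMod n)))
        (Multiplicative.ofAdd ((1 : ZMod m), (0 : ZMod n)))) = 1 := by
  have e1 : Multiplicative.toAdd ((AddMonoidHom.toMultiplicative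
        (((ZMod.castHom hnm (ZMod n)).toAddMonoidHom).comp (AddMonoidHom.fst (ZMod m) (ZMod n))))
        (Multiplicative.ofAdd ((1 : ZMod m), (0 : ZMod n)))) = ZMod.castHom hnm (ZMod n) 1 := rfl
  have e2 : Multiplicative.toAdd ((AddMonoidHom.toMultiplicative
        (AddMonoidHom.snd (ZMod m) (ZMod n)))
        (Multiplicative.ofAdd ((0 : ZMod m), (1 : ZMod n)))) = 1 := rfl
  have e3 : Multiplicative.toAdd ((AddMonoidHom.toMultiplicative
        (AddMonoidHom.snd (ZMod m) (ZMod n)))
        (Multiplicative.ofAdd ((1 : ZMod m), (0 : ZMod n)))) = 0 := rfl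
  rw [e1, e2, e3, map_one, mul_one, mul_zero, sub_zero]

/-- For positive integers `m` and `n` with `n` dividing `m`, the Schur multiplier of the abelian group `ZMod m × ZMod n` (written multiplicatively) is cyclic of order `n`. In particular the elementary abelian group of order `p ^ 2` has multiplier of order `p`. -/
theorem result (m n : ℕ) [NeZero m] [NeZero n] (hnm : n ∣ m) : Cfsg.HasCyclicSchurMultiplier (Multiplicative (ZMod m × ZMod n)) n := by
  constructor
  · exact exists_stem_cover n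
      (AddMonoidHom.toMultiplicative
        (((ZMod.castHom hnm (ZMod n)).toAddMonoidHom).comp (AddMonoidHom.fst (ZMod m) (ZMod n))))
      (AddMonoidHom.toMultiplicative (AddMonoidHom.snd (ZMod m) (ZMod n)))
      (Multiplicative.ofAdd ((1 : ZMod m), (0 : ZMod n)))
      (Multiplicative.ofAdd ((0 : ZMod m), (1 : ZMod n))) (mul_comm _ _) (zmod_prod_det m n hnm)
  · intro Γ _ _ σ hst
    obtain ⟨x, hx⟩ := hst.1 (Multiplicative.ofAdd ((1 : ZMod m), (0 : ZMod n)))
    obtain ⟨y, hy⟩ := hst.1 (Multiplicative.ofAdd ((0 : ZMod m), (1 : ZMod n)))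
    have hgen : Subgroup.closure ({σ x, σ y} : Set (Multiplicative (ZMod m × ZMod n))) = ⊤ := by
      rw [hx, hy]; exact zmod_prod_closure m n
    obtain ⟨hker, hpow⟩ := stem_ker_eq_zpowers_of_abelian σ hst x y hgen
    have hyn : y ^ n ∈ σ.ker := by
      rw [MonoidHom.mem_ker, map_pow, hy, ← ofAdd_nsmul]
      rw [Prod.smul_mk, nsmul_one, smul_zero, ZMod.natCast_self]
      rfl
    have hcn := hpow n hyn
    have hc : x⁻¹ * y⁻¹ * x * y ∈ σ.ker := by
      rw [hker]; exact Subgroup.mem_zpowers _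
    refine exists_surjective_zmod n (⟨x⁻¹ * y⁻¹ * x * y, hc⟩ : σ.ker) (Subtype.ext hcn) ?_
    intro k
    have hk : (k : Γ) ∈ Subgroup.zpowers (x⁻¹ * y⁻¹ * x * y) := hker ▸ k.2
    obtain ⟨j, hj⟩ := hk
    exact ⟨j, Subtype.ext hj⟩

end Cfsg.Agent.S3951
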