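import Mathlib
import Cfsg.Statements.S3952
import Cfsg.Agent.Lib.Helper35.SchurExp
-- import your own Cfsg.Agent.* helpers here

set_option autoImplicit false
open Cfsg
open scoped commutatorElement

namespace Cfsg.Agent.S3952

/-- If `A` is the Schur multiplier of the finite group `Q`, then the square of the exponent of `A` divides the order of `Q`. -/
theorem result {Q : Type*} [Group Q] [Finite Q] {A : Type*} [CommGroup A] (hA : Cfsg.HasSchurMultiplier Q A) : Monoid.exponent A ^ 2 ∣ Nat.card Q := by
  have hfin : Finite A := Cfsg.Agent.Lib.Helper35.finite_of_hasSchurMultiplier hA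
  obtain ⟨Γ, _, _, σ, hσ, ⟨e⟩⟩ := hA.1
  have hmain := Cfsg.Agent.Lib.Helper35.exponent_sq_mul_card_dvd
    (σ.ker.subtype.comp e.symm.toMonoidHom)
    (by
      intro a b hab
      have h1 : (e.symm a : Γ) = (e.symm b : Γ) := hab
      exact e.symm.injective (Subtype.ext h1))
    (fun a => hσ.2.1 (e.symm a).2) (fun a => hσ.2.2 (e.symm a).2)
  have hcard : Nat.card Γ = Nat.card Q * Nat.card A := by
    rw [Subgroup.card_eq_card_quotient_mul_card_subgroup σ.ker,
      Nat.card_congr (QuotientGroup.quotientKerEquivOfSurjective σ hσ.1).toEquiv,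
      Nat.card_congr e.toEquiv]
  rw [hcard] at hmain
  exact Nat.dvd_of_mul_dvd_mul_right Nat.card_pos hmain

end Cfsg.Agent.S3952
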