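import Mathlib
import Cfsg.Statements.S3953
import Cfsg.Agent.Lib.Helper35.SchurSylow
import Cfsg.Agent.S3952
-- import your own Cfsg.Agent.* helpers here

set_option autoImplicit false
open Cfsg
open scoped commutatorElement

namespace Cfsg.Agent.S3953

/-- Let `P` be a Sylow `p`-subgroup of the finite group `G`, let `A` be the Schur multiplier of `G` and `B` that of `P`. Then the `p`-primary component of `A` is isomorphic to a direct factor of `B`: there are subgroups `C` and `D` of `B` meeting trivially and generating `B`, with `C` isomorphic to the `p`-primary component of `A`. -/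
theorem result {G : Type*} [Group G] [Finite G] (p : ℕ) [Fact p.Prime] (P : Sylow p G) {A B : Type*} [CommGroup A] [CommGroup B] (hA : Cfsg.HasSchurMultiplier G A) (hB : Cfsg.HasSchurMultiplier P B) : ∃ C D : Subgroup B, C ⊓ D = ⊥ ∧ C ⊔ D = ⊤ ∧ Nonempty (CommGroup.primaryComponent A p ≃* C) := by
  obtain ⟨res, cor, hrc⟩ := Cfsg.Agent.Lib.Helper35.exists_res_cor (P : Subgroup G) hA hB
  have hp : p.Prime := Fact.out
  have hBp : IsPGroup p B := by
    have h1 : Monoid.exponent B ^ 2 ∣ Nat.card P := Cfsg.Agent.S3952.result hB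
    obtain ⟨n, hn⟩ := P.isPGroup'.exists_card_eq
    rw [hn] at h1
    have h2 : Monoid.exponent B ∣ p ^ n := dvd_trans (dvd_pow_self _ two_ne_zero) h1
    obtain ⟨k, -, hk⟩ := (Nat.dvd_prime_pow hp).mp h2
    intro g
    exact ⟨k, by rw [← hk]; exact Monoid.pow_exponent_eq_one g⟩
  exact Cfsg.Agent.Lib.Helper35.primary_direct_factor p (P : Subgroup G).index P.not_dvd_index
    hBp res cor hrc

end Cfsg.Agent.S3953
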