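import Mathlib
import Cfsg.Statements.S3954
import Cfsg.Agent.Lib.Helper35.SchurRes
-- import your own Cfsg.Agent.* helpers here

set_option autoImplicit false
open Cfsg
open scoped commutatorElement

namespace Cfsg.Agent.S3954

/-- Let `U` be a subgroup of index `m` in the finite group `G`, let `A` be the Schur multiplier of `G` and `B` that of `U`. Then the subgroup of `m`-th powers of `A` is isomorphic to a subgroup of `B`. -/
theorem result {G : Type*} [Group G] [Finite G] (U : Subgroup G) {A B : Type*} [CommGroup A] [CommGroup B] (hA : Cfsg.HasSchurMultiplier G A) (hB : Cfsg.HasSchurMultiplier U B) : ∃ C : Subgroup B, Nonempty ((powMonoidHom U.index : A →* A).range ≃* C) := by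
  obtain ⟨i, hi⟩ := Cfsg.Agent.Lib.Helper35.exists_injective_pow_index U hA hB
  exact ⟨i.range, ⟨MonoidHom.ofInjective hi⟩⟩

end Cfsg.Agent.S3954
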