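import Mathlib
import Cfsg.Statements.S3956
import Cfsg.Agent.Lib.Helper66.CentralExt
import Cfsg.Agent.Lib.Helper35.SchurProj

set_option autoImplicit false
universe u v w
open Cfsg

namespace Cfsg.Agent.S3956

open Cfsg.Agent.Lib.Helper66

/-- Let `σ : Γ →* Q` be a finite stem extension of the finite group `Q` such that every homomorphism from `Q` to the quotient of `GL n ℂ` by its centre, for every `n`, lifts along `σ` to a homomorphism `Γ →* GL n ℂ`. Then `σ` is a Schur covering group of `Q`: for every finite stem extension `τ : Δ →* Q` with `Δ` in the same universe as `Q`, the kernel of `τ` is a homomorphic image of the kernel of `σ`. -/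
theorem result {Q : Type u} [Group Q] [Finite Q] {Γ : Type v} [Group Γ] [Finite Γ] (σ : Γ →* Q) (hσ : Cfsg.IsStemExtension σ) (hlift : ∀ (n : ℕ) (γ : Q →* (GL (Fin n) ℂ ⧸ Subgroup.center (GL (Fin n) ℂ))), ∃ ρ : Γ →* GL (Fin n) ℂ, (QuotientGroup.mk' (Subgroup.center (GL (Fin n) ℂ))).comp ρ = γ.comp σ) (Δ : Type u) [Group Δ] [Finite Δ] (τ : Δ →* Q) (hτ : Cfsg.IsStemExtension τ) : ∃ π : σ.ker →* τ.ker, Function.Surjective π := by
  apply exists_surj_ker_of_pullback σ τ hσ hτ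
  rw [eq_bot_iff]
  intro a ha
  rw [Subgroup.mem_bot]
  obtain ⟨ha1, ha2⟩ := ha
  have h1 : a.1.1 = 1 := MonoidHom.mem_ker.mp ha1
  have hd : a.1.2 ∈ τ.ker := by
    rw [MonoidHom.mem_ker]
    have := a.2
    rw [mem_pullback, h1, map_one] at this
    exact this.symm
  by_contra hne
  have hd1 : a.1.2 ≠ 1 := by
    intro h
    apply hne
    apply Subtype.ext
    exact Prod.ext h1 h
  obtain ⟨n, ρΔ, hsc, hρd⟩ := Cfsg.Agent.Lib.Helper35.exists_rep_scalar_on_center (hτ.2.1 hd) hd1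
  -- the projective representation of `Q` induced by `ρΔ`
  let mk := QuotientGroup.mk' (Subgroup.center (GL (Fin n) ℂ))
  have hk : τ.ker ≤ (mk.comp ρΔ).ker := by
    intro x hx
    rw [MonoidHom.mem_ker]
    show mk (ρΔ x) = 1
    exact (QuotientGroup.eq_one_iff _).mpr (hsc x (hτ.2.1 hx))
  let γ : Q →* (GL (Fin n) ℂ ⧸ Subgroup.center (GL (Fin n) ℂ)) :=
    τ.liftOfSurjective hτ.1 ⟨mk.comp ρΔ, hk⟩
  have hγ : ∀ d, γ (τ d) = mk (ρΔ d) := fun d =>
    MonoidHom.liftOfRightInverse_comp_apply τ _ _ ⟨mk.comp ρΔ, hk⟩ d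
  obtain ⟨ρ, hρ⟩ := hlift n γ
  have hρ' : ∀ g, mk (ρ g) = γ (σ g) := fun g => DFunLike.congr_fun hρ g
  have key := Cfsg.Agent.Lib.Helper35.eq_one_of_lift (pbFst σ τ) (ρΔ.comp (pbSnd σ τ)) ρ
    (fun p => by
      show mk (ρ (pbFst σ τ p)) = mk (ρΔ (pbSnd σ τ p))
      rw [hρ', pb_comm, hγ]) ha1 ha2
  exact hρd key
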