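import Mathlib
import Cfsg.Statements.S3957
import Cfsg.Agent.Lib.Helper66.Hopf

set_option autoImplicit false
open Cfsg
universe u v

namespace Cfsg.Agent.S3957

open Cfsg.Agent.Lib.Helper66

/-- Let `Q` be a finite group with Schur multiplier `A` and let `τ : Δ →* Q` be a finite stem extension, `Δ` in the universe of `Q`. Then there is a finite stem extension `σ : Γ →* Q` with kernel isomorphic to `A` (a Schur covering group) and a surjective homomorphism `β : Γ →* Δ` with `τ ∘ β = σ`. -/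
theorem result {Q : Type u} [Group Q] [Finite Q] {A : Type v} [CommGroup A] (hA : Cfsg.HasSchurMultiplier Q A) {Δ : Type u} [Group Δ] [Finite Δ] (τ : Δ →* Q) (hτ : Cfsg.IsStemExtension τ) : ∃ (Γ : Type u) (_ : Group Γ) (_ : Finite Γ) (σ : Γ →* Q), Cfsg.IsStemExtension σ ∧ Nonempty (σ.ker ≃* A) ∧ ∃ β : Γ →* Δ, Function.Surjective β ∧ τ.comp β = σ := by
  obtain ⟨eA⟩ := (hasSchurMultiplier_iff Q).mp hA
  obtain ⟨φ, hφ⟩ := hopf_lift Q τ hτ.1 hτ.2.1
  have hφ' : ∀ e, τ (φ e) = hopfProj Q e := fun e => by rw [← hφ]; rfl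
  have hmap := map_ker_inf_commutator (hopfProj Q) τ φ hφ (hopfProj_surjective Q) hτ.2.1
  have hmap' : (hopfM Q).map φ = τ.ker := by
    have : τ.ker ⊓ commutator Δ = τ.ker := inf_eq_left.mpr hτ.2.2
    rw [← this, ← hmap]; rfl
  have hφsurj : Function.Surjective φ := by
    intro δ
    obtain ⟨e, he⟩ := hopfProj_surjective Q (τ δ)
    have hk : δ * (φ e)⁻¹ ∈ τ.ker := MonoidHom.mem_ker.mpr (by rw [map_mul, map_inv, hφ', he]; simp)
    rw [← hmap'] at hk
    obtain ⟨m, -, hm⟩ := hk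
    refine ⟨m * e, ?_⟩
    rw [map_mul, hm]; group
  have hYle : φ.ker ≤ (hopfProj Q).ker := by
    intro e he
    rw [MonoidHom.mem_ker] at he ⊢
    rw [← hφ', he, map_one]
  obtain ⟨T, hTY, h1, h2⟩ := exists_central_complement Q φ.ker
    (hYle.trans (hopfProj_ker_le_center Q))
  have h3 : (hopfProj Q).ker ≤ T ⊔ hopfM Q := by
    intro r hr
    have hφr : φ r ∈ τ.ker := MonoidHom.mem_ker.mpr (by rw [hφ']; exact MonoidHom.mem_ker.mp hr)
    rw [← hmap'] at hφr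
    obtain ⟨m, hm, hmr⟩ := hφr
    have hk : r * m⁻¹ ∈ φ.ker := MonoidHom.mem_ker.mpr (by rw [map_mul, map_inv, hmr]; simp)
    have hk2 : r * m⁻¹ ∈ T ⊔ hopfM Q := by
      have hle : T ⊔ (φ.ker ⊓ commutator (HopfE Q)) ≤ T ⊔ hopfM Q :=
        sup_le_sup_left (inf_le_inf_right _ hYle) T
      exact hle (h2 hk)
    have : r = r * m⁻¹ * m := by group
    rw [this]
    exact Subgroup.mul_mem _ hk2 (Subgroup.mem_sup_right hm)
  obtain ⟨Γ, i1, i2, σ, q, hst, ⟨eσ⟩, hq, hqker, hσq⟩ :=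
    exists_cover_of_complement Q T (hTY.trans hYle) h1 h3
  refine ⟨Γ, i1, i2, σ, hst, ⟨eσ.trans eA.symm⟩, ?_⟩
  let β : Γ →* Δ := q.liftOfSurjective hq ⟨φ, by rw [hqker]; exact hTY⟩
  have hβ : ∀ e, β (q e) = φ e := fun e =>
    MonoidHom.liftOfRightInverse_comp_apply q _ _ ⟨φ, by rw [hqker]; exact hTY⟩ e
  refine ⟨β, ?_, ?_⟩
  · intro δ
    obtain ⟨e, rfl⟩ := hφsurj δ
    exact ⟨q e, hβ e⟩
  · refine MonoidHom.ext fun g => ?_
    obtain ⟨e, rfl⟩ := hq g
    show τ (β (q e)) = σ (q e)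
    rw [hβ, hφ']
    have := congrArg (fun f => f e) hσq
    exact this.symm

end Cfsg.Agent.S3957
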