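import Mathlib
import Cfsg.Statements.S3960
import Cfsg.Agent.Lib.Helper66.CentralExt

set_option autoImplicit false
open Cfsg
universe u
open scoped commutatorElement

namespace Cfsg.Agent.S3960

open Cfsg.Agent.Lib.Helper66

/-- A finite perfect group `Q` has a universal central extension: a finite perfect group `G` in the universe of `Q` and a surjective homomorphism `π : G →* Q` with central kernel such that for every group `X` in that universe and every surjective homomorphism `ξ : X →* Q` with central kernel there is exactly one homomorphism `η : G →* X` with `ξ ∘ η = π`. -/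
theorem result {Q : Type u} [Group Q] [Finite Q] (hQ : Group.IsPerfect Q) : ∃ (G : Type u) (_ : Group G) (_ : Finite G) (π : G →* Q), Group.IsPerfect G ∧ Function.Surjective π ∧ π.ker ≤ Subgroup.center G ∧ ∀ (X : Type u) [Group X] (ξ : X →* Q), Function.Surjective ξ → ξ.ker ≤ Subgroup.center X → ∃! η : G →* X, ξ.comp η = π := by
  -- every element of Q lifts to the commutator subgroup of F/[R,F]
  have hlift : ∀ q : Q, ∃ e ∈ commutator (HopfE Q), hopfProj Q e = q := by
    intro q
    have hq : q ∈ commutator Q := by rw [hQ.commutator_eq_top]; trivial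
    rw [← map_commutator_eq_of_surjective (hopfProj Q) (hopfProj_surjective Q)] at hq
    obtain ⟨e, he, rfl⟩ := hq
    exact ⟨e, he, rfl⟩
  have hperf : Group.IsPerfect (commutator (HopfE Q)) := by
    rw [Subgroup.isPerfect_iff]
    apply le_antisymm
    · exact Subgroup.commutator_le_left _ _
    · conv_lhs => rw [commutator_eq_closure]
      rw [Subgroup.closure_le]
      rintro _ ⟨a, b, rfl⟩
      obtain ⟨a', ha', haa⟩ := hlift (hopfProj Q a)
      obtain ⟨b', hb', hbb⟩ := hlift (hopfProj Q b)
      have hza : a'⁻¹ * a ∈ Subgroup.center (HopfE Q) :=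
        hopfProj_ker_le_center Q (MonoidHom.mem_ker.mpr (by rw [map_mul, map_inv, haa]; simp))
      have hzb : b'⁻¹ * b ∈ Subgroup.center (HopfE Q) :=
        hopfProj_ker_le_center Q (MonoidHom.mem_ker.mpr (by rw [map_mul, map_inv, hbb]; simp))
      have h1 := commutatorElement_mul_central (a := a') (b := b') hza hzb
      have h2 : a' * (a'⁻¹ * a) = a := by group
      have h3 : b' * (b'⁻¹ * b) = b := by group
      rw [h2, h3] at h1
      rw [SetLike.mem_coe, h1]
      exact Subgroup.commutator_mem_commutator ha' hb'
  refine ⟨commutator (HopfE Q), inferInstance, inferInstance,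
    (hopfProj Q).comp (commutator (HopfE Q)).subtype, hperf, ?_, ?_, ?_⟩
  · intro q
    obtain ⟨e, he, heq⟩ := hlift q
    exact ⟨⟨e, he⟩, heq⟩
  · intro x hx
    have hx' : (x : HopfE Q) ∈ Subgroup.center (HopfE Q) :=
      hopfProj_ker_le_center Q (MonoidHom.mem_ker.mpr (MonoidHom.mem_ker.mp hx))
    rw [Subgroup.mem_center_iff] at hx' ⊢
    intro y
    exact Subtype.ext (hx' y)
  · intro X _ ξ hξ hc
    obtain ⟨φ, hφ⟩ := hopf_lift Q ξ hξ hc
    refine ⟨φ.comp (commutator (HopfE Q)).subtype, ?_, ?_⟩
    · show ξ.comp (φ.comp (commutator (HopfE Q)).subtype) = _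
      rw [← MonoidHom.comp_assoc, hφ]
    · intro η hη
      apply hom_eq_of_perfect hperf ξ hc
      rw [hη, ← MonoidHom.comp_assoc, hφ]

end Cfsg.Agent.S3960
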