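import Mathlib
import Cfsg.Statements.S3961
import Cfsg.Agent.Lib.Helper66.CentralExt

set_option autoImplicit false
open Cfsg
universe u v

namespace Cfsg.Agent.S3961

open Cfsg.Agent.Lib.Helper66

/-- Let `π : G →* Q` be a surjective homomorphism with central kernel from a finite perfect group `G` (a perfect cover of `Q`). Then `π` is universal, in the sense that every surjective homomorphism `ξ : X →* Q` with central kernel from a group `X` in the universe of `G` admits a homomorphism `η : G →* X` with `ξ ∘ η = π`, if and only if `G` has trivial Schur multiplier. -/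
theorem result {G : Type u} {Q : Type v} [Group G] [Group Q] [Finite G] (hG : Group.IsPerfect G) (π : G →* Q) (hπ : Function.Surjective π) (hker : π.ker ≤ Subgroup.center G) : (∀ (X : Type u) [Group X] (ξ : X →* Q), Function.Surjective ξ → ξ.ker ≤ Subgroup.center X → ∃ η : G →* X, ξ.comp η = π) ↔ Cfsg.HasCyclicSchurMultiplier G 1 := by
  have hsub : Subsingleton (Multiplicative (ZMod 1)) := by
    show Subsingleton (ZMod 1); infer_instance
  constructor
  · intro huniv
    refine ⟨⟨G, inferInstance, inferInstance, MonoidHom.id G, ⟨Function.surjective_id, ?_, ?_⟩, ⟨?_⟩⟩, ?_⟩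
    · simp [MonoidHom.ker_id]
    · simp [MonoidHom.ker_id]
    · have h1 : Subsingleton (MonoidHom.id G).ker := by
        rw [MonoidHom.ker_id]; infer_instance
      exact
        { toFun := fun _ => 1
          invFun := fun _ => 1
          left_inv := fun _ => Subsingleton.elim _ _
          right_inv := fun _ => Subsingleton.elim _ _
          map_mul' := fun _ _ => Subsingleton.elim _ _ }
    · intro Δ _ _ τ hτ
      obtain ⟨hτs, hτc, hτd⟩ := hτ
      -- Δ is perfect
      have hΔ : Group.IsPerfect Δ := by
        constructor
        rw [eq_top_iff]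
        intro δ _
        have h1 : τ δ ∈ commutator G := by rw [hG.commutator_eq_top]; trivial
        rw [← map_commutator_eq_of_surjective τ hτs] at h1
        obtain ⟨c, hc, hcδ⟩ := h1
        have h2 : δ * c⁻¹ ∈ commutator Δ :=
          hτd (MonoidHom.mem_ker.mpr (by rw [map_mul, map_inv, hcδ]; simp))
        have h3 : δ = δ * c⁻¹ * c := by group
        rw [h3]
        exact Subgroup.mul_mem _ h2 hc
      -- the composite is a central extension of Q
      have hκs : Function.Surjective (π.comp τ) := hπ.comp hτs
      have hκc : (π.comp τ).ker ≤ Subgroup.center Δ := by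
        intro z hz
        have hz' : τ z ∈ Subgroup.center G :=
          hker (MonoidHom.mem_ker.mpr (MonoidHom.mem_ker.mp hz))
        apply mem_center_of_perfect hΔ
        intro δ
        apply hτc
        rw [MonoidHom.mem_ker, map_mul, map_mul, map_mul, map_inv, map_inv]
        have := Subgroup.mem_center_iff.mp hz' (τ δ)
        rw [← this]
        group
      obtain ⟨η, hη⟩ := huniv Δ (π.comp τ) hκs hκc
      have h2 : η.comp τ = MonoidHom.id Δ := by
        apply hom_eq_of_perfect hΔ (π.comp τ) hκc
        rw [← MonoidHom.comp_assoc, hη]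
        rfl
      have hinj : τ.ker = ⊥ := by
        rw [eq_bot_iff]
        intro x hx
        have hx' : τ x = 1 := MonoidHom.mem_ker.mp hx
        have h3 : η (τ x) = x := by
          have := congrArg (fun f => f x) h2
          exact this
        rw [hx', map_one] at h3
        exact Subgroup.mem_bot.mpr h3.symm
      refine ⟨1, ?_⟩
      intro x
      refine ⟨1, ?_⟩
      have h1 : (x : Δ) ∈ (⊥ : Subgroup Δ) := hinj ▸ x.2
      have h2 : (x : Δ) = 1 := by simpa using h1
      ext
      simp [h2]
  · intro hM X _ ξ hξ hc
    have hbot : (pbFst π ξ).ker ⊓ commutator (pullback π ξ) = ⊥ := by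
      obtain ⟨f, hf⟩ := exists_surj_of_hasSchurMultiplier G hM (pbFst π ξ)
        (pbFst_surjective π ξ hξ) (pbFst_ker_le_center π ξ hc)
      rw [eq_bot_iff]
      intro x hx
      obtain ⟨a, ha⟩ := hf ⟨x, hx⟩
      have h1 : a = 1 := Subsingleton.elim _ _
      rw [h1, map_one] at ha
      have h2 := congrArg Subtype.val ha
      exact Subgroup.mem_bot.mpr h2.symm
    let W : Subgroup (pullback π ξ) := commutator (pullback π ξ)
    let p₁ : W →* G := (pbFst π ξ).comp W.subtype
    have hinj : Function.Injective p₁ := by
      rw [injective_iff_map_eq_one]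
      intro w hw
      have h2 : w.1 ∈ (pbFst π ξ).ker ⊓ commutator (pullback π ξ) :=
        ⟨MonoidHom.mem_ker.mpr hw, w.2⟩
      rw [hbot, Subgroup.mem_bot] at h2
      exact Subtype.ext h2
    have hsurj : Function.Surjective p₁ := by
      intro g
      have hg : g ∈ commutator G := by rw [hG.commutator_eq_top]; trivial
      rw [← map_commutator_eq_of_surjective (pbFst π ξ) (pbFst_surjective π ξ hξ)] at hg
      obtain ⟨w, hw, rfl⟩ := hg
      exact ⟨⟨w, hw⟩, rfl⟩
    let e : W ≃* G := MulEquiv.ofBijective p₁ ⟨hinj, hsurj⟩
    refine ⟨((pbSnd π ξ).comp W.subtype).comp e.symm.toMonoidHom, ?_⟩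
    refine MonoidHom.ext fun g => ?_
    show ξ (pbSnd π ξ (e.symm g).1) = π g
    rw [← pb_comm]
    have : pbFst π ξ (e.symm g).1 = e (e.symm g) := rfl
    rw [this, MulEquiv.apply_symm_apply]

end Cfsg.Agent.S3961
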