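import Mathlib
import Cfsg.Statements.S3962

set_option autoImplicit false
open Cfsg

namespace Cfsg.Agent.S3962

/-- Let `G` be a perfect group and `π : G →* Q` a surjective homomorphism whose kernel is central. Then `π` maps the centre of `G` onto the centre of `Q`. Taking `π` to be the map to `G ⧸ Z(G)` shows that the central quotient of a perfect group has trivial centre. -/
theorem result {G Q : Type*} [Group G] [Group Q] (hG : Group.IsPerfect G) (π : G →* Q) (hπ : Function.Surjective π) (hker : π.ker ≤ Subgroup.center G) : (Subgroup.center G).map π = Subgroup.center Q := by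
  apply le_antisymm
  · rintro _ ⟨z, hz, rfl⟩
    have hz' : z ∈ Subgroup.center G := hz
    rw [Subgroup.mem_center_iff] at hz' ⊢
    intro q
    obtain ⟨g, rfl⟩ := hπ q
    rw [← map_mul, ← map_mul, hz' g]
  · intro q hq
    obtain ⟨z, rfl⟩ := hπ q
    refine ⟨z, ?_, rfl⟩
    rw [Subgroup.mem_center_iff] at hq
    -- for every g, z g z⁻¹ g⁻¹ lies in the kernel, hence in the centre
    have hc : ∀ g : G, z * g * z⁻¹ * g⁻¹ ∈ Subgroup.center G := by
      intro g
      apply hker
      rw [MonoidHom.mem_ker]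
      have := hq (π g)
      simp only [map_mul, map_inv]
      rw [← this]
      group
    obtain ⟨φ, hφdef⟩ : ∃ φ : G →* Subgroup.center G, ∀ g, (φ g : G) = z * g * z⁻¹ * g⁻¹ := by
      refine ⟨MonoidHom.mk' (fun g => ⟨z * g * z⁻¹ * g⁻¹, hc g⟩) ?_, fun g => rfl⟩
      intro a b
      apply Subtype.ext
      have hb := hc b
      rw [Subgroup.mem_center_iff] at hb
      show z * (a * b) * z⁻¹ * (a * b)⁻¹ = z * a * z⁻¹ * a⁻¹ * (z * b * z⁻¹ * b⁻¹)
      calc z * (a * b) * z⁻¹ * (a * b)⁻¹ = z * a * z⁻¹ * ((z * b * z⁻¹ * b⁻¹) * a⁻¹) := by group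
        _ = z * a * z⁻¹ * (a⁻¹ * (z * b * z⁻¹ * b⁻¹)) := by rw [hb a⁻¹]
        _ = z * a * z⁻¹ * a⁻¹ * (z * b * z⁻¹ * b⁻¹) := by group
    have hφ : commutator G ≤ φ.ker := by
      rw [commutator_eq_closure, Subgroup.closure_le]
      rintro x ⟨p, q, rfl⟩
      simp only [SetLike.mem_coe, MonoidHom.mem_ker, commutatorElement_def, map_mul, map_inv]
      rw [mul_comm' (φ p) (φ q)]
      group
    rw [hG.commutator_eq_top] at hφ
    show z ∈ Subgroup.center G
    rw [Subgroup.mem_center_iff]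
    intro g
    have h1 : φ g = 1 := MonoidHom.mem_ker.mp (hφ (Subgroup.mem_top g))
    have h2 : z * g * z⁻¹ * g⁻¹ = 1 := by rw [← hφdef g, h1]; rfl
    calc g * z = (z * g * z⁻¹ * g⁻¹)⁻¹ * (z * g) := by group
      _ = z * g := by rw [h2]; group

end Cfsg.Agent.S3962
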