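import Cfsg.Statements.S3963
import Mathlib
import Cfsg.Agent.Lib.Helper29.Stem
-- import your own Cfsg.Agent.* helpers here

set_option autoImplicit false
open Cfsg

namespace Cfsg.Agent.S3963

open Cfsg.Agent.Lib.Helper29

/-- For every `n ≥ 1` the dicyclic (generalized quaternion) group of order `4 n` has trivial Schur multiplier. -/
theorem result (n : ℕ) [NeZero n] : Cfsg.HasCyclicSchurMultiplier (QuaternionGroup n) 1 := by
  apply hasCyclicSchurMultiplier_one_of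
  intro Γ _ _ σ hst
  obtain ⟨x, hx⟩ := hst.1 (QuaternionGroup.a 1)
  obtain ⟨y, hy⟩ := hst.1 (QuaternionGroup.xa 0)
  have hgen : Subgroup.closure ({σ x, σ y} : Set (QuaternionGroup n)) = ⊤ := by
    rw [hx, hy]; exact quaternion_closure_eq_top n
  have hrel : σ y * σ x * (σ y)⁻¹ = (σ x)⁻¹ := by
    rw [hx, hy]; exact quaternion_rel n
  obtain ⟨w, hw, hker, hpow⟩ := stem_ker_le_zpowers σ hst x y hgen hrel
  have hc : (y * y)⁻¹ * x ^ n ∈ σ.ker := by
    rw [MonoidHom.mem_ker, map_mul, map_inv, map_mul, map_pow, hx, hy, QuaternionGroup.a_one_pow,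
      QuaternionGroup.xa_mul_xa, sub_zero, add_zero, inv_mul_cancel]
  have hwn : w ^ n = 1 := hpow n (by
    have hxn : x ^ n = y * y * ((y * y)⁻¹ * x ^ n) := by group
    have hcy : y * ((y * y)⁻¹ * x ^ n) = ((y * y)⁻¹ * x ^ n) * y :=
      Subgroup.mem_center_iff.mp (hst.2.1 hc) y
    calc y * x ^ n * y⁻¹ = y * y * (y * ((y * y)⁻¹ * x ^ n)) * y⁻¹ := by group
      _ = y * y * (((y * y)⁻¹ * x ^ n) * y) * y⁻¹ := by rw [hcy]
      _ = x ^ n := by group)
  rw [eq_bot_iff]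
  intro z hz
  obtain ⟨k, hk⟩ := hker hz
  have hk' : w ^ k = z := hk
  subst hk'
  rw [MonoidHom.mem_ker, map_zpow, hw, hx] at hz
  have h1 : (QuaternionGroup.a 1 : QuaternionGroup n) ^ (-2 * k) = 1 := by
    rw [← hz, zpow_mul]
    congr 1
    rw [zpow_neg, zpow_ofNat, pow_two, mul_inv_rev]
  have h2 : ((2 * n : ℕ) : ℤ) ∣ -2 * k := by
    have := orderOf_dvd_iff_zpow_eq_one.mpr h1
    rwa [QuaternionGroup.orderOf_a_one] at this
  have h3 : (n : ℤ) ∣ k := by
    obtain ⟨c, hc⟩ := h2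
    refine ⟨-c, ?_⟩
    push_cast at hc
    linarith
  obtain ⟨c, rfl⟩ := h3
  rw [Subgroup.mem_bot, zpow_mul, zpow_natCast, hwn, one_zpow]

end Cfsg.Agent.S3963
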