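import Cfsg.Statements.S3964
import Mathlib
import Cfsg.Agent.Lib.Helper29.Stem
-- import your own Cfsg.Agent.* helpers here

set_option autoImplicit false
open Cfsg

namespace Cfsg.Agent.S3964

open Cfsg.Agent.Lib.Helper29

/-- For odd `n` the dihedral group of order `2 n` has trivial Schur multiplier. -/
theorem result (n : ℕ) (hn : Odd n) : Cfsg.HasCyclicSchurMultiplier (DihedralGroup n) 1 := by
  have : NeZero n := ⟨by rintro rfl; simp at hn⟩
  apply hasCyclicSchurMultiplier_one_of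
  intro Γ _ _ σ hst
  obtain ⟨x, hx⟩ := hst.1 (DihedralGroup.r 1)
  obtain ⟨y, hy⟩ := hst.1 (DihedralGroup.sr 0)
  have hgen : Subgroup.closure ({σ x, σ y} : Set (DihedralGroup n)) = ⊤ := by
    rw [hx, hy]; exact dihedral_closure_eq_top n
  have hrel : σ y * σ x * (σ y)⁻¹ = (σ x)⁻¹ := by
    rw [hx, hy]; exact dihedral_rel n
  obtain ⟨w, hw, hker, hpow⟩ := stem_ker_le_zpowers σ hst x y hgen hrel
  have hxn : x ^ n ∈ σ.ker := by
    rw [MonoidHom.mem_ker, map_pow, hx, DihedralGroup.r_one_pow, ZMod.natCast_self]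
    rfl
  have hwn : w ^ n = 1 := hpow n (by
    have := Subgroup.mem_center_iff.mp (hst.2.1 hxn) y
    rw [this, mul_inv_cancel_right])
  rw [eq_bot_iff]
  intro z hz
  obtain ⟨k, hk⟩ := hker hz
  have hk' : w ^ k = z := hk
  subst hk'
  rw [MonoidHom.mem_ker, map_zpow, hw, hx] at hz
  have h1 : (DihedralGroup.r 1 : DihedralGroup n) ^ (-2 * k) = 1 := by
    rw [← hz, zpow_mul]
    congr 1
    rw [zpow_neg, zpow_ofNat, pow_two, mul_inv_rev]
  have h2 : (n : ℤ) ∣ -2 * k := by
    have := orderOf_dvd_iff_zpow_eq_one.mpr h1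
    rwa [DihedralGroup.orderOf_r_one] at this
  have h3 : (n : ℤ) ∣ k := by
    have hcop : IsCoprime (n : ℤ) (-2 : ℤ) := by
      have : IsCoprime (n : ℤ) (2 : ℤ) := by
        rw [Int.isCoprime_iff_gcd_eq_one]
        have := Nat.Coprime.symm (Nat.coprime_two_left.mpr hn)
        simpa [Int.gcd] using this
      exact this.neg_right
    exact hcop.dvd_of_dvd_mul_left h2
  obtain ⟨c, rfl⟩ := h3
  rw [Subgroup.mem_bot, zpow_mul, zpow_natCast, hwn, one_zpow]

end Cfsg.Agent.S3964
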