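import Cfsg.Statements.S3965
import Mathlib
import Cfsg.Agent.Lib.Helper29.Stem
import Cfsg.Agent.Lib.Helper29.DihedralCover
-- import your own Cfsg.Agent.* helpers here

set_option autoImplicit false
open Cfsg

namespace Cfsg.Agent.S3965

open Cfsg.Agent.Lib.Helper29

/-- For even `n ≥ 2` the dihedral group of order `2 n` has Schur multiplier cyclic of order `2`. -/
theorem result (n : ℕ) [NeZero n] (hn : Even n) : Cfsg.HasCyclicSchurMultiplier (DihedralGroup n) 2 := by
  constructor
  · refine ⟨DihedralGroup (2 * n), inferInstance, inferInstance,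
      dihedralCast (Dvd.intro_left 2 rfl : n ∣ 2 * n), dihedral_double_isStem n hn, ?_⟩
    have : Fact (Nat.Prime 2) := ⟨Nat.prime_two⟩
    have h2 : Nat.card (Multiplicative (ZMod 2)) = 2 := by
      rw [Nat.card_eq_fintype_card]
      rfl
    exact ⟨mulEquivOfPrimeCardEq (p := 2) (dihedral_double_card_ker n) h2⟩
  · intro Γ _ _ σ hst
    obtain ⟨x, hx⟩ := hst.1 (DihedralGroup.r 1)
    obtain ⟨y, hy⟩ := hst.1 (DihedralGroup.sr 0)
    have hgen : Subgroup.closure ({σ x, σ y} : Set (DihedralGroup n)) = ⊤ := by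
      rw [hx, hy]; exact dihedral_closure_eq_top n
    have hrel : σ y * σ x * (σ y)⁻¹ = (σ x)⁻¹ := by
      rw [hx, hy]; exact dihedral_rel n
    obtain ⟨w, hw, hker, hpow⟩ := stem_ker_le_zpowers σ hst x y hgen hrel
    have hxn : x ^ n ∈ σ.ker := by
      rw [MonoidHom.mem_ker, map_pow, hx, DihedralGroup.r_one_pow, ZMod.natCast_self]
      rfl
    have hwn : w ^ n = 1 := hpow n (by
      have := Subgroup.mem_center_iff.mp (hst.2.1 hxn) y
      rw [this, mul_inv_cancel_right])
    obtain ⟨m, hm⟩ := hn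
    have hσw : ∀ k : ℤ, σ (w ^ k) = (DihedralGroup.r 1 : DihedralGroup n) ^ (-2 * k) := by
      intro k
      rw [map_zpow, hw, hx, zpow_mul]
      congr 1
      rw [zpow_neg, zpow_ofNat, pow_two, mul_inv_rev]
    have hum : w ^ m ∈ σ.ker := by
      have h1 := hσw m
      rw [zpow_natCast] at h1
      rw [MonoidHom.mem_ker, h1]
      have h2 : (-2 * (m : ℤ)) = -((n : ℕ) : ℤ) := by
        rw [hm]; push_cast; ring
      rw [h2, zpow_neg, zpow_natCast, DihedralGroup.r_one_pow_n, inv_one]
    have hu2 : w ^ m * w ^ m = 1 := by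
      rw [← pow_add, ← hm, hwn]
    have hK : ∀ z : σ.ker, z = 1 ∨ z = ⟨w ^ m, hum⟩ := by
      intro z
      obtain ⟨k, hk⟩ := hker z.2
      have hk' : w ^ k = (z : Γ) := hk
      have hz1 : σ (w ^ k) = 1 := by
        rw [hk']; exact MonoidHom.mem_ker.mp z.2
      rw [hσw k] at hz1
      have h2 : (n : ℤ) ∣ -2 * k := by
        have := orderOf_dvd_iff_zpow_eq_one.mpr hz1
        rwa [DihedralGroup.orderOf_r_one] at this
      have h3 : (m : ℤ) ∣ k := by
        obtain ⟨c, hc⟩ := h2
        refine ⟨-c, ?_⟩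
        rw [hm] at hc
        push_cast at hc
        linarith
      obtain ⟨c, rfl⟩ := h3
      have hz2 : (z : Γ) = (w ^ m) ^ c := by
        rw [← hk', zpow_mul, zpow_natCast]
      obtain ⟨d, hd | hd⟩ := Int.even_or_odd' c
      · left
        apply Subtype.ext
        rw [hz2, hd, zpow_mul, zpow_ofNat, pow_two, hu2, one_zpow]
        rfl
      · right
        apply Subtype.ext
        rw [hz2, hd, zpow_add, zpow_mul, zpow_ofNat, pow_two, hu2, one_zpow, one_mul, zpow_one]
    exact exists_surjective_zmod_two (⟨w ^ m, hum⟩ : σ.ker) (Subtype.ext hu2) hK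

end Cfsg.Agent.S3965
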