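import Mathlib
import Cfsg.Statements.S3966

set_option autoImplicit false
open Cfsg
open scoped commutatorElement

namespace Cfsg.Agent.S3966

/-- the reduction map `ZMod (2 * n) → ZMod n` -/
noncomputable def red (n : ℕ) : ZMod (2 * n) →+* ZMod n := ZMod.castHom (dvd_mul_left n 2) (ZMod n)

theorem red_n (n : ℕ) : red n (n : ZMod (2 * n)) = 0 := by
  rw [map_natCast]; exact ZMod.natCast_self n

theorem two_n (n : ℕ) : (n : ZMod (2 * n)) + n = 0 := by
  have : ((2 * n : ℕ) : ZMod (2 * n)) = 0 := ZMod.natCast_self (2 * n)
  rw [← this]; push_cast; ring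

theorem red_eq_zero (n : ℕ) [NeZero n] (i : ZMod (2 * n)) : red n i = 0 ↔ i = 0 ∨ i = n := by
  constructor
  · intro h
    have hi : ((i.val : ℕ) : ZMod (2 * n)) = i := ZMod.natCast_zmod_val i
    have h1 : ((i.val : ℕ) : ZMod n) = 0 := by
      rw [← h, ← hi, map_natCast, hi]
    rw [ZMod.natCast_eq_zero_iff] at h1
    have hlt : i.val < 2 * n := ZMod.val_lt i
    obtain ⟨k, hk⟩ := h1
    have hk2 : k < 2 := by
      by_contra hc
      push Not at hc
      have : n * 2 ≤ n * k := Nat.mul_le_mul_left n hc
      omega
    interval_cases k
    · left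
      rw [← hi, hk]; simp
    · right
      rw [← hi, hk]; simp
  · rintro (rfl | rfl)
    · simp
    · exact red_n n

/-- the covering map from the dicyclic group to the dihedral group -/
noncomputable def cover (n : ℕ) : QuaternionGroup n →* DihedralGroup n :=
  MonoidHom.mk' (fun x => match x with
    | QuaternionGroup.a i => DihedralGroup.r (red n i)
    | QuaternionGroup.xa i => DihedralGroup.sr (red n i)) (by
    rintro (i | i) (j | j)
    · simp [map_add]
    · simp [map_sub]
    · simp [map_add]
    · simp [map_add, map_sub])

theorem cover_a (n : ℕ) (i : ZMod (2 * n)) : cover n (QuaternionGroup.a i) = DihedralGroup.r (red n i) := rfl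

theorem cover_xa (n : ℕ) (i : ZMod (2 * n)) : cover n (QuaternionGroup.xa i) = DihedralGroup.sr (red n i) := rfl

theorem mem_ker (n : ℕ) [NeZero n] (x : QuaternionGroup n) :
    x ∈ (cover n).ker ↔ x = QuaternionGroup.a 0 ∨ x = QuaternionGroup.a n := by
  rw [MonoidHom.mem_ker]
  rcases x with i | i
  · rw [cover_a, DihedralGroup.one_def]
    constructor
    · intro h
      have h' : red n i = 0 := by injection h
      rcases (red_eq_zero n i).mp h' with h | h
      · left; rw [h]
      · right; rw [h]
    · rintro (h | h)
      · have : i = 0 := by injection h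
        rw [this]; simp
      · have : i = n := by injection h
        rw [this, red_n]
  · rw [cover_xa, DihedralGroup.one_def]
    constructor
    · intro h; cases h
    · rintro (h | h) <;> cases h

/-- For even `n ≥ 2` the dicyclic group of order `4 n` is a stem extension of the dihedral group of order `2 n` with kernel of order `2`: there is a surjective homomorphism `QuaternionGroup n →* DihedralGroup n` whose kernel is central, lies in the commutator subgroup and has two elements. Together with the order of the multiplier this exhibits the dicyclic group as a Schur covering group of the dihedral group. -/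
theorem result (n : ℕ) [NeZero n] (hn : Even n) : ∃ σ : QuaternionGroup n →* DihedralGroup n, Cfsg.IsStemExtension σ ∧ Nat.card σ.ker = 2 := by
  refine ⟨cover n, ⟨?_, ?_, ?_⟩, ?_⟩
  · -- surjective
    have hs : Function.Surjective (red n) := ZMod.ringHom_surjective (red n)
    rintro (k | k)
    · obtain ⟨i, rfl⟩ := hs k
      exact ⟨QuaternionGroup.a i, rfl⟩
    · obtain ⟨i, rfl⟩ := hs k
      exact ⟨QuaternionGroup.xa i, rfl⟩
  · -- central
    intro x hx
    rw [mem_ker] at hx
    rw [Subgroup.mem_center_iff]
    rcases hx with rfl | rfl
    · intro g; simp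
    · rintro (j | j)
      · simp [add_comm]
      · simp only [QuaternionGroup.xa_mul_a, QuaternionGroup.a_mul_xa]
        congr 1
        have := two_n n
        linear_combination this
  · -- inside the commutator subgroup
    intro x hx
    rw [mem_ker] at hx
    rcases hx with rfl | rfl
    · rw [QuaternionGroup.a_zero]; exact one_mem _
    · obtain ⟨m, hm⟩ := hn
      have hc : ⁅(QuaternionGroup.xa 0 : QuaternionGroup n), QuaternionGroup.a (-(m : ZMod (2 * n)))⁆ =
          QuaternionGroup.a (n : ZMod (2 * n)) := by
        rw [commutatorElement_def]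
        rw [mul_inv_eq_iff_eq_mul, mul_inv_eq_iff_eq_mul]
        simp only [QuaternionGroup.xa_mul_a, QuaternionGroup.a_mul_a, QuaternionGroup.a_mul_xa]
        congr 1
        have h3 : (n : ZMod (2 * n)) = m + m := by rw [hm]; push_cast; ring
        rw [h3]
        ring
      rw [← hc, commutator_eq_closure]
      exact Subgroup.subset_closure (commutator_mem_commutatorSet _ _)
  · -- kernel has two elements
    have hset : ((cover n).ker : Set (QuaternionGroup n)) =
        {QuaternionGroup.a 0, QuaternionGroup.a (n : ZMod (2 * n))} := by
      ext x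
      simp only [SetLike.mem_coe, Set.mem_insert_iff, Set.mem_singleton_iff]
      exact mem_ker n x
    have hne : (QuaternionGroup.a 0 : QuaternionGroup n) ≠ QuaternionGroup.a (n : ZMod (2 * n)) := by
      intro h
      have h0 : (0 : ZMod (2 * n)) = n := by injection h
      have h1 : ((n : ℕ) : ZMod (2 * n)) = 0 := h0.symm
      rw [ZMod.natCast_eq_zero_iff] at h1
      have hpos : 0 < n := Nat.pos_of_ne_zero (NeZero.ne n)
      have := Nat.le_of_dvd hpos h1
      omega
    have : Nat.card (cover n).ker = ((cover n).ker : Set (QuaternionGroup n)).ncard :=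
      Nat.card_coe_set_eq _
    rw [this, hset, Set.ncard_pair hne]

end Cfsg.Agent.S3966
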