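import Cfsg.Statements.S3967
import Mathlib
import Cfsg.Agent.Lib.Helper35.Schur
import Cfsg.Agent.Lib.Helper35.MetaUpper
import Cfsg.Agent.Lib.Helper35.MetaGrp
import Cfsg.Agent.Lib.Helper35.MetaNT
-- import your own Cfsg.Agent.* helpers here

set_option autoImplicit false
open Cfsg

namespace Cfsg.Agent.S3967

open Cfsg.Agent.Lib.Helper35 Cfsg.Agent.Lib.Helper35.Meta Finset

section Abstract

variable {G : Type*} [Group G]

/-- the kernel of a finite stem extension of a metacyclic group is cyclic of order dividing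
`gcd(l, h)` -/
theorem stem_ker_bound {Γ : Type*} [Group Γ] [Finite Γ] (σ : Γ →* G) (hσ : IsStemExtension σ)
    (a b : G) (hgen : Subgroup.closure {a, b} = ⊤) (m n r l : ℕ) (hm : 0 < m) (hr : 0 < r)
    (hrn : r ^ n ≡ 1 [MOD m]) (ham : orderOf a = m) (hbn : b ^ n = a ^ tt m r l)
    (hab : b * a * b⁻¹ = a ^ r) :
    IsCyclic σ.ker ∧ Nat.card σ.ker ∣ ee m n r l := by
  obtain ⟨c, hσc, hcomm, hcm, hct, hcN⟩ := exists_comm_gen σ hσ.1 hσ.2.1 a b hgen m n r
    (tt m r l) hr (by rw [← ham]; exact pow_orderOf_eq_one a) hbn hab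
  set w := c ^ (m / dd m r) with hw
  have hd := dd_pos (r := r) hm
  have hle : σ.ker ≤ Subgroup.zpowers w := by
    intro k hk
    obtain ⟨i, rfl⟩ := Subgroup.mem_zpowers_iff.mp (hcomm (hσ.2.2 hk))
    rw [MonoidHom.mem_ker, map_zpow, hσc, ← zpow_natCast, ← zpow_mul,
      ← orderOf_dvd_iff_zpow_eq_one, ham] at hk
    obtain ⟨q, hq⟩ := dd_dvd' m r
    obtain ⟨m', hm'⟩ := dd_dvd m r
    have hm'd : m / dd m r = m' := Nat.div_eq_of_eq_mul_right hd hm'
    have hqd : (r - 1) / dd m r = q := Nat.div_eq_of_eq_mul_right hd hq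
    have hcop : Nat.Coprime m' q := by
      have := Nat.coprime_div_gcd_div_gcd (m := m) (n := r - 1) hd
      rwa [show m / m.gcd (r - 1) = m' from hm'd, show (r - 1) / m.gcd (r - 1) = q from hqd]
        at this
    have h1 : (m' : ℤ) ∣ (q : ℤ) * i := by
      have e1 : ((m : ℕ) : ℤ) = ((dd m r : ℕ) : ℤ) * (m' : ℤ) := by exact_mod_cast hm'
      have e2 : ((r - 1 : ℕ) : ℤ) = ((dd m r : ℕ) : ℤ) * (q : ℤ) := by exact_mod_cast hq
      have h2 : ((dd m r : ℕ) : ℤ) * (m' : ℤ) ∣ ((dd m r : ℕ) : ℤ) * ((q : ℤ) * i) := by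
        rw [← e1, ← mul_assoc, ← e2]; exact hk
      exact Int.dvd_of_mul_dvd_mul_left (by exact_mod_cast hd.ne') h2
    have h3 : (m' : ℤ) ∣ i := (Nat.Coprime.isCoprime hcop).dvd_of_dvd_mul_left h1
    obtain ⟨j, rfl⟩ := h3
    rw [Subgroup.mem_zpowers_iff]
    refine ⟨j, ?_⟩
    rw [hw, hm'd, ← zpow_natCast, ← zpow_mul]
  have hwe : w ^ ee m n r l = 1 := by
    rw [← orderOf_dvd_iff_pow_eq_one]
    apply Nat.dvd_gcd
    · rw [orderOf_dvd_iff_pow_eq_one, hw, ← pow_mul, ← tt_eq]; exact hct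
    · rw [orderOf_dvd_iff_pow_eq_one, hw, ← pow_mul, md_hh hm hr hrn,
        ← orderOf_dvd_iff_pow_eq_one]
      exact Nat.dvd_gcd (orderOf_dvd_of_pow_eq_one hcm) (orderOf_dvd_of_pow_eq_one hcN)
  refine ⟨Subgroup.isCyclic_of_le hle, ?_⟩
  have h1 : Nat.card σ.ker ∣ Nat.card (Subgroup.zpowers w) := Subgroup.card_dvd_of_le hle
  rw [Nat.card_zpowers] at h1
  exact h1.trans (orderOf_dvd_of_pow_eq_one hwe)

end Abstract

section Pres

variable (m n r l : ℕ)

/-- the relators of the metacyclic presentation -/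
def rels : Set (FreeGroup Bool) :=
  {FreeGroup.of true ^ m, (FreeGroup.of false) ^ n * (FreeGroup.of true ^ (m * l / Nat.gcd m (r - 1)))⁻¹, FreeGroup.of false * FreeGroup.of true * (FreeGroup.of false)⁻¹ * (FreeGroup.of true ^ r)⁻¹}

/-- the generator `a` -/
def ga : PresentedGroup (rels m n r l) := PresentedGroup.of true
/-- the generator `b` -/
def gb : PresentedGroup (rels m n r l) := PresentedGroup.of false

theorem ga_pow : ga m n r l ^ m = 1 := by
  have h : (PresentedGroup.mk (rels m n r l)) (FreeGroup.of true ^ m) = 1 :=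
    PresentedGroup.mk_eq_one_iff.mpr (Subgroup.subset_normalClosure (by simp [rels]))
  rw [map_pow] at h
  exact h

theorem gb_pow : gb m n r l ^ n = ga m n r l ^ tt m r l := by
  have h : (PresentedGroup.mk (rels m n r l))
      ((FreeGroup.of false) ^ n * (FreeGroup.of true ^ (m * l / Nat.gcd m (r - 1)))⁻¹) = 1 :=
    PresentedGroup.mk_eq_one_iff.mpr (Subgroup.subset_normalClosure (by simp [rels]))
  rw [map_mul, map_inv, map_pow, map_pow, mul_inv_eq_one] at h
  exact h

theorem gb_conj : gb m n r l * ga m n r l * (gb m n r l)⁻¹ = ga m n r l ^ r := by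
  have h : (PresentedGroup.mk (rels m n r l))
      (FreeGroup.of false * FreeGroup.of true * (FreeGroup.of false)⁻¹ *
        (FreeGroup.of true ^ r)⁻¹) = 1 :=
    PresentedGroup.mk_eq_one_iff.mpr (Subgroup.subset_normalClosure (by simp [rels]))
  rw [map_mul, map_inv, map_pow, map_mul, map_mul, map_inv, mul_inv_eq_one] at h
  exact h

theorem gen_top : Subgroup.closure {ga m n r l, gb m n r l} = ⊤ := by
  rw [← PresentedGroup.closure_range_of (rels m n r l)]
  congr 1
  ext x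
  simp only [Set.mem_insert_iff, Set.mem_singleton_iff, Set.mem_range, Bool.exists_bool, ga, gb]
  constructor
  · rintro (rfl | rfl)
    · exact Or.inr rfl
    · exact Or.inl rfl
  · rintro (h | h)
    · exact Or.inr h.symm
    · exact Or.inl h.symm

variable {m n r l}

theorem zmod_pow_eq_one (hrn : r ^ n ≡ 1 [MOD m]) : (r : ZMod m) ^ n = 1 := by
  have := (ZMod.natCast_eq_natCast_iff _ _ _).mpr hrn
  push_cast at this
  exact this

theorem r_mul_tt (hr : 0 < r) : (r : ZMod m) * (tt m r l : ZMod m) = tt m r l := by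
  have h1 : m ∣ tt m r l * (r - 1) := by
    rw [tt_eq]
    obtain ⟨q, hq⟩ := dd_dvd' m r
    rw [hq]
    have : m / dd m r * l * (dd m r * q) = m * (l * q) := by
      calc m / dd m r * l * (dd m r * q) = (dd m r * (m / dd m r)) * (l * q) := by ring
        _ = m * (l * q) := by rw [Nat.mul_div_cancel' (dd_dvd m r)]
    rw [this]; exact Dvd.intro _ rfl
  have h2 : ((tt m r l * (r - 1) : ℕ) : ZMod m) = 0 := (ZMod.natCast_eq_zero_iff _ _).mpr h1
  have h3 : ((r - 1 : ℕ) : ZMod m) = (r : ZMod m) - 1 := by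
    rw [Nat.cast_sub hr, Nat.cast_one]
  rw [Nat.cast_mul, h3] at h2
  linear_combination h2

/-- the key fact about the presented group, read off from a concrete model -/
theorem key (hm : 0 < m) (hn : 0 < n) (hr : 0 < r) (hrn : r ^ n ≡ 1 [MOD m]) (x j : ℕ)
    (h : ga m n r l ^ x * gb m n r l ^ j = 1) :
    ∃ k : ℕ, (x : ZMod m) = -((tt m r l : ZMod m) * (k : ZMod m)) ∧
      (j : ZMod (n * m)) = (n : ZMod (n * m)) * (k : ZMod (n * m)) := by
  have : NeZero m := ⟨hm.ne'⟩
  have : NeZero n := ⟨hn.ne'⟩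
  have hrn' : (r : ZMod m) ^ n = 1 := zmod_pow_eq_one hrn
  have hfact : Fact ((r : ZMod m) ^ (n * m) = 1) := ⟨by rw [pow_mul, hrn', one_pow]⟩
  have ht : (r : ZMod m) * (tt m r l : ZMod m) = tt m r l := r_mul_tt hr
  have ht' : (r : ZMod m) * (-(tt m r l : ZMod m)) = -(tt m r l : ZMod m) := by rw [mul_neg, ht]
  let z₀ : MetaGrp m (n * m) (r : ZMod m) :=
    MetaGrp.el (-(tt m r l : ZMod m)) (n : ZMod (n * m))
  have hz₀c : z₀ ∈ Subgroup.center (MetaGrp m (n * m) (r : ZMod m)) :=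
    MetaGrp.mem_center (by rw [pw_natCast hfact.out, hrn']) ht'
  have hz₀pow : ∀ k : ℕ, z₀ ^ k =
      MetaGrp.el (-((tt m r l : ZMod m) * (k : ZMod m)))
        ((n : ZMod (n * m)) * (k : ZMod (n * m))) := by
    intro k
    induction k with
    | zero => simp [MetaGrp.one_eq]
    | succ k ih =>
      rw [pow_succ, ih, MetaGrp.el_mul, pw_mul_eq_self ht']
      congr 1 <;> push_cast <;> ring
  have hN : (Subgroup.zpowers z₀).Normal := by
    constructor
    intro x hx g
    obtain ⟨i, rfl⟩ := Subgroup.mem_zpowers_iff.mp hx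
    have hc : Commute g (z₀ ^ i) :=
      Commute.zpow_right (Subgroup.mem_center_iff.mp hz₀c g) i
    rw [hc.eq, mul_inv_cancel_right]
    exact hx
  let f : Bool → MetaGrp m (n * m) (r : ZMod m) ⧸ Subgroup.zpowers z₀ := fun c =>
    if c then QuotientGroup.mk (MetaGrp.el 1 0) else QuotientGroup.mk (MetaGrp.el 0 1)
  have hrel : ∀ w ∈ rels m n r l, FreeGroup.lift f w = 1 := by
    intro w hw
    simp only [rels, Set.mem_insert_iff, Set.mem_singleton_iff] at hw
    rcases hw with rfl | rfl | rfl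
    · simp only [map_pow, FreeGroup.lift_apply_of, f, ↓reduceIte]
      rw [← QuotientGroup.mk_pow, MetaGrp.el_zero_pow, ZMod.natCast_self, zero_mul]
      rfl
    · simp only [map_pow, map_mul, map_inv, FreeGroup.lift_apply_of, f, ↓reduceIte, Bool.false_eq_true]
      rw [← QuotientGroup.mk_pow, ← QuotientGroup.mk_pow, ← QuotientGroup.mk_inv,
        ← QuotientGroup.mk_mul, QuotientGroup.eq_one_iff]
      have : (MetaGrp.el 0 1 : MetaGrp m (n * m) (r : ZMod m)) ^ n *
          ((MetaGrp.el 1 0) ^ (tt m r l))⁻¹ = z₀ := by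
        rw [MetaGrp.el_zero_pow, MetaGrp.el_zero_fst_pow, MetaGrp.el_inv, MetaGrp.el_mul,
          neg_zero, pw_zero, mul_one, mul_one, one_mul, add_zero, zero_add, pw_mul_eq_self ht']
      change (MetaGrp.el 0 1 : MetaGrp m (n * m) (r : ZMod m)) ^ n *
          ((MetaGrp.el 1 0) ^ (tt m r l))⁻¹ ∈ Subgroup.zpowers z₀
      rw [this]
      exact Subgroup.mem_zpowers z₀
    · simp only [map_pow, map_mul, map_inv, FreeGroup.lift_apply_of, f, ↓reduceIte, Bool.false_eq_true]
      rw [← QuotientGroup.mk_pow, ← QuotientGroup.mk_inv, ← QuotientGroup.mk_inv,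
        ← QuotientGroup.mk_mul, ← QuotientGroup.mk_mul, ← QuotientGroup.mk_mul,
        MetaGrp.be_al_conj r rfl, mul_inv_cancel]
      rfl
  let ψ := PresentedGroup.toGroup hrel
  have hψa : ψ (ga m n r l) = QuotientGroup.mk (MetaGrp.el 1 0) := by
    show ψ (PresentedGroup.of true) = _
    rw [PresentedGroup.toGroup.of]; rfl
  have hψb : ψ (gb m n r l) = QuotientGroup.mk (MetaGrp.el 0 1) := by
    show ψ (PresentedGroup.of false) = _
    rw [PresentedGroup.toGroup.of]; rfl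
  have h1 := congrArg ψ h
  rw [map_mul, map_pow, map_pow, hψa, hψb, map_one, ← QuotientGroup.mk_pow,
    ← QuotientGroup.mk_pow, ← QuotientGroup.mk_mul, QuotientGroup.eq_one_iff,
    MetaGrp.al_pow_mul_be_pow, ← mem_powers_iff_mem_zpowers] at h1
  obtain ⟨k, hk⟩ := h1
  have hk : z₀ ^ k = MetaGrp.el (x : ZMod m) (j : ZMod (n * m)) := hk
  rw [hz₀pow] at hk
  refine ⟨k, ?_, ?_⟩
  · exact (congrArg Prod.fst hk).symm
  · exact (congrArg Prod.snd hk).symm

theorem orderOf_ga (hm : 0 < m) (hn : 0 < n) (hr : 0 < r) (hrn : r ^ n ≡ 1 [MOD m]) :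
    orderOf (ga m n r l) = m := by
  apply Nat.dvd_antisymm (orderOf_dvd_of_pow_eq_one (ga_pow m n r l))
  obtain ⟨k, hk1, hk2⟩ := key hm hn hr hrn (orderOf (ga m n r l)) 0
    (by rw [pow_orderOf_eq_one, pow_zero, mul_one])
  have h1 : n * m ∣ n * k := by
    rw [← ZMod.natCast_eq_zero_iff]; push_cast; rw [← hk2]; simp
  have h2 : m ∣ k := Nat.dvd_of_mul_dvd_mul_left hn h1
  have h3 : ((k : ℕ) : ZMod m) = 0 := (ZMod.natCast_eq_zero_iff _ _).mpr h2
  rw [h3, mul_zero, neg_zero] at hk1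
  exact (ZMod.natCast_eq_zero_iff _ _).mp hk1

/-- the main theorem, in terms of the abbreviations -/
theorem main (m n r l : ℕ) (hm : 0 < m) (hn : 0 < n) (hr : 0 < r) (hrn : r ^ n ≡ 1 [MOD m]) :
    Cfsg.HasCyclicSchurMultiplier (PresentedGroup (rels m n r l)) (ee m n r l) := by
  obtain ⟨R, hR0, hRr, hRn, heR, hmeR, hgcd⟩ := exists_R l hm hr hrn
  have he := ee_pos l hm hr hrn
  have : NeZero (ee m n r l) := ⟨he.ne'⟩
  have : NeZero (m * ee m n r l) := ⟨(Nat.mul_pos hm he).ne'⟩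
  have : NeZero m := ⟨hm.ne'⟩
  have : NeZero n := ⟨hn.ne'⟩
  have hRn' : (R : ZMod (m * ee m n r l)) ^ n = 1 := zmod_pow_eq_one hRn
  have hfact : Fact ((R : ZMod (m * ee m n r l)) ^ (n * m) = 1) :=
    ⟨by rw [pow_mul, hRn', one_pow]⟩
  have hA : ga m n r l ^ (m * ee m n r l) = 1 := by rw [pow_mul, ga_pow, one_pow]
  have hB : gb m n r l ^ (n * m) = 1 := by
    rw [pow_mul, gb_pow, ← pow_mul, mul_comm, pow_mul, ga_pow, one_pow]
  have hAB : gb m n r l * ga m n r l * (gb m n r l)⁻¹ = ga m n r l ^ R := by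
    rw [gb_conj]
    exact pow_eq_pow_of_cast_eq (ga_pow m n r l) ((ZMod.natCast_eq_natCast_iff _ _ _).mpr hRr.symm)
  let ξ : MetaGrp (m * ee m n r l) (n * m) (R : ZMod (m * ee m n r l)) →*
      PresentedGroup (rels m n r l) :=
    MetaGrp.lift (ga m n r l) (gb m n r l) hA hB R rfl hAB
  have hξ : Function.Surjective ξ := by
    rw [← MonoidHom.range_eq_top, eq_top_iff, ← gen_top, Subgroup.closure_le]
    rintro x (rfl | rfl)
    · exact ⟨MetaGrp.el ((1 : ℕ) : ZMod _) ((0 : ℕ) : ZMod _), by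
        show MetaGrp.lift (ga m n r l) (gb m n r l) hA hB R rfl hAB _ = _
        rw [MetaGrp.lift_natCast]; simp⟩
    · exact ⟨MetaGrp.el ((0 : ℕ) : ZMod _) ((1 : ℕ) : ZMod _), by
        show MetaGrp.lift (ga m n r l) (gb m n r l) hA hB R rfl hAB _ = _
        rw [MetaGrp.lift_natCast]; simp⟩
  have hfinG : Finite (PresentedGroup (rels m n r l)) := Finite.of_surjective ξ hξ
  have hcen : ξ.ker ≤ Subgroup.center _ := by
    intro g hg
    rw [MonoidHom.mem_ker] at hg
    change ga m n r l ^ g.1.val * gb m n r l ^ g.2.val = 1 at hg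
    obtain ⟨k, hk1, hk2⟩ := key hm hn hr hrn _ _ hg
    rw [← MetaGrp.el_eta g]
    apply MetaGrp.mem_center
    · have h1 : g.2 = ((n * k : ℕ) : ZMod (n * m)) := by
        rw [← ZMod.natCast_zmod_val g.2, hk2]; push_cast; rfl
      rw [h1, pw_natCast hfact.out, pow_mul, hRn', one_pow]
    · have h1 : m ∣ g.1.val + tt m r l * k := by
        rw [← ZMod.natCast_eq_zero_iff]; push_cast; rw [hk1]; ring
      obtain ⟨q, hq⟩ := h1
      have h2 : m * ee m n r l ∣ (R - 1) * (g.1.val + tt m r l * k) := by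
        rw [hq]
        obtain ⟨s, hs⟩ := heR
        rw [hs]; exact ⟨s * q, by ring⟩
      have h3 : m * ee m n r l ∣ (R - 1) * (tt m r l * k) := by
        have : (R - 1) * (tt m r l * k) = tt m r l * (R - 1) * k := by ring
        rw [this]; exact Dvd.dvd.mul_right hmeR k
      have h4 : m * ee m n r l ∣ (R - 1) * g.1.val := by
        rw [mul_add] at h2
        exact (Nat.dvd_add_left h3).mp h2
      have h5 : (((R - 1) * g.1.val : ℕ) : ZMod (m * ee m n r l)) = 0 :=
        (ZMod.natCast_eq_zero_iff _ _).mpr h4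
      rw [Nat.cast_mul, Nat.cast_sub hR0, ZMod.natCast_zmod_val, Nat.cast_one] at h5
      linear_combination h5
  -- the lower bound
  have hmem : ∀ k : ℕ, (MetaGrp.el ((m * k : ℕ) : ZMod (m * ee m n r l)) 0 :
      MetaGrp (m * ee m n r l) (n * m) (R : ZMod (m * ee m n r l))) ∈
        ξ.ker ⊓ commutator _ := by
    intro k
    refine Subgroup.mem_inf.mpr ⟨?_, ?_⟩
    · rw [MonoidHom.mem_ker]
      have h1 := MetaGrp.lift_natCast (ga m n r l) (gb m n r l) hA hB R rfl hAB (m * k) 0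
      rw [Nat.cast_zero] at h1
      show MetaGrp.lift (ga m n r l) (gb m n r l) hA hB R rfl hAB _ = _
      rw [h1, pow_mul, ga_pow, one_pow, pow_zero, mul_one]
    · have hbez := Nat.gcd_eq_gcd_ab (R - 1) (m * ee m n r l)
      have h1 : ((Nat.gcd (R - 1) (m * ee m n r l) : ℕ) : ZMod (m * ee m n r l)) =
          ((R : ZMod (m * ee m n r l)) - 1) *
            ((Nat.gcdA (R - 1) (m * ee m n r l) : ℤ) : ZMod (m * ee m n r l)) := by
        have h := congrArg (fun z : ℤ => (z : ZMod (m * ee m n r l))) hbez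
        simp only [Int.cast_natCast, Int.cast_add, Int.cast_mul] at h
        rw [h, ZMod.natCast_self, zero_mul, add_zero, Nat.cast_sub hR0, Nat.cast_one]
      obtain ⟨s, hs⟩ := hgcd
      have hmq : ((m : ℕ) : ZMod (m * ee m n r l)) =
          ((Nat.gcd (R - 1) (m * ee m n r l) : ℕ) : ZMod (m * ee m n r l)) * (s : ZMod _) := by
        have := congrArg (Nat.cast : ℕ → ZMod (m * ee m n r l)) hs
        rw [Nat.cast_mul] at this
        exact this
      have h2 : ((m * k : ℕ) : ZMod (m * ee m n r l)) = ((R : ZMod (m * ee m n r l)) - 1) *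
          (((Nat.gcdA (R - 1) (m * ee m n r l) : ℤ) : ZMod (m * ee m n r l)) * s * k) := by
        rw [Nat.cast_mul, hmq, h1]; ring
      rw [h2]
      exact MetaGrp.mem_commutator _
  have hlow : ee m n r l ≤ Nat.card ↥(ξ.ker ⊓ commutator
      (MetaGrp (m * ee m n r l) (n * m) (R : ZMod (m * ee m n r l)))) := by
    let φ : Fin (ee m n r l) → ↥(ξ.ker ⊓ commutator
        (MetaGrp (m * ee m n r l) (n * m) (R : ZMod (m * ee m n r l)))) :=
      fun k => ⟨_, hmem k.val⟩
    have hinj : Function.Injective φ := by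
      intro k k' hkk
      have h1 : ((m * k.val : ℕ) : ZMod (m * ee m n r l)) = ((m * k'.val : ℕ) : ZMod _) :=
        congrArg (fun g : ↥(ξ.ker ⊓ commutator
          (MetaGrp (m * ee m n r l) (n * m) (R : ZMod (m * ee m n r l)))) => g.1.1) hkk
      rw [ZMod.natCast_eq_natCast_iff', Nat.mod_eq_of_lt (Nat.mul_lt_mul_of_pos_left k.isLt hm),
        Nat.mod_eq_of_lt (Nat.mul_lt_mul_of_pos_left k'.isLt hm)] at h1
      exact Fin.ext (Nat.eq_of_mul_eq_mul_left hm h1)
    calc ee m n r l = Nat.card (Fin (ee m n r l)) := (Nat.card_fin _).symm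
      _ ≤ _ := Nat.card_le_card_of_injective φ hinj
  -- the multiplier
  have hM := hasSchurMultiplier_M (Q := PresentedGroup (rels m n r l))
  obtain ⟨Γ₀, hG₀, hF₀, σ₀, hσ₀, ⟨e₀⟩⟩ := hM.1
  obtain ⟨hcyc, hdvd⟩ := stem_ker_bound σ₀ hσ₀ (ga m n r l) (gb m n r l) (gen_top m n r l)
    m n r l hm hr hrn (orderOf_ga hm hn hr hrn) (gb_pow m n r l) (gb_conj m n r l)
  obtain ⟨p, hp⟩ := exists_surj_of_central hM ξ hξ hcen
  have hcard : Nat.card σ₀.ker = ee m n r l := by
    apply Nat.le_antisymm (Nat.le_of_dvd he hdvd)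
    calc ee m n r l ≤ _ := hlow
      _ ≤ Nat.card (M (id : PresentedGroup (rels m n r l) → PresentedGroup (rels m n r l))) :=
          Nat.card_le_card_of_surjective p hp
      _ = Nat.card σ₀.ker := (Nat.card_congr e₀.toEquiv).symm
  have hcard' : Nat.card σ₀.ker = Nat.card (Multiplicative (ZMod (ee m n r l))) := by
    rw [hcard, Nat.card_eq_fintype_card, Fintype.card_multiplicative, ZMod.card]
  have iso : σ₀.ker ≃* Multiplicative (ZMod (ee m n r l)) := mulEquivOfCyclicCardEq hcard'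
  refine ⟨⟨Γ₀, hG₀, hF₀, σ₀, hσ₀, ⟨iso⟩⟩, ?_⟩
  intro Γ _ _ σ hσ
  obtain ⟨π, hπ⟩ := hM.2 Γ σ hσ
  exact ⟨π.comp (e₀.toMonoidHom.comp iso.symm.toMonoidHom),
    hπ.comp (e₀.surjective.comp iso.symm.surjective)⟩

end Pres

/-- Let `m, n ≥ 1`, `r ≥ 1` with `r ^ n ≡ 1 (mod m)`, and `l` a natural number; put `d = gcd(m, r - 1)`, `t = m l / d` and `h = d · gcd(m, 1 + r + ⋯ + r^(n-1)) / m`. The group presented by generators `a, b` and relations `a ^ m = 1`, `b ^ n = a ^ t`, `b a b⁻¹ = a ^ r` (a metacyclic group of order `m n`) has Schur multiplier cyclic of order `gcd(l, h)`. -/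
theorem result (m n r l : ℕ) (hm : 0 < m) (hn : 0 < n) (hr : 0 < r) (hrn : r ^ n ≡ 1 [MOD m]) : Cfsg.HasCyclicSchurMultiplier (PresentedGroup ({FreeGroup.of true ^ m, (FreeGroup.of false) ^ n * (FreeGroup.of true ^ (m * l / Nat.gcd m (r - 1)))⁻¹, FreeGroup.of false * FreeGroup.of true * (FreeGroup.of false)⁻¹ * (FreeGroup.of true ^ r)⁻¹} : Set (FreeGroup Bool))) (Nat.gcd l (Nat.gcd m (r - 1) * Nat.gcd m (∑ i ∈ Finset.range n, r ^ i) / m)) := by
  exact main m n r l hm hn hr hrn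

end Cfsg.Agent.S3967
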