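import Cfsg.Statements.S3969
import Mathlib

set_option autoImplicit false
open Cfsg
open scoped IsMulCommutative

namespace Cfsg.Agent.S3969

/-- In a finite commutative group the number of solutions of `a ^ p = 1` divides `p ^ rank`. -/
theorem card_ker_pow_dvd (A : Type*) [CommGroup A] [Finite A] (p : ℕ) :
    Nat.card (powMonoidHom p : A →* A).ker ∣ p ^ Group.rank A := by
  set φ : A →* A := powMonoidHom p with hφ
  have h1 : Nat.card φ.ker = φ.range.index := by
    have e1 := Subgroup.card_mul_index φ.ker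
    have e2 := Subgroup.card_mul_index φ.range
    rw [Subgroup.index_ker] at e1
    have hpos : 0 < Nat.card φ.range := Nat.card_pos
    exact Nat.eq_of_mul_eq_mul_right hpos (by rw [e1, mul_comm, e2])
  rw [h1, Subgroup.index_eq_card]
  have h2 : Nat.card (A ⧸ φ.range) ∣ p ^ Group.rank (A ⧸ φ.range) := by
    apply card_dvd_exponent_pow_rank'
    intro q
    induction q using QuotientGroup.induction_on with
    | H a =>
      rw [← QuotientGroup.mk_pow, QuotientGroup.eq_one_iff]
      exact ⟨a, rfl⟩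
  exact h2.trans (pow_dvd_pow p (Group.rank_le_of_surjective (QuotientGroup.mk' φ.range)
    (QuotientGroup.mk'_surjective _)))

/-- An automorphism of order prime to `p` of a commutative `p`-group which fixes all elements of order dividing `p` is trivial. -/
theorem aut_apply_eq_self {A : Type*} [CommGroup A] {p m : ℕ} (hpm : Nat.Coprime m p)
    (hA : ∀ a : A, ∃ n : ℕ, a ^ p ^ n = 1) (σ : MulAut A) (hσ : σ ^ m = 1)
    (hfix : ∀ a : A, a ^ p = 1 → σ a = a) (a : A) : σ a = a := by
  have key : ∀ n : ℕ, ∀ a : A, a ^ p ^ n = 1 → σ a = a := by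
    intro n
    induction n with
    | zero => intro a ha; rw [pow_zero, pow_one] at ha; rw [ha, map_one]
    | succ n ih =>
      intro a ha
      have h1 : σ (a ^ p) = a ^ p := ih _ (by rw [← pow_mul, ← pow_succ']; exact ha)
      set c := a⁻¹ * σ a with hc
      have hcp : c ^ p = 1 := by rw [hc, mul_pow, inv_pow, ← map_pow, h1, inv_mul_cancel]
      have hσc : σ c = c := hfix c hcp
      have hσa : σ a = a * c := by rw [hc, mul_inv_cancel_left]
      have hk : ∀ k : ℕ, (σ ^ k) a = a * c ^ k := by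
        intro k
        induction k with
        | zero => simp
        | succ k ihk =>
          rw [pow_succ', MulAut.mul_apply, ihk, map_mul, map_pow, hσc, hσa, mul_assoc, ← pow_succ']
      have hcm : c ^ m = 1 := by
        have h2 := hk m
        rw [hσ, MulAut.one_apply] at h2
        exact (mul_eq_left.1 h2.symm)
      have hc1 : c = 1 := by
        have h3 := orderOf_dvd_of_pow_eq_one hcp
        have h4 := orderOf_dvd_of_pow_eq_one hcm
        have h5 : orderOf c ∣ 1 := by
          rw [← Nat.Coprime.gcd_eq_one hpm]; exact Nat.dvd_gcd h4 h3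
        exact orderOf_eq_one_iff.1 (Nat.dvd_one.1 h5)
      rw [hσa, hc1, mul_one]
  obtain ⟨n, hn⟩ := hA a
  exact key n a hn

/-- A nontrivial automorphism of prime order `ℓ ≠ p` of a finite commutative `p`-group of rank `d` forces `ℓ ∣ p ^ i - 1` for some `1 ≤ i ≤ d`. -/
theorem exists_dvd_pow_sub_one {A : Type*} [CommGroup A] [Finite A] {p ℓ : ℕ} [Fact p.Prime]
    [Fact ℓ.Prime] (hpl : p ≠ ℓ) (hA : IsPGroup p A) (σ : MulAut A) (hσℓ : σ ^ ℓ = 1)
    (hσ1 : σ ≠ 1) : ∃ i, 1 ≤ i ∧ i ≤ Group.rank A ∧ ℓ ∣ p ^ i - 1 := by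
  classical
  have : Fintype A := Fintype.ofFinite A
  set Ω : Subgroup A := (powMonoidHom p : A →* A).ker with hΩ
  have hΩmem : ∀ a : A, a ∈ Ω ↔ a ^ p = 1 := fun a => by
    rw [hΩ, MonoidHom.mem_ker, powMonoidHom_apply]
  have hmaps : ∀ a : A, a ∈ Ω ↔ σ a ∈ Ω := by
    intro a
    rw [hΩmem, hΩmem, ← map_pow]
    constructor
    · intro h; rw [h, map_one]
    · intro h; exact σ.injective (by rw [h, map_one])
  let τ : Equiv.Perm Ω := (σ.toEquiv).subtypeEquiv hmaps
  have hτpow : ∀ (k : ℕ) (x : Ω), (((τ ^ k) x : Ω) : A) = (σ ^ k) (x : A) := by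
    intro k
    induction k with
    | zero => intro x; simp
    | succ k ih =>
      intro x
      rw [pow_succ', pow_succ', Equiv.Perm.mul_apply, MulAut.mul_apply, ← ih x]; rfl
  have hτ : τ ^ ℓ ^ 1 = 1 := by
    ext x
    rw [pow_one, hτpow, hσℓ]; rfl
  have hfix := Equiv.Perm.card_compl_support_modEq hτ
  let C : Subgroup A :=
    { carrier := {a | a ∈ Ω ∧ σ a = a}
      mul_mem' := fun {a b} ha hb => ⟨Ω.mul_mem ha.1 hb.1, by rw [map_mul, ha.2, hb.2]⟩
      one_mem' := ⟨Ω.one_mem, map_one σ⟩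
      inv_mem' := fun {a} ha => ⟨Ω.inv_mem ha.1, by rw [map_inv, ha.2]⟩ }
  have hCΩ : C ≤ Ω := fun a ha => ha.1
  have hCcard : Nat.card C = τ.supportᶜ.card := by
    rw [← Nat.card_eq_finsetCard]
    apply Nat.card_congr
    exact
      { toFun := fun a => ⟨⟨a.1, a.2.1⟩, by
          rw [Finset.mem_compl, Equiv.Perm.mem_support, not_not]
          exact Subtype.ext a.2.2⟩
        invFun := fun x => ⟨x.1.1, ⟨x.1.2, by
          have h := x.2
          rw [Finset.mem_compl, Equiv.Perm.mem_support, not_not] at h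
          exact congrArg Subtype.val h⟩⟩
        left_inv := fun a => rfl
        right_inv := fun x => rfl }
  have hΩp : IsPGroup p Ω := hA.to_subgroup Ω
  have hCp : IsPGroup p C := hA.to_subgroup C
  obtain ⟨k, hk⟩ := IsPGroup.iff_card.1 hΩp
  obtain ⟨j, hj⟩ := IsPGroup.iff_card.1 hCp
  have hp1 : 1 < p := (Fact.out : p.Prime).one_lt
  have hjk : j < k := by
    by_contra hcon
    rw [not_lt] at hcon
    have hle : Nat.card Ω ≤ Nat.card C := by
      rw [hk, hj]; exact Nat.pow_le_pow_right hp1.le hcon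
    have hCeq : C = Ω := Subgroup.eq_of_le_of_card_ge hCΩ hle
    apply hσ1
    ext a
    rw [MulAut.one_apply]
    refine aut_apply_eq_self (m := ℓ) ?_ hA σ hσℓ ?_ a
    · exact (Nat.coprime_primes Fact.out Fact.out).2 (Ne.symm hpl)
    · intro b hb
      have hbC : b ∈ C := by rw [hCeq, hΩmem]; exact hb
      exact hbC.2
  have hkr : k ≤ Group.rank A := by
    have h1 := card_ker_pow_dvd A p
    rw [← hΩ, hk] at h1
    exact (Nat.pow_dvd_pow_iff_le_right hp1).1 h1
  rw [← hCcard, ← Nat.card_eq_fintype_card, hk, hj] at hfix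
  have hdvd : ℓ ∣ p ^ k - p ^ j :=
    (Nat.modEq_iff_dvd' (Nat.pow_le_pow_right hp1.le hjk.le)).1 hfix
  have hfac : p ^ k - p ^ j = p ^ j * (p ^ (k - j) - 1) := by
    rw [Nat.mul_sub, mul_one, ← pow_add, Nat.add_sub_cancel' hjk.le]
  rw [hfac] at hdvd
  have hℓ : ℓ.Prime := Fact.out
  rcases hℓ.dvd_mul.1 hdvd with h | h
  · exfalso
    have h2 := hℓ.dvd_of_dvd_pow h
    exact hpl ((Nat.prime_dvd_prime_iff_eq hℓ Fact.out).1 h2).symm
  · exact ⟨k - j, by omega, by omega, h⟩

/-- Abelian Sylow `p`-subgroup of rank `d` and order coprime to `∏ (p ^ i - 1)`, `1 ≤ i ≤ d`: normal `p`-complement. -/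
theorem result {G : Type*} [Group G] [Finite G] (p : ℕ) [Fact p.Prime] (P : Sylow p G) (hab : IsMulCommutative (P : Subgroup G)) (hcop : Nat.Coprime (Nat.card G) (∏ i ∈ Finset.Icc 1 (Group.rank (P : Subgroup G)), (p ^ i - 1))) : Cfsg.HasNormalPComplement p G := by
  have hNC : Subgroup.normalizer ((P : Subgroup G) : Set G) ≤
      Subgroup.centralizer ((P : Subgroup G) : Set G) := by
    rw [← Subgroup.relIndex_eq_one]
    by_contra hne
    set φ := (P : Subgroup G).normalizerMonoidHom with hφ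
    have hcard : Nat.card φ.range = (Subgroup.centralizer ((P : Subgroup G) : Set G)).relIndex
        (Subgroup.normalizer ((P : Subgroup G) : Set G)) := by
      rw [← Subgroup.index_ker, Subgroup.normalizerMonoidHom_ker]; rfl
    set ℓ := (Nat.card φ.range).minFac with hℓdef
    have hℓ : ℓ.Prime := Nat.minFac_prime (by rw [hcard]; exact hne)
    have : Fact ℓ.Prime := ⟨hℓ⟩
    have hℓdvd : ℓ ∣ Nat.card φ.range := Nat.minFac_dvd _
    obtain ⟨σ0, hσ0⟩ := exists_prime_orderOf_dvd_card' ℓ hℓdvd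
    have hℓG : ℓ ∣ Nat.card G :=
      hℓdvd.trans ((Subgroup.card_range_dvd φ).trans (Subgroup.card_subgroup_dvd_card _))
    have hpl : p ≠ ℓ := by
      intro h
      apply P.not_dvd_index
      suffices hpd : ℓ ∣ (P : Subgroup G).index by rw [← h] at hpd; exact hpd
      have h1 : (Subgroup.centralizer ((P : Subgroup G) : Set G)).relIndex
          (Subgroup.normalizer ((P : Subgroup G) : Set G)) ∣
          (P : Subgroup G).relIndex (Subgroup.normalizer ((P : Subgroup G) : Set G)) :=
        Subgroup.relIndex_dvd_of_le_left _ (Subgroup.le_centralizer _)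
      have h2 := Subgroup.relIndex_dvd_index_of_le (Subgroup.le_normalizer (H := (P : Subgroup G)))
      rw [hcard] at hℓdvd
      exact hℓdvd.trans (h1.trans h2)
    have hσℓ : (σ0 : MulAut (P : Subgroup G)) ^ ℓ = 1 := by
      have h3 := pow_orderOf_eq_one σ0
      rw [hσ0] at h3
      exact_mod_cast congrArg Subtype.val h3
    have hσ1 : (σ0 : MulAut (P : Subgroup G)) ≠ 1 := by
      intro h
      have h4 : σ0 = 1 := Subtype.ext h
      rw [h4, orderOf_one] at hσ0
      exact hℓ.one_lt.ne hσ0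
    obtain ⟨i, hi1, hi2, hi3⟩ := exists_dvd_pow_sub_one hpl P.isPGroup'
      (σ0 : MulAut (P : Subgroup G)) hσℓ hσ1
    have hprod : ℓ ∣ ∏ i ∈ Finset.Icc 1 (Group.rank (P : Subgroup G)), (p ^ i - 1) :=
      hi3.trans (Finset.dvd_prod_of_mem _ (Finset.mem_Icc.2 ⟨hi1, hi2⟩))
    have h5 : ℓ ∣ Nat.gcd (Nat.card G) (∏ i ∈ Finset.Icc 1 (Group.rank (P : Subgroup G)), (p ^ i - 1)) :=
      Nat.dvd_gcd hℓG hprod
    rw [Nat.Coprime.gcd_eq_one hcop] at h5
    exact hℓ.one_lt.ne' (Nat.dvd_one.1 h5)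
  exact ⟨P, (MonoidHom.transferSylow P hNC).ker, MonoidHom.normal_ker _,
    MonoidHom.ker_transferSylow_isComplement' P hNC⟩

end Cfsg.Agent.S3969
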