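import Cfsg.Statements.S3970
import Cfsg.Agent.S3969
import Mathlib

set_option autoImplicit false
open Cfsg

namespace Cfsg.Agent.S3970

universe u

theorem sq_sub_one_eq (m : ℕ) (hm : 1 ≤ m) : m ^ 2 - 1 = (m - 1) * (m + 1) := by
  obtain ⟨k, rfl⟩ : ∃ k, m = k + 1 := ⟨m - 1, by omega⟩
  rw [Nat.add_sub_cancel]
  have h : (k + 1) ^ 2 = k * (k + 1 + 1) + 1 := by ring
  rw [h, Nat.add_sub_cancel]

theorem rank_le_one_of_card_le_two {A : Type*} [Group A] [Finite A] (h : Nat.card A ≤ 2) :
    Group.rank A ≤ 1 := by
  have hpos : 0 < Nat.card A := Nat.card_pos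
  rcases (show Nat.card A = 1 ∨ Nat.card A = 2 by omega) with h1 | h2
  · have : Subsingleton A := (Nat.card_eq_one_iff_unique.1 h1).1
    rw [Group.rank_eq_zero]; exact Nat.zero_le _
  · have : Fact (Nat.Prime 2) := ⟨Nat.prime_two⟩
    have hc : IsCyclic A := isCyclic_of_prime_card h2
    obtain ⟨g, hg⟩ := hc.exists_generator
    have hcl : Subgroup.closure (({g} : Finset A) : Set A) = ⊤ := by
      rw [Finset.coe_singleton, ← Subgroup.zpowers_eq_closure]
      exact (Subgroup.eq_top_iff' _).2 hg
    exact (Group.rank_le hcl).trans (by simp)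

theorem main : ∀ (n : ℕ) (G : Type u) [Group G] [Finite G], Nat.card G = n →
    (∀ p : ℕ, p.Prime → p ∣ Nat.card G → (∃ q : ℕ, q.Prime ∧ q ∣ Nat.card G ∧ p < q) →
      ∀ P : Sylow p G, IsMulCommutative (P : Subgroup G) ∧ Group.rank (P : Subgroup G) ≤ 2) →
    ¬ 12 ∣ Nat.card G → Group.IsSolvable G := by
  intro n
  induction n using Nat.strong_induction_on with
  | _ n ih =>
    intro G _ _ hn h h12
    by_cases h1 : Nat.card G = 1
    · have : Subsingleton G := (Nat.card_eq_one_iff_unique.1 h1).1
      infer_instance
    obtain ⟨p, hp⟩ : ∃ p, p = (Nat.card G).minFac := ⟨_, rfl⟩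
    have hpp : p.Prime := hp ▸ Nat.minFac_prime h1
    have : Fact p.Prime := ⟨hpp⟩
    have hpG : p ∣ Nat.card G := hp ▸ Nat.minFac_dvd _
    have hmin : ∀ r : ℕ, r.Prime → r ∣ Nat.card G → p ≤ r := fun r hr hrG =>
      hp ▸ Nat.minFac_le_of_dvd hr.two_le hrG
    by_cases hq : ∃ q : ℕ, q.Prime ∧ q ∣ Nat.card G ∧ p < q
    · let P : Sylow p G := default
      obtain ⟨hab, hrk⟩ := h p hpp hpG hq P
      have hcop : Nat.Coprime (Nat.card G)
          (∏ i ∈ Finset.Icc 1 (Group.rank (P : Subgroup G)), (p ^ i - 1)) := by
        apply Nat.Coprime.prod_right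
        intro i hi
        rw [Finset.mem_Icc] at hi
        apply Nat.coprime_of_dvd
        intro r hr hrG hri
        have hpr := hmin r hr hrG
        have hp2le := hpp.two_le
        have hnot1 : ¬ r ∣ p - 1 := by
          intro hd
          have h2 : r ≤ p - 1 := Nat.le_of_dvd (by omega) hd
          omega
        rcases (show i = 1 ∨ i = 2 by omega) with rfl | rfl
        · rw [pow_one] at hri; exact hnot1 hri
        · rw [sq_sub_one_eq p (by omega)] at hri
          rcases hr.dvd_mul.1 hri with hd | hd
          · exact hnot1 hd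
          · have hle : r ≤ p + 1 := Nat.le_of_dvd (by omega) hd
            have hrp : r ≠ p := by
              intro hrp
              rw [hrp] at hd
              have h3 : p ∣ 1 := (Nat.dvd_add_right (dvd_refl p)).1 hd
              exact hpp.one_lt.ne' (Nat.dvd_one.1 h3)
            have hr1 : r = p + 1 := by omega
            have hp2 : p = 2 := by
              rcases hpp.eq_two_or_odd with h2 | hodd
              · exact h2
              · exfalso
                have hev : 2 ∣ r := by rw [hr1]; omega
                have h4 : r = 2 := ((Nat.prime_dvd_prime_iff_eq Nat.prime_two hr).1 hev).symm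
                omega
            have hr3 : r = 3 := by omega
            have h4 : ¬ 4 ∣ Nat.card G := by
              intro h4
              apply h12
              have h5 : (3 * 4) ∣ Nat.card G :=
                Nat.Coprime.mul_dvd_of_dvd_of_dvd (by norm_num) (hr3 ▸ hrG) h4
              exact h5
            obtain ⟨k, hk⟩ := IsPGroup.iff_card.1 P.isPGroup'
            have hk1 : k ≤ 1 := by
              by_contra hcon
              apply h4
              have h5 : p ^ 2 ∣ p ^ k := pow_dvd_pow p (by omega)
              have h6 : p ^ k ∣ Nat.card G := hk ▸ Subgroup.card_subgroup_dvd_card _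
              have h7 := h5.trans h6
              rw [hp2] at h7
              exact h7
            have hP2 : Nat.card (P : Subgroup G) ≤ 2 := by
              rw [hk, hp2]
              calc 2 ^ k ≤ 2 ^ 1 := Nat.pow_le_pow_right (by norm_num) hk1
                _ = 2 := by norm_num
            have h8 := rank_le_one_of_card_le_two hP2
            omega
      obtain ⟨P', N, hNn, hc⟩ := Cfsg.Agent.S3969.result p P hab hcop
      have hNidx : N.index = Nat.card (P' : Subgroup G) := hc.symm.index_eq_card
      have hPidx : (P' : Subgroup G).index = Nat.card N := hc.index_eq_card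
      have hpN : ¬ p ∣ Nat.card N := by rw [← hPidx]; exact P'.not_dvd_index
      have hNdvd : Nat.card N ∣ Nat.card G := Subgroup.card_subgroup_dvd_card N
      have hNlt : Nat.card N < Nat.card G := by
        have hle : Nat.card N ≤ Nat.card G := Nat.le_of_dvd Nat.card_pos hNdvd
        have hne : Nat.card N ≠ Nat.card G := fun e => hpN (e ▸ hpG)
        omega
      have hN : Group.IsSolvable N := by
        apply ih (Nat.card N) (hn ▸ hNlt) N rfl
        · rintro r hr hrN ⟨q, hq, hqN, hrq⟩ R
          have hrG : r ∣ Nat.card G := hrN.trans hNdvd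
          have hqG : q ∣ Nat.card G := hqN.trans hNdvd
          have : Fact r.Prime := ⟨hr⟩
          have hrp : r ≠ p := by rintro rfl; exact hpN hrN
          have hidx : ¬ r ∣ ((R : Subgroup N).map N.subtype).index := by
            rw [Subgroup.index_map_subtype, hNidx]
            intro hd
            rcases hr.dvd_mul.1 hd with h7 | h7
            · exact R.not_dvd_index h7
            · obtain ⟨k, hk⟩ := IsPGroup.iff_card.1 P'.isPGroup'
              rw [hk] at h7
              exact hrp ((Nat.prime_dvd_prime_iff_eq hr hpp).1 (hr.dvd_of_dvd_pow h7))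
          let R' : Sylow r G := (R.isPGroup'.map N.subtype).toSylow hidx
          obtain ⟨hab', hrk'⟩ := h r hr hrG ⟨q, hq, hqG, hrq⟩ R'
          let e : (R : Subgroup N) ≃* (R' : Subgroup G) :=
            (R : Subgroup N).equivMapOfInjective N.subtype N.subtype_injective
          constructor
          · exact ⟨⟨fun a b => e.injective (by
              rw [map_mul, map_mul]; exact hab'.is_comm.comm _ _)⟩⟩
          · rw [Group.rank_congr e]; exact hrk'
        · exact fun hd => h12 (hd.trans hNdvd)
      have hQ : Group.IsSolvable (G ⧸ N) := by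
        have hQp : IsPGroup p (G ⧸ N) := by
          obtain ⟨k, hk⟩ := IsPGroup.iff_card.1 P'.isPGroup'
          apply IsPGroup.of_card (n := k)
          rw [← Subgroup.index_eq_card, hNidx, hk]
        have := hQp.isNilpotent
        infer_instance
      exact Group.isSolvable_of_ker_le_range N.subtype (QuotientGroup.mk' N)
        (by rw [QuotientGroup.ker_mk', Subgroup.range_subtype])
    · have hpow : Nat.card G = p ^ (Nat.card G).primeFactorsList.length := by
        apply Nat.eq_prime_pow_of_unique_prime_dvd Nat.card_pos.ne'
        intro d hd hdG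
        have h2 := hmin d hd hdG
        by_contra hne
        exact hq ⟨d, hd, hdG, lt_of_le_of_ne h2 (Ne.symm hne)⟩
      have hG : IsPGroup p G := IsPGroup.of_card hpow
      have := hG.isNilpotent
      infer_instance

/-- Abelian Sylow subgroups of rank at most two for all but the largest prime, and order not divisible by 12: solvable. -/
theorem result {G : Type*} [Group G] [Finite G] (h : ∀ p : ℕ, p.Prime → p ∣ Nat.card G → (∃ q : ℕ, q.Prime ∧ q ∣ Nat.card G ∧ p < q) → ∀ P : Sylow p G, IsMulCommutative (P : Subgroup G) ∧ Group.rank (P : Subgroup G) ≤ 2) (h12 : ¬ 12 ∣ Nat.card G) : Group.IsSolvable G :=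
  main (Nat.card G) G rfl h h12

end Cfsg.Agent.S3970
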