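import Mathlib
import Cfsg.Statements.S3973
import Cfsg.Agent.Lib.Helper35.SchurRank
-- import your own Cfsg.Agent.* helpers here

set_option autoImplicit false
open Cfsg
open scoped commutatorElement

namespace Cfsg.Agent.S3973

/-- If a finite group is presented by `n` generators and a finite set of `r` relators, then its Schur multiplier can be generated by `r - n` elements. In particular a finite group with a presentation having as many relators as generators has trivial Schur multiplier. -/
theorem result (n : ℕ) (rels : Finset (FreeGroup (Fin n))) [Finite (PresentedGroup (rels : Set (FreeGroup (Fin n))))] {A : Type*} [CommGroup A] [Finite A] (hA : Cfsg.HasSchurMultiplier (PresentedGroup (rels : Set (FreeGroup (Fin n)))) A) : Group.rank A ≤ rels.card - n := by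
  let f : Fin n → PresentedGroup (rels : Set (FreeGroup (Fin n))) := PresentedGroup.of
  have hpi : Cfsg.Agent.Lib.Helper35.piF f = PresentedGroup.mk (rels : Set (FreeGroup (Fin n))) := by
    ext i
    simp [Cfsg.Agent.Lib.Helper35.piF, f, PresentedGroup.of]
  have hf : Function.Surjective (Cfsg.Agent.Lib.Helper35.piF f) := by
    rw [hpi]; exact PresentedGroup.mk_surjective _
  have hS : (Cfsg.Agent.Lib.Helper35.piF f).ker =
      Subgroup.normalClosure (rels : Set (FreeGroup (Fin n))) := by
    rw [hpi]
    ext w
    rw [MonoidHom.mem_ker]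
    exact PresentedGroup.mk_eq_one_iff
  have h1 := Cfsg.Agent.Lib.Helper35.rank_M_le f rels hS
  rw [Fintype.card_fin] at h1
  obtain ⟨Γ, _, _, σ, hσ, ⟨e⟩⟩ := hA.1
  obtain ⟨θ, hθ⟩ := Cfsg.Agent.Lib.Helper35.exists_lift f σ hσ.1 hσ.2.1
  obtain ⟨p, hp, -⟩ := Cfsg.Agent.Lib.Helper35.surj_restrict_M hf σ hσ θ hθ
  have h2 : Group.rank A ≤ Group.rank (Cfsg.Agent.Lib.Helper35.M f) :=
    Group.rank_le_of_surjective (e.toMonoidHom.comp p) (e.surjective.comp hp)
  exact h2.trans h1

end Cfsg.Agent.S3973
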