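import Mathlib
import Cfsg.Statements.S3976
import Cfsg.Agent.Lib.Helper66.SubgroupCount

set_option autoImplicit false
open Cfsg
open scoped Pointwise

namespace Cfsg.Agent.S3976

/-- subgroups of a given order -/
abbrev SubOrd (G : Type*) [Group G] (k : ℕ) := {H : Subgroup G // Nat.card H = k}

instance subOrdAction (G : Type*) [Group G] (k : ℕ) : MulAction G (SubOrd G k) where
  smul g H := ⟨MulAut.conj g • H.1,
    (Nat.card_congr (Subgroup.equivSMul (MulAut.conj g) H.1).toEquiv.symm).trans H.2⟩
  one_smul H := by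
    apply Subtype.ext
    show MulAut.conj (1 : G) • H.1 = H.1
    rw [map_one, one_smul]
  mul_smul g h H := by
    apply Subtype.ext
    show MulAut.conj (g * h) • H.1 = MulAut.conj g • (MulAut.conj h • H.1)
    rw [map_mul, mul_smul]

theorem smul_val {G : Type*} [Group G] {k : ℕ} (g : G) (H : SubOrd G k) :
    (g • H).1 = MulAut.conj g • H.1 := rfl

/-- Let `p` be a prime and `G` a group of order `p ^ m`. For every `s ≤ m` the number of normal subgroups of `G` of order `p ^ s` is congruent to `1` modulo `p`. -/
theorem result {G : Type*} [Group G] [Finite G] (p m s : ℕ) (hp : p.Prime) (hG : Nat.card G = p ^ m) (hs : s ≤ m) : Nat.card {H : Subgroup G // H.Normal ∧ Nat.card H = p ^ s} ≡ 1 [MOD p] := by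
  have : Fact p.Prime := ⟨hp⟩
  have hdiv : p ^ s ∣ Nat.card G := by rw [hG]; exact pow_dvd_pow p hs
  have h1 := Cfsg.Agent.Lib.Helper66.card_subgroups_pow_modEq_one p s hdiv
  have hPG : IsPGroup p G := IsPGroup.of_card hG
  have h2 := hPG.card_modEq_card_fixedPoints (SubOrd G (p ^ s))
  have e : {H : Subgroup G // H.Normal ∧ Nat.card H = p ^ s} ≃
      MulAction.fixedPoints G (SubOrd G (p ^ s)) :=
    { toFun := fun H => ⟨⟨H.1, H.2.2⟩, by
        intro g
        apply Subtype.ext
        have := H.2.1
        exact Subgroup.Normal.conj_smul_eq_self g H.1⟩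
      invFun := fun H => ⟨H.1.1, by
        refine ⟨?_, H.1.2⟩
        apply Subgroup.Normal.of_conjugate_fixed
        intro g
        exact congrArg Subtype.val (H.2 g)⟩
      left_inv := fun H => rfl
      right_inv := fun H => rfl }
  rw [Nat.card_congr e]
  have h3 : Nat.card (SubOrd G (p ^ s)) ≡ 1 [MOD p] := h1
  exact h2.symm.trans h3

end Cfsg.Agent.S3976
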