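import Mathlib
import Cfsg.Statements.S3978
import Cfsg.Agent.Lib.Helper35.SchurProj
-- import your own Cfsg.Agent.* helpers here

set_option autoImplicit false
open Cfsg
open scoped commutatorElement

namespace Cfsg.Agent.S3978

/-- A finite group `Q` has trivial Schur multiplier if and only if, for every `n`, every homomorphism from `Q` to the projective general linear group (the quotient of `GL n ℂ` by its centre) lifts to a homomorphism into `GL n ℂ`. -/
theorem result {Q : Type*} [Group Q] [Finite Q] : Cfsg.HasCyclicSchurMultiplier Q 1 ↔ ∀ (n : ℕ) (γ : Q →* (GL (Fin n) ℂ ⧸ Subgroup.center (GL (Fin n) ℂ))), ∃ ρ : Q →* GL (Fin n) ℂ, (QuotientGroup.mk' (Subgroup.center (GL (Fin n) ℂ))).comp ρ = γ := by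
  constructor
  · intro hA n γ
    have hst : Cfsg.IsStemExtension (MonoidHom.id Q) := by
      refine ⟨Function.surjective_id, ?_, ?_⟩
      · rw [MonoidHom.ker_id]; exact bot_le
      · rw [MonoidHom.ker_id]; exact bot_le
    have hsub : Subsingleton (MonoidHom.id Q).ker := by
      rw [MonoidHom.ker_id]; infer_instance
    have hu : Unique (MonoidHom.id Q).ker := ⟨⟨1⟩, fun a => Subsingleton.elim _ _⟩
    have hk : Nonempty ((MonoidHom.id Q).ker ≃* Multiplicative (ZMod 1)) := ⟨MulEquiv.ofUnique⟩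
    obtain ⟨ρ, hρ⟩ := Cfsg.Agent.Lib.Helper35.exists_lift_of_schur_cover hA (MonoidHom.id Q) hst hk
      (Cfsg.Agent.Lib.Helper35.gl_center_divisible n) γ
    exact ⟨ρ, by rw [hρ, MonoidHom.comp_id]⟩
  · intro h
    apply Cfsg.Agent.Lib.Helper35.hasCyclicSchurMultiplier_one_of
    intro Y _ _ τ hτ
    by_contra hne
    obtain ⟨a, ha, ha1⟩ : ∃ a ∈ τ.ker, a ≠ 1 := by
      by_contra hcon
      push Not at hcon
      apply hne
      rw [eq_bot_iff]
      intro a ha
      rw [Subgroup.mem_bot]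
      exact hcon a ha
    obtain ⟨n, ρ, hρc, hρa⟩ :=
      Cfsg.Agent.Lib.Helper35.exists_rep_scalar_on_center (hτ.2.1 ha) ha1
    have hker : τ.ker ≤ ((QuotientGroup.mk' (Subgroup.center (GL (Fin n) ℂ))).comp ρ).ker := by
      intro z hz
      rw [MonoidHom.mem_ker, MonoidHom.comp_apply, ← MonoidHom.mem_ker, QuotientGroup.ker_mk']
      exact hρc z (hτ.2.1 hz)
    let γ : Q →* (GL (Fin n) ℂ ⧸ Subgroup.center (GL (Fin n) ℂ)) :=
      τ.liftOfRightInverse (Function.surjInv hτ.1) (Function.rightInverse_surjInv hτ.1)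
        ⟨(QuotientGroup.mk' (Subgroup.center (GL (Fin n) ℂ))).comp ρ, hker⟩
    have hγ : ∀ g, γ (τ g) = QuotientGroup.mk (ρ g) := fun g =>
      τ.liftOfRightInverse_comp_apply (Function.surjInv hτ.1) (Function.rightInverse_surjInv hτ.1)
        ⟨(QuotientGroup.mk' (Subgroup.center (GL (Fin n) ℂ))).comp ρ, hker⟩ g
    obtain ⟨ρ', hρ'⟩ := h n γ
    apply hρa
    apply Cfsg.Agent.Lib.Helper35.eq_one_of_lift τ ρ ρ' _ ha (hτ.2.2 ha)
    intro g
    rw [← hγ g, ← hρ']
    rfl

end Cfsg.Agent.S3978
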