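import Mathlib
import Cfsg.Statements.S3979

set_option autoImplicit false
open Cfsg

namespace Cfsg.Agent.S3979

/-- A finite cyclic group has trivial Schur multiplier: every finite stem extension of it is an isomorphism, said through `HasCyclicSchurMultiplier G 1`. -/
theorem result {G : Type*} [Group G] [Finite G] [IsCyclic G] : Cfsg.HasCyclicSchurMultiplier G 1 := by
  refine ⟨⟨G, inferInstance, inferInstance, MonoidHom.id G, ⟨Function.surjective_id, ?_, ?_⟩, ⟨?_⟩⟩, ?_⟩
  · simp [MonoidHom.ker_id]
  · simp [MonoidHom.ker_id]
  · have h1 : Subsingleton (MonoidHom.id G).ker := by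
      rw [MonoidHom.ker_id]; infer_instance
    have h2 : Subsingleton (Multiplicative (ZMod 1)) := by
      show Subsingleton (ZMod 1); infer_instance
    exact
      { toFun := fun _ => 1
        invFun := fun _ => 1
        left_inv := fun _ => Subsingleton.elim _ _
        right_inv := fun _ => Subsingleton.elim _ _
        map_mul' := fun _ _ => Subsingleton.elim _ _ }
  · intro Γ _ _ σ hσ
    obtain ⟨hsurj, hcent, hcomm⟩ := hσ
    have hab : IsMulCommutative Γ := MonoidHom.isMulCommutative_of_isCyclic_of_ker_le_center σ hcent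
    have hc : commutator Γ = ⊥ := by
      rw [commutator_def, Subgroup.commutator_eq_bot_iff_le_centralizer]
      intro x _ y _
      exact mul_comm' y x
    have hk : σ.ker = ⊥ := by
      rw [eq_bot_iff]; rw [hc] at hcomm; exact hcomm
    refine ⟨1, ?_⟩
    intro x
    refine ⟨1, ?_⟩
    have h1 : (x : Γ) ∈ (⊥ : Subgroup Γ) := hk ▸ x.2
    have h2 : (x : Γ) = 1 := by simpa using h1
    ext
    simp [h2]

end Cfsg.Agent.S3979
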