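import Mathlib
import Cfsg.Statements.S3980
import Cfsg.Agent.Lib.Helper66.CentralExt

set_option autoImplicit false
open Cfsg
universe u v w
open scoped commutatorElement

namespace Cfsg.Agent.S3980

open Cfsg.Agent.Lib.Helper66

theorem commutator_le_ker_of_comm {G A : Type*} [Group G] [Group A]
    (hA : ∀ a b : A, a * b = b * a) (f : G →* A) : commutator G ≤ f.ker := by
  rw [commutator_eq_closure, Subgroup.closure_le]
  rintro x ⟨p, q, rfl⟩
  simp only [SetLike.mem_coe, MonoidHom.mem_ker, commutatorElement_def, map_mul, map_inv]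
  rw [hA (f p) (f q)]
  group

theorem pow_card_ab_eq_one {D Q A' : Type*} [Group D] [Group Q] [Group A']
    (hA : ∀ a b : A', a * b = b * a) (t : D →* Q) (ht : Function.Surjective t) (β : D →* A')
    (hk : t.ker ≤ β.ker) (x : D) : β x ^ Nat.card (Abelianization Q) = 1 := by
  let β' : Q →* A' := t.liftOfSurjective ht ⟨β, hk⟩
  have hβ' : ∀ d, β' (t d) = β d := fun d =>
    MonoidHom.liftOfRightInverse_comp_apply t _ _ ⟨β, hk⟩ d
  have h1 : (t x) ^ Nat.card (Abelianization Q) ∈ commutator Q := by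
    rw [← Abelianization.ker_of, MonoidHom.mem_ker, map_pow]
    exact pow_card_eq_one'
  have h2 : commutator Q ≤ β'.ker := commutator_le_ker_of_comm hA β'
  have h3 := MonoidHom.mem_ker.mp (h2 h1)
  rw [map_pow, hβ'] at h3
  exact h3

/-- if all commutators `⁅x, y⁆` (`x ∈ H`, `y ∈ K`) are central, the commutator is multiplicative in `x` -/
theorem exists_hom_left {Δ : Type*} [Group Δ] (H : Subgroup Δ) (y : Δ)
    (h : ∀ x ∈ H, ⁅x, y⁆ ∈ Subgroup.center Δ) :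
    ∃ β : H →* Subgroup.center Δ, ∀ x : H, (β x : Δ) = ⁅(x : Δ), y⁆ := by
  refine ⟨MonoidHom.mk' (fun x => ⟨⁅(x : Δ), y⁆, h x x.2⟩) ?_, fun x => rfl⟩
  intro a b
  apply Subtype.ext
  have hb := Subgroup.mem_center_iff.mp (h b b.2)
  show ⁅(a : Δ) * (b : Δ), y⁆ = ⁅(a : Δ), y⁆ * ⁅(b : Δ), y⁆
  have e1 : ⁅(a : Δ) * (b : Δ), y⁆ = (a : Δ) * ⁅(b : Δ), y⁆ * (a : Δ)⁻¹ * ⁅(a : Δ), y⁆ := by
    simp only [commutatorElement_def]; group
  rw [e1, hb (a : Δ)]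
  have e2 : ⁅(b : Δ), y⁆ * (a : Δ) * (a : Δ)⁻¹ * ⁅(a : Δ), y⁆ = ⁅(b : Δ), y⁆ * ⁅(a : Δ), y⁆ := by group
  rw [e2, ← hb]

theorem exists_hom_right {Δ : Type*} [Group Δ] (K : Subgroup Δ) (x : Δ)
    (h : ∀ y ∈ K, ⁅x, y⁆ ∈ Subgroup.center Δ) :
    ∃ β : K →* Subgroup.center Δ, ∀ y : K, (β y : Δ) = ⁅x, (y : Δ)⁆ := by
  refine ⟨MonoidHom.mk' (fun y => ⟨⁅x, (y : Δ)⁆, h y y.2⟩) ?_, fun y => rfl⟩
  intro a b
  apply Subtype.ext
  have hb := Subgroup.mem_center_iff.mp (h b b.2)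
  show ⁅x, (a : Δ) * (b : Δ)⁆ = ⁅x, (a : Δ)⁆ * ⁅x, (b : Δ)⁆
  have e1 : ⁅x, (a : Δ) * (b : Δ)⁆ = ⁅x, (a : Δ)⁆ * ((a : Δ) * ⁅x, (b : Δ)⁆) * (a : Δ)⁻¹ := by
    simp only [commutatorElement_def]; group
  rw [e1, hb (a : Δ)]
  group

/-- Let `Q₁` and `Q₂` be finite groups whose commutator quotients have coprime orders, with Schur multipliers `A` and `B`. Then the Schur multiplier of `Q₁ × Q₂` is isomorphic to `A × B`. -/
theorem result {Q₁ : Type u} {Q₂ : Type v} [Group Q₁] [Group Q₂] [Finite Q₁] [Finite Q₂] {A B : Type w} [CommGroup A] [CommGroup B] (hA : Cfsg.HasSchurMultiplier Q₁ A) (hB : Cfsg.HasSchurMultiplier Q₂ B) (hcop : Nat.Coprime (Nat.card (Abelianization Q₁)) (Nat.card (Abelianization Q₂))) : Cfsg.HasSchurMultiplier (Q₁ × Q₂) (A × B) := by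
  obtain ⟨Γ₁, i1, i2, σ₁, hst₁, ⟨e₁⟩⟩ := hA.1
  obtain ⟨Γ₂, j1, j2, σ₂, hst₂, ⟨e₂⟩⟩ := hB.1
  have hkerσ : ∀ x : Γ₁ × Γ₂, x ∈ (MonoidHom.prodMap σ₁ σ₂).ker ↔ x.1 ∈ σ₁.ker ∧ x.2 ∈ σ₂.ker := by
    intro x
    simp only [MonoidHom.mem_ker, MonoidHom.coe_prodMap, Prod.map, Prod.ext_iff]
    rfl
  refine ⟨⟨Γ₁ × Γ₂, inferInstance, inferInstance, MonoidHom.prodMap σ₁ σ₂, ⟨?_, ?_, ?_⟩, ⟨?_⟩⟩, ?_⟩
  · exact Function.Surjective.prodMap hst₁.1 hst₂.1
  · intro x hx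
    obtain ⟨h1, h2⟩ := (hkerσ x).mp hx
    have c1 := Subgroup.mem_center_iff.mp (hst₁.2.1 h1)
    have c2 := Subgroup.mem_center_iff.mp (hst₂.2.1 h2)
    rw [Subgroup.mem_center_iff]
    intro g
    exact Prod.ext (c1 g.1) (c2 g.2)
  · intro x hx
    obtain ⟨h1, h2⟩ := (hkerσ x).mp hx
    have hx' : x = MonoidHom.inl Γ₁ Γ₂ x.1 * MonoidHom.inr Γ₁ Γ₂ x.2 := by
      apply Prod.ext <;> simp
    rw [hx']
    apply Subgroup.mul_mem
    · exact map_commutator_le (MonoidHom.inl Γ₁ Γ₂) ⟨x.1, hst₁.2.2 h1, rfl⟩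
    · exact map_commutator_le (MonoidHom.inr Γ₁ Γ₂) ⟨x.2, hst₂.2.2 h2, rfl⟩
  · exact
      { toFun := fun x => (e₁ ⟨x.1.1, ((hkerσ x.1).mp x.2).1⟩, e₂ ⟨x.1.2, ((hkerσ x.1).mp x.2).2⟩)
        invFun := fun p => ⟨((e₁.symm p.1 : Γ₁), (e₂.symm p.2 : Γ₂)),
          (hkerσ _).mpr ⟨(e₁.symm p.1).2, (e₂.symm p.2).2⟩⟩
        left_inv := fun x => by
          apply Subtype.ext
          apply Prod.ext <;> simp
        right_inv := fun p => by
          apply Prod.ext <;> simp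
        map_mul' := fun x y => by
          apply Prod.ext
          · show e₁ _ = e₁ _ * e₁ _
            rw [← map_mul]; rfl
          · show e₂ _ = e₂ _ * e₂ _
            rw [← map_mul]; rfl }
  · intro Δ _ _ τ hτ
    obtain ⟨hτs, hτc, hτd⟩ := hτ
    let τ₁ : Δ →* Q₁ := (MonoidHom.fst Q₁ Q₂).comp τ
    let τ₂ : Δ →* Q₂ := (MonoidHom.snd Q₁ Q₂).comp τ
    have hker : ∀ x, x ∈ τ.ker ↔ τ₁ x = 1 ∧ τ₂ x = 1 := by
      intro x
      rw [MonoidHom.mem_ker, Prod.ext_iff]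
      rfl
    let ξ₁ : τ₂.ker →* Q₁ := τ₁.comp τ₂.ker.subtype
    let ξ₂ : τ₁.ker →* Q₂ := τ₂.comp τ₁.ker.subtype
    have hξ₁s : Function.Surjective ξ₁ := by
      intro q
      obtain ⟨δ, hδ⟩ := hτs (q, 1)
      refine ⟨⟨δ, ?_⟩, ?_⟩
      · rw [MonoidHom.mem_ker]
        show (τ δ).2 = 1
        rw [hδ]
      · show (τ δ).1 = q
        rw [hδ]
    have hξ₂s : Function.Surjective ξ₂ := by
      intro q
      obtain ⟨δ, hδ⟩ := hτs (1, q)
      refine ⟨⟨δ, ?_⟩, ?_⟩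
      · rw [MonoidHom.mem_ker]
        show (τ δ).1 = 1
        rw [hδ]
      · show (τ δ).2 = q
        rw [hδ]
    have hξ₁k : ∀ x : τ₂.ker, x ∈ ξ₁.ker ↔ (x : Δ) ∈ τ.ker := by
      intro x
      rw [hker]
      constructor
      · intro h; exact ⟨MonoidHom.mem_ker.mp h, MonoidHom.mem_ker.mp x.2⟩
      · intro h; exact MonoidHom.mem_ker.mpr h.1
    have hξ₂k : ∀ x : τ₁.ker, x ∈ ξ₂.ker ↔ (x : Δ) ∈ τ.ker := by
      intro x
      rw [hker]
      constructor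
      · intro h; exact ⟨MonoidHom.mem_ker.mp x.2, MonoidHom.mem_ker.mp h⟩
      · intro h; exact MonoidHom.mem_ker.mpr h.2
    have hξ₁c : ξ₁.ker ≤ Subgroup.center τ₂.ker := by
      intro x hx
      have := hτc ((hξ₁k x).mp hx)
      rw [Subgroup.mem_center_iff] at this ⊢
      intro y; exact Subtype.ext (this y)
    have hξ₂c : ξ₂.ker ≤ Subgroup.center τ₁.ker := by
      intro x hx
      have := hτc ((hξ₂k x).mp hx)
      rw [Subgroup.mem_center_iff] at this ⊢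
      intro y; exact Subtype.ext (this y)
    -- commutators between the two parts lie in the kernel
    have hc1 : ∀ x ∈ τ₂.ker, ∀ y ∈ τ₁.ker, ⁅x, y⁆ ∈ τ.ker := by
      intro x hx y hy
      rw [hker]
      constructor
      · rw [map_commutatorElement, MonoidHom.mem_ker.mp hy]; simp
      · rw [map_commutatorElement, MonoidHom.mem_ker.mp hx]; simp
    -- the two parts commute
    have hcomm : ∀ x ∈ τ₂.ker, ∀ y ∈ τ₁.ker, x * y = y * x := by
      intro x hx y hy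
      obtain ⟨β, hβ⟩ := exists_hom_left τ₂.ker y (fun x' hx' => hτc (hc1 x' hx' y hy))
      obtain ⟨β', hβ'⟩ := exists_hom_right τ₁.ker x (fun y' hy' => hτc (hc1 x hx y' hy'))
      have hk : ξ₁.ker ≤ β.ker := by
        intro x' hx'
        rw [MonoidHom.mem_ker]
        apply Subtype.ext
        rw [hβ]
        have hcen := Subgroup.mem_center_iff.mp (hτc ((hξ₁k x').mp hx')) y
        show ⁅(x' : Δ), y⁆ = 1
        rw [commutatorElement_eq_one_iff_mul_comm]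
        exact hcen.symm
      have hk' : ξ₂.ker ≤ β'.ker := by
        intro y' hy'
        rw [MonoidHom.mem_ker]
        apply Subtype.ext
        rw [hβ']
        have hcen := Subgroup.mem_center_iff.mp (hτc ((hξ₂k y').mp hy')) x
        show ⁅x, (y' : Δ)⁆ = 1
        rw [commutatorElement_eq_one_iff_mul_comm]
        exact hcen
      have p1 := pow_card_ab_eq_one (fun a b => mul_comm' a b) ξ₁ hξ₁s β hk ⟨x, hx⟩
      have p2 := pow_card_ab_eq_one (fun a b => mul_comm' a b) ξ₂ hξ₂s β' hk' ⟨y, hy⟩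
      have q1 : ⁅x, y⁆ ^ Nat.card (Abelianization Q₁) = 1 := by
        have := congrArg Subtype.val p1
        rw [Subgroup.coe_pow, hβ] at this
        exact this
      have q2 : ⁅x, y⁆ ^ Nat.card (Abelianization Q₂) = 1 := by
        have := congrArg Subtype.val p2
        rw [Subgroup.coe_pow, hβ'] at this
        exact this
      have d1 := orderOf_dvd_of_pow_eq_one q1
      have d2 := orderOf_dvd_of_pow_eq_one q2
      have h1 : orderOf ⁅x, y⁆ = 1 := Nat.eq_one_of_dvd_coprimes hcop d1 d2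
      exact commutatorElement_eq_one_iff_mul_comm.mp (orderOf_eq_one_iff.mp h1)
    -- the multiplication map from the product of the two parts
    let μ : τ₂.ker × τ₁.ker →* Δ := MonoidHom.noncommCoprod τ₂.ker.subtype τ₁.ker.subtype
      (fun a b => hcomm a a.2 b b.2)
    have hμ : ∀ p : τ₂.ker × τ₁.ker, μ p = (p.1 : Δ) * (p.2 : Δ) := fun p => rfl
    have hμs : Function.Surjective μ := by
      intro δ
      obtain ⟨x, hx⟩ := hξ₁s (τ₁ δ)
      have hy : (x : Δ)⁻¹ * δ ∈ τ₁.ker := by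
        rw [MonoidHom.mem_ker, map_mul, map_inv]
        have : τ₁ (x : Δ) = τ₁ δ := hx
        rw [this]; simp
      refine ⟨(x, ⟨_, hy⟩), ?_⟩
      rw [hμ]
      simp
    have hdec : ∀ z ∈ commutator Δ, ∃ w₁ ∈ commutator τ₂.ker, ∃ w₂ ∈ commutator τ₁.ker,
        z = ((w₁ : τ₂.ker) : Δ) * ((w₂ : τ₁.ker) : Δ) := by
      intro z hz
      rw [← map_commutator_eq_of_surjective μ hμs] at hz
      obtain ⟨w, hw, rfl⟩ := hz
      refine ⟨w.1, ?_, w.2, ?_, hμ w⟩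
      · exact map_commutator_le (MonoidHom.fst _ _) ⟨w, hw, rfl⟩
      · exact map_commutator_le (MonoidHom.snd _ _) ⟨w, hw, rfl⟩
    obtain ⟨f₁, hf₁⟩ := exists_surj_of_hasSchurMultiplier Q₁ hA ξ₁ hξ₁s hξ₁c
    obtain ⟨f₂, hf₂⟩ := exists_surj_of_hasSchurMultiplier Q₂ hB ξ₂ hξ₂s hξ₂c
    let g₁ : A →* τ.ker :=
      ((τ₂.ker.subtype.comp (Subgroup.subtype (ξ₁.ker ⊓ commutator ↥τ₂.ker))).codRestrict τ.ker
      (fun x => (hξ₁k x.1).mp x.2.1)).comp f₁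
    let g₂ : B →* τ.ker :=
      ((τ₁.ker.subtype.comp (Subgroup.subtype (ξ₂.ker ⊓ commutator ↥τ₁.ker))).codRestrict τ.ker
      (fun x => (hξ₂k x.1).mp x.2.1)).comp f₂
    have hg₁ : ∀ a, ((g₁ a : τ.ker) : Δ) = (((f₁ a : ↥(ξ₁.ker ⊓ commutator ↥τ₂.ker)) : τ₂.ker) : Δ) :=
      fun a => rfl
    have hg₂ : ∀ b, ((g₂ b : τ.ker) : Δ) = (((f₂ b : ↥(ξ₂.ker ⊓ commutator ↥τ₁.ker)) : τ₁.ker) : Δ) :=
      fun b => rfl
    let π : A × B →* τ.ker := MonoidHom.noncommCoprod g₁ g₂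
      (fun a b => Subtype.ext (Subgroup.mem_center_iff.mp (hτc (g₁ a).2) (g₂ b : Δ)).symm)
    have hπ : ∀ p : A × B, π p = g₁ p.1 * g₂ p.2 := fun p => rfl
    refine ⟨π, ?_⟩
    intro z
    obtain ⟨w₁, hw₁, w₂, hw₂, hz⟩ := hdec z (hτd z.2)
    have hz1 := (hker z).mp z.2
    have hw₁k : w₁ ∈ ξ₁.ker := by
      rw [MonoidHom.mem_ker]
      have h := hz1.1
      rw [hz, map_mul, MonoidHom.mem_ker.mp w₂.2, mul_one] at h
      exact h
    have hw₂k : w₂ ∈ ξ₂.ker := by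
      rw [MonoidHom.mem_ker]
      have h := hz1.2
      rw [hz, map_mul, MonoidHom.mem_ker.mp w₁.2, one_mul] at h
      exact h
    obtain ⟨a, ha⟩ := hf₁ ⟨w₁, hw₁k, hw₁⟩
    obtain ⟨b, hb⟩ := hf₂ ⟨w₂, hw₂k, hw₂⟩
    refine ⟨(a, b), ?_⟩
    apply Subtype.ext
    rw [hπ, Subgroup.coe_mul, hg₁, hg₂, ha, hb, hz]

end Cfsg.Agent.S3980
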