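import Mathlib
import Cfsg.Statements.S3994
import Cfsg.Agent.S3993

set_option autoImplicit false
open Cfsg

namespace Cfsg.Agent.S3994

/-- `x ^ d = 1` together with `q ^ e ∤ orderOf x` is the equation `x ^ d' = 1` -/
theorem pow_eq_one_and_not_dvd_iff {G : Type*} [Group G] [Finite G] (q : ℕ) (hq : q.Prime)
    (e f c : ℕ) (he : 1 ≤ e) (hef : e ≤ f) (hc : ¬ q ∣ c) (x : G) :
    (x ^ (q ^ f * c) = 1 ∧ ¬ q ^ e ∣ orderOf x) ↔ x ^ (q ^ (e - 1) * c) = 1 := by
  have ho : orderOf x ≠ 0 := (orderOf_pos x).ne'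
  constructor
  · rintro ⟨h1, h2⟩
    rw [← orderOf_dvd_iff_pow_eq_one] at h1 ⊢
    obtain ⟨i, o', ho', hoe⟩ := Nat.exists_eq_pow_mul_and_not_dvd ho q hq.ne_one
    rw [hoe] at h1 h2 ⊢
    have hi : i ≤ e - 1 := by
      by_contra hlt
      push Not at hlt
      apply h2
      have : e ≤ i := by omega
      exact Dvd.dvd.mul_right (pow_dvd_pow q this) o'
    have hcop : Nat.Coprime o' (q ^ f) := by
      apply Nat.Coprime.pow_right
      exact (Nat.Coprime.symm ((Nat.Prime.coprime_iff_not_dvd hq).mpr ho'))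
    have h3 : o' ∣ c := hcop.dvd_of_dvd_mul_left (dvd_trans (Dvd.intro_left _ rfl) h1)
    exact Nat.mul_dvd_mul (pow_dvd_pow q hi) h3
  · intro h
    rw [← orderOf_dvd_iff_pow_eq_one] at h ⊢
    refine ⟨dvd_trans h (Nat.mul_dvd_mul (pow_dvd_pow q (by omega)) dvd_rfl), ?_⟩
    intro h2
    have h3 : q ^ e ∣ q ^ (e - 1) * c := dvd_trans h2 h
    have h4 : q ^ e = q ^ (e - 1) * q := by
      rw [← pow_succ]; congr 1; omega
    rw [h4] at h3
    exact hc (Nat.dvd_of_mul_dvd_mul_left (pow_pos hq.pos _) h3)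

open Classical in
theorem aux {G : Type*} [Group G] [Fintype G] (n m : ℕ)
    (hcop : ∀ q : ℕ, q.Prime → q ∣ n → Nat.Coprime m q) (e : ℕ → ℕ)
    (he : ∀ q : ℕ, q.Prime → q ∣ n → 1 ≤ e q)
    (T : Finset ℕ) (hT : ∀ q ∈ T, q.Prime ∧ q ∣ n) :
    ∀ d : ℕ, d ∣ Fintype.card G → m ∣ d →
      m ∣ (Finset.univ.filter (fun x : G => x ^ d = 1 ∧ ∀ p ∈ T, p ^ e p ∣ orderOf x)).card := by
  classical
  induction T using Finset.induction_on with
  | empty =>
    intro d hd hmd
    have h1 := Cfsg.Agent.S3993.result (G := G) d (by rwa [Nat.card_eq_fintype_card])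
    rw [Nat.card_eq_fintype_card, Fintype.card_subtype] at h1
    have h2 : (Finset.univ.filter (fun x : G => x ^ d = 1 ∧ ∀ p ∈ (∅ : Finset ℕ), p ^ e p ∣ orderOf x))
        = Finset.univ.filter (fun x : G => x ^ d = 1) := by
      apply Finset.filter_congr
      intro x _
      simp
    rw [h2]
    exact dvd_trans hmd h1
  | insert q T hqT ih =>
    intro d hd hmd
    have ih' := ih (fun p hp => hT p (Finset.mem_insert_of_mem hp))
    obtain ⟨hq, hqn⟩ := hT q (Finset.mem_insert_self q T)
    have hS := ih' d hd hmd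
    set S := Finset.univ.filter (fun x : G => x ^ d = 1 ∧ ∀ p ∈ T, p ^ e p ∣ orderOf x) with hSdef
    have htarget : (Finset.univ.filter (fun x : G => x ^ d = 1 ∧ ∀ p ∈ insert q T, p ^ e p ∣ orderOf x))
        = S.filter (fun x => q ^ e q ∣ orderOf x) := by
      rw [hSdef, Finset.filter_filter]
      apply Finset.filter_congr
      intro x _
      rw [Finset.forall_mem_insert]
      tauto
    rw [htarget]
    have hsplit := Finset.card_filter_add_card_filter_not (s := S) (fun x => q ^ e q ∣ orderOf x)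
    have hd0 : d ≠ 0 := by
      rintro rfl
      rw [zero_dvd_iff] at hd
      exact Fintype.card_ne_zero hd
    suffices hneg : m ∣ (S.filter (fun x => ¬ q ^ e q ∣ orderOf x)).card by
      rw [← hsplit] at hS
      exact (Nat.dvd_add_left hneg).mp hS
    by_cases hqd : q ^ e q ∣ d
    · obtain ⟨f, c, hc, hdc⟩ := Nat.exists_eq_pow_mul_and_not_dvd hd0 q hq.ne_one
      have hef : e q ≤ f := by
        by_contra hlt
        push Not at hlt
        apply hc
        have h1 : q ^ (f + 1) ∣ q ^ f * c := by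
          rw [← hdc]
          exact dvd_trans (pow_dvd_pow q (by omega)) hqd
        rw [pow_succ] at h1
        exact Nat.dvd_of_mul_dvd_mul_left (pow_pos hq.pos _) h1
      have he1 := he q hq hqn
      have hmc : m ∣ c := by
        have : Nat.Coprime m (q ^ f) := Nat.Coprime.pow_right f (hcop q hq hqn)
        rw [hdc] at hmd
        exact this.dvd_of_dvd_mul_left hmd
      have hd' : q ^ (e q - 1) * c ∣ d := by
        rw [hdc]
        exact Nat.mul_dvd_mul (pow_dvd_pow q (by omega)) dvd_rfl
      have h2 := ih' (q ^ (e q - 1) * c) (dvd_trans hd' hd) (Dvd.dvd.mul_left hmc _)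
      have h3 : S.filter (fun x => ¬ q ^ e q ∣ orderOf x) = Finset.univ.filter
          (fun x : G => x ^ (q ^ (e q - 1) * c) = 1 ∧ ∀ p ∈ T, p ^ e p ∣ orderOf x) := by
        rw [hSdef, Finset.filter_filter]
        apply Finset.filter_congr
        intro x _
        have := pow_eq_one_and_not_dvd_iff q hq (e q) f c he1 hef hc x
        rw [← this, hdc]
        tauto
      rw [h3]
      exact h2
    · have h3 : S.filter (fun x => ¬ q ^ e q ∣ orderOf x) = S := by
        apply Finset.filter_true_of_mem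
        intro x hx h
        rw [hSdef, Finset.mem_filter] at hx
        apply hqd
        exact dvd_trans h (orderOf_dvd_of_pow_eq_one hx.2.1)
      rw [h3]
      exact hS

theorem coprime_aux (g n q : ℕ) (hg : 0 < g) (hn : 0 < n) (hq : q.Prime) (hqn : q ∣ n) :
    Nat.Coprime (g / Nat.gcd g (n ^ g)) q := by
  have ht : Nat.gcd g (n ^ g) ∣ g := Nat.gcd_dvd_left _ _
  have ht0 : Nat.gcd g (n ^ g) ≠ 0 := Nat.gcd_ne_zero_left hg.ne'
  have hm0 : g / Nat.gcd g (n ^ g) ≠ 0 := by
    intro h
    have := Nat.div_mul_cancel ht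
    rw [h, zero_mul] at this
    exact hg.ne' this.symm
  rw [Nat.coprime_comm, Nat.Prime.coprime_iff_not_dvd hq]
  intro hdvd
  have h1 : 1 ≤ (g / Nat.gcd g (n ^ g)).factorization q :=
    (Nat.Prime.pow_dvd_iff_le_factorization hq hm0).mp (by simpa using hdvd)
  rw [Nat.factorization_div ht, Nat.factorization_gcd hg.ne' (pow_pos hn g).ne'] at h1
  have h2 : (g.factorization ⊓ (n ^ g).factorization) q = g.factorization q := by
    rw [Finsupp.inf_apply, Nat.factorization_pow]
    apply min_eq_left
    have h3 : g.factorization q < g := Nat.factorization_lt q hg.ne'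
    have h4 : 1 ≤ n.factorization q :=
      (Nat.Prime.pow_dvd_iff_le_factorization hq hn.ne').mp (by simpa using hqn)
    show g.factorization q ≤ g * n.factorization q
    nlinarith
  rw [Finsupp.tsub_apply, h2] at h1
  omega

/-- Let G be a finite group and n a positive integer. The number of elements of G whose order is divisible by n is either 0 or divisible by the largest divisor of the order of G that is coprime to n. -/
theorem result {G : Type*} [Group G] [Finite G] (n : ℕ) (hn : 0 < n) :
    Nat.card {g : G // n ∣ orderOf g} = 0 ∨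
      (Nat.card G / Nat.gcd (Nat.card G) (n ^ Nat.card G)) ∣ Nat.card {g : G // n ∣ orderOf g} := by
  classical
  right
  have := Fintype.ofFinite G
  have hg : 0 < Nat.card G := Nat.card_pos
  set m := Nat.card G / Nat.gcd (Nat.card G) (n ^ Nat.card G) with hm
  have hmg : m ∣ Nat.card G := Nat.div_dvd_of_dvd (Nat.gcd_dvd_left _ _)
  have h := aux (G := G) n m (fun q hq hqn => coprime_aux (Nat.card G) n q hg hn hq hqn)
    n.factorization
    (fun q hq hqn => (Nat.Prime.pow_dvd_iff_le_factorization hq hn.ne').mp (by simpa using hqn))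
    n.primeFactors (fun q hq => ⟨Nat.prime_of_mem_primeFactors hq, Nat.dvd_of_mem_primeFactors hq⟩)
    (Fintype.card G) dvd_rfl (by rwa [← Nat.card_eq_fintype_card])
  rw [Nat.card_eq_fintype_card, Fintype.card_subtype]
  convert h using 2
  apply Finset.filter_congr
  intro x _
  have ho : orderOf x ≠ 0 := (orderOf_pos x).ne'
  constructor
  · intro hx
    refine ⟨pow_card_eq_one, fun p _ => dvd_trans (Nat.ordProj_dvd n p) hx⟩
  · rintro ⟨-, hx⟩
    rw [← Nat.factorization_le_iff_dvd hn.ne' ho]
    intro p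
    by_cases hp : p ∈ n.primeFactors
    · exact (Nat.Prime.pow_dvd_iff_le_factorization (Nat.prime_of_mem_primeFactors hp) ho).mp (hx p hp)
    · rw [← Nat.support_factorization, Finsupp.notMem_support_iff] at hp
      rw [hp]
      exact Nat.zero_le _

end Cfsg.Agent.S3994
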