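import Mathlib
import Cfsg.Statements.S3997

set_option autoImplicit false
open Cfsg

namespace Cfsg.Agent.S3997

theorem exists_order_equiv {G H : Type*} [Group G] [Finite G] [Group H] [Finite H]
    (hT : ∀ m : ℕ, Nat.card {g : G // orderOf g = m} = Nat.card {h : H // orderOf h = m}) :
    ∃ e : G ≃ H, ∀ g, orderOf (e g) = orderOf g := by
  have he : ∀ m : ℕ, Nonempty ({g : G // orderOf g = m} ≃ {h : H // orderOf h = m}) := fun m =>
    Finite.card_eq.mp (hT m)
  let e : ∀ m : ℕ, {g : G // orderOf g = m} ≃ {h : H // orderOf h = m} := fun m => (he m).some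
  let E : G ≃ H := (Equiv.sigmaFiberEquiv (orderOf : G → ℕ)).symm.trans
    ((Equiv.sigmaCongrRight e).trans (Equiv.sigmaFiberEquiv (orderOf : H → ℕ)))
  refine ⟨E, fun g => ?_⟩
  exact (e (orderOf g) ⟨g, rfl⟩).2

/-- Let G and H be finite groups with the same order type: for every m they have the same number of elements of order m. If G is nilpotent then so is H. -/
theorem result {G H : Type*} [Group G] [Finite G] [Group H] [Finite H] (hT : (∀ m : ℕ, Nat.card {g : G // orderOf g = m} = Nat.card {h : H // orderOf h = m})) (hG : Group.IsNilpotent G) :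
    Group.IsNilpotent H := by
  obtain ⟨e, he⟩ := exists_order_equiv hT
  have hcard : Nat.card G = Nat.card H := Nat.card_congr e
  refine ((Group.isNilpotent_of_finite_tfae (G := H)).out 0 3).mpr ?_
  intro p hp P
  have := hp
  have hGn := ((Group.isNilpotent_of_finite_tfae (G := G)).out 0 3).mp hG
  obtain ⟨PG⟩ : Nonempty (Sylow p G) := inferInstance
  have hPGn : (PG : Subgroup G).Normal := hGn p hp PG
  have hG_sub : ∀ g : G, (∃ k, orderOf g = p ^ k) → g ∈ (PG : Subgroup G) := by
    rintro g ⟨k, hk⟩
    have hz : IsPGroup p (Subgroup.zpowers g) := by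
      apply IsPGroup.of_card (n := k)
      rw [Nat.card_zpowers, hk]
    obtain ⟨Q, hQ⟩ := hz.exists_le_sylow
    have := Sylow.unique_of_normal PG hPGn
    have hQP : Q = PG := Subsingleton.elim _ _
    rw [← hQP]
    exact hQ (Subgroup.mem_zpowers g)
  let SG : Set G := {g : G | ∃ k, orderOf g = p ^ k}
  let SH : Set H := {h : H | ∃ k, orderOf h = p ^ k}
  have hSH : SH = e '' SG := by
    ext h
    constructor
    · rintro ⟨k, hk⟩
      refine ⟨e.symm h, ⟨k, ?_⟩, by simp⟩
      rw [← he, Equiv.apply_symm_apply, hk]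
    · rintro ⟨g, ⟨k, hk⟩, rfl⟩
      exact ⟨k, by rw [he, hk]⟩
  have hSGle : SG.ncard ≤ Nat.card (PG : Subgroup G) := by
    have h1 : ((PG : Subgroup G) : Set G).ncard = Nat.card (PG : Subgroup G) :=
      (Nat.card_coe_set_eq ((PG : Subgroup G) : Set G)).symm
    rw [← h1]
    exact Set.ncard_le_ncard (fun g hg => hG_sub g hg) (Set.toFinite _)
  have hPS : ((P : Subgroup H) : Set H) ⊆ SH := by
    intro h hh
    obtain ⟨k, hk⟩ := (IsPGroup.iff_orderOf.mp P.isPGroup') ⟨h, hh⟩
    refine ⟨k, ?_⟩
    rw [← hk, Subgroup.orderOf_mk]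
  have hPeq : ((P : Subgroup H) : Set H) = SH := by
    apply Set.eq_of_subset_of_ncard_le hPS _ (Set.toFinite _)
    have h1 : ((P : Subgroup H) : Set H).ncard = Nat.card (P : Subgroup H) :=
      (Nat.card_coe_set_eq ((P : Subgroup H) : Set H)).symm
    rw [hSH, Set.ncard_image_of_injective _ e.injective, h1]
    calc SG.ncard ≤ Nat.card (PG : Subgroup G) := hSGle
      _ = p ^ Nat.factorization (Nat.card G) p := PG.card_eq_multiplicity
      _ = p ^ Nat.factorization (Nat.card H) p := by rw [hcard]
      _ = Nat.card (P : Subgroup H) := P.card_eq_multiplicity.symm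
  have hsub : Subsingleton (Sylow p H) := by
    have key : ∀ Q : Sylow p H, (Q : Subgroup H) = P := by
      intro Q
      have hle : (Q : Subgroup H) ≤ P := by
        intro x hx
        have hx' : x ∈ SH := by
          obtain ⟨k, hk⟩ := (IsPGroup.iff_orderOf.mp Q.isPGroup') ⟨x, hx⟩
          refine ⟨k, ?_⟩
          rw [← hk, Subgroup.orderOf_mk]
        rw [← hPeq] at hx'
        exact hx'
      exact (Q.is_maximal' P.isPGroup' hle).symm
    constructor
    intro Q1 Q2
    apply Sylow.ext
    rw [key Q1, key Q2]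
  exact Sylow.normal_of_subsingleton P

end Cfsg.Agent.S3997
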