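import Mathlib
import Cfsg.Statements.S4003
import Cfsg.Agent.Lib.Helper69.PCount

set_option autoImplicit false
open Cfsg
open scoped Pointwise

namespace Cfsg.Agent.S4003

open Cfsg.Agent.Lib.Helper69

/-- pairs `(C, y)`: `C` cyclic of order `k`, `y` of order `m` centralizing `C` -/
abbrev CycPair (G : Type*) [Group G] (k m : ℕ) :=
  {z : Subgroup G × G // IsCyclic z.1 ∧ Nat.card z.1 = k ∧ orderOf z.2 = m ∧
    ∀ c ∈ z.1, c * z.2 = z.2 * c}

instance cycPairAction (G : Type*) [Group G] (k m : ℕ) : MulAction G (CycPair G k m) where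
  smul g z := ⟨(MulAut.conj g • z.1.1, g * z.1.2 * g⁻¹),
    (MulEquiv.isCyclic (Subgroup.equivSMul (MulAut.conj g) z.1.1)).mp z.2.1,
    (Nat.card_congr (Subgroup.equivSMul (MulAut.conj g) z.1.1).toEquiv.symm).trans z.2.2.1,
    by
      have h := (MulAut.conj g).orderOf_eq z.1.2
      rw [MulAut.conj_apply] at h
      show orderOf (g * z.1.2 * g⁻¹) = m
      rw [h]; exact z.2.2.2.1,
    by
      intro c hc
      obtain ⟨c0, hc0, rfl⟩ := (Subgroup.mem_smul_pointwise_iff_exists _ _ _).mp hc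
      rw [MulAut.smul_def, MulAut.conj_apply]
      have h := z.2.2.2.2 c0 hc0
      show g * c0 * g⁻¹ * (g * z.1.2 * g⁻¹) = g * z.1.2 * g⁻¹ * (g * c0 * g⁻¹)
      calc g * c0 * g⁻¹ * (g * z.1.2 * g⁻¹) = g * (c0 * z.1.2) * g⁻¹ := by group
        _ = g * (z.1.2 * c0) * g⁻¹ := by rw [h]
        _ = _ := by group⟩
  one_smul z := by
    apply Subtype.ext
    show (MulAut.conj (1 : G) • z.1.1, (1 : G) * z.1.2 * (1 : G)⁻¹) = z.1
    rw [map_one, one_smul]; simp
  mul_smul g h z := by
    apply Subtype.ext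
    show (MulAut.conj (g * h) • z.1.1, (g * h) * z.1.2 * (g * h)⁻¹) =
      (MulAut.conj g • (MulAut.conj h • z.1.1), g * (h * z.1.2 * h⁻¹) * g⁻¹)
    rw [map_mul, mul_smul]; congr 1; group

theorem cycPair_smul_val {G : Type*} [Group G] {k m : ℕ} (g : G) (z : CycPair G k m) :
    (g • z).1 = (MulAut.conj g • z.1.1, g * z.1.2 * g⁻¹) := rfl

/-- cyclic subgroups of order `k` inside `P` -/
abbrev CycIn {G : Type*} [Group G] (P : Subgroup G) (k : ℕ) :=
  {C : Subgroup G // IsCyclic C ∧ Nat.card C = k ∧ C ≤ P}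

instance cycInAction {G : Type*} [Group G] (P : Subgroup G) (k : ℕ) :
    MulAction P (CycIn P k) where
  smul g C := ⟨MulAut.conj (g : G) • C.1,
    (MulEquiv.isCyclic (Subgroup.equivSMul (MulAut.conj (g : G)) C.1)).mp C.2.1,
    (Nat.card_congr (Subgroup.equivSMul (MulAut.conj (g : G)) C.1).toEquiv.symm).trans C.2.2.1,
    by
      intro x hx
      obtain ⟨c0, hc0, rfl⟩ := (Subgroup.mem_smul_pointwise_iff_exists _ _ _).mp hx
      rw [MulAut.smul_def, MulAut.conj_apply]
      exact P.mul_mem (P.mul_mem g.2 (C.2.2.2 hc0)) (P.inv_mem g.2)⟩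
  one_smul C := by
    apply Subtype.ext
    show MulAut.conj ((1 : P) : G) • C.1 = C.1
    rw [Subgroup.coe_one, map_one, one_smul]
  mul_smul g h C := by
    apply Subtype.ext
    show MulAut.conj ((g * h : P) : G) • C.1 = MulAut.conj (g : G) • (MulAut.conj (h : G) • C.1)
    rw [Subgroup.coe_mul, map_mul, mul_smul]

theorem cycIn_smul_val {G : Type*} [Group G] {P : Subgroup G} {k : ℕ} (g : P) (C : CycIn P k) :
    (g • C).1 = MulAut.conj (g : G) • C.1 := rfl

variable {G : Type*} [Group G]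

theorem decomp {n1 m : ℕ} (hco : Nat.Coprime n1 m) (hn1 : 0 < n1) (hm : 0 < m) (g : G)
    (hg : orderOf g = n1 * m) (e1 e2 : ℕ) (h11 : e1 ≡ 1 [MOD n1]) (h12 : e1 ≡ 0 [MOD m])
    (h21 : e2 ≡ 0 [MOD n1]) (h22 : e2 ≡ 1 [MOD m]) :
    orderOf (g ^ e1) = n1 ∧ orderOf (g ^ e2) = m ∧ g ^ e1 * g ^ e2 = g := by
  have hprod : g ^ e1 * g ^ e2 = g := by
    rw [← pow_add]
    have h1 : e1 + e2 ≡ 1 [MOD n1 * m] := by
      apply (Nat.modEq_and_modEq_iff_modEq_mul hco).mp
      exact ⟨by simpa using h11.add h21, by simpa using h12.add h22⟩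
    have h2 : g ^ (e1 + e2) = g ^ 1 := by
      rw [pow_eq_pow_iff_modEq, hg]; exact h1
    rw [h2, pow_one]
  have hd1 : orderOf (g ^ e1) ∣ n1 := by
    apply orderOf_dvd_of_pow_eq_one
    rw [← pow_mul]
    apply orderOf_dvd_iff_pow_eq_one.mp
    rw [hg, mul_comm e1 n1]
    exact Nat.mul_dvd_mul_left n1 (Nat.modEq_zero_iff_dvd.mp h12)
  have hd2 : orderOf (g ^ e2) ∣ m := by
    apply orderOf_dvd_of_pow_eq_one
    rw [← pow_mul]
    apply orderOf_dvd_iff_pow_eq_one.mp
    rw [hg]
    exact Nat.mul_dvd_mul (Nat.modEq_zero_iff_dvd.mp h21) (dvd_refl m)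
  have hcop : (orderOf (g ^ e1)).Coprime (orderOf (g ^ e2)) :=
    Nat.Coprime.coprime_dvd_left hd1 (Nat.Coprime.coprime_dvd_right hd2 hco)
  have hcomm : Commute (g ^ e1) (g ^ e2) := (Commute.refl g).pow_pow e1 e2
  have hmul := hcomm.orderOf_mul_eq_mul_orderOf_of_coprime hcop
  rw [hprod, hg] at hmul
  obtain ⟨c, hc⟩ := hd1
  obtain ⟨d, hd⟩ := hd2
  have hpos1 : 0 < orderOf (g ^ e1) := by
    rcases Nat.eq_zero_or_pos (orderOf (g ^ e1)) with h | h
    · rw [h, zero_mul] at hc; omega
    · exact h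
  have hpos2 : 0 < orderOf (g ^ e2) := by
    rcases Nat.eq_zero_or_pos (orderOf (g ^ e2)) with h | h
    · rw [h, zero_mul] at hd; omega
    · exact h
  have hcd : c * d = 1 := by
    have h1 : orderOf (g ^ e1) * orderOf (g ^ e2) * (c * d) =
        orderOf (g ^ e1) * orderOf (g ^ e2) * 1 := by
      calc orderOf (g ^ e1) * orderOf (g ^ e2) * (c * d)
          = (orderOf (g ^ e1) * c) * (orderOf (g ^ e2) * d) := by ring
        _ = n1 * m := by rw [← hc, ← hd]
        _ = _ := by rw [hmul, mul_one]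
    exact Nat.eq_of_mul_eq_mul_left (Nat.mul_pos hpos1 hpos2) h1
  have hc1 : c = 1 := Nat.eq_one_of_mul_eq_one_right hcd
  have hd1' : d = 1 := Nat.eq_one_of_mul_eq_one_left hcd
  refine ⟨?_, ?_, hprod⟩
  · rw [hc, hc1, mul_one]
  · rw [hd, hd1', mul_one]

theorem card_order_eq [Finite G] (n1 m : ℕ) (hco : Nat.Coprime n1 m) (hn1 : 0 < n1)
    (hm : 0 < m) :
    Nat.card {g : G // orderOf g = n1 * m} = Nat.totient n1 * Nat.card (CycPair G n1 m) := by
  classical
  obtain ⟨e1, h11, h12⟩ := Nat.chineseRemainder hco 1 0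
  obtain ⟨e2, h21, h22⟩ := Nat.chineseRemainder hco 0 1
  let Φ : {g : G // orderOf g = n1 * m} → CycPair G n1 m := fun g =>
    ⟨(Subgroup.zpowers (g.1 ^ e1), g.1 ^ e2), Subgroup.isCyclic_zpowers _,
      (Nat.card_zpowers _).trans (decomp hco hn1 hm g.1 g.2 e1 e2 h11 h12 h21 h22).1,
      (decomp hco hn1 hm g.1 g.2 e1 e2 h11 h12 h21 h22).2.1, by
        intro c hc
        obtain ⟨k, rfl⟩ := Subgroup.mem_zpowers_iff.mp hc
        exact (((Commute.refl g.1).pow_pow e1 e2).zpow_left k).eq⟩
  have hfib : ∀ z : CycPair G n1 m, Nat.card {g : {g : G // orderOf g = n1 * m} // Φ g = z} =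
      Nat.totient n1 := by
    intro z
    obtain ⟨⟨C, y⟩, hCc, hCcard, hy, hcomm⟩ := z
    haveI := hCc
    have e : {g : {g : G // orderOf g = n1 * m} // Φ g = ⟨(C, y), hCc, hCcard, hy, hcomm⟩} ≃
        {x : C // orderOf x = n1} :=
      { toFun := fun g => ⟨⟨g.1.1 ^ e1, by
            have h1 : Subgroup.zpowers (g.1.1 ^ e1) = C :=
              congrArg (fun z : CycPair G n1 m => z.1.1) g.2
            exact (SetLike.ext_iff.mp h1 _).mp (Subgroup.mem_zpowers _)⟩, by
            rw [← Subgroup.orderOf_coe]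
            exact (decomp hco hn1 hm g.1.1 g.1.2 e1 e2 h11 h12 h21 h22).1⟩
        invFun := fun x => ⟨⟨x.1.1 * y, by
            have hxy : Commute x.1.1 y := hcomm x.1.1 x.1.2
            rw [hxy.orderOf_mul_eq_mul_orderOf_of_coprime (by
              rw [Subgroup.orderOf_coe, x.2, hy]; exact hco), Subgroup.orderOf_coe, x.2, hy]⟩, by
            have hxy : Commute x.1.1 y := hcomm x.1.1 x.1.2
            have hox : orderOf x.1.1 = n1 := by rw [Subgroup.orderOf_coe, x.2]
            have hp1 : (x.1.1 * y) ^ e1 = x.1.1 := by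
              rw [hxy.mul_pow]
              have h1 : x.1.1 ^ e1 = x.1.1 ^ 1 := by
                rw [pow_eq_pow_iff_modEq, hox]; exact h11
              have h2 : y ^ e1 = 1 := by
                apply orderOf_dvd_iff_pow_eq_one.mp
                rw [hy]; exact Nat.modEq_zero_iff_dvd.mp h12
              rw [h1, h2, pow_one, mul_one]
            have hp2 : (x.1.1 * y) ^ e2 = y := by
              rw [hxy.mul_pow]
              have h1 : y ^ e2 = y ^ 1 := by
                rw [pow_eq_pow_iff_modEq, hy]; exact h22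
              have h2 : x.1.1 ^ e2 = 1 := by
                apply orderOf_dvd_iff_pow_eq_one.mp
                rw [hox]; exact Nat.modEq_zero_iff_dvd.mp h21
              rw [h1, h2, pow_one, one_mul]
            apply Subtype.ext
            show (Subgroup.zpowers ((x.1.1 * y) ^ e1), (x.1.1 * y) ^ e2) = (C, y)
            rw [hp1, hp2]
            congr 1
            apply Subgroup.eq_of_le_of_card_ge (Subgroup.zpowers_le.mpr x.1.2)
            rw [Nat.card_zpowers, hox, hCcard]⟩
        left_inv := by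
          intro g
          apply Subtype.ext
          apply Subtype.ext
          have h1 : g.1.1 ^ e2 = y := congrArg (fun z : CycPair G n1 m => z.1.2) g.2
          show g.1.1 ^ e1 * y = g.1.1
          have h2 : g.1.1 ^ e1 * y = g.1.1 ^ e1 * g.1.1 ^ e2 := by rw [h1]
          rw [h2]
          exact (decomp hco hn1 hm g.1.1 g.1.2 e1 e2 h11 h12 h21 h22).2.2
        right_inv := by
          intro x
          apply Subtype.ext
          apply Subtype.ext
          have hxy : Commute x.1.1 y := hcomm x.1.1 x.1.2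
          have hox : orderOf x.1.1 = n1 := by rw [Subgroup.orderOf_coe, x.2]
          show (x.1.1 * y) ^ e1 = x.1.1
          rw [hxy.mul_pow]
          have h1 : x.1.1 ^ e1 = x.1.1 ^ 1 := by
            rw [pow_eq_pow_iff_modEq, hox]; exact h11
          have h2 : y ^ e1 = 1 := by
            apply orderOf_dvd_iff_pow_eq_one.mp
            rw [hy]; exact Nat.modEq_zero_iff_dvd.mp h12
          rw [h1, h2, pow_one, mul_one] }
    rw [Nat.card_congr e]
    haveI : Fintype C := Fintype.ofFinite C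
    rw [Nat.card_eq_fintype_card, Fintype.card_subtype]
    apply IsCyclic.card_orderOf_eq_totient
    rw [← Nat.card_eq_fintype_card, hCcard]
  rw [← Nat.card_congr (Equiv.sigmaFiberEquiv Φ)]
  haveI : Fintype (CycPair G n1 m) := Fintype.ofFinite _
  rw [Nat.card_sigma, Finset.sum_congr rfl (fun z _ => hfib z), Finset.sum_const,
    Finset.card_univ, Nat.card_eq_fintype_card, smul_eq_mul, mul_comm]

theorem le_sylow_of_fixed {p : ℕ} [Fact p.Prime] (P : Sylow p G) (C : Subgroup G)
    (hC : IsPGroup p C) (h : ∀ g : (P : Subgroup G), MulAut.conj (g : G) • C = C) :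
    C ≤ P := by
  have hPN : (P : Subgroup G) ≤ Subgroup.normalizer (C : Set G) := by
    intro g hg
    rw [Subgroup.mem_normalizer_iff]
    intro x
    have h1 := h ⟨g, hg⟩
    have h2 : g * x * g⁻¹ = MulAut.conj g • x := by
      rw [MulAut.smul_def, MulAut.conj_apply]
    rw [h2]
    conv_rhs => rw [← h1]
    exact Subgroup.smul_mem_pointwise_smul_iff.symm
  have h1 : IsPGroup p (C ⊔ (P : Subgroup G) : Subgroup G) :=
    IsPGroup.to_sup_of_normal_left' hC P.isPGroup' hPN
  have h2 := P.is_maximal' h1 le_sup_right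
  rw [← h2]
  exact le_sup_left

/-- Let G be a finite group, p an odd prime dividing the order of G whose Sylow p-subgroups are not cyclic, and n = p^s·m with s > 1 and m coprime to p. Then the number of elements of G of order n is a multiple of p^s. -/
theorem result {G : Type*} [Group G] [Finite G] (p : ℕ) [Fact p.Prime] (hodd : p ≠ 2) (hpG : p ∣ Nat.card G)
    (P : Sylow p G) (hP : ¬ IsCyclic ↥(P : Subgroup G)) (s m : ℕ) (hs : 1 < s) (hm : Nat.Coprime p m) :
    p ^ s ∣ Nat.card {g : G // orderOf g = p ^ s * m} := by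
  classical
  have _ := hpG
  have hp : p.Prime := Fact.out
  have hm0 : 0 < m := by
    rcases Nat.eq_zero_or_pos m with h | h
    · subst h
      rw [Nat.coprime_zero_right] at hm
      exact absurd hm hp.one_lt.ne'
    · exact h
  rw [card_order_eq (p ^ s) m (Nat.Coprime.pow_left s hm) (pow_pos hp.pos s) hm0,
    Nat.totient_prime_pow hp (by omega)]
  -- p divides the number of pairs
  have hPp : IsPGroup p (P : Subgroup G) := P.isPGroup'
  have hZ : p ∣ Nat.card (CycPair G (p ^ s) m) := by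
    have h1 := hPp.card_modEq_card_fixedPoints (CycPair G (p ^ s) m)
    have h2 := hPp.card_modEq_card_fixedPoints (CycIn (P : Subgroup G) (p ^ s))
    -- the cyclic subgroups of P
    have h3 : p ∣ Nat.card (CycIn (P : Subgroup G) (p ^ s)) := by
      have e : CycSub (P : Subgroup G) (p ^ s) ≃ CycIn (P : Subgroup G) (p ^ s) :=
        (cycSubEquiv (P : Subgroup G) (p ^ s)).trans
          ⟨fun C => ⟨C.1.1, C.1.2.1, C.1.2.2, C.2⟩, fun C => ⟨⟨C.1, C.2.1, C.2.2.1⟩, C.2.2.2⟩,
            fun _ => rfl, fun _ => rfl⟩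
      rw [← Nat.card_congr e]
      exact card_cycSub_dvd p hodd s (by omega) _ (P : Subgroup G) P.card_eq_multiplicity hP
    have h4 : p ∣ Nat.card (MulAction.fixedPoints (P : Subgroup G)
        (CycIn (P : Subgroup G) (p ^ s))) :=
      Nat.modEq_zero_iff_dvd.mp (h2.symm.trans (Nat.modEq_zero_iff_dvd.mpr h3))
    let e2 : MulAction.fixedPoints (P : Subgroup G) (CycPair G (p ^ s) m) ≃
        MulAction.fixedPoints (P : Subgroup G) (CycIn (P : Subgroup G) (p ^ s)) ×
          {y : G // orderOf y = m ∧ ∀ g : (P : Subgroup G), (g : G) * y * (g : G)⁻¹ = y} :=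
      { toFun := fun z =>
          have hfix : ∀ g : (P : Subgroup G), MulAut.conj (g : G) • z.1.1.1 = z.1.1.1 ∧
              (g : G) * z.1.1.2 * (g : G)⁻¹ = z.1.1.2 := by
            intro g
            have h5 := congrArg Subtype.val (z.2 g)
            have h6 : (g • z.1).1 = (MulAut.conj (g : G) • z.1.1.1, (g : G) * z.1.1.2 * (g : G)⁻¹) :=
              rfl
            rw [h6] at h5
            exact ⟨congrArg Prod.fst h5, congrArg Prod.snd h5⟩
          (⟨⟨z.1.1.1, z.1.2.1, z.1.2.2.1,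
              le_sylow_of_fixed P z.1.1.1 (IsPGroup.of_card z.1.2.2.1) (fun g => (hfix g).1)⟩, by
              intro g
              apply Subtype.ext
              exact (hfix g).1⟩,
            ⟨z.1.1.2, z.1.2.2.2.1, fun g => (hfix g).2⟩)
        invFun := fun x => ⟨⟨(x.1.1.1, x.2.1), x.1.1.2.1, x.1.1.2.2.1, x.2.2.1, by
            intro c hc
            have h5 := x.2.2.2 ⟨c, x.1.1.2.2.2 hc⟩
            have h6 : c * x.2.1 = (c * x.2.1 * c⁻¹) * c := by group
            rw [h6]
            exact congrArg (· * c) h5⟩, by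
            intro g
            apply Subtype.ext
            show (MulAut.conj (g : G) • x.1.1.1, (g : G) * x.2.1 * (g : G)⁻¹) = (x.1.1.1, x.2.1)
            have h5 : MulAut.conj (g : G) • x.1.1.1 = x.1.1.1 := congrArg Subtype.val (x.1.2 g)
            rw [h5, x.2.2.2 g]⟩
        left_inv := fun z => rfl
        right_inv := fun x => rfl }
    have h5 : p ∣ Nat.card (MulAction.fixedPoints (P : Subgroup G) (CycPair G (p ^ s) m)) := by
      rw [Nat.card_congr e2, Nat.card_prod]
      exact Dvd.dvd.mul_right h4 _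
    exact Nat.modEq_zero_iff_dvd.mp (h1.trans (Nat.modEq_zero_iff_dvd.mpr h5))
  obtain ⟨t, ht⟩ := hZ
  rw [ht]
  refine ⟨(p - 1) * t, ?_⟩
  have h6 : p ^ s = p ^ (s - 1) * p := by
    rw [← pow_succ]; congr 1; omega
  rw [h6]; ring

end Cfsg.Agent.S4003
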