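import Cfsg.Statements.S4005
import Cfsg.Agent.Lib.Helper59.Orders123

set_option autoImplicit false
open Cfsg

namespace Cfsg.Agent.S4005

/-- A finite group whose set of element orders is exactly {1, 2, 3} has either a normal elementary abelian 3-subgroup of index 2 or a normal elementary abelian 2-subgroup of index 3. -/
theorem result {G : Type*} [Group G] [Finite G] (h : Set.range (orderOf : G → ℕ) = {k : ℕ | 1 ≤ k ∧ k ≤ 3}) :
    (∃ N : Subgroup G, N.Normal ∧ Cfsg.IsElementaryAbelian 3 N ∧ N.index = 2) ∨
      (∃ N : Subgroup G, N.Normal ∧ Cfsg.IsElementaryAbelian 2 N ∧ N.index = 3) := by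
  exact Cfsg.Agent.Lib.Helper59.orders_123_main h

end Cfsg.Agent.S4005
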