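import Mathlib
import Cfsg.Statements.S4198

set_option autoImplicit false
open Cfsg

namespace Cfsg.Agent.S4198

/-! ### Partitions: `p(n) ≤ fib (n+1)` -/

/-- an arbitrary element of a nonempty multiset -/
noncomputable def pick (s : Multiset ℕ) : ℕ :=
  if h : s = 0 then 0 else Classical.choose (Multiset.exists_mem_of_ne_zero h)

theorem pick_mem {s : Multiset ℕ} (h : s ≠ 0) : pick s ∈ s := by
  unfold pick
  rw [dif_neg h]
  exact Classical.choose_spec (Multiset.exists_mem_of_ne_zero h)

/-- the map realising `p(n+2) ≤ p(n+1) + p(n)` -/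
noncomputable def phi (n : ℕ) (m : Nat.Partition (n + 2)) :
    Nat.Partition (n + 1) ⊕ Nat.Partition n :=
  if h : 1 ∈ m.parts then
    Sum.inl ⟨m.parts.erase 1, fun hi => m.parts_pos (Multiset.mem_of_mem_erase hi), by
      have h1 := Multiset.sum_erase h
      have h2 := m.parts_sum
      omega⟩
  else
    Sum.inr ⟨m.parts.erase (pick m.parts) + Multiset.replicate (pick m.parts - 2) 1, by
      intro i hi
      rcases Multiset.mem_add.mp hi with hi | hi
      · exact m.parts_pos (Multiset.mem_of_mem_erase hi)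
      · rw [Multiset.eq_of_mem_replicate hi]
        exact Nat.one_pos, by
      have hne : m.parts ≠ 0 := by
        intro h0
        have h2 := m.parts_sum
        rw [h0, Multiset.sum_zero] at h2
        omega
      have hmem := pick_mem hne
      have h1 := Multiset.sum_erase hmem
      have h2 := m.parts_sum
      have hpos := m.parts_pos hmem
      have hne1 : pick m.parts ≠ 1 := by
        intro h1'
        rw [h1'] at hmem
        exact h hmem
      rw [Multiset.sum_add, Multiset.sum_replicate, smul_eq_mul, mul_one]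
      omega⟩

theorem phi_inj (n : ℕ) : Function.Injective (phi n) := by
  intro m m' hmm
  unfold phi at hmm
  by_cases h : 1 ∈ m.parts
  · by_cases h' : 1 ∈ m'.parts
    · rw [dif_pos h, dif_pos h'] at hmm
      have h1 := congrArg Nat.Partition.parts (Sum.inl.inj hmm)
      have h2 : m.parts.erase 1 = m'.parts.erase 1 := h1
      apply Nat.Partition.ext
      rw [← Multiset.cons_erase h, ← Multiset.cons_erase h', h2]
    · rw [dif_pos h, dif_neg h'] at hmm
      exact absurd hmm (by simp)
  · by_cases h' : 1 ∈ m'.parts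
    · rw [dif_neg h, dif_pos h'] at hmm
      exact absurd hmm (by simp)
    · rw [dif_neg h, dif_neg h'] at hmm
      have h1 := congrArg Nat.Partition.parts (Sum.inr.inj hmm)
      have h2 : m.parts.erase (pick m.parts) + Multiset.replicate (pick m.parts - 2) 1
          = m'.parts.erase (pick m'.parts) + Multiset.replicate (pick m'.parts - 2) 1 := h1
      have hne : ∀ q : Nat.Partition (n + 2), q.parts ≠ 0 := by
        intro q h0
        have h2 := q.parts_sum
        rw [h0, Multiset.sum_zero] at h2
        omega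
      have key : ∀ q : Nat.Partition (n + 2), 1 ∉ q.parts →
          Multiset.count 1 (q.parts.erase (pick q.parts) + Multiset.replicate (pick q.parts - 2) 1)
            = pick q.parts - 2 ∧ 2 ≤ pick q.parts := by
        intro q hq
        have hmem := pick_mem (hne q)
        have hpos := q.parts_pos hmem
        have hne1 : pick q.parts ≠ 1 := by
          intro h1'
          rw [h1'] at hmem
          exact hq hmem
        refine ⟨?_, by omega⟩
        rw [Multiset.count_add, Multiset.count_replicate_self,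
          Multiset.count_eq_zero_of_notMem (fun hc => hq (Multiset.mem_of_mem_erase hc)), zero_add]
      have k1 := key m h
      have k2 := key m' h'
      rw [h2] at k1
      have hpk : pick m.parts = pick m'.parts := by
        have := k1.1.symm.trans k2.1
        omega
      rw [hpk] at h2
      have h3 : m.parts.erase (pick m'.parts) = m'.parts.erase (pick m'.parts) :=
        add_right_cancel h2
      apply Nat.Partition.ext
      have hm1 := pick_mem (hne m)
      rw [hpk] at hm1
      calc m.parts = pick m'.parts ::ₘ m.parts.erase (pick m'.parts) :=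
            (Multiset.cons_erase hm1).symm
        _ = pick m'.parts ::ₘ m'.parts.erase (pick m'.parts) := by rw [h3]
        _ = m'.parts := Multiset.cons_erase (pick_mem (hne m'))

theorem card_partition_le_fib : ∀ n : ℕ, Fintype.card (Nat.Partition n) ≤ Nat.fib (n + 1) := by
  intro n
  induction n using Nat.strong_induction_on with
  | _ n ih =>
    match n, ih with
    | 0, _ => simp
    | 1, _ => simp
    | (k + 2), ih =>
      have h1 := ih (k + 1) (by omega)
      have h2 := ih k (by omega)
      have h3 : Fintype.card (Nat.Partition (k + 2))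
          ≤ Fintype.card (Nat.Partition (k + 1) ⊕ Nat.Partition k) :=
        Fintype.card_le_of_injective (phi k) (phi_inj k)
      rw [Fintype.card_sum] at h3
      have h4 : Nat.fib (k + 2 + 1) = Nat.fib (k + 1) + Nat.fib (k + 1 + 1) := Nat.fib_add_two
      omega

theorem fib_le_pow : ∀ k : ℕ, Nat.fib (k + 6) ≤ 2 ^ (k + 3) ∧ Nat.fib (k + 7) ≤ 2 ^ (k + 4) := by
  intro k
  induction k with
  | zero => decide
  | succ k ih =>
    refine ⟨ih.2, ?_⟩
    show Nat.fib (k + 8) ≤ 2 ^ (k + 5)
    have h4 : Nat.fib (k + 8) = Nat.fib (k + 6) + Nat.fib (k + 7) := Nat.fib_add_two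
    have h5 : 2 ^ (k + 5) = 2 * 2 ^ (k + 4) := by ring
    have h6 : 2 ^ (k + 4) = 2 * 2 ^ (k + 3) := by ring
    have := ih.1
    have := ih.2
    omega

theorem card_partition_le_pow (n : ℕ) (hn : 5 ≤ n) :
    Fintype.card (Nat.Partition n) ≤ 2 ^ (n - 2) := by
  obtain ⟨k, rfl⟩ : ∃ k, n = k + 5 := ⟨n - 5, by omega⟩
  have h1 := card_partition_le_fib (k + 5)
  have h2 := (fib_le_pow k).1
  have e : k + 5 - 2 = k + 3 := by omega
  rw [e]
  exact h1.trans h2


/-! ### The symmetric group -/

theorem card_conjClasses_perm_le (n : ℕ) :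
    Nat.card (ConjClasses (Equiv.Perm (Fin n))) ≤ Fintype.card (Nat.Partition n) := by
  classical
  obtain ⟨F, hF⟩ : ∃ F : ConjClasses (Equiv.Perm (Fin n)) → Nat.Partition (Fintype.card (Fin n)),
      ∀ g, F (ConjClasses.mk g) = g.partition :=
    ⟨Quotient.lift (fun σ : Equiv.Perm (Fin n) => σ.partition)
      (fun a b h => Equiv.Perm.partition_eq_of_isConj.mp h), fun g => rfl⟩
  have hinj : Function.Injective F := by
    intro c₁ c₂ h
    obtain ⟨g₁, rfl⟩ := ConjClasses.mk_surjective c₁
    obtain ⟨g₂, rfl⟩ := ConjClasses.mk_surjective c₂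
    rw [hF, hF] at h
    exact ConjClasses.mk_eq_mk_iff_isConj.mpr (Equiv.Perm.partition_eq_of_isConj.mpr h)
  have h1 := Nat.card_le_card_of_injective F hinj
  rw [Nat.card_eq_fintype_card (α := Nat.Partition (Fintype.card (Fin n)))] at h1
  have key : ∀ N : ℕ, N = n → Fintype.card (Nat.Partition N) = Fintype.card (Nat.Partition n) := by
    intro N hN
    subst hN
    rfl
  rw [key _ (Fintype.card_fin n)] at h1
  exact h1

/-! ### The alternating group -/

theorem count_le {X Y : Type*} [Fintype X] [DecidableEq X] [DecidableEq Y] (f : X → Y)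
    (TA : Finset Y) (d : Y → Prop) [DecidablePred d]
    (hf : ∀ x, f x ∈ TA)
    (h2 : ∀ x₁ x₂ x₃, f x₁ = f x₂ → f x₂ = f x₃ → x₁ = x₂ ∨ x₁ = x₃ ∨ x₂ = x₃)
    (h1 : ∀ x₁ x₂, f x₁ = f x₂ → ¬ d (f x₁) → x₁ = x₂) :
    Fintype.card X ≤ TA.card + (TA.filter d).card := by
  rw [← Finset.card_univ, Finset.card_eq_sum_card_fiberwise (f := f) (t := TA) (fun x _ => hf x)]
  have hfib : ∀ y ∈ TA, (Finset.univ.filter (fun x => f x = y)).card
      ≤ 1 + (if d y then 1 else 0) := by
    intro y hy
    by_cases hD : d y
    · rw [if_pos hD]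
      by_contra hcon
      push Not at hcon
      obtain ⟨a, b, c, ha, hb, hc, hab, hac, hbc⟩ := Finset.two_lt_card_iff.mp hcon
      simp only [Finset.mem_filter, Finset.mem_univ, true_and] at ha hb hc
      rcases h2 a b c (ha.trans hb.symm) (hb.trans hc.symm) with h | h | h
      · exact hab h
      · exact hac h
      · exact hbc h
    · rw [if_neg hD, add_zero, Finset.card_le_one]
      intro a ha b hb
      simp only [Finset.mem_filter, Finset.mem_univ, true_and] at ha hb
      exact h1 a b (ha.trans hb.symm) (ha ▸ hD)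
  calc ∑ y ∈ TA, (Finset.univ.filter (fun x => f x = y)).card
      ≤ ∑ y ∈ TA, (1 + (if d y then 1 else 0)) := Finset.sum_le_sum hfib
    _ = TA.card + (TA.filter d).card := by
      rw [Finset.sum_add_distrib, Finset.sum_const, smul_eq_mul, mul_one, Finset.card_filter]

theorem sign_eq_one_iff {n : ℕ} (g : Equiv.Perm (Fin n)) :
    Equiv.Perm.sign g = 1 ↔ Even (g.cycleType.sum + Multiset.card g.cycleType) := by
  rw [Equiv.Perm.sign_of_cycleType]
  exact neg_one_pow_eq_one_iff_even (by decide)

theorem sign_cases {n : ℕ} (g : Equiv.Perm (Fin n)) :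
    Equiv.Perm.sign g = 1 ∨ Equiv.Perm.sign g = -1 := Int.units_eq_one_or _

theorem mk_eq_of_even {n : ℕ} (g₁ g₂ : alternatingGroup (Fin n)) (h : Equiv.Perm (Fin n))
    (hh : Equiv.Perm.sign h = 1) (hc : h * (g₁ : Equiv.Perm (Fin n)) * h⁻¹ = g₂) :
    ConjClasses.mk g₁ = ConjClasses.mk g₂ := by
  apply ConjClasses.mk_eq_mk_iff_isConj.mpr
  apply isConj_iff.mpr
  refine ⟨⟨h, Equiv.Perm.mem_alternatingGroup.mpr hh⟩, ?_⟩
  apply Subtype.ext
  exact hc


/-- the condition "distinct odd cycle lengths, at most one fixed point" -/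
def dcond (n : ℕ) (m : Multiset ℕ) : Prop :=
  (∀ c ∈ m, Odd c) ∧ n ≤ m.sum + 1 ∧ ∀ i, m.count i ≤ 1

/-- the map on cycle types -/
noncomputable def psi (m : Multiset ℕ) : Multiset ℕ := m.erase (pick m) + {pick m - 1}

theorem card_conjClasses_alt_lt (n : ℕ) (hn : 5 ≤ n) :
    Nat.card (ConjClasses (alternatingGroup (Fin n)))
      < Nat.card (ConjClasses (Equiv.Perm (Fin n))) := by
  classical
  have : Fintype (ConjClasses (alternatingGroup (Fin n))) := Fintype.ofFinite _
  have : Fintype (ConjClasses (Equiv.Perm (Fin n))) := Fintype.ofFinite _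
  rw [Nat.card_eq_fintype_card, Nat.card_eq_fintype_card]
  -- cycle type maps
  obtain ⟨fS, hfS⟩ : ∃ F : ConjClasses (Equiv.Perm (Fin n)) → Multiset ℕ,
      ∀ g, F (ConjClasses.mk g) = g.cycleType :=
    ⟨Quotient.lift (fun σ : Equiv.Perm (Fin n) => σ.cycleType)
      (fun a b h => Equiv.Perm.isConj_iff_cycleType_eq.mp h), fun g => rfl⟩
  obtain ⟨fA, hfA⟩ : ∃ F : ConjClasses (alternatingGroup (Fin n)) → Multiset ℕ,
      ∀ g, F (ConjClasses.mk g) = (g : Equiv.Perm (Fin n)).cycleType :=
    ⟨Quotient.lift (fun σ : alternatingGroup (Fin n) => (σ : Equiv.Perm (Fin n)).cycleType)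
      (fun a b h => by
        obtain ⟨c, hc⟩ := isConj_iff.mp h
        apply Equiv.Perm.isConj_iff_cycleType_eq.mp
        apply isConj_iff.mpr
        refine ⟨c, ?_⟩
        have h5 := congrArg Subtype.val hc
        exact h5), fun g => rfl⟩
  obtain ⟨T, hT⟩ : ∃ T : Finset (Multiset ℕ), T = Finset.univ.image fS := ⟨_, rfl⟩
  obtain ⟨TA, hTA⟩ : ∃ TA : Finset (Multiset ℕ), TA = Finset.univ.image fA := ⟨_, rfl⟩
  have hTmem : ∀ m, m ∈ T ↔ ∃ g : Equiv.Perm (Fin n), g.cycleType = m := by
    intro m
    rw [hT, Finset.mem_image]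
    constructor
    · rintro ⟨c, -, hc⟩
      obtain ⟨g, rfl⟩ := ConjClasses.mk_surjective c
      exact ⟨g, by rw [← hfS, hc]⟩
    · rintro ⟨g, hg⟩
      exact ⟨ConjClasses.mk g, Finset.mem_univ _, by rw [hfS, hg]⟩
  have hTAmem : ∀ m, m ∈ TA ↔
      ∃ g : Equiv.Perm (Fin n), Equiv.Perm.sign g = 1 ∧ g.cycleType = m := by
    intro m
    rw [hTA, Finset.mem_image]
    constructor
    · rintro ⟨c, -, hc⟩
      obtain ⟨g, rfl⟩ := ConjClasses.mk_surjective c
      exact ⟨g, Equiv.Perm.mem_alternatingGroup.mp g.2, by rw [← hfA, hc]⟩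
    · rintro ⟨g, hg1, hg⟩
      exact ⟨ConjClasses.mk ⟨g, Equiv.Perm.mem_alternatingGroup.mpr hg1⟩, Finset.mem_univ _,
        by rw [hfA, hg]⟩
  have hT' : ∀ m, m ∈ T ↔ m.sum ≤ n ∧ ∀ a ∈ m, 2 ≤ a := by
    intro m
    rw [hTmem, Equiv.Perm.exists_with_cycleType_iff, Fintype.card_fin]
  have hTA' : ∀ m, m ∈ TA ↔ m ∈ T ∧ Even (m.sum + Multiset.card m) := by
    intro m
    rw [hTAmem, hTmem]
    constructor
    · rintro ⟨g, hg1, rfl⟩
      exact ⟨⟨g, rfl⟩, (sign_eq_one_iff g).mp hg1⟩
    · rintro ⟨⟨g, rfl⟩, he⟩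
      exact ⟨g, (sign_eq_one_iff g).mpr he, rfl⟩
  -- step 1: `k(A_n) ≤ |TA| + |TA.filter d|`
  have step1 : Fintype.card (ConjClasses (alternatingGroup (Fin n)))
      ≤ TA.card + (TA.filter (dcond n)).card := by
    apply count_le fA TA (dcond n)
    · intro x
      rw [hTA]
      exact Finset.mem_image_of_mem _ (Finset.mem_univ _)
    · intro x₁ x₂ x₃ h12 h23
      obtain ⟨g₁, rfl⟩ := ConjClasses.mk_surjective x₁
      obtain ⟨g₂, rfl⟩ := ConjClasses.mk_surjective x₂
      obtain ⟨g₃, rfl⟩ := ConjClasses.mk_surjective x₃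
      rw [hfA, hfA] at h12 h23
      obtain ⟨h, hh⟩ := isConj_iff.mp (Equiv.Perm.isConj_iff_cycleType_eq.mpr h12)
      obtain ⟨k, hk⟩ := isConj_iff.mp (Equiv.Perm.isConj_iff_cycleType_eq.mpr h23)
      rcases sign_cases h with sh | sh
      · left
        exact mk_eq_of_even g₁ g₂ h sh hh
      · rcases sign_cases k with sk | sk
        · right; right
          exact mk_eq_of_even g₂ g₃ k sk hk
        · right; left
          apply mk_eq_of_even g₁ g₃ (k * h)
          · rw [map_mul, sh, sk]
            rfl
          · rw [← hk, ← hh]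
            group
    · intro x₁ x₂ h12 hd
      obtain ⟨g₁, rfl⟩ := ConjClasses.mk_surjective x₁
      obtain ⟨g₂, rfl⟩ := ConjClasses.mk_surjective x₂
      rw [hfA, hfA] at h12
      rw [hfA] at hd
      obtain ⟨h, hh⟩ := isConj_iff.mp (Equiv.Perm.isConj_iff_cycleType_eq.mpr h12)
      have hcent : ¬ (Subgroup.centralizer {(g₁ : Equiv.Perm (Fin n))}
          ≤ alternatingGroup (Fin n)) := by
        intro hle
        apply hd
        have h5 := Equiv.Perm.centralizer_le_alternating_iff.mp hle
        rw [Fintype.card_fin] at h5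
        exact h5
      rw [SetLike.not_le_iff_exists] at hcent
      obtain ⟨c, hc, hcA⟩ := hcent
      rw [Subgroup.mem_centralizer_singleton_iff] at hc
      have sc : Equiv.Perm.sign c = -1 := by
        rcases sign_cases c with sc | sc
        · exact absurd (Equiv.Perm.mem_alternatingGroup.mpr sc) hcA
        · exact sc
      rcases sign_cases h with sh | sh
      · exact mk_eq_of_even g₁ g₂ h sh hh
      · apply mk_eq_of_even g₁ g₂ (h * c)
        · rw [map_mul, sh, sc]
          rfl
        · rw [← hh]
          have e : h * c * (g₁ : Equiv.Perm (Fin n)) * (h * c)⁻¹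
              = h * (c * g₁ * c⁻¹) * h⁻¹ := by group
          have e2 : c * (g₁ : Equiv.Perm (Fin n)) * c⁻¹ = g₁ := by
            rw [hc, mul_inv_cancel_right]
          rw [e, e2]
  -- step 2
  have hsub : TA ⊆ T := fun m hm => ((hTA' m).mp hm).1
  have h2T : ({2} : Multiset ℕ) ∈ T := by
    rw [hT']
    constructor
    · rw [Multiset.sum_singleton]
      omega
    · intro a ha
      rw [Multiset.mem_singleton] at ha
      omega
  have h2TA : ({2} : Multiset ℕ) ∉ TA := by
    rw [hTA']
    rintro ⟨-, he⟩
    rw [Multiset.sum_singleton, Multiset.card_singleton] at he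
    exact absurd he (by decide)
  have hfacts : ∀ m ∈ TA.filter (dcond n), m ≠ 0 ∧ 3 ≤ pick m ∧ pick m ∈ m ∧ Odd (pick m) := by
    intro m hm
    rw [Finset.mem_filter] at hm
    obtain ⟨hmTA, hd⟩ := hm
    have hm0 : m ≠ 0 := by
      rintro rfl
      have h5 := hd.2.1
      rw [Multiset.sum_zero] at h5
      omega
    have hmem := pick_mem hm0
    have hodd := hd.1 _ hmem
    have h2 := ((hT' m).mp (hsub hmTA)).2 _ hmem
    refine ⟨hm0, ?_, hmem, hodd⟩
    obtain ⟨j, hj⟩ := hodd
    omega
  have hpsi : ∀ m ∈ TA.filter (dcond n), psi m ∈ (T \ TA).erase {2} := by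
    intro m hm
    obtain ⟨hm0, h3, hmem, hodd⟩ := hfacts m hm
    rw [Finset.mem_filter] at hm
    obtain ⟨hmTA, hd⟩ := hm
    have hmT := (hT' m).mp (hsub hmTA)
    have hev := ((hTA' m).mp hmTA).2
    have hsum : (psi m).sum + 1 = m.sum := by
      unfold psi
      have h5 := Multiset.sum_erase hmem
      rw [Multiset.sum_add, Multiset.sum_singleton]
      omega
    have hcard : Multiset.card (psi m) = Multiset.card m := by
      unfold psi
      rw [Multiset.card_add, Multiset.card_singleton, Multiset.card_erase_of_mem hmem,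
        Nat.pred_eq_sub_one]
      have h5 : 0 < Multiset.card m := Multiset.card_pos.mpr hm0
      omega
    rw [Finset.mem_erase, Finset.mem_sdiff]
    refine ⟨?_, ?_, ?_⟩
    · intro h
      have hs : m.sum = 3 := by rw [← hsum, h, Multiset.sum_singleton]
      have h5 := hd.2.1
      omega
    · rw [hT']
      refine ⟨by omega, ?_⟩
      intro a ha
      unfold psi at ha
      rcases Multiset.mem_add.mp ha with ha | ha
      · exact hmT.2 a (Multiset.mem_of_mem_erase ha)
      · rw [Multiset.mem_singleton] at ha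
        omega
    · rw [hTA']
      rintro ⟨-, he⟩
      rw [hcard] at he
      rw [← hsum] at hev
      have hodd' : Odd ((psi m).sum + 1 + Multiset.card m) := by
        have e : (psi m).sum + 1 + Multiset.card m
            = ((psi m).sum + Multiset.card m) + 1 := by ring
        rw [e]
        exact he.add_one
      exact (Nat.not_even_iff_odd.mpr hodd') hev
  have hinj : Set.InjOn psi (TA.filter (dcond n) : Set (Multiset ℕ)) := by
    intro m hm m' hm' h
    have hm1 := hm
    have hm1' := hm'
    rw [Finset.mem_coe] at hm1 hm1'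
    obtain ⟨hm0, h3, hmem, hodd⟩ := hfacts m hm1
    obtain ⟨hm0', h3', hmem', hodd'⟩ := hfacts m' hm1'
    rw [Finset.mem_filter] at hm1 hm1'
    have hL : pick m = pick m' := by
      have h1 : pick m - 1 ∈ psi m := by
        unfold psi
        exact Multiset.mem_add.mpr (Or.inr (Multiset.mem_singleton_self _))
      rw [h] at h1
      unfold psi at h1
      rcases Multiset.mem_add.mp h1 with h1 | h1
      · have h5 := hm1'.2.1 _ (Multiset.mem_of_mem_erase h1)
        obtain ⟨j, hj⟩ := hodd
        obtain ⟨j', hj'⟩ := h5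
        omega
      · rw [Multiset.mem_singleton] at h1
        omega
    unfold psi at h
    rw [hL] at h
    have h4 : m.erase (pick m') = m'.erase (pick m') := add_right_cancel h
    rw [hL] at hmem
    calc m = pick m' ::ₘ m.erase (pick m') := (Multiset.cons_erase hmem).symm
      _ = pick m' ::ₘ m'.erase (pick m') := by rw [h4]
      _ = m' := Multiset.cons_erase hmem'
  have step2 : (TA.filter (dcond n)).card ≤ ((T \ TA).erase {2}).card :=
    Finset.card_le_card_of_injOn psi hpsi hinj
  have h2mem : ({2} : Multiset ℕ) ∈ T \ TA := Finset.mem_sdiff.mpr ⟨h2T, h2TA⟩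
  have step3 : ((T \ TA).erase {2}).card + 1 = (T \ TA).card := Finset.card_erase_add_one h2mem
  have step4 : (T \ TA).card + TA.card = T.card := Finset.card_sdiff_add_card_eq_card hsub
  have step5 : T.card ≤ Fintype.card (ConjClasses (Equiv.Perm (Fin n))) := by
    rw [hT]
    exact Finset.card_image_le.trans (le_of_eq Finset.card_univ)
  omega

/-- For n ≥ 5 the alternating group of degree n has strictly fewer conjugacy classes than the symmetric group of degree n, and the symmetric group of degree n (whose classes correspond to the partitions of n) has at most 2^(n−2) conjugacy classes. -/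
theorem result (n : ℕ) (hn : 5 ≤ n) : Nat.card (ConjClasses (alternatingGroup (Fin n))) < Nat.card (ConjClasses (Equiv.Perm (Fin n))) ∧ Nat.card (ConjClasses (Equiv.Perm (Fin n))) ≤ 2 ^ (n - 2) := by
  exact ⟨card_conjClasses_alt_lt n hn,
    (card_conjClasses_perm_le n).trans (card_partition_le_pow n hn)⟩

end Cfsg.Agent.S4198
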