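import Mathlib
import Cfsg.Statements.S4200

set_option autoImplicit false
open Cfsg

namespace Cfsg.Agent.S4200

theorem card_pairs_eq_sum {α β : Type*} [Fintype α] [Finite β] (r : α → β → Prop) :
    Nat.card {p : α × β // r p.1 p.2} = ∑ a : α, Nat.card {b : β // r a b} := by
  rw [Nat.card_congr (Equiv.subtypeProdEquivSigmaSubtype r), Nat.card_sigma]

/-- Lagrange in the centralizer of `x`. -/
theorem nX_eq {X : Type*} [Group X] [Finite X] (Y : Subgroup X) (x : X) :
    Nat.card {g : X // Commute x g} =
      Nat.card {h : Y // Commute x (h : X)} * Y.relIndex (Subgroup.centralizer {x}) := by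
  have e1 : {g : X // Commute x g} ≃ Subgroup.centralizer ({x} : Set X) :=
    Equiv.subtypeEquivRight fun g => by
      rw [Subgroup.mem_centralizer_singleton_iff]
      exact ⟨fun h => h.eq.symm, fun h => h.symm⟩
  have e2 : {h : Y // Commute x (h : X)} ≃ Y.subgroupOf (Subgroup.centralizer ({x} : Set X)) :=
    { toFun := fun h => ⟨⟨(h.1 : X), Subgroup.mem_centralizer_singleton_iff.mpr h.2.eq.symm⟩,
        Subgroup.mem_subgroupOf.mpr h.1.2⟩
      invFun := fun c => ⟨⟨(c.1 : X), Subgroup.mem_subgroupOf.mp c.2⟩,
        (Subgroup.mem_centralizer_singleton_iff.mp c.1.2).symm⟩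
      left_inv := fun h => rfl
      right_inv := fun c => rfl }
  rw [Nat.card_congr e1, Nat.card_congr e2]
  exact (Subgroup.card_mul_index (Y.subgroupOf (Subgroup.centralizer ({x} : Set X)))).symm

theorem relIndex_le {X : Type*} [Group X] [Finite X] (Y K : Subgroup X) : Y.relIndex K ≤ Y.index := by
  have h := Subgroup.relIndex_le_of_le_right (H := Y) (K := K) (L := ⊤) le_top
    (by rw [Subgroup.relIndex_top_right]; exact Subgroup.index_ne_zero_of_finite)
  rwa [Subgroup.relIndex_top_right] at h

/-- If the centralizer of `x` meets every coset of `Y`, every element is `u * c`. -/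
theorem exists_mul_of_relIndex_eq {X : Type*} [Group X] [Finite X] (Y : Subgroup X) (x : X)
    (h : Y.relIndex (Subgroup.centralizer {x}) = Y.index) (g : X) :
    ∃ u ∈ Y, ∃ c ∈ Subgroup.centralizer ({x} : Set X), g = u * c := by
  set C := Subgroup.centralizer ({x} : Set X) with hC
  let f : C ⧸ Y.subgroupOf C → X ⧸ Y :=
    Quotient.map' (fun c : C => (c : X)) (fun a b hab => by
      rw [QuotientGroup.leftRel_apply] at hab ⊢
      exact hab)
  have hinj : Function.Injective f := by
    intro a b
    induction a using Quotient.inductionOn'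
    induction b using Quotient.inductionOn'
    intro hab
    apply Quotient.sound'
    have := Quotient.exact' hab
    rw [QuotientGroup.leftRel_apply] at this ⊢
    exact this
  have hbij : Function.Bijective f := hinj.bijective_of_nat_card_le (le_of_eq h.symm)
  obtain ⟨q, hq⟩ := hbij.2 (QuotientGroup.mk g⁻¹)
  induction q using Quotient.inductionOn' with
  | h c =>
    have h1 : (QuotientGroup.mk (c : X) : X ⧸ Y) = QuotientGroup.mk g⁻¹ := hq
    have h2 : (c : X)⁻¹ * g⁻¹ ∈ Y := QuotientGroup.eq.mp h1
    refine ⟨((c : X)⁻¹ * g⁻¹)⁻¹, Y.inv_mem h2, (c : X)⁻¹, C.inv_mem c.2, by group⟩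

/-- Let Y be a subgroup of the finite group X, of index m. Then the numbers of conjugacy classes satisfy k(Y) ≤ m·k(X) and k(X) ≤ m·k(Y), and the second inequality is strict unless Y is normal in X. -/
theorem result {X : Type*} [Group X] [Finite X] (Y : Subgroup X) : Nat.card (ConjClasses Y) ≤ Y.index * Nat.card (ConjClasses X) ∧ Nat.card (ConjClasses X) ≤ Y.index * Nat.card (ConjClasses Y) ∧ (¬ Y.Normal → Nat.card (ConjClasses X) < Y.index * Nat.card (ConjClasses Y)) := by
  classical
  have : Fintype X := Fintype.ofFinite X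
  have : Fintype Y := Fintype.ofFinite Y
  have hA := card_comm_eq_card_conjClasses_mul_card X
  have hB := card_comm_eq_card_conjClasses_mul_card Y
  have hXY : Nat.card Y * Y.index = Nat.card X := Y.card_mul_index
  have hYpos : 0 < Nat.card Y := Nat.card_pos
  have hmpos : 0 < Y.index := Nat.pos_of_ne_zero Subgroup.index_ne_zero_of_finite
  -- sums
  have sA : Nat.card {p : X × X // Commute p.1 p.2} = ∑ x : X, Nat.card {g : X // Commute x g} :=
    card_pairs_eq_sum (fun (x g : X) => Commute x g)
  have sB : Nat.card {p : Y × Y // Commute p.1 p.2} = ∑ y : Y, Nat.card {h : Y // Commute (y : X) (h : X)} := by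
    rw [card_pairs_eq_sum (fun (y h : Y) => Commute y h)]
    apply Finset.sum_congr rfl
    intro y _
    apply Nat.card_congr
    exact Equiv.subtypeEquivRight fun h => by
      rw [commute_iff_eq, commute_iff_eq, Subtype.ext_iff]
      rfl
  have sM1 : Nat.card {p : X × Y // Commute p.1 (p.2 : X)} = ∑ x : X, Nat.card {h : Y // Commute x (h : X)} :=
    card_pairs_eq_sum (fun (x : X) (h : Y) => Commute x (h : X))
  have sM2 : Nat.card {p : X × Y // Commute p.1 (p.2 : X)} = ∑ y : Y, Nat.card {g : X // Commute (y : X) g} := by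
    rw [← card_pairs_eq_sum (fun (y : Y) (g : X) => Commute (y : X) g)]
    apply Nat.card_congr
    exact Equiv.subtypeEquiv (Equiv.prodComm X Y) (fun p => ⟨fun h => h.symm, fun h => h.symm⟩)
  have hL : ∀ x : X, Nat.card {g : X // Commute x g} ≤ Y.index * Nat.card {h : Y // Commute x (h : X)} := by
    intro x
    rw [nX_eq Y x, mul_comm]
    exact Nat.mul_le_mul_right _ (relIndex_le Y _)
  have hnYpos : ∀ x : X, 0 < Nat.card {h : Y // Commute x (h : X)} := by
    intro x
    have : Nonempty {h : Y // Commute x (h : X)} := ⟨⟨1, by simp⟩⟩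
    exact Nat.card_pos
  -- first chain
  have c1 : ∑ x : X, Nat.card {g : X // Commute x g} ≤
      Y.index * ∑ x : X, Nat.card {h : Y // Commute x (h : X)} := by
    rw [Finset.mul_sum]
    exact Finset.sum_le_sum fun x _ => hL x
  have c2 : ∑ y : Y, Nat.card {g : X // Commute (y : X) g} ≤
      Y.index * ∑ y : Y, Nat.card {h : Y // Commute (y : X) (h : X)} := by
    rw [Finset.mul_sum]
    exact Finset.sum_le_sum fun y _ => hL y
  refine ⟨?_, ?_, ?_⟩
  · -- k(Y) ≤ m k(X)
    have hinj : Nat.card {p : Y × Y // Commute p.1 p.2} ≤ Nat.card {p : X × X // Commute p.1 p.2} := by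
      apply Nat.card_le_card_of_injective
        (fun p : {p : Y × Y // Commute p.1 p.2} =>
          (⟨((p.1.1 : X), (p.1.2 : X)), by
            have := p.2
            rw [commute_iff_eq, Subtype.ext_iff] at this
            exact this⟩ : {p : X × X // Commute p.1 p.2}))
      intro p q hpq
      have h1 := congrArg (fun z : {p : X × X // Commute p.1 p.2} => z.1.1) hpq
      have h2 := congrArg (fun z : {p : X × X // Commute p.1 p.2} => z.1.2) hpq
      apply Subtype.ext
      apply Prod.ext
      · exact Subtype.ext h1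
      · exact Subtype.ext h2
    rw [hA, hB, ← hXY] at hinj
    have : Nat.card (ConjClasses Y) * Nat.card Y ≤ (Y.index * Nat.card (ConjClasses X)) * Nat.card Y := by
      calc Nat.card (ConjClasses Y) * Nat.card Y ≤ Nat.card (ConjClasses X) * (Nat.card Y * Y.index) := hinj
        _ = (Y.index * Nat.card (ConjClasses X)) * Nat.card Y := by ring
    exact Nat.le_of_mul_le_mul_right this hYpos
  · -- k(X) ≤ m k(Y)
    have hchain : Nat.card {p : X × X // Commute p.1 p.2} ≤
        Y.index * (Y.index * Nat.card {p : Y × Y // Commute p.1 p.2}) := by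
      rw [sA, sB]
      refine c1.trans ?_
      rw [← sM1, sM2]
      exact Nat.mul_le_mul_left _ c2
    rw [hA, hB, ← hXY] at hchain
    have : Nat.card (ConjClasses X) * (Nat.card Y * Y.index) ≤
        (Y.index * Nat.card (ConjClasses Y)) * (Nat.card Y * Y.index) := by
      calc Nat.card (ConjClasses X) * (Nat.card Y * Y.index)
          ≤ Y.index * (Y.index * (Nat.card (ConjClasses Y) * Nat.card Y)) := hchain
        _ = (Y.index * Nat.card (ConjClasses Y)) * (Nat.card Y * Y.index) := by ring
    exact Nat.le_of_mul_le_mul_right this (Nat.mul_pos hYpos hmpos)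
  · intro hnn
    -- a witness of non-normality
    have hex : ∃ y ∈ Y, ∃ g : X, g * y * g⁻¹ ∉ Y := by
      by_contra hcon
      push Not at hcon
      exact hnn ⟨fun y hy g => hcon y hy g⟩
    obtain ⟨y, hy, g, hg⟩ := hex
    have hlt : Y.relIndex (Subgroup.centralizer {y}) < Y.index := by
      refine lt_of_le_of_ne (relIndex_le Y _) ?_
      intro heq
      obtain ⟨u, hu, c, hc, hguc⟩ := exists_mul_of_relIndex_eq Y y heq g
      apply hg
      have hcy : c * y = y * c := Subgroup.mem_centralizer_singleton_iff.mp hc
      have : g * y * g⁻¹ = u * y * u⁻¹ := by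
        rw [hguc]
        calc u * c * y * (u * c)⁻¹ = u * (c * y) * c⁻¹ * u⁻¹ := by group
          _ = u * (y * c) * c⁻¹ * u⁻¹ := by rw [hcy]
          _ = u * y * u⁻¹ := by group
      rw [this]
      exact Y.mul_mem (Y.mul_mem hu hy) (Y.inv_mem hu)
    have hLy : Nat.card {g : X // Commute y g} < Y.index * Nat.card {h : Y // Commute y (h : X)} := by
      rw [nX_eq Y y, mul_comm]
      exact Nat.mul_lt_mul_of_pos_right hlt (hnYpos y)
    have c1' : ∑ x : X, Nat.card {g : X // Commute x g} <
        Y.index * ∑ x : X, Nat.card {h : Y // Commute x (h : X)} := by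
      rw [Finset.mul_sum]
      exact Finset.sum_lt_sum (fun x _ => hL x) ⟨y, Finset.mem_univ y, hLy⟩
    have hchain : Nat.card {p : X × X // Commute p.1 p.2} <
        Y.index * (Y.index * Nat.card {p : Y × Y // Commute p.1 p.2}) := by
      rw [sA, sB]
      refine lt_of_lt_of_le c1' ?_
      rw [← sM1, sM2]
      exact Nat.mul_le_mul_left _ c2
    rw [hA, hB, ← hXY] at hchain
    have : Nat.card (ConjClasses X) * (Nat.card Y * Y.index) <
        (Y.index * Nat.card (ConjClasses Y)) * (Nat.card Y * Y.index) := by
      calc Nat.card (ConjClasses X) * (Nat.card Y * Y.index)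
          < Y.index * (Y.index * (Nat.card (ConjClasses Y) * Nat.card Y)) := hchain
        _ = (Y.index * Nat.card (ConjClasses Y)) * (Nat.card Y * Y.index) := by ring
    exact Nat.lt_of_mul_lt_mul_right this

end Cfsg.Agent.S4200
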