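import Mathlib
import Cfsg.Statements.S4201
import Cfsg.Agent.S4200

set_option autoImplicit false
open Cfsg

namespace Cfsg.Agent.S4201

/-- The part of a coset commuting with `x` is no larger than the part of `N` commuting with `x`. -/
theorem fiber_le {X : Type*} [Group X] [Finite X] (N : Subgroup X) [N.Normal] (x : X) (a : X ⧸ N)
    (Pr : Prop) :
    Nat.card {y : X // Pr ∧ (y : X ⧸ N) = a ∧ Commute x y} ≤ Nat.card {n : N // Pr ∧ Commute x (n : X)} := by
  by_cases h : Nonempty {y : X // Pr ∧ (y : X ⧸ N) = a ∧ Commute x y}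
  · obtain ⟨⟨y₀, hpr, hy₀a, hy₀c⟩⟩ := h
    apply Nat.card_le_card_of_injective
      (fun y : {y : X // Pr ∧ (y : X ⧸ N) = a ∧ Commute x y} =>
        (⟨⟨y₀⁻¹ * y.1, QuotientGroup.eq.mp (hy₀a.trans y.2.2.1.symm)⟩,
          hpr, Commute.mul_right (Commute.inv_right hy₀c) y.2.2.2⟩ : {n : N // Pr ∧ Commute x (n : X)}))
    intro y y' hyy'
    have h1 := congrArg (fun z : {n : N // Pr ∧ Commute x (n : X)} => ((z.1 : N) : X)) hyy'
    simp only [] at h1
    apply Subtype.ext
    exact mul_left_cancel h1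
  · rw [not_nonempty_iff] at h
    rw [Nat.card_of_isEmpty]
    exact Nat.zero_le _

theorem card_le_mul_of_fibers {S T : Type*} [Finite S] [Fintype T] (φ : S → T) (c : ℕ)
    (h : ∀ t, Nat.card {s // φ s = t} ≤ c) : Nat.card S ≤ Nat.card T * c := by
  have e : S ≃ Σ t, {s // φ s = t} := (Equiv.sigmaFiberEquiv φ).symm
  rw [Nat.card_congr e, Nat.card_sigma]
  calc ∑ t, Nat.card {s // φ s = t} ≤ ∑ _t : T, c := Finset.sum_le_sum fun t _ => h t
    _ = Nat.card T * c := by simp [Nat.card_eq_fintype_card]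

/-- Commuting pairs lying over a fixed pair of cosets. -/
theorem pairs_over_le {X : Type*} [Group X] [Finite X] (N : Subgroup X) [N.Normal] (a b : X ⧸ N) :
    Nat.card {p : X × X // (p.1 : X ⧸ N) = a ∧ (p.2 : X ⧸ N) = b ∧ Commute p.1 p.2} ≤
      Nat.card {p : N × N // Commute p.1 p.2} := by
  classical
  have : Fintype X := Fintype.ofFinite X
  have : Fintype N := Fintype.ofFinite N
  calc Nat.card {p : X × X // (p.1 : X ⧸ N) = a ∧ (p.2 : X ⧸ N) = b ∧ Commute p.1 p.2}
      = ∑ x : X, Nat.card {y : X // (x : X ⧸ N) = a ∧ (y : X ⧸ N) = b ∧ Commute x y} :=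
        Cfsg.Agent.S4200.card_pairs_eq_sum
          (fun (x y : X) => (x : X ⧸ N) = a ∧ (y : X ⧸ N) = b ∧ Commute x y)
    _ ≤ ∑ x : X, Nat.card {n : N // (x : X ⧸ N) = a ∧ Commute x (n : X)} :=
        Finset.sum_le_sum fun x _ => fiber_le N x b _
    _ = Nat.card {p : X × N // (p.1 : X ⧸ N) = a ∧ Commute p.1 (p.2 : X)} :=
        (Cfsg.Agent.S4200.card_pairs_eq_sum
          (fun (x : X) (n : N) => (x : X ⧸ N) = a ∧ Commute x (n : X))).symm
    _ = Nat.card {p : N × X // (p.2 : X ⧸ N) = a ∧ Commute (p.1 : X) p.2} :=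
        Nat.card_congr (Equiv.subtypeEquiv (Equiv.prodComm X N)
          (fun p => ⟨fun h => ⟨h.1, h.2.symm⟩, fun h => ⟨h.1, h.2.symm⟩⟩))
    _ = ∑ n : N, Nat.card {x : X // (x : X ⧸ N) = a ∧ Commute (n : X) x} :=
        Cfsg.Agent.S4200.card_pairs_eq_sum
          (fun (n : N) (x : X) => (x : X ⧸ N) = a ∧ Commute (n : X) x)
    _ ≤ ∑ n : N, Nat.card {n' : N // Commute (n : X) (n' : X)} := by
        apply Finset.sum_le_sum
        intro n _
        calc Nat.card {x : X // (x : X ⧸ N) = a ∧ Commute (n : X) x}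
            = Nat.card {x : X // True ∧ (x : X ⧸ N) = a ∧ Commute (n : X) x} :=
              Nat.card_congr (Equiv.subtypeEquivRight (fun x => by simp))
          _ ≤ Nat.card {n' : N // True ∧ Commute (n : X) (n' : X)} := fiber_le N (n : X) a True
          _ = Nat.card {n' : N // Commute (n : X) (n' : X)} :=
              Nat.card_congr (Equiv.subtypeEquivRight (fun x => by simp))
    _ = ∑ n : N, Nat.card {n' : N // Commute n n'} := by
        apply Finset.sum_congr rfl
        intro n _
        apply Nat.card_congr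
        exact Equiv.subtypeEquivRight fun h => by
          rw [commute_iff_eq, commute_iff_eq, Subtype.ext_iff]
          rfl
    _ = Nat.card {p : N × N // Commute p.1 p.2} :=
        (Cfsg.Agent.S4200.card_pairs_eq_sum (fun (n n' : N) => Commute n n')).symm

/-- If N is a normal subgroup of the finite group X then k(X) ≤ k(N)·k(X ⧸ N), where k denotes the number of conjugacy classes. -/
theorem result {X : Type*} [Group X] [Finite X] (N : Subgroup X) [N.Normal] : Nat.card (ConjClasses X) ≤ Nat.card (ConjClasses N) * Nat.card (ConjClasses (X ⧸ N)) := by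
  classical
  have : Fintype (X ⧸ N) := Fintype.ofFinite _
  have : Fintype {q : (X ⧸ N) × (X ⧸ N) // Commute q.1 q.2} := Fintype.ofFinite _
  have hA := card_comm_eq_card_conjClasses_mul_card X
  have hQ := card_comm_eq_card_conjClasses_mul_card (X ⧸ N)
  have hN := card_comm_eq_card_conjClasses_mul_card N
  have hcard : Nat.card X = Nat.card (X ⧸ N) * Nat.card N := Subgroup.card_eq_card_quotient_mul_card_subgroup N
  let φ : {p : X × X // Commute p.1 p.2} → {q : (X ⧸ N) × (X ⧸ N) // Commute q.1 q.2} :=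
    fun p => ⟨((p.1.1 : X ⧸ N), (p.1.2 : X ⧸ N)), p.2.map (QuotientGroup.mk' N)⟩
  have hfib : ∀ t, Nat.card {s // φ s = t} ≤ Nat.card {p : N × N // Commute p.1 p.2} := by
    intro t
    refine le_trans ?_ (pairs_over_le N t.1.1 t.1.2)
    apply Nat.card_le_card_of_injective
      (fun s : {s // φ s = t} =>
        (⟨s.1.1, by
          have h := congrArg Subtype.val s.2
          exact ⟨congrArg Prod.fst h, congrArg Prod.snd h, s.1.2⟩⟩ :
          {p : X × X // (p.1 : X ⧸ N) = t.1.1 ∧ (p.2 : X ⧸ N) = t.1.2 ∧ Commute p.1 p.2}))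
    intro s s' hss'
    have h1 := congrArg Subtype.val hss'
    simp only [] at h1
    exact Subtype.ext (Subtype.ext h1)
  have hmain := card_le_mul_of_fibers φ _ hfib
  rw [hA, hQ, hN, hcard] at hmain
  have hpos : 0 < Nat.card (X ⧸ N) * Nat.card N := Nat.mul_pos Nat.card_pos Nat.card_pos
  have : Nat.card (ConjClasses X) * (Nat.card (X ⧸ N) * Nat.card N) ≤
      (Nat.card (ConjClasses N) * Nat.card (ConjClasses (X ⧸ N))) * (Nat.card (X ⧸ N) * Nat.card N) := by
    calc Nat.card (ConjClasses X) * (Nat.card (X ⧸ N) * Nat.card N)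
        ≤ Nat.card (ConjClasses (X ⧸ N)) * Nat.card (X ⧸ N) * (Nat.card (ConjClasses N) * Nat.card N) := hmain
      _ = (Nat.card (ConjClasses N) * Nat.card (ConjClasses (X ⧸ N))) * (Nat.card (X ⧸ N) * Nat.card N) := by ring
  exact Nat.le_of_mul_le_mul_right this hpos

end Cfsg.Agent.S4201
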