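import Mathlib
import Cfsg.Statements.S4203
import Cfsg.Agent.S4219

set_option autoImplicit false
open Cfsg

namespace Cfsg.Agent.S4203

open Equiv

/-! ### The symmetric group of degree four is solvable (computation as in `Cfsg.Agent.S4337`) -/

theorem comm_alt_mem : ∀ x : Perm (Fin 4), Perm.sign x = 1 →
    ∀ y : Perm (Fin 4), Perm.sign y = 1 →
    (x * y * x⁻¹ * y⁻¹ = 1 ∨ x * y * x⁻¹ * y⁻¹ = swap 0 1 * swap 2 3 ∨
      x * y * x⁻¹ * y⁻¹ = swap 0 2 * swap 1 3 ∨ x * y * x⁻¹ * y⁻¹ = swap 0 3 * swap 1 2) := by
  decide +kernel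

theorem comm_four : ∀ x : Perm (Fin 4),
    (x = 1 ∨ x = swap 0 1 * swap 2 3 ∨ x = swap 0 2 * swap 1 3 ∨ x = swap 0 3 * swap 1 2) →
    ∀ y : Perm (Fin 4),
    (y = 1 ∨ y = swap 0 1 * swap 2 3 ∨ y = swap 0 2 * swap 1 3 ∨ y = swap 0 3 * swap 1 2) →
    x * y * x⁻¹ * y⁻¹ = 1 := by
  decide +kernel

theorem perm_fin_four_solvable : Group.IsSolvable (Perm (Fin 4)) := by
  rw [Group.isSolvable_def]
  refine ⟨3, ?_⟩
  rw [eq_bot_iff]
  have h1 : derivedSeries (Perm (Fin 4)) 1 ≤ (Perm.sign : Perm (Fin 4) →* ℤˣ).ker := by
    rw [derivedSeries_one, commutator_def, Subgroup.commutator_le]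
    intro g₁ _ g₂ _
    rw [MonoidHom.mem_ker, map_commutatorElement]
    exact commutatorElement_eq_one_iff_commute.mpr (Commute.all _ _)
  have h2 : ∀ g ∈ derivedSeries (Perm (Fin 4)) 2,
      (g = 1 ∨ g = swap 0 1 * swap 2 3 ∨ g = swap 0 2 * swap 1 3 ∨ g = swap 0 3 * swap 1 2) := by
    intro g hg
    rw [derivedSeries_succ] at hg
    have hg' := Subgroup.commutator_mono h1 h1 hg
    revert g
    suffices hle : ⁅(Perm.sign : Perm (Fin 4) →* ℤˣ).ker, (Perm.sign : Perm (Fin 4) →* ℤˣ).ker⁆ ≤
        ({ carrier := {σ | σ = 1 ∨ σ = swap 0 1 * swap 2 3 ∨ σ = swap 0 2 * swap 1 3 ∨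
              σ = swap 0 3 * swap 1 2}
           mul_mem' := by
             intro a b ha hb
             revert b
             revert a
             decide +kernel
           one_mem' := Or.inl rfl
           inv_mem' := by
             intro a ha
             revert a
             decide +kernel } : Subgroup (Perm (Fin 4))) by
      intro g _ hg'
      exact hle hg'
    rw [Subgroup.commutator_le]
    intro g₁ hg₁ g₂ hg₂
    rw [commutatorElement_def]
    exact comm_alt_mem g₁ (MonoidHom.mem_ker.mp hg₁) g₂ (MonoidHom.mem_ker.mp hg₂)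
  rw [derivedSeries_succ, Subgroup.commutator_le]
  intro g₁ hg₁ g₂ hg₂
  rw [commutatorElement_def, Subgroup.mem_bot]
  exact comm_four g₁ (h2 g₁ hg₁) g₂ (h2 g₂ hg₂)

theorem perm_solvable_of_card_le_four {α : Type*} [Fintype α] (h : Fintype.card α ≤ 4) :
    Group.IsSolvable (Perm α) := by
  have h' : Fintype.card α ≤ Fintype.card (Fin 4) := by simpa using h
  obtain ⟨ι⟩ := Function.Embedding.nonempty_of_card_le h'
  have := perm_fin_four_solvable
  exact Group.isSolvable_of_isSolvable_injective (Perm.viaEmbeddingHom_injective ι)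

/-! ### Sylow conjugacy in the ambient group -/

theorem conj_sylow {G : Type*} [Group G] [Finite G] {p : ℕ} [Fact p.Prime] (H A B : Subgroup G)
    (hA : A ≤ H) (hB : B ≤ H) (hcA : Nat.card A = p ^ (Nat.card H).factorization p)
    (hcB : Nat.card B = p ^ (Nat.card H).factorization p) :
    ∃ k ∈ H, ∀ y, y ∈ A ↔ k⁻¹ * y * k ∈ B := by
  have hc1 : Nat.card (A.subgroupOf H) = p ^ (Nat.card H).factorization p := by
    rw [Nat.card_congr (Subgroup.subgroupOfEquivOfLe hA).toEquiv, hcA]
  have hc2 : Nat.card (B.subgroupOf H) = p ^ (Nat.card H).factorization p := by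
    rw [Nat.card_congr (Subgroup.subgroupOfEquivOfLe hB).toEquiv, hcB]
  obtain ⟨k, hk⟩ := MulAction.exists_smul_eq H (Sylow.ofCard _ hc2) (Sylow.ofCard _ hc1)
  have hk' : ∀ y : H, y ∈ A.subgroupOf H ↔ k⁻¹ * y * k ∈ B.subgroupOf H :=
    fun y => Cfsg.Agent.S4219.sylow_smul_mem _ _ k hk y
  refine ⟨k, k.2, fun y => ?_⟩
  by_cases hy : y ∈ H
  · have := hk' ⟨y, hy⟩
    simpa [Subgroup.mem_subgroupOf] using this
  · constructor
    · intro h
      exact absurd (hA h) hy
    · intro h
      exfalso
      apply hy
      have h2 := H.mul_mem (H.mul_mem k.2 (hB h)) (H.inv_mem k.2)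
      convert h2 using 1
      group

/-- A subgroup containing the normalizer of a Sylow `p`-subgroup of a normal subgroup has index
congruent to `1` modulo `p`. -/
theorem index_modEq_one {G : Type*} [Group G] [Finite G] {p : ℕ} [Fact p.Prime] (N : Subgroup G)
    [N.Normal] (P : Sylow p N) (M : Subgroup G)
    (hM : Subgroup.normalizer (((P : Subgroup N).map N.subtype : Subgroup G) : Set G) ≤ M) :
    M.index ≡ 1 [MOD p] := by
  classical
  have hp : p.Prime := Fact.out
  set P' : Subgroup G := (P : Subgroup N).map N.subtype with hP'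
  have hP'p : IsPGroup p P' := P.2.map N.subtype
  have hP'N : P' ≤ N := by
    rintro _ ⟨x, _, rfl⟩
    exact x.2
  have hP'M : P' ≤ M := le_trans Subgroup.le_normalizer hM
  have hcardP' : Nat.card P' = p ^ (Nat.card N).factorization p := by
    rw [← P.card_eq_multiplicity]
    exact (Nat.card_congr (Subgroup.equivMapOfInjective _ _ (Subgroup.subtype_injective _)).toEquiv).symm
  have hmod := hP'p.card_modEq_card_fixedPoints (G ⧸ M)
  have hfix : MulAction.fixedPoints P' (G ⧸ M) = {(QuotientGroup.mk 1 : G ⧸ M)} := by
    ext x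
    constructor
    · intro hx
      induction x using QuotientGroup.induction_on with
      | H g =>
        rw [MulAction.mem_fixedPoints] at hx
        have hQ : ∀ u ∈ P', g⁻¹ * u * g ∈ M := by
          intro u hu
          have h2 : (QuotientGroup.mk (u⁻¹ * g) : G ⧸ M) = QuotientGroup.mk g := hx ⟨u⁻¹, inv_mem hu⟩
          have h3 := QuotientGroup.eq.mp h2
          convert h3 using 1
          group
        set H := M ⊓ N with hH
        set Q : Subgroup G := P'.map (MulAut.conj g⁻¹).toMonoidHom with hQdef
        have hQH : Q ≤ H := by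
          rintro _ ⟨u, hu, rfl⟩
          refine ⟨?_, ?_⟩
          · have := hQ u hu
            simpa [MulAut.conj_apply] using this
          · have := ‹N.Normal›.conj_mem u (hP'N hu) g⁻¹
            simpa [MulAut.conj_apply] using this
        have hP'H : P' ≤ H := le_inf hP'M hP'N
        have hcardQ : Nat.card Q = Nat.card P' :=
          (Nat.card_congr (Subgroup.equivMapOfInjective _ _ (MulAut.conj g⁻¹).injective).toEquiv).symm
        have hfac : (Nat.card H).factorization p = (Nat.card N).factorization p := by
          apply le_antisymm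
          · have hdvd : Nat.card H ∣ Nat.card N := Subgroup.card_dvd_of_le inf_le_right
            exact (Nat.factorization_le_iff_dvd Nat.card_pos.ne' Nat.card_pos.ne').mpr hdvd p
          · have hdvd : p ^ (Nat.card N).factorization p ∣ Nat.card H := by
              rw [← hcardP']
              exact Subgroup.card_dvd_of_le hP'H
            exact (hp.pow_dvd_iff_le_factorization Nat.card_pos.ne').mp hdvd
        obtain ⟨k, hkH, hk⟩ := conj_sylow H P' Q hP'H hQH (by rw [hcardP', hfac])
          (by rw [hcardQ, hcardP', hfac])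
        have hnorm : g * k⁻¹ ∈ Subgroup.normalizer (P' : Set G) := by
          rw [Subgroup.mem_normalizer_iff]
          intro y
          rw [hk y, hQdef, Subgroup.mem_map_equiv]
          simp [MulAut.conj_apply, mul_assoc]
        have hgk : g * k⁻¹ ∈ M := hM hnorm
        have hgM : g ∈ M := by
          have := M.mul_mem hgk hkH.1
          simpa using this
        rw [Set.mem_singleton_iff]
        exact QuotientGroup.eq.mpr (by simpa using hgM)
    · intro hx
      rw [Set.mem_singleton_iff] at hx
      subst hx
      rw [MulAction.mem_fixedPoints]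
      rintro ⟨u, hu⟩
      change (QuotientGroup.mk (u * 1) : G ⧸ M) = QuotientGroup.mk 1
      exact QuotientGroup.eq.mpr (by simpa using hP'M hu)
  rw [hfix] at hmod
  simpa [Subgroup.index] using hmod

/-- `[G : M] = [N : N ∩ M]` when `N` is normal and `MN = G`. -/
theorem index_eq_relIndex {G : Type*} [Group G] [Finite G] (K H : Subgroup G) [H.Normal]
    (hsup : K ⊔ H = ⊤) : K.index = K.relIndex H := by
  have card_inf_mul : ∀ A B : Subgroup G, Nat.card ↥(A ⊓ B) * B.relIndex A = Nat.card A := by
    intro A B
    have h := Subgroup.relIndex_mul_relIndex (⊥ : Subgroup G) (A ⊓ B) A bot_le inf_le_left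
    rw [Subgroup.relIndex_bot_left, Subgroup.relIndex_bot_left, Subgroup.inf_relIndex_left] at h
    exact h
  have h1 : H.relIndex (K ⊔ H) = H.relIndex K := Subgroup.relIndex_sup_right K H
  have h2 : Nat.card H * H.relIndex (K ⊔ H) = Nat.card ↥(K ⊔ H) := by
    have h := Subgroup.relIndex_mul_relIndex (⊥ : Subgroup G) H (K ⊔ H) bot_le le_sup_right
    rw [Subgroup.relIndex_bot_left, Subgroup.relIndex_bot_left] at h
    exact h
  have h3 : Nat.card K * K.relIndex (K ⊔ H) = Nat.card ↥(K ⊔ H) := by
    have h := Subgroup.relIndex_mul_relIndex (⊥ : Subgroup G) K (K ⊔ H) bot_le le_sup_left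
    rw [Subgroup.relIndex_bot_left, Subgroup.relIndex_bot_left] at h
    exact h
  have h4 : Nat.card ↥(H ⊓ K) * K.relIndex H = Nat.card H := card_inf_mul H K
  have h5 : Nat.card ↥(H ⊓ K) * H.relIndex K = Nat.card K := by
    have := card_inf_mul K H
    rwa [inf_comm] at this
  have hpos : 0 < Nat.card ↥(H ⊓ K) := Nat.card_pos
  have hposK : 0 < H.relIndex K := by
    rcases Nat.eq_zero_or_pos (H.relIndex K) with h | h
    · rw [h, mul_zero] at h5
      have : 0 < Nat.card K := Nat.card_pos
      omega
    · exact h
  have key : K.relIndex (K ⊔ H) = K.relIndex H := by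
    have e1 : Nat.card ↥(H ⊓ K) * H.relIndex K * K.relIndex (K ⊔ H)
        = Nat.card ↥(H ⊓ K) * H.relIndex K * K.relIndex H := by
      calc Nat.card ↥(H ⊓ K) * H.relIndex K * K.relIndex (K ⊔ H)
          = Nat.card K * K.relIndex (K ⊔ H) := by rw [h5]
        _ = Nat.card ↥(K ⊔ H) := h3
        _ = Nat.card H * H.relIndex (K ⊔ H) := h2.symm
        _ = Nat.card H * H.relIndex K := by rw [h1]
        _ = Nat.card ↥(H ⊓ K) * K.relIndex H * H.relIndex K := by rw [h4]
        _ = Nat.card ↥(H ⊓ K) * H.relIndex K * K.relIndex H := by ring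
    exact Nat.eq_of_mul_eq_mul_left (Nat.mul_pos hpos hposK) e1
  rw [← key, hsup, Subgroup.relIndex_top_right]

theorem nt {p q idx : ℕ} (hp : p.Prime) (hq : q.Prime) (hqp : q ≤ p) (hidx : idx = q ∨ idx = q ^ 2)
    (hmod : idx ≡ 1 [MOD p]) : idx = 4 := by
  have hq2 := hq.two_le
  have hp2 := hp.two_le
  rcases hidx with rfl | rfl
  · exfalso
    have h1 : p ∣ idx - 1 := (Nat.modEq_iff_dvd' (by omega)).mp hmod.symm
    have h2 := Nat.le_of_dvd (by omega) h1
    omega
  · have h1 : p ∣ q ^ 2 - 1 := (Nat.modEq_iff_dvd' (Nat.one_le_pow _ _ (by omega))).mp hmod.symm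
    have h2 : q ^ 2 - 1 = (q - 1) * (q + 1) := by
      obtain ⟨k, rfl⟩ : ∃ k, q = k + 1 := ⟨q - 1, by omega⟩
      simp only [Nat.add_sub_cancel]
      have : (k + 1) ^ 2 = k * (k + 1 + 1) + 1 := by ring
      omega
    rw [h2] at h1
    rcases (Nat.Prime.dvd_mul hp).mp h1 with h3 | h3
    · exfalso
      have := Nat.le_of_dvd (by omega) h3
      omega
    · have h4 := Nat.le_of_dvd (by omega) h3
      have hne : q ≠ p := by
        rintro rfl
        have h5 : q ∣ 1 := (Nat.dvd_add_right (dvd_refl q)).mp h3
        have := Nat.le_of_dvd one_pos h5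
        omega
      have hpq : p = q + 1 := by omega
      rcases hq.eq_two_or_odd with h5 | h5
      · rw [h5]
        norm_num
      · exfalso
        rcases hp.eq_two_or_odd with h6 | h6 <;> omega

universe u

theorem main : ∀ n : ℕ, ∀ (G : Type u) [Group G] [Finite G], Nat.card G ≤ n →
    (∀ M : Subgroup G, IsCoatom M → ∃ p : ℕ, p.Prime ∧ (M.index = p ∨ M.index = p ^ 2)) →
    Group.IsSolvable G := by
  intro n
  induction n with
  | zero =>
    intro G _ _ hn
    exfalso
    have := Nat.card_pos (α := G)
    omega
  | succ n ih =>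
    intro G _ _ hn h
    classical
    by_cases htriv : (⊤ : Subgroup G) = ⊥
    · exact Group.isSolvable_of_top_eq_bot G htriv
    -- a minimal normal subgroup
    have hex : ∃ m, ∃ N : Subgroup G, N.Normal ∧ N ≠ ⊥ ∧ Nat.card N = m :=
      ⟨_, ⊤, Subgroup.normal_top, htriv, rfl⟩
    obtain ⟨N, hNn, hN0, hNcard⟩ := Nat.find_spec hex
    have hmin : ∀ K : Subgroup G, K.Normal → K ≠ ⊥ → K ≤ N → K = N := by
      intro K hK hK0 hKN
      have h1 : Nat.find hex ≤ Nat.card K := Nat.find_min' hex ⟨K, hK, hK0, rfl⟩
      exact Subgroup.eq_of_le_of_card_ge hKN (by rw [hNcard]; exact h1)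
    -- the quotient is solvable
    have hcardN : 1 < Nat.card N := by
      rw [Subgroup.one_lt_card_iff_ne_bot]
      exact hN0
    have hquot : Group.IsSolvable (G ⧸ N) := by
      apply ih (G ⧸ N)
      · have h1 : Nat.card G = Nat.card (G ⧸ N) * Nat.card N := Subgroup.card_eq_card_quotient_mul_card_subgroup N
        have h2 : 0 < Nat.card (G ⧸ N) := Nat.card_pos
        nlinarith
      · intro M hM
        have hco : IsCoatom (M.comap (QuotientGroup.mk' N)) :=
          Subgroup.isCoatom_comap_of_surjective (QuotientGroup.mk'_surjective N) hM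
        obtain ⟨p, hp, hidx⟩ := h _ hco
        rw [Subgroup.index_comap_of_surjective M (QuotientGroup.mk'_surjective N)] at hidx
        exact ⟨p, hp, hidx⟩
    -- the minimal normal subgroup is solvable
    have hNsolv : Group.IsSolvable N := by
      -- largest prime divisor of the order of N
      have hne : (Nat.card N).primeFactors.Nonempty := by
        rw [Nat.nonempty_primeFactors]
        exact hcardN
      set p := (Nat.card N).primeFactors.max' hne with hpdef
      have hpmem : p ∈ (Nat.card N).primeFactors := Finset.max'_mem _ hne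
      have hp : p.Prime := Nat.prime_of_mem_primeFactors hpmem
      have hpdvd : p ∣ Nat.card N := Nat.dvd_of_mem_primeFactors hpmem
      have hpmax : ∀ q : ℕ, q.Prime → q ∣ Nat.card N → q ≤ p := by
        intro q hq hqd
        exact Finset.le_max' _ q (Nat.mem_primeFactors.mpr ⟨hq, hqd, Nat.card_pos.ne'⟩)
      have : Fact p.Prime := ⟨hp⟩
      obtain ⟨P⟩ : Nonempty (Sylow p N) := inferInstance
      set P' : Subgroup G := (P : Subgroup N).map N.subtype with hP'
      have hP'N : P' ≤ N := by
        rintro _ ⟨x, _, rfl⟩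
        exact x.2
      have hcardP : Nat.card (P : Subgroup N) = p ^ (Nat.card N).factorization p := P.card_eq_multiplicity
      have hfacpos : 0 < (Nat.card N).factorization p :=
        hp.factorization_pos_of_dvd Nat.card_pos.ne' hpdvd
      have hP'0 : P' ≠ ⊥ := by
        intro h0
        have h1 : (P : Subgroup N) = ⊥ := by
          rw [eq_bot_iff]
          intro x hx
          have : (x : G) ∈ P' := ⟨x, hx, rfl⟩
          rw [h0, Subgroup.mem_bot] at this
          rw [Subgroup.mem_bot]
          exact Subtype.ext this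
        rw [h1, Subgroup.card_bot] at hcardP
        have : 1 < p ^ (Nat.card N).factorization p := Nat.one_lt_pow hfacpos.ne' hp.one_lt
        omega
      by_cases hnorm : Subgroup.normalizer (P' : Set G) = ⊤
      · -- P' is normal, hence equal to N, and N is a p-group
        have hP'n : P'.Normal := Subgroup.normalizer_eq_top_iff.mp hnorm
        have hPN : P' = N := hmin P' hP'n hP'0 hP'N
        have hNp : IsPGroup p N := by
          intro g
          have hg : (g : G) ∈ P' := by rw [hPN]; exact g.2
          obtain ⟨x, hx, hxg⟩ := hg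
          have hxg' : x = g := Subtype.ext hxg
          obtain ⟨k, hk⟩ := P.2 ⟨x, hx⟩
          refine ⟨k, ?_⟩
          rw [← hxg']
          exact congrArg Subtype.val hk
        have : Group.IsNilpotent N := hNp.isNilpotent
        infer_instance
      · -- Frattini argument
        obtain ⟨M, hM, hle⟩ := (eq_top_or_exists_le_coatom (Subgroup.normalizer (P' : Set G))).resolve_left hnorm
        have hFr : Subgroup.normalizer (P' : Set G) ⊔ N = ⊤ := Sylow.normalizer_sup_eq_top P
        have hMN : M ⊔ N = ⊤ := by
          rw [eq_top_iff, ← hFr]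
          exact sup_le_sup_right hle N
        have hNM : ¬ N ≤ M := by
          intro hcon
          apply hM.1
          rw [eq_top_iff, ← hMN]
          exact sup_le le_rfl hcon
        obtain ⟨q, hq, hidx⟩ := h M hM
        have hmod : M.index ≡ 1 [MOD p] := index_modEq_one N P M hle
        have hdvd : M.index ∣ Nat.card N := by
          rw [index_eq_relIndex M N hMN]
          exact Subgroup.relIndex_dvd_card M N
        have hqdvd : q ∣ Nat.card N := by
          rcases hidx with h1 | h1
          · rw [← h1]; exact hdvd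
          · exact (dvd_pow_self q (by norm_num)).trans (h1 ▸ hdvd)
        have hidx4 : M.index = 4 := nt hp hq (hpmax q hq hqdvd) hidx hmod
        -- N embeds into the symmetric group on the four cosets of M
        have : Fintype (G ⧸ M) := Fintype.ofFinite _
        have hcard4 : Fintype.card (G ⧸ M) ≤ 4 := by
          rw [← Nat.card_eq_fintype_card]
          exact le_of_eq hidx4
        have : Group.IsSolvable (Perm (G ⧸ M)) := perm_solvable_of_card_le_four hcard4
        have hker : (MulAction.toPermHom G (G ⧸ M)).ker ≤ M := by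
          rw [← Subgroup.normalCore_eq_ker]
          exact Subgroup.normalCore_le M
        have hinf : N ⊓ (MulAction.toPermHom G (G ⧸ M)).ker = ⊥ := by
          by_contra hcon
          have hn : (N ⊓ (MulAction.toPermHom G (G ⧸ M)).ker).Normal := inferInstance
          have := hmin _ hn hcon inf_le_left
          apply hNM
          rw [← this]
          exact inf_le_right.trans hker
        have hinj : Function.Injective ((MulAction.toPermHom G (G ⧸ M)).comp N.subtype) := by
          rw [injective_iff_map_eq_one]
          intro x hx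
          have hx' : (x : G) ∈ N ⊓ (MulAction.toPermHom G (G ⧸ M)).ker := ⟨x.2, hx⟩
          rw [hinf, Subgroup.mem_bot] at hx'
          exact Subtype.ext hx'
        exact Group.isSolvable_of_isSolvable_injective hinj
    exact Group.isSolvable_of_ker_le_range N.subtype (QuotientGroup.mk' N) (by
      rw [QuotientGroup.ker_mk', Subgroup.range_subtype])

/-- A finite group in which every maximal subgroup has index a prime or the square of a prime is solvable. -/
theorem result {G : Type*} [Group G] [Finite G] (h : ∀ M : Subgroup G, IsCoatom M → ∃ p : ℕ, p.Prime ∧ (M.index = p ∨ M.index = p ^ 2)) : Group.IsSolvable G := by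
  exact main (Nat.card G) G le_rfl h

end Cfsg.Agent.S4203
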