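import Mathlib
import Cfsg.Statements.S4204

set_option autoImplicit false
open Cfsg

namespace Cfsg.Agent.S4204

theorem lcs_normal {G : Type*} [Group G] (H : Subgroup G) [H.Normal] (n : ℕ) :
    (H.lowerCentralSeries n).Normal := by
  induction n with
  | zero => simpa
  | succ d ih =>
    rw [Subgroup.lowerCentralSeries_succ]
    exact Subgroup.commutator_normal _ _

/-- shifted lower central series: term `0` is the whole group. -/
def aux {G : Type*} [Group G] (H : Subgroup G) : ℕ → Subgroup G
  | 0 => ⊤
  | n + 1 => H.lowerCentralSeries n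

theorem aux_normal {G : Type*} [Group G] (H : Subgroup G) [H.Normal] (n : ℕ) :
    (aux H n).Normal := by
  cases n with
  | zero => exact Subgroup.normal_top
  | succ d => exact lcs_normal H d

theorem aux_comm_le {G : Type*} [Group G] (H : Subgroup G) [H.Normal] (n : ℕ) :
    ⁅aux H n, H⁆ ≤ aux H (n + 1) := by
  cases n with
  | zero => exact Subgroup.commutator_le_right _ _
  | succ d => exact le_of_eq rfl

theorem comm_le_iff {G : Type*} [Group G] (T : Subgroup G) [T.Normal] (X C : Subgroup G) :
    ⁅X, C⁆ ≤ T ↔ X ≤ (Subgroup.centralizer ((C.map (QuotientGroup.mk' T) : Subgroup (G ⧸ T)) : Set (G ⧸ T))).comap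
      (QuotientGroup.mk' T) := by
  rw [← Subgroup.map_le_iff_le_comap, ← Subgroup.commutator_eq_bot_iff_le_centralizer,
    ← Subgroup.map_commutator, Subgroup.map_eq_bot_iff, QuotientGroup.ker_mk']

theorem comm_iSup_le {G : Type*} [Group G] (T : Subgroup G) [T.Normal] {ι : Sort*} (S : ι → Subgroup G)
    (C : Subgroup G) (h : ∀ i, ⁅S i, C⁆ ≤ T) : ⁅⨆ i, S i, C⁆ ≤ T := by
  rw [comm_le_iff] at *
  exact iSup_le fun i => (comm_le_iff T (S i) C).mp (h i)

theorem comm_sup_right_le {G : Type*} [Group G] (T : Subgroup G) [T.Normal] (X C D : Subgroup G)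
    (h1 : ⁅X, C⁆ ≤ T) (h2 : ⁅X, D⁆ ≤ T) : ⁅X, C ⊔ D⁆ ≤ T := by
  rw [Subgroup.commutator_comm] at h1 h2 ⊢
  rw [comm_le_iff] at *
  exact sup_le h1 h2

theorem key {G : Type*} [Group G] (H K : Subgroup G) [H.Normal] [K.Normal] (n : ℕ) :
    (H ⊔ K).lowerCentralSeries n ≤ ⨆ (a : ℕ) (b : ℕ) (_ : a + b = n + 1), aux H a ⊓ aux K b := by
  induction n with
  | zero =>
    rw [Subgroup.lowerCentralSeries_zero]
    apply sup_le
    · refine le_iSup_of_le 1 (le_iSup_of_le 0 (le_iSup_of_le rfl ?_))
      simp [aux]
    · refine le_iSup_of_le 0 (le_iSup_of_le 1 (le_iSup_of_le rfl ?_))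
      simp [aux]
  | succ n ih =>
    rw [Subgroup.lowerCentralSeries_succ]
    refine (Subgroup.commutator_mono ih le_rfl).trans ?_
    have hn : ∀ a b : ℕ, (aux H a ⊓ aux K b).Normal := fun a b =>
      @Subgroup.normal_inf_normal _ _ _ _ (aux_normal H a) (aux_normal K b)
    have hT : (⨆ (a : ℕ) (b : ℕ) (_ : a + b = n + 1 + 1), aux H a ⊓ aux K b).Normal := by
      apply @Subgroup.iSup_normal _ _ _ _ ?_
      intro a
      apply @Subgroup.iSup_normal _ _ _ _ ?_
      intro b
      apply @Subgroup.iSup_normal _ _ _ _ ?_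
      intro _
      exact hn a b
    apply comm_iSup_le
    intro a
    apply comm_iSup_le
    intro b
    apply comm_iSup_le
    intro hab
    have := aux_normal H a
    have := aux_normal K b
    apply comm_sup_right_le
    · refine le_iSup_of_le (a + 1) (le_iSup_of_le b (le_iSup_of_le (by omega) ?_))
      apply le_inf
      · exact (Subgroup.commutator_mono inf_le_left le_rfl).trans (aux_comm_le H a)
      · exact (Subgroup.commutator_mono inf_le_right le_rfl).trans (Subgroup.commutator_le_left _ _)
    · refine le_iSup_of_le a (le_iSup_of_le (b + 1) (le_iSup_of_le (by omega) ?_))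
      apply le_inf
      · exact (Subgroup.commutator_mono inf_le_left le_rfl).trans (Subgroup.commutator_le_left _ _)
      · exact (Subgroup.commutator_mono inf_le_right le_rfl).trans (aux_comm_le K b)

/-- If `H` and `K` are normal subgroups of a finite group with `H` nilpotent of class at most `c` and `K` nilpotent of class at most `d` (the terms with index `c`, respectively `d`, of their lower central series are trivial, indices starting at `0`), then `HK` is nilpotent of class at most `c + d`. -/
theorem result {G : Type*} [Group G] [Finite G] (H K : Subgroup G) [H.Normal] [K.Normal] (c d : ℕ) (hH : H.lowerCentralSeries c = ⊥) (hK : K.lowerCentralSeries d = ⊥) : (H ⊔ K).lowerCentralSeries (c + d) = ⊥ := by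
  rw [eq_bot_iff]
  refine (key H K (c + d)).trans ?_
  apply iSup_le
  intro a
  apply iSup_le
  intro b
  apply iSup_le
  intro hab
  by_cases hac : c + 1 ≤ a
  · obtain ⟨a', rfl⟩ : ∃ a', a = a' + 1 := ⟨a - 1, by omega⟩
    refine inf_le_left.trans ?_
    rw [← hH]
    exact H.lowerCentralSeries_antitone (by omega)
  · obtain ⟨b', rfl⟩ : ∃ b', b = b' + 1 := ⟨b - 1, by omega⟩
    refine inf_le_right.trans ?_
    rw [← hK]
    exact K.lowerCentralSeries_antitone (by omega)

end Cfsg.Agent.S4204
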