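import Mathlib
import Cfsg.Statements.S4205

set_option autoImplicit false
open Cfsg

namespace Cfsg.Agent.S4205

/-- In a finite group whose upper central series reaches the whole group at step `c` (nilpotent of class at most `c`), starting from any subgroup and taking normalizers `c` times reaches the whole group. -/
theorem result {G : Type*} [Group G] [Finite G] (c : ℕ) (hG : Subgroup.upperCentralSeries G c = ⊤) (H : Subgroup G) : (fun K : Subgroup G => Subgroup.normalizer (K : Set G))^[c] H = ⊤ := by
  have key : ∀ i : ℕ, Subgroup.upperCentralSeries G i ≤
      (fun K : Subgroup G => Subgroup.normalizer (K : Set G))^[i] H := by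
    intro i
    induction i with
    | zero => simp
    | succ i ih =>
      rw [Function.iterate_succ_apply']
      intro z hz
      have hz1 := hz
      rw [Subgroup.mem_upperCentralSeries_succ_iff] at hz1
      have hzi : z⁻¹ ∈ Subgroup.upperCentralSeries G (i + 1) := inv_mem hz
      rw [Subgroup.mem_upperCentralSeries_succ_iff] at hzi
      rw [Subgroup.mem_normalizer_iff]
      intro k
      constructor
      · intro hk
        have h1 := ih (hz1 k)
        have h2 := mul_mem h1 hk
        rw [commutatorElement_def] at h2
        have h3 : z * k * z⁻¹ * k⁻¹ * k = z * k * z⁻¹ := by group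
        rw [h3] at h2
        exact h2
      · intro hk
        have h1 := ih (hzi (z * k * z⁻¹))
        have h2 := mul_mem h1 hk
        rw [commutatorElement_def] at h2
        have h3 : z⁻¹ * (z * k * z⁻¹) * z⁻¹⁻¹ * (z * k * z⁻¹)⁻¹ * (z * k * z⁻¹) = k := by group
        rw [h3] at h2
        exact h2
  rw [eq_top_iff, ← hG]
  exact key c

end Cfsg.Agent.S4205
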