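import Mathlib
import Cfsg.Statements.S4208
import Cfsg.Agent.Lib.Helper70.FrattiniQuot

set_option autoImplicit false
open Cfsg

namespace Cfsg.Agent.S4208

open Cfsg.Agent.Lib.Helper70 in
/-- Let `P` be a group of order `p^n` whose Frattini subgroup has index `p^r`. Then the order of the automorphism group of `P` divides `p^(r(n-r)) · (p^r - 1)(p^r - p) ⋯ (p^r - p^(r-1))`. -/
theorem result {P : Type*} [Group P] [Finite P] {p n r : ℕ} [Fact p.Prime] (hP : Nat.card P = p ^ n) (hr : (frattini P).index = p ^ r) : Nat.card (MulAut P) ∣ p ^ (r * (n - r)) * ∏ i ∈ Finset.range r, (p ^ r - p ^ i) := by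
  have hp : p.Prime := Fact.out
  have hPp : IsPGroup p P := IsPGroup.of_card hP
  have hmul : Nat.card (frattini P) * p ^ r = p ^ n := by
    rw [← hr, ← hP]
    exact (frattini P).card_mul_index
  have hrn : r ≤ n := by
    have h1 : p ^ r ∣ p ^ n := Dvd.intro_left _ hmul
    exact (Nat.pow_dvd_pow_iff_le_right hp.one_lt).mp h1
  have hΦ : Nat.card (frattini P) = p ^ (n - r) := by
    have h1 : p ^ (n - r) * p ^ r = p ^ n := by
      rw [← pow_add]
      congr 1
      omega
    exact Nat.eq_of_mul_eq_mul_right (pow_pos hp.pos r) (hmul.trans h1.symm)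
  have hQcard : Nat.card (P ⧸ frattini P) = p ^ r := hr
  obtain ⟨hexp, hcomm⟩ := frattini_quot_props hPp
  have hNQ := card_gen_mul hexp hcomm hQcard
  let Ω := {f : Fin r → P // Subgroup.closure (Set.range f) = ⊤}
  let _ : MulAction (MulAut P) Ω :=
    { smul := fun α f => ⟨fun i => α (f.1 i), by
        have h0 : Set.range (fun i => α (f.1 i)) = α.toMonoidHom '' (Set.range f.1) := by
          rw [← Set.range_comp]
          rfl
        rw [h0, ← MonoidHom.map_closure, f.2, Subgroup.map_top_of_surjective _ α.surjective]⟩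
      one_smul := fun f => Subtype.ext (funext fun i => rfl)
      mul_smul := fun α β f => Subtype.ext (funext fun i => rfl) }
  have hfree : ∀ f : Ω, MulAction.stabilizer (MulAut P) f = ⊥ := by
    intro f
    rw [eq_bot_iff]
    intro α hα
    rw [MulAction.mem_stabilizer_iff] at hα
    have h1 : ∀ i, α (f.1 i) = f.1 i := fun i => congrFun (congrArg Subtype.val hα) i
    have h2 : (α : P ≃* P).toMonoidHom = MonoidHom.id P := by
      apply MonoidHom.eq_of_eqOn_dense f.2
      rintro _ ⟨i, rfl⟩
      exact h1 i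
    rw [Subgroup.mem_bot]
    ext x
    exact congrArg (fun φ : P →* P => φ x) h2
  have hdvd := card_dvd_of_free hfree
  have hto : ∀ f : Fin r → P, Subgroup.closure (Set.range f) = ⊤ →
      Subgroup.closure (Set.range (tupleEquiv (frattini P) (Fin r) f).1) = ⊤ := by
    intro f hf
    have h0 : Set.range (tupleEquiv (frattini P) (Fin r) f).1 =
        (QuotientGroup.mk' (frattini P)) '' (Set.range f) := by
      rw [← Set.range_comp]
      rfl
    rw [h0, ← MonoidHom.map_closure, hf,
      Subgroup.map_top_of_surjective _ (QuotientGroup.mk'_surjective (frattini P))]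
  have hinv : ∀ (g : Fin r → P ⧸ frattini P) (h : Fin r → frattini P),
      Subgroup.closure (Set.range g) = ⊤ →
      Subgroup.closure (Set.range ((tupleEquiv (frattini P) (Fin r)).symm (g, h))) = ⊤ := by
    intro g h hg
    apply closure_eq_top_of_mk g hg
    intro i
    rw [← tupleEquiv_fst]
    simp
  have e : Ω ≃ {g : Fin r → P ⧸ frattini P // Subgroup.closure (Set.range g) = ⊤} × (Fin r → frattini P) :=
    { toFun := fun f => (⟨(tupleEquiv (frattini P) (Fin r) f.1).1, hto f.1 f.2⟩,
        (tupleEquiv (frattini P) (Fin r) f.1).2)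
      invFun := fun c => ⟨(tupleEquiv (frattini P) (Fin r)).symm (c.1.1, c.2), hinv c.1.1 c.2 c.1.2⟩
      left_inv := by
        rintro ⟨f, hf⟩
        apply Subtype.ext
        simp
      right_inv := by
        rintro ⟨⟨g, hg⟩, h⟩
        simp }
  have hcard : Nat.card Ω = (∏ i ∈ Finset.range r, (p ^ r - p ^ i)) * p ^ (r * (n - r)) := by
    rw [Nat.card_congr e, Nat.card_prod, hNQ, Nat.card_fun, hΦ, Nat.card_fin, ← pow_mul, mul_comm (n - r) r]
  rw [mul_comm, ← hcard]
  exact hdvd

end Cfsg.Agent.S4208
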