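import Cfsg.Statements.S4213
import Mathlib
import Cfsg.Agent.S4212
import Cfsg.Agent.Lib.Helper1.SZConjB
-- import your own Cfsg.Agent.* helpers here

set_option autoImplicit false
open Cfsg

namespace Cfsg.Agent.S4213

universe u

theorem card_preimage {G : Type*} [Group G] [Finite G] (K : Subgroup G) (T : Set (G ⧸ K)) :
    Nat.card (QuotientGroup.mk ⁻¹' T : Set G) = Nat.card K * Nat.card T := by
  rw [Nat.card_congr (QuotientGroup.preimageMkEquivSubgroupProdSet K T), Nat.card_prod]

theorem aux : ∀ (g : ℕ) (G : Type u) [Group G] [Finite G] [Group.IsSolvable G], Nat.card G = g →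
    ∀ n : ℕ, n ∣ Nat.card G → Nat.card {x : G // x ^ n = 1} = n →
    ∃ H : Subgroup G, H.Normal ∧ (H : Set G) = {x : G | x ^ n = 1} := by
  intro g
  induction g using Nat.strong_induction_on with
  | _ g ih =>
  intro G _ _ _ hg n hn hcount
  have hn0 : 0 < n := Nat.pos_of_dvd_of_pos hn Nat.card_pos
  rcases Nat.lt_or_ge 1 n with hn1 | hn1
  swap
  · have hn1' : n = 1 := by omega
    subst hn1'
    refine ⟨⊥, inferInstance, ?_⟩
    ext x
    simp
  have hnt : Nontrivial G := by
    by_contra h
    rw [not_nontrivial_iff_subsingleton] at h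
    have h1 : Nat.card G = 1 := Nat.card_eq_one_iff_unique.mpr ⟨h, ⟨1⟩⟩
    rw [h1] at hn
    have := Nat.le_of_dvd Nat.one_pos hn
    omega
  obtain ⟨K, hKn, hKne, hKmin⟩ := Cfsg.Agent.Lib.Helper1.exists_minNormal G
  obtain ⟨-, p, hp, hpow⟩ :=
    Cfsg.Agent.Lib.Helper1.minNormal_elementary K inferInstance hKne hKmin
  have hpf : Fact p.Prime := ⟨hp⟩
  have hKp : IsPGroup p K := by
    rintro ⟨x, hx⟩
    exact ⟨1, Subtype.ext (by simpa using hpow x hx)⟩
  obtain ⟨i, hi⟩ := IsPGroup.iff_card.mp hKp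
  have hi0 : i ≠ 0 := by
    rintro rfl
    rw [pow_zero] at hi
    exact hKne (Subgroup.card_eq_one.mp hi)
  have hpK : p ∣ Nat.card K := by rw [hi]; exact dvd_pow_self p hi0
  have hK1 : 1 < Nat.card K := by
    rw [hi]; exact Nat.one_lt_pow hi0 hp.one_lt
  have hcardQ : Nat.card (G ⧸ K) * Nat.card K = Nat.card G :=
    (Subgroup.card_eq_card_quotient_mul_card_subgroup K).symm
  have hlt : Nat.card (G ⧸ K) < g := by
    rw [← hg, ← hcardQ]
    exact lt_mul_of_one_lt_right Nat.card_pos hK1
  let L : Set G := {x | x ^ n = 1}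
  have hL : Nat.card L = n := hcount
  by_cases hpn : p ∣ n
  · set d := Nat.gcd n (Nat.card K) with hd
    obtain ⟨n', hn'⟩ : d ∣ n := Nat.gcd_dvd_left _ _
    have hpd : p ∣ d := Nat.dvd_gcd hpn hpK
    have hdK : d ∣ Nat.card K := Nat.gcd_dvd_right _ _
    have hn'0 : 0 < n' := by
      rcases Nat.eq_zero_or_pos n' with h0 | h0
      · rw [h0, mul_zero] at hn'; omega
      · exact h0
    have hn'Q : n' ∣ Nat.card (G ⧸ K) := by
      have h1 : Nat.lcm n (Nat.card K) ∣ Nat.card G :=
        Nat.lcm_dvd hn (Subgroup.card_subgroup_dvd_card K)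
      have h2 : Nat.lcm n (Nat.card K) = n' * Nat.card K := by
        have h3 := Nat.gcd_mul_lcm n (Nat.card K)
        rw [← hd] at h3
        have hd0 : 0 < d := Nat.pos_of_dvd_of_pos hdK Nat.card_pos
        apply Nat.eq_of_mul_eq_mul_left hd0
        rw [h3, ← mul_assoc, ← hn']
      rw [h2, ← hcardQ] at h1
      exact Nat.dvd_of_mul_dvd_mul_right Nat.card_pos h1
    let T : Set (G ⧸ K) := {y | y ^ n' = 1}
    have hfrob : n' ∣ Nat.card T := by
      have := Cfsg.Agent.S4212.frob_one (G := G ⧸ K) n'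
      rwa [Nat.gcd_eq_left hn'Q] at this
    let S : Set G := QuotientGroup.mk ⁻¹' T
    have hS : Nat.card S = Nat.card K * Nat.card T := card_preimage K T
    have hSL : S ⊆ L := by
      intro x hx
      have hx' : (x : G ⧸ K) ^ n' = 1 := hx
      have h1 : x ^ n' ∈ K := by
        rw [← QuotientGroup.eq_one_iff, QuotientGroup.mk_pow]; exact hx'
      obtain ⟨c, hc⟩ := hpd
      show x ^ n = 1
      rw [hn', hc, mul_comm (p * c) n', pow_mul, pow_mul, hpow _ h1, one_pow]
    have hle : Nat.card S ≤ Nat.card L := Nat.card_mono (Set.toFinite L) hSL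
    obtain ⟨k, hk⟩ := hfrob
    have hT0 : 0 < Nat.card T := by
      have : Nonempty T := ⟨⟨1, one_pow _⟩⟩
      exact Nat.card_pos
    have h5 : Nat.card K * (n' * k) ≤ Nat.card K * n' := by
      calc Nat.card K * (n' * k) = Nat.card S := by rw [hS, hk]
        _ ≤ Nat.card L := hle
        _ = d * n' := by rw [hL, hn']
        _ ≤ Nat.card K * n' := Nat.mul_le_mul_right _ (Nat.le_of_dvd Nat.card_pos hdK)
    have h6 : n' * k ≤ n' * 1 := by
      rw [mul_one]; exact Nat.le_of_mul_le_mul_left h5 Nat.card_pos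
    have h7 : k ≤ 1 := Nat.le_of_mul_le_mul_left h6 hn'0
    have hk1 : k = 1 := by
      rcases Nat.eq_zero_or_pos k with h0 | h0
      · rw [h0, mul_zero] at hk; omega
      · omega
    rw [hk1, mul_one] at hk
    obtain ⟨H, hHn, hH⟩ := ih (Nat.card (G ⧸ K)) hlt (G ⧸ K) rfl n' hn'Q hk
    have hSLeq : S = L := by
      apply Set.eq_of_subset_of_ncard_le hSL _ (Set.toFinite L)
      rw [← Nat.card_coe_set_eq, ← Nat.card_coe_set_eq]
      rw [hS, hk, hL, hn']
      exact Nat.mul_le_mul_right _ (Nat.le_of_dvd Nat.card_pos hdK)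
    refine ⟨H.comap (QuotientGroup.mk' K), hHn.comap _, ?_⟩
    show _ = L
    rw [← hSLeq]
    ext x
    show (x : G ⧸ K) ∈ (H : Set (G ⧸ K)) ↔ _
    rw [hH]
    rfl
  · have hcop : Nat.Coprime n (Nat.card K) := by
      rw [hi]
      exact Nat.Coprime.pow_right i ((Nat.Prime.coprime_iff_not_dvd hp).mpr hpn).symm
    have hnQ : n ∣ Nat.card (G ⧸ K) := by
      rw [← hcardQ] at hn
      exact hcop.dvd_of_dvd_mul_right hn
    let T : Set (G ⧸ K) := {y | y ^ n = 1}
    have hfrob : n ∣ Nat.card T := by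
      have := Cfsg.Agent.S4212.frob_one (G := G ⧸ K) n
      rwa [Nat.gcd_eq_left hnQ] at this
    obtain ⟨m, -, hm⟩ := Nat.exists_mul_mod_eq_one_of_coprime
      ((Nat.Prime.coprime_iff_not_dvd hp).mpr hpn) hn1
    have hm' : p * m = n * (p * m / n) + 1 := by
      have := Nat.div_add_mod (p * m) n
      omega
    have key : ∀ x : G, (x : G ⧸ K) ^ n = 1 →
        ((x ^ (p * m) : G) : G ⧸ K) = x ∧ (x ^ (p * m)) ^ n = 1 := by
      intro x hx
      have h1 : x ^ n ∈ K := by
        rw [← QuotientGroup.eq_one_iff, QuotientGroup.mk_pow]; exact hx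
      constructor
      · rw [QuotientGroup.mk_pow, hm', pow_succ, pow_mul, hx, one_pow, one_mul]
      · rw [← pow_mul, mul_comm, ← mul_assoc, pow_mul, pow_mul, hpow _ h1, one_pow]
    have hTL : Nat.card T ≤ Nat.card L := by
      apply Nat.card_le_card_of_injective (fun y : T =>
        (⟨(Quotient.out y.1) ^ (p * m),
          (key _ (by rw [QuotientGroup.out_eq']; exact y.2)).2⟩ : L))
      intro y z hyz
      have h1 : (Quotient.out y.1) ^ (p * m) = (Quotient.out z.1) ^ (p * m) :=
        congrArg Subtype.val hyz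
      have h2 := (key (Quotient.out y.1) (by rw [QuotientGroup.out_eq']; exact y.2)).1
      have h3 := (key (Quotient.out z.1) (by rw [QuotientGroup.out_eq']; exact z.2)).1
      rw [QuotientGroup.out_eq'] at h2 h3
      apply Subtype.ext
      rw [← h2, ← h3, h1]
    obtain ⟨k, hk⟩ := hfrob
    have hT0 : 0 < Nat.card T := by
      have : Nonempty T := ⟨⟨1, one_pow _⟩⟩
      exact Nat.card_pos
    have hTn : Nat.card T = n := by
      rw [hk, hL] at hTL
      have h7 : k ≤ 1 := Nat.le_of_mul_le_mul_left (by rw [mul_one]; exact hTL) hn0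
      rcases Nat.eq_zero_or_pos k with h0 | h0
      · rw [h0, mul_zero] at hk; omega
      · have : k = 1 := by omega
        rw [hk, this, mul_one]
    obtain ⟨H, hHn, hH⟩ := ih (Nat.card (G ⧸ K)) hlt (G ⧸ K) rfl n hnQ hTn
    let H' : Subgroup G := H.comap (QuotientGroup.mk' K)
    have hH'card : Nat.card H' = Nat.card K * n := by
      have h0 : (H' : Set G) = QuotientGroup.mk ⁻¹' T := by
        ext x
        show (x : G ⧸ K) ∈ (H : Set (G ⧸ K)) ↔ _
        rw [hH]
        rfl
      have h1 := card_preimage K T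
      rw [← h0, hTn] at h1
      exact h1
    have hKH' : K ≤ H' := by
      intro x hx
      show (x : G ⧸ K) ∈ H
      rw [(QuotientGroup.eq_one_iff x).mpr hx]; exact H.one_mem
    have hcardK' : Nat.card (K.subgroupOf H') = Nat.card K :=
      Nat.card_congr (Subgroup.subgroupOfEquivOfLe hKH').toEquiv
    have hidx : (K.subgroupOf H').index = n := by
      have := Subgroup.card_mul_index (K.subgroupOf H')
      rw [hcardK', hH'card] at this
      exact Nat.eq_of_mul_eq_mul_left Nat.card_pos this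
    obtain ⟨C, hC⟩ := Subgroup.exists_right_complement'_of_coprime (N := K.subgroupOf H')
      (by rw [hcardK', hidx]; exact hcop.symm)
    have hCcard : Nat.card C = n := by
      have := hC.card_mul_card
      rw [hcardK', hH'card] at this
      exact Nat.eq_of_mul_eq_mul_left Nat.card_pos this
    let C₀ : Subgroup G := C.map H'.subtype
    have hC₀card : Nat.card C₀ = n := by
      rw [← hCcard]; exact Subgroup.card_map_of_injective H'.subtype_injective
    have hC₀L : (C₀ : Set G) ⊆ L := by
      intro x hx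
      have h1 : (⟨x, hx⟩ : C₀) ^ Nat.card C₀ = 1 := pow_card_eq_one'
      have h2 : x ^ Nat.card C₀ = 1 := congrArg Subtype.val h1
      rw [hC₀card] at h2; exact h2
    have hC₀eq : (C₀ : Set G) = L := by
      apply Set.eq_of_subset_of_ncard_le hC₀L _ (Set.toFinite L)
      rw [← Nat.card_coe_set_eq, ← Nat.card_coe_set_eq]
      rw [hL]; exact hC₀card.ge
    refine ⟨C₀, ?_, hC₀eq⟩
    constructor
    intro x hx g
    have hx' : x ∈ (C₀ : Set G) := hx
    rw [hC₀eq] at hx'
    have hx'' : x ^ n = 1 := hx'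
    have h3 : g * x * g⁻¹ ∈ (C₀ : Set G) := by
      rw [hC₀eq]
      show (g * x * g⁻¹) ^ n = 1
      rw [conj_pow, hx'', mul_one, mul_inv_cancel]
    exact h3

/-- If `G` is a finite solvable group and `n` divides the order of `G` and exactly `n` elements `x` of `G` satisfy `x^n = 1`, then these elements form a normal subgroup. -/
theorem result {G : Type*} [Group G] [Finite G] [Group.IsSolvable G] (n : ℕ) (hn : n ∣ Nat.card G) (hcount : Nat.card {x : G // x ^ n = 1} = n) : ∃ H : Subgroup G, H.Normal ∧ (H : Set G) = {x : G | x ^ n = 1} := by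
  exact aux _ G rfl n hn hcount

end Cfsg.Agent.S4213
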