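import Cfsg.Statements.S4214
import Mathlib
import Cfsg.Agent.Lib.Helper1.Hall
import Cfsg.Agent.Lib.Helper1.HallConj
import Cfsg.Agent.Lib.Helper1.SZConjB
import Cfsg.Agent.Lib.Helper91.Coprime2
-- import your own Cfsg.Agent.* helpers here

set_option autoImplicit false
open Cfsg

namespace Cfsg.Agent.S4214

open scoped Pointwise
open Cfsg.Agent.Lib.Helper1

universe u

/-! ### Counting by fibres -/

theorem card_eq_sum_fiber {α β : Type*} [Finite α] [Fintype β] (f : α → β) :
    Nat.card α = ∑ b : β, Nat.card {a : α // f a = b} := by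
  rw [← Nat.card_sigma]
  exact Nat.card_congr (Equiv.sigmaFiberEquiv f).symm

theorem card_eq_mul_of_fiber {α β : Type*} [Finite α] [Finite β] (f : α → β) (m : ℕ)
    (h : ∀ b, Nat.card {a : α // f a = b} = m) : Nat.card α = Nat.card β * m := by
  have := Fintype.ofFinite β
  rw [card_eq_sum_fiber f, Finset.sum_congr rfl (fun b _ => h b), Finset.sum_const,
    Finset.card_univ, smul_eq_mul, Nat.card_eq_fintype_card]

/-- In a finite group, an element conjugating `H` into itself normalizes `H`. -/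
theorem mem_normalizer_of_conj_le' {G : Type*} [Group G] [Finite G] (H : Subgroup G) (g : G)
    (h : ∀ x ∈ H, g * x * g⁻¹ ∈ H) : g ∈ Subgroup.normalizer (H : Set G) := by
  have hinj : Function.Injective (fun x : H => (⟨g * x * g⁻¹, h x x.2⟩ : H)) := by
    intro x y hxy
    have h1 : g * (x : G) * g⁻¹ = g * (y : G) * g⁻¹ := congrArg Subtype.val hxy
    apply Subtype.ext
    have h2 := congrArg (fun t => g⁻¹ * t * g) h1
    simpa [mul_assoc] using h2
  have hsurj := Finite.surjective_of_injective hinj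
  rw [Subgroup.mem_normalizer_iff]
  intro x
  refine ⟨fun hx => h x hx, fun hx => ?_⟩
  obtain ⟨y, hy⟩ := hsurj ⟨g * x * g⁻¹, hx⟩
  have h1 : g * (y : G) * g⁻¹ = g * x * g⁻¹ := congrArg Subtype.val hy
  have h2 := congrArg (fun t => g⁻¹ * t * g) h1
  have h3 : (y : G) = x := by simpa [mul_assoc] using h2
  rw [← h3]
  exact y.2

theorem conj_smul_eq_of_mem_normalizer {G : Type*} [Group G] (H : Subgroup G) (g : G)
    (hg : g ∈ Subgroup.normalizer (H : Set G)) : MulAut.conj g • H = H := by
  ext x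
  rw [mem_conj_smul]
  have h1 := Subgroup.mem_normalizer_iff.mp hg (g⁻¹ * x * g)
  have h2 : g * (g⁻¹ * x * g) * g⁻¹ = x := by group
  rw [h2] at h1
  exact h1

theorem mem_normalizer_of_conj_smul_eq {G : Type*} [Group G] (H : Subgroup G) (g : G)
    (hg : MulAut.conj g • H = H) : g ∈ Subgroup.normalizer (H : Set G) := by
  rw [Subgroup.mem_normalizer_iff]
  intro x
  have h1 := mem_conj_smul H g (g * x * g⁻¹)
  rw [hg] at h1
  have h2 : g⁻¹ * (g * x * g⁻¹) * g = x := by group
  rw [h2] at h1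
  exact h1.symm

theorem inf_eq_bot_of_coprime' {G : Type*} [Group G] {H K : Subgroup G}
    (h : (Nat.card H).Coprime (Nat.card K)) : H ⊓ K = ⊥ :=
  (Subgroup.disjoint_of_coprime_natCard h).eq_bot

/-! ### The admissible factors -/

/-- The three conditions on a factor. -/
def Good (G : Type*) [Group G] (m x : ℕ) : Prop :=
  (∃ q e : ℕ, q.Prime ∧ x = q ^ e) ∧
  (∃ K L : Subgroup G, K.Normal ∧ L.Normal ∧ K < L ∧
    (∀ M : Subgroup G, M.Normal → K ≤ M → M ≤ L → M = K ∨ M = L) ∧ x ∣ K.relIndex L) ∧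
  (∃ q : ℕ, q.Prime ∧ q ∣ m ∧ x ≡ 1 [MOD q])

theorem good_of_quotient {G : Type*} [Group G] (N : Subgroup G) [N.Normal] {m' m x : ℕ}
    (hm : m' ∣ m) (h : Good (G ⧸ N) m' x) : Good G m x := by
  obtain ⟨h1, ⟨K, L, hK, hL, hKL, hmin, hx⟩, ⟨q, hq, hqm, hxq⟩⟩ := h
  have hsurj := QuotientGroup.mk'_surjective N
  refine ⟨h1, ⟨K.comap (QuotientGroup.mk' N), L.comap (QuotientGroup.mk' N), hK.comap _,
    hL.comap _, ?_, ?_, ?_⟩, ⟨q, hq, hqm.trans hm, hxq⟩⟩
  · exact (Subgroup.comap_lt_comap_of_surjective hsurj).mpr hKL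
  · intro M hM hKM hML
    have hNM : N ≤ M := by
      have h2 : N ≤ K.comap (QuotientGroup.mk' N) := by
        have h3 := Subgroup.ker_le_comap (QuotientGroup.mk' N) K
        rwa [QuotientGroup.ker_mk'] at h3
      exact h2.trans hKM
    have hMeq : (M.map (QuotientGroup.mk' N)).comap (QuotientGroup.mk' N) = M := by
      rw [Subgroup.comap_map_eq, QuotientGroup.ker_mk', sup_of_le_left hNM]
    have hMn : (M.map (QuotientGroup.mk' N)).Normal := hM.map _ hsurj
    have h1' : K ≤ M.map (QuotientGroup.mk' N) := by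
      have h3 := Subgroup.map_mono (f := QuotientGroup.mk' N) hKM
      rwa [Subgroup.map_comap_eq_self_of_surjective hsurj] at h3
    have h2' : M.map (QuotientGroup.mk' N) ≤ L := by
      have h3 := Subgroup.map_mono (f := QuotientGroup.mk' N) hML
      rwa [Subgroup.map_comap_eq_self_of_surjective hsurj] at h3
    rcases hmin _ hMn h1' h2' with h | h
    · left; rw [← hMeq, h]
    · right; rw [← hMeq, h]
  · have h3 : (K.comap (QuotientGroup.mk' N)).relIndex (L.comap (QuotientGroup.mk' N)) =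
        K.relIndex L := by
      rw [Subgroup.relIndex_comap, Subgroup.map_comap_eq_self_of_surjective hsurj]
    rw [h3]; exact hx

/-! ### Case A: a normal subgroup of order dividing `m` -/

theorem card_hall_of_normal_dvd {G : Type u} [Group G] [Finite G] (N : Subgroup G) [N.Normal]
    (m n : ℕ) (hG : Nat.card G = m * n) (hmn : m.Coprime n) (hNm : Nat.card N ∣ m) :
    Nat.card {H : Subgroup G // Nat.card H = m} =
      Nat.card {H : Subgroup (G ⧸ N) // Nat.card H = m / Nat.card N} := by
  have hm0 : 0 < m := by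
    rcases Nat.eq_zero_or_pos m with h | h
    · rw [h, zero_mul] at hG
      exact absurd hG (Nat.card_pos (α := G)).ne'
    · exact h
  have hN0 : 0 < Nat.card N := Nat.card_pos
  have hle : ∀ H : Subgroup G, Nat.card H = m → N ≤ H := by
    intro H hH
    have h1 := card_sup_mul_card_inf N H
    have h2 : Nat.card N = Nat.card (N ⊓ H : Subgroup G) * (N ⊓ H).relIndex N :=
      card_eq_card_mul_relIndex inf_le_left
    have hI0 : 0 < Nat.card (N ⊓ H : Subgroup G) := Nat.card_pos
    have h3 : Nat.card (N ⊔ H : Subgroup G) = (N ⊓ H).relIndex N * m := by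
      apply Nat.eq_of_mul_eq_mul_right hI0
      rw [h1, hH]
      calc Nat.card N * m = Nat.card (N ⊓ H : Subgroup G) * (N ⊓ H).relIndex N * m := by
            rw [← h2]
        _ = (N ⊓ H).relIndex N * m * Nat.card (N ⊓ H : Subgroup G) := by ring
    have h4 : (N ⊓ H).relIndex N * m ∣ n * m := by
      rw [← h3, mul_comm n m, ← hG]
      exact Subgroup.card_subgroup_dvd_card _
    have h5 : (N ⊓ H).relIndex N ∣ n := Nat.dvd_of_mul_dvd_mul_right hm0 h4
    have h6 : (N ⊓ H).relIndex N ∣ m := (Dvd.intro_left _ h2.symm).trans hNm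
    have h7 : (N ⊓ H).relIndex N = 1 := Nat.Coprime.eq_one_of_dvd (hmn.coprime_dvd_left h6) h5
    rw [h7, mul_one] at h2
    have h8 : N ⊓ H = N := Subgroup.eq_of_le_of_card_ge inf_le_left h2.le
    exact inf_eq_left.mp h8
  apply Nat.card_congr
  refine
    { toFun := fun H => ⟨H.1.map (QuotientGroup.mk' N), ?_⟩
      invFun := fun H => ⟨H.1.comap (QuotientGroup.mk' N), ?_⟩
      left_inv := ?_
      right_inv := ?_ }
  · have h1 := card_map_mk'_mul N H.1
    rw [inf_eq_left.mpr (hle H.1 H.2), H.2] at h1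
    exact (Nat.div_eq_of_eq_mul_left hN0 h1.symm).symm
  · rw [card_comap_mk', H.2]
    exact Nat.div_mul_cancel hNm
  · intro H
    apply Subtype.ext
    show (H.1.map (QuotientGroup.mk' N)).comap (QuotientGroup.mk' N) = H.1
    rw [Subgroup.comap_map_eq, QuotientGroup.ker_mk', sup_of_le_left (hle H.1 H.2)]
  · intro H
    apply Subtype.ext
    show (H.1.comap (QuotientGroup.mk' N)).map (QuotientGroup.mk' N) = H.1
    exact Subgroup.map_comap_eq_self_of_surjective (QuotientGroup.mk'_surjective N) _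

/-! ### Case B: the fibres over the quotient -/

theorem card_hall_fiber {G : Type u} [Group G] [Finite G] [Group.IsSolvable G] (K : Subgroup G)
    [K.Normal] (m n : ℕ) (hG : Nat.card G = m * n) (hmn : m.Coprime n)
    (hKm : (Nat.card K).Coprime m) (H₀ : Subgroup G) (hH₀ : Nat.card H₀ = m) :
    Nat.card {H : Subgroup G // Nat.card H = m} =
      Nat.card {H : Subgroup (G ⧸ K) // Nat.card H = m} *
        Nat.card {H : Subgroup G // H ≤ K ⊔ H₀ ∧ Nat.card H = m} := by
  have hmap : ∀ H : Subgroup G, Nat.card H = m → Nat.card (H.map (QuotientGroup.mk' K)) = m := by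
    intro H hH
    have h1 := card_map_mk'_mul K H
    have h2 : K ⊓ H = ⊥ := inf_eq_bot_of_coprime' (by rw [hH]; exact hKm)
    rw [h2, Subgroup.card_bot, mul_one] at h1
    rw [h1, hH]
  have hK0 : 0 < Nat.card K := Nat.card_pos
  have hKn : Nat.card K ∣ n := by
    have h1 : Nat.card K ∣ m * n := hG ▸ Subgroup.card_subgroup_dvd_card K
    exact hKm.dvd_of_dvd_mul_left h1
  have hQ : Nat.card (G ⧸ K) = m * (n / Nat.card K) := by
    have h1 := Subgroup.card_eq_card_quotient_mul_card_subgroup K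
    rw [hG] at h1
    obtain ⟨t, ht⟩ := hKn
    rw [ht, Nat.mul_div_cancel_left t hK0]
    apply Nat.eq_of_mul_eq_mul_right hK0
    rw [← h1, ht]; ring
  have hcopQ : m.Coprime (n / Nat.card K) := hmn.coprime_dvd_right (Nat.div_dvd_of_dvd hKn)
  apply card_eq_mul_of_fiber (fun H : {H : Subgroup G // Nat.card H = m} =>
    (⟨H.1.map (QuotientGroup.mk' K), hmap H.1 H.2⟩ : {H : Subgroup (G ⧸ K) // Nat.card H = m}))
  rintro ⟨Hb, hHb⟩
  obtain ⟨g', hg'⟩ := hall_conj m (n / Nat.card K) hQ hcopQ (H₀.map (QuotientGroup.mk' K)) Hb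
    (hmap H₀ hH₀) hHb
  obtain ⟨g, rfl⟩ := QuotientGroup.mk'_surjective K g'
  have hcomap : Hb.comap (QuotientGroup.mk' K) = MulAut.conj g • (K ⊔ H₀) := by
    rw [← hg', ← map_conj_smul, Subgroup.comap_map_eq, QuotientGroup.ker_mk', Subgroup.smul_sup,
      Subgroup.Normal.conj_smul_eq_self g K, sup_comm]
  have e1 : Nat.card {a : {H : Subgroup G // Nat.card H = m} //
      (⟨a.1.map (QuotientGroup.mk' K), hmap a.1 a.2⟩ :
        {H : Subgroup (G ⧸ K) // Nat.card H = m}) = ⟨Hb, hHb⟩} =
      Nat.card {H : Subgroup G // H ≤ Hb.comap (QuotientGroup.mk' K) ∧ Nat.card H = m} := by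
    apply Nat.card_congr
    refine
      { toFun := fun a => ⟨a.1.1, ?_, a.1.2⟩
        invFun := fun x => ⟨⟨x.1, x.2.2⟩, ?_⟩
        left_inv := fun a => rfl
        right_inv := fun x => rfl }
    · have h1 : a.1.1.map (QuotientGroup.mk' K) = Hb := congrArg Subtype.val a.2
      exact (Subgroup.le_comap_map _ _).trans
        (le_of_eq (congrArg (Subgroup.comap (QuotientGroup.mk' K)) h1))
    · apply Subtype.ext
      show x.1.map (QuotientGroup.mk' K) = Hb
      apply Subgroup.eq_of_le_of_card_ge (Subgroup.map_le_iff_le_comap.mpr x.2.1)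
      rw [hmap x.1 x.2.2, hHb]
  have e2 : Nat.card {H : Subgroup G // H ≤ Hb.comap (QuotientGroup.mk' K) ∧ Nat.card H = m} =
      Nat.card {H : Subgroup G // H ≤ K ⊔ H₀ ∧ Nat.card H = m} := by
    rw [hcomap]
    apply Nat.card_congr
    refine
      { toFun := fun x => ⟨MulAut.conj g⁻¹ • x.1, ?_, ?_⟩
        invFun := fun y => ⟨MulAut.conj g • y.1, ?_, ?_⟩
        left_inv := ?_
        right_inv := ?_ }
    · have h1 := x.2.1
      rw [map_inv]; exact Subgroup.subset_pointwise_smul_iff.mp h1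
    · rw [card_conj_smul]; exact x.2.2
    · exact Subgroup.pointwise_smul_le_pointwise_smul_iff.mpr y.2.1
    · rw [card_conj_smul]; exact y.2.2
    · intro x
      apply Subtype.ext
      show MulAut.conj g • MulAut.conj g⁻¹ • x.1 = x.1
      rw [smul_smul, ← map_mul, mul_inv_cancel, map_one, one_smul]
    · intro y
      apply Subtype.ext
      show MulAut.conj g⁻¹ • MulAut.conj g • y.1 = y.1
      rw [smul_smul, ← map_mul, inv_mul_cancel, map_one, one_smul]
  exact e1.trans e2

/-! ### Hall subgroups of `N ⊔ H₀` form one orbit under `N` -/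

theorem card_hall_sup_mul {G : Type u} [Group G] [Finite G] [Group.IsSolvable G]
    (N H₀ : Subgroup G) (hnorm : H₀ ≤ Subgroup.normalizer (N : Set G))
    (hcop : (Nat.card N).Coprime (Nat.card H₀)) :
    Nat.card {H : Subgroup G // H ≤ N ⊔ H₀ ∧ Nat.card H = Nat.card H₀} *
      Nat.card (N ⊓ Subgroup.normalizer (H₀ : Set G) : Subgroup G) = Nat.card N := by
  have hsurj : ∀ H : Subgroup G, H ≤ N ⊔ H₀ → Nat.card H = Nat.card H₀ →
      ∃ k ∈ N, MulAut.conj k • H₀ = H := by
    intro H hH hHc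
    have hX : Nat.card (N ⊔ H₀ : Subgroup G) = Nat.card H₀ * Nat.card N := by
      have h1 := Cfsg.Agent.Lib.Helper91.card_sup_mul_card_inf_of_le_normalizer N H₀ hnorm
      have h2 : N ⊓ H₀ = ⊥ := inf_eq_bot_of_coprime' hcop
      rw [h2, Subgroup.card_bot, mul_one] at h1
      rw [h1, mul_comm]
    obtain ⟨x, hx⟩ := hall_conj (G := (N ⊔ H₀ : Subgroup G)) (Nat.card H₀) (Nat.card N) hX
      hcop.symm (H₀.subgroupOf (N ⊔ H₀)) (H.subgroupOf (N ⊔ H₀))
      (card_subgroupOf_of_le le_sup_right) ((card_subgroupOf_of_le hH).trans hHc)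
    have hx2 : MulAut.conj (x : G) • H₀ = H := conj_smul_of_subgroupOf le_sup_right hH x hx
    have hx3 : (x : G) ∈ ((N ⊔ H₀ : Subgroup G) : Set G) := x.2
    rw [Subgroup.coe_mul_of_right_le_normalizer_left N H₀ hnorm] at hx3
    obtain ⟨k, hk, h, hh, hkh⟩ := Set.mem_mul.mp hx3
    refine ⟨k, hk, ?_⟩
    rw [← hx2, ← hkh, map_mul, mul_smul, conj_smul_eq_self H₀ h hh]
  have hmem : ∀ k : N, MulAut.conj (k : G) • H₀ ≤ N ⊔ H₀ ∧
      Nat.card (MulAut.conj (k : G) • H₀ : Subgroup G) = Nat.card H₀ := by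
    intro k
    refine ⟨?_, card_conj_smul H₀ _⟩
    intro x hx
    rw [mem_conj_smul] at hx
    have h1 : (k : G) ∈ N ⊔ H₀ := Subgroup.mem_sup_left k.2
    have h2 : (k : G)⁻¹ * x * (k : G) ∈ N ⊔ H₀ := Subgroup.mem_sup_right hx
    have h3 : x = (k : G) * ((k : G)⁻¹ * x * (k : G)) * (k : G)⁻¹ := by group
    rw [h3]
    exact Subgroup.mul_mem _ (Subgroup.mul_mem _ h1 h2) (Subgroup.inv_mem _ h1)
  have key := card_eq_mul_of_fiber (fun k : N =>
    (⟨MulAut.conj (k : G) • H₀, hmem k⟩ :
      {H : Subgroup G // H ≤ N ⊔ H₀ ∧ Nat.card H = Nat.card H₀}))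
    (Nat.card (N ⊓ Subgroup.normalizer (H₀ : Set G) : Subgroup G)) ?_
  · exact key.symm
  rintro ⟨H, hH1, hH2⟩
  obtain ⟨k₀, hk₀, hk₀H⟩ := hsurj H hH1 hH2
  apply Nat.card_congr
  refine
    { toFun := fun a => ⟨k₀⁻¹ * (a.1 : G), ?_, ?_⟩
      invFun := fun y => ⟨⟨k₀ * y.1, ?_⟩, ?_⟩
      left_inv := ?_
      right_inv := ?_ }
  · exact N.mul_mem (N.inv_mem hk₀) a.1.2
  · apply mem_normalizer_of_conj_smul_eq
    have h1 : MulAut.conj (a.1 : G) • H₀ = H := congrArg Subtype.val a.2
    rw [map_mul, mul_smul, h1, ← hk₀H, smul_smul, ← map_mul, inv_mul_cancel, map_one, one_smul]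
  · exact N.mul_mem hk₀ y.2.1
  · apply Subtype.ext
    show MulAut.conj (k₀ * y.1) • H₀ = H
    rw [map_mul, mul_smul, conj_smul_eq_of_mem_normalizer H₀ y.1 y.2.2, hk₀H]
  · intro a
    apply Subtype.ext
    apply Subtype.ext
    show k₀ * (k₀⁻¹ * (a.1 : G)) = a.1
    group
  · intro y
    apply Subtype.ext
    show k₀⁻¹ * (k₀ * y.1) = y.1
    group

/-! ### Subgroups of a subgroup -/

theorem card_hall_subgroup {G : Type u} [Group G] (X : Subgroup G) (m : ℕ) :
    Nat.card {H : Subgroup X // Nat.card H = m} =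
      Nat.card {H : Subgroup G // H ≤ X ∧ Nat.card H = m} := by
  apply Nat.card_congr
  refine
    { toFun := fun H => ⟨H.1.map X.subtype, Subgroup.map_subtype_le _, ?_⟩
      invFun := fun H => ⟨H.1.subgroupOf X, ?_⟩
      left_inv := ?_
      right_inv := ?_ }
  · exact (Nat.card_congr
      (Subgroup.equivMapOfInjective _ _ (Subgroup.subtype_injective _)).toEquiv).symm.trans H.2
  · rw [card_subgroupOf_of_le H.2.1]; exact H.2.2
  · intro H
    apply Subtype.ext
    show (H.1.map X.subtype).comap X.subtype = H.1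
    exact Subgroup.comap_map_eq_self_of_injective (Subgroup.subtype_injective _) _
  · intro H
    apply Subtype.ext
    show (H.1.subgroupOf X).map X.subtype = H.1
    exact Subgroup.map_subgroupOf_eq_of_le H.2.1

/-! ### The congruence -/

theorem card_mod_centralizer {G : Type*} [Group G] [Finite G] (K M : Subgroup G) [hK : K.Normal]
    {q : ℕ} [Fact q.Prime] (hM : IsPGroup q M) (hKq : (Nat.card K).Coprime q) :
    ∃ f₀ : ℕ, Nat.card K =
        f₀ * Nat.card (K ⊓ Subgroup.centralizer (M : Set G) : Subgroup G) ∧ f₀ ≡ 1 [MOD q] := by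
  let φ : M →* MulAut K := MulAut.conjNormal.comp M.subtype
  let _ : MulAction M K := MulAction.compHom K φ
  have h1 := hM.card_modEq_card_fixedPoints K
  have h2 : Nat.card (MulAction.fixedPoints M K) =
      Nat.card (K ⊓ Subgroup.centralizer (M : Set G) : Subgroup G) := by
    apply Nat.card_congr
    refine
      { toFun := fun x => ⟨(x.1 : G), ⟨x.1.2, ?_⟩⟩
        invFun := fun y => ⟨⟨y.1, y.2.1⟩, ?_⟩
        left_inv := fun x => rfl
        right_inv := fun y => rfl }
    · refine Subgroup.mem_centralizer_iff.mpr ?_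
      intro mm hmm
      have h3 := x.2 ⟨mm, hmm⟩
      have h4 : mm * (x.1 : G) * mm⁻¹ = (x.1 : G) := congrArg Subtype.val h3
      calc mm * (x.1 : G) = mm * (x.1 : G) * mm⁻¹ * mm := by group
        _ = (x.1 : G) * mm := by rw [h4]
    · intro mm
      apply Subtype.ext
      show (mm : G) * y.1 * (mm : G)⁻¹ = y.1
      have h3 := Subgroup.mem_centralizer_iff.mp y.2.2 mm mm.2
      rw [h3]; group
  rw [h2] at h1
  have hdvd : Nat.card (K ⊓ Subgroup.centralizer (M : Set G) : Subgroup G) ∣ Nat.card K :=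
    Subgroup.card_dvd_of_le inf_le_left
  obtain ⟨f₀, hf₀⟩ := hdvd
  refine ⟨f₀, by rw [hf₀, mul_comm], ?_⟩
  have hcop : Nat.gcd q (Nat.card (K ⊓ Subgroup.centralizer (M : Set G) : Subgroup G)) = 1 := by
    have h3 : (Nat.card (K ⊓ Subgroup.centralizer (M : Set G) : Subgroup G)).Coprime q :=
      hKq.coprime_dvd_left ⟨f₀, hf₀⟩
    exact h3.symm
  apply Nat.ModEq.cancel_left_of_coprime hcop
  rw [mul_one, ← hf₀]
  exact h1

/-! ### The induction -/

theorem aux (N : ℕ) : ∀ (G : Type u) [Group G] [Finite G] [Group.IsSolvable G], Nat.card G = N →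
    ∀ m n : ℕ, Nat.card G = m * n → m.Coprime n →
    ∃ l : List ℕ, Nat.card {H : Subgroup G // Nat.card H = m} = l.prod ∧
      ∀ x ∈ l, Good G m x := by
  induction N using Nat.strongRecOn with | ind N ih => ?_
  intro G _ _ _ hN m n hG hmn
  by_cases hm1 : m = 1
  · subst hm1
    refine ⟨[], ?_, by simp⟩
    rw [List.prod_nil, Nat.card_eq_one_iff_unique]
    refine ⟨⟨fun a b => Subtype.ext ?_⟩, ⟨⟨⊥, Subgroup.card_bot⟩⟩⟩
    rw [Subgroup.card_eq_one.mp a.2, Subgroup.card_eq_one.mp b.2]
  have hm0 : 0 < m := by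
    rcases Nat.eq_zero_or_pos m with h | h
    · rw [h, zero_mul] at hG
      exact absurd hG (Nat.card_pos (α := G)).ne'
    · exact h
  have hm2 : 1 < m := by omega
  by_cases hA : ∃ Nn : Subgroup G, Nn.Normal ∧ Nn ≠ ⊥ ∧ Nat.card Nn ∣ m
  · -- Case A
    obtain ⟨Nn, hNn, hNne, hNm⟩ := hA
    have hcard := card_hall_of_normal_dvd Nn m n hG hmn hNm
    have hN0 : 0 < Nat.card Nn := Nat.card_pos
    have hQmul := Subgroup.card_eq_card_quotient_mul_card_subgroup Nn
    have hQ : Nat.card (G ⧸ Nn) = (m / Nat.card Nn) * n := by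
      apply Nat.eq_of_mul_eq_mul_right hN0
      rw [← hQmul, hG]
      calc m * n = (m / Nat.card Nn * Nat.card Nn) * n := by rw [Nat.div_mul_cancel hNm]
        _ = m / Nat.card Nn * n * Nat.card Nn := by ring
    have hlt : Nat.card (G ⧸ Nn) < N := by
      rw [← hN, hQmul]
      exact lt_mul_of_one_lt_right Nat.card_pos (Nn.one_lt_card_iff_ne_bot.mpr hNne)
    obtain ⟨l, hl, hgood⟩ := ih _ hlt (G ⧸ Nn) rfl (m / Nat.card Nn) n hQ
      (hmn.coprime_dvd_left (Nat.div_dvd_of_dvd hNm))
    exact ⟨l, hcard.trans hl,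
      fun x hx => good_of_quotient Nn (Nat.div_dvd_of_dvd hNm) (hgood x hx)⟩
  · -- Case B
    push Not at hA
    have hnt : Nontrivial G := by
      rw [← Finite.one_lt_card_iff_nontrivial, hG]
      exact lt_of_lt_of_le hm2 (Nat.le_mul_of_pos_right m (by
        rcases Nat.eq_zero_or_pos n with h | h
        · rw [h, mul_zero] at hG
          exact absurd hG (Nat.card_pos (α := G)).ne'
        · exact h))
    obtain ⟨K, hKn, hKne, hKmin⟩ := exists_minNormal G
    obtain ⟨-, r, hr, hpow⟩ := minNormal_elementary K inferInstance hKne hKmin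
    have hrf : Fact r.Prime := ⟨hr⟩
    have hKp : IsPGroup r K := by
      rintro ⟨x, hx⟩
      exact ⟨1, Subtype.ext (by simpa using hpow x hx)⟩
    obtain ⟨a, ha⟩ := IsPGroup.iff_card.mp hKp
    have hKdvd : r ^ a ∣ m * n := by
      rw [← ha, ← hG]; exact Subgroup.card_subgroup_dvd_card K
    rcases prime_pow_dvd_cases hr hKdvd hmn with ⟨h1, h2⟩ | ⟨h1, h2⟩
    · exact absurd (ha ▸ h1) (hA K hKn hKne)
    have hKm : (Nat.card K).Coprime m := by
      rw [ha]; exact Nat.Coprime.pow_left a ((Nat.Prime.coprime_iff_not_dvd hr).mpr h2)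
    have hK0 : 0 < Nat.card K := Nat.card_pos
    have hKn' : Nat.card K ∣ n := ha ▸ h1
    obtain ⟨H₀, hH₀⟩ := hall_exists m n hG hmn
    have hfib := card_hall_fiber K m n hG hmn hKm H₀ hH₀
    -- the quotient
    have hQmul := Subgroup.card_eq_card_quotient_mul_card_subgroup K
    have hQ : Nat.card (G ⧸ K) = m * (n / Nat.card K) := by
      apply Nat.eq_of_mul_eq_mul_right hK0
      rw [← hQmul, hG, mul_assoc, Nat.div_mul_cancel hKn']
    have hltQ : Nat.card (G ⧸ K) < N := by
      rw [← hN, hQmul]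
      exact lt_mul_of_one_lt_right Nat.card_pos (K.one_lt_card_iff_ne_bot.mpr hKne)
    obtain ⟨lQ, hlQ, hgoodQ⟩ := ih _ hltQ (G ⧸ K) rfl m (n / Nat.card K) hQ
      (hmn.coprime_dvd_right (Nat.div_dvd_of_dvd hKn'))
    -- the orbit count
    have hos := card_hall_sup_mul K H₀ Subgroup.le_normalizer_of_normal (by rw [hH₀]; exact hKm)
    rw [hH₀] at hos
    have hbot : K ⊓ H₀ = ⊥ := inf_eq_bot_of_coprime' (by rw [hH₀]; exact hKm)
    have hXcard : Nat.card (K ⊔ H₀ : Subgroup G) = m * Nat.card K := by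
      have h3 := card_sup_mul_card_inf K H₀
      rw [hbot, Subgroup.card_bot, mul_one, hH₀] at h3
      rw [h3, mul_comm]
    have hcK : Nat.card {H : Subgroup G // H ≤ K ⊔ H₀ ∧ Nat.card H = m} ∣ Nat.card K :=
      Dvd.intro _ hos
    have hchief : ∀ x, x ∣ Nat.card K → ∃ K' L : Subgroup G, K'.Normal ∧ L.Normal ∧ K' < L ∧
        (∀ M : Subgroup G, M.Normal → K' ≤ M → M ≤ L → M = K' ∨ M = L) ∧ x ∣ K'.relIndex L := by
      intro x hx
      refine ⟨⊥, K, inferInstance, hKn, bot_lt_iff_ne_bot.mpr hKne,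
        fun M hM _ hMK => hKmin M hM hMK, ?_⟩
      rw [Subgroup.relIndex_bot_left]; exact hx
    have hpp : ∀ x, x ∣ Nat.card K → ∃ q e : ℕ, q.Prime ∧ x = q ^ e := by
      intro x hx
      rw [ha] at hx
      obtain ⟨e, -, he⟩ := (Nat.dvd_prime_pow hr).mp hx
      exact ⟨r, e, hr, he⟩
    have hcfac : ∃ l : List ℕ,
        Nat.card {H : Subgroup G // H ≤ K ⊔ H₀ ∧ Nat.card H = m} = l.prod ∧
        ∀ x ∈ l, Good G m x := by
      by_cases hX : K ⊔ H₀ = ⊤
      · -- `G = K H₀`
        have hNK : N = m * Nat.card K := by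
          rw [← hN, ← hXcard, hX, Subgroup.card_top]
        have hH₀nt : Nontrivial H₀ := by
          rw [← Finite.one_lt_card_iff_nontrivial, hH₀]; exact hm2
        obtain ⟨M', hM'n, hM'ne, hM'min⟩ := exists_minNormal H₀
        obtain ⟨-, q, hq, hqpow⟩ := minNormal_elementary M' inferInstance hM'ne hM'min
        have hqf : Fact q.Prime := ⟨hq⟩
        have hMle : M'.map H₀.subtype ≤ H₀ := Subgroup.map_subtype_le M'
        have hMp : IsPGroup q (M'.map H₀.subtype) := by
          rintro ⟨x, hx⟩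
          obtain ⟨y, hy, rfl⟩ := hx
          refine ⟨1, Subtype.ext ?_⟩
          have h3 := congrArg Subtype.val (hqpow y hy)
          simpa using h3
        have hMne : M'.map H₀.subtype ≠ ⊥ := by
          intro h
          exact hM'ne ((Subgroup.map_eq_bot_iff_of_injective _ (Subgroup.subtype_injective _)).mp h)
        have hMnorm : H₀ ≤ Subgroup.normalizer ((M'.map H₀.subtype : Subgroup G) : Set G) := by
          intro h hh
          apply mem_normalizer_of_conj_le'
          rintro x ⟨y, hy, rfl⟩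
          exact ⟨⟨h, hh⟩ * y * ⟨h, hh⟩⁻¹, hM'n.conj_mem y hy ⟨h, hh⟩, rfl⟩
        have hMm : Nat.card (M'.map H₀.subtype : Subgroup G) ∣ m :=
          hH₀ ▸ Subgroup.card_dvd_of_le hMle
        have hqm : q ∣ m := by
          have h3 : q ∣ Nat.card (M'.map H₀.subtype : Subgroup G) := by
            rcases hMp.card_eq_or_dvd with h | h
            · exact absurd (Subgroup.card_eq_one.mp h) hMne
            · exact h
          exact h3.trans hMm
        have hKq : (Nat.card K).Coprime q := hKm.coprime_dvd_right hqm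
        obtain ⟨f₀, hf₀, hf₀q⟩ := card_mod_centralizer K (M'.map H₀.subtype) hMp hKq
        have hK₁ne : ¬ K ≤ Subgroup.centralizer ((M'.map H₀.subtype : Subgroup G) : Set G) := by
          intro hcen
          have hMnormal : (M'.map H₀.subtype).Normal := by
            rw [← Subgroup.normalizer_eq_top_iff, eq_top_iff, ← hX]
            exact sup_le (hcen.trans (Subgroup.centralizer_le_normalizer _)) hMnorm
          exact hA _ hMnormal hMne hMm
        have hnormK₁ : H₀ ≤ Subgroup.normalizer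
            ((K ⊓ Subgroup.centralizer ((M'.map H₀.subtype : Subgroup G) : Set G) :
              Subgroup G) : Set G) := by
          intro h hh
          apply mem_normalizer_of_conj_le'
          rintro k ⟨hkK, hkc⟩
          refine ⟨hKn.conj_mem k hkK h, ?_⟩
          have hkc' := Subgroup.mem_centralizer_iff.mp hkc
          refine Subgroup.mem_centralizer_iff.mpr ?_
          intro x hx
          have hx' : h⁻¹ * x * h ∈ M'.map H₀.subtype := by
            have h3 := hMnorm (H₀.inv_mem hh)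
            have h4 := (Subgroup.mem_normalizer_iff.mp h3 x).mp hx
            simpa using h4
          have h5 := hkc' _ hx'
          calc x * (h * k * h⁻¹) = h * ((h⁻¹ * x * h) * k) * h⁻¹ := by group
            _ = h * (k * (h⁻¹ * x * h)) * h⁻¹ := by rw [h5]
            _ = h * k * h⁻¹ * x := by group
        have hK₁dvd : Nat.card (K ⊓ Subgroup.centralizer
            ((M'.map H₀.subtype : Subgroup G) : Set G) : Subgroup G) ∣ Nat.card K :=
          Subgroup.card_dvd_of_le inf_le_left
        have hK₁m : (Nat.card (K ⊓ Subgroup.centralizer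
            ((M'.map H₀.subtype : Subgroup G) : Set G) : Subgroup G)).Coprime m :=
          hKm.coprime_dvd_left hK₁dvd
        have hos₁ := card_hall_sup_mul (K ⊓ Subgroup.centralizer
            ((M'.map H₀.subtype : Subgroup G) : Set G)) H₀ hnormK₁ (by rw [hH₀]; exact hK₁m)
        rw [hH₀] at hos₁
        have hstab : (K ⊓ Subgroup.centralizer ((M'.map H₀.subtype : Subgroup G) : Set G)) ⊓
            Subgroup.normalizer (H₀ : Set G) = K ⊓ Subgroup.normalizer (H₀ : Set G) := by
          apply le_antisymm (inf_le_inf_right _ inf_le_left)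
          rintro k ⟨hkK, hkN⟩
          refine ⟨⟨hkK, ?_⟩, hkN⟩
          refine Subgroup.mem_centralizer_iff.mpr ?_
          intro x hx
          have hxH : x ∈ H₀ := hMle hx
          have h3 : x * k * x⁻¹ * k⁻¹ ∈ K ⊓ H₀ := by
            refine ⟨K.mul_mem (hKn.conj_mem k hkK x) (K.inv_mem hkK), ?_⟩
            have h4 : k * x⁻¹ * k⁻¹ ∈ H₀ :=
              (Subgroup.mem_normalizer_iff.mp hkN x⁻¹).mp (H₀.inv_mem hxH)
            have h5 : x * k * x⁻¹ * k⁻¹ = x * (k * x⁻¹ * k⁻¹) := by group
            rw [SetLike.mem_coe, h5]; exact H₀.mul_mem hxH h4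
          rw [hbot, Subgroup.mem_bot] at h3
          calc x * k = x * k * x⁻¹ * k⁻¹ * (k * x) := by group
            _ = k * x := by rw [h3, one_mul]
        rw [hstab] at hos₁
        have hbot₁ : (K ⊓ Subgroup.centralizer ((M'.map H₀.subtype : Subgroup G) : Set G)) ⊓ H₀
            = ⊥ := by
          rw [eq_bot_iff, ← hbot]
          exact inf_le_inf_right _ inf_le_left
        have hG₁card : Nat.card ((K ⊓ Subgroup.centralizer
            ((M'.map H₀.subtype : Subgroup G) : Set G)) ⊔ H₀ : Subgroup G) =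
            m * Nat.card (K ⊓ Subgroup.centralizer
            ((M'.map H₀.subtype : Subgroup G) : Set G) : Subgroup G) := by
          have h3 := Cfsg.Agent.Lib.Helper91.card_sup_mul_card_inf_of_le_normalizer _ H₀ hnormK₁
          rw [hbot₁, Subgroup.card_bot, mul_one, hH₀] at h3
          rw [h3, mul_comm]
        have hK₁lt : Nat.card (K ⊓ Subgroup.centralizer
            ((M'.map H₀.subtype : Subgroup G) : Set G) : Subgroup G) < Nat.card K := by
          apply card_lt_card_of_lt
          exact lt_of_le_of_ne inf_le_left (fun h => hK₁ne (inf_eq_left.mp h))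
        have hG₁lt : Nat.card ((K ⊓ Subgroup.centralizer
            ((M'.map H₀.subtype : Subgroup G) : Set G)) ⊔ H₀ : Subgroup G) < N := by
          rw [hG₁card, hNK]
          exact Nat.mul_lt_mul_of_pos_left hK₁lt hm0
        obtain ⟨l₁, hl₁, hgood₁⟩ := ih _ hG₁lt (↥((K ⊓ Subgroup.centralizer
            ((M'.map H₀.subtype : Subgroup G) : Set G)) ⊔ H₀ : Subgroup G)) rfl m
            (Nat.card (K ⊓ Subgroup.centralizer
            ((M'.map H₀.subtype : Subgroup G) : Set G) : Subgroup G)) hG₁card hK₁m.symm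
        rw [card_hall_subgroup] at hl₁
        have hs0 : 0 < Nat.card (K ⊓ Subgroup.normalizer (H₀ : Set G) : Subgroup G) :=
          Nat.card_pos
        have hc_eq : Nat.card {H : Subgroup G // H ≤ K ⊔ H₀ ∧ Nat.card H = m} =
            f₀ * Nat.card {H : Subgroup G // H ≤ (K ⊓ Subgroup.centralizer
            ((M'.map H₀.subtype : Subgroup G) : Set G)) ⊔ H₀ ∧ Nat.card H = m} := by
          apply Nat.eq_of_mul_eq_mul_right hs0
          rw [hos, hf₀, ← hos₁]; ring
        refine ⟨f₀ :: l₁, ?_, ?_⟩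
        · rw [List.prod_cons, ← hl₁]; exact hc_eq
        · intro x hx
          rcases List.mem_cons.mp hx with rfl | hx
          · have hfK : x ∣ Nat.card K := Dvd.intro _ hf₀.symm
            exact ⟨hpp x hfK, hchief x hfK, ⟨q, hq, hqm, hf₀q⟩⟩
          · obtain ⟨-, -, h3⟩ := hgood₁ x hx
            have hxc : x ∣ Nat.card K := by
              have h4 : x ∣ Nat.card {H : Subgroup G // H ≤ (K ⊓ Subgroup.centralizer
                  ((M'.map H₀.subtype : Subgroup G) : Set G)) ⊔ H₀ ∧ Nat.card H = m} :=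
                hl₁ ▸ List.dvd_prod hx
              have h5 := Dvd.intro_left _ hc_eq.symm
              exact (h4.trans h5).trans hcK
            exact ⟨hpp x hxc, hchief x hxc, h3⟩
      · -- `K H₀` proper
        have hXlt : Nat.card (K ⊔ H₀ : Subgroup G) < N := by
          rw [← hN, ← Subgroup.card_top (G := G)]
          exact card_lt_card_of_lt (lt_top_iff_ne_top.mpr hX)
        obtain ⟨lX, hlX, hgoodX⟩ := ih _ hXlt (↥(K ⊔ H₀ : Subgroup G)) rfl m (Nat.card K)
          hXcard hKm.symm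
        rw [card_hall_subgroup] at hlX
        refine ⟨lX, hlX, fun x hx => ?_⟩
        obtain ⟨-, -, h3⟩ := hgoodX x hx
        have hxc : x ∣ Nat.card K := (hlX ▸ List.dvd_prod hx).trans hcK
        exact ⟨hpp x hxc, hchief x hxc, h3⟩
    obtain ⟨lc, hlc, hgoodc⟩ := hcfac
    refine ⟨lQ ++ lc, ?_, ?_⟩
    · rw [List.prod_append, hfib, hlQ, ← hlc]
    · intro x hx
      rcases List.mem_append.mp hx with h | h
      · exact good_of_quotient K dvd_rfl (hgoodQ x h)
      · exact hgoodc x h

/-- Let `G` be a finite solvable group of order `mn` with `gcd(m, n) = 1`. Then the number of subgroups of order `m` is a product of natural numbers each of which is a power of a prime, divides the order of some chief factor of `G` (a quotient `L/K` of normal subgroups `K < L` of `G` with no normal subgroup of `G` strictly between them), and is congruent to `1` modulo some prime divisor of `m`. -/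
theorem result {G : Type*} [Group G] [Finite G] [Group.IsSolvable G] (m n : ℕ) (hG : Nat.card G = m * n) (hmn : Nat.Coprime m n) : ∃ (k : ℕ) (f : Fin k → ℕ), Nat.card {H : Subgroup G // Nat.card H = m} = ∏ i, f i ∧ ∀ i, (∃ q e : ℕ, q.Prime ∧ f i = q ^ e) ∧ (∃ K L : Subgroup G, K.Normal ∧ L.Normal ∧ K < L ∧ (∀ M : Subgroup G, M.Normal → K ≤ M → M ≤ L → M = K ∨ M = L) ∧ f i ∣ K.relIndex L) ∧ (∃ q : ℕ, q.Prime ∧ q ∣ m ∧ f i ≡ 1 [MOD q]) := by
  obtain ⟨l, hl, hgood⟩ := aux _ G rfl m n hG hmn
  refine ⟨l.length, fun i => l.get i, ?_, fun i => hgood _ (List.get_mem l i)⟩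
  rw [hl, ← List.prod_ofFn, List.ofFn_get]

end Cfsg.Agent.S4214
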