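import Mathlib
import Cfsg.Statements.S4217
import Cfsg.Agent.S0051

set_option autoImplicit false
open Cfsg

namespace Cfsg.Agent.S4217

/-- The `e`-torsion of an abelian subgroup. -/
def tors {G : Type*} [Group G] (A : Subgroup G) (hA : IsMulCommutative A) (e : ℕ) : Subgroup G where
  carrier := {x | x ∈ A ∧ x ^ e = 1}
  mul_mem' := by
    rintro x y ⟨hx, hxe⟩ ⟨hy, hye⟩
    refine ⟨A.mul_mem hx hy, ?_⟩
    have hc : Commute x y := congrArg Subtype.val (hA.is_comm.comm ⟨x, hx⟩ ⟨y, hy⟩)
    rw [hc.mul_pow, hxe, hye, one_mul]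
  one_mem' := ⟨A.one_mem, one_pow e⟩
  inv_mem' := by
    rintro x ⟨hx, hxe⟩
    exact ⟨A.inv_mem hx, by rw [inv_pow, hxe, inv_one]⟩

theorem mem_tors {G : Type*} [Group G] (A : Subgroup G) (hA : IsMulCommutative A) (e : ℕ) (x : G) :
    x ∈ tors A hA e ↔ x ∈ A ∧ x ^ e = 1 := Iff.rfl

theorem tors_le {G : Type*} [Group G] (A : Subgroup G) (hA : IsMulCommutative A) (e : ℕ) :
    tors A hA e ≤ A := fun _ hx => hx.1

theorem tors_normal {G : Type*} [Group G] (A : Subgroup G) [hn : A.Normal] (hA : IsMulCommutative A)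
    (e : ℕ) : (tors A hA e).Normal := by
  constructor
  rintro x ⟨hx, hxe⟩ g
  refine ⟨hn.conj_mem x hx g, ?_⟩
  rw [conj_pow, hxe, mul_one, mul_inv_cancel]

theorem tors_comm {G : Type*} [Group G] (A : Subgroup G) (hA : IsMulCommutative A) (e : ℕ) :
    IsMulCommutative (tors A hA e) := by
  refine ⟨⟨fun a b => ?_⟩⟩
  apply Subtype.ext
  have h : (a : G) * (b : G) = (b : G) * (a : G) :=
    congrArg Subtype.val (hA.is_comm.comm ⟨a.1, a.2.1⟩ ⟨b.1, b.2.1⟩)
  exact h

theorem tors_inf {G : Type*} [Group G] (A : Subgroup G) (hA : IsMulCommutative A) (e f : ℕ)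
    (hef : Nat.Coprime e f) : tors A hA e ⊓ tors A hA f = ⊥ := by
  rw [eq_bot_iff]
  rintro x ⟨⟨_, hxe⟩, ⟨_, hxf⟩⟩
  rw [Subgroup.mem_bot]
  have h1 : orderOf x ∣ Nat.gcd e f :=
    Nat.dvd_gcd (orderOf_dvd_of_pow_eq_one hxe) (orderOf_dvd_of_pow_eq_one hxf)
  rw [hef.gcd_eq_one, Nat.dvd_one] at h1
  exact orderOf_eq_one_iff.mp h1

theorem tors_sup {G : Type*} [Group G] (A : Subgroup G) (hA : IsMulCommutative A) (e f : ℕ)
    (hef : Nat.Coprime e f) (hcard : ∀ x ∈ A, x ^ (e * f) = 1) :
    tors A hA e ⊔ tors A hA f = A := by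
  apply le_antisymm (sup_le (tors_le A hA e) (tors_le A hA f))
  intro x hx
  have hb : (1 : ℤ) = (e : ℤ) * Int.gcdA e f + (f : ℤ) * Int.gcdB e f := by
    have h := Int.gcd_eq_gcd_ab (e : ℤ) (f : ℤ)
    rw [Int.gcd_natCast_natCast, hef.gcd_eq_one] at h
    exact_mod_cast h
  have hx1 : x = (x ^ f) ^ Int.gcdB e f * (x ^ e) ^ Int.gcdA e f := by
    rw [← zpow_natCast x f, ← zpow_natCast x e, ← zpow_mul, ← zpow_mul, ← zpow_add,
      add_comm, ← hb, zpow_one]
  rw [hx1]
  apply Subgroup.mul_mem_sup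
  · apply Subgroup.zpow_mem
    refine ⟨A.pow_mem hx f, ?_⟩
    rw [← pow_mul, mul_comm]
    exact hcard x hx
  · apply Subgroup.zpow_mem
    refine ⟨A.pow_mem hx e, ?_⟩
    rw [← pow_mul]
    exact hcard x hx

theorem isPGroup_tors {G : Type*} [Group G] (A : Subgroup G) (hA : IsMulCommutative A)
    (p N : ℕ) : IsPGroup p (tors A hA (p ^ N)) := by
  intro x
  refine ⟨N, ?_⟩
  apply Subtype.ext
  rw [Subgroup.coe_pow]
  exact x.2.2

theorem card_tors_le {G : Type*} [Group G] [Finite G] (A : Subgroup G) (hA : IsMulCommutative A)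
    (p : ℕ) (hp : p.Prime) :
    Nat.card (tors A hA (p ^ (Nat.card A).factorization p)) ≤ p ^ (Nat.card A).factorization p := by
  have hpf : Fact p.Prime := ⟨hp⟩
  obtain ⟨j, hj⟩ := IsPGroup.iff_card.mp (isPGroup_tors A hA p ((Nat.card A).factorization p))
  rw [hj]
  apply Nat.pow_le_pow_right hp.pos
  have hdvd : p ^ j ∣ Nat.card A := by
    rw [← hj]
    exact Subgroup.card_dvd_of_le (tors_le A hA _)
  exact (hp.pow_dvd_iff_le_factorization Nat.card_pos.ne').mp hdvd

/-- The primary component of `A` has a complement in `G`. -/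
theorem exists_compl_primary {G : Type*} [Group G] [Finite G] (A : Subgroup G) [A.Normal]
    (hA : IsMulCommutative A)
    (hyp : ∀ p : ℕ, p.Prime → p ∣ A.index → ∃ (S : Sylow p (G ⧸ A)) (K : Subgroup G),
      K ⊓ A = ⊥ ∧ K ⊔ A = (S : Subgroup (G ⧸ A)).comap (QuotientGroup.mk' A))
    (p : ℕ) (hp : p.Prime) :
    ∃ C : Subgroup G, Subgroup.IsComplement' (tors A hA (p ^ (Nat.card A).factorization p)) C := by
  have hpf : Fact p.Prime := ⟨hp⟩
  obtain ⟨N, hN⟩ : ∃ N, N = (Nat.card A).factorization p := ⟨_, rfl⟩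
  obtain ⟨m, hm⟩ : ∃ m, m = Nat.card A / p ^ N := ⟨_, rfl⟩
  rw [← hN]
  have hcardA : p ^ N * m = Nat.card A := by
    rw [hm, hN]
    exact Nat.ordProj_mul_ordCompl_eq_self (Nat.card A) p
  have hcop : Nat.Coprime (p ^ N) m := by
    rw [hm, hN]
    exact (Nat.coprime_ordCompl hp Nat.card_pos.ne').pow_left _
  have hinf := tors_inf A hA (p ^ N) m hcop
  have hsup := tors_sup A hA (p ^ N) m hcop (by
    intro x hx
    rw [hcardA]
    have h := pow_card_eq_one' (G := A) (x := ⟨x, hx⟩)
    exact congrArg Subtype.val h)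
  have hn1 : (tors A hA (p ^ N)).Normal := tors_normal A hA _
  have hn2 : (tors A hA m).Normal := tors_normal A hA _
  have hc1 : IsMulCommutative (tors A hA (p ^ N)) := tors_comm A hA _
  obtain ⟨j, hj⟩ := IsPGroup.iff_card.mp (isPGroup_tors A hA p N)
  by_cases hdvd : p ∣ A.index
  · obtain ⟨S, Kp, hKpA, hKpS⟩ := hyp p hp hdvd
    have hU : (tors A hA (p ^ N)) ≤ (S : Subgroup (G ⧸ A)).comap (QuotientGroup.mk' A) := by
      rw [← hKpS]
      exact (tors_le A hA _).trans le_sup_right
    have hidx : ((S : Subgroup (G ⧸ A)).comap (QuotientGroup.mk' A)).index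
        = (S : Subgroup (G ⧸ A)).index :=
      Subgroup.index_comap_of_surjective _ (QuotientGroup.mk'_surjective A)
    have hcopU : (Nat.card (tors A hA (p ^ N))).Coprime
        ((S : Subgroup (G ⧸ A)).comap (QuotientGroup.mk' A)).index := by
      rw [hj, hidx]
      apply Nat.Coprime.pow_left
      exact (Nat.Prime.coprime_iff_not_dvd hp).mpr S.not_dvd_index
    refine Cfsg.Agent.S0051.result (tors A hA (p ^ N)) _ hU hcopU (Kp ⊔ tors A hA m) ?_ ?_ ?_
    · rw [← hKpS]
      exact sup_le le_sup_left ((tors_le A hA m).trans le_sup_right)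
    · rw [eq_bot_iff]
      rintro x ⟨hx1, hx2⟩
      obtain ⟨k, hk, b, hb, rfl⟩ := Subgroup.mem_sup_of_normal_right.mp hx1
      have hkA : k ∈ A := by
        have h1 : k * b ∈ A := tors_le A hA _ hx2
        have h2 : b ∈ A := tors_le A hA _ hb
        have h3 := A.mul_mem h1 (A.inv_mem h2)
        rwa [mul_inv_cancel_right] at h3
      have hk1 : k = 1 := by
        have h3 : k ∈ Kp ⊓ A := ⟨hk, hkA⟩
        rw [hKpA] at h3
        exact h3
      rw [hk1, one_mul] at hx2 ⊢
      rw [← hinf]
      exact ⟨hx2, hb⟩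
    · rw [← hKpS, sup_left_comm, hsup]
  · refine Cfsg.Agent.S0051.result (tors A hA (p ^ N)) A (tors_le A hA _) ?_ (tors A hA m)
      (tors_le A hA m) ?_ hsup
    · rw [hj]
      apply Nat.Coprime.pow_left
      exact (Nat.Prime.coprime_iff_not_dvd hp).mpr hdvd
    · rw [inf_comm]
      exact hinf

/-- Let `A` be an abelian normal subgroup of the finite group `G`. Then `A` has a complement in `G` if and only if, for every prime `p` dividing the index of `A`, there are a Sylow `p`-subgroup `S` of `G/A` and a subgroup `K` of `G` with `K ∩ A = 1` and `KA` equal to the preimage of `S` (that is, `A` has a complement in the preimage of a Sylow `p`-subgroup of `G/A`). -/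
theorem result {G : Type*} [Group G] [Finite G] (A : Subgroup G) [A.Normal] (hA : IsMulCommutative A) : (∃ K : Subgroup G, K.IsComplement' A) ↔ ∀ p : ℕ, p.Prime → p ∣ A.index → ∃ (S : Sylow p (G ⧸ A)) (K : Subgroup G), K ⊓ A = ⊥ ∧ K ⊔ A = (S : Subgroup (G ⧸ A)).comap (QuotientGroup.mk' A) := by
  constructor
  · rintro ⟨K, hK⟩ p hp hdvd
    have hpf : Fact p.Prime := ⟨hp⟩
    have hKA : K ⊓ A = ⊥ := disjoint_iff.mp hK.disjoint
    have hsup : K ⊔ A = ⊤ := hK.sup_eq_top
    let f : K →* G ⧸ A := (QuotientGroup.mk' A).comp K.subtype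
    have hf : Function.Surjective f := by
      intro q
      obtain ⟨g, rfl⟩ := QuotientGroup.mk'_surjective A q
      have hg : g ∈ K ⊔ A := by
        rw [hsup]
        trivial
      obtain ⟨k, hk, a, ha, rfl⟩ := Subgroup.mem_sup_of_normal_right.mp hg
      refine ⟨⟨k, hk⟩, ?_⟩
      show (QuotientGroup.mk' A) k = (QuotientGroup.mk' A) (k * a)
      rw [QuotientGroup.mk'_eq_mk']
      exact ⟨a, ha, rfl⟩
    obtain ⟨Q⟩ : Nonempty (Sylow p K) := inferInstance
    refine ⟨Q.mapSurjective hf, (Q : Subgroup K).map K.subtype, ?_, ?_⟩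
    · rw [eq_bot_iff, ← hKA]
      exact inf_le_inf_right _ (Subgroup.map_subtype_le _)
    · rw [Sylow.coe_mapSurjective]
      show _ = Subgroup.comap (QuotientGroup.mk' A) (Subgroup.map f (Q : Subgroup K))
      rw [← Subgroup.map_map, QuotientGroup.comap_map_mk', sup_comm]
  · intro hyp
    classical
    have hC : ∀ p : ℕ, p.Prime → ∃ C : Subgroup G,
        Subgroup.IsComplement' (tors A hA (p ^ (Nat.card A).factorization p)) C :=
      fun p hp => exists_compl_primary A hA hyp p hp
    let C : ℕ → Subgroup G := fun p => if h : p.Prime then Classical.choose (hC p h) else ⊤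
    have hCspec : ∀ p (h : p.Prime),
        Subgroup.IsComplement' (tors A hA (p ^ (Nat.card A).factorization p)) (C p) := by
      intro p h
      simp only [C, dif_pos h]
      exact Classical.choose_spec (hC p h)
    let K : Subgroup G := ⨅ i : (Nat.card A).primeFactors, C i.1
    refine ⟨K, ?_⟩
    have hdisj : Disjoint K A := by
      rw [Subgroup.disjoint_def]
      intro x hxK hxA
      by_contra hx1
      have ho : orderOf x ≠ 1 := fun h => hx1 (orderOf_eq_one_iff.mp h)
      obtain ⟨p, hp, hpo⟩ := Nat.exists_prime_and_dvd ho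
      have hpA : p ∣ Nat.card A := by
        have h1 : orderOf x ∣ Nat.card A := by
          have h2 := orderOf_dvd_natCard (⟨x, hxA⟩ : A)
          rwa [Subgroup.orderOf_mk] at h2
        exact hpo.trans h1
      have hpmem : p ∈ (Nat.card A).primeFactors :=
        Nat.mem_primeFactors.mpr ⟨hp, hpA, Nat.card_pos.ne'⟩
      obtain ⟨y, hy⟩ : ∃ y, y = x ^ (orderOf x / p) := ⟨_, rfl⟩
      have hyp' : y ^ p = 1 := by
        rw [hy, ← pow_mul, Nat.div_mul_cancel hpo, pow_orderOf_eq_one]
      have hy1 : y ≠ 1 := by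
        intro h
        rw [hy] at h
        have h1 : orderOf x ∣ orderOf x / p := orderOf_dvd_of_pow_eq_one h
        have hpos : 0 < orderOf x := orderOf_pos x
        have h2 : orderOf x / p < orderOf x := Nat.div_lt_self hpos hp.one_lt
        have h3 : 0 < orderOf x / p := Nat.div_pos (Nat.le_of_dvd hpos hpo) hp.pos
        exact absurd (Nat.le_of_dvd h3 h1) (by omega)
      have hyC : y ∈ C p := by
        have h1 : x ∈ C p := (Subgroup.mem_iInf.mp hxK) ⟨p, hpmem⟩
        rw [hy]
        exact (C p).pow_mem h1 _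
      have hyT : y ∈ tors A hA (p ^ (Nat.card A).factorization p) := by
        refine ⟨by rw [hy]; exact A.pow_mem hxA _, ?_⟩
        have hN : 0 < (Nat.card A).factorization p :=
          hp.factorization_pos_of_dvd Nat.card_pos.ne' hpA
        obtain ⟨t, ht⟩ : p ∣ p ^ (Nat.card A).factorization p := dvd_pow_self p (by omega)
        rw [ht, pow_mul, hyp', one_pow]
      have h5 := (hCspec p hp).disjoint
      rw [Subgroup.disjoint_def] at h5
      exact hy1 (h5 hyT hyC)
    apply Subgroup.isComplement'_of_card_mul_and_disjoint _ hdisj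
    apply le_antisymm
    · have h1 := Nat.card_le_card_of_injective _ (Subgroup.mul_injective_of_disjoint hdisj)
      rwa [Nat.card_prod] at h1
    · have h1 : K.index ≤ ∏ i : (Nat.card A).primeFactors, (C i.1).index :=
        Subgroup.index_iInf_le _
      have h2 : ∀ i : (Nat.card A).primeFactors,
          (C i.1).index ≤ i.1 ^ (Nat.card A).factorization i.1 := by
        intro i
        have hp : i.1.Prime := Nat.prime_of_mem_primeFactors i.2
        rw [(hCspec i.1 hp).index_eq_card]
        exact card_tors_le A hA i.1 hp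
      have h3 : ∏ i : (Nat.card A).primeFactors, i.1 ^ (Nat.card A).factorization i.1
          = Nat.card A := by
        rw [Finset.prod_coe_sort (Nat.card A).primeFactors
          (fun p => p ^ (Nat.card A).factorization p)]
        exact Nat.prod_factorization_pow_eq_self Nat.card_pos.ne'
      have h4 : K.index ≤ Nat.card A :=
        h1.trans ((Finset.prod_le_prod (fun _ _ => Nat.zero_le _) (fun i _ => h2 i)).trans_eq h3)
      rw [← K.card_mul_index]
      exact Nat.mul_le_mul_left _ h4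

end Cfsg.Agent.S4217
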