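import Mathlib
import Cfsg.Statements.S4222

set_option autoImplicit false
open Cfsg

namespace Cfsg.Agent.S4222

/-- If a normal subgroup `N` of a finite group is complete (its centre is trivial and every automorphism of `N` is inner), then the group is the internal direct product of `N` and the centralizer of `N`: the centralizer is a complement to `N`. -/
theorem result {T : Type*} [Group T] [Finite T] (N : Subgroup T) [N.Normal] (hz : Subgroup.center ↥N = ⊥) (ha : Function.Surjective (MulAut.conj : ↥N →* MulAut ↥N)) : (Subgroup.centralizer (N : Set T)).IsComplement' N := by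
  apply Subgroup.isComplement'_of_disjoint_and_mul_eq_univ
  · rw [Subgroup.disjoint_def]
    intro x hxC hxN
    have hcen : (⟨x, hxN⟩ : N) ∈ Subgroup.center ↥N := by
      rw [Subgroup.mem_center_iff]
      rintro ⟨y, hy⟩
      apply Subtype.ext
      exact hxC y hy
    rw [hz, Subgroup.mem_bot] at hcen
    exact congrArg Subtype.val hcen
  · rw [Set.eq_univ_iff_forall]
    intro t
    -- conjugation by t restricted to N
    let φ : MulAut ↥N :=
      { toFun := fun y => ⟨t * y * t⁻¹, ‹N.Normal›.conj_mem y y.2 t⟩
        invFun := fun y => ⟨t⁻¹ * y * t, by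
          have := ‹N.Normal›.conj_mem y y.2 t⁻¹
          simpa using this⟩
        left_inv := fun y => by
          apply Subtype.ext
          simp [mul_assoc]
        right_inv := fun y => by
          apply Subtype.ext
          simp [mul_assoc]
        map_mul' := fun y z => by
          apply Subtype.ext
          simp [mul_assoc] }
    obtain ⟨n, hn⟩ := ha φ
    have hφ : ∀ y : N, (n : T) * y * (n : T)⁻¹ = t * y * t⁻¹ := by
      intro y
      have := congrArg (fun ψ : MulAut ↥N => ((ψ y : N) : T)) hn
      simpa [φ, MulAut.conj_apply] using this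
    refine Set.mem_mul.mpr ⟨t * (n : T)⁻¹, ?_, n, n.2, by simp⟩
    rw [SetLike.mem_coe, Subgroup.mem_centralizer_iff]
    intro y hy
    have h1 := hφ ⟨(n : T)⁻¹ * y * n, by
      have := ‹N.Normal›.conj_mem y hy (n : T)⁻¹
      simpa using this⟩
    simp only [] at h1
    have h2 : (n : T) * ((n : T)⁻¹ * y * n) * (n : T)⁻¹ = y := by group
    rw [h2] at h1
    -- h1 : y = t * (n⁻¹ * y * n) * t⁻¹
    calc y * (t * (n : T)⁻¹) = (t * ((n : T)⁻¹ * y * n) * t⁻¹) * (t * (n : T)⁻¹) := by rw [← h1]
      _ = t * (n : T)⁻¹ * y := by group

end Cfsg.Agent.S4222
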