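import Mathlib
import Cfsg.Statements.S4226
import Cfsg.Agent.Lib.Helper70.HallWielandt
-- import your own Cfsg.Agent.* helpers here

set_option autoImplicit false
open Cfsg

namespace Cfsg.Agent.S4226

/-- Let `P` be a Sylow `p`-subgroup of the finite group `G` with nilpotency class less than `p` (the term of index `p - 1` of the lower central series of `P`, indexed from `0`, is trivial), and let `N` be its normalizer. Then `O^p(N) = O^p(G) ∩ N`, where `O^p` denotes the subgroup generated by the elements of order prime to `p`; so the largest `p`-factor groups of `G` and of `N` are isomorphic. -/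
theorem result {G : Type*} [Group G] [Finite G] {p : ℕ} [Fact p.Prime] (P : Sylow p G) (hcl : (P : Subgroup G).lowerCentralSeries (p - 1) = ⊥) : Cfsg.pResidualOf p (Subgroup.normalizer ((P : Subgroup G) : Set G)) = Cfsg.pResidual p G ⊓ Subgroup.normalizer ((P : Subgroup G) : Set G) := by
  have hwc : Cfsg.IsWeaklyClosed (P : Subgroup G) (P : Subgroup G) := by
    refine ⟨le_rfl, fun g hg => ?_⟩
    apply Subgroup.eq_of_le_of_card_ge hg
    rw [Subgroup.card_map_of_injective (MulAut.conj g).injective]
  have hcomm : ∀ u ∈ (P : Subgroup G), ∀ z ∈ (P : Subgroup G),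
      (fun y : G => y⁻¹ * z⁻¹ * y * z)^[p - 1] u = 1 := by
    intro u hu z hz
    have key : ∀ k : ℕ, (fun y : G => y⁻¹ * z⁻¹ * y * z)^[k] u ∈
        (P : Subgroup G).lowerCentralSeries k := by
      intro k
      induction k with
      | zero => rw [Subgroup.lowerCentralSeries_zero]; exact hu
      | succ k ih =>
        rw [Function.iterate_succ_apply', Subgroup.lowerCentralSeries_succ]
        have h1 := Subgroup.commutator_mem_commutator (Subgroup.inv_mem _ ih)
          (Subgroup.inv_mem _ hz)
        rw [commutatorElement_def, inv_inv, inv_inv] at h1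
        exact h1
    have h2 := key (p - 1)
    rw [hcl] at h2
    exact Subgroup.mem_bot.mp h2
  exact Cfsg.Agent.Lib.Helper70.HW.hall_wielandt P P hwc hcomm

end Cfsg.Agent.S4226
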