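import Mathlib
import Cfsg.Agent.Lib.Helper5.SylRed
import Cfsg.Statements.S4274

set_option autoImplicit false
open Cfsg

namespace Cfsg.Agent.S4274

/-- A finite group of order 175560 = 2³·3·5·7·11·19 is either simple or has a normal Sylow 19-subgroup. -/
theorem result {G : Type*} [Group G] [Finite G] (hG : Nat.card G = 175560) : IsSimpleGroup G ∨ ∀ P : Sylow 19 G, (P : Subgroup G).Normal := by
  exact Cfsg.Agent.Lib.Helper5.Syl.simple_or_sylow19_normal_175560 hG

end Cfsg.Agent.S4274
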