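import Cfsg.Statements.S4275

set_option autoImplicit false
open Cfsg

namespace Cfsg.Agent.S4275

/-- Let G be a transitive group of permutations of a finite set Ω, let o ∈ Ω, and let α be an automorphism of G. Then α is induced by conjugation by a permutation of Ω normalizing G if and only if the image under α of the stabilizer of o fixes some point of Ω. -/
theorem result {Ω : Type*} [Fintype Ω] (G : Subgroup (Equiv.Perm Ω)) (htr : MulAction.IsPretransitive G Ω) (o : Ω) (α : G ≃* G) : (∃ σ : Equiv.Perm Ω, σ ∈ Subgroup.normalizer (G : Set (Equiv.Perm Ω)) ∧ ∀ g : G, ((α g : G) : Equiv.Perm Ω) = σ * (g : Equiv.Perm Ω) * σ⁻¹) ↔ ∃ ω : Ω, ∀ g ∈ (MulAction.stabilizer G o).map α.toMonoidHom, g • ω = ω := by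
  have hsmul : ∀ (g : G) (x : Ω), g • x = (g : Equiv.Perm Ω) x := fun g x => rfl
  constructor
  · rintro ⟨σ, _, hσ⟩
    refine ⟨σ o, ?_⟩
    rintro g' ⟨g, hg, rfl⟩
    rw [SetLike.mem_coe, MulAction.mem_stabilizer_iff, hsmul] at hg
    rw [hsmul]
    show ((α g : G) : Equiv.Perm Ω) (σ o) = σ o
    rw [hσ g]
    simp [hg]
  · rintro ⟨ω, hω⟩
    -- the key well-definedness property
    have hkey : ∀ g g' : G, g • o = g' • o → α g • ω = α g' • ω := by
      intro g g' h
      have h1 : g'⁻¹ * g ∈ MulAction.stabilizer G o := by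
        rw [MulAction.mem_stabilizer_iff, mul_smul, h, inv_smul_smul]
      have h2 := hω (α (g'⁻¹ * g)) ⟨g'⁻¹ * g, h1, rfl⟩
      rw [map_mul, map_inv, mul_smul, inv_smul_eq_iff] at h2
      exact h2
    choose rep hrep using fun x : Ω => MulAction.exists_smul_eq G o x
    let σf : Ω → Ω := fun x => α (rep x) • ω
    have hσf : ∀ g : G, σf (g • o) = α g • ω := by
      intro g
      exact hkey _ _ (hrep (g • o))
    have hσeq : ∀ (g : G) (x : Ω), σf (g • x) = α g • σf x := by
      intro g x
      have h1 : g • x = (g * rep x) • o := by rw [mul_smul, hrep x]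
      rw [h1, hσf, map_mul, mul_smul]
    have hsurj : Function.Surjective σf := by
      intro y
      obtain ⟨k, hk⟩ := MulAction.exists_smul_eq G ω y
      obtain ⟨g, rfl⟩ := α.surjective k
      exact ⟨g • o, by rw [hσf, hk]⟩
    have hbij : Function.Bijective σf := ⟨Finite.injective_iff_surjective.mpr hsurj, hsurj⟩
    let σ : Equiv.Perm Ω := Equiv.ofBijective σf hbij
    have hσapp : ∀ x, σ x = σf x := fun x => rfl
    have hconj : ∀ g : G, ((α g : G) : Equiv.Perm Ω) = σ * (g : Equiv.Perm Ω) * σ⁻¹ := by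
      intro g
      ext y
      simp only [Equiv.Perm.coe_mul, Function.comp_apply]
      rw [hσapp, ← hsmul g, hσeq, ← hσapp, Equiv.Perm.inv_def, Equiv.apply_symm_apply, hsmul]
    refine ⟨σ, ?_, hconj⟩
    rw [Subgroup.mem_normalizer_iff]
    intro h
    constructor
    · intro hh
      have := hconj ⟨h, hh⟩
      rw [← this]
      exact (α ⟨h, hh⟩).2
    · intro hh
      obtain ⟨g, hg⟩ := α.surjective ⟨σ * h * σ⁻¹, hh⟩
      have h1 := hconj g
      rw [hg] at h1
      have h2 : h = (g : Equiv.Perm Ω) := by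
        have h3 : σ * h * σ⁻¹ = σ * (g : Equiv.Perm Ω) * σ⁻¹ := h1
        have h4 := congrArg (fun t => σ⁻¹ * t * σ) h3
        simp only [mul_assoc, inv_mul_cancel_left, inv_mul_cancel, mul_one] at h4
        exact h4
      rw [h2]
      exact g.2

end Cfsg.Agent.S4275
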