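import Cfsg.Statements.S4276
import Cfsg.Agent.S4275
import Cfsg.Agent.Lib.Helper62.TwoTransAut

set_option autoImplicit false
open Cfsg

namespace Cfsg.Agent.S4276

/-- Let G be a doubly transitive group of permutations of a finite set Ω of size n, let o ∈ Ω, and let α be an automorphism of G of odd order. Suppose that the image under α of the stabilizer of o has an orbit on Ω whose length k is coprime to n. Then α is induced by conjugation by a permutation of Ω normalizing G, and k = 1 or k = n − 1. -/
theorem result {Ω : Type*} [Fintype Ω] (G : Subgroup (Equiv.Perm Ω)) (h2 : MulAction.IsMultiplyPretransitive G Ω 2) (o : Ω) (α : MulAut G) (hα : Odd (orderOf α)) (ω : Ω) (hk : (Nat.card (MulAction.orbit ((MulAction.stabilizer G o).map α.toMonoidHom) ω)).Coprime (Fintype.card Ω)) : (∃ σ : Equiv.Perm Ω, σ ∈ Subgroup.normalizer (G : Set (Equiv.Perm Ω)) ∧ ∀ g : G, ((α g : G) : Equiv.Perm Ω) = σ * (g : Equiv.Perm Ω) * σ⁻¹) ∧ (Nat.card (MulAction.orbit ((MulAction.stabilizer G o).map α.toMonoidHom) ω) = 1 ∨ Nat.card (MulAction.orbit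 ((MulAction.stabilizer G o).map α.toMonoidHom) ω) = Fintype.card Ω - 1) := by
  classical
  by_cases hcard : 2 ≤ Fintype.card Ω
  · have hkk := Cfsg.Agent.Lib.Helper62.TwoTransAut.orbit_card_eq G h2 o α hα ω hk hcard
    refine ⟨?_, hkk⟩
    have htr : MulAction.IsPretransitive G Ω := MulAction.isPretransitive_of_is_two_pretransitive
    apply (Cfsg.Agent.S4275.result G htr o α).mpr
    rcases hkk with h1 | h1
    · -- the orbit is a single point
      refine ⟨ω, fun g hg => ?_⟩
      have hsub : Subsingleton (MulAction.orbit ((MulAction.stabilizer G o).map α.toMonoidHom) ω) :=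
        (Nat.card_eq_one_iff_unique.mp h1).1
      have hmem : g • ω ∈ MulAction.orbit ((MulAction.stabilizer G o).map α.toMonoidHom) ω :=
        ⟨⟨g, hg⟩, rfl⟩
      have h := Subsingleton.elim
        (⟨g • ω, hmem⟩ : MulAction.orbit ((MulAction.stabilizer G o).map α.toMonoidHom) ω)
        ⟨ω, MulAction.mem_orbit_self ω⟩
      exact congrArg Subtype.val h
    · -- the complement of the orbit is a single point
      have hnc : (MulAction.orbit ((MulAction.stabilizer G o).map α.toMonoidHom) ω)ᶜ.ncard = 1 := by
        have h := Set.ncard_add_ncard_compl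
          (MulAction.orbit ((MulAction.stabilizer G o).map α.toMonoidHom) ω)
        rw [← Nat.card_coe_set_eq, h1, Nat.card_eq_fintype_card] at h
        omega
      obtain ⟨ω₀, hω₀⟩ := Set.ncard_eq_one.mp hnc
      have hω₀' : ω₀ ∉ MulAction.orbit ((MulAction.stabilizer G o).map α.toMonoidHom) ω := by
        have : ω₀ ∈ (MulAction.orbit ((MulAction.stabilizer G o).map α.toMonoidHom) ω)ᶜ := by
          rw [hω₀]; rfl
        exact this
      refine ⟨ω₀, fun g hg => ?_⟩
      have hmem : g • ω₀ ∈ (MulAction.orbit ((MulAction.stabilizer G o).map α.toMonoidHom) ω)ᶜ := by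
        intro hin
        apply hω₀'
        have h := MulAction.mem_orbit_of_mem_orbit
          ((⟨g, hg⟩ : (MulAction.stabilizer G o).map α.toMonoidHom)⁻¹) hin
        have e : ((⟨g, hg⟩ : (MulAction.stabilizer G o).map α.toMonoidHom)⁻¹) • (g • ω₀) = ω₀ :=
          inv_smul_smul (⟨g, hg⟩ : (MulAction.stabilizer G o).map α.toMonoidHom) ω₀
        rwa [e] at h
      rw [hω₀] at hmem
      exact hmem
  · have hsub : Subsingleton Ω := by
      rw [← Fintype.card_le_one_iff_subsingleton]; omega
    refine ⟨⟨1, Subgroup.one_mem _, fun g => Subsingleton.elim _ _⟩, Or.inl ?_⟩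
    have hne : Nonempty (MulAction.orbit ((MulAction.stabilizer G o).map α.toMonoidHom) ω) :=
      ⟨⟨ω, MulAction.mem_orbit_self ω⟩⟩
    exact Nat.card_eq_one_iff_unique.mpr ⟨inferInstance, hne⟩

end Cfsg.Agent.S4276
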