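import Cfsg.Statements.S4283
import Cfsg.Agent.Lib.Helper71.FrobKernel

set_option autoImplicit false
open Cfsg

namespace Cfsg.Agent.S4283

open Cfsg.Agent.Lib.Helper71

theorem centralizer_conj_index {G : Type*} [Group G] (x c : G) :
    (Subgroup.centralizer ({c⁻¹ * x * c} : Set G)).index = (Subgroup.centralizer ({x} : Set G)).index := by
  have : Subgroup.centralizer ({c⁻¹ * x * c} : Set G) =
      (Subgroup.centralizer ({x} : Set G)).comap (MulAut.conj c).toMonoidHom := by
    ext g
    simp only [Subgroup.mem_centralizer_iff, Set.mem_singleton_iff, forall_eq, Subgroup.mem_comap,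
      MulEquiv.coe_toMonoidHom, MulAut.conj_apply]
    constructor
    · intro h
      have e : x * (c * g * c⁻¹) = c * (c⁻¹ * x * c * g) * c⁻¹ := by group
      rw [e, h]; group
    · intro h
      have e : c⁻¹ * x * c * g = c⁻¹ * (x * (c * g * c⁻¹)) * c := by group
      rw [e, h]; group
  rw [this, Subgroup.index_comap_of_surjective _ (MulAut.conj c).surjective]

/-- Let G be a finite group with centre Z and let K, H be abelian subgroups of G containing Z such that G/Z is a Frobenius group with complement H/Z and kernel K/Z. Then the conjugacy class sizes of G are exactly 1, [G : K] and [G : H], and these two indices are coprime. (This is the converse half of the characterization of finite groups whose conjugacy class sizes are exactly 1, m and n with m and n coprime.) -/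
theorem result {G : Type*} [Group G] [Finite G] (K H : Subgroup G) (hZK : Subgroup.center G ≤ K) (hZH : Subgroup.center G ≤ H) (hK : IsMulCommutative K) (hH : IsMulCommutative H) (hFrob : Cfsg.IsFrobeniusComplement (H.map (QuotientGroup.mk' (Subgroup.center G)))) (hker : Cfsg.frobeniusKernel (H.map (QuotientGroup.mk' (Subgroup.center G))) = (K.map (QuotientGroup.mk' (Subgroup.center G)) : Set (G ⧸ Subgroup.center G))) : Set.range (fun x : G => (Subgroup.centralizer ({x} : Set G)).index) = ({1, K.index, H.index} : Set ℕ) ∧ K.index.Coprime H.index := by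
  set π := QuotientGroup.mk' (Subgroup.center G) with hπ
  have hkerπ : π.ker = Subgroup.center G := QuotientGroup.ker_mk' _
  have hmemH : ∀ x : G, π x ∈ H.map π ↔ x ∈ H := by
    intro x
    rw [← Subgroup.mem_comap, Subgroup.comap_map_eq_self (by rw [hkerπ]; exact hZH)]
  have hmemK : ∀ x : G, π x ∈ K.map π ↔ x ∈ K := by
    intro x
    rw [← Subgroup.mem_comap, Subgroup.comap_map_eq_self (by rw [hkerπ]; exact hZK)]
  have hπ1 : ∀ x : G, π x = 1 ↔ x ∈ Subgroup.center G := fun x => QuotientGroup.eq_one_iff x
  have hcommH : ∀ a ∈ H, ∀ b ∈ H, a * b = b * a := fun a ha b hb => setLike_mul_comm ha hb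
  have hcommK : ∀ a ∈ K, ∀ b ∈ K, a * b = b * a := fun a ha b hb => setLike_mul_comm ha hb
  -- centralizers of non-central elements of H
  have hCH : ∀ y ∈ H, y ∉ Subgroup.center G → Subgroup.centralizer ({y} : Set G) = H := by
    intro y hy hyZ
    apply le_antisymm
    · intro g hg
      rw [Subgroup.mem_centralizer_iff] at hg
      have hg' := hg y rfl
      rw [← hmemH]
      apply mem_of_commute_of_isFrobeniusComplement hFrob ((hmemH y).mpr hy)
        (fun h => hyZ ((hπ1 y).mp h))
      rw [← map_mul, ← map_mul, hg']
    · intro g hg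
      rw [Subgroup.mem_centralizer_iff]
      rintro _ rfl
      exact hcommH _ hy g hg
  -- centralizers of non-central elements of K
  have hCK : ∀ x ∈ K, x ∉ Subgroup.center G → Subgroup.centralizer ({x} : Set G) = K := by
    intro x hx hxZ
    apply le_antisymm
    · intro g hg
      rw [Subgroup.mem_centralizer_iff] at hg
      have hg' := hg x rfl
      by_contra hgK
      have h1 : π g ∉ K.map π := fun h => hgK ((hmemK g).mp h)
      obtain ⟨hg1, c', hc'⟩ := exists_conj_mem_of_not_mem_kernel hker h1
      obtain ⟨c, rfl⟩ := QuotientGroup.mk'_surjective (Subgroup.center G) c'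
      have ha1 : π c⁻¹ * π g * π c ≠ 1 := by
        intro h
        apply hg1
        have e : π g = π c * (π c⁻¹ * π g * π c) * (π c)⁻¹ := by rw [map_inv]; group
        rw [e, h]; group
      have hc'' : π c⁻¹ * π g * π c ∈ H.map π := by rw [map_inv]; exact hc'
      have h2 : π c⁻¹ * π x * π c ∈ H.map π := by
        apply mem_of_commute_of_isFrobeniusComplement hFrob hc'' ha1
        have e1 : π c⁻¹ * π x * π c * (π c⁻¹ * π g * π c) = π (c⁻¹ * (x * g) * c) := by
          simp only [map_mul, map_inv]; group
        have e2 : π c⁻¹ * π g * π c * (π c⁻¹ * π x * π c) = π (c⁻¹ * (g * x) * c) := by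
          simp only [map_mul, map_inv]; group
        rw [e1, e2, hg']
      have h3 := eq_one_of_mem_kernel_of_conj_mem (g := π c) hker ((hmemK x).mpr hx)
        (by rw [← map_inv]; exact h2)
      exact hxZ ((hπ1 x).mp h3)
    · intro g hg
      rw [Subgroup.mem_centralizer_iff]
      rintro _ rfl
      exact hcommK _ hx g hg
  -- elements outside K
  have hCout : ∀ x : G, x ∉ K → (Subgroup.centralizer ({x} : Set G)).index = H.index := by
    intro x hxK
    have h1 : π x ∉ K.map π := fun h => hxK ((hmemK x).mp h)
    obtain ⟨hx1, c', hc'⟩ := exists_conj_mem_of_not_mem_kernel hker h1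
    obtain ⟨c, rfl⟩ := QuotientGroup.mk'_surjective (Subgroup.center G) c'
    have h2 : c⁻¹ * x * c ∈ H := by
      rw [← hmemH]
      simpa only [map_mul, map_inv] using hc'
    have h3 : c⁻¹ * x * c ∉ Subgroup.center G := by
      intro h
      apply hx1
      rw [← hπ1] at h
      have e : π x = π c * π (c⁻¹ * x * c) * (π c)⁻¹ := by
        simp only [map_mul, map_inv]; group
      rw [e, h]; group
    rw [← centralizer_conj_index x c, hCH _ h2 h3]
  -- counting in the quotient
  have hcard : Nat.card (K.map π) = (H.map π).index := card_kernel_eq_index hker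
  have hidxH : (H.map π).index = H.index :=
    Subgroup.index_map_eq H (QuotientGroup.mk'_surjective _) (by rw [hkerπ]; exact hZH)
  have hidxK : (K.map π).index = K.index :=
    Subgroup.index_map_eq K (QuotientGroup.mk'_surjective _) (by rw [hkerπ]; exact hZK)
  rw [isFrobeniusComplement_iff] at hFrob
  obtain ⟨hHbot, hHtop, _⟩ := hFrob
  have hKbot : K.map π ≠ ⊥ := by
    intro h
    rw [Subgroup.eq_bot_iff_card, hcard, Subgroup.index_eq_one] at h
    exact hHtop h
  refine ⟨?_, ?_⟩
  · ext n
    simp only [Set.mem_range, Set.mem_insert_iff, Set.mem_singleton_iff]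
    constructor
    · rintro ⟨x, rfl⟩
      by_cases hxZ : x ∈ Subgroup.center G
      · left
        have : Subgroup.centralizer ({x} : Set G) = ⊤ := by
          rw [Subgroup.centralizer_eq_top_iff_subset]
          rintro _ rfl
          exact hxZ
        rw [this, Subgroup.index_top]
      · by_cases hxK : x ∈ K
        · right; left
          rw [hCK x hxK hxZ]
        · right; right
          exact hCout x hxK
    · rintro (rfl | rfl | rfl)
      · refine ⟨1, ?_⟩
        have : Subgroup.centralizer ({(1 : G)} : Set G) = ⊤ := by
          rw [Subgroup.centralizer_eq_top_iff_subset]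
          rintro _ rfl
          exact Subgroup.one_mem _
        rw [this, Subgroup.index_top]
      · obtain ⟨⟨b, hb⟩, hb1⟩ := Subgroup.ne_bot_iff_exists_ne_one.mp hKbot
        obtain ⟨x, hx, rfl⟩ := hb
        refine ⟨x, ?_⟩
        have hxZ : x ∉ Subgroup.center G := by
          intro h
          apply hb1
          exact Subtype.ext ((hπ1 x).mpr h)
        show (Subgroup.centralizer ({x} : Set G)).index = K.index
        rw [hCK x hx hxZ]
      · obtain ⟨⟨b, hb⟩, hb1⟩ := Subgroup.ne_bot_iff_exists_ne_one.mp hHbot
        obtain ⟨y, hy, rfl⟩ := hb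
        refine ⟨y, ?_⟩
        have hyZ : y ∉ Subgroup.center G := by
          intro h
          apply hb1
          exact Subtype.ext ((hπ1 y).mpr h)
        show (Subgroup.centralizer ({y} : Set G)).index = H.index
        rw [hCH y hy hyZ]
  · rw [← hidxK, ← hidxH, index_kernel_eq_card hker, ← hcard]
    exact coprime_card_complement_kernel (isFrobeniusComplement_iff _ |>.mpr ⟨hHbot, hHtop, by assumption⟩) hker

end Cfsg.Agent.S4283
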