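import Cfsg.Statements.S4293
import Cfsg.Agent.Lib.Helper71.Frob

set_option autoImplicit false
open Cfsg

namespace Cfsg.Agent.S4293

open Cfsg.Agent.Lib.Helper71

variable {D : Type*} [DivisionRing D]

/-- the submonoid of `D` consisting of the elements of `H` -/
def hMon (H : Subgroup Dˣ) : Submonoid D := H.toSubmonoid.map (Units.coeHom D)

/-- the subring of `D` spanned by `H` -/
def hRing (H : Subgroup Dˣ) : Subalgebra ℤ D := Algebra.adjoin ℤ (hMon H : Set D)

theorem coe_mem_hRing (H : Subgroup Dˣ) (h : H) : ((h : Dˣ) : D) ∈ hRing H :=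
  Algebra.subset_adjoin ⟨h.1, h.2, rfl⟩

theorem hRing_toSubmodule (H : Subgroup Dˣ) :
    Subalgebra.toSubmodule (hRing H) = Submodule.span ℤ (hMon H : Set D) := by
  rw [hRing, Algebra.adjoin_eq_span, Submonoid.closure_eq]

theorem hMon_finite (H : Subgroup Dˣ) [Finite H] : (hMon H : Set D).Finite := by
  have : (hMon H : Set D) = Units.coeHom D '' (H : Set Dˣ) := rfl
  rw [this]
  exact (Set.toFinite _).image _

theorem hRing_fg (H : Subgroup Dˣ) [Finite H] : (Subalgebra.toSubmodule (hRing H)).FG := by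
  rw [hRing_toSubmodule]
  exact Submodule.fg_span (hMon_finite H)

instance hRing_addGroupFG (H : Subgroup Dˣ) [Finite H] : AddGroup.FG (hRing H) := by
  rw [← Module.Finite.iff_addGroup_fg]
  have : Module.Finite ℤ (Subalgebra.toSubmodule (hRing H)) := Module.Finite.iff_fg.mpr (hRing_fg H)
  exact Module.Finite.equiv (Subalgebra.toSubmoduleEquiv (hRing H))

/-- `H` as a group of units of its ring -/
def hHom (H : Subgroup Dˣ) : H →* (hRing H)ˣ :=
  MonoidHom.toHomUnits
    { toFun := fun h => ⟨((h : Dˣ) : D), coe_mem_hRing H h⟩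
      map_one' := rfl
      map_mul' := fun _ _ => rfl }

theorem hHom_coe (H : Subgroup Dˣ) (h : H) :
    (((hHom H h : (hRing H)ˣ) : hRing H) : D) = ((h : Dˣ) : D) := rfl

theorem coe_ne_one (H : Subgroup Dˣ) (h : H) (hh : h ≠ 1) : ((h : Dˣ) : D) ≠ 1 := by
  intro h1
  apply hh
  apply Subtype.ext
  apply Units.ext
  simpa using h1

/-- positive characteristic: `H` acts without fixed points on the finite ring it spans. -/
theorem result_charP (H : Subgroup Dˣ) [Finite H] (hH : H ≠ ⊥) (p : ℕ) [Fact p.Prime] [CharP D p] :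
    ∃ (L : Type) (_ : Group L) (_ : Finite L) (C : Subgroup L),
      Cfsg.IsFrobeniusComplement C ∧ Nonempty (H ≃* C) := by
  have hnt : Nontrivial H := (Subgroup.nontrivial_iff_ne_bot H).mpr hH
  have hfin : Finite (hRing H) := by
    apply AddCommGroup.finite_of_fg_isAddTorsion
    intro r
    rw [isOfFinAddOrder_iff_nsmul_eq_zero]
    refine ⟨p, (Fact.out : p.Prime).pos, ?_⟩
    apply Subtype.ext
    simp [nsmul_eq_mul, CharP.cast_eq_zero]
  apply exists_frobeniusComplement_of_fpf_ring (hHom H)
  intro h hh r hr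
  have h1 : ((h : Dˣ) : D) * (r : D) = r := congrArg Subtype.val hr
  have h2 : (((h : Dˣ) : D) - 1) * (r : D) = 0 := by rw [sub_mul, h1, one_mul, sub_self]
  rcases mul_eq_zero.mp h2 with h3 | h3
  · exact absurd (sub_eq_zero.mp h3) (coe_ne_one H h hh)
  · exact Subtype.ext h3

/-- characteristic zero: `H` acts without fixed points on its ring modulo a large prime. -/
theorem result_char0 (H : Subgroup Dˣ) [Finite H] (hH : H ≠ ⊥) [CharZero D] :
    ∃ (L : Type) (_ : Group L) (_ : Finite L) (C : Subgroup L),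
      Cfsg.IsFrobeniusComplement C ∧ Nonempty (H ≃* C) := by
  have hnt : Nontrivial H := (Subgroup.nontrivial_iff_ne_bot H).mpr hH
  obtain ⟨p, hpge, hp⟩ := Nat.exists_infinite_primes (Nat.card H + 1)
  set I : Ideal (hRing H) := Ideal.span {(p : hRing H)} with hI
  have hpI : ∀ a : hRing H, (p : hRing H) * a ∈ I := by
    intro a
    rw [hI, Ideal.mem_span_singleton']
    exact ⟨a, (Nat.cast_comm p a).symm⟩
  have hfin : Finite (hRing H ⧸ I) := by
    have : AddGroup.FG (hRing H ⧸ I) :=
      AddGroup.fg_of_surjective (f := (Submodule.mkQ I).toAddMonoidHom) (Submodule.mkQ_surjective I)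
    apply AddCommGroup.finite_of_fg_isAddTorsion
    intro n
    obtain ⟨a, rfl⟩ := Submodule.Quotient.mk_surjective I n
    rw [isOfFinAddOrder_iff_nsmul_eq_zero]
    refine ⟨p, hp.pos, ?_⟩
    rw [← Submodule.Quotient.mk_smul, Submodule.Quotient.mk_eq_zero, nsmul_eq_mul]
    exact hpI a
  have hntN : Nontrivial (hRing H ⧸ I) := by
    rw [Submodule.Quotient.nontrivial_iff]
    intro htop
    have h1 : (1 : hRing H) ∈ I := by rw [htop]; trivial
    rw [hI, Ideal.mem_span_singleton'] at h1
    obtain ⟨b, hb⟩ := h1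
    -- Nakayama
    have hin : Subalgebra.toSubmodule (hRing H) ≤
        (Ideal.span {(p : ℤ)}) • Subalgebra.toSubmodule (hRing H) := by
      intro x hx
      have hx' : x = (p : ℤ) • (x * (b : D)) := by
        have hb' : (b : D) * (p : D) = 1 := by
          have := congrArg Subtype.val hb
          simpa using this
        rw [zsmul_eq_mul, Int.cast_natCast, Nat.cast_comm, mul_assoc, hb', mul_one]
      rw [hx']
      exact Submodule.smul_mem_smul (Ideal.mem_span_singleton_self _)
        ((hRing H).mul_mem hx b.2)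
    obtain ⟨r, hr1, hr2⟩ := Submodule.exists_sub_one_mem_and_smul_eq_zero_of_fg_of_le_smul
      (Ideal.span {(p : ℤ)}) (Subalgebra.toSubmodule (hRing H)) (hRing_fg H) hin
    have h2 := hr2 1 (hRing H).one_mem
    rw [zsmul_eq_mul, mul_one] at h2
    have h3 : r = 0 := by exact_mod_cast h2
    rw [h3, Ideal.mem_span_singleton] at hr1
    have h4 : (p : ℤ) ∣ 1 := by
      rw [zero_sub] at hr1
      exact (dvd_neg).mp hr1
    have h5 : p ∣ 1 := by exact_mod_cast h4
    exact hp.one_lt.ne' (Nat.dvd_one.mp h5)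
  apply exists_frobeniusComplement_of_fpf_module (N := hRing H ⧸ I) (hHom H)
  intro h hh n hn
  obtain ⟨a, rfl⟩ := Submodule.Quotient.mk_surjective I n
  rw [← Submodule.Quotient.mk_smul, Submodule.Quotient.eq, hI, Ideal.mem_span_singleton'] at hn
  obtain ⟨b, hb⟩ := hn
  rw [Submodule.Quotient.mk_eq_zero]
  -- notation
  set u : hRing H := ((hHom H h : (hRing H)ˣ) : hRing H) with hu
  have hu1 : u ≠ 1 := by
    intro h1
    apply coe_ne_one H h hh
    have := congrArg Subtype.val h1
    simpa [hu, hHom_coe] using this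
  set m : ℕ := orderOf h with hm
  have hmpos : 0 < m := orderOf_pos h
  have hmle : m ≤ Nat.card H := orderOf_le_card
  have hum : u ^ m = 1 := by
    have h1 : h ^ m = 1 := pow_orderOf_eq_one h
    have h2 : (hHom H h) ^ m = 1 := by rw [← map_pow, h1, map_one]
    have h3 := congrArg (fun x : (hRing H)ˣ => (x : hRing H)) h2
    simpa [hu] using h3
  -- the geometric sum vanishes
  have hgeom : (∑ i ∈ Finset.range m, u ^ i) = 0 := by
    have h1 : (∑ i ∈ Finset.range m, u ^ i) * (u - 1) = 0 := by rw [geom_sum_mul, hum, sub_self]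
    rcases mul_eq_zero.mp h1 with h2 | h2
    · exact h2
    · exact absurd (sub_eq_zero.mp h2) hu1
  set q : hRing H := ∑ i ∈ Finset.range m, ∑ j ∈ Finset.range i, u ^ j with hq
  have hq1 : q * (u - 1) = -(m : hRing H) := by
    rw [hq, Finset.sum_mul]
    have : ∀ i ∈ Finset.range m, (∑ j ∈ Finset.range i, u ^ j) * (u - 1) = u ^ i - 1 :=
      fun i _ => geom_sum_mul u i
    rw [Finset.sum_congr rfl this, Finset.sum_sub_distrib, hgeom]
    simp
  -- m * a ∈ I
  have hma : (m : hRing H) * a ∈ I := by
    have hb' : b * (p : hRing H) = u * a - a := hb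
    have h1 : q * (u - 1) * a = q * (b * (p : hRing H)) := by
      rw [hb', mul_assoc, sub_mul, one_mul]
    rw [hq1] at h1
    have h2 : (m : hRing H) * a = (-(q * b)) * (p : hRing H) := by
      have : (m : hRing H) * a = -(-(m : hRing H) * a) := by rw [neg_mul, neg_neg]
      rw [this, h1, neg_mul, mul_assoc]
    rw [h2, hI, Ideal.mem_span_singleton']
    exact ⟨_, rfl⟩
  -- m and p are coprime
  have hcop : IsCoprime (m : ℤ) (p : ℤ) := by
    rw [Nat.isCoprime_iff_coprime]
    apply Nat.Coprime.symm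
    rw [hp.coprime_iff_not_dvd]
    intro hd
    have := Nat.le_of_dvd hmpos hd
    omega
  obtain ⟨s, t, hst⟩ := hcop
  have ha : a = (s : hRing H) * ((m : hRing H) * a) + (t : hRing H) * ((p : hRing H) * a) := by
    have h1 : ((s * (m : ℤ) + t * (p : ℤ) : ℤ) : hRing H) = 1 := by rw [hst]; simp
    calc a = ((s * (m : ℤ) + t * (p : ℤ) : ℤ) : hRing H) * a := by rw [h1, one_mul]
      _ = (s : hRing H) * ((m : hRing H) * a) + (t : hRing H) * ((p : hRing H) * a) := by
        push_cast
        noncomm_ring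
  rw [ha]
  exact I.add_mem (I.mul_mem_left _ hma) (I.mul_mem_left _ (hpI a))

/-- A nontrivial finite subgroup of the multiplicative group of a division ring occurs as a Frobenius complement of some finite Frobenius group. -/
theorem result {D : Type*} [DivisionRing D] (H : Subgroup Dˣ) [Finite H] (hH : H ≠ ⊥) :
    ∃ (L : Type) (_ : Group L) (_ : Finite L) (C : Subgroup L), Cfsg.IsFrobeniusComplement C ∧ Nonempty (H ≃* C) := by
  rcases CharP.exists' D with h0 | ⟨p, hp, hc⟩
  · exact result_char0 H hH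
  · exact result_charP H hH p

end Cfsg.Agent.S4293
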