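import Cfsg.Statements.S4296
import Cfsg.Agent.Lib.Helper71.Frob2
import Cfsg.Agent.S0040

set_option autoImplicit false
open Cfsg

namespace Cfsg.Agent.S4296

open Cfsg.Agent.Lib.Helper71

theorem quat_rel1 (n : ℕ) (hn : n ≠ 0) :
    ((QuaternionGroup.a ((2 ^ (n - 1) : ℕ) : ZMod (2 * 2 ^ n)) : QuaternionGroup (2 ^ n)) *
      QuaternionGroup.a ((2 ^ (n - 1) : ℕ) : ZMod (2 * 2 ^ n))) *
    (QuaternionGroup.a ((2 ^ (n - 1) : ℕ) : ZMod (2 * 2 ^ n)) *
      QuaternionGroup.a ((2 ^ (n - 1) : ℕ) : ZMod (2 * 2 ^ n))) = 1 := by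
  rw [QuaternionGroup.a_mul_a, QuaternionGroup.a_mul_a, QuaternionGroup.one_def]
  congr 1
  have h : 2 ^ (n - 1) + 2 ^ (n - 1) + (2 ^ (n - 1) + 2 ^ (n - 1)) = 2 * 2 ^ n := by
    obtain ⟨m, rfl⟩ := Nat.exists_eq_succ_of_ne_zero hn
    simp only [Nat.succ_sub_one, pow_succ]; ring
  have h2 := congrArg (fun t : ℕ => (t : ZMod (2 * 2 ^ n))) h
  simp only [Nat.cast_add] at h2
  rw [h2]
  exact ZMod.natCast_self _

theorem quat_rel2 (n : ℕ) (hn : n ≠ 0) :
    (QuaternionGroup.xa 0 : QuaternionGroup (2 ^ n)) * QuaternionGroup.xa 0 =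
    QuaternionGroup.a ((2 ^ (n - 1) : ℕ) : ZMod (2 * 2 ^ n)) *
      QuaternionGroup.a ((2 ^ (n - 1) : ℕ) : ZMod (2 * 2 ^ n)) := by
  rw [QuaternionGroup.a_mul_a, QuaternionGroup.xa_mul_xa]
  congr 1
  have h : 2 ^ (n - 1) + 2 ^ (n - 1) = 2 ^ n := by
    obtain ⟨m, rfl⟩ := Nat.exists_eq_succ_of_ne_zero hn
    simp only [Nat.succ_sub_one, pow_succ]; ring
  have h2 := congrArg (fun t : ℕ => (t : ZMod (2 * 2 ^ n))) h
  simp only [Nat.cast_add] at h2
  rw [h2, add_zero, sub_zero]

theorem quat_rel3 (n : ℕ) :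
    (QuaternionGroup.a ((2 ^ (n - 1) : ℕ) : ZMod (2 * 2 ^ n)) : QuaternionGroup (2 ^ n)) *
      QuaternionGroup.xa 0 * QuaternionGroup.a ((2 ^ (n - 1) : ℕ) : ZMod (2 * 2 ^ n)) =
    QuaternionGroup.xa 0 := by
  rw [QuaternionGroup.a_mul_xa, QuaternionGroup.xa_mul_a]
  congr 1
  ring

theorem quat_rel4 (n : ℕ) (hn : n ≠ 0) :
    (QuaternionGroup.a ((2 ^ (n - 1) : ℕ) : ZMod (2 * 2 ^ n)) : QuaternionGroup (2 ^ n)) *
      QuaternionGroup.a ((2 ^ (n - 1) : ℕ) : ZMod (2 * 2 ^ n)) ≠ 1 := by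
  rw [QuaternionGroup.a_mul_a, QuaternionGroup.one_def]
  intro h
  have h1 := QuaternionGroup.a.inj h
  have h' : 2 ^ (n - 1) + 2 ^ (n - 1) = 2 ^ n := by
    obtain ⟨m, rfl⟩ := Nat.exists_eq_succ_of_ne_zero hn
    simp only [Nat.succ_sub_one, pow_succ]; ring
  rw [← Nat.cast_add, h', ZMod.natCast_eq_zero_iff] at h1
  have := Nat.le_of_dvd (by positivity) h1
  have : 0 < 2 ^ n := by positivity
  omega

/-- the statement, given that Sylow subgroups of Frobenius complements are cyclic or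
generalized quaternion -/
theorem result_of {L : Type*} [Group L] [Finite L]
    (h40 : ∀ (K H : Subgroup L) [K.Normal], Subgroup.IsComplement' K H → K ≠ ⊥ →
      (∀ h ∈ H, h ≠ 1 → K ⊓ Subgroup.centralizer {h} = ⊥) →
      ∀ (p : ℕ) [Fact p.Prime] (P : Sylow p H),
        IsCyclic P ∨ ∃ n : ℕ, Nonempty (P ≃* QuaternionGroup (2 ^ n)))
    (H : Subgroup L) (hF : Cfsg.IsFrobeniusComplement H)
    (hZ : ∃ (p : ℕ) (_ : Fact p.Prime) (P : Sylow p H), ¬ IsCyclic P) :
    Odd (Nat.card (Cfsg.frobeniusKernel H)) ∧ IsSquare (Nat.card (Cfsg.frobeniusKernel H)) := by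
  obtain ⟨p, hp, P, hPnc⟩ := hZ
  obtain ⟨N, hN, hNn, hcompl⟩ := Cfsg.Agent.Lib.Lead.frobenius_kernel_subgroup H hF
  have hcardN : Nat.card (Cfsg.frobeniusKernel H) = Nat.card N := by rw [← hN]; rfl
  have hcop := coprime_card_complement_kernel hF hN.symm
  have hgt : 1 < Nat.card N := by
    rw [card_kernel_eq_index hN.symm]
    have h1 : H.index ≠ 1 := by
      rw [Ne, Subgroup.index_eq_one]
      exact ((isFrobeniusComplement_iff H).mp hF).2.1
    have h0 : H.index ≠ 0 := Subgroup.index_ne_zero_of_finite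
    omega
  have hNbot : N ≠ ⊥ := by
    intro h
    rw [h, Subgroup.card_bot] at hgt
    omega
  have hfree : ∀ h ∈ H, h ≠ 1 → ∀ n ∈ N, h * n * h⁻¹ = n → n = 1 := by
    intro h hh h1 n hn hfix
    have hc : n * h = h * n := by
      nth_rewrite 1 [← hfix]; group
    have hnH : n ∈ H := mem_of_commute_of_isFrobeniusComplement hF hh h1 hc
    exact eq_one_of_mem_kernel_of_conj_mem hN.symm (g := 1) hn (by simpa using hnH)
  have hfpf : ∀ h ∈ H, h ≠ 1 → N ⊓ Subgroup.centralizer {h} = ⊥ := by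
    intro h hh h1
    rw [eq_bot_iff]
    rintro n ⟨hnN, hnC⟩
    rw [Subgroup.mem_bot]
    apply hfree h hh h1 n hnN
    have := hnC h rfl
    rw [this]; group
  rcases h40 N H hcompl hNbot hfpf p P with hcyc | ⟨n, ⟨e⟩⟩
  · exact absurd hcyc hPnc
  · have hn : n ≠ 0 := by
      rintro rfl
      apply hPnc
      have : IsCyclic (QuaternionGroup (2 ^ 0)) := QuaternionGroup.quaternionGroup_one_isCyclic
      exact isCyclic_of_surjective e.symm.toMonoidHom e.symm.surjective
    set i : L := (((e.symm (QuaternionGroup.a ((2 ^ (n - 1) : ℕ) : ZMod (2 * 2 ^ n))) :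
      (P : Subgroup H)) : H) : L) with hi
    set j : L := (((e.symm (QuaternionGroup.xa 0) : (P : Subgroup H)) : H) : L) with hj
    have tr : ∀ x y : QuaternionGroup (2 ^ n), (((e.symm (x * y) : (P : Subgroup H)) : H) : L) =
        (((e.symm x : (P : Subgroup H)) : H) : L) * (((e.symm y : (P : Subgroup H)) : H) : L) := by
      intro x y; rw [map_mul]; rfl
    have tr1 : (((e.symm 1 : (P : Subgroup H)) : H) : L) = 1 := by rw [map_one]; rfl
    have hz : (i * i) * (i * i) = 1 := by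
      have := congrArg (fun q => (((e.symm q : (P : Subgroup H)) : H) : L)) (quat_rel1 n hn)
      simpa only [tr, tr1] using this
    have hjj : j * j = i * i := by
      have := congrArg (fun q => (((e.symm q : (P : Subgroup H)) : H) : L)) (quat_rel2 n hn)
      simpa only [tr] using this
    have hiji : i * j * i = j := by
      have := congrArg (fun q => (((e.symm q : (P : Subgroup H)) : H) : L)) (quat_rel3 n)
      simpa only [tr] using this
    have hij : j * i * j⁻¹ = i⁻¹ := by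
      calc j * i * j⁻¹ = i⁻¹ * (i * j * i) * j⁻¹ := by group
        _ = i⁻¹ := by rw [hiji]; group
    have hiH : i ∈ H := (e.symm _ : (P : Subgroup H)).1.2
    have hzH : i * i ∈ H := H.mul_mem hiH hiH
    have hz1 : i * i ≠ 1 := by
      intro h
      apply quat_rel4 n hn
      apply e.symm.injective
      apply Subtype.ext
      apply Subtype.ext
      rw [tr, tr1]
      exact h
    have hodd : Odd (Nat.card N) := by
      have h2 : 2 ∣ Nat.card H := by
        have ho : orderOf (⟨i * i, hzH⟩ : H) = 2 := by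
          apply orderOf_eq_prime
          · apply Subtype.ext
            rw [pow_two]
            exact hz
          · intro h
            exact hz1 (congrArg Subtype.val h)
        rw [← ho]
        exact orderOf_dvd_natCard _
      exact (Nat.Coprime.coprime_dvd_left h2 hcop).odd_of_left
    rw [hcardN]
    exact ⟨hodd, isSquare_card_of_quat_conj N i j hodd hz hjj hij
      (fun n hn hfix => hfree (i * i) hzH hz1 n hn hfix)⟩

/-- Let H be a Frobenius complement in a finite group, and suppose some Sylow subgroup of H is not cyclic. Then the number of elements of the Frobenius kernel (the identity together with the elements lying in no conjugate of H) is an odd perfect square. -/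
theorem result {L : Type*} [Group L] [Finite L] (H : Subgroup L) (hF : Cfsg.IsFrobeniusComplement H)
    (hZ : ∃ (p : ℕ) (_ : Fact p.Prime) (P : Sylow p H), ¬ IsCyclic P) :
    Odd (Nat.card (Cfsg.frobeniusKernel H)) ∧ IsSquare (Nat.card (Cfsg.frobeniusKernel H)) :=
  result_of (fun K H _ hc hK hfpf p _ P => Cfsg.Agent.S0040.result K H hc hK hfpf p P) H hF hZ

end Cfsg.Agent.S4296
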