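import Cfsg.Statements.S4297
import Cfsg.Agent.Lib.Helper71.Frob

set_option autoImplicit false
open Cfsg

namespace Cfsg.Agent.S4297

open Cfsg.Agent.Lib.Helper71

/-- a character of `ZMod m` from an element of order dividing `m`. -/
theorem exists_zmod_char {U : Type*} [Group U] (m : ℕ) (ζ : U) (hζ : ζ ^ m = 1) :
    ∃ χ : ZMod m → U, (∀ i j, χ (i + j) = χ i * χ j) ∧ (∀ k : ℕ, χ (k : ZMod m) = ζ ^ k) := by
  let f : ℤ →+ Additive U := zmultiplesHom (Additive U) (Additive.ofMul ζ)
  have hf : f m = 0 := by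
    simp only [f, zmultiplesHom_apply, natCast_zsmul]
    rw [← ofMul_pow, hζ]; rfl
  refine ⟨fun i => (ZMod.lift m ⟨f, hf⟩ i).toMul, ?_, ?_⟩
  · intro i j
    simp only [map_add]
    rfl
  · intro k
    have : ((k : ℤ) : ZMod m) = (k : ZMod m) := by simp
    show (ZMod.lift m ⟨f, hf⟩ (k : ZMod m)).toMul = ζ ^ k
    rw [← this, ZMod.lift_coe]
    simp only [f, zmultiplesHom_apply, natCast_zsmul]
    rw [← ofMul_pow]; rfl

/-- the two-dimensional matrix model of the dicyclic group -/
def mat {F : Type*} [Field F] {n : ℕ} (c : ZMod (2 * n) → F) :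
    QuaternionGroup n → Matrix (Fin 2) (Fin 2) F
  | QuaternionGroup.a i => !![c i, 0; 0, c (-i)]
  | QuaternionGroup.xa i => !![0, c (-i); -c i, 0]

theorem mat2_eq {F : Type*} {a b c d a' b' c' d' : F} (h1 : a = a') (h2 : b = b') (h3 : c = c')
    (h4 : d = d') : !![a, b; c, d] = !![a', b'; c', d'] := by
  subst h1 h2 h3 h4; rfl

theorem mat_mul {F : Type*} [Field F] {n : ℕ} (c : ZMod (2 * n) → F)
    (hadd : ∀ i j, c (i + j) = c i * c j) (hn : c (n : ZMod (2 * n)) = -1)
    (hn' : c (-(n : ZMod (2 * n))) = -1)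
    (x y : QuaternionGroup n) : mat c (x * y) = mat c x * mat c y := by
  rcases x with i | i <;> rcases y with j | j
  · rw [QuaternionGroup.a_mul_a]
    simp only [mat, Matrix.mul_fin_two, mul_zero, zero_mul, add_zero, zero_add]
    exact mat2_eq (hadd i j) rfl rfl (by rw [neg_add, hadd])
  · rw [QuaternionGroup.a_mul_xa]
    simp only [mat, Matrix.mul_fin_two, mul_zero, zero_mul, add_zero, zero_add]
    refine mat2_eq rfl ?_ ?_ rfl
    · rw [← hadd]; congr 1; ring
    · rw [mul_neg, ← hadd]; congr 2; ring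
  · rw [QuaternionGroup.xa_mul_a]
    simp only [mat, Matrix.mul_fin_two, mul_zero, zero_mul, add_zero, zero_add]
    refine mat2_eq rfl ?_ ?_ rfl
    · rw [← hadd]; congr 1; ring
    · rw [neg_mul, ← hadd]
  · rw [QuaternionGroup.xa_mul_xa]
    simp only [mat, Matrix.mul_fin_two, mul_zero, zero_mul, add_zero, zero_add]
    refine mat2_eq ?_ rfl rfl ?_
    · rw [mul_neg, ← hadd, add_sub_assoc, hadd, hn, neg_one_mul]; congr 2; ring
    · rw [neg_mul, ← hadd, show -((n : ZMod (2 * n)) + j - i) = -(n : ZMod (2 * n)) + (i + -j) by ring,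
        hadd, hn', neg_one_mul]

/-- For every n ≥ 2 the dicyclic group of order 4n (generated by an element a of order 2n and an element x with x² = aⁿ and x a x⁻¹ = a⁻¹) occurs as a Frobenius complement of some finite Frobenius group. -/
theorem result (n : ℕ) (hn : 2 ≤ n) :
    ∃ (L : Type) (_ : Group L) (_ : Finite L) (H : Subgroup L), Cfsg.IsFrobeniusComplement H ∧ Nonempty (H ≃* QuaternionGroup n) := by
  obtain ⟨p, hp, hp2, ζ, hζ⟩ := exists_prime_unit_orderOf (2 * n) (by omega) 2
  have : Fact p.Prime := ⟨hp⟩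
  have : NeZero n := ⟨by omega⟩
  have : NeZero (2 * n) := ⟨by omega⟩
  obtain ⟨χ, hχadd, hχpow⟩ := exists_zmod_char (2 * n) ζ (by rw [← hζ]; exact pow_orderOf_eq_one ζ)
  have hχ0 : χ 0 = 1 := by
    have := hχpow 0
    simpa using this
  have hχinj : ∀ i, χ i = 1 → i = 0 := by
    intro i hi
    have h1 := hχpow i.val
    rw [ZMod.natCast_zmod_val, hi] at h1
    have h2 := orderOf_dvd_of_pow_eq_one h1.symm
    rw [hζ] at h2
    have h3 : i.val < 2 * n := ZMod.val_lt i
    have h4 : i.val = 0 := Nat.eq_zero_of_dvd_of_lt h2 h3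
    exact (ZMod.val_eq_zero i).mp h4
  have hζn : ((ζ ^ n : (ZMod p)ˣ) : ZMod p) = -1 := by
    have hsq : (ζ ^ n) * (ζ ^ n) = 1 := by
      rw [← pow_add, ← two_mul, ← hζ]; exact pow_orderOf_eq_one ζ
    have hne : ζ ^ n ≠ 1 := by
      intro h
      have h1 := orderOf_dvd_of_pow_eq_one h
      rw [hζ] at h1
      have := Nat.le_of_dvd (by omega) h1
      omega
    have h1 : ((ζ ^ n : (ZMod p)ˣ) : ZMod p) * ((ζ ^ n : (ZMod p)ˣ) : ZMod p) = 1 := by
      rw [← Units.val_mul, hsq]; rfl
    rcases mul_self_eq_one_iff.mp h1 with h2 | h2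
    · exact absurd (Units.ext h2) hne
    · exact h2
  -- the scalar-valued character
  set c : ZMod (2 * n) → ZMod p := fun i => (χ i : ZMod p) with hc
  have hadd : ∀ i j, c (i + j) = c i * c j := by
    intro i j
    simp only [hc, hχadd, Units.val_mul]
  have hc0 : c 0 = 1 := by simp only [hc, hχ0, Units.val_one]
  have hcn : c (n : ZMod (2 * n)) = -1 := by
    simp only [hc]; rw [hχpow n]; exact hζn
  have hcn' : c (-(n : ZMod (2 * n))) = -1 := by
    have h1 : c (n : ZMod (2 * n)) * c (-(n : ZMod (2 * n))) = 1 := by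
      rw [← hadd, add_neg_cancel, hc0]
    rw [hcn] at h1
    have : c (-(n : ZMod (2 * n))) = -(-1 * c (-(n : ZMod (2 * n)))) := by ring
    rw [this, h1]
  have hc1 : ∀ i, c i = 1 → i = 0 := by
    intro i hi
    apply hχinj
    exact Units.ext hi
  have h2ne : (2 : ZMod p) ≠ 0 := by
    intro h
    have h1 : ((2 : ℕ) : ZMod p) = 0 := by exact_mod_cast h
    rw [ZMod.natCast_eq_zero_iff] at h1
    have := Nat.le_of_dvd (by norm_num) h1
    omega
  let f : QuaternionGroup n →* Matrix (Fin 2) (Fin 2) (ZMod p) :=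
    { toFun := mat c
      map_one' := by
        rw [QuaternionGroup.one_def]
        simp only [mat, neg_zero, hc0]
        exact Matrix.one_fin_two.symm
      map_mul' := mat_mul c hadd hcn hcn' }
  have hf : ∀ g, (f.toHomUnits g : Matrix (Fin 2) (Fin 2) (ZMod p)) = mat c g := fun g => rfl
  have hfpf : ∀ g : QuaternionGroup n, g ≠ 1 → ∀ r : Matrix (Fin 2) (Fin 2) (ZMod p),
      (f.toHomUnits g : Matrix (Fin 2) (Fin 2) (ZMod p)) * r = r → r = 0 := by
    intro g hg r hr
    rw [hf] at hr
    rcases g with i | i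
    · have hi : i ≠ 0 := by
        rintro rfl
        exact hg rfl
      have hci : c i ≠ 1 := fun h => hi (hc1 i h)
      have hci' : c (-i) ≠ 1 := fun h => hi (neg_eq_zero.mp (hc1 _ h))
      have h0 : ∀ l, r 0 l = 0 := by
        intro l
        have := congrFun (congrFun hr 0) l
        simp only [mat, Matrix.mul_apply, Fin.sum_univ_two, Matrix.of_apply, Matrix.cons_val_zero,
          Matrix.cons_val_one, zero_mul, add_zero] at this
        have h3 : (c i - 1) * r 0 l = 0 := by rw [sub_mul, this, one_mul, sub_self]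
        rcases mul_eq_zero.mp h3 with h4 | h4
        · exact absurd (sub_eq_zero.mp h4) hci
        · exact h4
      have h1 : ∀ l, r 1 l = 0 := by
        intro l
        have := congrFun (congrFun hr 1) l
        simp only [mat, Matrix.mul_apply, Fin.sum_univ_two, Matrix.of_apply, Matrix.cons_val_zero,
          Matrix.cons_val_one, zero_mul, zero_add] at this
        have h3 : (c (-i) - 1) * r 1 l = 0 := by rw [sub_mul, this, one_mul, sub_self]
        rcases mul_eq_zero.mp h3 with h4 | h4
        · exact absurd (sub_eq_zero.mp h4) hci'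
        · exact h4
      ext k l
      fin_cases k
      · exact h0 l
      · exact h1 l
    · have hcc : c (-i) * c i = 1 := by rw [← hadd, neg_add_cancel, hc0]
      have h0 : ∀ l, r 0 l = 0 := by
        intro l
        have e0 := congrFun (congrFun hr 0) l
        have e1 := congrFun (congrFun hr 1) l
        simp only [mat, Matrix.mul_apply, Fin.sum_univ_two, Matrix.of_apply, Matrix.cons_val_zero,
          Matrix.cons_val_one, zero_mul, zero_add, add_zero] at e0 e1
        have h3 : (2 : ZMod p) * r 0 l = 0 := by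
          have : r 0 l = -(r 0 l) := by
            conv_lhs => rw [← e0, ← e1]
            rw [← mul_assoc, mul_neg, hcc, neg_one_mul]
          linear_combination this
        rcases mul_eq_zero.mp h3 with h4 | h4
        · exact absurd h4 h2ne
        · exact h4
      have h1 : ∀ l, r 1 l = 0 := by
        intro l
        have e1 := congrFun (congrFun hr 1) l
        simp only [mat, Matrix.mul_apply, Fin.sum_univ_two, Matrix.of_apply, Matrix.cons_val_zero,
          Matrix.cons_val_one, zero_mul, add_zero] at e1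
        rw [← e1, h0 l, mul_zero]
      ext k l
      fin_cases k
      · exact h0 l
      · exact h1 l
  obtain ⟨L, hL1, hL2, C, hC, ⟨e⟩⟩ := exists_frobeniusComplement_of_fpf_ring f.toHomUnits hfpf
  exact ⟨L, hL1, hL2, C, hC, ⟨e.symm⟩⟩

end Cfsg.Agent.S4297
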