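import Cfsg.Statements.S4298
import Cfsg.Agent.Lib.Helper71.Frob

set_option autoImplicit false
open Cfsg

namespace Cfsg.Agent.S4298

open Cfsg.Agent.Lib.Helper71

/-- lookup table of an embedding of SL(2,3) into SL(2,5), indexed by a + 3b + 9c + 27d -/
def tbl : List (ZMod 5 × ZMod 5 × ZMod 5 × ZMod 5) :=
  [
   (1, 0, 0, 1), (1, 0, 0, 1), (1, 0, 0, 1), (1, 0, 0, 1), (1, 0, 0, 1), (1, 0, 0, 1), (1, 0, 0, 1), (1, 0, 0, 1), (1, 0, 0, 1),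
   (1, 0, 0, 1), (1, 0, 0, 1), (1, 0, 0, 1), (1, 0, 0, 1), (1, 0, 0, 1), (1, 0, 0, 1), (0, 1, 4, 0), (4, 1, 2, 2), (1, 3, 4, 3),
   (1, 0, 0, 1), (1, 0, 0, 1), (1, 0, 0, 1), (0, 4, 1, 0), (4, 2, 1, 2), (1, 4, 3, 3), (1, 0, 0, 1), (1, 0, 0, 1), (1, 0, 0, 1),
   (1, 0, 0, 1), (1, 0, 0, 1), (1, 0, 0, 1), (1, 0, 0, 1), (1, 1, 2, 3), (1, 0, 0, 1), (1, 0, 0, 1), (3, 4, 3, 1), (1, 0, 0, 1),
   (1, 0, 0, 1), (1, 2, 1, 3), (1, 0, 0, 1), (1, 0, 0, 1), (1, 0, 0, 1), (2, 0, 0, 3), (2, 3, 4, 4), (1, 0, 0, 1), (1, 0, 0, 1),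
   (1, 0, 0, 1), (3, 3, 4, 1), (1, 0, 0, 1), (2, 4, 3, 4), (1, 0, 0, 1), (1, 0, 0, 1), (1, 0, 0, 1), (1, 0, 0, 1), (0, 3, 3, 0),
   (1, 0, 0, 1), (1, 0, 0, 1), (4, 0, 0, 4), (1, 0, 0, 1), (1, 0, 0, 1), (2, 1, 2, 4), (1, 0, 0, 1), (1, 0, 0, 1), (4, 4, 3, 2),
   (1, 0, 0, 1), (1, 0, 0, 1), (2, 2, 1, 4), (1, 0, 0, 1), (0, 2, 2, 0), (1, 0, 0, 1), (3, 1, 2, 1), (1, 0, 0, 1), (1, 0, 0, 1),
   (1, 0, 0, 1), (1, 0, 0, 1), (4, 3, 4, 2), (3, 2, 1, 1), (1, 0, 0, 1), (1, 0, 0, 1), (1, 0, 0, 1), (3, 0, 0, 2), (1, 0, 0, 1)]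

def T (a b c d : ZMod 3) : ZMod 5 × ZMod 5 × ZMod 5 × ZMod 5 :=
  tbl.getD (a.val + 3 * b.val + 9 * c.val + 27 * d.val) (1, 0, 0, 1)

def mulT (x y : ZMod 5 × ZMod 5 × ZMod 5 × ZMod 5) : ZMod 5 × ZMod 5 × ZMod 5 × ZMod 5 :=
  (x.1 * y.1 + x.2.1 * y.2.2.1, x.1 * y.2.1 + x.2.1 * y.2.2.2,
   x.2.2.1 * y.1 + x.2.2.2 * y.2.2.1, x.2.2.1 * y.2.1 + x.2.2.2 * y.2.2.2)

set_option maxRecDepth 100000 in
theorem T_mul : ∀ a b c d a' b' c' d' : ZMod 3, a * d - b * c = 1 → a' * d' - b' * c' = 1 →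
    T (a * a' + b * c') (a * b' + b * d') (c * a' + d * c') (c * b' + d * d') =
      mulT (T a b c d) (T a' b' c' d') := by
  decide +kernel

set_option maxRecDepth 100000 in
theorem T_fpf : ∀ a b c d : ZMod 3, a * d - b * c = 1 → ¬ (a = 1 ∧ b = 0 ∧ c = 0 ∧ d = 1) →
    ((T a b c d).1 - 1) * ((T a b c d).2.2.2 - 1) - (T a b c d).2.1 * (T a b c d).2.2.1 ≠ 0 := by
  decide +kernel

def toMat (x : ZMod 5 × ZMod 5 × ZMod 5 × ZMod 5) : Matrix (Fin 2) (Fin 2) (ZMod 5) :=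
  !![x.1, x.2.1; x.2.2.1, x.2.2.2]

theorem toMat_mulT (x y : ZMod 5 × ZMod 5 × ZMod 5 × ZMod 5) :
    toMat (mulT x y) = toMat x * toMat y := by
  simp only [toMat, mulT, Matrix.mul_fin_two]

def f (g : Matrix.SpecialLinearGroup (Fin 2) (ZMod 3)) : Matrix (Fin 2) (Fin 2) (ZMod 5) :=
  toMat (T (g 0 0) (g 0 1) (g 1 0) (g 1 1))

theorem f_mul (g h : Matrix.SpecialLinearGroup (Fin 2) (ZMod 3)) : f (g * h) = f g * f h := by
  have hg : g 0 0 * g 1 1 - g 0 1 * g 1 0 = 1 := by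
    have := g.det_coe
    rwa [Matrix.det_fin_two] at this
  have hh : h 0 0 * h 1 1 - h 0 1 * h 1 0 = 1 := by
    have := h.det_coe
    rwa [Matrix.det_fin_two] at this
  unfold f
  rw [← toMat_mulT, ← T_mul _ _ _ _ _ _ _ _ hg hh]
  simp only [Matrix.SpecialLinearGroup.coe_mul, Matrix.mul_apply, Fin.sum_univ_two]

theorem f_one : f 1 = 1 := by
  have h : T 1 0 0 1 = (1, 0, 0, 1) := by decide +kernel
  unfold f
  simp only [Matrix.SpecialLinearGroup.coe_one, Matrix.one_apply_eq, ne_eq, zero_ne_one,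
    not_false_eq_true, Matrix.one_apply_ne, one_ne_zero]
  rw [h]
  exact Matrix.one_fin_two.symm

/-- The group SL(2,3) of order 24 (the binary tetrahedral group) occurs as a Frobenius complement of some finite Frobenius group. -/
theorem result :
    ∃ (L : Type) (_ : Group L) (_ : Finite L) (H : Subgroup L), Cfsg.IsFrobeniusComplement H ∧ Nonempty (H ≃* Matrix.SpecialLinearGroup (Fin 2) (ZMod 3)) := by
  have : Fact (Nat.Prime 5) := ⟨by norm_num⟩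
  have : Fact (1 < 3) := ⟨by norm_num⟩
  let φ : Matrix.SpecialLinearGroup (Fin 2) (ZMod 3) →* Matrix (Fin 2) (Fin 2) (ZMod 5) :=
    { toFun := f
      map_one' := f_one
      map_mul' := f_mul }
  have hφ : ∀ g, (φ.toHomUnits g : Matrix (Fin 2) (Fin 2) (ZMod 5)) = f g := fun g => rfl
  have : Nontrivial (Matrix.SpecialLinearGroup (Fin 2) (ZMod 3)) := by
    refine ⟨⟨1, ⟨!![1, 1; 0, 1], by rw [Matrix.det_fin_two_of]; decide⟩, ?_⟩⟩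
    intro h
    have h1 := congrArg (fun g : Matrix.SpecialLinearGroup (Fin 2) (ZMod 3) => g 0 1) h
    revert h1
    simp
  have hfpf : ∀ g : Matrix.SpecialLinearGroup (Fin 2) (ZMod 3), g ≠ 1 →
      ∀ r : Matrix (Fin 2) (Fin 2) (ZMod 5),
      (φ.toHomUnits g : Matrix (Fin 2) (Fin 2) (ZMod 5)) * r = r → r = 0 := by
    intro g hg r hr
    rw [hφ] at hr
    have hdet : g 0 0 * g 1 1 - g 0 1 * g 1 0 = 1 := by
      have := g.det_coe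
      rwa [Matrix.det_fin_two] at this
    have hne : ¬ (g 0 0 = 1 ∧ g 0 1 = 0 ∧ g 1 0 = 0 ∧ g 1 1 = 1) := by
      rintro ⟨h1, h2, h3, h4⟩
      apply hg
      ext i j
      fin_cases i <;> fin_cases j <;> simp [h1, h2, h3, h4]
    have h := T_fpf _ _ _ _ hdet hne
    have hN : (f g - 1).det ≠ 0 := by
      unfold f toMat
      rw [Matrix.one_fin_two, Matrix.det_fin_two]
      simpa using h
    have hu : IsUnit (f g - 1).det := hN.isUnit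
    have h0 : (f g - 1) * r = 0 := by rw [sub_mul, one_mul, hr, sub_self]
    calc r = (f g - 1)⁻¹ * ((f g - 1) * r) := by
          rw [← mul_assoc, Matrix.nonsing_inv_mul _ hu, one_mul]
      _ = 0 := by rw [h0, mul_zero]
  obtain ⟨L, i1, i2, C, hC, ⟨e⟩⟩ := exists_frobeniusComplement_of_fpf_ring φ.toHomUnits hfpf
  exact ⟨L, i1, i2, C, hC, ⟨e.symm⟩⟩

end Cfsg.Agent.S4298
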