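import Cfsg.Statements.S4299
import Cfsg.Agent.Lib.Helper71.Frob

set_option autoImplicit false
open Cfsg

namespace Cfsg.Agent.S4299

open Cfsg.Agent.Lib.Helper71

/-- Every nontrivial finite cyclic group occurs as a Frobenius complement of some finite Frobenius group. -/
theorem result {C : Type*} [Group C] [Finite C] [IsCyclic C] [Nontrivial C] :
    ∃ (L : Type) (_ : Group L) (_ : Finite L) (H : Subgroup L), Cfsg.IsFrobeniusComplement H ∧ Nonempty (C ≃* H) := by
  obtain ⟨p, hp, _, ζ, hζ⟩ := exists_prime_unit_orderOf (Nat.card C) (Nat.card_pos (α := C)).ne' 0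
  have : Fact p.Prime := ⟨hp⟩
  have hcard : Nat.card C = Nat.card (Subgroup.zpowers ζ) := by rw [Nat.card_zpowers, hζ]
  let e : C ≃* Subgroup.zpowers ζ := mulEquivOfCyclicCardEq hcard
  let ψ : C →* (ZMod p)ˣ := (Subgroup.zpowers ζ).subtype.comp e.toMonoidHom
  have hψ : Function.Injective ψ := (Subgroup.subtype_injective _).comp e.injective
  apply exists_frobeniusComplement_of_fpf_ring ψ
  intro c hc r hr
  have h1 : ((ψ c : ZMod p) - 1) * r = 0 := by rw [sub_mul, hr, one_mul, sub_self]
  rcases mul_eq_zero.mp h1 with h2 | h2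
  · exfalso
    apply hc
    apply hψ
    rw [map_one]
    exact Units.ext (sub_eq_zero.mp h2)
  · exact h2

end Cfsg.Agent.S4299
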