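import Cfsg.Statements.S4300

set_option autoImplicit false
open Cfsg

namespace Cfsg.Agent.S4300

/-- Let G act faithfully and primitively on a set X, and suppose the stabilizer of some point is a simple group. Then either G is simple, or G has a normal subgroup, neither trivial nor the whole group, that acts regularly on X (transitively with trivial point stabilizers). -/
theorem result {G : Type*} [Group G] {X : Type*} [MulAction G X] [FaithfulSMul G X]
    (hprim : MulAction.IsPreprimitive G X) (x : X) (hsimple : IsSimpleGroup (MulAction.stabilizer G x)) :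
    IsSimpleGroup G ∨ ∃ N : Subgroup G, N.Normal ∧ N ≠ ⊥ ∧ N ≠ ⊤ ∧
      MulAction.IsPretransitive N X ∧ ∀ y : X, MulAction.stabilizer N y = ⊥ := by
  have hntS : Nontrivial (MulAction.stabilizer G x) := hsimple.toNontrivial
  have hntG : Nontrivial G := by
    obtain ⟨a, b, hab⟩ := hntS
    exact ⟨a.1, b.1, fun h => hab (Subtype.ext h)⟩
  have hntX : Nontrivial X := by
    by_contra hX
    rw [not_nontrivial_iff_subsingleton] at hX
    obtain ⟨a, b, hab⟩ := hntG
    exact hab (FaithfulSMul.eq_of_smul_eq_smul (α := X) fun y => Subsingleton.elim _ _)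
  by_cases hG : IsSimpleGroup G
  · exact Or.inl hG
  · right
    have : ∃ N : Subgroup G, N.Normal ∧ N ≠ ⊥ ∧ N ≠ ⊤ := by
      by_contra hcon
      apply hG
      refine ⟨fun H hH => ?_⟩
      by_contra h2
      push Not at h2
      exact hcon ⟨H, hH, h2.1, h2.2⟩
    obtain ⟨N, hN, hNbot, hNtop⟩ := this
    have htrans : MulAction.IsPretransitive N X := by
      apply MulAction.IsQuasiPreprimitive.isPretransitive_of_normal
      intro hfix
      apply hNbot
      rw [eq_bot_iff]
      intro n hn
      rw [Subgroup.mem_bot]
      apply FaithfulSMul.eq_of_smul_eq_smul (α := X)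
      intro y
      have hy : y ∈ MulAction.fixedPoints N X := by rw [hfix]; trivial
      have := hy ⟨n, hn⟩
      rw [one_smul]
      exact this
    refine ⟨N, hN, hNbot, hNtop, htrans, ?_⟩
    have hnorm : (N.subgroupOf (MulAction.stabilizer G x)).Normal := hN.subgroupOf _
    have hdisj : N ⊓ MulAction.stabilizer G x = ⊥ := by
      rcases hsimple.eq_bot_or_eq_top_of_normal _ hnorm with h | h
      · rw [Subgroup.subgroupOf_eq_bot] at h
        exact disjoint_iff.mp h
      · exfalso
        rw [Subgroup.subgroupOf_eq_top] at h
        have hco := MulAction.IsPreprimitive.isCoatom_stabilizer_of_isPreprimitive (G := G) x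
        have hNeq : N = MulAction.stabilizer G x := by
          rcases eq_or_lt_of_le h with h' | h'
          · exact h'.symm
          · exact absurd (hco.2 N h') hNtop
        -- N fixes x but is transitive
        obtain ⟨y, hy⟩ := exists_ne x
        obtain ⟨n, hn⟩ := htrans.exists_smul_eq x y
        have : (n : G) ∈ MulAction.stabilizer G x := by rw [← hNeq]; exact n.2
        rw [MulAction.mem_stabilizer_iff] at this
        apply hy
        rw [← hn]
        exact this
    intro y
    rw [eq_bot_iff]
    intro n hn
    rw [Subgroup.mem_bot]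
    rw [MulAction.mem_stabilizer_iff] at hn
    obtain ⟨g, hg⟩ := MulAction.exists_smul_eq G x y
    have h1 : g⁻¹ * (n : G) * g ∈ N ⊓ MulAction.stabilizer G x := by
      rw [Subgroup.mem_inf]
      refine ⟨?_, ?_⟩
      · have := hN.conj_mem (n : G) n.2 g⁻¹
        simpa using this
      · rw [MulAction.mem_stabilizer_iff, mul_smul, mul_smul, hg]
        have : (n : G) • y = y := hn
        rw [this, ← hg, inv_smul_smul]
    rw [hdisj, Subgroup.mem_bot] at h1
    have h2 : (n : G) = 1 := by
      have e : (n : G) = g * (g⁻¹ * (n : G) * g) * g⁻¹ := by group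
      rw [e, h1]; group
    exact Subtype.ext h2

end Cfsg.Agent.S4300
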