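import Mathlib
import Cfsg.Statements.S4301

set_option autoImplicit false
open Cfsg

namespace Cfsg.Agent.S4301

/-- One-point extension of a multiply transitive group. Let X be a set and G a group of permutations of Option X (the set X with one extra point ∗ = none) all of whose elements fix ∗, such that G is k-transitive on the points of X for some k ≥ 2, X having at least k points. Suppose a permutation h of Option X and an element g of G satisfy: h interchanges ∗ with a point x of X and fixes a point y of X; g interchanges x and y; (g h)³ and h² lie in G; and for every f in G fixing x, the product h f h lies in G and fixes x. Then an element of the group generated by G and h fixes ∗ exactly when it lies in G, and that group acts (k+1)-transitively on Option X. -/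
theorem result {X : Type*} (G : Subgroup (Equiv.Perm (Option X))) (hfix : ∀ f ∈ G, f none = none)
    (k : ℕ) (hk : 2 ≤ k) (hkX : Nonempty (Fin k ↪ X))
    (htrans : ∀ a b : Fin k ↪ X, ∃ f ∈ G, ∀ i, f (some (a i)) = some (b i))
    (h g : Equiv.Perm (Option X)) (hg : g ∈ G) (x y : X)
    (h1 : h none = some x) (h2 : h (some x) = none) (h3 : h (some y) = some y)
    (h4 : g (some x) = some y) (h5 : g (some y) = some x)
    (h6 : (g * h) ^ 3 ∈ G) (h7 : h ^ 2 ∈ G)
    (h8 : ∀ f ∈ G, f (some x) = some x → h * f * h ∈ G ∧ (h * f * h) (some x) = some x) :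
    (∀ f ∈ Subgroup.closure ((G : Set (Equiv.Perm (Option X))) ∪ {h}), f none = none ↔ f ∈ G) ∧
      MulAction.IsMultiplyPretransitive (Subgroup.closure ((G : Set (Equiv.Perm (Option X))) ∪ {h})) (Option X) (k + 1) := by
  classical
  have hk1 : 0 < k := by omega
  have hxy : x ≠ y := by
    intro hxy
    rw [hxy] at h2
    rw [h2] at h3
    exact Option.some_ne_none y h3.symm
  have hsome : ∀ f ∈ G, ∀ w : X, ∃ w', f (some w) = some w' := by
    intro f hf w
    have hne : f (some w) ≠ none := by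
      intro h'
      have := f.injective (h'.trans (hfix f hf).symm)
      exact Option.some_ne_none w this
    exact Option.ne_none_iff_exists'.mp hne
  obtain ⟨a0⟩ := hkX
  have E1 : ∀ w : X, ∃ a : Fin k ↪ X, a ⟨0, hk1⟩ = w := by
    intro w
    refine ⟨a0.trans (Equiv.swap (a0 ⟨0, hk1⟩) w).toEmbedding, ?_⟩
    simp
  have E2 : ∀ w1 w2 : X, w1 ≠ w2 → ∃ a : Fin k ↪ X, a ⟨0, hk1⟩ = w1 ∧ a ⟨1, hk⟩ = w2 := by
    intro w1 w2 hne
    obtain ⟨a1, ha1⟩ := E1 w1
    refine ⟨a1.trans (Equiv.swap (a1 ⟨1, hk⟩) w2).toEmbedding, ?_, ?_⟩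
    · simp only [Function.Embedding.trans_apply, Equiv.coe_toEmbedding]
      rw [ha1]
      apply Equiv.swap_apply_of_ne_of_ne
      · intro h'
        have := a1.injective (ha1.trans h')
        simp [Fin.ext_iff] at this
      · exact hne
    · simp
  have Tr1 : ∀ w1 w2 : X, ∃ f ∈ G, f (some w1) = some w2 := by
    intro w1 w2
    obtain ⟨a, ha⟩ := E1 w1
    obtain ⟨b, hb⟩ := E1 w2
    obtain ⟨f, hf, hfab⟩ := htrans a b
    exact ⟨f, hf, by rw [← ha, ← hb]; exact hfab _⟩
  have Tr2 : ∀ w : X, w ≠ x → ∃ f ∈ G, f (some x) = some x ∧ f (some y) = some w := by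
    intro w hw
    obtain ⟨a, ha0, ha1⟩ := E2 x y hxy
    obtain ⟨b, hb0, hb1⟩ := E2 x w (Ne.symm hw)
    obtain ⟨f, hf, hfab⟩ := htrans a b
    refine ⟨f, hf, ?_, ?_⟩
    · have := hfab ⟨0, hk1⟩
      rwa [ha0, hb0] at this
    · have := hfab ⟨1, hk⟩
      rwa [ha1, hb1] at this
  have hdc : ∀ f ∈ G, f (some x) ≠ some x → ∃ f1 ∈ G, ∃ f2 ∈ G, f1 (some x) = some x ∧
      f2 (some x) = some x ∧ f = f1 * g * f2 := by
    intro f hf hfx
    obtain ⟨w, hw⟩ := hsome f hf x
    have hwx : w ≠ x := by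
      rintro rfl
      exact hfx hw
    obtain ⟨f1, hf1, hf1x, hf1y⟩ := Tr2 w hwx
    refine ⟨f1, hf1, g⁻¹ * f1⁻¹ * f,
      G.mul_mem (G.mul_mem (G.inv_mem hg) (G.inv_mem hf1)) hf, hf1x, ?_, by group⟩
    have e1 : f1⁻¹ (some w) = some y := by rw [Equiv.Perm.inv_eq_iff_eq, hf1y]
    have e2 : g⁻¹ (some y) = some x := by rw [Equiv.Perm.inv_eq_iff_eq, h4]
    rw [Equiv.Perm.mul_apply, Equiv.Perm.mul_apply, hw, e1, e2]
  have key : ∀ f ∈ G, h * f * h ∈ G ∨ ∃ f1 ∈ G, ∃ f2 ∈ G, h * f * h = f1 * h * f2 := by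
    intro f hf
    by_cases hfx : f (some x) = some x
    · exact Or.inl (h8 f hf hfx).1
    · right
      obtain ⟨f1, hf1, f2, hf2, hf1x, hf2x, rfl⟩ := hdc f hf hfx
      have hA := (h8 f1 hf1 hf1x).1
      have hB := (h8 f2 hf2 hf2x).1
      refine ⟨(h * f1 * h) * ((h ^ 2)⁻¹ * g⁻¹ * (g * h) ^ 3), ?_,
        ((h ^ 2)⁻¹ * g⁻¹ * (h ^ 2)⁻¹) * (h * f2 * h), ?_, ?_⟩
      · exact G.mul_mem hA (G.mul_mem (G.mul_mem (G.inv_mem h7) (G.inv_mem hg)) h6)
      · exact G.mul_mem (G.mul_mem (G.mul_mem (G.inv_mem h7) (G.inv_mem hg)) (G.inv_mem h7)) hB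
      · have e3 : (g * h) ^ 3 = g * h * (g * h) * (g * h) := by rw [pow_succ, pow_two]
        rw [e3]; group
  have hM : ∀ f ∈ Subgroup.closure ((G : Set (Equiv.Perm (Option X))) ∪ {h}),
      f ∈ G ∨ ∃ f1 ∈ G, ∃ f2 ∈ G, f = f1 * h * f2 := by
    intro f hf
    induction hf using Subgroup.closure_induction with
    | mem f hf =>
      rcases hf with hf | hf
      · exact Or.inl hf
      · rw [Set.mem_singleton_iff] at hf
        exact Or.inr ⟨1, G.one_mem, 1, G.one_mem, by rw [hf]; group⟩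
    | one => exact Or.inl G.one_mem
    | mul a b ha hb iha ihb =>
      rcases iha with ha' | ⟨a1, ha1, a2, ha2, rfl⟩ <;>
        rcases ihb with hb' | ⟨b1, hb1, b2, hb2, rfl⟩
      · exact Or.inl (G.mul_mem ha' hb')
      · exact Or.inr ⟨a * b1, G.mul_mem ha' hb1, b2, hb2, by group⟩
      · exact Or.inr ⟨a1, ha1, a2 * b, G.mul_mem ha2 hb', by group⟩
      · have e : a1 * h * a2 * (b1 * h * b2) = a1 * (h * (a2 * b1) * h) * b2 := by group
        rcases key (a2 * b1) (G.mul_mem ha2 hb1) with hc | ⟨c1, hc1, c2, hc2, hc⟩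
        · left
          rw [e]
          exact G.mul_mem (G.mul_mem ha1 hc) hb2
        · right
          refine ⟨a1 * c1, G.mul_mem ha1 hc1, c2 * b2, G.mul_mem hc2 hb2, ?_⟩
          rw [e, hc]; group
    | inv a ha iha =>
      rcases iha with ha' | ⟨a1, ha1, a2, ha2, rfl⟩
      · exact Or.inl (G.inv_mem ha')
      · right
        refine ⟨a2⁻¹, G.inv_mem ha2, (h ^ 2)⁻¹ * a1⁻¹,
          G.mul_mem (G.inv_mem h7) (G.inv_mem ha1), ?_⟩
        group
  refine ⟨fun f hf => ⟨fun hnone => ?_, fun hfG => hfix f hfG⟩, ?_⟩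
  · rcases hM f hf with h' | ⟨f1, hf1, f2, hf2, rfl⟩
    · exact h'
    · exfalso
      rw [Equiv.Perm.mul_apply, Equiv.Perm.mul_apply, hfix f2 hf2, h1] at hnone
      obtain ⟨w', hw'⟩ := hsome f1 hf1 x
      rw [hw'] at hnone
      exact Option.some_ne_none w' hnone
  · have hGL : G ≤ Subgroup.closure ((G : Set (Equiv.Perm (Option X))) ∪ {h}) :=
      fun f hf => Subgroup.subset_closure (Or.inl hf)
    have hhL : h ∈ Subgroup.closure ((G : Set (Equiv.Perm (Option X))) ∪ {h}) :=
      Subgroup.subset_closure (Or.inr rfl)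
    have T1 : ∀ w : Option X, ∃ l ∈ Subgroup.closure ((G : Set (Equiv.Perm (Option X))) ∪ {h}),
        l w = none := by
      intro w
      cases w with
      | none => exact ⟨1, Subgroup.one_mem _, rfl⟩
      | some w' =>
        obtain ⟨f, hf, hfw⟩ := Tr1 w' x
        exact ⟨h * f, Subgroup.mul_mem _ hhL (hGL hf), by rw [Equiv.Perm.mul_apply, hfw, h2]⟩
    refine ⟨fun a b => ?_⟩
    obtain ⟨l1, hl1, hl1a⟩ := T1 (a (Fin.last k))
    obtain ⟨l2, hl2, hl2b⟩ := T1 (b (Fin.last k))
    have hA : ∀ i : Fin k, ∃ w, l1 (a i.castSucc) = some w := by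
      intro i
      apply Option.ne_none_iff_exists'.mp
      intro h'
      have := a.injective (l1.injective (h'.trans hl1a.symm))
      exact absurd this (Fin.castSucc_lt_last i).ne
    have hB : ∀ i : Fin k, ∃ w, l2 (b i.castSucc) = some w := by
      intro i
      apply Option.ne_none_iff_exists'.mp
      intro h'
      have := b.injective (l2.injective (h'.trans hl2b.symm))
      exact absurd this (Fin.castSucc_lt_last i).ne
    choose a' ha' using hA
    choose b' hb' using hB
    have ha'inj : Function.Injective a' := by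
      intro i j hij
      have h1' : l1 (a i.castSucc) = l1 (a j.castSucc) := by rw [ha', ha', hij]
      exact Fin.castSucc_injective k (a.injective (l1.injective h1'))
    have hb'inj : Function.Injective b' := by
      intro i j hij
      have h1' : l2 (b i.castSucc) = l2 (b j.castSucc) := by rw [hb', hb', hij]
      exact Fin.castSucc_injective k (b.injective (l2.injective h1'))
    obtain ⟨f, hf, hfab⟩ := htrans ⟨a', ha'inj⟩ ⟨b', hb'inj⟩
    refine ⟨⟨l2⁻¹ * f * l1, Subgroup.mul_mem _ (Subgroup.mul_mem _ (Subgroup.inv_mem _ hl2)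
      (hGL hf)) hl1⟩, ?_⟩
    apply Function.Embedding.ext
    intro i
    show (l2⁻¹ * f * l1) (a i) = b i
    rw [Equiv.Perm.mul_apply, Equiv.Perm.mul_apply, Equiv.Perm.inv_eq_iff_eq]
    rcases Fin.eq_castSucc_or_eq_last i with ⟨j, rfl⟩ | rfl
    · rw [ha', hb']
      exact hfab j
    · rw [hl1a, hl2b]
      exact hfix f hf

end Cfsg.Agent.S4301
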