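-- Statement S4303: M. Hall's theorem on the number of Sylow subgroups.
import Cfsg.Statements.S4303
import Mathlib
import Cfsg.Agent.Lib.Helper90.SylowCount

set_option autoImplicit false
universe u
open Cfsg

namespace Cfsg.Agent.S4303

open Subgroup
open scoped Pointwise
open Cfsg.Agent.Lib.Helper1
open Cfsg.Agent.Lib.Helper90

/-- the target property of a natural number. -/
def Good (p : ℕ) (m : ℕ) : Prop :=
  ∃ l : List ℕ, l.prod = m ∧
    ∀ x ∈ l, (IsPrimePow x ∧ x % p = 1) ∨
      ∃ (S : Type u) (_ : Group S) (_ : Finite S), IsSimpleGroup S ∧ x = Nat.card (Sylow p S)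

theorem good_one (p : ℕ) : Good.{u} p 1 := ⟨[], rfl, by simp⟩

theorem good_mul {p a b : ℕ} (ha : Good.{u} p a) (hb : Good.{u} p b) : Good.{u} p (a * b) := by
  obtain ⟨l₁, h1, h1'⟩ := ha
  obtain ⟨l₂, h2, h2'⟩ := hb
  refine ⟨l₁ ++ l₂, by rw [List.prod_append, h1, h2], ?_⟩
  intro x hx
  rcases List.mem_append.mp hx with h | h
  · exact h1' x h
  · exact h2' x h

/-- the case of a normal `p`-complement: the number of Sylow subgroups is a product of prime powers
congruent to `1` modulo `p`. -/
theorem good_of_complement {G : Type u} [Group G] [Finite G] {p : ℕ} [Fact p.Prime]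
    (P : Sylow p G) (N : Subgroup G) [N.Normal] (hN : ¬ p ∣ Nat.card N)
    (htop : (P : Subgroup G) ⊔ N = ⊤) : Good.{u} p (Nat.card (Sylow p G)) := by
  have hp : p.Prime := Fact.out
  have hNtop : normalizer (N : Set G) = ⊤ := normalizer_eq_top_iff.mpr inferInstance
  obtain ⟨m, hm⟩ : ∃ m, m = (normalizer ((P : Subgroup G) : Set G)).relIndex N := ⟨_, rfl⟩
  have hcard : Nat.card (Sylow p G) = m := by
    rw [Sylow.card_eq_index_normalizer P]
    show (normalizer ((P : Subgroup G) : Set G)).index = _
    have h1 : normalizer ((P : Subgroup G) : Set G) ⊔ N = ⊤ := by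
      apply top_le_iff.mp
      rw [← htop]
      exact sup_le_sup_right le_normalizer N
    have h2 : normalizer ((P : Subgroup G) : Set G) ≤ normalizer (N : Set G) := by
      rw [hNtop]; exact le_top
    rw [hm, ← relIndex_sup_of_le_normalizer h2, h1, relIndex_top_right]
  obtain ⟨C, hC⟩ : ∃ C : Subgroup G, C = normalizer ((P : Subgroup G) : Set G) ⊓ N := ⟨_, rfl⟩
  have hCN : C ≤ N := hC ▸ inf_le_right
  have hCP : C ≤ normalizer ((P : Subgroup G) : Set G) := hC ▸ inf_le_left
  have hNC : Nat.card N = Nat.card C * m := by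
    rw [card_eq_card_mul_relIndex hCN, hC, inf_relIndex_right, hm]
  have hNpos : Nat.card N ≠ 0 := Nat.card_pos.ne'
  have hCpos : Nat.card C ≠ 0 := Nat.card_pos.ne'
  have hmpos : m ≠ 0 := by
    intro h
    rw [h, mul_zero] at hNC
    exact hNpos hNC
  have hPN : (P : Subgroup G) ⊓ N = ⊥ := by
    apply inf_eq_bot_of_coprime
    obtain ⟨k, hk⟩ := IsPGroup.iff_card.mp P.isPGroup'
    rw [hk]
    exact Nat.Coprime.pow_left k ((Nat.Prime.coprime_iff_not_dvd hp).mpr hN)
  -- `P` centralizes `C`
  have hcomm : ∀ x ∈ (P : Subgroup G), ∀ c ∈ C, x * c * x⁻¹ = c := by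
    intro x hx c hc
    have h1 : x * c * x⁻¹ * c⁻¹ ∈ (P : Subgroup G) ⊓ N := by
      refine mem_inf.mpr ⟨?_, ?_⟩
      · have h2 : c * x⁻¹ * c⁻¹ ∈ (P : Subgroup G) :=
          (mem_normalizer_iff.mp (hCP hc) x⁻¹).mp ((P : Subgroup G).inv_mem hx)
        have h3 : x * c * x⁻¹ * c⁻¹ = x * (c * x⁻¹ * c⁻¹) := by group
        rw [h3]
        exact (P : Subgroup G).mul_mem hx h2
      · exact N.mul_mem (‹N.Normal›.conj_mem c (hCN hc) x) (N.inv_mem (hCN hc))
    rw [hPN, mem_bot] at h1
    exact mul_inv_eq_one.mp h1
  have key : ∀ q : ℕ, q.Prime → q ∣ m → q ^ m.factorization q % p = 1 := by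
    intro q hq _
    haveI : Fact q.Prime := ⟨hq⟩
    obtain S : Sylow q C := default
    obtain ⟨S₀, hS₀⟩ : ∃ S₀ : Subgroup G, S₀ = (S : Subgroup C).map C.subtype := ⟨_, rfl⟩
    have hS₀C : S₀ ≤ C := hS₀ ▸ map_subtype_le _
    have hS₀q : IsPGroup q S₀ := hS₀ ▸ S.isPGroup'.map _
    have hPS₀ : (P : Subgroup G) ≤ normalizer (S₀ : Set G) := by
      intro x hx
      apply mem_normalizer_fintype
      intro n hn
      rw [hcomm x hx n (hS₀C hn)]
      exact hn
    have hPNn : (P : Subgroup G) ≤ normalizer (N : Set G) := by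
      rw [hNtop]; exact le_top
    obtain ⟨Q, hSQ, hQN, hPQ, hQcard⟩ := exists_invariant_sylow_ge (P : Subgroup G) N S₀
      P.isPGroup' hPNn hN (hS₀C.trans hCN) hS₀q hPS₀
    -- `D = Q ∩ N_G(P)` has the order of a Sylow `q`-subgroup of `C`
    have hDle : Q ⊓ normalizer ((P : Subgroup G) : Set G) ≤ C := by
      rw [hC, inf_comm]
      exact inf_le_inf_left _ hQN
    have hDcard : Nat.card (Q ⊓ normalizer ((P : Subgroup G) : Set G) : Subgroup G) =
        q ^ (Nat.card C).factorization q := by
      have hq' : IsPGroup q ((Q ⊓ normalizer ((P : Subgroup G) : Set G)).subgroupOf C) := by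
        have hQq : IsPGroup q Q := IsPGroup.of_card hQcard
        exact (hQq.to_inf_left).comap_subtype
      have hle : (S : Subgroup C) ≤ (Q ⊓ normalizer ((P : Subgroup G) : Set G)).subgroupOf C := by
        intro x hx
        rw [mem_subgroupOf]
        have hx0 : (x : G) ∈ S₀ := by
          rw [hS₀]
          exact mem_map_of_mem C.subtype hx
        exact mem_inf.mpr ⟨hSQ hx0, hCP x.2⟩
      have h1 := S.is_maximal' hq' hle
      rw [← card_subgroupOf_of_le hDle, h1]
      exact S.card_eq_multiplicity
    -- count the Sylow `p`-subgroups of `P ⊔ Q`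
    have hPH : (P : Subgroup G) ≤ (P : Subgroup G) ⊔ Q := le_sup_left
    have hHQ : (P : Subgroup G) ⊔ Q ≤ normalizer (Q : Set G) := sup_le hPQ le_normalizer
    have h1 : Nat.card (Sylow p ((P : Subgroup G) ⊔ Q : Subgroup G)) =
        (normalizer ((P : Subgroup G) : Set G)).relIndex Q := by
      rw [card_sylow_subgroup P hPH]
      have hA : normalizer ((P : Subgroup G) : Set G) ⊓ ((P : Subgroup G) ⊔ Q) ≤
          normalizer (Q : Set G) := inf_le_right.trans hHQ
      have hsup : normalizer ((P : Subgroup G) : Set G) ⊓ ((P : Subgroup G) ⊔ Q) ⊔ Q =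
          (P : Subgroup G) ⊔ Q := by
        apply le_antisymm
        · exact sup_le inf_le_right le_sup_right
        · exact sup_le_sup_right (le_inf le_normalizer le_sup_left) Q
      have h2 := relIndex_sup_of_le_normalizer hA
      rw [hsup, inf_relIndex_right] at h2
      rw [h2, ← inf_relIndex_right, inf_assoc, inf_of_le_right (le_sup_right : Q ≤ _),
        inf_relIndex_right]
    have h2 : Nat.card Q = Nat.card (Q ⊓ normalizer ((P : Subgroup G) : Set G) : Subgroup G) *
        (normalizer ((P : Subgroup G) : Set G)).relIndex Q := by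
      rw [card_eq_card_mul_relIndex (inf_le_left : Q ⊓ normalizer ((P : Subgroup G) : Set G) ≤ Q),
        inf_relIndex_left]
    rw [hQcard, hDcard, ← h1] at h2
    have hfac : (Nat.card N).factorization q = (Nat.card C).factorization q + m.factorization q := by
      rw [hNC, Nat.factorization_mul hCpos hmpos]
      rfl
    rw [hfac, pow_add] at h2
    have h3 : q ^ m.factorization q = Nat.card (Sylow p ((P : Subgroup G) ⊔ Q : Subgroup G)) :=
      Nat.eq_of_mul_eq_mul_left (pow_pos hq.pos _) h2
    rw [h3]
    have h4 := card_sylow_modEq_one p ((P : Subgroup G) ⊔ Q : Subgroup G)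
    rw [Nat.ModEq, Nat.mod_eq_of_lt hp.one_lt] at h4
    exact h4
  rw [hcard]
  refine ⟨m.primeFactors.toList.map (fun q => q ^ m.factorization q), ?_, ?_⟩
  · rw [Finset.prod_map_toList]
    have := Nat.factorization_prod_pow_eq_self hmpos
    rwa [Finsupp.prod, Nat.support_factorization] at this
  · intro x hx
    left
    rw [List.mem_map] at hx
    obtain ⟨q, hq, rfl⟩ := hx
    rw [Finset.mem_toList, Nat.mem_primeFactors] at hq
    obtain ⟨hq1, hq2, -⟩ := hq
    refine ⟨?_, key q hq1 hq2⟩
    exact ⟨q, m.factorization q, hq1.prime, hq1.factorization_pos_of_dvd hmpos hq2, rfl⟩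

theorem main (p : ℕ) [Fact p.Prime] : ∀ (n : ℕ) (G : Type u) [Group G] [Finite G],
    Nat.card G = n → Good.{u} p (Nat.card (Sylow p G)) := by
  intro n
  induction n using Nat.strong_induction_on with
  | _ n ih =>
    intro G _ _ hn
    have hlt : ∀ H : Subgroup G, H ≠ ⊤ → Nat.card H < n := by
      intro H hH
      rw [← hn]
      exact lt_of_le_of_ne (card_le_card_group H) (fun h => hH ((card_eq_iff_eq_top H).mp h))
    have hquot : ∀ (N : Subgroup G) [N.Normal], N ≠ ⊥ → Nat.card (G ⧸ N) < n := by
      intro N _ hN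
      rw [← hn, ← card_mul_index N, ← index_eq_card]
      have h1 : 1 < Nat.card N := (one_lt_card_iff_ne_bot N).mpr hN
      have h2 : 0 < N.index := Nat.pos_of_ne_zero (index_ne_zero_of_finite)
      nlinarith
    by_cases hex : ∃ N : Subgroup G, N.Normal ∧ N ≠ ⊥ ∧ N ≠ ⊤
    · obtain ⟨N, hNn, hNbot, hNtop⟩ := hex
      obtain Q : Sylow p N := default
      obtain ⟨P, hQP⟩ := (Q.isPGroup'.map N.subtype).exists_le_sylow
      have g1 := ih _ (hquot N hNbot) (G ⧸ N) rfl
      by_cases hPN : (P : Subgroup G) ⊔ N = ⊤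
      · have g2 := ih _ (hlt N hNtop) N rfl
        by_cases hnorm : normalizer (((Q : Subgroup N).map N.subtype : Subgroup G) : Set G) = ⊤
        · by_cases hQ0 : (Q : Subgroup N).map N.subtype = ⊥
          · have hN : ¬ p ∣ Nat.card N := by
              intro hdvd
              apply Q.ne_bot_of_dvd_card hdvd
              exact (map_eq_bot_iff_of_injective _ N.subtype_injective).mp hQ0
            exact good_of_complement P N hN hPN
          · haveI : ((Q : Subgroup N).map N.subtype).Normal := normalizer_eq_top_iff.mp hnorm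
            rw [card_sylow_eq_quotient_mul P ((Q : Subgroup N).map N.subtype)]
            have h1 : Nat.card (Sylow p ((P : Subgroup G) ⊔ (Q : Subgroup N).map N.subtype :
                Subgroup G)) = 1 := by
              rw [card_sylow_subgroup P le_sup_left]
              exact relIndex_eq_one.mpr (sup_le le_normalizer (hQP.trans le_normalizer))
            rw [h1, mul_one]
            exact ih _ (hquot _ hQ0) _ rfl
        · rw [card_sylow_eq_normal_mul P N Q hQP]
          exact good_mul g2 (ih _ (hlt _ hnorm) _ rfl)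
      · rw [card_sylow_eq_quotient_mul P N]
        exact good_mul g1 (ih _ (hlt _ hPN) _ rfl)
    · by_cases hsub : Subsingleton G
      · have h1 : Nat.card (Sylow p G) = 1 := by
          obtain P : Sylow p G := default
          rw [Sylow.card_eq_index_normalizer P, index_eq_one]
          exact eq_top_iff.mpr (fun x _ => by rw [Subsingleton.elim x 1]; exact one_mem _)
        rw [h1]
        exact good_one p
      · have hnt : Nontrivial G := not_subsingleton_iff_nontrivial.mp hsub
        have hsimple : IsSimpleGroup G := by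
          refine { exists_pair_ne := hnt.exists_pair_ne, eq_bot_or_eq_top_of_normal := ?_ }
          intro H hH
          by_contra hcon
          push Not at hcon
          exact hex ⟨H, hH, hcon.1, hcon.2⟩
        refine ⟨[Nat.card (Sylow p G)], by simp, ?_⟩
        intro m hm
        rw [List.mem_singleton] at hm
        right
        exact ⟨G, inferInstance, inferInstance, hsimple, hm⟩

/-- For a finite group `G` and a prime `p`, the number of Sylow `p`-subgroups of `G` is a product of natural numbers each of which is either a prime power congruent to 1 modulo `p` or the number of Sylow `p`-subgroups of some finite simple group. -/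
theorem result {G : Type u} [Group G] [Finite G]
    (p : ℕ) [Fact p.Prime] :
    ∃ l : List ℕ, l.prod = Nat.card (Sylow p G) ∧
      ∀ m ∈ l, (IsPrimePow m ∧ m % p = 1) ∨
        ∃ (S : Type u) (_ : Group S) (_ : Finite S), IsSimpleGroup S ∧ m = Nat.card (Sylow p S) := by
  exact main p _ G rfl

end Cfsg.Agent.S4303
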