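import Mathlib
import Cfsg.Statements.S4305
import Cfsg.Agent.Lib.Helper63.S3Main

set_option autoImplicit false
open Cfsg

namespace Cfsg.Agent.S4305

/-- the three-cycle -/
def c3 : Equiv.Perm (Fin 3) := Equiv.swap (0 : Fin 3) 1 * Equiv.swap 1 2

/-- a transposition -/
def s3 : Equiv.Perm (Fin 3) := Equiv.swap (0 : Fin 3) 1

theorem c3_cube : c3 * c3 * c3 = 1 := by decide

theorem s3_sq : s3 * s3 = 1 := by decide

theorem s3_c3 : s3 * c3 * s3 = c3 * c3 := by decide

theorem perm_cases : ∀ p : Equiv.Perm (Fin 3),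
    p = 1 ∨ p = c3 ∨ p = c3 * c3 ∨ p = s3 ∨ p = s3 * c3 ∨ p = s3 * c3 * c3 := by decide

/-- Let the symmetric group of degree 3 act by automorphisms on a finite solvable group `G` of order prime to 6, so that only the identity of `G` is fixed by all of it. Then the derived subgroup of `G` is nilpotent. -/
theorem result {G : Type*} [Group G] [Finite G] [Group.IsSolvable G]
    [MulDistribMulAction (Equiv.Perm (Fin 3)) G] (hcop : (Nat.card G).Coprime 6)
    (hfpf : ∀ g : G, (∀ a : Equiv.Perm (Fin 3), a • g = g) → g = 1) :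
    Group.IsNilpotent ↥(commutator G) := by
  have hrel : Cfsg.Agent.Lib.Helper63.S3A.Rel (MulDistribMulAction.toMonoidHom G c3)
      (MulDistribMulAction.toMonoidHom G s3) := by
    refine ⟨fun x => ?_, fun x => ?_, fun x => ?_⟩
    · show c3 • c3 • c3 • x = x
      rw [← mul_smul, ← mul_smul, c3_cube, one_smul]
    · show s3 • s3 • x = x
      rw [← mul_smul, s3_sq, one_smul]
    · show s3 • c3 • s3 • x = c3 • c3 • x
      rw [← mul_smul, ← mul_smul, s3_c3, mul_smul]
  apply Cfsg.Agent.Lib.Helper63.S3A.mainS (Nat.card G) G le_rfl inferInstance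
    (MulDistribMulAction.toMonoidHom G c3) (MulDistribMulAction.toMonoidHom G s3) hrel hcop
  intro g h1 h2
  have h1' : c3 • g = g := h1
  have h2' : s3 • g = g := h2
  apply hfpf
  intro p
  rcases perm_cases p with rfl | rfl | rfl | rfl | rfl | rfl
  · exact one_smul _ g
  · exact h1'
  · rw [mul_smul, h1', h1']
  · exact h2'
  · rw [mul_smul, h1', h2']
  · rw [mul_smul, mul_smul, h1', h1', h2']

end Cfsg.Agent.S4305
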