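import Cfsg.Statements.S4314

set_option autoImplicit false
open Cfsg

namespace Cfsg.Agent.S4314

open scoped commutatorElement

theorem mem_cent {G : Type*} [Group G] {x y : G} :
    y ∈ Subgroup.centralizer ({x} : Set G) ↔ Commute y x :=
  Subgroup.mem_centralizer_singleton_iff

/-- A permutation of order `p` on `p` points has cyclic centralizer. -/
theorem perm_mem_zpowers {X : Type*} [Finite X] (p : ℕ) [hp : Fact p.Prime]
    (hX : Nat.card X = p) (σ τ : Equiv.Perm X) (hσ : orderOf σ = p) (hc : Commute σ τ) :
    τ ∈ Subgroup.zpowers σ := by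
  classical
  have := Fintype.ofFinite X
  rw [Nat.card_eq_fintype_card] at hX
  have hcyc : σ.IsCycle :=
    Equiv.Perm.isCycle_of_prime_order'' (hX ▸ hp.out) (hσ.trans hX.symm)
  have hsupp : σ.support = Finset.univ := by
    apply Finset.eq_univ_of_card
    rw [← hcyc.orderOf, hσ, hX]
  have hmove : ∀ x, σ x ≠ x := fun x => Equiv.Perm.mem_support.mp (hsupp ▸ Finset.mem_univ x)
  have hne : Nonempty X := by
    rw [← Fintype.card_pos_iff, hX]; exact hp.out.pos
  obtain ⟨x₀⟩ := hne
  obtain ⟨k, hk⟩ := hcyc.exists_zpow_eq (hmove x₀) (hmove (τ x₀))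
  refine Subgroup.mem_zpowers_iff.mpr ⟨k, ?_⟩
  ext y
  obtain ⟨i, hi⟩ := hcyc.exists_zpow_eq (hmove x₀) (hmove y)
  have hci : Commute (σ ^ i) τ := hc.zpow_left i
  have hck : Commute (σ ^ i) (σ ^ k) := (Commute.refl σ).zpow_zpow i k
  rw [← hi]
  calc (σ ^ k) ((σ ^ i) x₀) = (σ ^ k * σ ^ i) x₀ := rfl
    _ = (σ ^ i * σ ^ k) x₀ := by rw [hck.eq]
    _ = (σ ^ i) ((σ ^ k) x₀) := rfl
    _ = (σ ^ i) (τ x₀) := by rw [hk]
    _ = (σ ^ i * τ) x₀ := rfl
    _ = (τ * σ ^ i) x₀ := by rw [hci.eq]
    _ = τ ((σ ^ i) x₀) := rfl

/-- A subgroup containing a normal subgroup with abelian quotient is normal. -/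
theorem not_comm_quot {G : Type*} [Group G] (M N : Subgroup G) [N.Normal] (hNM : N ≤ M)
    (hMn : ¬ M.Normal) : ¬ IsMulCommutative (G ⧸ N) := by
  intro hc
  apply hMn
  constructor
  intro m hm g
  have h1 : g * m * g⁻¹ * m⁻¹ ∈ N := by
    apply (QuotientGroup.eq_one_iff _).mp
    rw [QuotientGroup.mk_mul, QuotientGroup.mk_mul, QuotientGroup.mk_mul, QuotientGroup.mk_inv,
      QuotientGroup.mk_inv, mul_comm' (QuotientGroup.mk g : G ⧸ N) (QuotientGroup.mk m)]
    group
  have h2 : g * m * g⁻¹ = g * m * g⁻¹ * m⁻¹ * m := by group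
  rw [h2]
  exact M.mul_mem (hNM h1) hm

theorem lemC {G : Type*} [Group G] [Finite G]
    (h : ∀ x : G, (Subgroup.centralizer ({x} : Set G)).index = 1 ∨
      ((Subgroup.centralizer ({x} : Set G)).index).Prime)
    (M : Subgroup G) (p : ℕ) [hp : Fact p.Prime] (hM : M.index = p) (hMn : ¬ M.Normal) (e : G)
    (he : orderOf (MulAction.toPermHom G (G ⧸ M) e) = p) :
    Subgroup.centralizer ({e} : Set G) =
      (Subgroup.zpowers (MulAction.toPermHom G (G ⧸ M) e)).comap (MulAction.toPermHom G (G ⧸ M)) ∧
    M.normalCore.index = p * (Subgroup.centralizer ({e} : Set G)).index ∧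
    ((Subgroup.centralizer ({e} : Set G)).index).Prime := by
  have hcardX : Nat.card (G ⧸ M) = p := by rw [← Subgroup.index_eq_card, hM]
  have hCL : Subgroup.centralizer ({e} : Set G) ≤
      (Subgroup.zpowers (MulAction.toPermHom G (G ⧸ M) e)).comap
        (MulAction.toPermHom G (G ⧸ M)) := by
    intro d hd
    rw [Subgroup.mem_comap]
    have hde : Commute d e := mem_cent.mp hd
    have hc : Commute (MulAction.toPermHom G (G ⧸ M) e) (MulAction.toPermHom G (G ⧸ M) d) := by
      show _ * _ = _ * _
      rw [← map_mul, ← map_mul, hde.eq]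
    exact perm_mem_zpowers p hcardX _ _ he hc
  have hKL : M.normalCore ≤
      (Subgroup.zpowers (MulAction.toPermHom G (G ⧸ M) e)).comap
        (MulAction.toPermHom G (G ⧸ M)) := by
    intro d hd
    rw [Subgroup.normalCore_eq_ker, MonoidHom.mem_ker] at hd
    rw [Subgroup.mem_comap, hd]
    exact Subgroup.one_mem _
  have hrel : M.normalCore.relIndex
      ((Subgroup.zpowers (MulAction.toPermHom G (G ⧸ M) e)).comap
        (MulAction.toPermHom G (G ⧸ M))) = p := by
    rw [Subgroup.normalCore_eq_ker, Subgroup.relIndex_ker, Subgroup.map_comap_eq,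
      inf_of_le_right (Subgroup.zpowers_le.mpr (MonoidHom.mem_range.mpr ⟨e, rfl⟩)), Nat.card_zpowers, he]
  have hKidx := Subgroup.relIndex_mul_index hKL
  rw [hrel] at hKidx
  have hbad : ((Subgroup.zpowers (MulAction.toPermHom G (G ⧸ M) e)).comap
        (MulAction.toPermHom G (G ⧸ M))).index = 1 → False := by
    intro h1
    rw [h1, mul_one] at hKidx
    have h2 := Subgroup.relIndex_mul_index (Subgroup.normalCore_le M)
    rw [hM, ← hKidx] at h2
    have h3 : M.normalCore.relIndex M = 1 :=
      Nat.eq_of_mul_eq_mul_right hp.out.pos (by rw [h2, one_mul])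
    have h4 : M ≤ M.normalCore := Subgroup.relIndex_eq_one.mp h3
    have h5 : M.normalCore = M := le_antisymm (Subgroup.normalCore_le M) h4
    apply hMn
    rw [← h5]
    infer_instance
  have hdvd := Subgroup.index_dvd_of_le hCL
  rcases h e with h1 | hr
  · exfalso
    rw [h1, Nat.dvd_one] at hdvd
    exact hbad hdvd
  · rcases (Nat.dvd_prime hr).mp hdvd with h1 | h1
    · exact (hbad h1).elim
    · have h2 := Subgroup.relIndex_mul_index hCL
      rw [h1] at h2
      have h3 : (Subgroup.centralizer ({e} : Set G)).relIndex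
          ((Subgroup.zpowers (MulAction.toPermHom G (G ⧸ M) e)).comap
            (MulAction.toPermHom G (G ⧸ M))) = 1 :=
        Nat.eq_of_mul_eq_mul_right hr.pos (by rw [h2, one_mul])
      have h4 := Subgroup.relIndex_eq_one.mp h3
      refine ⟨le_antisymm hCL h4, ?_, hr⟩
      rw [← hKidx, h1]

/-- Let `G` be a finite group every conjugacy class of which has size 1 or a prime. Then either `G` is nilpotent of class at most 2, or `G/Z(G)` is a non-abelian group of order `pq` for distinct primes `p, q` (a Frobenius group of order `pq`). -/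
theorem result {G : Type*} [Group G] [Finite G]
    (h : ∀ x : G, (Subgroup.centralizer ({x} : Set G)).index = 1 ∨ ((Subgroup.centralizer ({x} : Set G)).index).Prime) :
    Subgroup.upperCentralSeries G 2 = ⊤ ∨
      ∃ p q : ℕ, p.Prime ∧ q.Prime ∧ p ≠ q ∧ Nat.card (G ⧸ Subgroup.center G) = p * q ∧ ¬ IsMulCommutative (G ⧸ Subgroup.center G) := by
  classical
  by_cases hall : ∀ x : G, x ∉ Subgroup.center G → (Subgroup.centralizer ({x} : Set G)).Normal
  · left
    rw [eq_top_iff]
    intro g _
    rw [Subgroup.mem_upperCentralSeries_succ_iff]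
    intro k
    rw [Subgroup.upperCentralSeries_one, Subgroup.mem_center_iff]
    intro x
    have key : ⁅g, k⁆ ∈ Subgroup.centralizer ({x} : Set G) := by
      rcases h x with h1 | hp
      · rw [Subgroup.index_eq_one.mp h1]; trivial
      · have hx : x ∉ Subgroup.center G := by
          intro hx
          have h1 : Subgroup.centralizer ({x} : Set G) = ⊤ :=
            Subgroup.centralizer_eq_top_iff_subset.mpr (by simpa using hx)
          rw [h1, Subgroup.index_top] at hp
          exact Nat.not_prime_one hp
        have hn := hall x hx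
        have hf : Fact ((Subgroup.centralizer ({x} : Set G)).index).Prime := ⟨hp⟩
        have hcyc : IsCyclic (G ⧸ Subgroup.centralizer ({x} : Set G)) :=
          isCyclic_of_prime_card (Subgroup.index_eq_card _).symm
        apply (QuotientGroup.eq_one_iff _).mp
        rw [commutatorElement_def, QuotientGroup.mk_mul, QuotientGroup.mk_mul,
          QuotientGroup.mk_mul, QuotientGroup.mk_inv, QuotientGroup.mk_inv,
          mul_comm' (QuotientGroup.mk g : G ⧸ Subgroup.centralizer ({x} : Set G))
            (QuotientGroup.mk k)]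
        group
    exact (mem_cent.mp key).eq.symm
  · right
    push Not at hall
    obtain ⟨x, hxZ, hMn⟩ := hall
    have hpM : ((Subgroup.centralizer ({x} : Set G)).index).Prime := by
      rcases h x with h1 | hp
      · exfalso
        apply hMn
        rw [Subgroup.index_eq_one.mp h1]
        infer_instance
      · exact hp
    have hf : Fact ((Subgroup.centralizer ({x} : Set G)).index).Prime := ⟨hpM⟩
    -- an element of order p in the image
    have hpdvd : (Subgroup.centralizer ({x} : Set G)).index ∣
        Nat.card (MulAction.toPermHom G (G ⧸ Subgroup.centralizer ({x} : Set G))).range := by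
      rw [← Subgroup.index_ker, ← Subgroup.normalCore_eq_ker,
        ← Subgroup.relIndex_mul_index (Subgroup.normalCore_le (Subgroup.centralizer ({x} : Set G)))]
      exact dvd_mul_left _ _
    obtain ⟨y, hy⟩ := exists_prime_orderOf_dvd_card'
      (G := (MulAction.toPermHom G (G ⧸ Subgroup.centralizer ({x} : Set G))).range) _ hpdvd
    obtain ⟨c, hc⟩ := y.2
    have hfc : orderOf (MulAction.toPermHom G (G ⧸ Subgroup.centralizer ({x} : Set G)) c) =
        (Subgroup.centralizer ({x} : Set G)).index := by
      rw [hc, Subgroup.orderOf_coe, hy]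
    obtain ⟨hCL, hKidx, hq⟩ := lemC h (Subgroup.centralizer ({x} : Set G)) _ rfl hMn c hfc
    have hpq : (Subgroup.centralizer ({x} : Set G)).index ≠
        (Subgroup.centralizer ({c} : Set G)).index := by
      intro hpq
      have hcard : Nat.card (G ⧸ (Subgroup.centralizer ({x} : Set G)).normalCore) =
          (Subgroup.centralizer ({x} : Set G)).index ^ 2 := by
        rw [← Subgroup.index_eq_card, hKidx, ← hpq, sq]
      exact not_comm_quot (Subgroup.centralizer ({x} : Set G)) _ (Subgroup.normalCore_le _) hMn
        (IsPGroup.isMulCommutative_of_card_eq_prime_sq hcard)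
    have hcK : c ∉ (Subgroup.centralizer ({x} : Set G)).normalCore := by
      intro hcK
      rw [Subgroup.normalCore_eq_ker, MonoidHom.mem_ker] at hcK
      rw [hcK, orderOf_one] at hfc
      exact hpM.one_lt.ne hfc
    have hcL : c ∈ Subgroup.centralizer ({c} : Set G) := mem_cent.mpr (Commute.refl c)
    have hKL : (Subgroup.centralizer ({x} : Set G)).normalCore ≤
        Subgroup.centralizer ({c} : Set G) := by
      intro d hd
      rw [hCL, Subgroup.mem_comap]
      rw [Subgroup.normalCore_eq_ker, MonoidHom.mem_ker] at hd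
      rw [hd]
      exact Subgroup.one_mem _
    have E1 : ∀ c' ∈ Subgroup.centralizer ({c} : Set G),
        c' ∉ (Subgroup.centralizer ({x} : Set G)).normalCore →
        Subgroup.centralizer ({c'} : Set G) = Subgroup.centralizer ({c} : Set G) := by
      intro c' hc'L hc'K
      have h1 : MulAction.toPermHom G (G ⧸ Subgroup.centralizer ({x} : Set G)) c' ∈
          Subgroup.zpowers (MulAction.toPermHom G (G ⧸ Subgroup.centralizer ({x} : Set G)) c) := by
        rw [hCL] at hc'L; exact hc'L
      have h2 : MulAction.toPermHom G (G ⧸ Subgroup.centralizer ({x} : Set G)) c' ≠ 1 := by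
        intro h2
        apply hc'K
        rw [Subgroup.normalCore_eq_ker, MonoidHom.mem_ker]
        exact h2
      have h3 : orderOf (MulAction.toPermHom G (G ⧸ Subgroup.centralizer ({x} : Set G)) c') =
          (Subgroup.centralizer ({x} : Set G)).index := by
        obtain ⟨k, hk⟩ := Subgroup.mem_zpowers_iff.mp h1
        have h4 : (MulAction.toPermHom G (G ⧸ Subgroup.centralizer ({x} : Set G)) c') ^
            (Subgroup.centralizer ({x} : Set G)).index = 1 := by
          rw [← hk, ← zpow_natCast, ← zpow_mul, mul_comm, zpow_mul, zpow_natCast, ← hfc,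
            pow_orderOf_eq_one, one_zpow]
        exact orderOf_eq_prime h4 h2
      obtain ⟨hCL', -, -⟩ := lemC h (Subgroup.centralizer ({x} : Set G)) _ rfl hMn c' h3
      have hz : Subgroup.zpowers (MulAction.toPermHom G (G ⧸ Subgroup.centralizer ({x} : Set G)) c')
          = Subgroup.zpowers (MulAction.toPermHom G (G ⧸ Subgroup.centralizer ({x} : Set G)) c) := by
        apply Subgroup.eq_of_le_of_card_ge (Subgroup.zpowers_le.mpr h1)
        rw [Nat.card_zpowers, Nat.card_zpowers, h3, hfc]
      rw [hCL', hz, ← hCL]
    have E2 : ∀ a ∈ Subgroup.centralizer ({c} : Set G),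
        ∀ b ∈ Subgroup.centralizer ({c} : Set G), Commute a b := by
      intro a haL b hbL
      by_cases ha : a ∈ (Subgroup.centralizer ({x} : Set G)).normalCore
      · by_cases hb : b ∈ (Subgroup.centralizer ({x} : Set G)).normalCore
        · have hacK : a * c ∉ (Subgroup.centralizer ({x} : Set G)).normalCore := by
            intro hh
            apply hcK
            have := Subgroup.mul_mem _ (Subgroup.inv_mem _ ha) hh
            simpa using this
          have hacL : a * c ∈ Subgroup.centralizer ({c} : Set G) := Subgroup.mul_mem _ haL hcL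
          have h1 := E1 (a * c) hacL hacK
          have h2 : Commute b (a * c) := mem_cent.mp (h1 ▸ hbL)
          have h3 : Commute b c := mem_cent.mp hbL
          have h4 : Commute b (a * c * c⁻¹) := h2.mul_right h3.inv_right
          rw [mul_inv_cancel_right] at h4
          exact h4.symm
        · have h1 := E1 b hbL hb
          exact mem_cent.mp (h1 ▸ haL)
      · have h1 := E1 a haL ha
        exact (mem_cent.mp (h1 ▸ hbL)).symm
    have E3 : x ∉ Subgroup.centralizer ({c} : Set G) := by
      intro hxL
      have hLM : Subgroup.centralizer ({c} : Set G) ≤ Subgroup.centralizer ({x} : Set G) :=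
        fun d hd => mem_cent.mpr (E2 d hd x hxL)
      have hdvd := Subgroup.index_dvd_of_le hLM
      exact hpq ((Nat.prime_dvd_prime_iff_eq hpM hq).mp hdvd)
    have E4 : (Subgroup.centralizer ({x} : Set G)).normalCore ≤ Subgroup.center G := by
      intro y hyK
      by_contra hyZ
      have hyL : y ∈ Subgroup.centralizer ({c} : Set G) := hKL hyK
      have hLC : Subgroup.centralizer ({c} : Set G) ≤ Subgroup.centralizer ({y} : Set G) :=
        fun d hd => mem_cent.mpr (E2 d hd y hyL)
      rcases h y with h1 | hr
      · apply hyZ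
        have h2 := Subgroup.index_eq_one.mp h1
        rw [Subgroup.centralizer_eq_top_iff_subset] at h2
        exact h2 (Set.mem_singleton y)
      · have hdvd := Subgroup.index_dvd_of_le hLC
        have heq := (Nat.prime_dvd_prime_iff_eq hr hq).mp hdvd
        have h2 := Subgroup.relIndex_mul_index hLC
        rw [heq] at h2
        have h3 : (Subgroup.centralizer ({c} : Set G)).relIndex
            (Subgroup.centralizer ({y} : Set G)) = 1 :=
          Nat.eq_of_mul_eq_mul_right hq.pos (by rw [h2, one_mul])
        have hLeq := Subgroup.relIndex_eq_one.mp h3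
        have hxy : x ∈ Subgroup.centralizer ({y} : Set G) := by
          have h4 := Subgroup.normalCore_le _ hyK
          exact mem_cent.mpr (mem_cent.mp h4).symm
        exact E3 (hLeq hxy)
    have hZM : Subgroup.center G ≤ Subgroup.centralizer ({x} : Set G) :=
      Subgroup.center_le_centralizer _
    have hKZ : (Subgroup.centralizer ({x} : Set G)).normalCore = Subgroup.center G :=
      le_antisymm E4 (Subgroup.normal_le_normalCore.mpr hZM)
    refine ⟨_, _, hpM, hq, hpq, ?_, not_comm_quot _ _ hZM hMn⟩
    rw [← Subgroup.index_eq_card, ← hKZ, hKidx]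

end Cfsg.Agent.S4314
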