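import Cfsg.Statements.S4320
import Mathlib

set_option autoImplicit false
open Cfsg

namespace Cfsg.Agent.S4320

/-! ### the determinant trick -/

theorem det_smul_eq_zero {R : Type*} [CommRing R] {P : Type*} [AddCommGroup P] [Module R P]
    {κ : Type*} [Fintype κ] [DecidableEq κ] (M : Matrix κ κ R) (v : κ → P)
    (h : ∀ k, ∑ l, M k l • v l = 0) (j : κ) : M.det • v j = 0 := by
  have h1 : ∑ k, M.adjugate j k • ∑ l, M k l • v l = 0 := by
    apply Finset.sum_eq_zero
    intro k _
    rw [h k, smul_zero]
  have h2 : ∑ k, M.adjugate j k • ∑ l, M k l • v l =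
      ∑ l, (∑ k, M.adjugate j k * M k l) • v l := by
    simp_rw [Finset.smul_sum, smul_smul, Finset.sum_smul]
    exact Finset.sum_comm
  have h3 : ∀ l, ∑ k, M.adjugate j k * M k l = if j = l then M.det else 0 := by
    intro l
    have := congrFun (congrFun (Matrix.adjugate_mul M) j) l
    rw [Matrix.mul_apply] at this
    rw [this, Matrix.smul_apply, Matrix.one_apply, smul_eq_mul, mul_ite, mul_one, mul_zero]
  rw [h2] at h1
  simp_rw [h3, ite_smul, zero_smul] at h1
  rw [Finset.sum_ite_eq] at h1
  simpa using h1

theorem exists_annihilator {R : Type*} [CommRing R] (ε : R →+* ℤ) {P : Type*} [AddCommGroup P]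
    [Module R P] {U : Type*} [Fintype U] (p : U → P) (hp : Submodule.span R (Set.range p) = ⊤)
    {Q : Type*} [CommGroup Q] [Finite Q]
    (D : Q →* Multiplicative (P ⧸ (RingHom.ker ε • (⊤ : Submodule R P))))
    (hD : ∀ u, ∃ q, D q = Multiplicative.ofAdd (Submodule.Quotient.mk (p u))) :
    ∃ δ : R, (∀ x : P, δ • x = 0) ∧ ε δ = Nat.card Q := by
  classical
  obtain ⟨ι, _, n, hn, ⟨e⟩⟩ := CommGroup.equiv_prod_multiplicative_zmod_of_finite Q
  -- generators of Q
  let σ : ι → Q := fun i => e.symm (Pi.mulSingle i (Multiplicative.ofAdd (1 : ZMod (n i))))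
  have hσpow : ∀ i, σ i ^ n i = 1 := by
    intro i
    show e.symm (Pi.mulSingle i (Multiplicative.ofAdd (1 : ZMod (n i)))) ^ n i = 1
    rw [← map_pow, ← Pi.mulSingle_pow, ← ofAdd_nsmul, nsmul_one, ZMod.natCast_self, ofAdd_zero,
      Pi.mulSingle_one, map_one]
  have hσgen : ∀ q : Q, q = ∏ i, σ i ^ (Multiplicative.toAdd (e q i)).val := by
    intro q
    apply e.injective
    rw [map_prod]
    conv_lhs => rw [← Finset.univ_prod_mulSingle (e q)]
    apply Finset.prod_congr rfl
    intro i _
    rw [map_pow]
    show Pi.mulSingle i (e q i) =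
      (e (e.symm (Pi.mulSingle i (Multiplicative.ofAdd (1 : ZMod (n i)))))) ^ _
    rw [MulEquiv.apply_symm_apply, ← Pi.mulSingle_pow]
    congr 1
    have : NeZero (n i) := ⟨by have := hn i; omega⟩
    rw [← ofAdd_nsmul, nsmul_one, ZMod.natCast_zmod_val]
    rfl
  -- lifts of the generators
  have hx : ∀ i, ∃ x : P, (Submodule.Quotient.mk x :
      P ⧸ (RingHom.ker ε • (⊤ : Submodule R P))) = Multiplicative.toAdd (D (σ i)) :=
    fun i => Submodule.Quotient.mk_surjective _ _
  choose x hx using hx
  have ra : ∀ i, (n i : R) • x i ∈ RingHom.ker ε • (⊤ : Submodule R P) := by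
    intro i
    rw [Nat.cast_smul_eq_nsmul, ← Submodule.Quotient.mk_eq_zero, ← Submodule.mkQ_apply,
      map_nsmul, Submodule.mkQ_apply, hx, ← toAdd_pow, ← map_pow, hσpow, map_one]
    rfl
  have rb : ∀ u, ∃ a : ι → ℕ, p u - ∑ i, (a i : R) • x i ∈
      RingHom.ker ε • (⊤ : Submodule R P) := by
    intro u
    obtain ⟨q, hq⟩ := hD u
    refine ⟨fun i => (Multiplicative.toAdd (e q i)).val, ?_⟩
    rw [← Submodule.Quotient.eq, ← Submodule.mkQ_apply, ← Submodule.mkQ_apply, map_sum]
    have h1 := congrArg Multiplicative.toAdd hq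
    rw [toAdd_ofAdd] at h1
    rw [Submodule.mkQ_apply, ← h1]
    conv_lhs => rw [hσgen q]
    rw [map_prod, toAdd_prod]
    apply Finset.sum_congr rfl
    intro i _
    rw [map_pow, toAdd_pow, ← hx, Nat.cast_smul_eq_nsmul, map_nsmul, Submodule.mkQ_apply]
  choose a ha using rb
  -- the generating family and the relation matrix
  let v : ι ⊕ U → P := Sum.elim x p
  have hv : Submodule.span R (Set.range v) = ⊤ := by
    rw [eq_top_iff, ← hp]
    apply Submodule.span_mono
    rw [Set.Sum.elim_range]
    exact Set.subset_union_right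
  let M₀ : Matrix (ι ⊕ U) (ι ⊕ U) R :=
    Matrix.fromBlocks (Matrix.diagonal fun i => (n i : R)) 0
      (-(Matrix.of fun u i => (a u i : R))) 1
  have hr : ∀ k, ∑ l, M₀ k l • v l ∈ RingHom.ker ε • (⊤ : Submodule R P) := by
    rintro (i | u)
    · have e1 : ∑ l, M₀ (Sum.inl i) l • v l = (n i : R) • x i := by
        rw [Fintype.sum_sum_type]
        simp [M₀, v, Matrix.diagonal_apply]
      rw [e1]; exact ra i
    · have e1 : ∑ l, M₀ (Sum.inr u) l • v l = p u - ∑ i, (a u i : R) • x i := by
        rw [Fintype.sum_sum_type]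
        simp [M₀, v, Matrix.one_apply]
        abel
      rw [e1]; exact ha u
  have hθ : ∀ k, ∃ θ : ι ⊕ U → R, (∀ l, θ l ∈ RingHom.ker ε) ∧
      ∑ l, θ l • v l = ∑ l, M₀ k l • v l := by
    intro k
    have h1 := hr k
    rw [← hv, Submodule.mem_ideal_smul_span_iff_exists_sum] at h1
    obtain ⟨c, hc, hsum⟩ := h1
    refine ⟨fun l => c l, hc, ?_⟩
    rw [← hsum, Finsupp.sum_fintype]
    intro i; exact zero_smul _ _
  choose θ hθJ hθsum using hθ
  let M : Matrix (ι ⊕ U) (ι ⊕ U) R := M₀ - Matrix.of θ
  have hM : ∀ k, ∑ l, M k l • v l = 0 := by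
    intro k
    simp only [M, Matrix.sub_apply, Matrix.of_apply, sub_smul, Finset.sum_sub_distrib]
    rw [hθsum k, sub_self]
  refine ⟨M.det, ?_, ?_⟩
  · have hk := det_smul_eq_zero M v hM
    intro y
    have hy : y ∈ Submodule.span R (Set.range v) := by rw [hv]; trivial
    induction hy using Submodule.span_induction with
    | mem z hz =>
      obtain ⟨k, rfl⟩ := hz
      exact hk k
    | zero => exact smul_zero _
    | add z w _ _ hz hw => rw [smul_add, hz, hw, add_zero]
    | smul r z _ hz => rw [smul_comm, hz, smul_zero]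
  · rw [RingHom.map_det]
    have hε0 : ∀ k l, ε (θ k l) = 0 := fun k l => (RingHom.mem_ker).mp (hθJ k l)
    have hmap : ε.mapMatrix M = Matrix.fromBlocks (Matrix.diagonal fun i => (n i : ℤ)) 0
        (-(Matrix.of fun u i => (a u i : ℤ))) 1 := by
      ext (k | k) (l | l)
      · by_cases hkl : k = l <;> simp [M, M₀, hε0, hkl]
      · simp [M, M₀, hε0]
      · simp [M, M₀, hε0]
      · by_cases hkl : k = l <;> simp [M, M₀, hε0, hkl]
    rw [hmap, Matrix.det_fromBlocks_zero₁₂, Matrix.det_diagonal, Matrix.det_one, mul_one,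
      Nat.card_congr e.toEquiv, Nat.card_pi]
    push_cast
    apply Finset.prod_congr rfl
    intro i _
    have hc : Nat.card (Multiplicative (ZMod (n i))) = n i := by
      rw [Nat.card_congr (Multiplicative.toAdd : Multiplicative (ZMod (n i)) ≃ ZMod (n i)),
        Nat.card_zmod]
    rw [hc]

/-! ### the group ring of the abelianization -/

section GroupRing

variable {Q : Type*} [CommGroup Q]

/-- the augmentation -/
noncomputable def aug : MonoidAlgebra ℤ Q →+* ℤ :=
  (MonoidAlgebra.lift ℤ ℤ Q (1 : Q →* ℤ)).toRingHom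

theorem aug_of (q : Q) : aug (MonoidAlgebra.of ℤ Q q) = 1 := by
  show MonoidAlgebra.lift ℤ ℤ Q (1 : Q →* ℤ) (MonoidAlgebra.of ℤ Q q) = 1
  rw [MonoidAlgebra.lift_of]; rfl

theorem aug_zsmul (c : ℤ) (x : MonoidAlgebra ℤ Q) : aug (c • x) = c * aug x := by
  show MonoidAlgebra.lift ℤ ℤ Q (1 : Q →* ℤ) (c • x) = c * MonoidAlgebra.lift ℤ ℤ Q (1 : Q →* ℤ) x
  rw [map_smul, smul_eq_mul]

variable [Fintype Q]

/-- the norm element -/
noncomputable def nrm : MonoidAlgebra ℤ Q := ∑ q : Q, MonoidAlgebra.of ℤ Q q

theorem mul_nrm (r : MonoidAlgebra ℤ Q) : r * nrm = aug r • (nrm : MonoidAlgebra ℤ Q) := by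
  induction r using MonoidAlgebra.induction_on with
  | of m =>
    rw [aug_of, one_smul, nrm, Finset.mul_sum]
    simp_rw [← map_mul]
    exact Fintype.sum_equiv (Equiv.mulLeft m) _ _ (fun q => rfl)
  | add x y hx hy => rw [add_mul, hx, hy, map_add, add_smul]
  | smul c x hx => rw [smul_mul_assoc, hx, aug_zsmul, mul_smul]

theorem eq_nrm_of (δ : MonoidAlgebra ℤ Q)
    (h : ∀ q : Q, δ * (MonoidAlgebra.of ℤ Q q - 1) = 0) (hε : aug δ = Nat.card Q) :
    δ = nrm := by
  have h1 : δ * nrm = (Nat.card Q : ℤ) • δ := by
    rw [nrm, Finset.mul_sum]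
    have h2 : ∀ q : Q, δ * MonoidAlgebra.of ℤ Q q = δ := by
      intro q
      have := h q
      rw [mul_sub, mul_one, sub_eq_zero] at this
      exact this
    simp_rw [h2]
    rw [Finset.sum_const, Finset.card_univ, Nat.card_eq_fintype_card, natCast_zsmul]
  rw [mul_nrm, hε] at h1
  have hne : (Nat.card Q : ℤ) ≠ 0 := by
    have : 0 < Nat.card Q := Nat.card_pos
    exact_mod_cast this.ne'
  have h3 := congrArg MonoidAlgebra.coeff h1
  rw [MonoidAlgebra.coeff_smul, MonoidAlgebra.coeff_smul] at h3
  apply MonoidAlgebra.coeff_injective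
  ext m
  have h4 := DFunLike.congr_fun h3 m
  simp only [Finsupp.smul_apply, smul_eq_mul] at h4
  exact (mul_left_cancel₀ hne h4).symm

end GroupRing

/-! ### crossed differentials -/

section Main

variable {G : Type*} [Group G]

/-- the chosen representatives of the classes modulo the commutator subgroup -/
noncomputable def rep (q : Abelianization G) : G := Quotient.out q

theorem of_rep (q : Abelianization G) : Abelianization.of (rep q) = q :=
  QuotientGroup.out_eq' q

/-- the element `t(ūq)⁻¹ u t(q)` of the commutator subgroup -/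
noncomputable def crossed (u : G) (q : Abelianization G) : ↥(commutator G) :=
  ⟨(rep (Abelianization.of u * q))⁻¹ * u * rep q, by
    rw [← Abelianization.ker_of, MonoidHom.mem_ker, map_mul, map_mul, map_inv, of_rep, of_rep]
    rw [mul_inv_rev, mul_assoc, mul_assoc, inv_mul_cancel_left, inv_mul_cancel]⟩

theorem crossed_mul (u v : G) (q : Abelianization G) :
    crossed (u * v) q = crossed u (q * Abelianization.of v) * crossed v q := by
  apply Subtype.ext
  show (rep (Abelianization.of (u * v) * q))⁻¹ * (u * v) * rep q =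
    ((rep (Abelianization.of u * (q * Abelianization.of v)))⁻¹ * u *
      rep (q * Abelianization.of v)) * ((rep (Abelianization.of v * q))⁻¹ * v * rep q)
  rw [map_mul, mul_comm q (Abelianization.of v), ← mul_assoc (Abelianization.of u)]
  group

variable {A : Type*} [CommGroup A] (ϕ : ↥(commutator G) →* A)

/-- the free module on `G` over the group ring of the abelianization -/
abbrev Phi (G : Type*) [Group G] : Type _ := G →₀ MonoidAlgebra ℤ (Abelianization G)

/-- the additive map `q • e_u ↦ ϕ (t(ūq)⁻¹ u t(q))` -/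
noncomputable def rho : Phi G →+ Additive A :=
  Finsupp.liftAddHom (fun u : G =>
    (Finsupp.liftAddHom (fun q : Abelianization G =>
      (zmultiplesHom (Additive A)) (Additive.ofMul (ϕ (crossed u q))))).comp
      (MonoidAlgebra.coeffAddEquiv : MonoidAlgebra ℤ (Abelianization G) ≃+ _).toAddMonoidHom)

theorem rho_single (u : G) (q : Abelianization G) :
    rho ϕ (Finsupp.single u (MonoidAlgebra.of ℤ (Abelianization G) q)) =
      Additive.ofMul (ϕ (crossed u q)) := by
  unfold rho
  rw [Finsupp.liftAddHom_apply_single]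
  show Finsupp.liftAddHom _ ((MonoidAlgebra.of ℤ (Abelianization G) q).coeff) = _
  rw [MonoidAlgebra.of_apply, MonoidAlgebra.coeff_single, Finsupp.liftAddHom_apply_single,
    zmultiplesHom_apply, one_smul]

/-- the defining relations of the module of crossed differentials -/
noncomputable def relS (uv : G × G) : Phi G :=
  Finsupp.single (uv.1 * uv.2) 1 -
    MonoidAlgebra.of ℤ (Abelianization G) (Abelianization.of uv.2) • Finsupp.single uv.1 1 -
    Finsupp.single uv.2 1

/-- the relation submodule -/
noncomputable def relK (G : Type*) [Group G] : Submodule (MonoidAlgebra ℤ (Abelianization G)) (Phi G) :=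
  Submodule.span _ (Set.range relS)

theorem rho_smul_relS (uv : G × G) (r : MonoidAlgebra ℤ (Abelianization G)) :
    rho ϕ (r • relS uv) = 0 := by
  induction r using MonoidAlgebra.induction_on with
  | of q =>
    obtain ⟨u, v⟩ := uv
    simp only [relS, smul_sub, Finsupp.smul_single, smul_eq_mul, mul_one, map_sub,
      ← map_mul, rho_single]
    rw [crossed_mul, map_mul, ofMul_mul]
    abel
  | add x y hx hy => rw [add_smul, map_add, hx, hy, add_zero]
  | smul c x hx => rw [smul_assoc, map_zsmul, hx, smul_zero]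

theorem rho_relK : ∀ x ∈ relK G, rho ϕ x = 0 := by
  have key : ∀ x ∈ relK G, ∀ r : MonoidAlgebra ℤ (Abelianization G), rho ϕ (r • x) = 0 := by
    intro x hx
    induction hx using Submodule.span_induction with
    | mem y hy =>
      obtain ⟨uv, rfl⟩ := hy
      exact rho_smul_relS ϕ uv
    | zero => intro r; rw [smul_zero, map_zero]
    | add y z _ _ hy hz => intro r; rw [smul_add, map_add, hy, hz, add_zero]
    | smul s y _ hy => intro r; rw [smul_smul]; exact hy _
  intro x hx
  have := key x hx 1
  rwa [one_smul] at this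

/-- the linear map `e_u ↦ ū - 1` -/
noncomputable def piR (G : Type*) [Group G] : Phi G →ₗ[MonoidAlgebra ℤ (Abelianization G)]
    MonoidAlgebra ℤ (Abelianization G) :=
  Finsupp.linearCombination _ (fun u : G =>
    MonoidAlgebra.of ℤ (Abelianization G) (Abelianization.of u) - 1)

theorem relK_le_ker : relK G ≤ LinearMap.ker (piR G) := by
  unfold relK
  rw [Submodule.span_le]
  rintro _ ⟨⟨u, v⟩, rfl⟩
  rw [SetLike.mem_coe, LinearMap.mem_ker]
  simp only [relS, piR, map_sub, map_smul, Finsupp.linearCombination_single,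
    smul_eq_mul, map_mul]
  ring

/-- the identification of the quotient by the commutator subgroup with the abelianization -/
def toAb (G : Type*) [Group G] : G ⧸ commutator G ≃ Abelianization G := Equiv.refl _

theorem transfer_eq_prod_crossed [Finite G] [Fintype (Abelianization G)] (g : G) :
    MonoidHom.transfer ϕ g = ∏ q : Abelianization G, ϕ (crossed g q) := by
  classical
  have hf : ∀ q : G ⧸ commutator G, ((Quotient.out q : G) : G ⧸ commutator G) = q :=
    fun q => q.out_eq'
  let T : (commutator G).LeftTransversal :=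
    ⟨Set.range Quotient.out, Subgroup.isComplement_range_left hf⟩
  rw [MonoidHom.transfer_def ϕ T g]
  unfold Subgroup.leftTransversals.diff
  rw [← Fintype.prod_equiv (Equiv.mulLeft (Abelianization.of g)⁻¹)
    (fun q => ϕ (crossed g ((Abelianization.of g)⁻¹ * q))) (fun q => ϕ (crossed g q))
    (fun q => rfl)]
  refine @Fintype.prod_equiv _ _ _ (commutator G).fintypeQuotientOfFiniteIndex _ _ (toAb G) _ _ ?_
  intro q
  congr 1
  apply Subtype.ext
  show ((T.2.leftQuotientEquiv q : G))⁻¹ * ((g • T).2.leftQuotientEquiv q : G) =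
    (rep (Abelianization.of g * ((Abelianization.of g)⁻¹ * toAb G q)))⁻¹ * g *
      rep ((Abelianization.of g)⁻¹ * toAb G q)
  have h2 : ∀ q' : G ⧸ commutator G, (T.2.leftQuotientEquiv q' : G) = q'.out :=
    fun q' => Subgroup.IsComplement.leftQuotientEquiv_apply hf q'
  have e1 : (Abelianization.of g)⁻¹ * toAb G q = toAb G (g⁻¹ • q) := by
    obtain ⟨x, rfl⟩ := QuotientGroup.mk_surjective q
    rfl
  rw [Subgroup.smul_apply_eq_smul_apply_inv_smul, h2, h2, mul_inv_cancel_left, smul_eq_mul,
    mul_assoc, e1]
  rfl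

theorem rho_nrm [Fintype (Abelianization G)] (u : G) :
    rho ϕ ((nrm : MonoidAlgebra ℤ (Abelianization G)) • Finsupp.single u 1) =
      Additive.ofMul (∏ q : Abelianization G, ϕ (crossed u q)) := by
  rw [nrm, Finset.sum_smul, map_sum, ofMul_prod]
  apply Finset.sum_congr rfl
  intro q _
  rw [Finsupp.smul_single, smul_eq_mul, mul_one, rho_single]

theorem span_single_top :
    Submodule.span (MonoidAlgebra ℤ (Abelianization G))
      (Set.range fun u : G => (Finsupp.single u 1 : Phi G)) = ⊤ := by
  rw [eq_top_iff]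
  intro f _
  induction f using Finsupp.induction_linear with
  | zero => exact Submodule.zero_mem _
  | add f g hf hg => exact Submodule.add_mem _ (hf trivial) (hg trivial)
  | single u r =>
    have e : (Finsupp.single u r : Phi G) = r • Finsupp.single u 1 := by
      rw [Finsupp.smul_single, smul_eq_mul, mul_one]
    rw [e]
    exact Submodule.smul_mem _ _ (Submodule.subset_span ⟨u, rfl⟩)

theorem nrm_smul_mem [Finite G] [Fintype (Abelianization G)] (u : G) :
    (nrm : MonoidAlgebra ℤ (Abelianization G)) • (Finsupp.single u 1 : Phi G) ∈ relK G := by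
  classical
  letI : Fintype G := Fintype.ofFinite G
  -- the quotient module
  let p : G → Phi G ⧸ relK G := fun u => Submodule.Quotient.mk (Finsupp.single u 1)
  have hp : Submodule.span (MonoidAlgebra ℤ (Abelianization G)) (Set.range p) = ⊤ := by
    have h1 : Set.range p = (Submodule.mkQ (relK G)) '' (Set.range fun u : G =>
        (Finsupp.single u 1 : Phi G)) := by
      rw [← Set.range_comp]; rfl
    rw [h1, ← Submodule.map_span, span_single_top, Submodule.map_top, Submodule.range_mkQ]
  -- the homomorphism into the quotient modulo the augmentation ideal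
  have hrel : ∀ a b : G, p (a * b) =
      MonoidAlgebra.of ℤ (Abelianization G) (Abelianization.of b) • p a + p b := by
    intro a b
    show Submodule.Quotient.mk (Finsupp.single (a * b) 1) =
      MonoidAlgebra.of ℤ (Abelianization G) (Abelianization.of b) •
        Submodule.Quotient.mk (Finsupp.single a 1) + Submodule.Quotient.mk (Finsupp.single b 1)
    rw [← Submodule.Quotient.mk_smul, ← Submodule.Quotient.mk_add, Submodule.Quotient.eq]
    have h : relS (a, b) ∈ relK G := Submodule.subset_span ⟨(a, b), rfl⟩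
    have e : (Finsupp.single (a * b) 1 : Phi G) -
        (MonoidAlgebra.of ℤ (Abelianization G) (Abelianization.of b) • Finsupp.single a 1 +
          Finsupp.single b 1) = relS (a, b) := by
      unfold relS; abel
    rw [e]; exact h
  let D₀ : G →* Multiplicative ((Phi G ⧸ relK G) ⧸
      (RingHom.ker (aug : MonoidAlgebra ℤ (Abelianization G) →+* ℤ) •
        (⊤ : Submodule (MonoidAlgebra ℤ (Abelianization G)) (Phi G ⧸ relK G)))) :=
    MonoidHom.mk' (fun a => Multiplicative.ofAdd (Submodule.Quotient.mk (p a))) (by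
      intro a b
      rw [← ofAdd_add]
      congr 1
      rw [hrel, Submodule.Quotient.mk_add]
      congr 1
      rw [Submodule.Quotient.eq]
      have e : MonoidAlgebra.of ℤ (Abelianization G) (Abelianization.of b) • p a - p a =
          (MonoidAlgebra.of ℤ (Abelianization G) (Abelianization.of b) - 1) • p a := by
        rw [sub_smul, one_smul]
      rw [e]
      refine Submodule.smul_mem_smul ?_ trivial
      rw [RingHom.mem_ker, map_sub, aug_of, map_one, sub_self])
  obtain ⟨δ, hδ, hεδ⟩ := exists_annihilator (aug : MonoidAlgebra ℤ (Abelianization G) →+* ℤ) p hp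
    (Abelianization.lift D₀) (fun a => ⟨Abelianization.of a, by
      rw [Abelianization.lift_apply_of]; rfl⟩)
  have h1 : ∀ a : G, δ • (Finsupp.single a 1 : Phi G) ∈ relK G := by
    intro a
    have h := hδ (p a)
    rw [← Submodule.Quotient.mk_smul, Submodule.Quotient.mk_eq_zero] at h
    exact h
  have h2 : ∀ q : Abelianization G, δ * (MonoidAlgebra.of ℤ (Abelianization G) q - 1) = 0 := by
    intro q
    obtain ⟨a, rfl⟩ := QuotientGroup.mk_surjective q
    have h := relK_le_ker (h1 a)
    rw [LinearMap.mem_ker, map_smul, piR, Finsupp.linearCombination_single, one_smul,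
      smul_eq_mul] at h
    exact h
  have h3 : δ = nrm := eq_nrm_of δ h2 hεδ
  rw [← h3]
  exact h1 u

end Main

/-- The Principal Ideal Theorem of class field theory in its group-theoretic form: for every finite group `G`, the transfer homomorphism from `G` into the abelianization `G'/G''` of its derived subgroup `G'` is the trivial homomorphism. -/
theorem result {G : Type*} [Group G] [Finite G] :
    MonoidHom.transfer (Abelianization.of : ↥(commutator G) →* Abelianization ↥(commutator G)) =
      (1 : G →* Abelianization ↥(commutator G)) := by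
  classical
  letI : Fintype (Abelianization G) := Fintype.ofFinite _
  ext u
  rw [transfer_eq_prod_crossed, MonoidHom.one_apply]
  have h := rho_relK (Abelianization.of : ↥(commutator G) →* Abelianization ↥(commutator G)) _
    (nrm_smul_mem u)
  rw [rho_nrm] at h
  exact h

end Cfsg.Agent.S4320
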