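import Cfsg.Statements.S4421

set_option autoImplicit false
open Cfsg

namespace Cfsg.Agent.S4421

theorem map_conj_eq_of_mem_normalizer {G : Type*} [Group G] (K : Subgroup G) (g : G)
    (hg : g ∈ Subgroup.normalizer (K : Set G)) : K.map (MulAut.conj g).toMonoidHom = K := by
  ext x
  simp only [Subgroup.mem_map, MulEquiv.coe_toMonoidHom, MulAut.conj_apply]
  constructor
  · rintro ⟨k, hk, rfl⟩
    exact (Subgroup.mem_normalizer_iff.mp hg k).mp hk
  · intro hx
    refine ⟨g⁻¹ * x * g, ?_, by group⟩
    have := (Subgroup.mem_normalizer_iff.mp (inv_mem hg) x).mp hx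
    simpa using this

theorem mem_normalizer_of_map_conj_eq {G : Type*} [Group G] (K : Subgroup G) (g : G)
    (hg : K.map (MulAut.conj g).toMonoidHom = K) : g ∈ Subgroup.normalizer (K : Set G) := by
  rw [Subgroup.mem_normalizer_iff]
  intro h
  constructor
  · intro hh
    rw [← hg]
    exact ⟨h, hh, by simp⟩
  · intro hh
    rw [← hg] at hh
    obtain ⟨k, hk, hkeq⟩ := hh
    simp only [MulEquiv.coe_toMonoidHom, MulAut.conj_apply] at hkeq
    have : k = h := by
      have := congrArg (fun t => g⁻¹ * t * g) hkeq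
      simpa [mul_assoc] using this
    exact this ▸ hk

theorem map_conj_mul {G : Type*} [Group G] (K : Subgroup G) (g h : G) :
    K.map (MulAut.conj (g * h)).toMonoidHom
      = (K.map (MulAut.conj h).toMonoidHom).map (MulAut.conj g).toMonoidHom := by
  rw [Subgroup.map_map]
  congr 1
  ext x
  simp [mul_assoc]

/-- A factorization of a normalizer from two-step control of fusion. Let `G` be a finite group and `A ≤ S ≤ H` subgroups of `G` such that: (i) `S` controls the `G`-fusion of `A` in the sense that every `G`-conjugate of `A` lying in `S` is an `S`-conjugate of `A`; (ii) `H` controls the `G`-fusion of `S` in the same sense; (iii) every conjugate of `S` by an element of the normalizer of `A` lies in `H`. Then `N_G(A) = N_H(A) · (N_G(S) ∩ N_G(A))`: every element of the normalizer of `A` is a product of an element of `H` normalizing `A` and an element normalizing both `S` and `A`. -/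
theorem result {G : Type*} [Group G] [Finite G] (A S H : Subgroup G)
    (hAS : A ≤ S) (hSH : S ≤ H)
    (h1 : ∀ g : G, A.map (MulAut.conj g).toMonoidHom ≤ S → ∃ s ∈ S, A.map (MulAut.conj g).toMonoidHom = A.map (MulAut.conj s).toMonoidHom)
    (h2 : ∀ g : G, S.map (MulAut.conj g).toMonoidHom ≤ H → ∃ y ∈ H, S.map (MulAut.conj g).toMonoidHom = S.map (MulAut.conj y).toMonoidHom)
    (h3 : ∀ x ∈ Subgroup.normalizer (A : Set G), S.map (MulAut.conj x).toMonoidHom ≤ H) :
    ∀ x ∈ Subgroup.normalizer (A : Set G), ∃ y ∈ H ⊓ Subgroup.normalizer (A : Set G),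
      ∃ z ∈ Subgroup.normalizer (S : Set G) ⊓ Subgroup.normalizer (A : Set G), x = y * z := by
  intro x hx
  obtain ⟨y, hyH, hy⟩ := h2 x (h3 x hx)
  -- w = y⁻¹ * x normalizes S
  have hwS : S.map (MulAut.conj (y⁻¹ * x)).toMonoidHom = S := by
    rw [map_conj_mul, hy, ← map_conj_mul]
    simp
    exact Subgroup.map_id S
  have hxA := map_conj_eq_of_mem_normalizer A x hx
  have hwA : A.map (MulAut.conj (y⁻¹ * x)).toMonoidHom = A.map (MulAut.conj y⁻¹).toMonoidHom := by
    rw [map_conj_mul, hxA]
  have hle : A.map (MulAut.conj y⁻¹).toMonoidHom ≤ S := by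
    rw [← hwA]
    calc A.map (MulAut.conj (y⁻¹ * x)).toMonoidHom
        ≤ S.map (MulAut.conj (y⁻¹ * x)).toMonoidHom := Subgroup.map_mono hAS
      _ = S := hwS
  obtain ⟨s, hsS, hs⟩ := h1 y⁻¹ hle
  have hysA : A.map (MulAut.conj (y * s)).toMonoidHom = A := by
    rw [map_conj_mul, ← hs, ← map_conj_mul]
    simp
    exact Subgroup.map_id A
  have hysN : y * s ∈ Subgroup.normalizer (A : Set G) := mem_normalizer_of_map_conj_eq A _ hysA
  have hwN : y⁻¹ * x ∈ Subgroup.normalizer (S : Set G) := mem_normalizer_of_map_conj_eq S _ hwS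
  refine ⟨y * s, ⟨mul_mem hyH (hSH hsS), hysN⟩, (y * s)⁻¹ * x, ⟨?_, ?_⟩, by group⟩
  · have : (y * s)⁻¹ * x = s⁻¹ * (y⁻¹ * x) := by group
    rw [this]
    exact Subgroup.mul_mem _ (Subgroup.inv_mem _ (Subgroup.le_normalizer hsS)) hwN
  · exact Subgroup.mul_mem _ (Subgroup.inv_mem _ hysN) hx

end Cfsg.Agent.S4421
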