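import Cfsg.Statements.S4427
import Cfsg.Agent.Lib.Helper44.Frob3.Main
import Cfsg.Agent.Lib.Helper6.Frob3.Words
import Cfsg.Agent.Lib.Helper96.Frob3.Expand
import Cfsg.Agent.Lib.Helper77.Frob3.Idem
import Cfsg.Agent.Lib.Helper48.Frob3.Trace
import Cfsg.Agent.Lib.Helper48.Frob3.Trace0
import Cfsg.Agent.Lib.Helper83.Frob3.Rep
import Cfsg.Agent.Lib.Helper83.Frob3.Alg
import Cfsg.Agent.Lib.Helper25.Frob3.Orth
import Cfsg.Agent.Lib.Helper62.Frob3.Psi
import Cfsg.Agent.Lib.Helper27.Frob3.Finish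

set_option autoImplicit false
open Cfsg

namespace Cfsg.Agent.S4427

/-- Let G be a finite group of order p^a · q^b · r^c with p, q, r distinct primes, and suppose that G has exactly q^b · r^c elements of order not divisible by p. Then G has a normal p-complement: a normal subgroup of order q^b · r^c. -/
theorem result {G : Type*} [Group G] [Finite G] (p q r a b c : ℕ) (hp : p.Prime) (hq : q.Prime) (hr : r.Prime) (hpq : p ≠ q) (hpr : p ≠ r) (hqr : q ≠ r) (hG : Nat.card G = p ^ a * q ^ b * r ^ c) (hcount : Nat.card {g : G // ¬ p ∣ orderOf g} = q ^ b * r ^ c) : ∃ N : Subgroup G, N.Normal ∧ Nat.card N = q ^ b * r ^ c := by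
  exact Cfsg.Agent.Lib.Helper44.Frob3.s4427_of
    Cfsg.Agent.Lib.Helper6.Frob3.pkgWords
    Cfsg.Agent.Lib.Helper96.Frob3.pkgExpand
    Cfsg.Agent.Lib.Helper77.Frob3.pkgIdem
    Cfsg.Agent.Lib.Helper48.Frob3.pkgTrace
    Cfsg.Agent.Lib.Helper48.Frob3.pkgTrace0
    Cfsg.Agent.Lib.Helper83.Frob3.pkgRep
    Cfsg.Agent.Lib.Helper83.Frob3.pkgAlg
    Cfsg.Agent.Lib.Helper25.Frob3.pkgOrth
    Cfsg.Agent.Lib.Helper62.Frob3.pkgPsi
    Cfsg.Agent.Lib.Helper27.Frob3.pkgFinish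
    p q r a b c hp hq hr hpq hpr hqr hG hcount

end Cfsg.Agent.S4427
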