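import Cfsg.Statements.S4428
import Mathlib
import Cfsg.Agent.Lib.Helper78.ThirdMain
import Cfsg.Agent.Lib.Helper78.HeightZero
import Cfsg.Agent.Lib.Helper75.Glaub2
import Cfsg.Agent.Lib.Helper26.VChar
import Cfsg.Agent.Lib.Helper75.CharInd
import Cfsg.Agent.Lib.Helper76.PRegHeight

set_option autoImplicit false
open Cfsg

namespace Cfsg.Agent.S4428

open Cfsg.Agent.Lib.Helper16 Cfsg.Agent.Lib.Helper76 Cfsg.Agent.Lib.Helper77 Cfsg.Agent.Lib.Helper78
open scoped ComplexConjugate

/-- Let χ be an irreducible character of height zero in the p-block B of the finite group G (relative to a maximal ideal M of the algebraic integers containing p). Let x be a p-element of G with centralizer C, and let b be a block of C that induces B. Form the class function ϑ(c) = χ(x c) on C and its b-part (the sum over ψ ∈ b of the inner product of ϑ with ψ, times ψ). Then the b-part of ϑ does not vanish identically on the p-regular elements of C. (Compare the second main Theorem, which gives vanishing when b does not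 induce B.) -/
theorem result {G : Type*} [Group G] [Finite G] (p : ℕ) [Fact p.Prime] (M : Ideal Cfsg.AlgInt) (hM : Cfsg.IsPModular p M) (B : Set (Cfsg.IrrCharacter G)) (hB : Cfsg.IsPBlock M B) (χ : Cfsg.IrrCharacter G) (hχ : χ ∈ B) (h0 : Cfsg.blockHeight p B (χ : G → ℂ) = 0) (x : G) (hx : ∃ k : ℕ, orderOf x = p ^ k) (b : Set (Cfsg.IrrCharacter (Subgroup.centralizer ({x} : Set G)))) (hb : Cfsg.IsInducedBlock M (Subgroup.centralizer ({x} : Set G)) b B) : ∃ y : Subgroup.centralizer ({x} : Set G), ¬ p ∣ orderOf y ∧ Cfsg.blockPart b (fun c : Subgroup.centralizer ({x} : Set G) => (χ : G → ℂ) (x * (c : G))) y ≠ 0 := by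
  classical
  letI : Fintype G := Fintype.ofFinite G
  letI : Fintype (Subgroup.centralizer ({x} : Set G)) := Fintype.ofFinite _
  have := Cfsg.Agent.Lib.Helper81.irr_finite (Subgroup.centralizer ({x} : Set G))
  letI : Fintype (Cfsg.IrrCharacter (Subgroup.centralizer ({x} : Set G))) := Fintype.ofFinite _
  have hP := isPrime_of_isPModular hM
  obtain ⟨k, hk⟩ := hx
  have hbb := hb.1
  obtain ⟨ξ, hξ⟩ := IsPBlock.nonempty hP hbb
  by_contra hcon
  push Not at hcon
  have hT := not_memLocalIdeal_omegaF_res_pRegConj hM _ b B hb χ hχ h0 ξ hξ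
  apply hT
  have hxC : x ∈ Subgroup.centralizer ({x} : Set G) := by
    rw [Subgroup.mem_centralizer_iff]
    intro h hh
    rw [Set.mem_singleton_iff] at hh
    rw [hh]
  have hx'c : (⟨x, hxC⟩ : Subgroup.centralizer ({x} : Set G)) ∈
      Subgroup.center (Subgroup.centralizer ({x} : Set G)) := by
    rw [Subgroup.mem_center_iff]
    intro c
    apply Subtype.ext
    show (c : G) * x = x * (c : G)
    have := c.2
    rw [Subgroup.mem_centralizer_iff] at this
    exact (this x rfl).symm
  have hord : orderOf (⟨x, hxC⟩ : Subgroup.centralizer ({x} : Set G)) = p ^ k := by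
    rw [← hk, ← Subgroup.orderOf_coe]
  -- central scalars
  have hsc : ∀ ψ : Cfsg.IrrCharacter (Subgroup.centralizer ({x} : Set G)), ∃ ω : ℂ,
      ω ^ (p ^ k) = 1 ∧ ∀ c : Subgroup.centralizer ({x} : Set G),
        (ψ : Subgroup.centralizer ({x} : Set G) → ℂ) (c * ⟨x, hxC⟩) =
          ω * (ψ : Subgroup.centralizer ({x} : Set G) → ℂ) c := by
    intro ψ
    obtain ⟨ω, h1, h2⟩ := Cfsg.Agent.Lib.Helper75.central_scalar ψ.2 _ hx'c
    refine ⟨ω, by rw [← hord]; exact h1, fun c => ?_⟩
    have := h2 c 1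
    rwa [pow_one, pow_one] at this
  choose ω hω1 hω2 using hsc
  have hωc : ∀ ψ, ω ψ * conj (ω ψ) = 1 := by
    intro ψ
    have h1 : ‖ω ψ‖ = 1 :=
      Complex.norm_eq_one_of_pow_eq_one (hω1 ψ) (pow_pos hM.1.pos k).ne'
    rw [Complex.mul_conj, Complex.normSq_eq_norm_sq, h1]
    simp
  -- expansion of the restriction
  obtain ⟨m, hm⟩ := Cfsg.Agent.Lib.Helper26.character_expansion
    (Cfsg.Agent.Lib.Helper75.isCharacter_res (Subgroup.centralizer ({x} : Set G))
      (Cfsg.Agent.Lib.Helper26.isCharacter_of_irr χ.2))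
  have hm' : ∀ c : Subgroup.centralizer ({x} : Set G), (χ : G → ℂ) (c : G) =
      ∑ ψ : Cfsg.IrrCharacter (Subgroup.centralizer ({x} : Set G)),
        (m ψ : ℂ) * (ψ : Subgroup.centralizer ({x} : Set G) → ℂ) c := by
    intro c
    have := congrFun hm c
    simp only [Finset.sum_apply, Pi.smul_apply, smul_eq_mul] at this
    exact this
  -- inner products of ϑ
  have hin : ∀ ψ : Cfsg.IrrCharacter (Subgroup.centralizer ({x} : Set G)),
      Cfsg.classInner (fun c : Subgroup.centralizer ({x} : Set G) => (χ : G → ℂ) (x * (c : G)))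
        (ψ : Subgroup.centralizer ({x} : Set G) → ℂ) = ω ψ * (m ψ : ℂ) := by
    intro ψ
    have h1 : Cfsg.classInner (fun c : Subgroup.centralizer ({x} : Set G) => (χ : G → ℂ) (c : G))
        (ψ : Subgroup.centralizer ({x} : Set G) → ℂ) = (m ψ : ℂ) := by
      rw [hm]
      exact Cfsg.Agent.Lib.Helper26.classInner_expansion_irr _ ψ
    rw [← h1]
    unfold Cfsg.classInner
    have hsum : ∑ c : Subgroup.centralizer ({x} : Set G), (χ : G → ℂ) (x * (c : G)) *
          conj ((ψ : Subgroup.centralizer ({x} : Set G) → ℂ) c) =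
        ∑ c : Subgroup.centralizer ({x} : Set G), ω ψ * ((χ : G → ℂ) (c : G) *
          conj ((ψ : Subgroup.centralizer ({x} : Set G) → ℂ) c)) := by
      refine Fintype.sum_equiv
        (Equiv.mulLeft (⟨x, hxC⟩ : Subgroup.centralizer ({x} : Set G)))
        (fun c : Subgroup.centralizer ({x} : Set G) => (χ : G → ℂ) (x * (c : G)) *
          conj ((ψ : Subgroup.centralizer ({x} : Set G) → ℂ) c))
        (fun c : Subgroup.centralizer ({x} : Set G) => ω ψ * ((χ : G → ℂ) (c : G) *
          conj ((ψ : Subgroup.centralizer ({x} : Set G) → ℂ) c)))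
        (fun c => ?_)
      have e1 : (ψ : Subgroup.centralizer ({x} : Set G) → ℂ)
          ((⟨x, hxC⟩ : Subgroup.centralizer ({x} : Set G)) * c) =
          ω ψ * (ψ : Subgroup.centralizer ({x} : Set G) → ℂ) c := by
        rw [← hω2 ψ c, (Subgroup.mem_center_iff.1 hx'c c)]
      show (χ : G → ℂ) (x * (c : G)) * conj ((ψ : Subgroup.centralizer ({x} : Set G) → ℂ) c) =
        ω ψ * ((χ : G → ℂ) (x * (c : G)) *
          conj ((ψ : Subgroup.centralizer ({x} : Set G) → ℂ)
            ((⟨x, hxC⟩ : Subgroup.centralizer ({x} : Set G)) * c)))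
      rw [e1, map_mul]
      linear_combination (-(χ : G → ℂ) (x * (c : G)) *
        conj ((ψ : Subgroup.centralizer ({x} : Set G) → ℂ) c)) * hωc ψ
    beta_reduce
    rw [hsum, ← Finset.mul_sum]
    ring
  -- the vanishing hypothesis as finite sums
  have hF : ∀ y : Subgroup.centralizer ({x} : Set G), ¬ p ∣ orderOf y →
      ∑ ψ : Cfsg.IrrCharacter (Subgroup.centralizer ({x} : Set G)),
        (if ψ ∈ b then ω ψ * (m ψ : ℂ) * (ψ : Subgroup.centralizer ({x} : Set G) → ℂ) y
          else 0) = 0 := by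
    intro y hy
    have h1 := hcon y hy
    unfold Cfsg.blockPart at h1
    rw [finsum_mem_eq_sum_ite] at h1
    refine Eq.trans (Finset.sum_congr rfl fun ψ _ => ?_) h1
    split_ifs
    · exact congrArg (· * (ψ : Subgroup.centralizer ({x} : Set G) → ℂ) y) (hin ψ).symm
    · rfl
  -- the numbers Ω ψ
  have hΩR : ∀ ψ : Cfsg.IrrCharacter (Subgroup.centralizer ({x} : Set G)),
      MemLocalRing M (omegaF (ξ : Subgroup.centralizer ({x} : Set G) → ℂ)
        (pRegConj p (ψ : Subgroup.centralizer ({x} : Set G) → ℂ))) := by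
    intro ψ
    rw [Cfsg.Agent.Lib.Helper16.omegaF_eq]
    exact memLocalRing_omega hP ξ (isRClass_pRegConj hP p ψ)
  have hΩ0 : ∀ ψ : Cfsg.IrrCharacter (Subgroup.centralizer ({x} : Set G)), ψ ∉ b →
      omegaF (ξ : Subgroup.centralizer ({x} : Set G) → ℂ)
        (pRegConj p (ψ : Subgroup.centralizer ({x} : Set G) → ℂ)) = 0 :=
    fun ψ hψ => omegaF_pRegConj_eq_zero hM b hbb ξ hξ ψ hψ
  have hreg : ∀ c : Subgroup.centralizer ({x} : Set G), pRegConj p (χ : G → ℂ) (c : G) =
      ∑ ψ : Cfsg.IrrCharacter (Subgroup.centralizer ({x} : Set G)),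
        (m ψ : ℂ) * pRegConj p (ψ : Subgroup.centralizer ({x} : Set G) → ℂ) c := by
    intro c
    unfold pRegConj
    rw [Subgroup.orderOf_coe]
    split_ifs with h
    · simp
    · rw [hm' c, map_sum]
      refine Finset.sum_congr rfl fun ψ _ => ?_
      rw [map_mul, Complex.conj_natCast]
  -- T as a sum
  have hTsum : omegaF (ξ : Subgroup.centralizer ({x} : Set G) → ℂ)
      (fun c : Subgroup.centralizer ({x} : Set G) => pRegConj p (χ : G → ℂ) (c : G)) =
      ∑ ψ : Cfsg.IrrCharacter (Subgroup.centralizer ({x} : Set G)),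
        (if ψ ∈ b then (m ψ : ℂ) * omegaF (ξ : Subgroup.centralizer ({x} : Set G) → ℂ)
          (pRegConj p (ψ : Subgroup.centralizer ({x} : Set G) → ℂ)) else 0) := by
    have h1 : ∀ ψ : Cfsg.IrrCharacter (Subgroup.centralizer ({x} : Set G)),
        (if ψ ∈ b then (m ψ : ℂ) * omegaF (ξ : Subgroup.centralizer ({x} : Set G) → ℂ)
          (pRegConj p (ψ : Subgroup.centralizer ({x} : Set G) → ℂ)) else 0) =
        (m ψ : ℂ) * omegaF (ξ : Subgroup.centralizer ({x} : Set G) → ℂ)
          (pRegConj p (ψ : Subgroup.centralizer ({x} : Set G) → ℂ)) := by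
      intro ψ
      split_ifs with h
      · rfl
      · rw [hΩ0 ψ h, mul_zero]
    rw [Finset.sum_congr rfl fun ψ _ => h1 ψ]
    unfold omegaF
    have h2 : ∑ c : Subgroup.centralizer ({x} : Set G), pRegConj p (χ : G → ℂ) (c : G) *
          (ξ : Subgroup.centralizer ({x} : Set G) → ℂ) c =
        ∑ ψ : Cfsg.IrrCharacter (Subgroup.centralizer ({x} : Set G)), (m ψ : ℂ) *
          ∑ c : Subgroup.centralizer ({x} : Set G),
            pRegConj p (ψ : Subgroup.centralizer ({x} : Set G) → ℂ) c *
              (ξ : Subgroup.centralizer ({x} : Set G) → ℂ) c := by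
      simp_rw [hreg, Finset.sum_mul]
      rw [Finset.sum_comm]
      refine Finset.sum_congr rfl fun ψ _ => ?_
      rw [Finset.mul_sum]
      refine Finset.sum_congr rfl fun c _ => ?_
      ring
    rw [h2, Finset.sum_div]
    refine Finset.sum_congr rfl fun ψ _ => ?_
    rw [mul_div_assoc]
  -- Z = 0
  have hZ : ∑ ψ : Cfsg.IrrCharacter (Subgroup.centralizer ({x} : Set G)),
      (if ψ ∈ b then conj (ω ψ) * ((m ψ : ℂ) *
        omegaF (ξ : Subgroup.centralizer ({x} : Set G) → ℂ)
          (pRegConj p (ψ : Subgroup.centralizer ({x} : Set G) → ℂ))) else 0) = 0 := by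
    have h1 : ∀ c : Subgroup.centralizer ({x} : Set G),
        ∑ ψ : Cfsg.IrrCharacter (Subgroup.centralizer ({x} : Set G)),
          (if ψ ∈ b then conj (ω ψ) * ((m ψ : ℂ) *
            pRegConj p (ψ : Subgroup.centralizer ({x} : Set G) → ℂ) c) else 0) = 0 := by
      intro c
      by_cases hc : p ∣ orderOf c
      · apply Finset.sum_eq_zero
        intro ψ _
        unfold pRegConj
        rw [if_pos hc]
        simp
      · have h2 := congrArg conj (hF c hc)
        rw [map_sum, map_zero] at h2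
        refine Eq.trans (Finset.sum_congr rfl fun ψ _ => ?_) h2
        unfold pRegConj
        rw [if_neg hc]
        split_ifs
        · rw [map_mul, map_mul, Complex.conj_natCast]
          ring
        · simp
    have h3 : ∑ ψ : Cfsg.IrrCharacter (Subgroup.centralizer ({x} : Set G)),
        (if ψ ∈ b then conj (ω ψ) * ((m ψ : ℂ) *
          omegaF (ξ : Subgroup.centralizer ({x} : Set G) → ℂ)
            (pRegConj p (ψ : Subgroup.centralizer ({x} : Set G) → ℂ))) else 0) =
        (∑ c : Subgroup.centralizer ({x} : Set G),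
          (∑ ψ : Cfsg.IrrCharacter (Subgroup.centralizer ({x} : Set G)),
            (if ψ ∈ b then conj (ω ψ) * ((m ψ : ℂ) *
              pRegConj p (ψ : Subgroup.centralizer ({x} : Set G) → ℂ) c) else 0)) *
            (ξ : Subgroup.centralizer ({x} : Set G) → ℂ) c) /
          (ξ : Subgroup.centralizer ({x} : Set G) → ℂ) 1 := by
      unfold omegaF
      simp_rw [Finset.sum_mul]
      rw [Finset.sum_comm, Finset.sum_div]
      refine Finset.sum_congr rfl fun ψ _ => ?_
      split_ifs
      · rw [mul_div_assoc', mul_div_assoc', Finset.mul_sum, Finset.mul_sum]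
        congr 1
        refine Finset.sum_congr rfl fun c _ => ?_
        ring
      · simp
    rw [h3]
    simp_rw [h1]
    simp
  rw [hTsum]
  have hdiff : ∑ ψ : Cfsg.IrrCharacter (Subgroup.centralizer ({x} : Set G)),
      (if ψ ∈ b then (m ψ : ℂ) * omegaF (ξ : Subgroup.centralizer ({x} : Set G) → ℂ)
        (pRegConj p (ψ : Subgroup.centralizer ({x} : Set G) → ℂ)) else 0) =
      ∑ ψ : Cfsg.IrrCharacter (Subgroup.centralizer ({x} : Set G)),
        (if ψ ∈ b then -(conj (ω ψ) - 1) * ((m ψ : ℂ) *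
          omegaF (ξ : Subgroup.centralizer ({x} : Set G) → ℂ)
            (pRegConj p (ψ : Subgroup.centralizer ({x} : Set G) → ℂ))) else 0) := by
    rw [← sub_zero (∑ ψ : Cfsg.IrrCharacter (Subgroup.centralizer ({x} : Set G)),
      (if ψ ∈ b then (m ψ : ℂ) * omegaF (ξ : Subgroup.centralizer ({x} : Set G) → ℂ)
        (pRegConj p (ψ : Subgroup.centralizer ({x} : Set G) → ℂ)) else 0)), ← hZ,
      ← Finset.sum_sub_distrib]
    refine Finset.sum_congr rfl fun ψ _ => ?_
    split_ifs
    · ring
    · ring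
  rw [hdiff]
  apply memLocalIdeal_sum hP
  intro ψ _
  split_ifs
  · apply memLocalIdeal_mul_right hP
    · apply memLocalIdeal_neg
      apply memLocalIdeal_sub_one_of_pow_pow_eq_one hM k
      rw [← map_pow, hω1 ψ, map_one]
    · exact memLocalRing_mul hP (memLocalRing_natCast hP _) (hΩR ψ)
  · exact memLocalIdeal_zero hP

end Cfsg.Agent.S4428
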