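import Mathlib
import Cfsg.Statements.S4430
import Cfsg.Agent.Lib.Helper76.BlockInd

set_option autoImplicit false
open Cfsg

namespace Cfsg.Agent.S4430

/-- Let H be a subgroup of the finite group G, b a block of H whose induced block B₀ in G is defined (relative to a maximal ideal M of the algebraic integers containing p), and ξ ∈ b. For a block B of G let n_B be the value at 1 of the B-part of the induced character ξ^G (a natural number: the sum over χ ∈ B of the multiplicity of χ in ξ^G times χ(1)). Then for B = B₀ the exact power of p dividing n_B equals the exact power of p dividing ξ^G(1), while for every other block B either n_B = 0 or n_B is divisible by a strictly higher power of p than ξ^G(1). -/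
theorem result {G : Type*} [Group G] [Fintype G] (p : ℕ) [Fact p.Prime] (M : Ideal Cfsg.AlgInt) (hM : Cfsg.IsPModular p M) (H : Subgroup G) [Fintype H] (b : Set (Cfsg.IrrCharacter H)) (B₀ : Set (Cfsg.IrrCharacter G)) (hind : Cfsg.IsInducedBlock M H b B₀) (ξ : Cfsg.IrrCharacter H) (hξ : ξ ∈ b) : (∃ n : ℕ, Cfsg.blockPart B₀ (Cfsg.indFun H (ξ : H → ℂ)) 1 = (n : ℂ) ∧ n ≠ 0 ∧ n.factorization p = (Cfsg.charDegree (Cfsg.indFun H (ξ : H → ℂ))).factorization p) ∧ ∀ B : Set (Cfsg.IrrCharacter G), Cfsg.IsPBlock M B → B ≠ B₀ → ∃ n : ℕ, Cfsg.blockPart B (Cfsg.indFun H (ξ : H → ℂ)) 1 = (n : ℂ) ∧ (n = 0 ∨ (Cfsg.charDegree (Cfsg.indFun H (ξ : H → ℂ))).factorization p < n.factorization p) := by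
  classical
  have hp : p.Prime := Fact.out
  have hp1 : ¬ p ∣ 1 := fun h => hp.one_lt.ne' (Nat.dvd_one.mp h)
  obtain ⟨h1, hpos, -⟩ := Cfsg.Agent.Lib.Helper79.irr_charDegree ξ.2
  have hDpos : 0 < Cfsg.charDegree (Cfsg.indFun H (ξ : H → ℂ)) := by
    rw [Cfsg.Agent.Lib.Helper76.charDegree_indFun]
    exact Nat.mul_pos (Nat.pos_of_ne_zero Subgroup.index_ne_zero_of_finite) hpos
  refine ⟨?_, fun B hB hne => ?_⟩
  · obtain ⟨n, t, hn, hnt, htR, ht1, -, -⟩ :=
      Cfsg.Agent.Lib.Helper76.blockPart_indFun_val hM H b B₀ hind ξ hξ B₀ hind.2.1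
    have hv := (Cfsg.Agent.Lib.Helper76.val_iff hM (n : ℤ) _ 1 hDpos hp1 t htR
      (by push_cast; rw [mul_one]; exact hnt)).1.mp (ht1 rfl)
    refine ⟨n, hn, by exact_mod_cast hv.1, ?_⟩
    rw [Nat.factorization_def n hp]
    have h2 := hv.2
    rw [padicValInt.of_nat] at h2
    exact h2
  · obtain ⟨n, t, hn, hnt, htR, -, ht0, -⟩ :=
      Cfsg.Agent.Lib.Helper76.blockPart_indFun_val hM H b B₀ hind ξ hξ B hB
    have hv := (Cfsg.Agent.Lib.Helper76.val_iff hM (n : ℤ) _ 1 hDpos hp1 t htR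
      (by push_cast; rw [mul_one]; exact hnt)).2 (ht0 hne)
    refine ⟨n, hn, ?_⟩
    by_cases hn0 : n = 0
    · exact Or.inl hn0
    · right
      have h3 : p ^ ((Cfsg.charDegree (Cfsg.indFun H (ξ : H → ℂ))).factorization p + 1) ∣ n := by
        exact_mod_cast hv
      exact (hp.pow_dvd_iff_le_factorization hn0).mp h3

end Cfsg.Agent.S4430
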