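import Mathlib
import Cfsg.Statements.S4431
import Cfsg.Agent.Lib.Helper78.ThirdMain

set_option autoImplicit false
open Cfsg

namespace Cfsg.Agent.S4431

open Cfsg.Agent.Lib.Helper16 Cfsg.Agent.Lib.Helper76 Cfsg.Agent.Lib.Helper77 Cfsg.Agent.Lib.Helper78
open scoped ComplexConjugate

/-- `[η, ψ] / ψ 1` through the central character of `ψ` at the truncation of `conj χ`. -/
theorem inner_div_eq {G : Type*} [Group G] [Fintype G] (p : ℕ) [Fact p.Prime]
    (H : Subgroup G) [Fintype H] (χ : Cfsg.IrrCharacter G) (ψ : Cfsg.IrrCharacter H) :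
    Cfsg.classInner (fun h : H => if p ∣ orderOf h then (0 : ℂ) else
        ((p ^ (Nat.card H).factorization p : ℕ) : ℂ) * (χ : G → ℂ) h) (ψ : H → ℂ) / (ψ : H → ℂ) 1 =
      ((Nat.card H / p ^ (Nat.card H).factorization p : ℕ) : ℂ)⁻¹ *
        omegaF (ψ : H → ℂ) (fun k : H => pRegConj p (χ : G → ℂ) (k : G)) := by
  have hp : p.Prime := Fact.out
  have hp0 : (p : ℂ) ≠ 0 := by exact_mod_cast hp.ne_zero
  set a := (Nat.card H).factorization p with ha
  set m := Nat.card H / p ^ a with hm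
  have hgg : p ^ a * m = Nat.card H := Nat.ordProj_mul_ordCompl_eq_self (Nat.card H) p
  have hH : (Nat.card H : ℂ) = (p : ℂ) ^ a * (m : ℂ) := by
    rw [← hgg]; push_cast; rfl
  have hH0 : (Nat.card H : ℂ) ≠ 0 := by exact_mod_cast Nat.card_pos.ne'
  have hm0 : (m : ℂ) ≠ 0 := by
    intro h0; rw [h0, mul_zero] at hH; exact hH0 hH
  have hsum : ∑ h : H, (if p ∣ orderOf h then (0 : ℂ) else
      ((p ^ a : ℕ) : ℂ) * (χ : G → ℂ) h) * conj ((ψ : H → ℂ) h) =
      ((p ^ a : ℕ) : ℂ) * ∑ k : H, pRegConj p (χ : G → ℂ) (k : G) * (ψ : H → ℂ) k := by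
    rw [Finset.mul_sum]
    refine Fintype.sum_equiv (Equiv.inv H) _ _ (fun h => ?_)
    simp only [Equiv.inv_apply]
    unfold pRegConj
    have e1 : orderOf ((h⁻¹ : H) : G) = orderOf h := by
      rw [Subgroup.orderOf_coe, orderOf_inv]
    rw [e1, Cfsg.Agent.Lib.Helper81.irr_inv ψ h]
    by_cases hh : p ∣ orderOf h
    · simp only [if_pos hh, zero_mul, mul_zero]
    · simp only [if_neg hh]
      have e2 : (χ : G → ℂ) ((h⁻¹ : H) : G) = conj ((χ : G → ℂ) (h : G)) := by
        rw [Subgroup.coe_inv, Cfsg.Agent.Lib.Helper81.irr_inv χ]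
      rw [e2, Complex.conj_conj]
      ring
  unfold Cfsg.classInner omegaF
  rw [hsum, hH]
  push_cast
  field_simp

/-- Let H be a subgroup of the finite group G and b a block of H whose induced block B₀ in G is defined (relative to a maximal ideal M of the algebraic integers containing p). Let χ be an irreducible character of G, ψ ∈ b, and let η be the class function on H equal to p^a · χ on the p-regular elements of H and zero elsewhere, p^a being the p-part of the order of H. Then (a) if χ ∉ B₀, the number [η, ψ]/ψ(1) lies in the local ideal at M; (b) if χ ∈ B₀ has height zero, it does not. -/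
theorem result {G : Type*} [Group G] [Fintype G] (p : ℕ) [Fact p.Prime] (M : Ideal Cfsg.AlgInt) (hM : Cfsg.IsPModular p M) (H : Subgroup G) [Fintype H] (b : Set (Cfsg.IrrCharacter H)) (B₀ : Set (Cfsg.IrrCharacter G)) (hind : Cfsg.IsInducedBlock M H b B₀) (χ : Cfsg.IrrCharacter G) (ψ : Cfsg.IrrCharacter H) (hψ : ψ ∈ b) : (χ ∉ B₀ → Cfsg.MemLocalIdeal M (Cfsg.classInner (fun h : H => if p ∣ orderOf h then (0 : ℂ) else ((p ^ (Nat.card H).factorization p : ℕ) : ℂ) * (χ : G → ℂ) h) (ψ : H → ℂ) / (ψ : H → ℂ) 1)) ∧ (χ ∈ B₀ → Cfsg.blockHeight p B₀ (χ : G → ℂ) = 0 → ¬ Cfsg.MemLocalIdeal M (Cfsg.classInner (fun h : H => if p ∣ orderOf h then (0 : ℂ) else ((p ^ (Nat.card H).factorization p : ℕ) : ℂ) * (χ : G → ℂ) h) (ψ : H → ℂ) / (ψ : H → ℂ) 1)) := by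
  classical
  have hMp := isPrime_of_isPModular hM
  have hp : p.Prime := Fact.out
  obtain ⟨hb, hB₀, hcong⟩ := hind
  have hpm : ¬ p ∣ Nat.card H / p ^ (Nat.card H).factorization p :=
    Nat.not_dvd_ordCompl hp Nat.card_pos.ne'
  have hm0 : ((Nat.card H / p ^ (Nat.card H).factorization p : ℕ) : ℂ) ≠ 0 := by
    intro h0
    have : Nat.card H / p ^ (Nat.card H).factorization p = 0 := by exact_mod_cast h0
    rw [this] at hpm
    exact hpm (dvd_zero p)
  rw [inner_div_eq p H χ ψ]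
  have hcl := isRClass_pRegConj (M := M) hMp p χ
  refine ⟨fun hχ => ?_, fun hχ h0 hcon => ?_⟩
  · obtain ⟨χ₀, hχ₀⟩ := IsPBlock.nonempty hMp hB₀
    have hres := memLocalIdeal_omegaF_restrict_sub hMp H (ψ : H → ℂ) (χ₀ : G → ℂ)
      (fun g h => irrCharacter_conj_eq χ₀ h g) (fun g => hcong ψ hψ χ₀ hχ₀ g) hcl.2 hcl.1
    rw [omegaF_pRegConj_eq_zero hM B₀ hB₀ χ₀ hχ₀ χ hχ, sub_zero] at hres
    exact memLocalIdeal_mul_left hMp (memLocalRing_inv_natCast hM hpm) hres
  · apply not_memLocalIdeal_omegaF_res_pRegConj hM H b B₀ ⟨hb, hB₀, hcong⟩ χ hχ h0 ψ hψ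
    have h2 := memLocalIdeal_mul_left hMp (memLocalRing_natCast hMp
      (Nat.card H / p ^ (Nat.card H).factorization p)) hcon
    rwa [← mul_assoc, mul_inv_cancel₀ hm0, one_mul] at h2

end Cfsg.Agent.S4431
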