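import Mathlib
import Cfsg.Statements.S4443
import Cfsg.Agent.Lib.Helper16.Robinson2
import Cfsg.Agent.S0957

set_option autoImplicit false
open Cfsg

namespace Cfsg.Agent.S4443

open Cfsg.Agent.Lib.Helper16

/-- Let D be a normal p-subgroup of the finite group G, of order p^d, let p^a be the p-part of the order of G, and fix a Sylow p-subgroup S and a maximal ideal M of the algebraic integers containing p. Index by a finite type ι (via an injective map K) exactly the conjugacy classes of p-regular elements x of G for which D is a Sylow p-subgroup of C_G(x). For classes K_i, K_j let ω(i, j) be the number of pairs (y, z) ∈ K_i × K_j with z y⁻¹ ∈ S; this number is divisible by p^(a−d). Then the number of p-blocks of G having D as a defect group equals the rank over ℤ/pℤ of the matrix with (i, j) entry ω(i, j)/p^(a−d) reduced modulo p. -/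
theorem result {G : Type*} [Group G] [Finite G] (p : ℕ) [Fact p.Prime] (M : Ideal Cfsg.AlgInt) (hM : Cfsg.IsPModular p M) (D : Subgroup G) [D.Normal] (hD : IsPGroup p D) (S : Sylow p G) {ι : Type*} [Fintype ι] [DecidableEq ι] (K : ι → ConjClasses G) (hKinj : Function.Injective K) (hK : ∀ C : ConjClasses G, (∃ i, K i = C) ↔ ∃ x ∈ C.carrier, ¬ p ∣ orderOf x ∧ ∃ Q : Sylow p (Subgroup.centralizer ({x} : Set G)), (Q : Subgroup (Subgroup.centralizer ({x} : Set G))).map (Subgroup.centralizer ({x} : Set G)).subtype = D) : Nat.card {B : Set (Cfsg.IrrCharacter G) // Cfsg.IsPBlock M B ∧ Cfsg.IsDefectGroup p M B D} = (Matrix.of fun i j : ι => ((Nat.card {yz : G × G // yz.1 ∈ (K i).carrier ∧ yz.2 ∈ (K j).carrier ∧ yz.2 * yz.1⁻¹ ∈ (S : Subgroup G)} / p ^ ((Nat.card G).factorization p - (Nat.card D).factorization p) : ℕ) : ZMod p)).rank := by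

  classical
  haveI : Fintype G := Fintype.ofFinite G
  haveI : Fintype (Cfsg.IrrCharacter G) := Fintype.ofFinite _
  have hMp := isPrime_of_isPModular hM
  have hp := (Fact.out : p.Prime)
  haveI : M.IsMaximal := hM.2.1
  letI : Field (Cfsg.AlgInt ⧸ M) := Ideal.Quotient.field M
  obtain ⟨a, ha⟩ : ∃ a, a = (Nat.card G).factorization p := ⟨_, rfl⟩
  obtain ⟨d, hd⟩ : ∃ d, d = (Nat.card D).factorization p := ⟨_, rfl⟩
  rw [← ha, ← hd]
  -- representatives of the classes
  have hrep : ∀ i : ι, ∃ x ∈ (K i).carrier, ¬ p ∣ orderOf x ∧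
      ∃ Q : Sylow p (Subgroup.centralizer ({x} : Set G)),
        (Q : Subgroup (Subgroup.centralizer ({x} : Set G))).map
          (Subgroup.centralizer ({x} : Set G)).subtype = D := fun i => (hK (K i)).mp ⟨i, rfl⟩
  choose x hxK hxreg hxD using hrep
  have hmem : ∀ (i : ι) (y : G), y ∈ (K i).carrier ↔ IsConj (x i) y := by
    intro i y
    rw [ConjClasses.mem_carrier_iff_mk_eq, ← ConjClasses.mem_carrier_iff_mk_eq.mp (hxK i),
      ConjClasses.mk_eq_mk_iff_isConj]
    exact ⟨fun h => h.symm, fun h => h.symm⟩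
  have hcent : ∀ i, (Nat.card (Subgroup.centralizer ({x i} : Set G))).factorization p = d := by
    intro i
    obtain ⟨Q, hQ⟩ := hxD i
    have h1 := card_sylow_centralizer_map (x i) Q
    rw [hQ] at h1
    rw [hd, h1, Nat.Prime.factorization_pow hp]
    simp
  have hgood : ∀ g : G, ¬ p ∣ orderOf g →
      (∃ Q : Sylow p (Subgroup.centralizer ({g} : Set G)),
        (Q : Subgroup (Subgroup.centralizer ({g} : Set G))).map
          (Subgroup.centralizer ({g} : Set G)).subtype = D) → ∃ i, IsConj (x i) g := by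
    intro g hreg hQ
    obtain ⟨i, hi⟩ := (hK (ConjClasses.mk g)).mpr ⟨g, ConjClasses.mem_carrier_mk, hreg, hQ⟩
    refine ⟨i, ?_⟩
    rw [← hmem i g, hi]
    exact ConjClasses.mem_carrier_mk
  have hgood' : ∀ g : G, ¬ p ∣ orderOf g →
      (∃ Q : Sylow p (Subgroup.centralizer ({g} : Set G)),
        (Q : Subgroup (Subgroup.centralizer ({g} : Set G))).map
          (Subgroup.centralizer ({g} : Set G)).subtype = D) → ∃ i, IsConj (x i)⁻¹ g := by
    intro g hreg hQ
    have hreg' : ¬ p ∣ orderOf g⁻¹ := by rwa [orderOf_inv]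
    obtain ⟨i, hi⟩ := hgood g⁻¹ hreg'
      (exists_sylow_of_eq (centralizer_singleton_inv g).symm D hQ)
    refine ⟨i, ?_⟩
    obtain ⟨t, ht⟩ := isConj_iff.mp hi
    refine isConj_iff.mpr ⟨t, ?_⟩
    have e : t * (x i)⁻¹ * t⁻¹ = (t * x i * t⁻¹)⁻¹ := by group
    rw [e, ht, inv_inv]
  -- the permutation character on the cosets of `S`
  obtain ⟨m, hm1, hm2⟩ := Cfsg.Agent.Lib.Helper75.char_eq_sum_irr
    (Cfsg.Agent.Lib.Helper75.isCharacter_indFun (S : Subgroup G)
      Cfsg.Agent.Lib.Helper80.isCharacter_one)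
  have hmval : ∀ y : G, Cfsg.indFun (S : Subgroup G) (fun _ => (1 : ℂ)) y =
      ∑ χ : Cfsg.IrrCharacter G, (m χ : ℂ) * (χ : G → ℂ) y := by
    intro y
    conv_lhs => rw [hm2]
    simp [Finset.sum_apply]
  -- the pair counts
  obtain ⟨Nc, hNc⟩ : ∃ Nc : ι → ι → ℕ, ∀ i j, Nc i j = Nat.card {yz : G × G //
      yz.1 ∈ (K i).carrier ∧ yz.2 ∈ (K j).carrier ∧ yz.2 * yz.1⁻¹ ∈ (S : Subgroup G)} :=
    ⟨_, fun _ _ => rfl⟩
  have hNc' : ∀ i j, Nc i j = Nat.card {yz : G × G //
      IsConj (x i) yz.1 ∧ IsConj (x j) yz.2 ∧ yz.2 * yz.1⁻¹ ∈ (S : Subgroup G)} := by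
    intro i j
    rw [hNc]
    apply Nat.card_congr
    exact Equiv.subtypeEquivRight (fun yz => by rw [hmem i, hmem j])
  have hidx : ∀ i, ((Subgroup.centralizer ({x i} : Set G)).index).factorization p = a - d := by
    intro i
    have := factorization_card_eq_centralizer p (x i)
    rw [hcent i, ← ha] at this
    omega
  have hdiv : ∀ i j, p ^ (a - d) ∣ Nc i j := by
    intro i j
    obtain ⟨Q, hQ⟩ := hxD i
    have h := Cfsg.Agent.S0957.result p S (x i) (x j) Q
    rw [← hNc'] at h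
    have h1 : Nat.card (S : Subgroup G) = p ^ a := by rw [ha]; exact S.card_eq_multiplicity
    have h2 : Nat.card Q = p ^ d := by rw [Q.card_eq_multiplicity, hcent i]
    have hda : d ≤ a := by
      have := factorization_card_eq_centralizer p (x i)
      rw [hcent i, ← ha] at this
      omega
    rw [h1, h2, Nat.pow_div hda hp.pos] at h
    exact h
  obtain ⟨n, hn⟩ : ∃ n : ι → ι → ℕ, ∀ i j, Nc i j = p ^ (a - d) * n i j :=
    ⟨fun i j => Nc i j / p ^ (a - d), fun i j => (Nat.mul_div_cancel' (hdiv i j)).symm⟩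
  have hZ : ∀ i j, Nc i j / p ^ (a - d) = n i j := fun i j => by
    rw [hn, Nat.mul_div_cancel_left _ (pow_pos hp.pos _)]
  obtain ⟨cc, hcc⟩ : ∃ cc : ι → ℕ, ∀ i,
      (Subgroup.centralizer ({x i} : Set G)).index = p ^ (a - d) * cc i := by
    refine ⟨fun i => (Subgroup.centralizer ({x i} : Set G)).index / p ^ (a - d), fun i => ?_⟩
    have := Nat.ordProj_mul_ordCompl_eq_self (Subgroup.centralizer ({x i} : Set G)).index p
    rw [hidx i] at this
    exact this.symm
  have hp0 : ((p : ℂ) ^ (a - d)) ≠ 0 := pow_ne_zero _ (by exact_mod_cast hp.ne_zero)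
  have hkey : ∀ i j, ((S : Subgroup G).index : ℂ) * (n i j : ℂ) = (cc i : ℂ) *
      ∑ χ : Cfsg.IrrCharacter G,
        (m χ : ℂ) * (Cfsg.centralChar (χ : G → ℂ) (x j) * (χ : G → ℂ) (x i)⁻¹) := by
    intro i j
    have h := robinson_count p S m hmval (x i) (x j)
    rw [← hNc', hn, hcc] at h
    push_cast at h
    apply mul_left_cancel₀ hp0
    linear_combination h
  -- the blocks with defect group `D`
  haveI : Fintype {B : Set (Cfsg.IrrCharacter G) //
      Cfsg.IsPBlock M B ∧ Cfsg.IsDefectGroup p M B D} := Fintype.ofFinite _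
  rw [Nat.card_eq_fintype_card]
  have hrepχ : ∀ B : {B : Set (Cfsg.IrrCharacter G) //
      Cfsg.IsPBlock M B ∧ Cfsg.IsDefectGroup p M B D}, ∃ χ : Cfsg.IrrCharacter G, χ ∈ B.1 :=
    fun B => IsPBlock.nonempty hMp B.2.1
  choose χr hχr using hrepχ
  have hBeq : ∀ B : {B : Set (Cfsg.IrrCharacter G) //
      Cfsg.IsPBlock M B ∧ Cfsg.IsDefectGroup p M B D},
      B.1 = Cfsg.blockOf M (χr B : G → ℂ) := fun B => IsPBlock.eq_blockOf hMp B.2.1 (hχr B)
  have hχD : ∀ B : {B : Set (Cfsg.IrrCharacter G) //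
      Cfsg.IsPBlock M B ∧ Cfsg.IsDefectGroup p M B D},
      Cfsg.IsDefectGroup p M (Cfsg.blockOf M (χr B : G → ℂ)) D := fun B => by
    rw [← hBeq]; exact B.2.2
  have hχinj : ∀ B B' : {B : Set (Cfsg.IrrCharacter G) //
      Cfsg.IsPBlock M B ∧ Cfsg.IsDefectGroup p M B D},
      χr B' ∈ Cfsg.blockOf M (χr B : G → ℂ) → B = B' := by
    intro B B' h
    apply Subtype.ext
    rw [hBeq B, hBeq B']
    exact IsPBlock.eq_blockOf hMp ⟨χr B, rfl⟩ h
  have hdef : ∀ B : {B : Set (Cfsg.IrrCharacter G) //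
      Cfsg.IsPBlock M B ∧ Cfsg.IsDefectGroup p M B D}, Cfsg.blockDefect p B.1 = d := by
    intro B
    have h := Cfsg.Agent.Lib.Helper77.card_isDefectGroup hM B.1 B.2.1 D B.2.2
    rw [hd, h, Nat.Prime.factorization_pow hp]
    simp
  obtain ⟨W, hW⟩ : ∃ W : {B : Set (Cfsg.IrrCharacter G) //
      Cfsg.IsPBlock M B ∧ Cfsg.IsDefectGroup p M B D} → ℕ, ∀ B, W B =
      ∑ χ : Cfsg.IrrCharacter G, if χ ∈ B.1 then
        m χ * (Cfsg.charDegree (χ : G → ℂ) / p ^ (a - d)) else 0 := ⟨_, fun _ => rfl⟩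
  have hWp : ∀ B, ¬ p ∣ W B := by
    intro B
    have := weight_not_dvd hM S m hm1 B.1 B.2.1
    rw [hdef B, ← ha] at this
    rw [hW]
    exact this
  -- the residue field
  obtain ⟨q, hq⟩ : ∃ q : Cfsg.AlgInt →+* (Cfsg.AlgInt ⧸ M), q = Ideal.Quotient.mk M := ⟨_, rfl⟩
  have hq0 : ∀ z : Cfsg.AlgInt, q z = 0 ↔ z ∈ M := by
    intro z; rw [hq]; exact Ideal.Quotient.eq_zero_iff_mem
  have hqsurj : Function.Surjective q := by rw [hq]; exact Ideal.Quotient.mk_surjective
  obtain ⟨Ω, hΩ⟩ : ∃ Ω : Cfsg.IrrCharacter G → G → Cfsg.AlgInt,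
      ∀ χ g, ((Ω χ g : Cfsg.AlgInt) : ℂ) = Cfsg.centralChar (χ : G → ℂ) g :=
    ⟨fun χ g => ⟨_, isIntegral_centralChar_irr χ g⟩, fun _ _ => rfl⟩
  -- the key congruence
  have hcong : ∀ i j, MemLocalIdeal M (((S : Subgroup G).index : ℂ) * (n i j : ℂ) -
      ∑ B : {B : Set (Cfsg.IrrCharacter G) //
        Cfsg.IsPBlock M B ∧ Cfsg.IsDefectGroup p M B D},
        (W B : ℂ) * Cfsg.centralChar (χr B : G → ℂ) (x i)⁻¹ *
          Cfsg.centralChar (χr B : G → ℂ) (x j)) := by
    intro i j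
    rw [hkey i j, Finset.mul_sum]
    -- split each term
    have hterm : ∀ χ : Cfsg.IrrCharacter G,
        Cfsg.IsDefectGroup p M (Cfsg.blockOf M (χ : G → ℂ)) D →
        (cc i : ℂ) * ((m χ : ℂ) * (Cfsg.centralChar (χ : G → ℂ) (x j) * (χ : G → ℂ) (x i)⁻¹)) =
        ((m χ * (Cfsg.charDegree (χ : G → ℂ) / p ^ (a - d)) : ℕ) : ℂ) *
          Cfsg.centralChar (χ : G → ℂ) (x i)⁻¹ * Cfsg.centralChar (χ : G → ℂ) (x j) := by
      intro χ hχ
      have hdvd := pow_dvd_charDegree_of_mem p (Cfsg.blockOf M (χ : G → ℂ)) χ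
        (mem_blockOf_self hMp χ)
      have hdefχ : Cfsg.blockDefect p (Cfsg.blockOf M (χ : G → ℂ)) = d := by
        have h := Cfsg.Agent.Lib.Helper77.card_isDefectGroup hM _ ⟨χ, rfl⟩ D hχ
        rw [hd, h, Nat.Prime.factorization_pow hp]
        simp
      rw [hdefχ, ← ha] at hdvd
      obtain ⟨e, he⟩ := hdvd
      obtain ⟨h1, hpos, -⟩ := Cfsg.Agent.Lib.Helper79.irr_charDegree χ.2
      have he0 : (e : ℂ) ≠ 0 := by
        intro h0
        have : e = 0 := by exact_mod_cast h0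
        rw [this, mul_zero] at he
        omega
      have hquot : Cfsg.charDegree (χ : G → ℂ) / p ^ (a - d) = e := by
        rw [he, Nat.mul_div_cancel_left _ (pow_pos hp.pos _)]
      rw [hquot]
      have hcc1 : Cfsg.centralChar (χ : G → ℂ) (x i)⁻¹ =
          ((p : ℂ) ^ (a - d) * (cc i : ℂ)) * (χ : G → ℂ) (x i)⁻¹ /
            ((p : ℂ) ^ (a - d) * (e : ℂ)) := by
        unfold Cfsg.centralChar
        rw [centralizer_singleton_inv, hcc i, h1, he]
        push_cast
        rfl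
      rw [hcc1]
      push_cast
      field_simp
    have hbad : ∀ χ : Cfsg.IrrCharacter G,
        ¬ Cfsg.IsDefectGroup p M (Cfsg.blockOf M (χ : G → ℂ)) D →
        MemLocalIdeal M ((cc i : ℂ) *
          ((m χ : ℂ) * (Cfsg.centralChar (χ : G → ℂ) (x j) * (χ : G → ℂ) (x i)⁻¹))) := by
      intro χ hχ
      exact memLocalIdeal_mul_left hMp (memLocalRing_natCast hMp _)
        (memLocalIdeal_mul_left hMp (memLocalRing_natCast hMp _)
          (robinson_vanish_pair hM D (x i) (x j) (hxD i) (hxD j) χ hχ))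
    -- regroup
    have hsplit : (∑ χ : Cfsg.IrrCharacter G, (cc i : ℂ) *
        ((m χ : ℂ) * (Cfsg.centralChar (χ : G → ℂ) (x j) * (χ : G → ℂ) (x i)⁻¹))) -
        ∑ B : {B : Set (Cfsg.IrrCharacter G) //
          Cfsg.IsPBlock M B ∧ Cfsg.IsDefectGroup p M B D},
          (W B : ℂ) * Cfsg.centralChar (χr B : G → ℂ) (x i)⁻¹ *
            Cfsg.centralChar (χr B : G → ℂ) (x j) =
        (∑ χ : Cfsg.IrrCharacter G,
          if Cfsg.IsDefectGroup p M (Cfsg.blockOf M (χ : G → ℂ)) D then 0 else (cc i : ℂ) *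
            ((m χ : ℂ) * (Cfsg.centralChar (χ : G → ℂ) (x j) * (χ : G → ℂ) (x i)⁻¹))) +
        ∑ B : {B : Set (Cfsg.IrrCharacter G) //
          Cfsg.IsPBlock M B ∧ Cfsg.IsDefectGroup p M B D}, ∑ χ : Cfsg.IrrCharacter G,
          if χ ∈ B.1 then ((m χ * (Cfsg.charDegree (χ : G → ℂ) / p ^ (a - d)) : ℕ) : ℂ) *
            (Cfsg.centralChar (χ : G → ℂ) (x i)⁻¹ * Cfsg.centralChar (χ : G → ℂ) (x j) -
              Cfsg.centralChar (χr B : G → ℂ) (x i)⁻¹ *
                Cfsg.centralChar (χr B : G → ℂ) (x j)) else 0 := by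
      have e1 : (∑ χ : Cfsg.IrrCharacter G, (cc i : ℂ) *
          ((m χ : ℂ) * (Cfsg.centralChar (χ : G → ℂ) (x j) * (χ : G → ℂ) (x i)⁻¹))) =
          (∑ χ : Cfsg.IrrCharacter G,
            if Cfsg.IsDefectGroup p M (Cfsg.blockOf M (χ : G → ℂ)) D then 0 else (cc i : ℂ) *
              ((m χ : ℂ) * (Cfsg.centralChar (χ : G → ℂ) (x j) * (χ : G → ℂ) (x i)⁻¹))) +
          ∑ B : {B : Set (Cfsg.IrrCharacter G) //
            Cfsg.IsPBlock M B ∧ Cfsg.IsDefectGroup p M B D}, ∑ χ : Cfsg.IrrCharacter G,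
            if χ ∈ B.1 then ((m χ * (Cfsg.charDegree (χ : G → ℂ) / p ^ (a - d)) : ℕ) : ℂ) *
              (Cfsg.centralChar (χ : G → ℂ) (x i)⁻¹ * Cfsg.centralChar (χ : G → ℂ) (x j))
              else 0 := by
        rw [Finset.sum_comm, ← Finset.sum_add_distrib]
        apply Finset.sum_congr rfl
        intro χ _
        by_cases hχ : Cfsg.IsDefectGroup p M (Cfsg.blockOf M (χ : G → ℂ)) D
        · rw [if_pos hχ, zero_add, Finset.sum_eq_single
            (⟨Cfsg.blockOf M (χ : G → ℂ), ⟨χ, rfl⟩, hχ⟩ : {B : Set (Cfsg.IrrCharacter G) //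
              Cfsg.IsPBlock M B ∧ Cfsg.IsDefectGroup p M B D})]
          · rw [if_pos (mem_blockOf_self hMp χ), hterm χ hχ]
            ring
          · intro B _ hB
            rw [if_neg]
            intro hmemB
            apply hB
            apply Subtype.ext
            exact IsPBlock.eq_blockOf hMp B.2.1 hmemB
          · intro h; exact absurd (Finset.mem_univ _) h
        · rw [if_neg hχ, Finset.sum_eq_zero, add_zero]
          intro B _
          rw [if_neg]
          intro hmemB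
          apply hχ
          rw [← IsPBlock.eq_blockOf hMp B.2.1 hmemB]
          exact B.2.2
      have e2 : (∑ B : {B : Set (Cfsg.IrrCharacter G) //
          Cfsg.IsPBlock M B ∧ Cfsg.IsDefectGroup p M B D},
          (W B : ℂ) * Cfsg.centralChar (χr B : G → ℂ) (x i)⁻¹ *
            Cfsg.centralChar (χr B : G → ℂ) (x j)) =
          ∑ B : {B : Set (Cfsg.IrrCharacter G) //
            Cfsg.IsPBlock M B ∧ Cfsg.IsDefectGroup p M B D}, ∑ χ : Cfsg.IrrCharacter G,
            if χ ∈ B.1 then ((m χ * (Cfsg.charDegree (χ : G → ℂ) / p ^ (a - d)) : ℕ) : ℂ) *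
              (Cfsg.centralChar (χr B : G → ℂ) (x i)⁻¹ *
                Cfsg.centralChar (χr B : G → ℂ) (x j)) else 0 := by
        apply Finset.sum_congr rfl
        intro B _
        rw [hW B]
        push_cast
        rw [Finset.sum_mul, Finset.sum_mul]
        apply Finset.sum_congr rfl
        intro χ _
        split_ifs
        · push_cast; ring
        · simp
      rw [e1, e2, add_sub_assoc, ← Finset.sum_sub_distrib]
      congr 1
      apply Finset.sum_congr rfl
      intro B _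
      rw [← Finset.sum_sub_distrib]
      apply Finset.sum_congr rfl
      intro χ _
      split_ifs
      · ring
      · simp
    rw [hsplit]
    apply memLocalIdeal_add hMp
    · apply memLocalIdeal_sum hMp
      intro χ _
      split_ifs with hχ
      · exact memLocalIdeal_zero hMp
      · exact hbad χ hχ
    · apply memLocalIdeal_sum hMp
      intro B _
      apply memLocalIdeal_sum hMp
      intro χ _
      split_ifs with hχ
      · apply memLocalIdeal_mul_left hMp (memLocalRing_natCast hMp _)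
        have hs : Cfsg.SameBlock M (χr B : G → ℂ) (χ : G → ℂ) := by
          have : χ ∈ Cfsg.blockOf M (χr B : G → ℂ) := by rw [← hBeq B]; exact hχ
          exact this
        have h1 := memLocalIdeal_neg (hs (x i)⁻¹)
        have h2 := memLocalIdeal_neg (hs (x j))
        rw [neg_sub] at h1 h2
        have e : Cfsg.centralChar (χ : G → ℂ) (x i)⁻¹ * Cfsg.centralChar (χ : G → ℂ) (x j) -
            Cfsg.centralChar (χr B : G → ℂ) (x i)⁻¹ * Cfsg.centralChar (χr B : G → ℂ) (x j) =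
            (Cfsg.centralChar (χ : G → ℂ) (x i)⁻¹ - Cfsg.centralChar (χr B : G → ℂ) (x i)⁻¹) *
              Cfsg.centralChar (χ : G → ℂ) (x j) +
            Cfsg.centralChar (χr B : G → ℂ) (x i)⁻¹ *
              (Cfsg.centralChar (χ : G → ℂ) (x j) - Cfsg.centralChar (χr B : G → ℂ) (x j)) := by
          ring
        rw [e]
        exact memLocalIdeal_add hMp
          (memLocalIdeal_mul_right hMp h1 (memLocalRing_centralChar hMp χ _))
          (memLocalIdeal_mul_left hMp (memLocalRing_centralChar hMp (χr B) _) h2)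
      · exact memLocalIdeal_zero hMp
  -- the identity in the residue field
  have hk : ∀ i j, q (((S : Subgroup G).index : ℕ) : Cfsg.AlgInt) * q ((n i j : ℕ) : Cfsg.AlgInt) =
      ∑ B : {B : Set (Cfsg.IrrCharacter G) //
        Cfsg.IsPBlock M B ∧ Cfsg.IsDefectGroup p M B D},
        q ((W B : ℕ) : Cfsg.AlgInt) * q (Ω (χr B) (x i)⁻¹) * q (Ω (χr B) (x j)) := by
    intro i j
    have h1 : (((S : Subgroup G).index : ℕ) : Cfsg.AlgInt) * ((n i j : ℕ) : Cfsg.AlgInt) -
        ∑ B : {B : Set (Cfsg.IrrCharacter G) //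
          Cfsg.IsPBlock M B ∧ Cfsg.IsDefectGroup p M B D},
          ((W B : ℕ) : Cfsg.AlgInt) * Ω (χr B) (x i)⁻¹ * Ω (χr B) (x j) ∈ M := by
      rw [← memLocalIdeal_algInt_iff hMp]
      have := hcong i j
      simpa [hΩ] using this
    have h2 := (hq0 _).mpr h1
    rw [map_sub, sub_eq_zero, map_mul, map_sum] at h2
    rw [h2]
    apply Finset.sum_congr rfl
    intro B _
    rw [map_mul, map_mul]
  have hγ : q (((S : Subgroup G).index : ℕ) : Cfsg.AlgInt) ≠ 0 := by
    rw [Ne, hq0, natCast_mem_iff hM]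
    exact S.not_dvd_index
  have hWq : ∀ B, q ((W B : ℕ) : Cfsg.AlgInt) ≠ 0 := by
    intro B
    rw [Ne, hq0, natCast_mem_iff hM]
    exact hWp B
  -- the matrices
  obtain ⟨Λ, hΛ⟩ : ∃ Λ : Matrix {B : Set (Cfsg.IrrCharacter G) //
      Cfsg.IsPBlock M B ∧ Cfsg.IsDefectGroup p M B D} ι (Cfsg.AlgInt ⧸ M),
      Λ = Matrix.of fun B j => q (Ω (χr B) (x j)) := ⟨_, rfl⟩
  obtain ⟨Λ', hΛ'⟩ : ∃ Λ' : Matrix {B : Set (Cfsg.IrrCharacter G) //
      Cfsg.IsPBlock M B ∧ Cfsg.IsDefectGroup p M B D} ι (Cfsg.AlgInt ⧸ M),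
      Λ' = Matrix.of fun B i => q (Ω (χr B) (x i)⁻¹) := ⟨_, rfl⟩
  obtain ⟨w, hw⟩ : ∃ w : {B : Set (Cfsg.IrrCharacter G) //
      Cfsg.IsPBlock M B ∧ Cfsg.IsDefectGroup p M B D} → (Cfsg.AlgInt ⧸ M),
      w = fun B => (q (((S : Subgroup G).index : ℕ) : Cfsg.AlgInt))⁻¹ *
        q ((W B : ℕ) : Cfsg.AlgInt) := ⟨_, rfl⟩
  have hw0 : ∀ B, w B ≠ 0 := by
    intro B
    rw [hw]
    exact mul_ne_zero (inv_ne_zero hγ) (hWq B)
  have hZk : (Matrix.of fun i j : ι => q ((n i j : ℕ) : Cfsg.AlgInt)) =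
      Λ'.transpose * (Matrix.diagonal w * Λ) := by
    ext i j
    rw [Matrix.mul_apply]
    simp only [Matrix.of_apply, Matrix.transpose_apply, Matrix.diagonal_mul, hΛ, hΛ', hw]
    have := hk i j
    have e : (∑ B : {B : Set (Cfsg.IrrCharacter G) //
        Cfsg.IsPBlock M B ∧ Cfsg.IsDefectGroup p M B D},
        q (Ω (χr B) (x i)⁻¹) * ((q (((S : Subgroup G).index : ℕ) : Cfsg.AlgInt))⁻¹ *
          q ((W B : ℕ) : Cfsg.AlgInt) * q (Ω (χr B) (x j)))) =
        (q (((S : Subgroup G).index : ℕ) : Cfsg.AlgInt))⁻¹ *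
          ∑ B : {B : Set (Cfsg.IrrCharacter G) //
            Cfsg.IsPBlock M B ∧ Cfsg.IsDefectGroup p M B D},
            q ((W B : ℕ) : Cfsg.AlgInt) * q (Ω (χr B) (x i)⁻¹) * q (Ω (χr B) (x j)) := by
      rw [Finset.mul_sum]
      apply Finset.sum_congr rfl
      intro B _
      ring
    rw [e, ← this, ← mul_assoc, inv_mul_cancel₀ hγ, one_mul]
  -- linear independence of the rows
  have hind : ∀ (y : ι → G), (∀ g : G, ¬ p ∣ orderOf g →
      (∃ Q : Sylow p (Subgroup.centralizer ({g} : Set G)),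
        (Q : Subgroup (Subgroup.centralizer ({g} : Set G))).map
          (Subgroup.centralizer ({g} : Set G)).subtype = D) → ∃ i, IsConj (y i) g) →
      LinearIndependent (Cfsg.AlgInt ⧸ M)
        (fun B : {B : Set (Cfsg.IrrCharacter G) //
          Cfsg.IsPBlock M B ∧ Cfsg.IsDefectGroup p M B D} =>
          (fun j : ι => q (Ω (χr B) (y j)))) := by
    intro y hy
    rw [Fintype.linearIndependent_iff]
    intro g hg
    choose c hc using fun B => hqsurj (g B)
    have hcM := robinson_indep hM D y hy χr hχD hχinj c (by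
      intro i
      have h1 := congrFun hg i
      simp only [Finset.sum_apply, Pi.smul_apply, smul_eq_mul, Pi.zero_apply] at h1
      have h2 : q (∑ B, c B * Ω (χr B) (y i)) = 0 := by
        rw [map_sum, ← h1]
        apply Finset.sum_congr rfl
        intro B _
        rw [map_mul, hc]
      have h3 := (hq0 _).mp h2
      rw [← memLocalIdeal_algInt_iff hMp] at h3
      simpa [hΩ] using h3)
    intro B
    rw [← hc B]
    exact (hq0 _).mpr (hcM B)
  have hΛli : LinearIndependent (Cfsg.AlgInt ⧸ M) Λ.row := by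
    rw [hΛ]; exact hind x hgood
  have hΛ'li : LinearIndependent (Cfsg.AlgInt ⧸ M) Λ'.row := by
    rw [hΛ']; exact hind (fun i => (x i)⁻¹) hgood'
  -- the rank over the residue field
  have hdet : IsUnit (Matrix.diagonal w).det := by
    rw [Matrix.det_diagonal]
    exact isUnit_iff_ne_zero.mpr (Finset.prod_ne_zero_iff.mpr fun B _ => hw0 B)
  have hr1 : (Matrix.diagonal w * Λ).rank = Fintype.card {B : Set (Cfsg.IrrCharacter G) //
      Cfsg.IsPBlock M B ∧ Cfsg.IsDefectGroup p M B D} := by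
    rw [Matrix.rank_mul_eq_right_of_isUnit_det _ _ hdet]
    exact hΛli.rank_matrix
  have hsurj : LinearMap.range (Matrix.diagonal w * Λ).mulVecLin = ⊤ := by
    apply Submodule.eq_top_of_finrank_eq
    have : Module.finrank (Cfsg.AlgInt ⧸ M) (LinearMap.range (Matrix.diagonal w * Λ).mulVecLin) =
        (Matrix.diagonal w * Λ).rank := rfl
    rw [this, hr1]
    simp
  have hr2 : (Λ'.transpose * (Matrix.diagonal w * Λ)).rank = Λ'.transpose.rank := by
    have e1 : (Λ'.transpose * (Matrix.diagonal w * Λ)).rank =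
        Module.finrank (Cfsg.AlgInt ⧸ M)
          (LinearMap.range (Λ'.transpose * (Matrix.diagonal w * Λ)).mulVecLin) := rfl
    rw [e1, Matrix.mulVecLin_mul, LinearMap.range_comp_of_range_eq_top _ hsurj]
    rfl
  have hrk : (Matrix.of fun i j : ι => q ((n i j : ℕ) : Cfsg.AlgInt)).rank =
      Fintype.card {B : Set (Cfsg.IrrCharacter G) //
        Cfsg.IsPBlock M B ∧ Cfsg.IsDefectGroup p M B D} := by
    rw [hZk, hr2, Matrix.rank_transpose]
    exact hΛ'li.rank_matrix
  -- back to the prime field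
  haveI : CharP (Cfsg.AlgInt ⧸ M) p := by
    refine ⟨fun k => ?_⟩
    rw [← map_natCast (Ideal.Quotient.mk M), Ideal.Quotient.eq_zero_iff_mem, natCast_mem_iff hM]
  have hmat : (Matrix.of fun i j : ι => ((Nat.card {yz : G × G // yz.1 ∈ (K i).carrier ∧
      yz.2 ∈ (K j).carrier ∧ yz.2 * yz.1⁻¹ ∈ (S : Subgroup G)} / p ^ (a - d) : ℕ) : ZMod p)) =
      Matrix.of fun i j : ι => ((n i j : ℕ) : ZMod p) := by
    ext i j
    simp only [Matrix.of_apply]
    rw [← hNc, hZ]
  rw [hmat, ← rank_map_field (ZMod.castHom (dvd_refl p) (Cfsg.AlgInt ⧸ M)), ← hrk]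
  congr 1
  ext i j
  simp only [Matrix.map_apply, Matrix.of_apply]
  rw [map_natCast, map_natCast]

end Cfsg.Agent.S4443
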