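import Cfsg.Statements.S4444
import Cfsg.Agent.Lib.Helper75.Glaub7

set_option autoImplicit false
open Cfsg

namespace Cfsg.Agent.S4444

/-- The Glauberman correspondence for a p-group of operators. Inside a finite group Γ let S normalise G with the orders of G and S coprime, S a p-group, and let C = G ⊓ C(S) be the fixed points. Call an irreducible character χ of G S-invariant when χ(s g s⁻¹) = χ(g) for s ∈ S, g ∈ G. Then: (i) for every S-invariant χ there is exactly one irreducible character β of C whose multiplicity [χ_C, β] in the restriction of χ is not divisible by p; (ii) that multiplicity is ≡ 1 or ≡ −1 (mod p); (iii) distinct S-invariant χ give distinct β; (iv) every irreducible character of C arises in this way. So χ ↦ β is a bijection from the S-invariant irreducible characters of G onto the irreducible characters of C. -/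
theorem result {Γ : Type*} [Group Γ] [Fintype Γ] (G S : Subgroup Γ) [Fintype G] (hnorm : ∀ s ∈ S, ∀ g ∈ G, s * g * s⁻¹ ∈ G) (hcop : (Nat.card G).Coprime (Nat.card S)) (p : ℕ) (hp : p.Prime) (hS : IsPGroup p S) (C : Subgroup Γ) [Fintype C] (hC : C = G ⊓ Subgroup.centralizer (S : Set Γ)) (hCG : C ≤ G) : (∀ χ : Cfsg.IrrCharacter G, (∀ s ∈ S, ∀ g g' : G, (g' : Γ) = s * g * s⁻¹ → (χ : G → ℂ) g' = (χ : G → ℂ) g) → ∃! β : Cfsg.IrrCharacter C, ∃ m : ℕ, Cfsg.classInner (fun c : C => (χ : G → ℂ) ⟨c, hCG c.2⟩) (β : C → ℂ) = (m : ℂ) ∧ ¬ p ∣ m) ∧ (∀ χ : Cfsg.IrrCharacter G, (∀ s ∈ S, ∀ g g' : G, (g' : Γ) = s * g * s⁻¹ → (χ : G → ℂ) g' = (χ : G → ℂ) g) → ∀ β : Cfsg.IrrCharacter C, ∀ m : ℕ, Cfsg.classInner (fun c : C => (χ : G → ℂ) ⟨c, hCG c.2⟩) (β : C → ℂ) = (m : ℂ) → ¬ p ∣ m → ((m : ℤ) ≡ 1 [ZMOD p] ∨ (m : ℤ) ≡ -1 [ZMOD p])) ∧ (∀ χ χ' : Cfsg.IrrCharacter G, (∀ s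 ∈ S, ∀ g g' : G, (g' : Γ) = s * g * s⁻¹ → (χ : G → ℂ) g' = (χ : G → ℂ) g) → (∀ s ∈ S, ∀ g g' : G, (g' : Γ) = s * g * s⁻¹ → (χ' : G → ℂ) g' = (χ' : G → ℂ) g) → ∀ β : Cfsg.IrrCharacter C, ∀ m m' : ℕ, Cfsg.classInner (fun c : C => (χ : G → ℂ) ⟨c, hCG c.2⟩) (β : C → ℂ) = (m : ℂ) → ¬ p ∣ m → Cfsg.classInner (fun c : C => (χ' : G → ℂ) ⟨c, hCG c.2⟩) (β : C → ℂ) = (m' : ℂ) → ¬ p ∣ m' → χ = χ') ∧ (∀ β : Cfsg.IrrCharacter C, ∃ χ : Cfsg.IrrCharacter G, (∀ s ∈ S, ∀ g g' : G, (g' : Γ) = s * g * s⁻¹ → (χ : G → ℂ) g' = (χ : G → ℂ) g) ∧ ∃ m : ℕ, Cfsg.classInner (fun c : C => (χ : G → ℂ) ⟨c, hCG c.2⟩) (β : C → ℂ) = (m : ℂ) ∧ ¬ p ∣ m) := by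
  classical
  obtain ⟨ha, hb, hc⟩ := Cfsg.Agent.Lib.Helper75.glauberman_pgroup G S hnorm hcop p hp hS C hC hCG
  refine ⟨?_, ?_, ?_, ?_⟩
  · intro χ hinv
    obtain ⟨β₀, ε, hβ₀, hε, H⟩ := ha χ.1 χ.2 hinv
    obtain ⟨m, hm, hmod, -⟩ := H β₀ hβ₀
    refine ⟨⟨β₀, hβ₀⟩, ⟨m, hm, Cfsg.Agent.Lib.Helper75.not_dvd_of_modEq_sign hp hε (hmod rfl)⟩, ?_⟩
    rintro β' ⟨m', hm', hpm'⟩
    by_contra hne
    obtain ⟨m₁, hm₁, -, hdvd⟩ := H β'.1 β'.2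
    have h5 : m₁ = m' := by exact_mod_cast hm₁.symm.trans hm'
    exact hpm' (h5 ▸ Int.natCast_dvd_natCast.1 (hdvd (fun h => hne (Subtype.ext h))))
  · intro χ hinv β m hm hpm
    obtain ⟨β₀, ε, hβ₀, hε, H⟩ := ha χ.1 χ.2 hinv
    obtain ⟨m₁, hm₁, hmod, hdvd⟩ := H β.1 β.2
    have e : m₁ = m := by exact_mod_cast hm₁.symm.trans hm
    subst e
    by_cases hβ : β.1 = β₀
    · rcases hε with h | h
      · left
        rw [← h]
        exact hmod hβ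
      · right
        rw [← h]
        exact hmod hβ
    · exact absurd (Int.natCast_dvd_natCast.1 (hdvd hβ)) hpm
  · intro χ χ' hinv hinv' β m m' hm hpm hm' hpm'
    exact Subtype.ext (hb χ.1 χ'.1 χ.2 χ'.2 hinv hinv' β.1 β.2 m m' hm hpm hm' hpm')
  · intro β
    obtain ⟨χ, hχ, hinv, m, hm, hpm⟩ := hc β.1 β.2
    exact ⟨⟨χ, hχ⟩, hinv, m, hm, hpm⟩

end Cfsg.Agent.S4444
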