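import Cfsg.Statements.S4446
import Cfsg.Agent.Lib.Helper75.Glaub4

set_option autoImplicit false
open Cfsg

namespace Cfsg.Agent.S4446

/-- Let the finite group Γ be generated by a normal subgroup G and a cyclic subgroup S of coprime orders, C = G ⊓ C(S), and let χ be an S-invariant irreducible character of G with canonical extension χ̂ to Γ (the extension whose determinantal order is coprime to the order of S). Then there are exactly one irreducible character β of C and one sign ε such that χ̂(c s) = ε β(c) for every c ∈ C and every generator s of S; this β is a constituent of the restriction of χ to C; distinct S-invariant χ give distinct β; and every irreducible character of C arises in this way. -/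
theorem result {Γ : Type*} [Group Γ] [Fintype Γ] (G S : Subgroup Γ) [Fintype G] (hnorm : ∀ s ∈ S, ∀ g ∈ G, s * g * s⁻¹ ∈ G) (hcop : (Nat.card G).Coprime (Nat.card S)) (htop : G ⊔ S = ⊤) (hcyc : IsCyclic S) (C : Subgroup Γ) [Fintype C] (hC : C = G ⊓ Subgroup.centralizer (S : Set Γ)) (hCG : C ≤ G) : (∀ (χ : Cfsg.IrrCharacter G) (χh : Cfsg.IrrCharacter Γ), (∀ s ∈ S, ∀ g g' : G, (g' : Γ) = s * g * s⁻¹ → (χ : G → ℂ) g' = (χ : G → ℂ) g) → (∀ g : G, (χh : Γ → ℂ) g = (χ : G → ℂ) g) → (Cfsg.detOrder (χh : Γ → ℂ)).Coprime (Nat.card S) → (∃! βε : Cfsg.IrrCharacter C × ℤ, (βε.2 = 1 ∨ βε.2 = -1) ∧ ∀ c : C, ∀ s : Γ, Subgroup.zpowers s = S → (χh : Γ → ℂ) ((c : Γ) * s) = (βε.2 : ℂ) * (βε.1 : C → ℂ) c) ∧ ∀ β : Cfsg.IrrCharacter C, ∀ ε : ℤ, (ε = 1 ∨ ε = -1) → (∀ c : C, ∀ s : Γ, Subgroup.zpowers s = S → (χh : Γ → ℂ) ((c : Γ) * s) = (ε : ℂ) * (β : C → ℂ) c) → Cfsg.classInner (fun c : C => (χ : G → ℂ)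 ⟨c, hCG c.2⟩) (β : C → ℂ) ≠ 0) ∧ (∀ (χ χ' : Cfsg.IrrCharacter G) (χh χh' : Cfsg.IrrCharacter Γ), (∀ s ∈ S, ∀ g g' : G, (g' : Γ) = s * g * s⁻¹ → (χ : G → ℂ) g' = (χ : G → ℂ) g) → (∀ s ∈ S, ∀ g g' : G, (g' : Γ) = s * g * s⁻¹ → (χ' : G → ℂ) g' = (χ' : G → ℂ) g) → (∀ g : G, (χh : Γ → ℂ) g = (χ : G → ℂ) g) → (∀ g : G, (χh' : Γ → ℂ) g = (χ' : G → ℂ) g) → (Cfsg.detOrder (χh : Γ → ℂ)).Coprime (Nat.card S) → (Cfsg.detOrder (χh' : Γ → ℂ)).Coprime (Nat.card S) → ∀ β : Cfsg.IrrCharacter C, ∀ ε ε' : ℤ, (ε = 1 ∨ ε = -1) → (ε' = 1 ∨ ε' = -1) → (∀ c : C, ∀ s : Γ, Subgroup.zpowers s = S → (χh : Γ → ℂ) ((c : Γ) * s) = (ε : ℂ) * (β : C → ℂ) c) → (∀ c : C, ∀ s : Γ, Subgroup.zpowers s = S → (χh' : Γ → ℂ) ((c : Γ) * s) = (ε' : ℂ) * (β : C → ℂ) c) → χ = χ') ∧ (∀ β : Cfsg.IrrCharacter C, ∃ (χ : Cfsg.IrrCharacter G) (χh : Cfsg.IrrCharacter Γ) (ε : ℤ), (∀ s ∈ S, ∀ g g' : G, (g' : Γ) = s * g * s⁻¹ → (χ : G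 → ℂ) g' = (χ : G → ℂ) g) ∧ (∀ g : G, (χh : Γ → ℂ) g = (χ : G → ℂ) g) ∧ (Cfsg.detOrder (χh : Γ → ℂ)).Coprime (Nat.card S) ∧ (ε = 1 ∨ ε = -1) ∧ ∀ c : C, ∀ s : Γ, Subgroup.zpowers s = S → (χh : Γ → ℂ) ((c : Γ) * s) = (ε : ℂ) * (β : C → ℂ) c) := by
  classical
  have hG : G.Normal := Cfsg.Agent.Lib.Helper75.normal_of_sup_eq_top G S hnorm htop
  obtain ⟨s₀, hs₀⟩ := Cfsg.Agent.Lib.Helper75.exists_generator_zpowers S hcyc
  have horder : orderOf s₀ = Nat.card S := by rw [← Nat.card_zpowers, hs₀]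
  have hcop' : (Nat.card G).Coprime (orderOf s₀) := by rw [horder]; exact hcop
  have htop' : G ⊔ Subgroup.zpowers s₀ = ⊤ := by rw [hs₀]; exact htop
  have hs₀S : s₀ ∈ S := by rw [← hs₀]; exact Subgroup.mem_zpowers s₀
  have hC' : ∀ c : Γ, c ∈ C ↔ c ∈ G ∧ c * s₀ = s₀ * c := by
    intro c
    rw [hC, Subgroup.mem_inf, Subgroup.mem_centralizer_iff]
    constructor
    · rintro ⟨h1, h2⟩
      exact ⟨h1, (h2 s₀ hs₀S).symm⟩
    · rintro ⟨h1, h2⟩
      refine ⟨h1, ?_⟩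
      intro t ht
      have h3 : s₀ ∈ Subgroup.centralizer ({c} : Set Γ) := by
        rw [Subgroup.mem_centralizer_singleton_iff]
        exact h2.symm
      have h4 : Subgroup.zpowers s₀ ≤ Subgroup.centralizer ({c} : Set Γ) :=
        (Subgroup.zpowers_le).2 h3
      rw [hs₀] at h4
      exact Subgroup.mem_centralizer_singleton_iff.1 (h4 ht)
  have hgen : ∀ s : Γ, Subgroup.zpowers s = S → ∃ j : ℕ, j.Coprime (orderOf s₀) ∧ s = s₀ ^ j := by
    intro s hs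
    exact Cfsg.Agent.Lib.Helper75.exists_pow_coprime_of_zpowers_eq (hs.trans hs₀.symm)
  refine ⟨?_, ?_, ?_⟩
  · intro χ χh hinv hext hdet
    have h1 : Cfsg.IsIrrCharacter Γ (χh : Γ → ℂ) := χh.2
    have hres : Cfsg.IsIrrCharacter G (fun g : G => (χh : Γ → ℂ) g) := by
      have : (fun g : G => (χh : Γ → ℂ) g) = (χ : G → ℂ) := funext hext
      rw [this]
      exact χ.2
    have hd1 : (Cfsg.detOrder (χh : Γ → ℂ)).Coprime (orderOf s₀) := by rw [horder]; exact hdet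
    obtain ⟨β, ε, hβ, hε, hval, hne⟩ :=
      Cfsg.Agent.Lib.Helper75.exists_glauberman_cyclic G s₀ hcop' htop' C hC' h1 hres hd1
    have huniq : ∀ (β' : Cfsg.IrrCharacter C) (ε' : ℤ), (ε' = 1 ∨ ε' = -1) →
        (∀ c : C, ∀ s : Γ, Subgroup.zpowers s = S →
          (χh : Γ → ℂ) ((c : Γ) * s) = (ε' : ℂ) * (β' : C → ℂ) c) →
        (β' : C → ℂ) = β ∧ ε' = ε := by
      intro β' ε' hε' hv
      apply Cfsg.Agent.Lib.Helper75.sign_irr_unique hβ β'.2 hε hε'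
      intro c
      rw [← hv c s₀ hs₀]
      have h3 := hval c 1 (Nat.coprime_one_left _)
      rw [pow_one] at h3
      exact h3
    refine ⟨⟨(⟨β, hβ⟩, ε), ⟨hε, ?_⟩, ?_⟩, ?_⟩
    · intro c s hs
      obtain ⟨j, hj, rfl⟩ := hgen s hs
      exact hval c j hj
    · rintro ⟨β', ε'⟩ ⟨hε', hv⟩
      obtain ⟨h3, h4⟩ := huniq β' ε' hε' hv
      exact Prod.ext (Subtype.ext h3) h4
    · intro β' ε' hε' hv
      obtain ⟨h3, h4⟩ := huniq β' ε' hε' hv
      rw [h3]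
      have h5 : (fun c : C => (χ : G → ℂ) ⟨c, hCG c.2⟩) = (fun c : C => (χh : Γ → ℂ) (c : Γ)) := by
        funext c
        exact (hext ⟨c, hCG c.2⟩).symm
      rw [h5]
      exact hne
  · intro χ χ' χh χh' hinv hinv' hext hext' hdet hdet' β ε ε' hε hε' hv hv'
    have hres : Cfsg.IsIrrCharacter G (fun g : G => (χh : Γ → ℂ) g) := by
      have : (fun g : G => (χh : Γ → ℂ) g) = (χ : G → ℂ) := funext hext
      rw [this]
      exact χ.2
    have hres' : Cfsg.IsIrrCharacter G (fun g : G => (χh' : Γ → ℂ) g) := by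
      have : (fun g : G => (χh' : Γ → ℂ) g) = (χ' : G → ℂ) := funext hext'
      rw [this]
      exact χ'.2
    have h6 := Cfsg.Agent.Lib.Helper75.glauberman_cyclic_inj G s₀ hcop' C hC' χh.2 χh'.2 hres hres'
      β.2 hε hε' (fun c => hv c s₀ hs₀) (fun c => hv' c s₀ hs₀)
    apply Subtype.ext
    funext g
    rw [← hext g, ← hext' g]
    exact (congrFun h6 g).symm
  · intro β
    obtain ⟨χh, ε, h1, hres, hd, hε, hval⟩ :=
      Cfsg.Agent.Lib.Helper75.glauberman_cyclic_surj G s₀ hcop' htop' C hC' β.2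
    refine ⟨⟨fun g : G => χh g, hres⟩, ⟨χh, h1⟩, ε, ?_, fun g => rfl, ?_, hε, ?_⟩
    · intro s _ g g' hg'
      show χh (g' : Γ) = χh (g : Γ)
      rw [hg']
      exact Cfsg.Agent.Lib.Helper3.isClassFunction_of_isCharacter
        (Cfsg.Agent.Lib.Helper3.isCharacter_of_irr h1) _ _
    · rw [← horder]
      exact hd
    · intro c s hs
      obtain ⟨j, hj, rfl⟩ := hgen s hs
      exact hval c j hj

end Cfsg.Agent.S4446
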