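import Cfsg.Statements.S4447
import Cfsg.Agent.Lib.Helper81.CoprimeChar

set_option autoImplicit false
open Cfsg

namespace Cfsg.Agent.S4447

/-- Inside a finite group Γ let S normalise G and also normalise a normal subgroup N of G, with the order of S coprime to the index of N in G and S or G/N solvable. Then for every S-invariant irreducible character χ of G, the restriction of χ to N has an S-invariant irreducible constituent. -/
theorem result {Γ : Type*} [Group Γ] [Fintype Γ] (G S N : Subgroup Γ) [Fintype G] [Fintype N] (hnorm : ∀ s ∈ S, ∀ g ∈ G, s * g * s⁻¹ ∈ G) (hNG : N ≤ G) [hNn : (N.subgroupOf G).Normal] (hNS : ∀ s ∈ S, ∀ n ∈ N, s * n * s⁻¹ ∈ N) (hcop : (N.relIndex G).Coprime (Nat.card S)) (hsolv : Group.IsSolvable S ∨ Group.IsSolvable (G ⧸ N.subgroupOf G)) (χ : Cfsg.IrrCharacter G) (hinv : (∀ s ∈ S, ∀ g g' : G, (g' : Γ) = s * g * s⁻¹ → (χ : G → ℂ) g' = (χ : G → ℂ) g)) : ∃ θ : Cfsg.IrrCharacter N, Cfsg.classInner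 (fun n : N => (χ : G → ℂ) ⟨n, hNG n.2⟩) (θ : N → ℂ) ≠ 0 ∧ (∀ s ∈ S, ∀ g g' : N, (g' : Γ) = s * g * s⁻¹ → (θ : N → ℂ) g' = (θ : N → ℂ) g) := by
  classical
  have hAG : ∀ a ∈ S.map (MulAut.conj : Γ →* MulAut Γ), ∀ g ∈ G, a g ∈ G := by
    rintro _ ⟨s, hs, rfl⟩ g hg
    rw [MulAut.conj_apply]
    exact hnorm s hs g hg
  have hAN : ∀ a ∈ S.map (MulAut.conj : Γ →* MulAut Γ), ∀ n ∈ N, a n ∈ N := by
    rintro _ ⟨s, hs, rfl⟩ n hn
    rw [MulAut.conj_apply]
    exact hNS s hs n hn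
  have hcop' : (Nat.card (S.map (MulAut.conj : Γ →* MulAut Γ))).Coprime (N.relIndex G) :=
    Nat.Coprime.coprime_dvd_left (Subgroup.card_map_dvd S _) hcop.symm
  have hsolv' : Group.IsSolvable (S.map (MulAut.conj : Γ →* MulAut Γ)) ∨
      Group.IsSolvable (G ⧸ N.subgroupOf G) := by
    rcases hsolv with h | h
    · exact Or.inl (Group.isSolvable_of_surjective
        (f := (MulAut.conj : Γ →* MulAut Γ).subgroupMap S)
        (MonoidHom.subgroupMap_surjective _ S))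
    · exact Or.inr h
  obtain ⟨θ, hθ, hne, hθinv⟩ := Lib.Helper81.inv_constituent_below_rel G N hNG
    (S.map (MulAut.conj : Γ →* MulAut Γ)) hAG hAN hcop' hsolv' χ.2 (by
      rintro _ ⟨s, hs, rfl⟩ g h
      exact hinv s hs g ⟨_, h⟩ (MulAut.conj_apply s _))
  refine ⟨⟨θ, hθ⟩, hne, ?_⟩
  intro s hs g g' hgg'
  have h1 : (MulAut.conj s) (g : Γ) ∈ N := by
    rw [MulAut.conj_apply, ← hgg']
    exact g'.2
  have h2 := hθinv (MulAut.conj s) (Subgroup.mem_map_of_mem _ hs) g h1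
  have h3 : g' = ⟨(MulAut.conj s) (g : Γ), h1⟩ :=
    Subtype.ext (hgg'.trans (MulAut.conj_apply s _).symm)
  rw [h3]
  exact h2

end Cfsg.Agent.S4447
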