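import Cfsg.Statements.S4449
import Cfsg.Agent.Lib.Helper81.GlaubAbove

set_option autoImplicit false
open Cfsg

namespace Cfsg.Agent.S4449

/-- Inside a finite group Γ let the solvable subgroup S normalise G with the orders of G and S coprime, and let N be a normal subgroup of G normalised by S. Then for every S-invariant irreducible character ϑ of N, the induced character ϑ^G has an S-invariant irreducible constituent. -/
theorem result {Γ : Type*} [Group Γ] [Fintype Γ] (G S N : Subgroup Γ) [Fintype G] [Fintype N] (hnorm : ∀ s ∈ S, ∀ g ∈ G, s * g * s⁻¹ ∈ G) (hNG : N ≤ G) (hNnormal : ∀ g ∈ G, ∀ n ∈ N, g * n * g⁻¹ ∈ N) (hNS : ∀ s ∈ S, ∀ n ∈ N, s * n * s⁻¹ ∈ N) (hcop : (Nat.card G).Coprime (Nat.card S)) (hsolv : Group.IsSolvable S) (θ : Cfsg.IrrCharacter N) (hinv : (∀ s ∈ S, ∀ g g' : N, (g' : Γ) = s * g * s⁻¹ → (θ : N → ℂ) g' = (θ : N → ℂ) g)) : ∃ χ : Cfsg.IrrCharacter G, Cfsg.classInner (fun n : N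 => (χ : G → ℂ) ⟨n, hNG n.2⟩) (θ : N → ℂ) ≠ 0 ∧ (∀ s ∈ S, ∀ g g' : G, (g' : Γ) = s * g * s⁻¹ → (χ : G → ℂ) g' = (χ : G → ℂ) g) := by
  classical
  have hAG : ∀ a ∈ S.map (MulAut.conj : Γ →* MulAut Γ), ∀ g ∈ G, a g ∈ G := by
    rintro _ ⟨s, hs, rfl⟩ g hg
    rw [MulAut.conj_apply]
    exact hnorm s hs g hg
  have hAN : ∀ a ∈ S.map (MulAut.conj : Γ →* MulAut Γ), ∀ n ∈ N, a n ∈ N := by
    rintro _ ⟨s, hs, rfl⟩ n hn
    rw [MulAut.conj_apply]
    exact hNS s hs n hn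
  have hcop' : (Nat.card (S.map (MulAut.conj : Γ →* MulAut Γ))).Coprime (Nat.card G) :=
    Nat.Coprime.coprime_dvd_left (Subgroup.card_map_dvd S _) hcop.symm
  have hsolv' : Group.IsSolvable (S.map (MulAut.conj : Γ →* MulAut Γ)) :=
    Group.isSolvable_of_surjective (f := (MulAut.conj : Γ →* MulAut Γ).subgroupMap S)
      (MonoidHom.subgroupMap_surjective _ S)
  have hGN : G ≤ Subgroup.normalizer (N : Set Γ) :=
    Lib.Helper81.le_normalizer_of_conj_mem N G hNnormal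
  obtain ⟨χ, hχ, hne, hχinv⟩ := Lib.Helper81.inv_constituent_above_solv
    (S.map (MulAut.conj : Γ →* MulAut Γ)) hsolv' G N hNG hGN hAG hAN hcop' θ.2 (by
      rintro _ ⟨s, hs, rfl⟩ n h
      exact hinv s hs n ⟨_, h⟩ (MulAut.conj_apply s _))
  refine ⟨⟨χ, hχ⟩, hne, ?_⟩
  intro s hs g g' hgg'
  have h1 : (MulAut.conj s) (g : Γ) ∈ G := by
    rw [MulAut.conj_apply, ← hgg']
    exact g'.2
  have h2 := hχinv (MulAut.conj s) (Subgroup.mem_map_of_mem _ hs) g h1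
  have h3 : g' = ⟨(MulAut.conj s) (g : Γ), h1⟩ :=
    Subtype.ext (hgg'.trans (MulAut.conj_apply s _).symm)
  rw [h3]
  exact h2

end Cfsg.Agent.S4449
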