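import Cfsg.Statements.S4451
import Cfsg.Agent.Lib.Helper75.CycFrob
import Cfsg.Agent.Lib.Helper15.LinChar
import Cfsg.Agent.Lib.Helper80.CharOps

set_option autoImplicit false
open Cfsg

namespace Cfsg.Agent.S4451

/-- Let the finite group Γ be generated by a normal subgroup G and a cyclic subgroup S of coprime orders such that every non-identity element of S has the same centraliser C = G ⊓ C(S) in G. Let χ be an S-invariant irreducible character of G, χ̂ its canonical extension to Γ (determinantal order coprime to the order of S), and β the irreducible character of C with χ̂(c s) = ε₀ β(c) for c ∈ C and generators s of S (ε₀ = ±1). Then there are a sign ε = ±1, which may differ from ε₀, and a linear character μ of S with μ² = 1, such that: (a) χ̂(c x) = ε β(c) μ(x) for all c ∈ C and all x ∈ S other than 1; (b) the restriction of χ to C equals |S|·ϑ + ε β for some character ϑ of C or ϑ = 0; (c) |S| divides χ(1)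 − ε β(1). -/
theorem result {Γ : Type*} [Group Γ] [Fintype Γ] (G S : Subgroup Γ) [Fintype G] (hnorm : ∀ s ∈ S, ∀ g ∈ G, s * g * s⁻¹ ∈ G) (hcop : (Nat.card G).Coprime (Nat.card S)) (htop : G ⊔ S = ⊤) (hcyc : IsCyclic S) (C : Subgroup Γ) [Fintype C] (hC : C = G ⊓ Subgroup.centralizer (S : Set Γ)) (hCG : C ≤ G) (hfpf : ∀ x ∈ S, x ≠ 1 → G ⊓ Subgroup.centralizer ({x} : Set Γ) = C) (χ : Cfsg.IrrCharacter G) (hinv : (∀ s ∈ S, ∀ g g' : G, (g' : Γ) = s * g * s⁻¹ → (χ : G → ℂ) g' = (χ : G → ℂ) g)) (χh : Cfsg.IrrCharacter Γ) (hext : (∀ g : G, (χh : Γ → ℂ) g = (χ : G → ℂ) g)) (hdet : (Cfsg.detOrder (χh : Γ → ℂ)).Coprime (Nat.card S)) (β : Cfsg.IrrCharacter C) (ε₀ : ℤ) (hε₀ : ε₀ = 1 ∨ ε₀ = -1) (hβ : ∀ c : C, ∀ s : Γ, Subgroup.zpowers s = S → (χh : Γ → ℂ) ((c : Γ) * s) = (ε₀ : ℂ) * (β : C → ℂ) c) : ∃ ε : ℤ, (ε = 1 ∨ ε = -1) ∧ (∃ μ : S → ℂ, Cfsg.IsCharacter S μ ∧ μ 1 = 1 ∧ (∀ x : S, μ x * μ x = 1) ∧ ∀ c : C, ∀ x : S, x ≠ 1 →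 (χh : Γ → ℂ) ((c : Γ) * x) = (ε : ℂ) * (β : C → ℂ) c * μ x) ∧ (∃ ϑ : C → ℂ, Cfsg.IsCharacter C ϑ ∧ (fun c : C => (χ : G → ℂ) ⟨c, hCG c.2⟩) = fun c => (Nat.card S : ℂ) * ϑ c + (ε : ℂ) * (β : C → ℂ) c) ∧ (Nat.card S : ℤ) ∣ (Cfsg.charDegree (χ : G → ℂ) : ℤ) - ε * (Cfsg.charDegree (β : C → ℂ) : ℤ) := by
  classical
  have hG : G.Normal := Cfsg.Agent.Lib.Helper75.normal_of_sup_eq_top G S hnorm htop
  obtain ⟨s₀, hs₀⟩ := Cfsg.Agent.Lib.Helper75.exists_generator_zpowers S hcyc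
  have horder : orderOf s₀ = Nat.card S := by rw [← Nat.card_zpowers, hs₀]
  have hcop' : (Nat.card G).Coprime (orderOf s₀) := by rw [horder]; exact hcop
  have htop' : G ⊔ Subgroup.zpowers s₀ = ⊤ := by rw [hs₀]; exact htop
  have hs₀S : s₀ ∈ S := by rw [← hs₀]; exact Subgroup.mem_zpowers s₀
  have hC' : ∀ c : Γ, c ∈ C ↔ c ∈ G ∧ c * s₀ = s₀ * c := by
    intro c
    rw [hC, Subgroup.mem_inf, Subgroup.mem_centralizer_iff]
    constructor
    · rintro ⟨h1, h2⟩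
      exact ⟨h1, (h2 s₀ hs₀S).symm⟩
    · rintro ⟨h1, h2⟩
      refine ⟨h1, ?_⟩
      intro t ht
      have h3 : s₀ ∈ Subgroup.centralizer ({c} : Set Γ) := by
        rw [Subgroup.mem_centralizer_singleton_iff]
        exact h2.symm
      have h4 : Subgroup.zpowers s₀ ≤ Subgroup.centralizer ({c} : Set Γ) :=
        (Subgroup.zpowers_le).2 h3
      rw [hs₀] at h4
      exact Subgroup.mem_centralizer_singleton_iff.1 (h4 ht)
  have h1 : Cfsg.IsIrrCharacter Γ (χh : Γ → ℂ) := χh.2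
  have hres : Cfsg.IsIrrCharacter G (fun g : G => (χh : Γ → ℂ) g) := by
    have : (fun g : G => (χh : Γ → ℂ) g) = (χ : G → ℂ) := funext hext
    rw [this]
    exact χ.2
  have hd1 : (Cfsg.detOrder (χh : Γ → ℂ)).Coprime (orderOf s₀) := by rw [horder]; exact hdet
  have hχC : ∀ c : C, (χ : G → ℂ) ⟨c, hCG c.2⟩ = (χh : Γ → ℂ) (c : Γ) :=
    fun c => (hext ⟨c, hCG c.2⟩).symm
  have hdegχ : (χh : Γ → ℂ) 1 = (Cfsg.charDegree (χ : G → ℂ) : ℂ) := by
    have h2 := Cfsg.Agent.Lib.Helper80.char_one_eq_charDegree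
      (Cfsg.Agent.Lib.Helper3.isCharacter_of_irr χ.2)
    rw [← h2]
    exact hext 1
  have hdegβ : (β : C → ℂ) 1 = (Cfsg.charDegree (β : C → ℂ) : ℂ) :=
    Cfsg.Agent.Lib.Helper80.char_one_eq_charDegree
      (Cfsg.Agent.Lib.Helper3.isCharacter_of_irr β.2)
  by_cases hS1 : orderOf s₀ = 1
  · have hs1 : s₀ = 1 := orderOf_eq_one_iff.1 hS1
    have hval : ∀ c : C, (χh : Γ → ℂ) (c : Γ) = (ε₀ : ℂ) * (β : C → ℂ) c := by
      intro c
      have h2 := hβ c s₀ hs₀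
      rwa [hs1, mul_one] at h2
    have hε1 : ε₀ = 1 := by
      rcases hε₀ with h | h
      · exact h
      · exfalso
        have h2 := hval 1
        rw [h] at h2
        have h3 : (χh : Γ → ℂ) ((1 : C) : Γ) = (χh : Γ → ℂ) 1 := rfl
        rw [h3, hdegχ, hdegβ] at h2
        have h4 : (Cfsg.charDegree (χ : G → ℂ) : ℤ) =
            -1 * (Cfsg.charDegree (β : C → ℂ) : ℤ) := by exact_mod_cast h2
        have h5 := Cfsg.Agent.Lib.Helper80.charDegree_pos χ.2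
        omega
    have hcard1 : Nat.card S = 1 := by rw [← horder]; exact hS1
    refine ⟨1, Or.inl rfl, ⟨fun _ => 1, Cfsg.Agent.Lib.Helper3.isCharacter_of_irr
      Cfsg.Agent.Lib.Helper80.isIrrCharacter_one, rfl, fun _ => by norm_num, ?_⟩,
      ⟨0, Cfsg.Agent.Lib.Helper75.isCharacter_zero, ?_⟩, ?_⟩
    · intro c x hx
      exfalso
      apply hx
      haveI : Subsingleton S := (Nat.card_eq_one_iff_unique.1 hcard1).1
      exact Subsingleton.elim _ _
    · funext c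
      rw [hχC c, hval c, hε1]
      simp
    · rw [hcard1]
      simp
  · have hn : 2 ≤ orderOf s₀ := by
      have := orderOf_pos s₀
      omega
    have hfpf' : ∀ j : ℕ, s₀ ^ j ≠ 1 → ∀ c : Γ, c ∈ G → c * s₀ ^ j = s₀ ^ j * c → c ∈ C := by
      intro j hj c hc hcomm
      rw [← hfpf (s₀ ^ j) (S.pow_mem hs₀S j) hj, Subgroup.mem_inf]
      refine ⟨hc, ?_⟩
      rw [Subgroup.mem_centralizer_singleton_iff]
      exact hcomm
    obtain ⟨ε, hε, ν, hν, hνn, hval, ϑ, hϑ, hϑval⟩ :=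
      Cfsg.Agent.Lib.Helper75.cyc_frob G s₀ hcop' htop' C hC' h1 hres hd1 hn hfpf' β.2 hε₀
        (fun c => hβ c s₀ hs₀)
    have hν0 : ν ≠ 0 := by
      rcases hν with h | h <;> rw [h] <;> norm_num
    have hνsq : ν * ν = 1 := by
      rcases hν with h | h <;> rw [h] <;> norm_num
    -- the linear character μ
    set g₀ : S := ⟨s₀, hs₀S⟩ with hg₀
    have hgen : ∀ x : S, x ∈ Subgroup.zpowers g₀ := by
      intro x
      have hx : (x : Γ) ∈ Subgroup.zpowers s₀ := by rw [hs₀]; exact x.2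
      obtain ⟨k, hk⟩ := Subgroup.mem_zpowers_iff.1 hx
      refine Subgroup.mem_zpowers_iff.2 ⟨k, ?_⟩
      apply Subtype.ext
      rw [Subgroup.coe_zpow]
      exact hk
    have hordg : orderOf g₀ = orderOf s₀ := by
      rw [← Subgroup.orderOf_coe]
    have hord : orderOf (Units.mk0 ν hν0) ∣ orderOf g₀ := by
      rw [hordg]
      apply orderOf_dvd_of_pow_eq_one
      apply Units.ext
      rw [Units.val_pow_eq_pow_val, Units.val_mk0, hνn]
      rfl
    set μhom : S →* ℂˣ := monoidHomOfForallMemZpowers hgen hord with hμhom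
    have hμg : μhom g₀ = Units.mk0 ν hν0 := monoidHomOfForallMemZpowers_apply_gen hgen hord
    have hμpow : ∀ j : ℕ, ((μhom (g₀ ^ j) : ℂˣ) : ℂ) = ν ^ j := by
      intro j
      rw [map_pow, hμg, Units.val_pow_eq_pow_val, Units.val_mk0]
    have hd : ∃ d : ℕ, ϑ 1 = (d : ℂ) := by
      obtain ⟨d, ρ, hρ⟩ := hϑ
      exact ⟨d, by rw [← hρ]; exact Cfsg.Agent.Lib.Helper80.char_one_fin ρ⟩
    obtain ⟨d, hd⟩ := hd
    refine ⟨ε, hε, ⟨fun x => ((μhom x : ℂˣ) : ℂ),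
      Cfsg.Agent.Lib.Helper15.isCharacter_of_hom μhom, ?_, ?_, ?_⟩, ⟨ϑ, hϑ, ?_⟩, ?_⟩
    · show ((μhom 1 : ℂˣ) : ℂ) = 1
      rw [map_one]
      rfl
    · intro x
      obtain ⟨k, hk⟩ := Subgroup.mem_zpowers_iff.1 (hgen x)
      show ((μhom x : ℂˣ) : ℂ) * ((μhom x : ℂˣ) : ℂ) = 1
      rw [← hk, map_zpow, hμg, ← Units.val_mul, ← mul_zpow]
      have h2 : Units.mk0 ν hν0 * Units.mk0 ν hν0 = 1 := by
        apply Units.ext
        rw [Units.val_mul, Units.val_mk0]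
        exact hνsq
      rw [h2, one_zpow]
      rfl
    · intro c x hx
      have hx' : (x : Γ) ∈ Subgroup.zpowers s₀ := by rw [hs₀]; exact x.2
      rw [mem_zpowers_iff_mem_range_orderOf] at hx'
      obtain ⟨j, hj, hjx⟩ := Finset.mem_image.1 hx'
      have hjn : j < orderOf s₀ := Finset.mem_range.1 hj
      have hjx' : s₀ ^ j = (x : Γ) := hjx
      have hj0 : 0 < j := by
        rcases Nat.eq_zero_or_pos j with h | h
        · exfalso
          apply hx
          apply Subtype.ext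
          rw [← hjx', h, pow_zero]
          rfl
        · exact h
      have hxg : x = g₀ ^ j := by
        apply Subtype.ext
        rw [Subgroup.coe_pow]
        exact hjx'.symm
      show (χh : Γ → ℂ) ((c : Γ) * (x : Γ)) = (ε : ℂ) * (β : C → ℂ) c * ((μhom x : ℂˣ) : ℂ)
      rw [← hjx', hval c j hj0 hjn, hxg, hμpow j]
    · funext c
      rw [hχC c, hϑval c, horder]
    · have h2 := hϑval 1
      have h3 : (χh : Γ → ℂ) ((1 : C) : Γ) = (χh : Γ → ℂ) 1 := rfl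
      rw [h3, hdegχ, hdegβ, hd, horder] at h2
      have h4 : (Cfsg.charDegree (χ : G → ℂ) : ℤ) =
          (Nat.card S : ℤ) * (d : ℤ) + ε * (Cfsg.charDegree (β : C → ℂ) : ℤ) := by
        exact_mod_cast h2
      exact ⟨(d : ℤ), by rw [h4]; ring⟩

end Cfsg.Agent.S4451
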