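-- Statement S4457: Isaacs 12.5, groups with two character degrees.
import Mathlib
import Cfsg.Statements.S4457
import Cfsg.Agent.Lib.Helper74.TwoDeg

set_option autoImplicit false
open Cfsg

namespace Cfsg.Agent.S4457

theorem result {G : Type*} [Group G] [Finite G] (m : ℕ) (hcd : ∀ χ : Cfsg.IrrCharacter G, Cfsg.charDegree (χ : G → ℂ) = 1 ∨ Cfsg.charDegree (χ : G → ℂ) = m) (hm : ∃ χ : Cfsg.IrrCharacter G, Cfsg.charDegree (χ : G → ℂ) = m) (hm1 : m ≠ 1) : (∃ A : Subgroup G, A.Normal ∧ (∀ a ∈ A, ∀ b ∈ A, a * b = b * a) ∧ A.index = m) ∨ ∃ p e : ℕ, p.Prime ∧ m = p ^ e ∧ ∃ P A : Subgroup G, P.Normal ∧ A.Normal ∧ IsPGroup p P ∧ (∀ a ∈ A, ∀ b ∈ A, a * b = b * a) ∧ P ⊓ A = ⊥ ∧ P ⊔ A = ⊤ := by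
  classical
  haveI : Fintype G := Fintype.ofFinite G
  rcases Cfsg.Agent.Lib.Helper74.two_degree_structure m hcd hm hm1 with h | h
  · exact Or.inl h
  · right
    obtain ⟨p, e, N, hp, hme, hN, hNc, hNp, k, hk⟩ := h
    haveI : Fact p.Prime := ⟨hp⟩
    haveI := hN
    obtain ⟨P⟩ : Nonempty (Sylow p G) := inferInstance
    refine ⟨p, e, hp, hme, (P : Subgroup G), N, ?_, hN, P.isPGroup', ?_, ?_, ?_⟩
    all_goals
      obtain ⟨j, hj⟩ := IsPGroup.iff_card.mp P.isPGroup'
      have hcardN : Nat.card N * p ^ k = Nat.card G := by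
        rw [← hk]
        exact Subgroup.card_mul_index N
      have hcardP : p ^ j * (P : Subgroup G).index = Nat.card G := by
        rw [← hj]
        exact Subgroup.card_mul_index (P : Subgroup G)
      have hPi : Nat.Coprime (p ^ k) (P : Subgroup G).index :=
        Nat.Coprime.pow_left k ((Nat.Prime.coprime_iff_not_dvd hp).mpr P.not_dvd_index)
      have hjk : j = k := by
        have h1 : p ^ j ∣ p ^ k := by
          have h2 : p ^ j ∣ Nat.card N * p ^ k := by
            rw [hcardN, ← hcardP]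
            exact dvd_mul_right _ _
          exact (Nat.Coprime.pow_left j hNp.symm).dvd_of_dvd_mul_left h2
        have h3 : p ^ k ∣ p ^ j := by
          have h4 : p ^ k ∣ p ^ j * (P : Subgroup G).index := by
            rw [hcardP, ← hcardN]
            exact dvd_mul_left _ _
          exact hPi.dvd_of_dvd_mul_right h4
        exact Nat.pow_right_injective hp.two_le (Nat.dvd_antisymm h1 h3)
      have hcompl : Subgroup.IsComplement' (P : Subgroup G) N := by
        apply Subgroup.isComplement'_of_coprime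
        · rw [hj, hjk, mul_comm]
          exact hcardN
        · rw [hj]
          exact Nat.Coprime.pow_left j hNp.symm
    · -- `P` is normal
      refine ⟨fun y hy g => ?_⟩
      obtain ⟨⟨x, n⟩, hxn⟩ := hcompl.2 g
      simp only at hxn
      have hn : ∀ z : G, z * (n : G) = (n : G) * z := Subgroup.mem_center_iff.mp (hNc n.2)
      have h1 : g * y * g⁻¹ = (x : G) * y * (x : G)⁻¹ := by
        rw [← hxn]
        calc (x : G) * (n : G) * y * ((x : G) * (n : G))⁻¹
            = (x : G) * ((n : G) * y) * (n : G)⁻¹ * (x : G)⁻¹ := by group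
          _ = (x : G) * (y * (n : G)) * (n : G)⁻¹ * (x : G)⁻¹ := by rw [hn y]
          _ = (x : G) * y * (x : G)⁻¹ := by group
      rw [h1]
      exact (P : Subgroup G).mul_mem ((P : Subgroup G).mul_mem x.2 hy) ((P : Subgroup G).inv_mem x.2)
    · intro a ha b hb
      exact (Subgroup.mem_center_iff.mp (hNc hb) a)
    · exact disjoint_iff.mp hcompl.disjoint
    · exact hcompl.sup_eq_top

end Cfsg.Agent.S4457
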