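import Cfsg.Statements.S4463
import Cfsg.Agent.Lib.Helper86.IP.Assembly
import Cfsg.Agent.Lib.Helper86.IP.Adapters
import Cfsg.Agent.Lib.Helper82.IP.Pkg
import Cfsg.Agent.Lib.Helper10.IP.Pkg
import Cfsg.Agent.Lib.Helper97.IP.Cliff
import Cfsg.Agent.Lib.Helper97.IP.V
import Cfsg.Agent.Lib.Helper15.IP.Count
import Cfsg.Agent.Lib.Helper57.IP.Str
import Cfsg.Agent.Lib.Helper63.IP.Non

set_option autoImplicit false
open Cfsg

namespace Cfsg.Agent.S4463

/-- Let b be the largest irreducible character degree of the finite group G. Then G has an abelian subgroup of index at most (b!)². -/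
theorem result {G : Type*} [Group G] [Finite G] (b : ℕ) (hb : IsGreatest {d : ℕ | ∃ χ : Cfsg.IrrCharacter G, Cfsg.charDegree (χ : G → ℂ) = d} b) : ∃ A : Subgroup G, (∀ x ∈ A, ∀ y ∈ A, x * y = y * x) ∧ A.index ≤ (Nat.factorial b) ^ 2 := by
  refine Cfsg.Agent.Lib.Helper86.IP.s4463_of
    { ex := Cfsg.Agent.Lib.Helper15.IP.lemEx
      pos := Cfsg.Agent.Lib.Helper15.IP.lemPos
      ab := Cfsg.Agent.Lib.Helper15.IP.lemAb
      sub := Cfsg.Agent.Lib.Helper82.IP.lemSub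
      quot := Cfsg.Agent.Lib.Helper82.IP.lemQuot
      solv := Cfsg.Agent.Lib.Helper82.IP.lemSolv
      count := Cfsg.Agent.Lib.Helper15.IP.lemCount
      a := Cfsg.Agent.Lib.Helper86.IP.lemA_of Cfsg.Agent.Lib.Helper10.IP.lemVanA
        Cfsg.Agent.Lib.Helper97.IP.lemCliff
      v := Cfsg.Agent.Lib.Helper97.IP.lemV
      n1 := Cfsg.Agent.Lib.Helper10.IP.lemN1
      k := Cfsg.Agent.Lib.Helper63.IP.lemK
      ci := Cfsg.Agent.Lib.Helper86.IP.lemCIx_of_lemCI Cfsg.Agent.Lib.Helper82.IP.lemCI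
      str := Cfsg.Agent.Lib.Helper57.IP.lemStr
      non := Cfsg.Agent.Lib.Helper63.IP.lemNon } b hb

end Cfsg.Agent.S4463
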