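import Cfsg.Statements.S4474
import Cfsg.Agent.Lib.Helper74.RealRep
import Cfsg.Agent.Lib.Helper79.Schur

set_option autoImplicit false
open Cfsg

namespace Cfsg.Agent.S4474

open Cfsg.Agent.Lib.Helper74
open scoped Matrix ComplexConjugate

/-- Let χ be an irreducible character of the finite group G. Then the Frobenius–Schur indicator of χ (the average over s ∈ G of χ(s²)) equals 1 if and only if χ is afforded by a real representation: there is a representation of G on a real coordinate space whose trace function, viewed in ℂ, is χ. -/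
theorem result {G : Type*} [Group G] [Fintype G] (χ : Cfsg.IrrCharacter G) : ((Nat.card G : ℂ)⁻¹ * ∑ s : G, (χ : G → ℂ) (s * s)) = 1 ↔ ∃ (n : ℕ) (ρ : Representation ℝ G (Fin n → ℝ)), ∀ g : G, ((LinearMap.trace ℝ (Fin n → ℝ) (ρ g) : ℝ) : ℂ) = (χ : G → ℂ) g := by
  classical
  obtain ⟨n, ρ, hirr, hχ⟩ := χ.2
  haveI := hirr
  rw [← hχ]
  have hnpos : 0 < n := by
    have := Cfsg.Agent.Lib.Helper79.finrank_pos_of_irreducible ρ
    simpa using this
  haveI : NeZero n := ⟨hnpos.ne'⟩
  obtain ⟨b, hb⟩ : ∃ b : Module.Basis (Fin n) ℂ (Fin n → ℂ), b = Pi.basisFun ℂ (Fin n) := ⟨_, rfl⟩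
  obtain ⟨X, hX⟩ : ∃ X : G →* Matrix (Fin n) (Fin n) ℂ, X = matHom ρ b := ⟨_, rfl⟩
  have htr : ∀ g, ρ.character g = (X g).trace := fun g => by
    rw [hX]; exact character_eq_trace ρ b g
  constructor
  · intro hν
    have hreal : ∀ g : G, (ρ.character g).im = 0 := by
      by_contra hcon
      push Not at hcon
      have h0 := fs_not_real ρ hcon
      rw [h0] at hν
      exact zero_ne_one hν
    obtain ⟨hfr, hsymm, -⟩ := fs_real ρ b hreal
    rw [hν] at hsymm
    obtain ⟨M₀, hM₀ne, -⟩ := finrank_eq_one_iff'.1 hfr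
    have hM0 : (M₀ : Matrix (Fin n) (Fin n) ℂ) ≠ 0 := fun h0 => hM₀ne (Subtype.ext h0)
    have hMmem : (M₀ : Matrix (Fin n) (Fin n) ℂ) ∈ invForms (matHom ρ b) := M₀.2
    have hMs : (M₀ : Matrix (Fin n) (Fin n) ℂ)ᵀ = M₀ := by
      rw [hsymm _ hMmem, one_smul]
    have hMu := isUnit_of_mem_invForms ρ b _ hMmem hM0
    have hMinv : ∀ g, (X g)ᵀ * (M₀ : Matrix (Fin n) (Fin n) ℂ) * X g = M₀ := by
      intro g; rw [hX]; exact hMmem g
    have hschur : ∀ A : Matrix (Fin n) (Fin n) ℂ, (∀ g, A * X g = X g * A) →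
        ∃ c : ℂ, A = c • 1 := by
      intro A hA
      have hf : ∀ g : G, Matrix.toLin b b A ∘ₗ ρ g = ρ g ∘ₗ Matrix.toLin b b A := by
        intro g
        apply (LinearMap.toMatrix b b).injective
        rw [LinearMap.toMatrix_comp b b b, LinearMap.toMatrix_comp b b b,
          LinearMap.toMatrix_toLin]
        have := hA g
        rw [hX] at this
        exact this
      obtain ⟨c, hc⟩ := Cfsg.Agent.Lib.Helper79.schur_scalar ρ (Matrix.toLin b b A) hf
      refine ⟨c, ?_⟩
      have h1 := congrArg (LinearMap.toMatrix b b) hc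
      rw [LinearMap.toMatrix_toLin, map_smul, LinearMap.toMatrix_id] at h1
      exact h1
    obtain ⟨S, hSdet, hS⟩ := exists_real_form X hschur _ hMinv hMs hMu
    obtain ⟨Rr, hRr⟩ : ∃ Rr : G → Matrix (Fin n) (Fin n) ℝ,
        Rr = fun g => (S⁻¹ * X g * S).map Complex.re := ⟨_, rfl⟩
    have hmap : ∀ g, (Rr g).map Complex.ofRealHom = S⁻¹ * X g * S := by
      intro g
      ext i j
      have h1 := congrFun (congrFun (hS g) i) j
      rw [hRr]
      exact Complex.conj_eq_iff_re.1 h1
    have hinj : Function.Injective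
        (fun A : Matrix (Fin n) (Fin n) ℝ => A.map Complex.ofRealHom) :=
      Matrix.map_injective Complex.ofReal_injective
    have hone : Rr 1 = 1 := by
      apply hinj
      simp only
      rw [hmap, map_one, Matrix.mul_one, Matrix.nonsing_inv_mul _ hSdet,
        Matrix.map_one _ (map_zero _) (map_one _)]
    have hmul : ∀ g h, Rr (g * h) = Rr g * Rr h := by
      intro g h
      apply hinj
      simp only
      rw [hmap, Matrix.map_mul, hmap, hmap, map_mul]
      calc S⁻¹ * (X g * X h) * S = S⁻¹ * X g * (S * S⁻¹) * X h * S := by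
            rw [Matrix.mul_nonsing_inv _ hSdet, Matrix.mul_one]
            simp only [Matrix.mul_assoc]
        _ = S⁻¹ * X g * S * (S⁻¹ * X h * S) := by simp only [Matrix.mul_assoc]
    let σ : Representation ℝ G (Fin n → ℝ) :=
      { toFun := fun g => Matrix.toLin' (Rr g)
        map_one' := by rw [hone, Matrix.toLin'_one]; rfl
        map_mul' := fun g h => by rw [hmul, Matrix.toLin'_mul]; rfl }
    refine ⟨n, σ, fun g => ?_⟩
    have h1 : LinearMap.trace ℝ (Fin n → ℝ) (σ g) = (Rr g).trace := by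
      rw [LinearMap.trace_eq_matrix_trace ℝ (Pi.basisFun ℝ (Fin n)),
        LinearMap.toMatrix_eq_toMatrix']
      show (LinearMap.toMatrix' (Matrix.toLin' (Rr g))).trace = (Rr g).trace
      rw [LinearMap.toMatrix'_toLin']
    have h2 : (((Rr g).trace : ℝ) : ℂ) = ((Rr g).map Complex.ofRealHom).trace := by
      simp [Matrix.trace]
    rw [h1, h2, hmap, htr, Matrix.trace_mul_comm, ← Matrix.mul_assoc,
      Matrix.mul_nonsing_inv _ hSdet, Matrix.one_mul]
  · rintro ⟨m, σ, hσ⟩
    let Yr : G →* Matrix (Fin m) (Fin m) ℝ :=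
      { toFun := fun g => LinearMap.toMatrix' (σ g)
        map_one' := by simp
        map_mul' := fun g h => by simp [LinearMap.toMatrix'_mul] }
    have htrY : ∀ g, (((Yr g).trace : ℝ) : ℂ) = ρ.character g := by
      intro g
      rw [← hσ g, LinearMap.trace_eq_matrix_trace ℝ (Pi.basisFun ℝ (Fin m)),
        LinearMap.toMatrix_eq_toMatrix']
      rfl
    have hreal : ∀ g : G, (ρ.character g).im = 0 := by
      intro g
      rw [← htrY]
      simp
    have hm : 0 < m := by
      have h1 := htrY 1
      rw [map_one, Matrix.trace_one, Fintype.card_fin, Representation.char_one] at h1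
      rcases Nat.eq_zero_or_pos m with h0 | h0
      · exfalso
        rw [h0] at h1
        have h2 : (Module.finrank ℂ (Fin n → ℂ) : ℂ) = 0 := by
          rw [← h1]; simp
        have h3 : Module.finrank ℂ (Fin n → ℂ) = 0 := by exact_mod_cast h2
        have := Cfsg.Agent.Lib.Helper79.finrank_pos_of_irreducible ρ
        omega
      · exact h0
    have hsq := avg_char_sq_of_real ρ hreal
    have h3 := fs_of_real_matrix hm Yr (by simp_rw [htrY]; exact hsq)
    simp_rw [htrY] at h3
    exact h3

end Cfsg.Agent.S4474
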