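-- Statement S4475: invariant bilinear form of an irreducible representation with real character.
import Mathlib
import Cfsg.Statements.S4475

set_option autoImplicit false
open Cfsg
open scoped ComplexConjugate Matrix ComplexOrder

namespace Cfsg.Agent.S4475

variable {G : Type*} [Group G] {n : ℕ}

/-- The matrix of `ρ g`. -/
noncomputable def X (ρ : Representation ℂ G (Fin n → ℂ)) (g : G) : Matrix (Fin n) (Fin n) ℂ :=
  LinearMap.toMatrix' (ρ g)

lemma X_mul (ρ : Representation ℂ G (Fin n → ℂ)) (g h : G) : X ρ (g * h) = X ρ g * X ρ h := by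
  simp [X, map_mul, LinearMap.toMatrix'_mul]

lemma X_one (ρ : Representation ℂ G (Fin n → ℂ)) : X ρ 1 = 1 := by
  simp [X]

lemma char_eq_trace (ρ : Representation ℂ G (Fin n → ℂ)) (g : G) :
    ρ.character g = (X ρ g).trace := by
  unfold Representation.character X
  rw [LinearMap.trace_eq_matrix_trace ℂ (Pi.basisFun ℂ (Fin n)), LinearMap.toMatrix_eq_toMatrix']

variable [Fintype G]

/-- Unitary trick: the trace at the inverse is the conjugate of the trace. -/
lemma trace_inv (ρ : Representation ℂ G (Fin n → ℂ)) (h : G) :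
    (X ρ h⁻¹).trace = star (X ρ h).trace := by
  classical
  set H : Matrix (Fin n) (Fin n) ℂ := ∑ g : G, (X ρ g)ᴴ * X ρ g with hH
  have hinv : ∀ h, (X ρ h)ᴴ * H * X ρ h = H := by
    intro h
    rw [hH, Finset.mul_sum, Finset.sum_mul]
    refine Fintype.sum_equiv (Equiv.mulRight h) _ _ ?_
    intro g
    simp [X_mul, Matrix.conjTranspose_mul, Matrix.mul_assoc]
  have hpd : H.PosDef := by
    rw [hH, ← Finset.add_sum_erase Finset.univ _ (Finset.mem_univ (1 : G))]
    refine Matrix.PosDef.add_posSemidef ?_ ?_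
    · rw [X_one]; simpa using Matrix.PosDef.one
    · exact Matrix.posSemidef_sum _ (fun g _ => Matrix.posSemidef_conjTranspose_mul_self _)
  have hu : IsUnit H.det := (Matrix.isUnit_iff_isUnit_det _).1 hpd.isUnit
  have h1 : (X ρ h)ᴴ * H = H * X ρ h⁻¹ := by
    calc (X ρ h)ᴴ * H = (X ρ h)ᴴ * H * (X ρ h * X ρ h⁻¹) := by
          rw [← X_mul, mul_inv_cancel, X_one, mul_one]
      _ = ((X ρ h)ᴴ * H * X ρ h) * X ρ h⁻¹ := by simp [Matrix.mul_assoc]
      _ = H * X ρ h⁻¹ := by rw [hinv]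
  have h2 : X ρ h⁻¹ = H⁻¹ * ((X ρ h)ᴴ * H) := by
    rw [h1, ← Matrix.mul_assoc, Matrix.nonsing_inv_mul _ hu, Matrix.one_mul]
  rw [h2, Matrix.trace_mul_comm, Matrix.mul_assoc, Matrix.mul_nonsing_inv _ hu, Matrix.mul_one,
    Matrix.trace_conjTranspose]

lemma card_ne_zero : (Nat.card G : ℂ) ≠ 0 := by
  simp [Nat.card_eq_fintype_card]

/-- For an irreducible representation with real character, the squares of the character values
sum to the group order. -/
lemma sum_char_sq (ρ : Representation ℂ G (Fin n → ℂ)) (hirr : ρ.IsIrreducible)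
    (hreal : ∀ g : G, (ρ.character g).im = 0) :
    (Nat.card G : ℂ)⁻¹ * ∑ g : G, ρ.character g * ρ.character g = 1 := by
  have : Invertible (Nat.card G : ℂ) := invertibleOfNonzero card_ne_zero
  have h := Representation.char_orthonormal ρ ρ
  rw [if_pos ⟨Representation.Equiv.refl ρ⟩] at h
  rw [← h]
  congr 1
  refine Finset.sum_congr rfl fun g _ => ?_
  congr 1
  rw [char_eq_trace ρ g⁻¹, trace_inv, ← char_eq_trace]
  exact (Complex.conj_eq_iff_im.2 (hreal g)).symm

/-- The averaging operator on bilinear forms. -/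
noncomputable def Pl (ρ : Representation ℂ G (Fin n → ℂ)) :
    Matrix (Fin n) (Fin n) ℂ →ₗ[ℂ] Matrix (Fin n) (Fin n) ℂ where
  toFun M := (Nat.card G : ℂ)⁻¹ • ∑ s : G, (X ρ s)ᵀ * M * X ρ s
  map_add' M N := by
    simp [Matrix.mul_add, Matrix.add_mul, Finset.sum_add_distrib]
  map_smul' c M := by
    simp [Finset.smul_sum, smul_smul, mul_comm]

lemma Pl_apply (ρ : Representation ℂ G (Fin n → ℂ)) (M : Matrix (Fin n) (Fin n) ℂ) :
    Pl ρ M = (Nat.card G : ℂ)⁻¹ • ∑ s : G, (X ρ s)ᵀ * M * X ρ s := rfl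

/-- The space of invariant bilinear forms. -/
def W (ρ : Representation ℂ G (Fin n → ℂ)) : Submodule ℂ (Matrix (Fin n) (Fin n) ℂ) where
  carrier := {M | ∀ g : G, (X ρ g)ᵀ * M * X ρ g = M}
  add_mem' := by
    intro M N hM hN g
    change ∀ g : G, (X ρ g)ᵀ * M * X ρ g = M at hM
    change ∀ g : G, (X ρ g)ᵀ * N * X ρ g = N at hN
    rw [Matrix.mul_add, Matrix.add_mul, hM g, hN g]
  zero_mem' := by intro g; simp
  smul_mem' := by
    intro c M hM g
    change ∀ g : G, (X ρ g)ᵀ * M * X ρ g = M at hM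
    rw [Matrix.mul_smul, Matrix.smul_mul, hM g]

omit [Fintype G] in
lemma mem_W (ρ : Representation ℂ G (Fin n → ℂ)) (M : Matrix (Fin n) (Fin n) ℂ) :
    M ∈ W ρ ↔ ∀ g : G, (X ρ g)ᵀ * M * X ρ g = M := Iff.rfl

lemma Pl_mem (ρ : Representation ℂ G (Fin n → ℂ)) (M : Matrix (Fin n) (Fin n) ℂ) :
    Pl ρ M ∈ W ρ := by
  rw [mem_W]
  intro h
  rw [Pl_apply, Matrix.mul_smul, Matrix.smul_mul, Finset.mul_sum, Finset.sum_mul]
  refine congrArg (fun A : Matrix (Fin n) (Fin n) ℂ => (Nat.card G : ℂ)⁻¹ • A) ?_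
  refine Fintype.sum_equiv (Equiv.mulRight h) _ _ ?_
  intro g
  rw [Equiv.coe_mulRight, X_mul, Matrix.transpose_mul]
  simp only [Matrix.mul_assoc]

lemma Pl_of_mem (ρ : Representation ℂ G (Fin n → ℂ)) (M : Matrix (Fin n) (Fin n) ℂ)
    (hM : M ∈ W ρ) : Pl ρ M = M := by
  rw [Pl_apply]
  have : ∑ s : G, (X ρ s)ᵀ * M * X ρ s = (Fintype.card G : ℂ) • M := by
    rw [Finset.sum_congr rfl (fun s _ => hM s)]
    simp [Finset.sum_const, Finset.card_univ, Nat.cast_smul_eq_nsmul]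
  rw [this, smul_smul, Nat.card_eq_fintype_card, inv_mul_cancel₀, one_smul]
  simp

lemma Pl_transpose (ρ : Representation ℂ G (Fin n → ℂ)) (M : Matrix (Fin n) (Fin n) ℂ) :
    Pl ρ Mᵀ = (Pl ρ M)ᵀ := by
  rw [Pl_apply, Pl_apply, Matrix.transpose_smul, Matrix.transpose_sum]
  congr 1
  refine Finset.sum_congr rfl fun s _ => ?_
  simp [Matrix.transpose_mul, Matrix.mul_assoc]

omit [Fintype G] in
lemma transpose_mem (ρ : Representation ℂ G (Fin n → ℂ)) (M : Matrix (Fin n) (Fin n) ℂ)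
    (hM : M ∈ W ρ) : Mᵀ ∈ W ρ := by
  intro g
  have := congrArg Matrix.transpose (hM g)
  simpa [Matrix.transpose_mul, Matrix.mul_assoc] using this

lemma isProj (ρ : Representation ℂ G (Fin n → ℂ)) : LinearMap.IsProj (W ρ) (Pl ρ) :=
  ⟨fun M => Pl_mem ρ M, fun M hM => Pl_of_mem ρ M hM⟩

lemma trace_matrix_end (f : Matrix (Fin n) (Fin n) ℂ →ₗ[ℂ] Matrix (Fin n) (Fin n) ℂ) :
    LinearMap.trace ℂ _ f = ∑ i, ∑ j, f (Matrix.single i j 1) i j := by
  rw [LinearMap.trace_eq_matrix_trace ℂ (Matrix.stdBasis ℂ (Fin n) (Fin n)), Matrix.trace,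
    Fintype.sum_prod_type]
  refine Finset.sum_congr rfl fun i _ => Finset.sum_congr rfl fun j _ => ?_
  rw [Matrix.diag_apply, LinearMap.toMatrix_apply, Matrix.stdBasis_eq_single]
  simp [Matrix.stdBasis]

/-- The diagonal sum of the averaging operator is the average of the squared character. -/
lemma sum_Pl_single (ρ : Representation ℂ G (Fin n → ℂ)) :
    ∑ i, ∑ j, Pl ρ (Matrix.single i j 1) i j =
      (Nat.card G : ℂ)⁻¹ * ∑ s : G, ρ.character s * ρ.character s := by
  simp only [Pl_apply, Matrix.smul_apply, Matrix.sum_apply, smul_eq_mul, ← Finset.mul_sum]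
  congr 1
  rw [Finset.sum_comm]
  simp_rw [Finset.sum_comm (s := (Finset.univ : Finset (Fin n))) (t := (Finset.univ : Finset G))]
  refine Finset.sum_congr rfl fun s _ => ?_
  rw [char_eq_trace, Matrix.trace, Finset.sum_mul_sum]
  refine Finset.sum_congr rfl fun i _ => Finset.sum_congr rfl fun j _ => ?_
  simp [Matrix.mul_apply, Matrix.single_apply, Matrix.diag_apply, Finset.sum_ite_eq,
    ite_and, mul_comm]

/-- The twisted diagonal sum of the averaging operator is the Frobenius-Schur indicator. -/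
lemma sum_Pl_single_swap (ρ : Representation ℂ G (Fin n → ℂ)) :
    ∑ i, ∑ j, Pl ρ (Matrix.single j i 1) i j =
      (Nat.card G : ℂ)⁻¹ * ∑ s : G, ρ.character (s * s) := by
  simp only [Pl_apply, Matrix.smul_apply, Matrix.sum_apply, smul_eq_mul, ← Finset.mul_sum]
  congr 1
  rw [Finset.sum_comm]
  simp_rw [Finset.sum_comm (s := (Finset.univ : Finset (Fin n))) (t := (Finset.univ : Finset G))]
  refine Finset.sum_congr rfl fun s _ => ?_
  rw [char_eq_trace, X_mul, Matrix.trace]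
  simp only [Matrix.diag_apply, Matrix.mul_apply]
  rw [Finset.sum_comm]
  refine Finset.sum_congr rfl fun i _ => Finset.sum_congr rfl fun j _ => ?_
  simp [Matrix.single_apply, Finset.sum_ite_eq, ite_and, mul_comm]

lemma finrank_W (ρ : Representation ℂ G (Fin n → ℂ)) (hirr : ρ.IsIrreducible)
    (hreal : ∀ g : G, (ρ.character g).im = 0) : Module.finrank ℂ (W ρ) = 1 := by
  have h1 := (isProj ρ).trace
  rw [trace_matrix_end, sum_Pl_single, sum_char_sq ρ hirr hreal] at h1
  exact_mod_cast h1.symm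

theorem main (n : ℕ) (ρ : Representation ℂ G (Fin n → ℂ)) (hirr : ρ.IsIrreducible)
    (hreal : ∀ g : G, (ρ.character g).im = 0) :
    (∃ M : Matrix (Fin n) (Fin n) ℂ, M ≠ 0 ∧ ∀ g : G, (X ρ g)ᵀ * M * X ρ g = M) ∧
    ∀ M : Matrix (Fin n) (Fin n) ℂ, (∀ g : G, (X ρ g)ᵀ * M * X ρ g = M) →
      Mᵀ = ((Nat.card G : ℂ)⁻¹ * ∑ s : G, ρ.character (s * s)) • M := by
  have hfr := finrank_W ρ hirr hreal
  obtain ⟨M₀, hM₀ne, hM₀⟩ := finrank_eq_one_iff'.1 hfr
  -- the transpose acts on `W ρ` by a scalar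
  obtain ⟨ε, hε⟩ := hM₀ ⟨(M₀ : Matrix (Fin n) (Fin n) ℂ)ᵀ, transpose_mem ρ _ M₀.2⟩
  have hε' : (M₀ : Matrix (Fin n) (Fin n) ℂ)ᵀ = ε • (M₀ : Matrix (Fin n) (Fin n) ℂ) := by
    have := congrArg Subtype.val hε
    simpa using this.symm
  have htr : ∀ M : Matrix (Fin n) (Fin n) ℂ, M ∈ W ρ → Mᵀ = ε • M := by
    intro M hM
    obtain ⟨c, hc⟩ := hM₀ ⟨M, hM⟩
    have hc' : M = c • (M₀ : Matrix (Fin n) (Fin n) ℂ) := by
      have := congrArg Subtype.val hc
      simpa using this.symm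
    rw [hc', Matrix.transpose_smul, hε', smul_comm]
  -- identify the scalar with the indicator
  have hεν : ε = (Nat.card G : ℂ)⁻¹ * ∑ s : G, ρ.character (s * s) := by
    rw [← sum_Pl_single_swap]
    have h2 : ∀ i j : Fin n, Pl ρ (Matrix.single j i 1) i j = ε * Pl ρ (Matrix.single i j 1) i j := by
      intro i j
      have h3 : Pl ρ (Matrix.single j i (1 : ℂ)) = ε • Pl ρ (Matrix.single i j (1 : ℂ)) := by
        rw [← Matrix.transpose_single, Pl_transpose, htr _ (Pl_mem ρ _)]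
      rw [h3, Matrix.smul_apply, smul_eq_mul]
    simp_rw [h2, ← Finset.mul_sum]
    rw [sum_Pl_single, sum_char_sq ρ hirr hreal, mul_one]
  refine ⟨⟨M₀, ?_, M₀.2⟩, ?_⟩
  · intro h0
    exact hM₀ne (Subtype.ext h0)
  · intro M hM
    rw [← hεν]
    exact htr M hM

/-- Let ρ be an irreducible representation of the finite group G on the coordinate space Fin n → ℂ whose character χ is real-valued, and let ν be the Frobenius–Schur indicator of χ (the average of χ(s²)). Writing X(g) for the matrix of ρ(g), there is a nonzero matrix M with X(g)ᵀ M X(g) = M for all g ∈ G; and every such M (zero or not) satisfies Mᵀ = ν·M. -/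
theorem result {G : Type*} [Group G] [Fintype G] (n : ℕ) (ρ : Representation ℂ G (Fin n → ℂ)) (hirr : ρ.IsIrreducible) (hreal : ∀ g : G, (ρ.character g).im = 0) : (∃ M : Matrix (Fin n) (Fin n) ℂ, M ≠ 0 ∧ ∀ g : G, (LinearMap.toMatrix' (ρ g)).transpose * M * LinearMap.toMatrix' (ρ g) = M) ∧ ∀ M : Matrix (Fin n) (Fin n) ℂ, (∀ g : G, (LinearMap.toMatrix' (ρ g)).transpose * M * LinearMap.toMatrix' (ρ g) = M) → M.transpose = ((Nat.card G : ℂ)⁻¹ * ∑ s : G, ρ.character (s * s)) • M := by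
  exact main n ρ hirr hreal

end Cfsg.Agent.S4475
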