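import Mathlib
import Cfsg.Statements.S4512
import Cfsg.Agent.S0948
import Cfsg.Agent.S0942
import Cfsg.Agent.Lib.Helper3.CharValues
import Cfsg.Agent.Lib.Helper3.QuatInv
import Cfsg.Agent.Lib.Helper77.Defect
import Cfsg.Agent.Lib.Helper75.SelfCent2
import Cfsg.Agent.Lib.Helper78.BlockOrth

set_option autoImplicit false
open Cfsg

namespace Cfsg.Agent.S4512

/-- In a group with Klein four Sylow 2-subgroups and one class of involutions, every character of
the principal 2-block is constant on the elements of even order. -/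
theorem even_value {G : Type*} [Group G] [Finite G] (M : Ideal Cfsg.AlgInt)
    (hM : Cfsg.IsPModular 2 M) (P : Sylow 2 G) (hP : IsKleinFour (P : Subgroup G))
    (hone : ∀ s t : G, orderOf s = 2 → orderOf t = 2 → IsConj s t)
    (z0 : G) (hz0P : z0 ∈ (P : Subgroup G)) (hz1 : z0 ≠ 1)
    (χ : Cfsg.IrrCharacter G) (hχ : χ ∈ Cfsg.principalBlock M G)
    (g : G) (hg : 2 ∣ orderOf g) : (χ : G → ℂ) g = (χ : G → ℂ) z0 := by
  classical
  have : Fintype G := Fintype.ofFinite G
  have hf2 : Fact (Nat.Prime 2) := ⟨Nat.prime_two⟩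
  have hz0 : orderOf z0 = 2 := Cfsg.Agent.Lib.Helper52.klein_orderOf P hP z0 hz0P hz1
  obtain ⟨x, y, hxy, hcomm, ⟨k, hk⟩, hy⟩ :=
    Cfsg.Agent.Lib.Helper78.exists_isPPart Nat.prime_two g
  have hx1 : x ≠ 1 := by
    rintro rfl
    rw [one_mul] at hxy
    rw [hxy] at hy
    exact hy hg
  have hpg : IsPGroup 2 (Subgroup.zpowers x) :=
    IsPGroup.of_card (n := k) (by rw [Nat.card_zpowers, hk])
  obtain ⟨c, hc⟩ := Cfsg.Agent.Lib.Helper3.exists_conj_le_sylow P (Subgroup.zpowers x) hpg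
  have hcx : c * x * c⁻¹ ∈ (P : Subgroup G) := hc x (Subgroup.mem_zpowers x)
  have hsq : x * x = 1 := by
    have h' : (c * x * c⁻¹) * (c * x * c⁻¹) = 1 :=
      Cfsg.Agent.Lib.Helper52.klein_sq P hP _ hcx
    have h2 : x * x = c⁻¹ * ((c * x * c⁻¹) * (c * x * c⁻¹)) * c := by group
    rw [h2, h', mul_one, inv_mul_cancel]
  have hx2 : orderOf x = 2 := by
    rw [orderOf_eq_prime_iff]
    exact ⟨by rw [sq]; exact hsq, hx1⟩
  obtain ⟨d, hd⟩ := isConj_iff.1 (hone x z0 hx2 hz0)
  have hvc : d * y * d⁻¹ ∈ Subgroup.centralizer ({z0} : Set G) := by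
    rw [Subgroup.mem_centralizer_iff]
    intro h hh
    rw [Set.mem_singleton_iff] at hh
    subst hh
    rw [← hd]
    calc d * x * d⁻¹ * (d * y * d⁻¹) = d * (x * y) * d⁻¹ := by group
      _ = d * (y * x) * d⁻¹ := by rw [hcomm.eq]
      _ = d * y * d⁻¹ * (d * x * d⁻¹) := by group
  have hordv : orderOf (d * y * d⁻¹) = orderOf y := by
    have := MulEquiv.orderOf_eq (MulAut.conj d) y
    rwa [MulAut.conj_apply] at this
  set w : Subgroup.centralizer ({z0} : Set G) := ⟨d * y * d⁻¹, hvc⟩ with hw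
  have hordw : orderOf w = orderOf y := by
    rw [hw, Subgroup.orderOf_mk, hordv]
  have hidx := (Cfsg.Agent.Lib.Helper16.klein_centralizer_index P hP z0 hz0P hz1).1
  have hN : (Cfsg.pPrimeCore 2 (Subgroup.centralizer ({z0} : Set G))).Normal :=
    Cfsg.Agent.Lib.Helper75.pPrimeCore_normal' 2 _
  have hpow : w ^ (2 ^ 2) ∈ Cfsg.pPrimeCore 2 (Subgroup.centralizer ({z0} : Set G)) := by
    rw [← hidx]
    exact Subgroup.pow_index_mem _ w
  have hcop : (2 ^ 2).Coprime (orderOf w) := by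
    rw [hordw]
    exact Nat.Coprime.pow_left 2 ((Nat.Prime.coprime_iff_not_dvd Nat.prime_two).2 hy)
  obtain ⟨m, hm⟩ := exists_pow_eq_self_of_coprime hcop
  have hwmem : w ∈ Cfsg.pPrimeCore 2 (Subgroup.centralizer ({z0} : Set G)) := by
    rw [← hm]
    exact Subgroup.pow_mem _ hpow m
  have hvmem : d * y * d⁻¹ ∈ Cfsg.centralizerPPrimeCore 2 z0 := ⟨w, hwmem, rfl⟩
  have h942 := Cfsg.Agent.S0942.result 2 M hM z0 ⟨1, by rw [hz0, pow_one]⟩ (d * y * d⁻¹) hvmem χ hχ
  have hcl := Cfsg.Agent.Lib.Helper3.isClassFunction_of_isCharacter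
    (Cfsg.Agent.Lib.Helper3.isCharacter_of_irr χ.2) g d
  rw [← hcl, ← h942, ← hd, ← hxy]
  congr 1
  group

/-- If G is a finite group with a Sylow 2-subgroup that is a Klein four-group and a single conjugacy class of involutions, then its principal 2-block (relative to a maximal ideal M of the algebraic integers containing 2) has 2-regular rank 3: the restrictions of its irreducible characters to the elements of odd order span a space of dimension 3 (it has three irreducible Brauer characters). -/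
theorem result {G : Type*} [Group G] [Finite G] (M : Ideal Cfsg.AlgInt) (hM : Cfsg.IsPModular 2 M) (P : Sylow 2 G)
    (hP : Nat.card P = 4) (hexp : ∀ x : P, x * x = 1)
    (hone : ∀ s t : G, orderOf s = 2 → orderOf t = 2 → IsConj s t) :
    Cfsg.blockRank 2 (Cfsg.principalBlock M G) = 3 := by
  classical
  have : Fintype G := Fintype.ofFinite G
  have hK : IsKleinFour (P : Subgroup G) := by
    refine ⟨hP, ?_⟩
    have h1 : Monoid.exponent (P : Subgroup G) ∣ 2 := by
      apply Monoid.exponent_dvd_of_forall_pow_eq_one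
      intro x
      rw [sq]
      exact hexp x
    rcases (Nat.dvd_prime Nat.prime_two).1 h1 with h | h
    · exfalso
      rw [Monoid.exp_eq_one_iff] at h
      have h2 : Nat.card (P : Subgroup G) = 1 := Nat.card_unique
      have h3 : Nat.card (P : Subgroup G) = 4 := hP
      omega
    · exact h
  obtain ⟨ζ₂, ζ₃, ζ₄, ε, hε, h21, h31, h23, h24, h34, hB, hval, -, -, -, hrel⟩ :=
    Cfsg.Agent.S0948.result M hM P hK hone
  obtain ⟨z0, -, hz0P, -, hz1, -, -, -⟩ := Cfsg.Agent.Lib.Helper52.klein_exists_basis P hK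
  have hz0 : orderOf z0 = 2 := Cfsg.Agent.Lib.Helper52.klein_orderOf P hK z0 hz0P hz1
  obtain ⟨hv2, hv3, hv4⟩ := hval z0 hz0
  set t : Cfsg.IrrCharacter G := Cfsg.Agent.Lib.Helper77.trivIrr G with ht
  have ht1 : ∀ g, (t : G → ℂ) g = 1 := fun g => rfl
  have hmem : ∀ χ : Cfsg.IrrCharacter G, χ ∈ Cfsg.principalBlock M G ↔
      ((χ : G → ℂ) = (fun _ => 1) ∨ χ = ζ₂ ∨ χ = ζ₃ ∨ χ = ζ₄) := by
    intro χ
    rw [hB]
    rfl
  have ht_mem : t ∈ Cfsg.principalBlock M G := (hmem t).2 (Or.inl rfl)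
  have h2_mem : ζ₂ ∈ Cfsg.principalBlock M G := (hmem ζ₂).2 (Or.inr (Or.inl rfl))
  have h3_mem : ζ₃ ∈ Cfsg.principalBlock M G := (hmem ζ₃).2 (Or.inr (Or.inr (Or.inl rfl)))
  have h4_mem : ζ₄ ∈ Cfsg.principalBlock M G := (hmem ζ₄).2 (Or.inr (Or.inr (Or.inr rfl)))
  have hev : ∀ χ ∈ Cfsg.principalBlock M G, ∀ g : G, 2 ∣ orderOf g →
      (χ : G → ℂ) g = (χ : G → ℂ) z0 :=
    fun χ hχ g hg => even_value M hM P hK hone z0 hz0P hz1 χ hχ g hg
  -- distinctness
  have ht2 : t ≠ ζ₂ := fun h => h21 (by rw [← h]; rfl)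
  have ht3 : t ≠ ζ₃ := fun h => h31 (by rw [← h]; rfl)
  have ht4 : t ≠ ζ₄ := by
    intro h
    rw [← h, ht1] at hv4
    norm_num at hv4
  -- the restricted functions
  let r : Cfsg.IrrCharacter G → (G → ℂ) := fun χ => Cfsg.pRegularPart 2 (χ : G → ℂ)
  have hr_odd : ∀ (χ : Cfsg.IrrCharacter G) (g : G), ¬ 2 ∣ orderOf g → r χ g = (χ : G → ℂ) g := by
    intro χ g hg
    show Cfsg.pRegularPart 2 (χ : G → ℂ) g = _
    unfold Cfsg.pRegularPart
    exact if_pos hg
  have hr_even : ∀ (χ : Cfsg.IrrCharacter G) (g : G), 2 ∣ orderOf g → r χ g = 0 := by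
    intro χ g hg
    show Cfsg.pRegularPart 2 (χ : G → ℂ) g = _
    unfold Cfsg.pRegularPart
    exact if_neg (fun h => h hg)
  have himg : (fun χ : Cfsg.IrrCharacter G => Cfsg.pRegularPart 2 (χ : G → ℂ)) ''
      Cfsg.principalBlock M G = {r t, r ζ₂, r ζ₃, r ζ₄} := by
    ext f
    constructor
    · rintro ⟨χ, hχ, rfl⟩
      rcases (hmem χ).1 hχ with h | rfl | rfl | rfl
      · left
        have h' : χ = t := Subtype.ext h
        rw [h']
      · right; left; rfl
      · right; right; left; rfl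
      · right; right; right; rfl
    · rintro (rfl | rfl | rfl | rfl)
      · exact ⟨t, ht_mem, rfl⟩
      · exact ⟨ζ₂, h2_mem, rfl⟩
      · exact ⟨ζ₃, h3_mem, rfl⟩
      · exact ⟨ζ₄, h4_mem, rfl⟩
  have hodd : ∀ g : G, ¬ 2 ∣ orderOf g → Odd (orderOf g) := by
    intro g hg
    rw [← Nat.not_even_iff_odd, even_iff_two_dvd]
    exact hg
  have h4 : r ζ₄ = r t + r ζ₂ + (ε : ℂ) • r ζ₃ := by
    funext g
    rw [Pi.add_apply, Pi.add_apply, Pi.smul_apply, smul_eq_mul]
    by_cases hg : 2 ∣ orderOf g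
    · rw [hr_even _ g hg, hr_even _ g hg, hr_even _ g hg, hr_even _ g hg]
      ring
    · rw [hr_odd _ g hg, hr_odd _ g hg, hr_odd _ g hg, hr_odd _ g hg, ht1]
      have h := hrel g (hodd g hg)
      linear_combination (-1 : ℂ) * h
  have hspan : Submodule.span ℂ ({r t, r ζ₂, r ζ₃, r ζ₄} : Set (G → ℂ)) =
      Submodule.span ℂ (Set.range ![r t, r ζ₂, r ζ₃]) := by
    apply le_antisymm
    · rw [Submodule.span_le]
      rintro f (rfl | rfl | rfl | rfl)
      · exact Submodule.subset_span ⟨0, rfl⟩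
      · exact Submodule.subset_span ⟨1, rfl⟩
      · exact Submodule.subset_span ⟨2, rfl⟩
      · rw [h4]
        exact Submodule.add_mem _ (Submodule.add_mem _ (Submodule.subset_span ⟨0, rfl⟩)
          (Submodule.subset_span ⟨1, rfl⟩))
          (Submodule.smul_mem _ _ (Submodule.subset_span ⟨2, rfl⟩))
    · apply Submodule.span_mono
      rintro f ⟨i, rfl⟩
      fin_cases i
      · left; rfl
      · right; left; rfl
      · right; right; left; rfl
  have hinj : Function.Injective ![t, ζ₂, ζ₃, ζ₄] := by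
    intro i j hij
    fin_cases i <;> fin_cases j
    · rfl
    · exact absurd hij ht2
    · exact absurd hij ht3
    · exact absurd hij ht4
    · exact absurd hij.symm ht2
    · rfl
    · exact absurd hij h23
    · exact absurd hij h24
    · exact absurd hij.symm ht3
    · exact absurd hij.symm h23
    · rfl
    · exact absurd hij h34
    · exact absurd hij.symm ht4
    · exact absurd hij.symm h24
    · exact absurd hij.symm h34
    · rfl
  have hirr := (Cfsg.Agent.Lib.Helper3.irr_linearIndependent (G := G)).comp _ hinj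
  rw [Fintype.linearIndependent_iff] at hirr
  have hli : LinearIndependent ℂ ![r t, r ζ₂, r ζ₃] := by
    rw [Fintype.linearIndependent_iff]
    intro c hc
    rw [Fin.sum_univ_three] at hc
    simp only [Matrix.cons_val_zero, Matrix.cons_val_one, Matrix.cons_val_two,
      Matrix.head_cons, Matrix.tail_cons] at hc
    have hε2 : (ε : ℂ) * ε = 1 := by
      rcases hε with rfl | rfl <;> norm_num
    have hfun : ∑ i : Fin 4, (![4 * c 0 - (c 0 + c 1 + c 2 * ε), 4 * c 1 - (c 0 + c 1 + c 2 * ε),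
        4 * c 2 - (c 0 + c 1 + c 2 * ε) * ε, c 0 + c 1 + c 2 * ε] : Fin 4 → ℂ) i •
        ((fun χ : Cfsg.IrrCharacter G => (χ : G → ℂ)) ∘ ![t, ζ₂, ζ₃, ζ₄]) i = 0 := by
      rw [Fin.sum_univ_four]
      funext g
      simp only [Function.comp_apply, Matrix.cons_val_zero, Matrix.cons_val_one,
        Matrix.cons_val_two, Matrix.cons_val_three, Matrix.head_cons, Matrix.tail_cons,
        Pi.add_apply, Pi.smul_apply, smul_eq_mul, Pi.zero_apply]
      by_cases hg : 2 ∣ orderOf g
      · rw [hev t ht_mem g hg, hev ζ₂ h2_mem g hg, hev ζ₃ h3_mem g hg, hev ζ₄ h4_mem g hg,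
          hv2, hv3, hv4, ht1]
        linear_combination (-(c 0 + c 1 + c 2 * ε)) * hε2
      · have h0 := congrFun hc g
        simp only [Pi.add_apply, Pi.smul_apply, smul_eq_mul, Pi.zero_apply] at h0
        rw [hr_odd _ g hg, hr_odd _ g hg, hr_odd _ g hg, ht1] at h0
        have h1 := hrel g (hodd g hg)
        rw [ht1]
        linear_combination 4 * h0 - (c 0 + c 1 + c 2 * ε) * h1
    have hz := hirr _ hfun
    have e3 : c 0 + c 1 + c 2 * ε = 0 := by simpa using hz 3
    have e0 : 4 * c 0 - (c 0 + c 1 + c 2 * ε) = 0 := by simpa using hz 0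
    have e1 : 4 * c 1 - (c 0 + c 1 + c 2 * ε) = 0 := by simpa using hz 1
    have e2 : 4 * c 2 - (c 0 + c 1 + c 2 * ε) * ε = 0 := by simpa using hz 2
    intro i
    fin_cases i
    · show c 0 = 0
      linear_combination (1 / 4 : ℂ) * e0 + (1 / 4 : ℂ) * e3
    · show c 1 = 0
      linear_combination (1 / 4 : ℂ) * e1 + (1 / 4 : ℂ) * e3
    · show c 2 = 0
      linear_combination (1 / 4 : ℂ) * e2 + (1 / 4 : ℂ) * ε * e3
  unfold Cfsg.blockRank
  rw [himg, hspan, finrank_span_eq_card hli]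
  rfl

end Cfsg.Agent.S4512
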