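-- Statement S4479: Brauer's order formula for groups with Klein four Sylow 2-subgroups.
import Mathlib
import Cfsg.Statements.S4479
import Cfsg.Agent.S4512
import Cfsg.Agent.Lib.Helper74.KleinCount
import Cfsg.Agent.Lib.Helper73.UniqInv
import Cfsg.Agent.Lib.Helper50.Burnside
import Cfsg.Agent.Lib.Helper79.CharSum
import Cfsg.Agent.Lib.Helper79.ClassMult
import Cfsg.Agent.Lib.Helper78.BlockOrth
import Cfsg.Agent.Lib.Helper77.Defect
import Cfsg.Agent.Lib.Helper75.SelfCent2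
import Cfsg.Agent.Lib.Helper16.LocalRing

set_option autoImplicit false
open Cfsg

namespace Cfsg.Agent.S4479

open Cfsg.Agent.Lib.Helper52

/-- A group of order `4 g₀` (`g₀` odd) without a normal subgroup of order `g₀` has Klein four
Sylow `2`-subgroups and one class of involutions. -/
theorem klein_and_fusion {G : Type*} [Group G] [Finite G] (g₀ : ℕ) (hg₀ : Odd g₀)
    (hG : Nat.card G = 4 * g₀) (hnc : ¬ ∃ N : Subgroup G, N.Normal ∧ Nat.card N = g₀)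
    (P : Sylow 2 G) :
    IsKleinFour (P : Subgroup G) ∧ ∀ s t : G, orderOf s = 2 → orderOf t = 2 → IsConj s t := by
  have hf2 : Fact (Nat.Prime 2) := ⟨Nat.prime_two⟩
  have hg0pos : 0 < g₀ := hg₀.pos
  have hcardP : Nat.card (P : Subgroup G) = 4 := by
    rw [Sylow.card_eq_multiplicity, hG]
    have h1 : (4 * g₀).factorization 2 = 2 := by
      rw [Nat.factorization_mul (by norm_num) hg0pos.ne']
      have h2 : (4 : ℕ).factorization 2 = 2 := by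
        rw [show (4 : ℕ) = 2 ^ 2 by norm_num, Nat.Prime.factorization_pow Nat.prime_two]
        simp
      have h3 : g₀.factorization 2 = 0 :=
        Nat.factorization_eq_zero_of_not_dvd
          (by rw [← even_iff_two_dvd, Nat.not_even_iff_odd]; exact hg₀)
      rw [Finsupp.add_apply, h2, h3]
    rw [h1]
    norm_num
  have hcompl : Nat.card (Cfsg.pPrimeCore 2 G) * Nat.card (P : Subgroup G) = Nat.card G → False := by
    intro h
    rw [hcardP, hG] at h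
    exact hnc ⟨Cfsg.pPrimeCore 2 G, Cfsg.Agent.Lib.Helper75.pPrimeCore_normal' 2 G, by omega⟩
  by_cases hcyc : IsCyclic (P : Subgroup G)
  · exact absurd (Cfsg.Agent.Lib.Helper73.card_pPrimeCore_mul_of_cyclic_sylow P hcyc) hcompl
  have hexp : ∀ x : (P : Subgroup G), x * x = 1 := by
    intro x
    have hdvd : orderOf x ∣ 2 ^ 2 := by
      have := orderOf_dvd_natCard x
      rw [hcardP] at this
      exact this
    obtain ⟨k, hk, hk2⟩ := (Nat.dvd_prime_pow Nat.prime_two).1 hdvd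
    have hk' : k ≤ 1 := by
      by_contra hlt
      have hk2' : k = 2 := by omega
      apply hcyc
      apply isCyclic_of_orderOf_eq_card x
      rw [hk2, hk2', hcardP]
      norm_num
    have h2 : orderOf x ∣ 2 := by
      rw [hk2]
      exact pow_dvd_pow 2 hk' |>.trans (by norm_num)
    rw [← sq]
    exact orderOf_dvd_iff_pow_eq_one.1 h2
  have hK : IsKleinFour (P : Subgroup G) := by
    refine ⟨hcardP, ?_⟩
    have h1 : Monoid.exponent (P : Subgroup G) ∣ 2 := by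
      apply Monoid.exponent_dvd_of_forall_pow_eq_one
      intro x
      rw [sq]
      exact hexp x
    rcases (Nat.dvd_prime Nat.prime_two).1 h1 with h | h
    · exfalso
      rw [Monoid.exp_eq_one_iff] at h
      have h2 : Nat.card (P : Subgroup G) = 1 := Nat.card_unique
      omega
    · exact h
  refine ⟨hK, ?_⟩
  rcases klein_dichotomy P hK with h | h
  · intro s t hs ht
    obtain ⟨g, hg⟩ := exists_conj_mem_sylow_of_orderOf_two P s hs
    obtain ⟨g', hg'⟩ := exists_conj_mem_sylow_of_orderOf_two P t ht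
    have hne : ∀ (c u : G), orderOf u = 2 → c * u * c⁻¹ ≠ 1 := by
      intro c u hu h1
      have h2 := Cfsg.Agent.Lib.Helper74.KleinCount.orderOf_conj_eq c u
      rw [h1, orderOf_one, hu] at h2
      omega
    have h1 := h _ hg _ hg' (hne g s hs) (hne g' t ht)
    have h2 : IsConj s (g * s * g⁻¹) := isConj_iff.2 ⟨g, rfl⟩
    have h3 : IsConj t (g' * t * g'⁻¹) := isConj_iff.2 ⟨g', rfl⟩
    exact (h2.trans h1).trans h3.symm
  · exfalso
    have hN := klein_normalizer_le_centralizer P hK h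
    exact hcompl (Cfsg.Agent.Lib.Helper50.pPrimeCore_isComplement' P hN).card_mul_card

/-- An order formula from the principal 2-block. Let G be a finite group of order 4·g₀ with g₀ odd having no normal 2-complement (no normal subgroup of order g₀); let P be a Sylow 2-subgroup, J an involution of P, and fix a maximal ideal M of the algebraic integers containing 2. Suppose the principal 2-block consists of the principal character and three further distinct characters χ₁, χ₂, χ₃ of degrees x₁, x₂, x₃, with χ_i(J) = ε_i = ±1. Then, writing c(J) and c(P) for the orders of the centralizers of J and of P, the order of G equals 8·α·c(J)³/c(P)² with α = x₁x₂x₃ / ((x₁ + ε₁)(x₂ + ε₂)(x₃ + ε₃)). -/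
theorem result {G : Type*} [Group G] [Finite G] (M : Ideal Cfsg.AlgInt) (hM : Cfsg.IsPModular 2 M) (g₀ : ℕ) (hg₀ : Odd g₀) (hG : Nat.card G = 4 * g₀) (hnc : ¬ ∃ N : Subgroup G, N.Normal ∧ Nat.card N = g₀) (P : Sylow 2 G) (J : G) (hJ : J ∈ (P : Subgroup G)) (hJ2 : orderOf J = 2) (χ₁ χ₂ χ₃ : Cfsg.IrrCharacter G) (ε₁ ε₂ ε₃ : ℤ) (hB : Cfsg.principalBlock M G = {χ : Cfsg.IrrCharacter G | (χ : G → ℂ) = (fun _ => 1) ∨ χ = χ₁ ∨ χ = χ₂ ∨ χ = χ₃}) (hdist : (χ₁ : G → ℂ) ≠ (fun _ => 1) ∧ (χ₂ : G → ℂ) ≠ (fun _ => 1) ∧ (χ₃ : G → ℂ) ≠ (fun _ => 1) ∧ χ₁ ≠ χ₂ ∧ χ₁ ≠ χ₃ ∧ χ₂ ≠ χ₃) (hε : (ε₁ = 1 ∨ ε₁ = -1) ∧ (ε₂ = 1 ∨ ε₂ = -1) ∧ (ε₃ = 1 ∨ ε₃ = -1)) (hval : (χ₁ : G → ℂ) J = ε₁ ∧ (χ₂ : G → ℂ) J = ε₂ ∧ (χ₃ : G → ℂ) J = ε₃) : (Nat.card G : ℚ) = 8 * (((Cfsg.charDegree (χ₁ : G → ℂ) : ℚ) * Cfsg.charDegree (χ₂ : G → ℂ) * Cfsg.charDegree (χ₃ : G → ℂ)) / ((Cfsg.charDegree (χ₁ : G → ℂ) + ε₁) * (Cfsg.charDegree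 (χ₂ : G → ℂ) + ε₂) * (Cfsg.charDegree (χ₃ : G → ℂ) + ε₃))) * (Nat.card (Subgroup.centralizer ({J} : Set G)) : ℚ) ^ 3 / (Nat.card (Subgroup.centralizer ((P : Subgroup G) : Set G)) : ℚ) ^ 2 := by
  classical
  have : Fintype G := Fintype.ofFinite G
  have hf2 : Fact (Nat.Prime 2) := ⟨Nat.prime_two⟩
  obtain ⟨hK, hone⟩ := klein_and_fusion g₀ hg₀ hG hnc P
  have hJ1 : J ≠ 1 := by
    rintro rfl
    rw [orderOf_one] at hJ2
    omega
  have hJJ : J * J = 1 := klein_sq P hK J hJ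
  have hJinv : J⁻¹ = J := inv_eq_of_mul_eq_one_left hJJ
  have hPr := Cfsg.Agent.Lib.Helper16.isPrime_of_isPModular hM
  have hBlock : Cfsg.IsPBlock M (Cfsg.principalBlock M G) :=
    Cfsg.Agent.Lib.Helper77.isPBlock_principalBlock M
  set t : Cfsg.IrrCharacter G := Cfsg.Agent.Lib.Helper77.trivIrr G with ht
  have ht1 : ∀ g, (t : G → ℂ) g = 1 := fun g => rfl
  obtain ⟨hd1, hd2, hd3, h12, h13, h23⟩ := hdist
  have ht_1 : t ≠ χ₁ := fun h => hd1 (by rw [← h]; rfl)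
  have ht_2 : t ≠ χ₂ := fun h => hd2 (by rw [← h]; rfl)
  have ht_3 : t ≠ χ₃ := fun h => hd3 (by rw [← h]; rfl)
  have hBset : Cfsg.principalBlock M G = {t, χ₁, χ₂, χ₃} := by
    rw [hB]
    ext χ
    simp only [Set.mem_ofPred_eq, Set.mem_insert_iff, Set.mem_singleton_iff]
    constructor
    · rintro (h | h | h | h)
      · exact Or.inl (Subtype.ext h)
      · exact Or.inr (Or.inl h)
      · exact Or.inr (Or.inr (Or.inl h))
      · exact Or.inr (Or.inr (Or.inr h))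
    · rintro (h | h | h | h)
      · exact Or.inl (by rw [h]; rfl)
      · exact Or.inr (Or.inl h)
      · exact Or.inr (Or.inr (Or.inl h))
      · exact Or.inr (Or.inr (Or.inr h))
  have finsum4 : ∀ f : Cfsg.IrrCharacter G → ℂ,
      ∑ᶠ χ ∈ Cfsg.principalBlock M G, f χ = f t + f χ₁ + f χ₂ + f χ₃ := by
    intro f
    rw [hBset, finsum_mem_insert f _ (Set.toFinite _), finsum_mem_insert f _ (Set.toFinite _),
      finsum_mem_pair h23]
    · ring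
    · simp only [Set.mem_insert_iff, Set.mem_singleton_iff, not_or]
      exact ⟨h12, h13⟩
    · simp only [Set.mem_insert_iff, Set.mem_singleton_iff, not_or]
      exact ⟨ht_1, ht_2, ht_3⟩
  have hmem : ∀ χ : Cfsg.IrrCharacter G, (χ = t ∨ χ = χ₁ ∨ χ = χ₂ ∨ χ = χ₃) →
      χ ∈ Cfsg.principalBlock M G := by
    intro χ h
    rw [hBset]
    simpa only [Set.mem_insert_iff, Set.mem_singleton_iff] using h
  have hev : ∀ χ ∈ Cfsg.principalBlock M G, ∀ g : G, 2 ∣ orderOf g →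
      (χ : G → ℂ) g = (χ : G → ℂ) J :=
    fun χ hχ g hg => Cfsg.Agent.S4512.even_value M hM P hK hone J hJ hJ1 χ hχ g hg
  obtain ⟨hv1, hv2, hv3⟩ := hval
  obtain ⟨hε1, hε2, hε3⟩ := hε
  have hsq : ∀ ε : ℤ, (ε = 1 ∨ ε = -1) → ε * ε = 1 := by
    rintro ε (rfl | rfl) <;> norm_num
  have hsqC : ∀ ε : ℤ, (ε = 1 ∨ ε = -1) → (ε : ℂ) * (ε : ℂ) = 1 := by
    intro ε h
    exact_mod_cast hsq ε h
  -- degrees
  obtain ⟨hx1, hx1pos, -⟩ := Cfsg.Agent.Lib.Helper79.irr_charDegree χ₁.2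
  obtain ⟨hx2, hx2pos, -⟩ := Cfsg.Agent.Lib.Helper79.irr_charDegree χ₂.2
  obtain ⟨hx3, hx3pos, -⟩ := Cfsg.Agent.Lib.Helper79.irr_charDegree χ₃.2
  set x₁ := Cfsg.charDegree (χ₁ : G → ℂ) with hx₁
  set x₂ := Cfsg.charDegree (χ₂ : G → ℂ) with hx₂
  set x₃ := Cfsg.charDegree (χ₃ : G → ℂ) with hx₃
  -- the degree relation
  have hrelC : (1 : ℂ) + (x₁ : ℂ) * ε₁ + (x₂ : ℂ) * ε₂ + (x₃ : ℂ) * ε₃ = 0 := by
    have h := Cfsg.Agent.Lib.Helper78.block_orth_regular_singular hM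
      (Cfsg.principalBlock M G) hBlock (u := 1) (g := J)
      (by rw [orderOf_one]; norm_num) (by rw [hJ2])
    rw [finsum4, hJinv, ht1, ht1, hx1, hx2, hx3, hv1, hv2, hv3] at h
    linear_combination h
  have hrelZ : (1 : ℤ) + (x₁ : ℤ) * ε₁ + (x₂ : ℤ) * ε₂ + (x₃ : ℤ) * ε₃ = 0 := by
    exact_mod_cast hrelC
  -- the count
  set A := Nat.card {g : G // 2 ∣ orderOf (g * J * g⁻¹ * J)} with hA
  have hAcard : ((Finset.univ.filter (fun g : G => 2 ∣ orderOf (g * J * g⁻¹ * J))).card : ℂ) =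
      (A : ℂ) := by
    rw [hA, ← Nat.card_eq_finsetCard]
    congr 1
    apply Nat.card_congr
    refine Equiv.subtypeEquivRight ?_
    intro g
    simp
  have hcount : A * Nat.card (Subgroup.centralizer ((P : Subgroup G) : Set G)) ^ 2 =
      2 * Nat.card (Subgroup.centralizer ({J} : Set G)) ^ 3 :=
    Cfsg.Agent.Lib.Helper74.KleinCount.pair_count P hK hone hJ hJ1
  have hx1C : (x₁ : ℂ) ≠ 0 := by exact_mod_cast hx1pos.ne'
  have hx2C : (x₂ : ℂ) ≠ 0 := by exact_mod_cast hx2pos.ne'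
  have hx3C : (x₃ : ℂ) ≠ 0 := by exact_mod_cast hx3pos.ne'
  have hsumC : 4 * (A : ℂ) = (Nat.card G : ℂ) *
      (1 + (ε₁ : ℂ) / x₁ + (ε₂ : ℂ) / x₂ + (ε₃ : ℂ) / x₃) := by
    have hpt : ∀ g : G, ∑ᶠ χ ∈ Cfsg.principalBlock M G,
        (χ : G → ℂ) (g * J * g⁻¹ * J) * (χ : G → ℂ) J⁻¹ =
        if 2 ∣ orderOf (g * J * g⁻¹ * J) then 4 else 0 := by
      intro g
      by_cases he : 2 ∣ orderOf (g * J * g⁻¹ * J)
      · rw [if_pos he, finsum4, hJinv,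
          hev t (hmem t (Or.inl rfl)) _ he, hev χ₁ (hmem χ₁ (Or.inr (Or.inl rfl))) _ he,
          hev χ₂ (hmem χ₂ (Or.inr (Or.inr (Or.inl rfl)))) _ he,
          hev χ₃ (hmem χ₃ (Or.inr (Or.inr (Or.inr rfl)))) _ he, ht1, hv1, hv2, hv3,
          hsqC ε₁ hε1, hsqC ε₂ hε2, hsqC ε₃ hε3]
        norm_num
      · rw [if_neg he]
        exact Cfsg.Agent.Lib.Helper78.block_orth_regular_singular hM
          (Cfsg.principalBlock M G) hBlock he (by rw [hJ2])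
    have h1 : ∑ g : G, ∑ᶠ χ ∈ Cfsg.principalBlock M G,
        (χ : G → ℂ) (g * J * g⁻¹ * J) * (χ : G → ℂ) J⁻¹ = 4 * (A : ℂ) := by
      rw [Finset.sum_congr rfl (fun g _ => hpt g), ← Finset.sum_filter, Finset.sum_const,
        nsmul_eq_mul, hAcard]
      ring
    have h2 : ∑ g : G, ∑ᶠ χ ∈ Cfsg.principalBlock M G,
        (χ : G → ℂ) (g * J * g⁻¹ * J) * (χ : G → ℂ) J⁻¹ = (Nat.card G : ℂ) *
          (1 + (ε₁ : ℂ) / x₁ + (ε₂ : ℂ) / x₂ + (ε₃ : ℂ) / x₃) := by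
      have h3 : ∀ g : G, ∑ᶠ χ ∈ Cfsg.principalBlock M G,
          (χ : G → ℂ) (g * J * g⁻¹ * J) * (χ : G → ℂ) J⁻¹ =
          1 + (χ₁ : G → ℂ) (g * J * g⁻¹ * J) * ε₁ + (χ₂ : G → ℂ) (g * J * g⁻¹ * J) * ε₂ +
            (χ₃ : G → ℂ) (g * J * g⁻¹ * J) * ε₃ := by
        intro g
        rw [finsum4, hJinv, ht1, ht1, hv1, hv2, hv3, one_mul]
      rw [Finset.sum_congr rfl (fun g _ => h3 g)]
      simp only [Finset.sum_add_distrib, ← Finset.sum_mul]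
      rw [Cfsg.Agent.Lib.Helper79.irr_sum_conj_mul χ₁.2, Cfsg.Agent.Lib.Helper79.irr_sum_conj_mul χ₂.2,
        Cfsg.Agent.Lib.Helper79.irr_sum_conj_mul χ₃.2, hv1, hv2, hv3, hx1, hx2, hx3,
        Finset.sum_const, Finset.card_univ, nsmul_eq_mul, mul_one, ← Nat.card_eq_fintype_card]
      have e1 := hsqC ε₁ hε1
      have e2 := hsqC ε₂ hε2
      have e3 := hsqC ε₃ hε3
      rw [mul_assoc (Nat.card G : ℂ) (ε₁ : ℂ) (ε₁ : ℂ), e1,
        mul_assoc (Nat.card G : ℂ) (ε₂ : ℂ) (ε₂ : ℂ), e2,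
        mul_assoc (Nat.card G : ℂ) (ε₃ : ℂ) (ε₃ : ℂ), e3]
      ring
    rw [← h1, h2]
  -- the integer form of the character identity
  have hsumZ : (4 : ℤ) * A * x₁ * x₂ * x₃ = (Nat.card G : ℤ) *
      ((x₁ : ℤ) * x₂ * x₃ + ε₁ * x₂ * x₃ + ε₂ * x₁ * x₃ + ε₃ * x₁ * x₂) := by
    have h : (4 : ℂ) * A * x₁ * x₂ * x₃ = (Nat.card G : ℂ) *
        ((x₁ : ℂ) * x₂ * x₃ + ε₁ * x₂ * x₃ + ε₂ * x₁ * x₃ + ε₃ * x₁ * x₂) := by
      rw [hsumC]
      field_simp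
    exact_mod_cast h
  -- conclusion, over ℚ
  have hcJpos : 0 < Nat.card (Subgroup.centralizer ({J} : Set G)) := Nat.card_pos
  have hcPpos : 0 < Nat.card (Subgroup.centralizer ((P : Subgroup G) : Set G)) := Nat.card_pos
  set cJ := Nat.card (Subgroup.centralizer ({J} : Set G)) with hcJ
  set cP := Nat.card (Subgroup.centralizer ((P : Subgroup G) : Set G)) with hcP
  have hApos : 0 < A := by
    rcases Nat.eq_zero_or_pos A with h | h
    · rw [h, zero_mul] at hcount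
      have : 0 < 2 * cJ ^ 3 := by positivity
      omega
    · exact h
  have e1 : (A : ℚ) * (cP : ℚ) ^ 2 = 2 * (cJ : ℚ) ^ 3 := by exact_mod_cast hcount
  have e2 : (4 : ℚ) * A * x₁ * x₂ * x₃ = (Nat.card G : ℚ) *
      ((x₁ : ℚ) * x₂ * x₃ + ε₁ * x₂ * x₃ + ε₂ * x₁ * x₃ + ε₃ * x₁ * x₂) := by
    exact_mod_cast hsumZ
  have e3 : (1 : ℚ) + (x₁ : ℚ) * ε₁ + (x₂ : ℚ) * ε₂ + (x₃ : ℚ) * ε₃ = 0 := by
    exact_mod_cast hrelZ
  have q1 : (ε₁ : ℚ) * ε₁ = 1 := by exact_mod_cast hsq ε₁ hε1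
  have q2 : (ε₂ : ℚ) * ε₂ = 1 := by exact_mod_cast hsq ε₂ hε2
  have q3 : (ε₃ : ℚ) * ε₃ = 1 := by exact_mod_cast hsq ε₃ hε3
  have hD : ((x₁ : ℚ) + ε₁) * ((x₂ : ℚ) + ε₂) * ((x₃ : ℚ) + ε₃) =
      (x₁ : ℚ) * x₂ * x₃ + ε₁ * x₂ * x₃ + ε₂ * x₁ * x₃ + ε₃ * x₁ * x₂ := by
    linear_combination ((ε₁ : ℚ) * ε₂ * ε₃) * e3 - ((x₁ : ℚ) * ε₂ * ε₃) * q1 -
      ((x₂ : ℚ) * ε₁ * ε₃) * q2 - ((x₃ : ℚ) * ε₁ * ε₂) * q3
  have hnQ : (0 : ℚ) < (Nat.card G : ℚ) := by exact_mod_cast Nat.card_pos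
  have hD0 : ((x₁ : ℚ) + ε₁) * ((x₂ : ℚ) + ε₂) * ((x₃ : ℚ) + ε₃) ≠ 0 := by
    rw [hD]
    intro h0
    rw [h0, mul_zero] at e2
    have hpos : (0 : ℚ) < 4 * A * x₁ * x₂ * x₃ := by
      have h1 : (0 : ℚ) < A := by exact_mod_cast hApos
      have h2 : (0 : ℚ) < x₁ := by exact_mod_cast hx1pos
      have h3 : (0 : ℚ) < x₂ := by exact_mod_cast hx2pos
      have h4 : (0 : ℚ) < x₃ := by exact_mod_cast hx3pos
      positivity
    rw [e2] at hpos
    exact lt_irrefl _ hpos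
  have hcP0 : (cP : ℚ) ≠ 0 := by exact_mod_cast hcPpos.ne'
  rw [← hD] at e2
  rw [eq_div_iff (pow_ne_zero 2 hcP0), div_eq_mul_inv, ← mul_assoc]
  have hinv := mul_inv_cancel₀ hD0
  linear_combination (-(cP : ℚ) ^ 2) * e2 * (((x₁ : ℚ) + ε₁) * ((x₂ : ℚ) + ε₂) * ((x₃ : ℚ) + ε₃))⁻¹ +
    (4 * (x₁ : ℚ) * x₂ * x₃ * (((x₁ : ℚ) + ε₁) * ((x₂ : ℚ) + ε₂) * ((x₃ : ℚ) + ε₃))⁻¹) * e1 +
    (-((Nat.card G : ℚ) * (cP : ℚ) ^ 2)) * hinv

end Cfsg.Agent.S4479
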