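import Cfsg.Statements.S4483
import Cfsg.Agent.Lib.Helper79.RealOdd

set_option autoImplicit false
open Cfsg

namespace Cfsg.Agent.S4483

/-- Let G be a finite group of order 2^n·g₀ with g₀ odd, and M a maximal ideal of the algebraic integers containing 2. Every real-valued irreducible character of G of odd degree lies in the principal 2-block; consequently G has at most 2^(2n) real-valued irreducible characters of odd degree. -/
theorem result {G : Type*} [Group G] [Finite G] (M : Ideal Cfsg.AlgInt) (hM : Cfsg.IsPModular 2 M) : (∀ χ : Cfsg.IrrCharacter G, (∀ g : G, ((χ : G → ℂ) g).im = 0) → Odd (Cfsg.charDegree (χ : G → ℂ)) → χ ∈ Cfsg.principalBlock M G) ∧ Nat.card {χ : Cfsg.IrrCharacter G // (∀ g : G, ((χ : G → ℂ) g).im = 0) ∧ Odd (Cfsg.charDegree (χ : G → ℂ))} ≤ 2 ^ (2 * (Nat.card G).factorization 2) := by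
  classical
  let _ : Fintype G := Fintype.ofFinite G
  let _ : Fintype (Cfsg.IrrCharacter G) := Fintype.ofFinite _
  have : Fact (Nat.Prime 2) := ⟨Nat.prime_two⟩
  have h1 : ∀ χ : Cfsg.IrrCharacter G, (∀ g : G, ((χ : G → ℂ) g).im = 0) →
      Odd (Cfsg.charDegree (χ : G → ℂ)) → χ ∈ Cfsg.principalBlock M G :=
    fun χ hr ho => Cfsg.Agent.Lib.Helper79.real_odd_mem_principalBlock hM χ hr ho
  refine ⟨h1, ?_⟩
  have hB := Cfsg.Agent.Lib.Helper77.isPBlock_principalBlock (G := G) M
  have hcard := Cfsg.Agent.Lib.Helper79.card_block_le hM (Cfsg.principalBlock M G) hB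
  rw [Nat.subtype_card (Finset.univ.filter (fun χ : Cfsg.IrrCharacter G =>
    (∀ g : G, ((χ : G → ℂ) g).im = 0) ∧ Odd (Cfsg.charDegree (χ : G → ℂ)))) (fun χ => by simp)]
  calc _ ≤ (Finset.univ.filter (· ∈ Cfsg.principalBlock M G)).card := by
        apply Finset.card_le_card
        intro χ hχ
        rw [Finset.mem_filter] at hχ ⊢
        exact ⟨Finset.mem_univ _, h1 χ hχ.2.1 hχ.2.2⟩
    _ ≤ 2 ^ (2 * Cfsg.blockDefect 2 (Cfsg.principalBlock M G)) := hcard
    _ ≤ 2 ^ (2 * (Nat.card G).factorization 2) := by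
        apply Nat.pow_le_pow_right (by norm_num)
        have h2 : Cfsg.blockDefect 2 (Cfsg.principalBlock M G) ≤
            (Nat.card G).factorization 2 := by
          unfold Cfsg.blockDefect
          exact Nat.sub_le _ _
        omega

end Cfsg.Agent.S4483
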