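import Cfsg.Statements.S4484
import Cfsg.Agent.Lib.Helper95.BRA.Asm
import Cfsg.Agent.Lib.Helper95.BRA.Pig
import Cfsg.Agent.Lib.Helper97.BRA.C1
import Cfsg.Agent.Lib.Helper71.BRA.C2
import Cfsg.Agent.Lib.Helper35.BRA.C3a
import Cfsg.Agent.Lib.Helper80.BRA.Mult
import Cfsg.Agent.Lib.Helper53.BRA.C3c
import Cfsg.Agent.Lib.Helper72.BRA.C3d
import Cfsg.Agent.Lib.Helper65.BRA.Mat
import Cfsg.Agent.Lib.Helper24.BRA.Bridge
import Cfsg.Agent.Lib.Helper9.BRA.Bli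
import Cfsg.Agent.Lib.Helper13.BRA.B1
import Cfsg.Agent.Lib.Helper11.BRA.B2
import Cfsg.Agent.Lib.Helper84.BRA.B3
import Cfsg.Agent.Lib.Helper93.BRA.B4

set_option autoImplicit false
open Cfsg

namespace Cfsg.Agent.S4484

/-- A refinement of Burnside's result on simple groups of order divisible by only two primes. Let G be a finite simple group of order p^a · q^b · g₀ with p, q distinct primes, a > 0, g₀ coprime to p and q, and the order of G different from p. Then g₀ − 1 > log p / log 6, that is 6^(g₀ − 1) > p. -/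
theorem result {G : Type*} [Group G] [Finite G] [IsSimpleGroup G] (p q a b g₀ : ℕ) (hp : p.Prime) (hq : q.Prime) (hpq : p ≠ q) (ha : 0 < a) (hg : Nat.card G = p ^ a * q ^ b * g₀) (hcop : ¬ p ∣ g₀) (hcoq : ¬ q ∣ g₀) (hne : Nat.card G ≠ p) : p < 6 ^ (g₀ - 1) := by
  exact Cfsg.Agent.Lib.Helper95.BRA.brauer_six
    Cfsg.Agent.Lib.Helper97.BRA.pkgC1
    Cfsg.Agent.Lib.Helper71.BRA.pkgC2
    Cfsg.Agent.Lib.Helper35.BRA.pkgC3a
    Cfsg.Agent.Lib.Helper80.BRA.pkgMult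
    Cfsg.Agent.Lib.Helper53.BRA.pkgC3c
    Cfsg.Agent.Lib.Helper72.BRA.pkgC3d
    Cfsg.Agent.Lib.Helper95.BRA.pkgPig
    Cfsg.Agent.Lib.Helper65.BRA.pkgMat
    Cfsg.Agent.Lib.Helper24.BRA.pkgBridge
    (Cfsg.Agent.Lib.Helper9.BRA.pkgBli Cfsg.Agent.Lib.Helper13.BRA.pkgB1
      Cfsg.Agent.Lib.Helper11.BRA.pkgB2
      (Cfsg.Agent.Lib.Helper93.BRA.pkgB4 Cfsg.Agent.Lib.Helper13.BRA.pkgB1
        Cfsg.Agent.Lib.Helper11.BRA.pkgB2 Cfsg.Agent.Lib.Helper84.BRA.pkgB3))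
    p q a b g₀ hp hq hpq ha hg hcop hcoq hne

end Cfsg.Agent.S4484
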