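import Cfsg.Statements.S4487
import Cfsg.Agent.Lib.Helper16.BlockBasic
import Cfsg.Agent.Lib.Helper77.BlockIdem
import Cfsg.Agent.Lib.Helper77.Osima
import Cfsg.Agent.Lib.Helper77.NormalP
import Cfsg.Agent.Lib.Helper55.Cores
import Cfsg.Agent.Lib.Helper79.CharSum

set_option autoImplicit false
open Cfsg

namespace Cfsg.Agent.S4487

/-- Let G be a finite group and p a prime such that G has no non-trivial normal subgroup of order prime to p and C_G(O_p(G)) ≤ O_p(G). Then G has a single p-block: any two irreducible characters lie in the same block relative to every maximal ideal M of the algebraic integers containing p. -/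
theorem result {G : Type*} [Group G] [Finite G] (p : ℕ) [Fact p.Prime] (M : Ideal Cfsg.AlgInt) (hM : Cfsg.IsPModular p M) (hcore : Cfsg.pPrimeCore p G = ⊥) (hconstr : Subgroup.centralizer ((Cfsg.pCore p G) : Set G) ≤ Cfsg.pCore p G) (χ ψ : Cfsg.IrrCharacter G) : Cfsg.SameBlock M (χ : G → ℂ) (ψ : G → ℂ) := by
  classical
  let _ : Fintype G := Fintype.ofFinite G
  have hp : p.Prime := Fact.out
  have hMp := Cfsg.Agent.Lib.Helper16.isPrime_of_isPModular hM
  have hQn : (Cfsg.pCore p G).Normal := Cfsg.pCore_normal p G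
  have hQp : IsPGroup p (Cfsg.pCore p G) := Cfsg.Agent.Lib.Helper55.pCore_isPGroup p G
  obtain ⟨B, hBdef⟩ : ∃ B, B = Cfsg.blockOf M (χ : G → ℂ) := ⟨_, rfl⟩
  have hB : Cfsg.IsPBlock M B := ⟨χ, hBdef⟩
  have hχB : χ ∈ B := by
    rw [hBdef]
    exact Cfsg.Agent.Lib.Helper16.mem_blockOf_self hMp χ
  obtain ⟨hloc, hcl, hom⟩ := Cfsg.Agent.Lib.Helper77.blockCoeff_spec hMp B hB
  have hsupp : ∀ g : G, g ≠ 1 → Cfsg.blockCoeff B g = 0 := by
    intro g hg
    by_cases hcent : g ∈ Subgroup.centralizer ((Cfsg.pCore p G : Subgroup G) : Set G)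
    · have hgQ := hconstr hcent
      apply Cfsg.Agent.Lib.Helper77.blockCoeff_eq_zero_of_singular hM B hB
      have h1 : p ∣ orderOf (⟨g, hgQ⟩ : Cfsg.pCore p G) :=
        IsPGroup.dvd_orderOf hQp (by
          intro h
          exact hg (congrArg Subtype.val h))
      rwa [Subgroup.orderOf_mk] at h1
    · exact Cfsg.Agent.Lib.Helper77.blockCoeff_eq_zero_of_not_mem_centralizer hM _ hQp B hB g hcent
  have hval : ∀ θ : Cfsg.IrrCharacter G,
      Cfsg.Agent.Lib.Helper77.omegaF (θ : G → ℂ) (Cfsg.blockCoeff B) = Cfsg.blockCoeff B 1 := by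
    intro θ
    have hθ1 : (θ : G → ℂ) 1 ≠ 0 := Cfsg.Agent.Lib.Helper79.irr_one_ne_zero θ.2
    unfold Cfsg.Agent.Lib.Helper77.omegaF
    rw [Finset.sum_eq_single (1 : G) (fun g _ hg => by rw [hsupp g hg, zero_mul])
      (fun h => absurd (Finset.mem_univ _) h)]
    field_simp
  have h1 : Cfsg.blockCoeff B 1 = 1 := by
    rw [← hval χ, hom χ, if_pos hχB]
  have hψB : ψ ∈ B := by
    by_contra hcon
    have h2 := hom ψ
    rw [hval ψ, h1, if_neg hcon] at h2
    exact one_ne_zero h2
  rw [hBdef] at hψB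
  exact hψB

end Cfsg.Agent.S4487
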