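import Cfsg.Statements.S4493
import Cfsg.Agent.Lib.Helper75.ItoSolv

set_option autoImplicit false
open Cfsg

namespace Cfsg.Agent.S4493

/-- Let G be a finite solvable group and p a prime. Then G has a normal abelian Sylow p-subgroup if and only if no irreducible character degree of G is divisible by p. -/
theorem result {G : Type*} [Group G] [Finite G] (hsolv : Group.IsSolvable G) (p : ℕ) (hp : p.Prime) : (∃ P : Subgroup G, P.Normal ∧ (∀ x ∈ P, ∀ y ∈ P, x * y = y * x) ∧ IsPGroup p P ∧ ¬ p ∣ P.index) ↔ ∀ χ : Cfsg.IrrCharacter G, ¬ p ∣ Cfsg.charDegree (χ : G → ℂ) := by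
  constructor
  · rintro ⟨P, hPn, hPab, hPp, hPi⟩ χ hdvd
    have hPn' : P.Normal := hPn
    exact hPi (dvd_trans hdvd (Cfsg.Agent.Lib.Helper82.ito_charDegree_dvd χ.2 P hPab))
  · intro hdeg
    obtain ⟨P, hPn, hPp, hPi⟩ := Cfsg.Agent.Lib.Helper75.exists_normal_sylow_of_not_dvd_degree
      p hp (Nat.card G) G rfl hsolv hdeg
    have hPn' : P.Normal := hPn
    exact ⟨P, hPn, Cfsg.Agent.Lib.Helper75.comm_of_pgroup_of_not_dvd_degree p hp hdeg P hPp,
      hPp, hPi⟩

end Cfsg.Agent.S4493
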