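import Mathlib
import Cfsg.Statements.S4494
import Cfsg.Agent.Lib.Helper76.PRegHeight

set_option autoImplicit false
open Cfsg

namespace Cfsg.Agent.S4494

open Cfsg.Agent.Lib.Helper16 Cfsg.Agent.Lib.Helper26 Cfsg.Agent.Lib.Helper76 Cfsg.Agent.Lib.Helper78

/-- The norm of the `p`-regular truncation: `[χ̃, χ̃] = p ^ a * [χ̃, χ]`. -/
theorem classInner_trunc_self {G : Type*} [Group G] [Fintype G] (p : ℕ) (c : ℕ) (χ : G → ℂ) :
    Cfsg.classInner (fun x : G => if p ∣ orderOf x then (0 : ℂ) else (c : ℂ) * χ x)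
      (fun x : G => if p ∣ orderOf x then (0 : ℂ) else (c : ℂ) * χ x) =
    (c : ℂ) * Cfsg.classInner (fun x : G => if p ∣ orderOf x then (0 : ℂ) else (c : ℂ) * χ x) χ := by
  have key : ∀ g : G, (if p ∣ orderOf g then (0 : ℂ) else (c : ℂ) * χ g) *
      (starRingEnd ℂ) (if p ∣ orderOf g then (0 : ℂ) else (c : ℂ) * χ g) =
      (c : ℂ) * ((if p ∣ orderOf g then (0 : ℂ) else (c : ℂ) * χ g) * (starRingEnd ℂ) (χ g)) := by
    intro g
    by_cases hg : p ∣ orderOf g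
    · simp only [if_pos hg, zero_mul, mul_zero]
    · simp only [if_neg hg, map_mul, map_natCast]
      ring
  unfold Cfsg.classInner
  simp only [key]
  rw [← Finset.mul_sum]
  ring

/-- The Brauer–Feit bound. Let B be a p-block of the finite group G (relative to a maximal ideal M of the algebraic integers containing p) and let d be its defect. Then the number k(B) of irreducible characters in B satisfies k(B) ≤ p^(2d)/4 + 1, stated here as 4·k(B) ≤ p^(2d) + 4. -/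
theorem result {G : Type*} [Group G] [Finite G] (p : ℕ) [Fact p.Prime] (M : Ideal Cfsg.AlgInt) (hM : Cfsg.IsPModular p M) (B : Set (Cfsg.IrrCharacter G)) (hB : Cfsg.IsPBlock M B) : 4 * Nat.card B ≤ p ^ (2 * Cfsg.blockDefect p B) + 4 := by
  classical
  let _ := Fintype.ofFinite G
  have hMp := isPrime_of_isPModular hM
  have hp : p.Prime := Fact.out
  have := Cfsg.Agent.Lib.Helper81.irr_finite G
  have := Fintype.ofFinite (Cfsg.IrrCharacter G)
  obtain ⟨χ, hχ, hht⟩ := exists_height_zero p B (IsPBlock.nonempty hMp hB)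
  obtain ⟨a, ha0, haB, hexp⟩ := pRegular_block_expansion p M hM B hB χ hχ
  set A := (Nat.card G).factorization p with hA
  set d := Cfsg.blockDefect p B with hd
  have hdA : d ≤ A := by rw [hd]; unfold Cfsg.blockDefect; omega
  have hQ := (height_zero_iff hM B hB χ hχ).mp hht
  have hnz : ∀ ξ ∈ B, a ξ ≠ 0 ∧ (p : ℤ) ^ (A - d) ∣ a ξ := by
    intro ξ hξ
    obtain ⟨n, hn, hn0, hnv⟩ := (inner_val_iff hM B hB χ hχ ξ hξ).mpr hQ
    have hna : n = a ξ := by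
      have : (n : ℂ) = (a ξ : ℂ) := by rw [← hn, haB ξ hξ]
      exact_mod_cast this
    rw [← hna]
    refine ⟨hn0, ?_⟩
    rw [padicValInt_dvd_iff]
    right
    rw [hnv]
    have hmem : (Cfsg.charDegree (ξ : G → ℂ)).factorization p ∈
        ((fun χ : Cfsg.IrrCharacter G => (Cfsg.charDegree (χ : G → ℂ)).factorization p) '' B) :=
      ⟨ξ, hξ, rfl⟩
    have := Nat.sInf_le hmem
    have : (A - d : ℕ) ≤ (Cfsg.charDegree (ξ : G → ℂ)).factorization p := by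
      rw [hd]; unfold Cfsg.blockDefect; omega
    exact_mod_cast this
  -- the quotients
  have hm : ∀ ξ : Cfsg.IrrCharacter G, ∃ m : ℤ, a ξ = (p : ℤ) ^ (A - d) * m := by
    intro ξ
    by_cases hξ : ξ ∈ B
    · exact (hnz ξ hξ).2
    · exact ⟨0, by rw [ha0 ξ hξ, mul_zero]⟩
  choose m hm using hm
  have hpz : (p : ℤ) ≠ 0 := by exact_mod_cast hp.ne_zero
  have hq0 : (p : ℤ) ^ (A - d) ≠ 0 := pow_ne_zero _ hpz
  have hmnz : ∀ ξ ∈ B, m ξ ≠ 0 := by
    intro ξ hξ h0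
    apply (hnz ξ hξ).1
    rw [hm ξ, h0, mul_zero]
  -- the norm identity
  have hnorm : ∑ ξ : Cfsg.IrrCharacter G, (a ξ) ^ 2 = (p : ℤ) ^ A * a χ := by
    have h1 := classInner_trunc_self p (p ^ A) (χ : G → ℂ)
    rw [← haB χ hχ] at h1
    have hfun : (fun x : G => if p ∣ orderOf x then (0 : ℂ) else
        ((p ^ A : ℕ) : ℂ) * (χ : G → ℂ) x) =
        ∑ ψ : Cfsg.IrrCharacter G, (a ψ : ℂ) • (ψ : G → ℂ) := by
      rw [hexp]
      funext x
      rw [finsum_eq_sum_of_fintype, Finset.sum_apply]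
      rfl
    rw [hfun, classInner_expansion] at h1
    have h2 : ((∑ ξ : Cfsg.IrrCharacter G, (a ξ) ^ 2 : ℤ) : ℂ) = (((p : ℤ) ^ A * a χ : ℤ) : ℂ) := by
      push_cast
      rw [show ((p : ℂ) ^ A * (a χ : ℂ)) = ((p ^ A : ℕ) : ℂ) * (a χ : ℂ) by push_cast; ring, ← h1]
      refine Finset.sum_congr rfl fun ξ _ => ?_
      rw [map_intCast]
      ring
    exact_mod_cast h2
  have hsum : ∑ ξ : Cfsg.IrrCharacter G, (m ξ) ^ 2 = (p : ℤ) ^ d * m χ := by
    have h1 : ((p : ℤ) ^ (A - d)) ^ 2 * ∑ ξ : Cfsg.IrrCharacter G, (m ξ) ^ 2 =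
        ((p : ℤ) ^ (A - d)) ^ 2 * ((p : ℤ) ^ d * m χ) := by
      rw [Finset.mul_sum]
      have e : ∀ ξ : Cfsg.IrrCharacter G, ((p : ℤ) ^ (A - d)) ^ 2 * (m ξ) ^ 2 = (a ξ) ^ 2 := by
        intro ξ; rw [hm ξ]; ring
      simp only [e]
      rw [hnorm, hm χ]
      have e2 : (p : ℤ) ^ A = (p : ℤ) ^ (A - d) * (p : ℤ) ^ d := by
        rw [← pow_add, Nat.sub_add_cancel hdA]
      rw [e2]
      ring
    exact mul_left_cancel₀ (pow_ne_zero 2 hq0) h1
  -- counting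
  have hχB : χ ∈ B.toFinset := Set.mem_toFinset.mpr hχ
  have hle1 : ∑ ξ ∈ B.toFinset, (m ξ) ^ 2 ≤ ∑ ξ : Cfsg.IrrCharacter G, (m ξ) ^ 2 :=
    Finset.sum_le_sum_of_subset_of_nonneg (Finset.subset_univ _) (fun ξ _ _ => sq_nonneg _)
  have hsplit : (m χ) ^ 2 + ∑ ξ ∈ B.toFinset.erase χ, (m ξ) ^ 2 = ∑ ξ ∈ B.toFinset, (m ξ) ^ 2 :=
    Finset.add_sum_erase _ (fun ξ => (m ξ) ^ 2) hχB
  have hle2 : ((B.toFinset.erase χ).card : ℤ) ≤ ∑ ξ ∈ B.toFinset.erase χ, (m ξ) ^ 2 := by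
    have : ((B.toFinset.erase χ).card : ℤ) = ∑ ξ ∈ B.toFinset.erase χ, (1 : ℤ) := by simp
    rw [this]
    refine Finset.sum_le_sum fun ξ hξ => ?_
    have hξB : ξ ∈ B := Set.mem_toFinset.mp (Finset.mem_of_mem_erase hξ)
    have := hmnz ξ hξB
    have h0 : 0 < (m ξ) ^ 2 := by positivity
    omega
  have hcard : (B.toFinset.erase χ).card = Nat.card B - 1 := by
    rw [Finset.card_erase_of_mem hχB, Set.toFinset_card, Nat.card_eq_fintype_card]
  have hpos : 0 < Nat.card B := by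
    rw [Nat.card_eq_fintype_card, ← Set.toFinset_card]
    exact Finset.card_pos.mpr ⟨χ, hχB⟩
  have hfin : ((Nat.card B : ℤ) - 1) ≤ (p : ℤ) ^ d * m χ - (m χ) ^ 2 := by
    have : ((B.toFinset.erase χ).card : ℤ) = (Nat.card B : ℤ) - 1 := by
      rw [hcard]; push_cast [Nat.cast_sub hpos]; ring
    linarith
  have hsq : 4 * ((p : ℤ) ^ d * m χ - (m χ) ^ 2) ≤ ((p : ℤ) ^ d) ^ 2 := by
    nlinarith [sq_nonneg ((p : ℤ) ^ d - 2 * m χ)]
  have hres : (4 * Nat.card B : ℤ) ≤ (p : ℤ) ^ (2 * d) + 4 := by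
    have : ((p : ℤ) ^ d) ^ 2 = (p : ℤ) ^ (2 * d) := by rw [← pow_mul, mul_comm]
    linarith
  exact_mod_cast hres

end Cfsg.Agent.S4494
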