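import Cfsg.Statements.S4497
import Cfsg.Agent.Lib.Helper75.SelfCent2

set_option autoImplicit false
open Cfsg

namespace Cfsg.Agent.S4497

/-- Let the finite group G contain an element x of prime order p with C_G(x) = ⟨x⟩, let t be the number of conjugacy classes of elements of order p, and let S* = O_{p′}(G) be the largest normal subgroup of order prime to p. Then S* ≤ G′; if t ≠ p − 1 the quotient G′/S* is simple (in particular non-trivial); if t = p − 1 then G′ = S*. -/
theorem result {G : Type*} [Group G] [Finite G] (p : ℕ) (hp : p.Prime) (x : G) (hx : orderOf x = p) (hC : Subgroup.centralizer ({x} : Set G) = Subgroup.zpowers x) (t : ℕ) (ht : Nat.card {C : ConjClasses G // ∃ g ∈ C.carrier, orderOf g = p} = t) : Cfsg.pPrimeCore p G ≤ commutator G ∧ (t ≠ p - 1 → ∀ h : ((Cfsg.pPrimeCore p G).subgroupOf (commutator G)).Normal, IsSimpleGroup (↥(commutator G) ⧸ (Cfsg.pPrimeCore p G).subgroupOf (commutator G))) ∧ (t = p - 1 → commutator G = Cfsg.pPrimeCore p G) := by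
  have h : Cfsg.Agent.Lib.Helper75.SC p x := ⟨hp, hx, hC⟩
  have hcl := h.card_classes
  rw [ht] at hcl
  have hp2 := hp.two_le
  have hpc := Cfsg.Agent.Lib.Helper75.pPrimeCore_not_dvd p hp G
  have hnorm := Cfsg.Agent.Lib.Helper75.pPrimeCore_normal' p G
  have hle : Cfsg.pPrimeCore p G ≤ commutator G := h.le_commutator _ hpc
  refine ⟨hle, ?_, ?_⟩
  · intro hne hn
    have he : (Subgroup.zpowers x).relIndex (Subgroup.normalizer (Subgroup.zpowers x : Set G)) ≠ 1 := by
      intro h1
      rw [h1, mul_one] at hcl
      exact hne hcl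
    exact h.simple_quotient (h.mem_commutator_of_relIndex_ne_one he) hn
  · intro heq
    have he : (Subgroup.zpowers x).relIndex (Subgroup.normalizer (Subgroup.zpowers x : Set G)) = 1 := by
      rw [heq] at hcl
      have h0 : 0 < p - 1 := by omega
      exact Nat.eq_of_mul_eq_mul_left h0 (by rw [hcl, mul_one])
    exact le_antisymm
      (Cfsg.Agent.Lib.Helper75.le_pPrimeCore p hp _ (h.commutator_of_relIndex_eq_one he).2) hle

end Cfsg.Agent.S4497
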