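import Cfsg.Statements.S4731
import Cfsg.Agent.Lib.Helper79.TwoPrimes

set_option autoImplicit false
open Cfsg

namespace Cfsg.Agent.S4731

/-- Let p ≠ q be primes, M_p and M_q maximal ideals of the algebraic integers containing p and q respectively, and G a finite group with no element of order pq; let q^b be the q-part of the order of G. For a p-block B_p (relative to M_p), a q-block B_q (relative to M_q) and a p-singular element y, the sum of χ(1)χ(y) over the irreducible characters χ lying in both B_p and B_q is q^b times an algebraic integer. -/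
theorem result {G : Type*} [Group G] [Finite G] (p q : ℕ) [Fact p.Prime] [Fact q.Prime] (hpq : p ≠ q) (Mp Mq : Ideal Cfsg.AlgInt) (hMp : Cfsg.IsPModular p Mp) (hMq : Cfsg.IsPModular q Mq) (hno : ∀ g : G, orderOf g ≠ p * q) (b : ℕ) (hb : (Nat.card G).factorization q = b) (Bp : Set (Cfsg.IrrCharacter G)) (hBp : Cfsg.IsPBlock Mp Bp) (Bq : Set (Cfsg.IrrCharacter G)) (hBq : Cfsg.IsPBlock Mq Bq) (y : G) (hy : p ∣ orderOf y) : ∃ ω : Cfsg.AlgInt, ∑ᶠ χ ∈ Bp ∩ Bq, (Cfsg.charDegree (χ : G → ℂ) : ℂ) * (χ : G → ℂ) y = (q : ℂ) ^ b * (ω : ℂ) := by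
  classical
  let _ : Fintype G := Fintype.ofFinite G
  let _ : Fintype (Cfsg.IrrCharacter G) := Fintype.ofFinite _
  have hq : q.Prime := Fact.out
  subst hb
  obtain ⟨S, hS⟩ : ∃ S : G → ℂ, S = fun u =>
      ∑ᶠ χ ∈ Bp ∩ Bq, (Cfsg.charDegree (χ : G → ℂ) : ℂ) * (χ : G → ℂ) u := ⟨_, rfl⟩
  have hSsum : ∀ u, S u = ∑ χ : Cfsg.IrrCharacter G,
      if χ ∈ Bp ∩ Bq then (Cfsg.charDegree (χ : G → ℂ) : ℂ) * (χ : G → ℂ) u else 0 := by
    intro u
    rw [hS]
    exact Cfsg.Agent.Lib.Helper16.finsum_mem_eq_sum_ite _ _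
  have hSint : ∀ u, IsIntegral ℤ (S u) := by
    intro u
    rw [hSsum u]
    refine IsIntegral.sum _ (fun χ _ => ?_)
    split_ifs
    · exact (isIntegral_natCast _).mul (Cfsg.Agent.Lib.Helper79.irr_isIntegral χ.2 u)
    · exact isIntegral_zero
  obtain ⟨f, hf⟩ : ∃ f : ℕ → ℂ, f = fun j =>
      (((1 : ℚ) / (q : ℚ) ^ (Nat.card G).factorization q : ℚ) : ℂ) * S (y ^ j) := ⟨_, rfl⟩
  have hcyc : Cfsg.Agent.Lib.Helper79.IsCycRat (orderOf y) f := by
    rw [hf]
    apply Cfsg.Agent.Lib.Helper79.IsCycRat.smul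
    have h1 : (fun j => S (y ^ j)) = fun j => ∑ χ : Cfsg.IrrCharacter G,
        if χ ∈ Bp ∩ Bq then (Cfsg.charDegree (χ : G → ℂ) : ℂ) * (χ : G → ℂ) (y ^ j) else 0 := by
      funext j
      exact hSsum _
    rw [h1]
    apply Cfsg.Agent.Lib.Helper79.IsCycRat.sum
    intro χ _
    by_cases hχ : χ ∈ Bp ∩ Bq
    · simp only [if_pos hχ]
      have h2 := (Cfsg.Agent.Lib.Helper79.isCycRat_character
        (Cfsg.Agent.Lib.Helper3.isCharacter_of_irr χ.2) y).smul
        (Cfsg.charDegree (χ : G → ℂ) : ℚ)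
      simpa using h2
    · simp only [if_neg hχ]
      exact Cfsg.Agent.Lib.Helper79.isCycRat_zero _
  have hq0 : ((q : ℂ)) ^ (Nat.card G).factorization q ≠ 0 :=
    pow_ne_zero _ (by exact_mod_cast hq.ne_zero)
  have hfk : ∀ k, f k = S (y ^ k) / (q : ℂ) ^ (Nat.card G).factorization q := by
    intro k
    rw [hf]
    push_cast
    field_simp
  have hint : IsIntegral ℤ (f 1) := by
    apply Cfsg.Agent.Lib.Helper79.isIntegral_of_roots_local hMq ((Nat.card G).factorization q)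
      (hcyc.isIntegral (orderOf_pos y) 1)
    intro w hw
    obtain ⟨k, hk, rfl⟩ := hcyc.exists_coprime_of_root (orderOf_pos y) hw
    have hyk : p ∣ orderOf (y ^ k) := by
      rw [Nat.Coprime.orderOf_pow hk.symm]
      exact hy
    constructor
    · rw [hfk k, hS]
      exact Cfsg.Agent.Lib.Helper79.twoBlock_sum_local hpq hMp hMq hno Bp Bq hBp hBq hyk
    · rw [hfk k]
      have h3 : (q : ℂ) ^ (Nat.card G).factorization q *
          (S (y ^ k) / (q : ℂ) ^ (Nat.card G).factorization q) = S (y ^ k) := by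
        field_simp
      rw [h3]
      exact hSint _
  refine ⟨⟨f 1, hint⟩, ?_⟩
  show _ = (q : ℂ) ^ (Nat.card G).factorization q * f 1
  rw [hfk 1, pow_one, hS]
  field_simp

end Cfsg.Agent.S4731
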