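import Cfsg.Statements.S4498
import Cfsg.Agent.S4731
import Cfsg.Agent.Lib.Helper81.CharCore
import Cfsg.Agent.Lib.Helper16.LocalRing

set_option autoImplicit false
open Cfsg

namespace Cfsg.Agent.S4498

/-- Let p and q be distinct primes dividing the order of the finite group G, and suppose G has no element of order p·q. Fix maximal ideals M_p over p and M_q over q of the algebraic integers. Then the principal p-block and the principal q-block of G have a non-principal irreducible character in common. -/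
theorem result {G : Type*} [Group G] [Finite G] (p q : ℕ) [Fact p.Prime] [Fact q.Prime] (hpq : p ≠ q) (hp : p ∣ Nat.card G) (hq : q ∣ Nat.card G) (hno : ∀ g : G, orderOf g ≠ p * q) (Mp Mq : Ideal Cfsg.AlgInt) (hMp : Cfsg.IsPModular p Mp) (hMq : Cfsg.IsPModular q Mq) : ∃ χ : Cfsg.IrrCharacter G, (χ : G → ℂ) ≠ (fun _ => 1) ∧ χ ∈ Cfsg.principalBlock Mp G ∧ χ ∈ Cfsg.principalBlock Mq G := by
  classical
  have hqp : q.Prime := Fact.out
  have hprq := Cfsg.Agent.Lib.Helper16.isPrime_of_isPModular hMq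
  have hprp := Cfsg.Agent.Lib.Helper16.isPrime_of_isPModular hMp
  obtain ⟨χ₁, hχ₁⟩ : ∃ χ₁ : Cfsg.IrrCharacter G, (χ₁ : G → ℂ) = fun _ => 1 :=
    ⟨⟨_, Cfsg.Agent.Lib.Helper81.isIrrCharacter_one⟩, rfl⟩
  have hBp : Cfsg.IsPBlock Mp (Cfsg.principalBlock Mp G) :=
    ⟨χ₁, by unfold Cfsg.principalBlock; rw [hχ₁]⟩
  have hBq : Cfsg.IsPBlock Mq (Cfsg.principalBlock Mq G) :=
    ⟨χ₁, by unfold Cfsg.principalBlock; rw [hχ₁]⟩
  obtain ⟨y, hy⟩ := exists_prime_orderOf_dvd_card' (G := G) p hp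
  obtain ⟨ω, hω⟩ := Cfsg.Agent.S4731.result p q hpq Mp Mq hMp hMq hno _ rfl _ hBp _ hBq y
    (by rw [hy])
  by_contra hcon
  push Not at hcon
  have hmem1p : χ₁ ∈ Cfsg.principalBlock Mp G := by
    show Cfsg.SameBlock Mp (fun _ => 1) (χ₁ : G → ℂ)
    rw [hχ₁]
    intro g
    rw [sub_self]
    exact Cfsg.Agent.Lib.Helper16.memLocalIdeal_zero hprp
  have hmem1q : χ₁ ∈ Cfsg.principalBlock Mq G := by
    show Cfsg.SameBlock Mq (fun _ => 1) (χ₁ : G → ℂ)
    rw [hχ₁]
    intro g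
    rw [sub_self]
    exact Cfsg.Agent.Lib.Helper16.memLocalIdeal_zero hprq
  have hset : Cfsg.principalBlock Mp G ∩ Cfsg.principalBlock Mq G = {χ₁} := by
    ext χ
    constructor
    · rintro ⟨h1, h2⟩
      by_contra hne
      exact hcon χ (fun h => hne (Subtype.ext (h.trans hχ₁.symm))) h1 h2
    · intro h
      rw [Set.mem_singleton_iff] at h
      rw [h]
      exact ⟨hmem1p, hmem1q⟩
  rw [hset, finsum_mem_singleton, hχ₁] at hω
  have hdeg : Cfsg.charDegree (fun _ : G => (1 : ℂ)) = 1 := by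
    unfold Cfsg.charDegree
    simp
  rw [hdeg] at hω
  have hb : 0 < (Nat.card G).factorization q :=
    hqp.factorization_pos_of_dvd Nat.card_pos.ne' hq
  have h1 : (q : Cfsg.AlgInt) ^ (Nat.card G).factorization q * ω = 1 := by
    apply Subtype.ext
    push_cast
    rw [← hω]
    simp
  have h2 : (1 : Cfsg.AlgInt) ∈ Mq := by
    rw [← h1]
    obtain ⟨c, hc⟩ := Nat.exists_eq_succ_of_ne_zero hb.ne'
    rw [hc, pow_succ]
    exact Mq.mul_mem_right _ (Mq.mul_mem_left _ hMq.2.2)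
  exact Cfsg.Agent.Lib.Helper16.one_not_mem hprq h2

end Cfsg.Agent.S4498
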