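import Mathlib
import Cfsg.Statements.S4499
import Cfsg.Agent.Lib.Helper76.PRegNorm

set_option autoImplicit false
open Cfsg

namespace Cfsg.Agent.S4499

/-- Let G be a finite group whose order has p-part p^a (a ≥ 1), and fix a maximal ideal M of the algebraic integers containing p. If the degree of one irreducible character of a p-block B is divisible by p^(a−1), then the degree of every irreducible character in B is divisible by p^(a−1) (so B has defect at most 1). -/
theorem result {G : Type*} [Group G] [Finite G] (p : ℕ) [Fact p.Prime] (M : Ideal Cfsg.AlgInt) (hM : Cfsg.IsPModular p M) (hpa : p ∣ Nat.card G) (B : Set (Cfsg.IrrCharacter G)) (hB : Cfsg.IsPBlock M B) (χ : Cfsg.IrrCharacter G) (hχ : χ ∈ B) (hdiv : p ^ ((Nat.card G).factorization p - 1) ∣ Cfsg.charDegree (χ : G → ℂ)) (ψ : Cfsg.IrrCharacter G) (hψ : ψ ∈ B) : p ^ ((Nat.card G).factorization p - 1) ∣ Cfsg.charDegree (ψ : G → ℂ) := by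
  classical
  let _ := Fintype.ofFinite G
  have hp : p.Prime := Fact.out
  obtain ⟨h1, hpos, hdvd⟩ := Cfsg.Agent.Lib.Helper79.irr_charDegree χ.2
  obtain ⟨h1', hpos', hdvd'⟩ := Cfsg.Agent.Lib.Helper79.irr_charDegree ψ.2
  have hle : (Nat.card G).factorization p - 1 ≤ (Cfsg.charDegree (χ : G → ℂ)).factorization p :=
    (hp.pow_dvd_iff_le_factorization hpos.ne').mp hdiv
  have hht := Cfsg.Agent.Lib.Helper76.height_zero_of_near_full hM B hB χ hχ (by omega)
  have hmem : (Cfsg.charDegree (ψ : G → ℂ)).factorization p ∈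
      ((fun χ : Cfsg.IrrCharacter G => (Cfsg.charDegree (χ : G → ℂ)).factorization p) '' B) :=
    ⟨ψ, hψ, rfl⟩
  have hinf := Nat.sInf_le hmem
  unfold Cfsg.blockHeight at hht
  have hle2 : (Nat.card G).factorization p - 1 ≤ (Cfsg.charDegree (ψ : G → ℂ)).factorization p := by
    omega
  exact (pow_dvd_pow p hle2).trans (Nat.ordProj_dvd _ p)

end Cfsg.Agent.S4499
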