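import Mathlib
import Cfsg.Statements.S4710
import Cfsg.Agent.Lib.Helper76.BrauerFeit

set_option autoImplicit false
open Cfsg

namespace Cfsg.Agent.S4710

/-- Let p be a prime, M a maximal ideal of the algebraic integers containing p, and B a p-block of defect d of the finite group G containing k irreducible characters. If B contains a character of positive height then 2k ≤ p^(2d − 2); and every character in B has height 0 when d ≤ 1 and height at most d − 2 when d ≥ 2. -/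
theorem result {G : Type*} [Group G] [Finite G] (p : ℕ) [Fact p.Prime] (M : Ideal Cfsg.AlgInt) (hM : Cfsg.IsPModular p M) (B : Set (Cfsg.IrrCharacter G)) (hB : Cfsg.IsPBlock M B) (d : ℕ) (hd : Cfsg.blockDefect p B = d) : ((∃ χ ∈ B, 0 < Cfsg.blockHeight p B (χ : G → ℂ)) → 2 * Nat.card B ≤ p ^ (2 * d - 2)) ∧ ∀ χ ∈ B, (d ≤ 1 → Cfsg.blockHeight p B (χ : G → ℂ) = 0) ∧ (2 ≤ d → Cfsg.blockHeight p B (χ : G → ℂ) ≤ d - 2) := by
  classical
  let _ := Fintype.ofFinite G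
  have := Cfsg.Agent.Lib.Helper81.irr_finite G
  have := Fintype.ofFinite (Cfsg.IrrCharacter G)
  have hp : p.Prime := Fact.out
  have hp1 : (1 : ℤ) ≤ (p : ℤ) := by exact_mod_cast hp.one_lt.le
  set A := (Nat.card G).factorization p with hA
  set s := sInf ((fun ψ : Cfsg.IrrCharacter G => (Cfsg.charDegree (ψ : G → ℂ)).factorization p) '' B)
    with hs
  have hdef : d = A - s := by rw [← hd]; rfl
  have hhtdef : ∀ χ : Cfsg.IrrCharacter G, Cfsg.blockHeight p B (χ : G → ℂ) =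
      (Cfsg.charDegree (χ : G → ℂ)).factorization p - s := fun χ => rfl
  -- the height bound
  have hII : ∀ χ ∈ B, (d ≤ 1 → Cfsg.blockHeight p B (χ : G → ℂ) = 0) ∧
      (2 ≤ d → Cfsg.blockHeight p B (χ : G → ℂ) ≤ d - 2) ∧
      (0 < Cfsg.blockHeight p B (χ : G → ℂ) → Cfsg.blockHeight p B (χ : G → ℂ) + 2 ≤ d ∧
        A - (Cfsg.charDegree (χ : G → ℂ)).factorization p =
          d - Cfsg.blockHeight p B (χ : G → ℂ)) := by
    intro χ hχ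
    obtain ⟨h1, hpos, hdvd⟩ := Cfsg.Agent.Lib.Helper79.irr_charDegree χ.2
    have hle : (Cfsg.charDegree (χ : G → ℂ)).factorization p ≤ A :=
      (Nat.factorization_le_iff_dvd hpos.ne' Nat.card_pos.ne').mpr hdvd p
    have hmem : (Cfsg.charDegree (χ : G → ℂ)).factorization p ∈
        ((fun χ : Cfsg.IrrCharacter G => (Cfsg.charDegree (χ : G → ℂ)).factorization p) '' B) :=
      ⟨χ, hχ, rfl⟩
    have hinf : s ≤ (Cfsg.charDegree (χ : G → ℂ)).factorization p := Nat.sInf_le hmem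
    by_cases hnear : A ≤ (Cfsg.charDegree (χ : G → ℂ)).factorization p + 1
    · have h0 := Cfsg.Agent.Lib.Helper76.height_zero_of_near_full hM B hB χ hχ hnear
      refine ⟨fun _ => h0, fun _ => by rw [h0]; exact Nat.zero_le _, fun h => ?_⟩
      rw [h0] at h
      exact absurd h (lt_irrefl 0)
    · have e1 := hhtdef χ
      refine ⟨fun h => ?_, fun h => ?_, fun h => ⟨?_, ?_⟩⟩ <;> omega
  refine ⟨?_, fun χ hχ => ⟨(hII χ hχ).1, (hII χ hχ).2.1⟩⟩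
  rintro ⟨χ₁, hχ₁, hpos₁⟩
  obtain ⟨hd2, he⟩ := (hII χ₁ hχ₁).2.2 hpos₁
  set h := Cfsg.blockHeight p B (χ₁ : G → ℂ) with hh
  obtain ⟨χ₀, m, hχ₀, hht0, hm, hsum⟩ := Cfsg.Agent.Lib.Helper76.brauer_feit_data hM B hB
  rw [hd] at hsum
  obtain ⟨c, hc, hcsum⟩ := Cfsg.Agent.Lib.Helper76.pRegular_min_data hM B hB χ₁ hχ₁
  rw [he] at hcsum
  -- the two parts of the block
  set B0 := B.toFinset.filter (fun ξ : Cfsg.IrrCharacter G =>
    Cfsg.blockHeight p B (ξ : G → ℂ) = 0) with hB0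
  set B1 := B.toFinset.filter (fun ξ : Cfsg.IrrCharacter G =>
    ¬ Cfsg.blockHeight p B (ξ : G → ℂ) = 0) with hB1
  have hcardB : B0.card + B1.card = Nat.card B := by
    rw [hB0, hB1, Finset.card_filter_add_card_filter_not, Set.toFinset_card,
      Nat.card_eq_fintype_card]
  -- positive heights
  have hpart1 : 4 * (p : ℤ) ^ 2 * (B1.card : ℤ) ≤ ((p : ℤ) ^ d) ^ 2 := by
    have h1 : ∀ ξ ∈ B1, (p : ℤ) ^ 2 ≤ (m ξ) ^ 2 := by
      intro ξ hξ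
      rw [hB1, Finset.mem_filter] at hξ
      have hξB : ξ ∈ B := Set.mem_toFinset.mp hξ.1
      obtain ⟨hne, hdvd⟩ := hm ξ hξB
      have h2 : ((p : ℤ) ^ Cfsg.blockHeight p B (ξ : G → ℂ)) ^ 2 ∣ (m ξ) ^ 2 :=
        pow_dvd_pow_of_dvd hdvd 2
      have h3 : 0 < (m ξ) ^ 2 := by positivity
      have h4 := Int.le_of_dvd h3 h2
      have h5 : (p : ℤ) ^ 1 ≤ (p : ℤ) ^ Cfsg.blockHeight p B (ξ : G → ℂ) :=
        pow_le_pow_right₀ hp1 (Nat.one_le_iff_ne_zero.mpr hξ.2)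
      rw [pow_one] at h5
      have h6 : (p : ℤ) ^ 2 ≤ ((p : ℤ) ^ Cfsg.blockHeight p B (ξ : G → ℂ)) ^ 2 :=
        pow_le_pow_left₀ (by linarith) h5 2
      linarith
    have h2 : ∑ ξ ∈ B1, (p : ℤ) ^ 2 ≤ ∑ ξ ∈ B1, (m ξ) ^ 2 := Finset.sum_le_sum h1
    rw [Finset.sum_const, nsmul_eq_mul] at h2
    have hsub : B1 ⊆ Finset.univ.erase χ₀ := by
      intro ξ hξ
      rw [hB1, Finset.mem_filter] at hξ
      refine Finset.mem_erase.mpr ⟨?_, Finset.mem_univ _⟩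
      rintro rfl
      exact hξ.2 hht0
    have h3 : ∑ ξ ∈ B1, (m ξ) ^ 2 ≤ ∑ ξ ∈ Finset.univ.erase χ₀, (m ξ) ^ 2 :=
      Finset.sum_le_sum_of_subset_of_nonneg hsub (fun ξ _ _ => sq_nonneg _)
    have h4 : (m χ₀) ^ 2 + ∑ ξ ∈ Finset.univ.erase χ₀, (m ξ) ^ 2 =
        ∑ ξ : Cfsg.IrrCharacter G, (m ξ) ^ 2 :=
      Finset.add_sum_erase _ (fun ξ => (m ξ) ^ 2) (Finset.mem_univ χ₀)
    have h5 : 4 * ((p : ℤ) ^ d * m χ₀ - (m χ₀) ^ 2) ≤ ((p : ℤ) ^ d) ^ 2 := by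
      nlinarith [sq_nonneg ((p : ℤ) ^ d - 2 * m χ₀)]
    linarith
  -- height zero
  have hpart0 : 4 * (B0.card : ℤ) ≤ ((p : ℤ) ^ (d - h)) ^ 2 := by
    have h1 : ∀ ξ ∈ B0, (1 : ℤ) ≤ (c ξ) ^ 2 := by
      intro ξ hξ
      rw [hB0, Finset.mem_filter] at hξ
      have hξB : ξ ∈ B := Set.mem_toFinset.mp hξ.1
      have hne := hc ξ hξB hξ.2
      have h3 : 0 < (c ξ) ^ 2 := by positivity
      omega
    have h2 : ∑ ξ ∈ B0, (1 : ℤ) ≤ ∑ ξ ∈ B0, (c ξ) ^ 2 := Finset.sum_le_sum h1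
    rw [Finset.sum_const, nsmul_eq_mul, mul_one] at h2
    have hsub : B0 ⊆ Finset.univ.erase χ₁ := by
      intro ξ hξ
      rw [hB0, Finset.mem_filter] at hξ
      refine Finset.mem_erase.mpr ⟨?_, Finset.mem_univ _⟩
      rintro rfl
      rw [← hh] at hξ
      omega
    have h3 : ∑ ξ ∈ B0, (c ξ) ^ 2 ≤ ∑ ξ ∈ Finset.univ.erase χ₁, (c ξ) ^ 2 :=
      Finset.sum_le_sum_of_subset_of_nonneg hsub (fun ξ _ _ => sq_nonneg _)
    have h4 : (c χ₁) ^ 2 + ∑ ξ ∈ Finset.univ.erase χ₁, (c ξ) ^ 2 =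
        ∑ ξ : Cfsg.IrrCharacter G, (c ξ) ^ 2 :=
      Finset.add_sum_erase _ (fun ξ => (c ξ) ^ 2) (Finset.mem_univ χ₁)
    have h5 : 4 * ((p : ℤ) ^ (d - h) * c χ₁ - (c χ₁) ^ 2) ≤ ((p : ℤ) ^ (d - h)) ^ 2 := by
      nlinarith [sq_nonneg ((p : ℤ) ^ (d - h) - 2 * c χ₁)]
    linarith
  -- combine
  have hpp : (0 : ℤ) < (p : ℤ) ^ 2 := by positivity
  have e1 : ((p : ℤ) ^ d) ^ 2 = (p : ℤ) ^ 2 * (p : ℤ) ^ (2 * d - 2) := by
    rw [← pow_mul, ← pow_add]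
    congr 1
    omega
  have h1 : 4 * (B1.card : ℤ) ≤ (p : ℤ) ^ (2 * d - 2) := by
    rw [e1] at hpart1
    have : (p : ℤ) ^ 2 * (4 * (B1.card : ℤ)) ≤ (p : ℤ) ^ 2 * (p : ℤ) ^ (2 * d - 2) := by linarith
    exact le_of_mul_le_mul_left this hpp
  have h0 : 4 * (B0.card : ℤ) ≤ (p : ℤ) ^ (2 * d - 2) := by
    have : ((p : ℤ) ^ (d - h)) ^ 2 ≤ (p : ℤ) ^ (2 * d - 2) := by
      rw [← pow_mul]
      exact pow_le_pow_right₀ hp1 (by omega)
    linarith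
  have hfin : (2 * (Nat.card B : ℤ)) ≤ (p : ℤ) ^ (2 * d - 2) := by
    rw [← hcardB]
    push_cast
    linarith
  exact_mod_cast hfin

end Cfsg.Agent.S4710
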