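-- Statement S4500: |G| = p^a q^b r^c with a ≤ 2 has nonprincipal characters of q-power and of
-- r-power degree.  Proof: a non-perfect group has a nonprincipal linear character.  A perfect
-- group is non-solvable, so p divides |G| (Burnside, S0144); the principal p-block has defect
-- a ≤ 2, so all its characters have height zero (Brauer–Feit, S4710), i.e. p'-degree; weak block
-- orthogonality of the columns of 1 and of an element of order p, read modulo q, gives a
-- nonprincipal character of the principal block of degree prime to q, hence of r-power degree.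
import Cfsg.Statements.S4500
import Cfsg.Agent.Lib.Helper79.CharGap
import Cfsg.Agent.Lib.Helper78.BlockOrth
import Cfsg.Agent.Lib.Helper77.Defect
import Cfsg.Agent.Lib.Helper81.CharCore
import Cfsg.Agent.S4710
import Cfsg.Agent.S0144

set_option autoImplicit false
open Cfsg

namespace Cfsg.Agent.S4500

/-- a `p`-modular maximal ideal of the ring of algebraic integers exists -/
theorem s4500_exists_isPModular (p : ℕ) (hp : p.Prime) :
    ∃ M : Ideal Cfsg.AlgInt, Cfsg.IsPModular p M := by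
  have hne : Ideal.span {((p : ℕ) : Cfsg.AlgInt)} ≠ ⊤ := by
    rw [Ne, Ideal.span_singleton_eq_top]
    intro hu
    obtain ⟨v, hv⟩ := hu.exists_right_inv
    have h1 : ((1 : ℕ) : ℂ) = ((p : ℕ) : ℂ) * (v : ℂ) := by
      have := congrArg (integralClosure ℤ ℂ).val hv
      rw [map_mul, map_natCast, map_one] at this
      rw [Nat.cast_one]
      exact this.symm
    have h2 := Cfsg.Agent.Lib.Helper79.nat_dvd_of_eq_mul_isIntegral 1 p hp.ne_zero (v : ℂ) v.2 h1
    have := Nat.le_of_dvd Nat.one_pos h2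
    have := hp.one_lt
    omega
  obtain ⟨M, hM, hle⟩ := Ideal.exists_le_maximal _ hne
  exact ⟨M, hp, hM, hle (Ideal.subset_span rfl)⟩

/-- the `p`-part of the degrees of the principal block has minimum zero -/
theorem s4500_sInf_principal {G : Type*} [Group G] [Finite G] (p : ℕ) (M : Ideal Cfsg.AlgInt)
    (hM : M.IsPrime) :
    sInf ((fun χ : Cfsg.IrrCharacter G => (Cfsg.charDegree (χ : G → ℂ)).factorization p) ''
      (Cfsg.principalBlock M G)) = 0 := by
  apply Nat.sInf_eq_zero.mpr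
  left
  refine ⟨Cfsg.Agent.Lib.Helper77.trivIrr G,
    Cfsg.Agent.Lib.Helper77.trivIrr_mem_principalBlock hM, ?_⟩
  have h1 := (Cfsg.Agent.Lib.Helper79.irr_charDegree (Cfsg.Agent.Lib.Helper77.trivIrr G).2).1
  have h2 : Cfsg.charDegree ((Cfsg.Agent.Lib.Helper77.trivIrr G : Cfsg.IrrCharacter G) : G → ℂ)
      = 1 := by
    have h3 : ((1 : ℕ) : ℂ) = (Cfsg.charDegree
        ((Cfsg.Agent.Lib.Helper77.trivIrr G : Cfsg.IrrCharacter G) : G → ℂ) : ℂ) := by
      rw [← h1, Cfsg.Agent.Lib.Helper77.trivIrr_apply, Nat.cast_one]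
    exact (Nat.cast_injective h3).symm
  show (Cfsg.charDegree ((Cfsg.Agent.Lib.Helper77.trivIrr G : Cfsg.IrrCharacter G) : G → ℂ)).factorization p = 0
  rw [h2]
  simp

/-- the key case: a perfect group of order `p^a q^b r^c`, `a ≤ 2` -/
theorem s4500_key {G : Type*} [Group G] [Finite G] [Nontrivial G] (p q r a b c : ℕ)
    (hp : p.Prime) (hq : q.Prime) (hr : r.Prime) (hpq : p ≠ q) (hpr : p ≠ r) (_hqr : q ≠ r)
    (ha : a ≤ 2) (hG : Nat.card G = p ^ a * q ^ b * r ^ c) (hperf : commutator G = ⊤) :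
    ∃ χ : Cfsg.IrrCharacter G, (χ : G → ℂ) ≠ (fun _ => 1) ∧
      ∃ k : ℕ, Cfsg.charDegree (χ : G → ℂ) = r ^ k := by
  classical
  have hfin := Cfsg.Agent.Lib.Helper81.irr_finite G
  have : Fact p.Prime := ⟨hp⟩
  let _ := Fintype.ofFinite G
  -- `a ≥ 1`
  have ha1 : 1 ≤ a := by
    by_contra h0
    have ha0 : a = 0 := by omega
    have hG' : Nat.card G = q ^ b * r ^ c := by rw [hG, ha0]; simp
    have hsol : Group.IsSolvable G := Cfsg.Agent.S0144.result q r b c hq hr hG'
    have := Group.IsSolvable.commutator_lt_top_of_nontrivial (G := G)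
    exact this.ne hperf
  -- an element of order `p`
  have hpdvd : p ∣ Nat.card G := by
    rw [hG, mul_assoc]
    exact Dvd.dvd.mul_right (dvd_pow_self p (by omega)) _
  obtain ⟨g, hg⟩ := exists_prime_orderOf_dvd_card' p hpdvd
  have hgs : p ∣ orderOf g⁻¹ := by rw [orderOf_inv, hg]
  -- the principal block
  obtain ⟨M, hM⟩ := s4500_exists_isPModular p hp
  have hMp : M.IsPrime := hM.2.1.isPrime
  have hB := Cfsg.Agent.Lib.Helper77.isPBlock_principalBlock (G := G) M
  have hsInf := s4500_sInf_principal (G := G) p M hMp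
  have hfac : (Nat.card G).factorization p = a := by
    rw [hG]
    have h1 : (p ^ a) ≠ 0 := pow_ne_zero _ hp.ne_zero
    have h2 : (q ^ b) ≠ 0 := pow_ne_zero _ hq.ne_zero
    have h3 : (r ^ c) ≠ 0 := pow_ne_zero _ hr.ne_zero
    rw [Nat.factorization_mul (mul_ne_zero h1 h2) h3, Nat.factorization_mul h1 h2]
    simp only [Nat.factorization_pow, Finsupp.coe_add, Finsupp.coe_smul, Pi.add_apply,
      Pi.smul_apply, smul_eq_mul]
    rw [hp.factorization_self,
      Nat.factorization_eq_zero_of_not_dvd (fun h => hpq ((Nat.prime_dvd_prime_iff_eq hp hq).mp h)),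
      Nat.factorization_eq_zero_of_not_dvd (fun h => hpr ((Nat.prime_dvd_prime_iff_eq hp hr).mp h))]
    simp
  have hdef : Cfsg.blockDefect p (Cfsg.principalBlock M G) = a := by
    unfold Cfsg.blockDefect
    rw [hsInf, hfac]
    simp
  have hheight := (Cfsg.Agent.S4710.result p M hM (Cfsg.principalBlock M G) hB a hdef).2
  -- all degrees in the principal block are prime to `p`
  have hpdeg : ∀ χ ∈ Cfsg.principalBlock M G, ¬ p ∣ Cfsg.charDegree (χ : G → ℂ) := by
    intro χ hχ hd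
    have hh : Cfsg.blockHeight p (Cfsg.principalBlock M G) (χ : G → ℂ) = 0 := by
      rcases Nat.lt_or_ge a 2 with h | h
      · exact (hheight χ hχ).1 (by omega)
      · have := (hheight χ hχ).2 h
        omega
    unfold Cfsg.blockHeight at hh
    rw [hsInf, Nat.sub_zero] at hh
    have hpos := (Cfsg.Agent.Lib.Helper79.irr_charDegree χ.2).2.1
    rcases (Nat.factorization_eq_zero_iff _ _).mp hh with h | h | h
    · exact h hp
    · exact h hd
    · omega
  -- block orthogonality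
  have horth := Cfsg.Agent.Lib.Helper78.block_orth_regular_singular hM
    (Cfsg.principalBlock M G) hB (u := (1 : G)) (g := g⁻¹)
    (by rw [orderOf_one]; exact fun h => hp.one_lt.ne' (Nat.dvd_one.mp h)) hgs
  rw [inv_inv] at horth
  have hBfin : (Cfsg.principalBlock M G).Finite := Set.toFinite _
  rw [finsum_mem_eq_finite_toFinset_sum _ hBfin] at horth
  have htriv : Cfsg.Agent.Lib.Helper77.trivIrr G ∈ hBfin.toFinset := by
    rw [Set.Finite.mem_toFinset]
    exact Cfsg.Agent.Lib.Helper77.trivIrr_mem_principalBlock hMp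
  rw [← Finset.add_sum_erase _ _ htriv] at horth
  rw [Cfsg.Agent.Lib.Helper77.trivIrr_apply, Cfsg.Agent.Lib.Helper77.trivIrr_apply, one_mul]
    at horth
  -- some nonprincipal character of the principal block has degree prime to `q`
  have hex : ∃ χ ∈ Cfsg.principalBlock M G, χ ≠ Cfsg.Agent.Lib.Helper77.trivIrr G ∧
      ¬ q ∣ Cfsg.charDegree (χ : G → ℂ) := by
    by_contra hcon
    push Not at hcon
    have hsum : ∃ α : ℂ, IsIntegral ℤ α ∧
        ∑ χ ∈ hBfin.toFinset.erase (Cfsg.Agent.Lib.Helper77.trivIrr G),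
          (χ : G → ℂ) 1 * (χ : G → ℂ) g = (q : ℂ) * α := by
      apply Finset.sum_induction _ (fun z : ℂ => ∃ α : ℂ, IsIntegral ℤ α ∧ z = (q : ℂ) * α)
      · rintro x y ⟨α, hα, rfl⟩ ⟨β, hβ, rfl⟩
        exact ⟨α + β, hα.add hβ, by ring⟩
      · exact ⟨0, isIntegral_zero, by simp⟩
      · intro χ hχ
        rw [Finset.mem_erase, Set.Finite.mem_toFinset] at hχ
        obtain ⟨m, hm⟩ := hcon χ hχ.2 hχ.1
        have h1 := (Cfsg.Agent.Lib.Helper79.irr_charDegree χ.2).1
        refine ⟨(m : ℂ) * (χ : G → ℂ) g, ?_, ?_⟩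
        · have hmi : IsIntegral ℤ ((m : ℕ) : ℂ) := by
            have := isIntegral_algebraMap (R := ℤ) (A := ℂ) (x := (m : ℤ))
            simpa using this
          exact hmi.mul (Cfsg.Agent.Lib.Helper79.irr_isIntegral χ.2 g)
        · rw [h1, hm]
          push_cast
          ring
    obtain ⟨α, hα, hsum'⟩ := hsum
    rw [hsum'] at horth
    have h1 : ((1 : ℕ) : ℂ) = (q : ℂ) * (-α) := by
      rw [Nat.cast_one]
      linear_combination horth
    have h2 := Cfsg.Agent.Lib.Helper79.nat_dvd_of_eq_mul_isIntegral 1 q hq.ne_zero (-α) hα.neg h1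
    have := Nat.le_of_dvd Nat.one_pos h2
    have := hq.one_lt
    omega
  obtain ⟨χ, hχB, hχne, hqχ⟩ := hex
  refine ⟨χ, ?_, ?_⟩
  · intro h
    apply hχne
    apply Subtype.ext
    rw [h]
    rfl
  · have hdvd := (Cfsg.Agent.Lib.Helper79.irr_charDegree χ.2).2.2
    rw [hG] at hdvd
    have hpχ := hpdeg χ hχB
    have hcop1 : Nat.Coprime (Cfsg.charDegree (χ : G → ℂ)) (p ^ a) :=
      Nat.Coprime.pow_right _ ((Nat.Prime.coprime_iff_not_dvd hp).mpr hpχ).symm
    have hcop2 : Nat.Coprime (Cfsg.charDegree (χ : G → ℂ)) (q ^ b) :=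
      Nat.Coprime.pow_right _ ((Nat.Prime.coprime_iff_not_dvd hq).mpr hqχ).symm
    have hdvd2 : Cfsg.charDegree (χ : G → ℂ) ∣ r ^ c :=
      (Nat.Coprime.mul_right hcop1 hcop2).dvd_of_dvd_mul_left hdvd
    obtain ⟨k, -, hk⟩ := (Nat.dvd_prime_pow hr).mp hdvd2
    exact ⟨k, hk⟩

/-- Statement S4500. -/
theorem result {G : Type*} [Group G] [Finite G] [Nontrivial G] (p q r a b c : ℕ) (hp : p.Prime) (hq : q.Prime) (hr : r.Prime) (hpq : p ≠ q) (hpr : p ≠ r) (hqr : q ≠ r) (ha : a ≤ 2) (hG : Nat.card G = p ^ a * q ^ b * r ^ c) : (∃ χ : Cfsg.IrrCharacter G, (χ : G → ℂ) ≠ (fun _ => 1) ∧ ∃ k : ℕ, Cfsg.charDegree (χ : G → ℂ) = q ^ k) ∧ ∃ χ : Cfsg.IrrCharacter G, (χ : G → ℂ) ≠ (fun _ => 1) ∧ ∃ k : ℕ, Cfsg.charDegree (χ : G → ℂ) = r ^ k := by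
  by_cases hperf : commutator G = ⊤
  · refine ⟨?_, s4500_key p q r a b c hp hq hr hpq hpr hqr ha hG hperf⟩
    have hG' : Nat.card G = p ^ a * r ^ c * q ^ b := by rw [hG]; ring
    exact s4500_key p r q a c b hp hr hq hpr hpq (Ne.symm hqr) ha hG' hperf
  · obtain ⟨f, hf⟩ := Cfsg.Agent.Lib.Helper79.exists_hom_ne_one hperf
    have hne := Cfsg.Agent.Lib.Helper79.homIrr_ne_one hf
    have hdeg : Cfsg.charDegree ((Cfsg.Agent.Lib.Helper79.homIrr f : Cfsg.IrrCharacter G) : G → ℂ)
        = 1 := by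
      have h1 := (Cfsg.Agent.Lib.Helper79.irr_charDegree (Cfsg.Agent.Lib.Helper79.homIrr f).2).1
      rw [Cfsg.Agent.Lib.Helper79.homIrr_apply, map_one, Units.val_one] at h1
      have h3 : ((1 : ℕ) : ℂ) = (Cfsg.charDegree
          ((Cfsg.Agent.Lib.Helper79.homIrr f : Cfsg.IrrCharacter G) : G → ℂ) : ℂ) := by
        rw [← h1, Nat.cast_one]
      exact (Nat.cast_injective h3).symm
    exact ⟨⟨_, hne, 0, by rw [hdeg, pow_zero]⟩, ⟨_, hne, 0, by rw [hdeg, pow_zero]⟩⟩

end Cfsg.Agent.S4500
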