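import Mathlib
import Cfsg.Statements.S4505
import Cfsg.Agent.Lib.Helper76.BlockCount

set_option autoImplicit false
open Cfsg

namespace Cfsg.Agent.S4505

/-- Let G be a finite group, p a prime and M a maximal ideal of the algebraic integers containing p. For every σ, the number of p-blocks of defect exactly σ is at most the number of conjugacy classes of p-regular elements whose centralizer has order divisible by p^σ but not by p^(σ+1). -/
theorem result {G : Type*} [Group G] [Finite G] (p : ℕ) [Fact p.Prime] (M : Ideal Cfsg.AlgInt) (hM : Cfsg.IsPModular p M) (σ : ℕ) : Nat.card {B : Set (Cfsg.IrrCharacter G) // Cfsg.IsPBlock M B ∧ Cfsg.blockDefect p B = σ} ≤ Nat.card {C : ConjClasses G // ∃ g : G, ConjClasses.mk g = C ∧ ¬ p ∣ orderOf g ∧ (Nat.card (Subgroup.centralizer ({g} : Set G))).factorization p = σ} := by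
  classical
  let _ := Fintype.ofFinite G
  have hMp := Cfsg.Agent.Lib.Helper16.isPrime_of_isPModular hM
  refine Cfsg.Agent.Lib.Helper76.card_blocks_le_card_classes hM
    (fun B => Cfsg.blockDefect p B = σ)
    (fun g => ¬ p ∣ orderOf g ∧
      (Nat.card (Subgroup.centralizer ({g} : Set G))).factorization p = σ) ?_ ?_
  · rintro x g ⟨h1, h2⟩
    refine ⟨?_, ?_⟩
    · have h3 : orderOf (x * g * x⁻¹) = orderOf g :=
        orderOf_injective (MulAut.conj x).toMonoidHom (MulAut.conj x).injective g
      rw [h3]
      exact h1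
    · rw [Cfsg.Agent.Lib.Helper76.card_centralizer_conj]
      exact h2
  · intro B B' hB hPb hB' hPb' χ hχ g hS
    by_cases hg : p ∣ orderOf g
    · rw [Cfsg.Agent.Lib.Helper77.blockCoeff_eq_zero_of_singular hM B hB hg, zero_mul]
      exact Cfsg.Agent.Lib.Helper16.memLocalIdeal_zero hMp
    · have hne : (Nat.card (Subgroup.centralizer ({g} : Set G))).factorization p ≠ σ :=
        fun h => hS ⟨hg, h⟩
      rcases lt_or_gt_of_ne hne with hlt | hgt
      · have hPb'' : Cfsg.blockDefect p B' = σ := hPb'
        exact Cfsg.Agent.Lib.Helper16.memLocalIdeal_mul_left hMp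
          (Cfsg.Agent.Lib.Helper77.memLocalRing_blockCoeff hMp B hB g)
          (Cfsg.Agent.Lib.Helper76.memLocalIdeal_centralChar_of_defect_lt hM B' hB' χ hχ g
            (by omega))
      · have hPb'' : Cfsg.blockDefect p B = σ := hPb
        exact Cfsg.Agent.Lib.Helper16.memLocalIdeal_mul_right hMp
          (Cfsg.Agent.Lib.Helper76.memLocalIdeal_blockCoeff_of_defect_gt hM B hB g (by omega))
          (Cfsg.Agent.Lib.Helper77.memLocalRing_centralChar hMp χ g)

end Cfsg.Agent.S4505
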