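import Cfsg.Statements.S4506
import Cfsg.Agent.Lib.Helper79.PConj

set_option autoImplicit false
open Cfsg

namespace Cfsg.Agent.S4506

/-- Let G be a finite group, p a prime, p^a the p-part of the order of G and g′ its p′-part. Call two irreducible characters p-conjugate when one is obtained from the other by applying a field automorphism of ℂ that fixes the g′-th roots of unity, and let r be the number of characters p-conjugate to the irreducible character χ (χ included). Then the exponent of p in r·χ(1) is at most a; and if p^a divides r·χ(1) then p^a already divides χ(1). -/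
theorem result {G : Type*} [Group G] [Finite G] (p : ℕ) (hp : p.Prime) (χ : Cfsg.IrrCharacter G) (r : ℕ) (hr : Nat.card {ψ : Cfsg.IrrCharacter G // ∃ σ : ℂ ≃+* ℂ, σ (Complex.exp (2 * Real.pi * Complex.I / ((Nat.card G / p ^ (Nat.card G).factorization p) : ℕ))) = Complex.exp (2 * Real.pi * Complex.I / ((Nat.card G / p ^ (Nat.card G).factorization p) : ℕ)) ∧ (ψ : G → ℂ) = fun g => σ ((χ : G → ℂ) g)} = r) : (r * Cfsg.charDegree (χ : G → ℂ)).factorization p ≤ (Nat.card G).factorization p ∧ (p ^ (Nat.card G).factorization p ∣ r * Cfsg.charDegree (χ : G → ℂ) → p ^ (Nat.card G).factorization p ∣ Cfsg.charDegree (χ : G → ℂ)) := by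
  classical
  let _ : Fintype G := Fintype.ofFinite G
  let _ : Fintype (Cfsg.IrrCharacter G) := Fintype.ofFinite _
  obtain ⟨m, hm⟩ : ∃ m : ℕ, m = Nat.card G / p ^ (Nat.card G).factorization p := ⟨_, rfl⟩
  rw [← hm] at hr
  have hGeq : p ^ (Nat.card G).factorization p * m = Nat.card G := by
    rw [hm]
    exact Nat.ordProj_mul_ordCompl_eq_self (Nat.card G) p
  have hmpos : 0 < m := by
    rcases Nat.eq_zero_or_pos m with h | h
    · rw [h, mul_zero] at hGeq
      exact absurd hGeq.symm Nat.card_pos.ne'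
    · exact h
  have : NeZero m := ⟨hmpos.ne'⟩
  have hη : IsPrimitiveRoot (Complex.exp (2 * Real.pi * Complex.I / (m : ℂ))) m :=
    Complex.isPrimitiveRoot_exp m hmpos.ne'
  obtain ⟨η, hηdef⟩ : ∃ η : ℂ, η = Complex.exp (2 * Real.pi * Complex.I / (m : ℂ)) := ⟨_, rfl⟩
  rw [← hηdef] at hr hη
  obtain ⟨F, hF⟩ : ∃ F : Finset (Cfsg.IrrCharacter G), F = Finset.univ.filter
      (fun ψ : Cfsg.IrrCharacter G => ∃ σ : ℂ ≃+* ℂ, σ η = η ∧
        (ψ : G → ℂ) = fun g => σ ((χ : G → ℂ) g)) := ⟨_, rfl⟩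
  have hmemF : ∀ ψ : Cfsg.IrrCharacter G, ψ ∈ F ↔ ∃ σ : ℂ ≃+* ℂ, σ η = η ∧
      (ψ : G → ℂ) = fun g => σ ((χ : G → ℂ) g) := by
    intro ψ
    rw [hF, Finset.mem_filter]
    simp
  have hFcard : F.card = r := by
    rw [← hr]
    exact (Nat.subtype_card F hmemF).symm
  rw [← hFcard]
  refine Cfsg.Agent.Lib.Helper79.pconj_count p hp χ F ?_ ?_ ?_
  · rw [hmemF]
    exact ⟨RingEquiv.refl ℂ, rfl, rfl⟩
  · intro ψ hψ g hg
    obtain ⟨σ, hσ, hψσ⟩ := (hmemF ψ).mp hψ
    rw [hψσ]
    show σ ((χ : G → ℂ) g) = (χ : G → ℂ) g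
    obtain ⟨n, ρ, -, hρ⟩ := χ.2
    obtain ⟨ι, hι, bb, d, hd, -, hb, -⟩ := Cfsg.Agent.Lib.Helper3.exists_eigen_data ρ g
    rw [← hρ, Representation.character,
      Cfsg.Agent.Lib.Helper3.trace_eq_sum_of_eigenbasis bb _ _ hb, map_sum]
    refine Finset.sum_congr rfl (fun i _ => ?_)
    have hdvd : orderOf g ∣ m := by
      have h1 : orderOf g ∣ p ^ (Nat.card G).factorization p * m := by
        rw [hGeq]
        exact orderOf_dvd_natCard g
      have hcop : (orderOf g).Coprime (p ^ (Nat.card G).factorization p) :=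
        Nat.Coprime.pow_right _ ((Nat.Prime.coprime_iff_not_dvd hp).mpr hg).symm
      exact hcop.dvd_of_dvd_mul_left h1
    obtain ⟨c, hc⟩ := hdvd
    have hdm : d i ^ m = 1 := by rw [hc, pow_mul, hd i, one_pow]
    obtain ⟨e, -, he⟩ := hη.eq_pow_of_pow_eq_one hdm
    rw [← he, map_pow, hσ]
  · intro ψ hψ P _
    obtain ⟨σ, hσ, hψσ⟩ := (hmemF ψ).mp hψ
    obtain ⟨k, hk⟩ := Cfsg.Agent.Lib.Helper79.irr_sum_subgroup χ.2 (P : Subgroup G)
    rw [hψσ]
    show ∑ x : (P : Subgroup G), σ ((χ : G → ℂ) (x : G)) = _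
    rw [← map_sum, hk]
    simp

end Cfsg.Agent.S4506
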