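import Cfsg.Statements.S4508
import Mathlib
import Cfsg.Agent.Lib.Helper73.SelfCentChar

set_option autoImplicit false
open Cfsg

namespace Cfsg.Agent.S4508

open Cfsg.Agent.Lib.Helper73

theorem even_index_of_det {G : Type*} [Group G] [Finite G] {n : ℕ}
    (ρ : Representation ℂ G (Fin n → ℂ)) (g : G) (hg : LinearMap.det (ρ g) = -1) :
    Even (commutator G).index := by
  set δ : G →* ℂ := (LinearMap.det : (Module.End ℂ (Fin n → ℂ)) →* ℂ).comp ρ with hδ
  set δ' : G →* ℂˣ := δ.toHomUnits with hδ'
  have hval : ((δ' g : ℂˣ) : ℂ) = -1 := by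
    rw [hδ', MonoidHom.coe_toHomUnits, hδ]
    exact hg
  have hle : commutator G ≤ δ'.ker := Abelianization.commutator_subset_ker δ'
  have hord : orderOf (δ' g) = 2 := by
    haveI : Fact (Nat.Prime 2) := ⟨Nat.prime_two⟩
    refine orderOf_eq_prime ?_ ?_
    · apply Units.ext
      rw [Units.val_pow_eq_pow_val, hval]
      norm_num
    · intro h
      rw [h, Units.val_one] at hval
      norm_num at hval
  have h2 : 2 ∣ δ'.ker.index := by
    rw [Subgroup.index_ker, ← hord]
    exact Subgroup.orderOf_dvd_natCard _ (MonoidHom.mem_range.mpr ⟨g, rfl⟩)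
  exact even_iff_two_dvd.mpr (dvd_trans h2 (Subgroup.index_dvd_of_le hle))

theorem comm_le_of_index_two {G : Type*} [Group G] (N : Subgroup G) [N.Normal]
    (h : N.index = 2) : commutator G ≤ N := by
  haveI : Fact (Nat.Prime 2) := ⟨Nat.prime_two⟩
  have hcard : Nat.card (G ⧸ N) = 2 := h
  haveI : IsCyclic (G ⧸ N) := isCyclic_of_prime_card hcard
  letI : CommGroup (G ⧸ N) := IsCyclic.commGroup
  have := Abelianization.commutator_subset_ker (QuotientGroup.mk' N)
  rwa [QuotientGroup.ker_mk'] at this

theorem zmod_two_cases (k : ZMod 2) : k = 0 ∨ k = 1 := by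
  revert k
  decide

theorem even_index_two {G : Type*} [Group G] [Finite G] (x : G) (hx : orderOf x = 2)
    (hC : Subgroup.centralizer ({x} : Set G) = Subgroup.zpowers x) :
    Even (commutator G).index := by
  haveI : Fact (Nat.Prime 2) := ⟨Nat.prime_two⟩
  obtain ⟨Q, hQ⟩ := sc_sylow hx hC
  have hx1 : x ≠ 1 := by
    intro h
    rw [h, orderOf_one] at hx
    omega
  have hP : Subgroup.normalizer ((Q : Subgroup G) : Set G) ≤
      Subgroup.centralizer ((Q : Subgroup G) : Set G) := by
    intro g hg
    rw [Subgroup.mem_normalizer_iff] at hg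
    have h1 : g * x * g⁻¹ ∈ Subgroup.zpowers x := by
      have := (hg x).mp (hQ ▸ Subgroup.mem_zpowers x)
      rwa [hQ] at this
    obtain ⟨k, hk⟩ := pz_of_mem_zpowers hx h1
    have hgx : g * x * g⁻¹ = x := by
      have hk2 := zmod_two_cases k
      rcases hk2 with rfl | rfl
      · rw [pz_zero] at hk
        exfalso
        apply hx1
        have : x = g⁻¹ * (g * x * g⁻¹) * g := by group
        rw [this, ← hk]
        group
      · rw [pz_one] at hk
        exact hk.symm
    rw [Subgroup.mem_centralizer_iff]
    intro y hy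
    have hy' : y ∈ Subgroup.zpowers x := by
      have : y ∈ (Q : Subgroup G) := hy
      rwa [hQ] at this
    obtain ⟨m, rfl⟩ := Subgroup.mem_zpowers_iff.mp hy'
    have hcomm : Commute g x := by
      have : g * x = g * x * g⁻¹ * g := by group
      rw [hgx] at this
      exact this
    exact (hcomm.zpow_right m).eq.symm
  have hcompl := MonoidHom.ker_transferSylow_isComplement' Q hP
  have hidx : (MonoidHom.transferSylow Q hP).ker.index = 2 := by
    rw [hcompl.symm.index_eq_card, hQ, Nat.card_zpowers, hx]
  have hle := comm_le_of_index_two (MonoidHom.transferSylow Q hP).ker hidx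
  have := Subgroup.index_dvd_of_le hle
  rw [hidx] at this
  exact even_iff_two_dvd.mpr this

/-- Let the finite group G contain an element x of prime order p with C_G(x) = ⟨x⟩, and let t be the number of conjugacy classes of elements of order p. If G has an irreducible character of degree p − 1, then t is even or the commutator subgroup has even index. -/
theorem result {G : Type*} [Group G] [Finite G] (p : ℕ) (hp : p.Prime) (x : G) (hx : orderOf x = p) (hC : Subgroup.centralizer ({x} : Set G) = Subgroup.zpowers x) (t : ℕ) (ht : Nat.card {C : ConjClasses G // ∃ g ∈ C.carrier, orderOf g = p} = t) (χ : Cfsg.IrrCharacter G) (hχ : Cfsg.charDegree (χ : G → ℂ) + 1 = p) : Even t ∨ Even (commutator G).index := by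
  haveI : Fact p.Prime := ⟨hp⟩
  by_cases h2 : p = 2
  · right
    subst h2
    exact even_index_two x hx hC
  · by_cases hte : Even t
    · exact Or.inl hte
    · right
      have hto : Odd t := Nat.not_even_iff_odd.mp hte
      obtain ⟨n, ρ, hirr, hρ⟩ := χ.2
      have hn : n + 1 = p := by
        rw [← hχ, ← hρ, Cfsg.Agent.Lib.Helper78.charDegree_fin]
      have hirrc : Cfsg.IsIrrCharacter G ρ.character := ⟨n, ρ, hirr, rfl⟩
      have hcount := sc_count hx hC
      rw [ht] at hcount
      have hpodd : Odd p := hp.odd_of_ne_two h2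
      have hev : Even (p - 1) := by
        obtain ⟨m, hm⟩ := hpodd
        exact ⟨m, by omega⟩
      have he : Even (Nat.card (scE x (sc_pow_p hx))) := by
        rw [← hcount, Nat.even_mul] at hev
        rcases hev with h | h
        · exact h
        · exact absurd h hte
      obtain ⟨g, hg⟩ := sc_det hx hC ρ hirrc hn he t hto hcount
      exact even_index_of_det ρ g hg

end Cfsg.Agent.S4508
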