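import Cfsg.Statements.S4509
import Cfsg.Agent.Lib.Helper75.SelfCent2

set_option autoImplicit false
open Cfsg

namespace Cfsg.Agent.S4509

/-- Let the finite group G contain an element x of prime order p with C_G(x) = ⟨x⟩; let t be the number of conjugacy classes of elements of order p and 1 + n·p the number of subgroups of order p. Then G has a normal subgroup of order 1 + n·p if and only if either t = p − 1, or t < p − 1 and G″ ≠ G′. Moreover, if t = p − 1 then G′ has order 1 + n·p and G/G′ is cyclic of order p; and if t < p − 1 and G″ ≠ G′ then G″ has order 1 + n·p and G′ has order p·(1 + n·p). -/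
theorem result {G : Type*} [Group G] [Finite G] (p : ℕ) (hp : p.Prime) (x : G) (hx : orderOf x = p) (hC : Subgroup.centralizer ({x} : Set G) = Subgroup.zpowers x) (t : ℕ) (ht : Nat.card {C : ConjClasses G // ∃ g ∈ C.carrier, orderOf g = p} = t) (n : ℕ) (hn : Nat.card {H : Subgroup G // Nat.card H = p} = 1 + n * p) : ((∃ S : Subgroup G, S.Normal ∧ Nat.card S = 1 + n * p) ↔ (t = p - 1 ∨ (t < p - 1 ∧ derivedSeries G 2 ≠ derivedSeries G 1))) ∧ (t = p - 1 → Nat.card (commutator G) = 1 + n * p ∧ IsCyclic (G ⧸ commutator G) ∧ (commutator G).index = p) ∧ (t < p - 1 → derivedSeries G 2 ≠ derivedSeries G 1 → Nat.card (derivedSeries G 2) = 1 + n * p ∧ Nat.card (commutator G) = p * (1 + n * p)) := by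
  have h : Cfsg.Agent.Lib.Helper75.SC p x := ⟨hp, hx, hC⟩
  have hcl := h.card_classes
  rw [ht] at hcl
  have hp2 := hp.two_le
  have hsub := h.card_subgroups
  rw [hn] at hsub
  have hpos := h.relIndex_pos
  have he_iff : t = p - 1 ↔
      (Subgroup.zpowers x).relIndex (Subgroup.normalizer (Subgroup.zpowers x : Set G)) = 1 := by
    constructor
    · intro heq
      rw [heq] at hcl
      have h0 : 0 < p - 1 := by omega
      exact Nat.eq_of_mul_eq_mul_left h0 (by rw [hcl, mul_one])
    · intro h1
      rw [h1, mul_one] at hcl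
      exact hcl
  have part2 : t = p - 1 → Nat.card (commutator G) = 1 + n * p ∧ IsCyclic (G ⧸ commutator G) ∧
      (commutator G).index = p := by
    intro heq
    have he := he_iff.1 heq
    have h1 := h.card_commutator_of_relIndex_eq_one he
    have h2 := (h.commutator_of_relIndex_eq_one he).1
    refine ⟨by rw [h1.1, ← hsub], ?_, h2⟩
    haveI : Fact p.Prime := ⟨hp⟩
    exact isCyclic_of_prime_card (p := p) (by rw [← Subgroup.index_eq_card, h2])
  have part3 : t < p - 1 → derivedSeries G 2 ≠ derivedSeries G 1 →
      Nat.card (derivedSeries G 2) = 1 + n * p ∧ Nat.card (commutator G) = p * (1 + n * p) := by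
    intro hlt hne
    have he : (Subgroup.zpowers x).relIndex (Subgroup.normalizer (Subgroup.zpowers x : Set G)) ≠ 1 := by
      intro h1
      have := he_iff.2 h1
      omega
    have h3 := h.derived_two he hne
    rw [hn] at h3
    exact h3
  refine ⟨⟨?_, ?_⟩, part2, part3⟩
  · rintro ⟨S, hSn, hS⟩
    by_cases heq : t = p - 1
    · left; exact heq
    · right
      have he : (Subgroup.zpowers x).relIndex (Subgroup.normalizer (Subgroup.zpowers x : Set G)) ≠ 1 :=
        fun h1 => heq (he_iff.2 h1)
      have hle : t ≤ p - 1 := by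
        calc t = t * 1 := (mul_one t).symm
          _ ≤ t * (Subgroup.zpowers x).relIndex (Subgroup.normalizer (Subgroup.zpowers x : Set G)) :=
            Nat.mul_le_mul_left t hpos
          _ = p - 1 := hcl
      refine ⟨by omega, ?_⟩
      have hSp : ¬ p ∣ Nat.card S := by
        rw [hS]
        intro hd
        have h1 : p ∣ 1 := (Nat.dvd_add_left (Dvd.intro_left n rfl)).1 hd
        exact hp.one_lt.ne' (Nat.dvd_one.1 h1)
      exact h.derived_ne_of_normal he S (by rw [hS, hsub]) hSp
  · rintro (heq | ⟨hlt, hne⟩)
    · exact ⟨commutator G, inferInstance, (part2 heq).1⟩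
    · exact ⟨derivedSeries G 2, derivedSeries_normal G 2, (part3 hlt hne).1⟩

end Cfsg.Agent.S4509
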