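import Mathlib
import Cfsg.Statements.S4510
import Cfsg.Agent.Lib.Helper76.BlockCount

set_option autoImplicit false
open Cfsg

namespace Cfsg.Agent.S4510

/-- Let G be a finite group, p a prime, M a maximal ideal of the algebraic integers containing p, and call the defect of a conjugacy class the exponent of p in the order of the centralizer of its elements. Two irreducible characters lying in p-blocks of defect exactly d lie in the same block if and only if their central characters (class size times χ(x)/χ(1)) agree modulo the local ideal at M at every p-regular element x whose class has defect exactly d. -/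
theorem result {G : Type*} [Group G] [Finite G] (p : ℕ) [Fact p.Prime] (M : Ideal Cfsg.AlgInt) (hM : Cfsg.IsPModular p M) (d : ℕ) (χ ψ : Cfsg.IrrCharacter G) (hχ : Cfsg.blockDefect p (Cfsg.blockOf M (χ : G → ℂ)) = d) (hψ : Cfsg.blockDefect p (Cfsg.blockOf M (ψ : G → ℂ)) = d) : Cfsg.SameBlock M (χ : G → ℂ) (ψ : G → ℂ) ↔ ∀ x : G, ¬ p ∣ orderOf x → (Nat.card (Subgroup.centralizer ({x} : Set G))).factorization p = d → Cfsg.MemLocalIdeal M (Cfsg.centralChar (χ : G → ℂ) x - Cfsg.centralChar (ψ : G → ℂ) x) := by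
  classical
  let _ := Fintype.ofFinite G
  have hMp := Cfsg.Agent.Lib.Helper16.isPrime_of_isPModular hM
  refine ⟨fun h x _ _ => h x, fun h => ?_⟩
  set B := Cfsg.blockOf M (χ : G → ℂ) with hBdef
  set B' := Cfsg.blockOf M (ψ : G → ℂ) with hB'def
  have hB : Cfsg.IsPBlock M B := Cfsg.Agent.Lib.Helper16.isPBlock_blockOf χ
  have hB' : Cfsg.IsPBlock M B' := Cfsg.Agent.Lib.Helper16.isPBlock_blockOf ψ
  have hχB : χ ∈ B := Cfsg.Agent.Lib.Helper16.mem_blockOf_self hMp χ
  have hψB' : ψ ∈ B' := Cfsg.Agent.Lib.Helper16.mem_blockOf_self hMp ψ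
  obtain ⟨hR, hcf, hom⟩ := Cfsg.Agent.Lib.Helper77.blockCoeff_spec hMp B hB
  have h1 := hom χ
  have h2 := hom ψ
  rw [if_pos hχB] at h1
  by_contra hnot
  have hψB : ψ ∉ B := fun hmem => hnot hmem
  rw [if_neg hψB] at h2
  have hdiff : Cfsg.MemLocalIdeal M (∑ g : G, (Cfsg.blockCoeff B g * (χ : G → ℂ) g / (χ : G → ℂ) 1 -
      Cfsg.blockCoeff B g * (ψ : G → ℂ) g / (ψ : G → ℂ) 1)) := by
    refine Cfsg.Agent.Lib.Helper16.sum_class_invariant_mem (Cfsg.MemLocalIdeal M)
      (Cfsg.Agent.Lib.Helper16.memLocalIdeal_zero hMp)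
      (fun a b ha hb => Cfsg.Agent.Lib.Helper16.memLocalIdeal_add hMp ha hb)
      (fun g => Cfsg.blockCoeff B g * (χ : G → ℂ) g / (χ : G → ℂ) 1 -
        Cfsg.blockCoeff B g * (ψ : G → ℂ) g / (ψ : G → ℂ) 1) ?_ ?_ Finset.univ
      (fun _ _ _ => Finset.mem_univ _)
    · intro x g
      simp only [hcf g x, Cfsg.Agent.Lib.Helper16.irrCharacter_conj_eq]
    · intro g
      have e : ((Subgroup.centralizer ({g} : Set G)).index : ℂ) *
          (Cfsg.blockCoeff B g * (χ : G → ℂ) g / (χ : G → ℂ) 1 -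
            Cfsg.blockCoeff B g * (ψ : G → ℂ) g / (ψ : G → ℂ) 1) =
          Cfsg.blockCoeff B g * (Cfsg.centralChar (χ : G → ℂ) g - Cfsg.centralChar (ψ : G → ℂ) g) := by
        unfold Cfsg.centralChar
        ring
      rw [e]
      by_cases hg : p ∣ orderOf g
      · rw [Cfsg.Agent.Lib.Helper77.blockCoeff_eq_zero_of_singular hM B hB hg, zero_mul]
        exact Cfsg.Agent.Lib.Helper16.memLocalIdeal_zero hMp
      · rcases lt_trichotomy ((Nat.card (Subgroup.centralizer ({g} : Set G))).factorization p) d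
          with hlt | heq | hgt
        · refine Cfsg.Agent.Lib.Helper16.memLocalIdeal_mul_left hMp (hR g) ?_
          exact Cfsg.Agent.Lib.Helper16.memLocalIdeal_sub hMp
            (Cfsg.Agent.Lib.Helper76.memLocalIdeal_centralChar_of_defect_lt hM B hB χ hχB g
              (by rw [hχ]; exact hlt))
            (Cfsg.Agent.Lib.Helper76.memLocalIdeal_centralChar_of_defect_lt hM B' hB' ψ hψB' g
              (by rw [hψ]; exact hlt))
        · exact Cfsg.Agent.Lib.Helper16.memLocalIdeal_mul_left hMp (hR g) (h g hg heq)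
        · refine Cfsg.Agent.Lib.Helper16.memLocalIdeal_mul_right hMp
            (Cfsg.Agent.Lib.Helper76.memLocalIdeal_blockCoeff_of_defect_gt hM B hB g
              (by rw [hχ]; exact hgt)) ?_
          exact Cfsg.Agent.Lib.Helper16.memLocalRing_sub hMp
            (Cfsg.Agent.Lib.Helper77.memLocalRing_centralChar hMp χ g)
            (Cfsg.Agent.Lib.Helper77.memLocalRing_centralChar hMp ψ g)
  have hval : (∑ g : G, (Cfsg.blockCoeff B g * (χ : G → ℂ) g / (χ : G → ℂ) 1 -
      Cfsg.blockCoeff B g * (ψ : G → ℂ) g / (ψ : G → ℂ) 1)) = 1 := by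
    unfold Cfsg.Agent.Lib.Helper77.omegaF at h1 h2
    rw [Finset.sum_sub_distrib, ← Finset.sum_div, ← Finset.sum_div, h1, h2, sub_zero]
  rw [hval] at hdiff
  exact Cfsg.Agent.Lib.Helper16.not_memLocalIdeal_one hMp hdiff

end Cfsg.Agent.S4510
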