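import Cfsg.Statements.S4513
import Mathlib
import Cfsg.Agent.Lib.Helper76.DefectOne
import Cfsg.Agent.Lib.Helper77.Degree
import Cfsg.Agent.Lib.Helper77.Defect
import Cfsg.Agent.S4511
import Cfsg.Agent.S0917
import Cfsg.Agent.S0931
import Cfsg.Agent.S0923

set_option autoImplicit false
open Cfsg

namespace Cfsg.Agent.S4513

open Cfsg.Agent.Lib.Helper16 Cfsg.Agent.Lib.Helper76 Cfsg.Agent.Lib.Helper77 Cfsg.Agent.Lib.Helper81

/-- Blocks of defect one for p = 2. Let M be a maximal ideal of the algebraic integers containing 2, B a 2-block of the finite group G whose defect group is the subgroup generated by an involution x, C = C_G(x), b a block of C inducing B and θ a member of b taking the same value at x as at 1 (there is exactly one). Then B consists of exactly two irreducible characters, which agree on every element of odd order, and they can be labelled χ₁, χ₂ with signs ε₁, ε₂ = ±1, ε₁ε₂ = −1, such that χᵢ(x y) = εᵢ θ(y) for every element y of C of odd order.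 -/
theorem result {G : Type*} [Group G] [Finite G] (M : Ideal Cfsg.AlgInt) (hM : Cfsg.IsPModular 2 M) (x : G) (hx : orderOf x = 2)
    (B : Set (Cfsg.IrrCharacter G)) (hB : Cfsg.IsPBlock M B) (hBD : Cfsg.IsDefectGroup 2 M B (Subgroup.zpowers x))
    (b : Set (Cfsg.IrrCharacter ↥(Subgroup.centralizer ({x} : Set G)))) (hb : Cfsg.IsInducedBlock M (Subgroup.centralizer ({x} : Set G)) b B)
    (θ : Cfsg.IrrCharacter ↥(Subgroup.centralizer ({x} : Set G))) (hθ : θ ∈ b)
    (hθx : ∀ z : ↥(Subgroup.centralizer ({x} : Set G)), (z : G) = x → (θ : ↥(Subgroup.centralizer ({x} : Set G)) → ℂ) z = (θ : ↥(Subgroup.centralizer ({x} : Set G)) → ℂ) 1) :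
    Nat.card B = 2 ∧ (∀ χ ∈ B, ∀ ψ ∈ B, ∀ g : G, ¬ 2 ∣ orderOf g → (χ : G → ℂ) g = (ψ : G → ℂ) g) ∧
      ∃ χ₁ ∈ B, ∃ χ₂ ∈ B, χ₁ ≠ χ₂ ∧ ∃ ε₁ ε₂ : ℤ, (ε₁ = 1 ∨ ε₁ = -1) ∧ (ε₂ = 1 ∨ ε₂ = -1) ∧ ε₁ * ε₂ = -1 ∧
        ∀ y : ↥(Subgroup.centralizer ({x} : Set G)), ¬ 2 ∣ orderOf y →
          (χ₁ : G → ℂ) (x * y) = (ε₁ : ℂ) * (θ : ↥(Subgroup.centralizer ({x} : Set G)) → ℂ) y ∧ (χ₂ : G → ℂ) (x * y) = (ε₂ : ℂ) * (θ : ↥(Subgroup.centralizer ({x} : Set G)) → ℂ) y := by
  classical
  haveI : Fact (Nat.Prime 2) := ⟨Nat.prime_two⟩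
  letI : Fintype G := Fintype.ofFinite G
  have hP := isPrime_of_isPModular hM
  letI : Fintype (Subgroup.centralizer ({x} : Set G)) := Fintype.ofFinite _
  have := Cfsg.Agent.Lib.Helper81.irr_finite G
  letI : Fintype (Cfsg.IrrCharacter G) := Fintype.ofFinite _
  have := Cfsg.Agent.Lib.Helper81.irr_finite (Subgroup.centralizer ({x} : Set G))
  letI : Fintype (Cfsg.IrrCharacter (Subgroup.centralizer ({x} : Set G))) := Fintype.ofFinite _
  have hxp : ∃ k : ℕ, orderOf x = 2 ^ k := ⟨1, by rw [hx, pow_one]⟩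
  -- the defects
  have hcardD := card_isDefectGroup hM B hB _ hBD
  have hdB : Cfsg.blockDefect 2 B = 1 := by
    rw [Nat.card_zpowers, hx] at hcardD
    have h2 : (2 : ℕ) ^ 1 = 2 ^ Cfsg.blockDefect 2 B := by rw [pow_one]; exact hcardD
    exact (Nat.pow_right_injective (le_refl 2) h2).symm
  obtain ⟨Db, hDb⟩ := exists_isDefectGroup 2 hP b hb.1
  obtain ⟨E, hE, hDE⟩ := Cfsg.Agent.S0917.result 2 M hM _ b hb.1 B hB hb Db hDb
  have hcardE := card_isDefectGroup hM B hB E hE
  have hcardDb := card_isDefectGroup hM b hb.1 Db hDb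
  have hdb : Cfsg.blockDefect 2 b = 1 := by
    have h1 : Nat.card (Db.map (Subgroup.centralizer ({x} : Set G)).subtype) ≤ Nat.card E :=
      Subgroup.card_le_of_le hDE
    rw [Subgroup.card_map_of_injective (Subgroup.subtype_injective _), hcardDb, hcardE, hdB] at h1
    have h2 : Cfsg.blockDefect 2 b ≤ 1 := (Nat.pow_le_pow_iff_right (by norm_num)).mp h1
    have h3 := Cfsg.Agent.S0931.result 2 M hM _ b B hb
    have h4 : Cfsg.blockDefect 2 b ≠ 0 := by
      intro h
      rw [h3.mp h] at hdB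
      exact zero_ne_one hdB
    omega
  obtain ⟨χ₁, χ₂, hne, hBeq, hreg, hsing⟩ := defect_one_two hM B hB hdB
  obtain ⟨θ₁, θ₂, hne', hbeq, hreg', hsing'⟩ := defect_one_two hM b hb.1 hdb
  have hcardB : Nat.card B = 2 := by
    rw [hBeq, Nat.card_coe_set_eq, Set.ncard_pair hne]
  have hχ₁B : χ₁ ∈ B := by rw [hBeq]; exact Set.mem_insert _ _
  have hχ₂B : χ₂ ∈ B := by rw [hBeq]; exact Set.mem_insert_of_mem _ rfl
  have hrankb : Cfsg.blockRank 2 b = 1 := by
    rw [hbeq]; exact blockRank_pair_eq_one Nat.prime_two θ₁ θ₂ hreg'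
  have hrankB : Cfsg.blockRank 2 B = 1 := by
    rw [hBeq]; exact blockRank_pair_eq_one Nat.prime_two χ₁ χ₂ hreg
  -- uniqueness of the block of the centralizer inducing `B`
  have huniq : ∀ b' : Set (Cfsg.IrrCharacter (Subgroup.centralizer ({x} : Set G))),
      Cfsg.IsInducedBlock M (Subgroup.centralizer ({x} : Set G)) b' B → b' = b := by
    intro b' hb'
    by_contra hne2
    obtain ⟨X, hxX, hX, hXrep⟩ := exists_section_reps 2 x hxp
    have hcount := Cfsg.Agent.S4511.result 2 M hM B hB X hX hXrep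
    rw [hcardB] at hcount
    have h1X : (1 : G) ∈ X := by
      obtain ⟨y, ⟨hy, hc⟩, -⟩ := hXrep 1 ⟨0, by simp⟩
      rw [isConj_one_right.mp hc] at hy
      exact hy
    have hx1 : x ≠ 1 := by
      intro h; rw [h, orderOf_one] at hx; norm_num at hx
    have hN1 := induced_count_at_one hM B hB
    rw [hrankB] at hN1
    rw [← Finset.add_sum_erase X _ h1X, hN1] at hcount
    have hle : (∑ᶠ b ∈ {b : Set (Cfsg.IrrCharacter ↥(Subgroup.centralizer ({x} : Set G))) |
        Cfsg.IsInducedBlock M (Subgroup.centralizer ({x} : Set G)) b B}, Cfsg.blockRank 2 b) ≤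
        ∑ x' ∈ X.erase 1, ∑ᶠ b ∈ {b : Set (Cfsg.IrrCharacter ↥(Subgroup.centralizer ({x'} : Set G))) |
          Cfsg.IsInducedBlock M (Subgroup.centralizer ({x'} : Set G)) b B}, Cfsg.blockRank 2 b :=
      Finset.single_le_sum (f := fun x' : G =>
        ∑ᶠ b ∈ {b : Set (Cfsg.IrrCharacter ↥(Subgroup.centralizer ({x'} : Set G))) |
          Cfsg.IsInducedBlock M (Subgroup.centralizer ({x'} : Set G)) b B}, Cfsg.blockRank 2 b)
        (fun i _ => Nat.zero_le _) (Finset.mem_erase.mpr ⟨hx1, hxX⟩)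
    have hfin : ({b : Set (Cfsg.IrrCharacter ↥(Subgroup.centralizer ({x} : Set G))) |
        Cfsg.IsInducedBlock M (Subgroup.centralizer ({x} : Set G)) b B}).Finite := Set.toFinite _
    have h2 : 2 ≤ ∑ᶠ b ∈ {b : Set (Cfsg.IrrCharacter ↥(Subgroup.centralizer ({x} : Set G))) |
        Cfsg.IsInducedBlock M (Subgroup.centralizer ({x} : Set G)) b B}, Cfsg.blockRank 2 b := by
      rw [finsum_mem_eq_finite_toFinset_sum _ hfin]
      have hsub : ({b', b} : Finset (Set (Cfsg.IrrCharacter ↥(Subgroup.centralizer ({x} : Set G))))) ⊆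
          hfin.toFinset := by
        intro c hc
        rw [Finset.mem_insert, Finset.mem_singleton] at hc
        rw [Set.Finite.mem_toFinset]
        rcases hc with rfl | rfl
        · exact hb'
        · exact hb
      refine le_trans ?_ (Finset.sum_le_sum_of_subset hsub)
      rw [Finset.sum_pair hne2]
      have := blockRank_pos Nat.prime_two hP b' hb'.1
      have := blockRank_pos Nat.prime_two hP b hb.1
      omega
    omega
  -- class functions on the centralizer
  have hcf : ∀ χ : Cfsg.IrrCharacter G,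
      Cfsg.IsClassFunction (Subgroup.centralizer ({x} : Set G))
        (fun c : Subgroup.centralizer ({x} : Set G) => (χ : G → ℂ) (x * (c : G))) := by
    intro χ c h
    show (χ : G → ℂ) (x * ((h * c * h⁻¹ : Subgroup.centralizer ({x} : Set G)) : G)) =
      (χ : G → ℂ) (x * (c : G))
    have hh : x * (h : G) = (h : G) * x := by
      have := h.2
      rw [Subgroup.mem_centralizer_iff] at this
      exact this x rfl
    have e : x * ((h * c * h⁻¹ : Subgroup.centralizer ({x} : Set G)) : G) =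
        (h : G) * (x * (c : G)) * (h : G)⁻¹ := by
      push_cast
      rw [← mul_assoc, ← mul_assoc, hh, ← mul_assoc]
    rw [e, irr_conj_class χ _ _]
  -- second main theorem: only `b` contributes
  have hexp : ∀ y : Subgroup.centralizer ({x} : Set G), ¬ 2 ∣ orderOf y →
      (χ₁ : G → ℂ) (x * (y : G)) = Cfsg.blockPart b
        (fun c : Subgroup.centralizer ({x} : Set G) => (χ₁ : G → ℂ) (x * (c : G))) y := by
    intro y hy
    have h1 := classFun_eq_sum_blockPart (M := M) hP _ (hcf χ₁) y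
    refine h1.trans (Finset.sum_eq_single b ?_ ?_)
    · intro b' hb'mem hb'ne
      rw [Finset.mem_image] at hb'mem
      obtain ⟨ψ₀, -, rfl⟩ := hb'mem
      exact Cfsg.Agent.S0923.result 2 M hM x hxp B hB χ₁ hχ₁B _ (isPBlock_blockOf ψ₀)
        (fun h => hb'ne (huniq _ h)) y hy
    · intro h
      exfalso
      apply h
      rw [Finset.mem_image]
      exact ⟨θ, Finset.mem_univ _, (IsPBlock.eq_blockOf hP hb.1 hθ).symm⟩
  have hbp : ∀ (ϑ : Subgroup.centralizer ({x} : Set G) → ℂ)
      (y : Subgroup.centralizer ({x} : Set G)), ¬ 2 ∣ orderOf y →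
      Cfsg.blockPart b ϑ y = (Cfsg.classInner ϑ (θ₁ : Subgroup.centralizer ({x} : Set G) → ℂ) +
        Cfsg.classInner ϑ (θ₂ : Subgroup.centralizer ({x} : Set G) → ℂ)) *
        (θ₁ : Subgroup.centralizer ({x} : Set G) → ℂ) y := by
    intro ϑ y hy
    unfold Cfsg.blockPart
    rw [hbeq, finsum_mem_pair hne', ← hreg' y hy]
    ring
  obtain ⟨e₁, he₁⟩ : ∃ e₁ : ℂ, e₁ = Cfsg.classInner
      (fun c : Subgroup.centralizer ({x} : Set G) => (χ₁ : G → ℂ) (x * (c : G)))
      (θ₁ : Subgroup.centralizer ({x} : Set G) → ℂ) + Cfsg.classInner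
      (fun c : Subgroup.centralizer ({x} : Set G) => (χ₁ : G → ℂ) (x * (c : G)))
      (θ₂ : Subgroup.centralizer ({x} : Set G) → ℂ) := ⟨_, rfl⟩
  have hval₁ : ∀ y : Subgroup.centralizer ({x} : Set G), ¬ 2 ∣ orderOf y →
      (χ₁ : G → ℂ) (x * (y : G)) = e₁ * (θ₁ : Subgroup.centralizer ({x} : Set G) → ℂ) y := by
    intro y hy
    rw [hexp y hy, hbp _ y hy, he₁]
  have hxx : x * x = 1 := by
    have := pow_orderOf_eq_one x
    rw [hx, pow_two] at this
    exact this
  have hxinv : x⁻¹ = x := inv_eq_of_mul_eq_one_left hxx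
  have hsingxy : ∀ y : Subgroup.centralizer ({x} : Set G), ¬ 2 ∣ orderOf y →
      2 ∣ orderOf (x * (y : G)) := by
    intro y hy
    by_contra hcon
    have hyc : Commute x (y : G) := by
      have := y.2
      rw [Subgroup.mem_centralizer_iff] at this
      exact this x rfl
    have hy' : ¬ 2 ∣ orderOf (y : G) := by rwa [Subgroup.orderOf_coe]
    have h1 : (x * (y : G)) ^ (orderOf (y : G) * orderOf (x * (y : G))) = 1 := by
      rw [pow_mul', pow_orderOf_eq_one, one_pow]
    rw [hyc.mul_pow, pow_mul (y : G), pow_orderOf_eq_one, one_pow, mul_one] at h1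
    have h2 := orderOf_dvd_of_pow_eq_one h1
    rw [hx] at h2
    rcases (Nat.Prime.dvd_mul Nat.prime_two).mp h2 with h | h
    · exact hy' h
    · exact hcon h
  have hval₂ : ∀ y : Subgroup.centralizer ({x} : Set G), ¬ 2 ∣ orderOf y →
      (χ₂ : G → ℂ) (x * (y : G)) = -e₁ * (θ₁ : Subgroup.centralizer ({x} : Set G) → ℂ) y := by
    intro y hy
    have h1 := hsing (x * (y : G)) (hsingxy y hy)
    rw [hval₁ y hy] at h1
    linear_combination h1
  -- the norm identity
  have hcnt := block_count_section hM B hB x hxp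
  have hset : {b' : Set (Cfsg.IrrCharacter ↥(Subgroup.centralizer ({x} : Set G))) |
      Cfsg.IsInducedBlock M (Subgroup.centralizer ({x} : Set G)) b' B} = {b} := by
    ext b'
    simp only [Set.mem_ofPred_eq, Set.mem_singleton_iff]
    exact ⟨huniq b', fun h => h ▸ hb⟩
  rw [hset, finsum_mem_singleton, hrankb, hBeq, finsum_mem_pair hne] at hcnt
  simp_rw [finsum_eq_sum_of_fintype] at hcnt
  have hterm : ∀ (χ : Cfsg.IrrCharacter G) (e : ℂ),
      (∀ y : Subgroup.centralizer ({x} : Set G), ¬ 2 ∣ orderOf y →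
        (χ : G → ℂ) (x * (y : G)) = e * (θ₁ : Subgroup.centralizer ({x} : Set G) → ℂ) y) →
      ∑ s : Subgroup.centralizer ({x} : Set G), (if 2 ∣ orderOf s then 0 else
        (χ : G → ℂ) (x * (s : G)) * (χ : G → ℂ) (x * (s : G))⁻¹) =
      e ^ 2 * ∑ s : Subgroup.centralizer ({x} : Set G), (if 2 ∣ orderOf s then 0 else
        (θ₁ : Subgroup.centralizer ({x} : Set G) → ℂ) s *
          (θ₁ : Subgroup.centralizer ({x} : Set G) → ℂ) s⁻¹) := by
    intro χ e hχe
    rw [Finset.mul_sum]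
    refine Finset.sum_congr rfl fun s _ => ?_
    by_cases hs : 2 ∣ orderOf s
    · simp only [if_pos hs, mul_zero]
    · simp only [if_neg hs]
      have hs' : ¬ 2 ∣ orderOf s⁻¹ := by rwa [orderOf_inv]
      have hsc : Commute x (s : G) := by
        have := s.2
        rw [Subgroup.mem_centralizer_iff] at this
        exact this x rfl
      have e1 : (x * (s : G))⁻¹ = x * ((s⁻¹ : Subgroup.centralizer ({x} : Set G)) : G) := by
        rw [mul_inv_rev, hxinv]
        push_cast
        exact (hsc.inv_right).symm.eq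
      rw [e1, hχe s hs, hχe s⁻¹ hs']
      ring
  rw [hterm χ₁ e₁ hval₁, hterm χ₂ (-e₁) hval₂] at hcnt
  have hT : (2 : ℂ) * ∑ s : Subgroup.centralizer ({x} : Set G), (if 2 ∣ orderOf s then 0 else
      (θ₁ : Subgroup.centralizer ({x} : Set G) → ℂ) s *
        (θ₁ : Subgroup.centralizer ({x} : Set G) → ℂ) s⁻¹) =
      (Nat.card (Subgroup.centralizer ({x} : Set G)) : ℂ) := by
    have h1 := irr_orth θ₁ θ₁
    have h2 := irr_orth θ₂ θ₁
    rw [if_pos rfl] at h1
    rw [if_neg hne'.symm] at h2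
    have h3 : ∑ s : Subgroup.centralizer ({x} : Set G), (θ₁.1 s + θ₂.1 s) * θ₁.1 s⁻¹ =
        (Nat.card (Subgroup.centralizer ({x} : Set G)) : ℂ) := by
      simp_rw [add_mul]
      rw [Finset.sum_add_distrib, h1, h2, add_zero]
    rw [← h3, Finset.mul_sum]
    refine Finset.sum_congr rfl fun s _ => ?_
    by_cases hs : 2 ∣ orderOf s
    · rw [if_pos hs, hsing' s hs]
      ring
    · rw [if_neg hs, ← hreg' s hs]
      ring
  have hC0 : (Nat.card (Subgroup.centralizer ({x} : Set G)) : ℂ) ≠ 0 := by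
    exact_mod_cast Nat.card_pos.ne'
  have he2 : e₁ ^ 2 = 1 := by
    have h3 : e₁ ^ 2 * (Nat.card (Subgroup.centralizer ({x} : Set G)) : ℂ) =
        (Nat.card (Subgroup.centralizer ({x} : Set G)) : ℂ) := by
      rw [← hT]
      rw [← hT] at hcnt
      push_cast at hcnt
      linear_combination hcnt
    have h4 : (e₁ ^ 2 - 1) * (Nat.card (Subgroup.centralizer ({x} : Set G)) : ℂ) = 0 := by
      linear_combination h3
    rcases mul_eq_zero.mp h4 with h | h
    · linear_combination h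
    · exact absurd h hC0
  have he : e₁ = 1 ∨ e₁ = -1 := by
    have h6 : (e₁ - 1) * (e₁ + 1) = 0 := by linear_combination he2
    rcases mul_eq_zero.mp h6 with h | h
    · left; linear_combination h
    · right; linear_combination h
  have hθreg : ∀ y : Subgroup.centralizer ({x} : Set G), ¬ 2 ∣ orderOf y →
      (θ : Subgroup.centralizer ({x} : Set G) → ℂ) y =
        (θ₁ : Subgroup.centralizer ({x} : Set G) → ℂ) y := by
    intro y hy
    have hθ' := hθ
    rw [hbeq] at hθ'
    rcases hθ' with h | h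
    · rw [h]
    · rw [Set.mem_singleton_iff] at h
      rw [h]; exact (hreg' y hy).symm
  refine ⟨hcardB, ?_, χ₁, hχ₁B, χ₂, hχ₂B, hne, ?_⟩
  · intro χ hχ ψ hψ g hg
    rw [hBeq] at hχ hψ
    rcases hχ with h | h <;> rcases hψ with h' | h'
    · rw [h, h']
    · rw [Set.mem_singleton_iff] at h'
      rw [h, h']; exact hreg g hg
    · rw [Set.mem_singleton_iff] at h
      rw [h, h']; exact (hreg g hg).symm
    · rw [Set.mem_singleton_iff] at h h'
      rw [h, h']
  · rcases he with h | h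
    · refine ⟨1, -1, Or.inl rfl, Or.inr rfl, by norm_num, fun y hy => ⟨?_, ?_⟩⟩
      · rw [hval₁ y hy, h, hθreg y hy]; push_cast; ring
      · rw [hval₂ y hy, h, hθreg y hy]; push_cast; ring
    · refine ⟨-1, 1, Or.inr rfl, Or.inl rfl, by norm_num, fun y hy => ⟨?_, ?_⟩⟩
      · rw [hval₁ y hy, h, hθreg y hy]; push_cast; ring
      · rw [hval₂ y hy, h, hθreg y hy]; push_cast; ring

end Cfsg.Agent.S4513
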