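import Cfsg.Statements.S4636

set_option autoImplicit false
open scoped Pointwise
open Cfsg

namespace Cfsg.Agent.S4636

theorem cyc_unique {C : Type*} [Group C] [Finite C] [IsCyclic C] (A B : Subgroup C) {n : ℕ}
    (hn : 0 < n) (hA : Nat.card A = n) (hB : Nat.card B = n) : A = B := by
  classical
  haveI := Fintype.ofFinite C
  have key : ∀ A : Subgroup C, Nat.card A = n → (A : Set C) = {a : C | a ^ n = 1} := by
    intro A hA
    apply Set.eq_of_subset_of_ncard_le
    · intro a ha
      have h := pow_card_eq_one' (G := A) (x := ⟨a, ha⟩)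
      rw [hA] at h
      simpa using congrArg Subtype.val h
    · have h1 : (A : Set C).ncard = n := by
        rw [← hA]; rfl
      rw [h1]
      have h2 := IsCyclic.card_pow_eq_one_le (α := C) hn
      rw [Set.ncard_eq_toFinset_card']
      simpa using h2
    · exact Set.toFinite _
  exact SetLike.coe_injective ((key A hA).trans (key B hB).symm)

theorem cyc_unique' {G : Type*} [Group G] [Finite G] (P : Subgroup G) (hcyc : IsCyclic P)
    (A B : Subgroup G) (hAP : A ≤ P) (hBP : B ≤ P) {n : ℕ} (hn : 0 < n)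
    (hA : Nat.card A = n) (hB : Nat.card B = n) : A = B := by
  have h := cyc_unique (A.subgroupOf P) (B.subgroupOf P) hn
    (by rw [← hA]; exact Nat.card_congr (Subgroup.subgroupOfEquivOfLe hAP).toEquiv)
    (by rw [← hB]; exact Nat.card_congr (Subgroup.subgroupOfEquivOfLe hBP).toEquiv)
  have h2 := Subgroup.subgroupOf_inj.mp h
  rwa [inf_eq_left.mpr hAP, inf_eq_left.mpr hBP] at h2

/-- Let P be a nontrivial cyclic p-subgroup of the finite group G and Z its subgroup of order p. For every x outside N_G(Z), P meets its conjugate xPx⁻¹ trivially; consequently N_G(Q) ≤ N_G(Z) for every nontrivial subgroup Q of P. -/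
theorem result {G : Type*} [Group G] [Finite G] (p : ℕ) [Fact p.Prime] (P : Subgroup G) (hP : IsPGroup p P) (hP1 : P ≠ ⊥) (hcyc : IsCyclic P) (Z : Subgroup G) (hZ : Z ≤ P) (hZcard : Nat.card Z = p) : (∀ x : G, x ∉ Subgroup.normalizer (Z : Set G) → P ⊓ MulAut.conj x • P = ⊥) ∧ ∀ Q : Subgroup G, Q ≤ P → Q ≠ ⊥ → Subgroup.normalizer (Q : Set G) ≤ Subgroup.normalizer (Z : Set G) := by
  have hp : p.Prime := Fact.out
  have Zle : ∀ Q : Subgroup G, Q ≤ P → Q ≠ ⊥ → Z ≤ Q := by
    intro Q hQ hQ1
    have hQp : IsPGroup p Q := hP.to_le hQ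
    have hdvd : p ∣ Nat.card Q := by
      rcases hQp.card_eq_or_dvd with h | h
      · exact absurd (Subgroup.eq_bot_of_card_eq Q h) hQ1
      · exact h
    obtain ⟨x, hx⟩ := exists_prime_orderOf_dvd_card' (G := Q) p hdvd
    have hx' : orderOf (x : G) = p := by rw [Subgroup.orderOf_coe]; exact hx
    have hle : Subgroup.zpowers (x : G) ≤ Q := by
      rw [Subgroup.zpowers_le]; exact x.2
    have hcard : Nat.card (Subgroup.zpowers (x : G)) = p := by
      rw [Nat.card_zpowers]; exact hx'
    have : Z = Subgroup.zpowers (x : G) :=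
      cyc_unique' P hcyc Z _ hZ (hle.trans hQ) hp.pos hZcard hcard
    rw [this]; exact hle
  have conjZ : ∀ g : G, MulAut.conj g • Z ≤ P → g ∈ Subgroup.normalizer (Z : Set G) := by
    intro g hg
    have hcard : Nat.card (MulAut.conj g • Z : Subgroup G) = p := by
      rw [← hZcard]; exact (Nat.card_congr (Subgroup.equivSMul (MulAut.conj g) Z).toEquiv).symm
    have : MulAut.conj g • Z = Z := cyc_unique' P hcyc _ Z hg hZ hp.pos hcard hZcard
    exact Subgroup.mem_normalizer_iff_map_conj_eq.mpr this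
  refine ⟨?_, ?_⟩
  · intro x hx
    by_contra hne
    have h1 : Z ≤ P ⊓ MulAut.conj x • P := Zle _ inf_le_left hne
    have h2 : Z ≤ MulAut.conj x • P := h1.trans inf_le_right
    have h3 : (MulAut.conj x)⁻¹ • Z ≤ P := Subgroup.subset_pointwise_smul_iff.mp h2
    have h4 : x⁻¹ ∈ Subgroup.normalizer (Z : Set G) := by
      apply conjZ
      rw [map_inv]; exact h3
    exact hx (inv_mem_iff.mp h4)
  · intro Q hQ hQ1 g hg
    apply conjZ
    have h4 : MulAut.conj g • Q = Q := Subgroup.mem_normalizer_iff_map_conj_eq.mp hg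
    have h5 : MulAut.conj g • Z ≤ MulAut.conj g • Q :=
      Subgroup.pointwise_smul_le_pointwise_smul_iff.mpr (Zle Q hQ hQ1)
    rw [h4] at h5
    exact h5.trans hQ

end Cfsg.Agent.S4636
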