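import Cfsg.Statements.S4638
import Mathlib
import Cfsg.Agent.Lib.Helper79.KleinDich
import Cfsg.Agent.Lib.Helper79.KleinPerfect
import Cfsg.Agent.Lib.Helper79.KleinCorr

set_option autoImplicit false
open Cfsg

namespace Cfsg.Agent.S4638

/-- Let B be a block of the finite group G relative to a maximal ideal M of the algebraic integers containing 2, with a Klein four defect group P, and let c be its Brauer correspondent: the block of N_G(P) with defect group P that induces B. Then there is a perfect isometry from c onto B. -/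
theorem result {G : Type*} [Group G] [Finite G] (M : Ideal Cfsg.AlgInt) (hM : Cfsg.IsPModular 2 M) (B : Set (Cfsg.IrrCharacter G)) (hB : Cfsg.IsPBlock M B) (P : Subgroup G) (hPD : Cfsg.IsDefectGroup 2 M B P) (hV : IsKleinFour P) (c : Set (Cfsg.IrrCharacter (Subgroup.normalizer (P : Set G)))) (hcD : Cfsg.IsDefectGroup 2 M c (P.subgroupOf (Subgroup.normalizer (P : Set G)))) (hc : Cfsg.IsInducedBlock M (Subgroup.normalizer (P : Set G)) c B) : ∃ (I : Cfsg.IrrCharacter (Subgroup.normalizer (P : Set G)) → Cfsg.IrrCharacter G) (ε : Cfsg.IrrCharacter (Subgroup.normalizer (P : Set G)) → ℤ), Cfsg.IsPerfectIsometry 2 M c B I ε := by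
  classical
  haveI : Fact (Nat.Prime 2) := ⟨Nat.prime_two⟩
  letI : Fintype G := Fintype.ofFinite G
  letI : Fintype (Subgroup.normalizer (P : Set G)) := Fintype.ofFinite _
  have hMp := Cfsg.Agent.Lib.Helper16.isPrime_of_isPModular hM
  -- the defect group of `c` is a Klein four group
  have hV' : IsKleinFour (P.subgroupOf (Subgroup.normalizer (P : Set G))) := by
    have e := Subgroup.subgroupOfEquivOfLe (Subgroup.le_normalizer (H := P))
    exact ⟨by rw [Nat.card_congr e.toEquiv]; exact hV.card_four,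
      by rw [Monoid.exponent_eq_of_mulEquiv e]; exact hV.exponent_two⟩
  obtain ⟨hkB, hdB, hB'⟩ := Cfsg.Agent.Lib.Helper79.klein_dichotomy hM B hB P hPD hV
  obtain ⟨hkc, hdc, hc'⟩ := Cfsg.Agent.Lib.Helper79.klein_dichotomy hM c hc.1 _ hcD hV'
  have hR1 : Cfsg.blockRank 2 c = Cfsg.blockRank 2 B :=
    Cfsg.Agent.Lib.Helper79.klein_corr_rank hM B hB P hPD hV c hcD hc
  have := Cfsg.Agent.Lib.Helper81.irr_finite G
  have := Cfsg.Agent.Lib.Helper81.irr_finite (Subgroup.normalizer (P : Set G))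
  obtain ⟨χ₁, hχ₁⟩ := Cfsg.Agent.Lib.Helper16.IsPBlock.nonempty hMp hB
  obtain ⟨I, hI⟩ := Cfsg.Agent.Lib.Helper79.exists_bijOn_of_card_eq c B χ₁ (by rw [hkc, hkB])
  rcases hB' with ⟨hr1, hregB, hcongB⟩ | ⟨hr3, δ, χ₀, hχ₀, hδ, hsing, hsum⟩
  · rcases hc' with ⟨hr1', hregc, hcongc⟩ | ⟨hr3', -⟩
    · exact ⟨I, fun _ => 1, Cfsg.Agent.Lib.Helper79.perfect_of_nil hM B hB c hc.1 hkc hdB.le
        hdc.le hregB hcongB hregc hcongc I hI⟩
    · omega
  · rcases hc' with ⟨hr1', -⟩ | ⟨hr3', δ', η₀, hη₀, hδ', hsing', hsum'⟩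
    · omega
    · exact ⟨I, _, Cfsg.Agent.Lib.Helper79.perfect_of_rank3 hM B hB c hc.1 hkc hdB.le hdc.le
        δ χ₀ hχ₀ hδ hsing hsum δ' η₀ hη₀ hδ' hsing' hsum' I hI⟩

end Cfsg.Agent.S4638
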