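import Cfsg.Statements.S4691
import Cfsg.Agent.Lib.Helper77.ThirdMain
import Cfsg.Agent.Lib.Helper54.Frobenius
import Cfsg.Agent.S0071

set_option autoImplicit false
open Cfsg

namespace Cfsg.Agent.S4691

open Cfsg.Agent.Lib.Helper77 Cfsg.Agent.Lib.Helper16 in
/-- Fix a prime p and a maximal ideal M of the algebraic integers containing p. A finite group G has a normal p-complement if and only if its principal p-block is nilpotent. -/
theorem result {G : Type*} [Group G] [Fintype G] (p : ℕ) [Fact p.Prime] (M : Ideal Cfsg.AlgInt) (hM : Cfsg.IsPModular p M) : Cfsg.HasNormalPComplement p G ↔ Cfsg.IsNilpotentBlock p M (Cfsg.principalBlock M G) := by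
  have hMp := isPrime_of_isPModular hM
  have hp : p.Prime := Fact.out
  constructor
  · intro h
    obtain ⟨N, hN⟩ := Cfsg.Agent.Lib.Helper54.hasNormalPComplement_iff.mp h
    refine ⟨isPBlock_principalBlock M, ?_⟩
    intro Q e hQe x hx _ hreg
    exact hN.mem_centralizer hQe.1.1 hx ((Nat.Prime.coprime_iff_not_dvd hp).mpr hreg).symm
  · rintro ⟨-, hnil⟩
    obtain ⟨P⟩ : Nonempty (Sylow p G) := inferInstance
    obtain ⟨N, hN, hc⟩ := (Cfsg.Agent.S0071.result P).mpr (by
      intro Q hQP g hg hcop
      have hQ : IsPGroup p Q := P.isPGroup'.to_le hQP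
      have hpair := isBrauerPairOf_principalBlock (M := M) hM Q hQ
      have hg' := normalizer_le_normalizer_centralizer Q hg
      refine hnil Q _ hpair g hg ?_ ?_
      · rw [stabilizesBlock_iff _ _ g hg']
        have h1 : conjSet (Subgroup.centralizer (Q : Set G)) g hg'
            (Cfsg.principalBlock M (Subgroup.centralizer (Q : Set G))) =
            Cfsg.principalBlock M (Subgroup.centralizer (Q : Set G)) := by
          unfold conjSet
          rw [principalBlock_eq, mapSet_blockOf hMp]
          rfl
        rw [h1]
      · intro hdvd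
        exact (Nat.Prime.coprime_iff_not_dvd hp).mp hcop.symm hdvd)
    exact ⟨P, N, hN, hc⟩

end Cfsg.Agent.S4691
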