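import Cfsg.Statements.S4646
import Cfsg.Agent.S4691
import Cfsg.Agent.S0938
import Cfsg.Agent.Lib.Helper34.PComplement
import Cfsg.Agent.Lib.Helper54.Frobenius
import Cfsg.Agent.Lib.Helper79.QuotBlock
import Cfsg.Agent.Lib.Helper77.Defect
import Cfsg.Prelude.Def_BlockRank

set_option autoImplicit false
open Cfsg

namespace Cfsg.Agent.S4646

/-- For a finite group G, a prime p and a maximal ideal M of the algebraic integers containing p: the principal block of G is nilpotent if and only if its p-regular rank is 1 (the trivial Brauer character is its only irreducible Brauer character). -/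
theorem result {G : Type*} [Group G] [Finite G] (p : ℕ) [Fact p.Prime] (M : Ideal Cfsg.AlgInt) (hM : Cfsg.IsPModular p M) : Cfsg.IsNilpotentBlock p M (Cfsg.principalBlock M G) ↔ Cfsg.blockRank p (Cfsg.principalBlock M G) = 1 := by
  classical
  let _ : Fintype G := Fintype.ofFinite G
  have hp : p.Prime := Fact.out
  have hMp := Cfsg.Agent.Lib.Helper16.isPrime_of_isPModular hM
  rw [← Cfsg.Agent.S4691.result p M hM]
  have htB : Cfsg.Agent.Lib.Helper77.trivIrr G ∈ Cfsg.principalBlock M G :=
    Cfsg.Agent.Lib.Helper77.trivIrr_mem_principalBlock hMp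
  obtain ⟨t, ht⟩ : ∃ t : G → ℂ,
      t = Cfsg.pRegularPart p (Cfsg.Agent.Lib.Helper77.trivIrr G : G → ℂ) := ⟨_, rfl⟩
  have hreg1 : Cfsg.IsPRegular p (1 : G) := by
    unfold Cfsg.IsPRegular
    rw [orderOf_one]
    exact hp.one_lt.ne' ∘ Nat.dvd_one.mp
  have ht1 : t 1 = 1 := by
    rw [ht]
    unfold Cfsg.pRegularPart
    rw [if_pos hreg1]
    rfl
  have ht0 : t ≠ 0 := by
    intro h
    rw [h] at ht1
    exact zero_ne_one ht1
  have htmem : t ∈ (fun χ : Cfsg.IrrCharacter G => Cfsg.pRegularPart p (χ : G → ℂ)) ''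
      (Cfsg.principalBlock M G) := ⟨_, htB, ht.symm⟩
  -- characterisation of the p-regular parts in terms of `t`
  have hpart : ∀ χ : Cfsg.IrrCharacter G,
      (∀ g : G, Cfsg.IsPRegular p g → (χ : G → ℂ) g = (χ : G → ℂ) 1) →
      Cfsg.pRegularPart p (χ : G → ℂ) = (χ : G → ℂ) 1 • t := by
    intro χ h
    funext g
    rw [ht]
    show Cfsg.pRegularPart p (χ : G → ℂ) g = (χ : G → ℂ) 1 *
      Cfsg.pRegularPart p (Cfsg.Agent.Lib.Helper77.trivIrr G : G → ℂ) g
    unfold Cfsg.pRegularPart
    by_cases hg : Cfsg.IsPRegular p g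
    · rw [if_pos hg, if_pos hg, h g hg, Cfsg.Agent.Lib.Helper77.trivIrr_apply, mul_one]
    · rw [if_neg hg, if_neg hg, mul_zero]
  constructor
  · intro h
    obtain ⟨N, hN⟩ := Cfsg.Agent.Lib.Helper54.hasNormalPComplement_iff.mp h
    have hNn : N.Normal := hN.1
    have hpN : ¬ p ∣ Nat.card N := by
      intro hd
      exact hp.ne_one (Nat.Coprime.eq_one_of_dvd hN.2.1.symm hd)
    have hker : ∀ χ ∈ Cfsg.principalBlock M G, ∀ g : G, Cfsg.IsPRegular p g →
        (χ : G → ℂ) g = (χ : G → ℂ) 1 := by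
      intro χ hχ g hg
      have hs : Cfsg.SameBlock M (Cfsg.Agent.Lib.Helper77.trivIrr G : G → ℂ) (χ : G → ℂ) := hχ
      refine Cfsg.Agent.Lib.Helper79.ker_of_sameBlock_of_coprime N hM hpN hs
        (fun n _ => rfl) g ?_
      exact hN.mem_of_coprime ((Nat.Prime.coprime_iff_not_dvd hp).mpr hg).symm
    unfold Cfsg.blockRank
    have hspan : Submodule.span ℂ
        ((fun χ : Cfsg.IrrCharacter G => Cfsg.pRegularPart p (χ : G → ℂ)) ''
          (Cfsg.principalBlock M G)) = Submodule.span ℂ {t} := by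
      apply le_antisymm
      · rw [Submodule.span_le]
        rintro _ ⟨χ, hχ, rfl⟩
        show Cfsg.pRegularPart p (χ : G → ℂ) ∈ Submodule.span ℂ {t}
        rw [hpart χ (hker χ hχ)]
        exact Submodule.smul_mem _ _ (Submodule.subset_span rfl)
      · rw [Submodule.span_le]
        rintro _ rfl
        exact Submodule.subset_span htmem
    rw [hspan]
    exact finrank_span_singleton ht0
  · intro h
    unfold Cfsg.blockRank at h
    obtain ⟨V, hV⟩ : ∃ V : Submodule ℂ (G → ℂ), V = Submodule.span ℂ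
        ((fun χ : Cfsg.IrrCharacter G => Cfsg.pRegularPart p (χ : G → ℂ)) ''
          (Cfsg.principalBlock M G)) := ⟨_, rfl⟩
    rw [← hV] at h
    have htV : t ∈ V := by
      rw [hV]
      exact Submodule.subset_span htmem
    have hgen := (finrank_eq_one_iff_of_nonzero' (⟨t, htV⟩ : V)
      (fun h0 => ht0 (congrArg Subtype.val h0))).mp h
    have hker : ∀ χ ∈ Cfsg.principalBlock M G, ∀ g : G, Cfsg.IsPRegular p g →
        (χ : G → ℂ) g = (χ : G → ℂ) 1 := by
      intro χ hχ g hg
      have hχV : Cfsg.pRegularPart p (χ : G → ℂ) ∈ V := by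
        rw [hV]
        exact Submodule.subset_span ⟨χ, hχ, rfl⟩
      obtain ⟨c, hc⟩ := hgen ⟨_, hχV⟩
      have hc' : c • t = Cfsg.pRegularPart p (χ : G → ℂ) := congrArg Subtype.val hc
      have e1 := congrFun hc' 1
      have eg := congrFun hc' g
      have htg : t g = 1 := by
        rw [ht]
        unfold Cfsg.pRegularPart
        rw [if_pos hg]
        rfl
      have hχ1 : Cfsg.pRegularPart p (χ : G → ℂ) 1 = (χ : G → ℂ) 1 := by
        unfold Cfsg.pRegularPart
        rw [if_pos hreg1]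
      have hχg : Cfsg.pRegularPart p (χ : G → ℂ) g = (χ : G → ℂ) g := by
        unfold Cfsg.pRegularPart
        rw [if_pos hg]
      rw [Pi.smul_apply, smul_eq_mul, ht1, mul_one, hχ1] at e1
      rw [Pi.smul_apply, smul_eq_mul, htg, mul_one, hχg] at eg
      rw [← eg, ← e1]
    obtain ⟨K, hKn, hKset, hpK, -, -⟩ := Cfsg.Agent.S0938.result p M hM
      (Cfsg.principalBlock M G) (Cfsg.Agent.Lib.Helper77.isPBlock_principalBlock M)
      (Cfsg.Agent.Lib.Helper77.trivIrr G) htB
    have hmemK : ∀ g : G, (orderOf g).Coprime p → g ∈ K := by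
      intro g hg
      have hg' : Cfsg.IsPRegular p g := (Nat.Prime.coprime_iff_not_dvd hp).mp hg.symm
      have : g ∈ (K : Set G) := by
        rw [hKset]
        intro χ hχ
        exact hker χ hχ g hg'
      exact this
    exact Cfsg.Agent.Lib.Helper34.hasNormalPComplement_of_normal p K
      ((Nat.Prime.coprime_iff_not_dvd hp).mpr hpK).symm
      (Cfsg.Agent.Lib.Helper34.isPGroup_quotient_of_coprime_mem p K hmemK)

end Cfsg.Agent.S4646
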