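import Cfsg.Statements.S4650
import Cfsg.Agent.Lib.Helper77.IndBridge
import Cfsg.Agent.S4687

set_option autoImplicit false
open Cfsg

namespace Cfsg.Agent.S4650

open Cfsg.Agent.Lib.Helper77 Cfsg.Agent.Lib.Helper16 in
/-- Let B be a block of the finite group G relative to a maximal ideal M of the algebraic integers containing the prime p, with a nontrivial commutative defect group P; let c be a block of C_G(P) inducing B and T the stabilizer of c in N_G(P). Then T/C_G(P) acts freely on the non-identity elements of P (an element of T fixing a non-identity element of P under conjugation lies in C_G(P)) if and only if, for every nontrivial subgroup Q of P, the block of C_G(Q) induced by c inside C_G(Q) is a nilpotent block of C_G(Q). -/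
theorem result {G : Type*} [Group G] [Finite G] (p : ℕ) [Fact p.Prime] (M : Ideal Cfsg.AlgInt) (hM : Cfsg.IsPModular p M) (B : Set (Cfsg.IrrCharacter G)) (hB : Cfsg.IsPBlock M B) (P : Subgroup G) (hPD : Cfsg.IsDefectGroup p M B P) (hPab : ∀ x ∈ P, ∀ y ∈ P, x * y = y * x) (hP1 : P ≠ ⊥) (c : Set (Cfsg.IrrCharacter (Subgroup.centralizer (P : Set G)))) (hc : Cfsg.IsInducedBlock M (Subgroup.centralizer (P : Set G)) c B) (T : Subgroup G) (hT : ∀ g : G, g ∈ T ↔ (g ∈ Subgroup.normalizer (P : Set G) ∧ Cfsg.StabilizesBlock (Subgroup.centralizer (P : Set G)) c g)) : (∀ g ∈ T, ∀ x ∈ P, x ≠ 1 → g * x * g⁻¹ = x → g ∈ Subgroup.centralizer (P : Set G)) ↔ ∀ Q : Subgroup G, Q ≤ P → Q ≠ ⊥ → ∀ f : Set (Cfsg.IrrCharacter (Subgroup.centralizer (Q : Set G))), Cfsg.IsInducedBlockIn M (Subgroup.centralizer (Q : Set G)) (Subgroup.centralizer (P : Set G)) c f → Cfsg.IsNilpotentBlock p M f := by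
  classical
  have hfin : Fintype G := Fintype.ofFinite G
  have hMp := isPrime_of_isPModular hM
  have hP : IsPGroup p P := isPGroup_of_isDefectGroup hPD
  have hPc := isBrauerPairOf_of_isInducedBlock hM hP hc
  have hmax := isMaximalBrauerPair_of_isDefectGroup hM hPc hPD
  have key : ∀ Q : Subgroup G, Q ≤ P →
      ∀ f : Set (Cfsg.IrrCharacter (Subgroup.centralizer (Q : Set G))),
      Cfsg.IsInducedBlockIn M (Subgroup.centralizer (Q : Set G))
        (Subgroup.centralizer (P : Set G)) c f →
      (Cfsg.IsNilpotentBlock p M f ↔ ∀ g ∈ T, g ∈ Subgroup.centralizer (Q : Set G) →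
        g ∈ Subgroup.centralizer (P : Set G)) := by
    intro Q hQP f hf
    have hfinH : Fintype (Subgroup.centralizer (Q : Set G)) := Fintype.ofFinite _
    have hPH : P ≤ Subgroup.centralizer (Q : Set G) := by
      intro u hu
      rw [Subgroup.mem_centralizer_iff]
      intro q hq
      exact hPab q (hQP hq) u hu
    have hCH : Subgroup.centralizer (P : Set G) ≤ Subgroup.centralizer (Q : Set G) :=
      Subgroup.centralizer_le hQP
    have hn := isNormalSubpair_of_isInducedBlockIn hM hP hPab hQP hf
    have hle : Cfsg.SubpairLE p M Q f P c := Relation.ReflTransGen.single hn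
    have hm := isMaximalBrauerPair_centralizer hM hmax hf.2.1 hle hPH hCH
    have hab' : ∀ x ∈ P.subgroupOf (Subgroup.centralizer (Q : Set G)),
        ∀ y ∈ P.subgroupOf (Subgroup.centralizer (Q : Set G)), x * y = y * x := by
      intro x hx y hy
      apply Subtype.ext
      exact hPab x (Subgroup.mem_subgroupOf.mp hx) y (Subgroup.mem_subgroupOf.mp hy)
    rw [Cfsg.Agent.S4687.result p M hM f _ _ hm hab']
    have hcent := centEq_subgroupOf (Subgroup.centralizer (Q : Set G)) P hPH hCH
    constructor
    · intro h g hgT hgQ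
      have hg := (hT g).mp hgT
      have hgn : (⟨g, hgQ⟩ : Subgroup.centralizer (Q : Set G)) ∈ Subgroup.normalizer
          ((P.subgroupOf (Subgroup.centralizer (Q : Set G)) :
            Subgroup (Subgroup.centralizer (Q : Set G))) :
            Set (Subgroup.centralizer (Q : Set G))) := by
        rw [Subgroup.mem_normalizer_iff]
        intro k
        rw [Subgroup.mem_subgroupOf, Subgroup.mem_subgroupOf]
        exact Subgroup.mem_normalizer_iff.mp hg.1 (k : G)
      have hgs := stabilizesBlock_subCentIso_symm (Subgroup.centralizer (Q : Set G)) _ P hcent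
        (mapSet (subCentIso (Subgroup.centralizer (Q : Set G)) _ P hcent).symm c)
        (x := ⟨g, hgQ⟩) (by rw [mapSet_mapSet_symm]; exact hg.2)
      have h1 := h ⟨g, hgQ⟩ hgn hgs
      exact (hcent g).mpr ⟨hgQ, h1⟩
    · intro h x hxn hxs
      have hxs' := stabilizesBlock_subCentIso (Subgroup.centralizer (Q : Set G)) _ P hcent _ hxs
      rw [mapSet_mapSet_symm] at hxs'
      have hxnG : (x : G) ∈ Subgroup.normalizer (P : Set G) := by
        rw [Subgroup.mem_normalizer_iff]
        intro k
        constructor
        · intro hk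
          have h2 := (Subgroup.mem_normalizer_iff.mp hxn ⟨k, hPH hk⟩).mp
            (Subgroup.mem_subgroupOf.mpr hk)
          exact Subgroup.mem_subgroupOf.mp h2
        · intro hk
          have hkH : k ∈ Subgroup.centralizer (Q : Set G) := by
            have h3 := Subgroup.mul_mem _ (Subgroup.mul_mem _ (Subgroup.inv_mem _ x.2)
              (hPH hk)) x.2
            have e : (x : G)⁻¹ * ((x : G) * k * (x : G)⁻¹) * (x : G) = k := by group
            rwa [e] at h3
          have h2 := (Subgroup.mem_normalizer_iff.mp hxn ⟨k, hkH⟩).mpr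
            (Subgroup.mem_subgroupOf.mpr hk)
          exact Subgroup.mem_subgroupOf.mp h2
      have h1 := h (x : G) ((hT _).mpr ⟨hxnG, hxs'⟩) x.2
      exact ((hcent _).mp h1).2
  constructor
  · intro hfree Q hQP hQ1 f hf
    rw [key Q hQP f hf]
    intro g hgT hgQ
    obtain ⟨u, hu1⟩ := (Subgroup.ne_bot_iff_exists_ne_one).mp hQ1
    have hu1' : (u : G) ≠ 1 := fun h => hu1 (Subtype.ext h)
    have hcomm := Subgroup.mem_centralizer_iff.mp hgQ (u : G) u.2
    apply hfree g hgT (u : G) (hQP u.2) hu1'
    rw [← hcomm]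
    group
  · intro hnil g hgT x hxP hx1 hgx
    have hQP : Subgroup.zpowers x ≤ P := (Subgroup.zpowers_le).mpr hxP
    have hQ1 : Subgroup.zpowers x ≠ ⊥ := Subgroup.zpowers_ne_bot.mpr hx1
    obtain ⟨f, hf⟩ := exists_isInducedBlockIn hM hP hPab hQP hc.1
    apply (key _ hQP f hf).mp (hnil _ hQP hQ1 f hf) g hgT
    rw [Subgroup.mem_centralizer_iff]
    have hle : Subgroup.zpowers x ≤ Subgroup.centralizer ({g} : Set G) := by
      rw [Subgroup.zpowers_le, Subgroup.mem_centralizer_iff]
      intro y hy
      rw [Set.mem_singleton_iff] at hy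
      rw [hy]
      calc g * x = g * x * g⁻¹ * g := by group
        _ = x * g := by rw [hgx]
    intro h hh
    exact (Subgroup.mem_centralizer_iff.mp (hle hh) g rfl).symm

end Cfsg.Agent.S4650
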