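import Mathlib
import Cfsg.Statements.S4652
import Cfsg.Agent.Lib.Helper77.Defect

set_option autoImplicit false
open Cfsg
open scoped Pointwise

namespace Cfsg.Agent.S4652

open Cfsg.Agent.Lib.Helper77 Cfsg.Agent.Lib.Helper16 Cfsg.Agent.Lib.Helper81

/-- Fix a prime p and a maximal ideal M of the algebraic integers containing p. The defect groups of the principal p-block of a finite group G are exactly the Sylow p-subgroups of G: a subgroup D is a defect group of the principal block if and only if D is a Sylow p-subgroup. -/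
theorem result {G : Type*} [Group G] [Fintype G] (p : ℕ) [Fact p.Prime] (M : Ideal Cfsg.AlgInt) (hM : Cfsg.IsPModular p M) (D : Subgroup G) : Cfsg.IsDefectGroup p M (Cfsg.principalBlock M G) D ↔ ∃ S : Sylow p G, (S : Subgroup G) = D := by
  classical
  have hp : p.Prime := Fact.out
  have hMp := isPrime_of_isPModular hM
  have htriv : trivIrr G ∈ Cfsg.principalBlock M G := trivIrr_mem_principalBlock hMp
  have hnd_of : ∀ g : G, Cfsg.IsDefectClass M (Cfsg.principalBlock M G) g →
      ¬ p ∣ (Subgroup.centralizer ({g} : Set G)).index := by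
    intro g hg hdvd
    apply hg.2.2 (trivIrr G) htriv
    rw [centralChar_trivIrr]
    exact (memLocalIdeal_natCast_iff hM _).mpr hdvd
  constructor
  · rintro ⟨g, hg, Q, rfl⟩
    exact ⟨Sylow.ofCard _ (card_map_sylow_centralizer p g (hnd_of g hg) Q), rfl⟩
  · rintro ⟨S, rfl⟩
    obtain ⟨g₀, hg₀⟩ := exists_isDefectClass hMp (Cfsg.principalBlock M G)
      (isPBlock_principalBlock M)
    obtain ⟨Q₀⟩ : Nonempty (Sylow p (Subgroup.centralizer ({g₀} : Set G))) := inferInstance
    have hcard := card_map_sylow_centralizer p g₀ (hnd_of g₀ hg₀) Q₀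
    obtain ⟨x, hx⟩ := MulAction.exists_smul_eq G (Sylow.ofCard _ hcard) S
    have hSle : (S : Subgroup G) ≤ Subgroup.centralizer ({x * g₀ * x⁻¹} : Set G) := by
      intro d hd
      rw [← hx, Sylow.coe_subgroup_smul, Sylow.coe_ofCard] at hd
      have hd0 : x⁻¹ * d * x ∈ (Q₀ : Subgroup (Subgroup.centralizer ({g₀} : Set G))).map
          (Subgroup.centralizer ({g₀} : Set G)).subtype := by
        have h1 : (MulAut.conj x) • (x⁻¹ * d * x) ∈ MulAut.conj x •
            (Q₀ : Subgroup (Subgroup.centralizer ({g₀} : Set G))).map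
              (Subgroup.centralizer ({g₀} : Set G)).subtype := by
          have e : (MulAut.conj x) • (x⁻¹ * d * x) = d := by
            simp [MulAut.smul_def, mul_assoc]
          rw [e]; exact hd
        exact Subgroup.smul_mem_pointwise_smul_iff.mp h1
      have hd1 : x⁻¹ * d * x ∈ Subgroup.centralizer ({g₀} : Set G) :=
        Subgroup.map_subtype_le _ hd0
      have hd2 := Subgroup.mem_centralizer_iff.mp hd1 g₀ (Set.mem_singleton g₀)
      rw [Subgroup.mem_centralizer_iff]
      intro y hy
      rw [Set.mem_singleton_iff] at hy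
      subst hy
      calc x * g₀ * x⁻¹ * d = x * (g₀ * (x⁻¹ * d * x)) * x⁻¹ := by group
        _ = x * ((x⁻¹ * d * x) * g₀) * x⁻¹ := by rw [hd2]
        _ = d * (x * g₀ * x⁻¹) := by group
    refine ⟨x * g₀ * x⁻¹, isDefectClass_conj hg₀ x, S.subtype hSle, ?_⟩
    rw [Sylow.coe_subtype, Subgroup.subgroupOf_map_subtype, inf_eq_left.mpr hSle]

end Cfsg.Agent.S4652
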