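import Cfsg.Statements.S4658
import Cfsg.Agent.Lib.Helper77.BrauerPair
import Cfsg.Agent.S4657

set_option autoImplicit false
open Cfsg

namespace Cfsg.Agent.S4658

open Cfsg.Agent.Lib.Helper77 Cfsg.Agent.Lib.Helper16 in
/-- Fix a prime p and a maximal ideal M of the algebraic integers containing p. Let (Q, f) ≤ (P, e) be Brauer pairs of the finite group G and B a p-block of G. Then (P, e) is a Brauer pair of B if and only if (Q, f) is. -/
theorem result {G : Type*} [Group G] [Fintype G] (p : ℕ) [Fact p.Prime] (M : Ideal Cfsg.AlgInt) (hM : Cfsg.IsPModular p M) (P Q : Subgroup G) (e : Set (Cfsg.IrrCharacter (Subgroup.centralizer (P : Set G)))) (f : Set (Cfsg.IrrCharacter (Subgroup.centralizer (Q : Set G)))) (hPe : Cfsg.IsBrauerPair p M P e) (hQf : Cfsg.IsBrauerPair p M Q f) (hle : Cfsg.SubpairLE p M Q f P e) (B : Set (Cfsg.IrrCharacter G)) (hB : Cfsg.IsPBlock M B) : Cfsg.IsBrauerPairOf p M B P e ↔ Cfsg.IsBrauerPairOf p M B Q f := by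
  constructor
  · intro hBP
    obtain ⟨B', hB', -⟩ := Cfsg.Agent.S4657.result p M hM Q f hQf
    have h1 : Cfsg.IsBrauerPairOf p M B' P e :=
      isBrauerPairOf_of_subpairLE (a := ⟨Q, f⟩) (b := ⟨P, e⟩) hM hle hB'
    obtain ⟨B'', -, huniq⟩ := Cfsg.Agent.S4657.result p M hM P e hPe
    rw [huniq B hBP, ← huniq B' h1]
    exact hB'
  · intro hBQ
    exact isBrauerPairOf_of_subpairLE (a := ⟨Q, f⟩) (b := ⟨P, e⟩) hM hle hBQ

end Cfsg.Agent.S4658
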