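import Cfsg.Statements.S4663
import Cfsg.Agent.Lib.Helper77.ThirdMain
import Cfsg.Agent.S4660

set_option autoImplicit false
open Cfsg

namespace Cfsg.Agent.S4663

open Cfsg.Agent.Lib.Helper77 Cfsg.Agent.Lib.Helper16 in
/-- Fix a prime p and a maximal ideal M of the algebraic integers containing p. Brauer's Third Main Theorem in the language of Brauer pairs: for the principal p-block B₀ of the finite group G and any p-subgroup Q, a p-block e of C_G(Q) makes (Q, e) a Brauer pair of B₀ if and only if e is the principal p-block of C_G(Q). Equivalently, modulo M the truncation to C_G(Q) of the idempotent of B₀ is the idempotent of the principal block of C_G(Q). -/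
theorem result {G : Type*} [Group G] [Fintype G] (p : ℕ) [Fact p.Prime] (M : Ideal Cfsg.AlgInt) (hM : Cfsg.IsPModular p M) (Q : Subgroup G) (hQ : IsPGroup p Q) (e : Set (Cfsg.IrrCharacter (Subgroup.centralizer (Q : Set G)))) (he : Cfsg.IsPBlock M e) : Cfsg.IsBrauerPairOf p M (Cfsg.principalBlock M G) Q e ↔ e = Cfsg.principalBlock M (Subgroup.centralizer (Q : Set G)) := by
  have hMp := isPrime_of_isPModular hM
  constructor
  · intro h
    obtain ⟨S⟩ : Nonempty (Sylow p G) := inferInstance
    have hmax := isMaximalBrauerPair_principalBlock (M := M) hM S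
    obtain ⟨x, hx⟩ := Cfsg.Agent.S4660.result p M hM _ (S : Subgroup G) Q _ e hmax h
    have h1 := eq_principalBlock_of_subpairLE hM hx rfl
    exact (conjBlock_eq_principalBlock_iff hMp Q x e).mp h1
  · rintro rfl
    exact isBrauerPairOf_principalBlock hM Q hQ

end Cfsg.Agent.S4663
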