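import Cfsg.Statements.S4664
import Cfsg.Agent.Lib.Helper77.Osima
import Cfsg.Agent.Lib.Helper3.CharValues
import Cfsg.Agent.Lib.Helper81.CharCore

set_option autoImplicit false
open Cfsg

namespace Cfsg.Agent.S4664

/-- Fix a prime p and a maximal ideal M of the algebraic integers containing p, and let B be a p-block of the finite group G. Let m be the p'-part of the order of G and η = exp(2πi/m). Then every coefficient of the idempotent of B lies in the cyclotomic field ℚ(η). -/
theorem result {G : Type*} [Group G] [Fintype G] (p : ℕ) [Fact p.Prime] (M : Ideal Cfsg.AlgInt) (hM : Cfsg.IsPModular p M) (B : Set (Cfsg.IrrCharacter G)) (hB : Cfsg.IsPBlock M B) (g : G) : Cfsg.blockCoeff B g ∈ IntermediateField.adjoin ℚ ({Complex.exp (2 * Real.pi * Complex.I / ((Nat.card G / p ^ (Nat.card G).factorization p : ℕ) : ℂ))} : Set ℂ) := by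
  classical
  have hp : p.Prime := Fact.out
  by_cases hg : p ∣ orderOf g
  · rw [Cfsg.Agent.Lib.Helper77.blockCoeff_eq_zero_of_singular hM B hB hg]
    exact zero_mem _
  · obtain ⟨m, hm⟩ : ∃ m : ℕ, m = Nat.card G / p ^ (Nat.card G).factorization p := ⟨_, rfl⟩
    rw [← hm]
    have hGpos : 0 < Nat.card G := Nat.card_pos
    have hGeq : p ^ (Nat.card G).factorization p * m = Nat.card G := by
      rw [hm]
      exact Nat.ordProj_mul_ordCompl_eq_self (Nat.card G) p
    have hmpos : 0 < m := by
      rcases Nat.eq_zero_or_pos m with h | h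
      · rw [h, mul_zero] at hGeq
        omega
      · exact h
    have : NeZero m := ⟨hmpos.ne'⟩
    have hη : IsPrimitiveRoot (Complex.exp (2 * Real.pi * Complex.I / (m : ℂ))) m :=
      Complex.isPrimitiveRoot_exp m hmpos.ne'
    obtain ⟨η, hηdef⟩ : ∃ η : ℂ, η = Complex.exp (2 * Real.pi * Complex.I / (m : ℂ)) := ⟨_, rfl⟩
    rw [← hηdef] at hη ⊢
    have hηmem : η ∈ IntermediateField.adjoin ℚ ({η} : Set ℂ) :=
      IntermediateField.mem_adjoin_simple_self ℚ η
    -- values at p-regular elements lie in the field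
    have hval : ∀ (χ : Cfsg.IrrCharacter G) (h : G), ¬ p ∣ orderOf h →
        (χ : G → ℂ) h ∈ IntermediateField.adjoin ℚ ({η} : Set ℂ) := by
      intro χ h hh
      obtain ⟨n, ρ, -, hρ⟩ := χ.2
      obtain ⟨ι, hι, bb, d, hd, -, hb, -⟩ := Cfsg.Agent.Lib.Helper3.exists_eigen_data ρ h
      rw [← hρ, Representation.character,
        Cfsg.Agent.Lib.Helper3.trace_eq_sum_of_eigenbasis bb _ _ hb]
      refine sum_mem (fun i _ => ?_)
      have hdvd : orderOf h ∣ m := by
        have h1 : orderOf h ∣ p ^ (Nat.card G).factorization p * m := by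
          rw [hGeq]
          exact orderOf_dvd_natCard h
        have hcop : (orderOf h).Coprime (p ^ (Nat.card G).factorization p) :=
          Nat.Coprime.pow_right _ ((Nat.Prime.coprime_iff_not_dvd hp).mpr hh).symm
        exact hcop.dvd_of_dvd_mul_left h1
      obtain ⟨c, hc⟩ := hdvd
      have hdm : d i ^ m = 1 := by rw [hc, pow_mul, hd i, one_pow]
      obtain ⟨e, -, he⟩ := hη.eq_pow_of_pow_eq_one hdm
      rw [← he]
      exact pow_mem hηmem e
    unfold Cfsg.blockCoeff
    refine mul_mem (inv_mem (natCast_mem _ _)) ?_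
    refine finsum_mem_induction (fun z => z ∈ IntermediateField.adjoin ℚ ({η} : Set ℂ))
      (zero_mem _) (fun _ _ hx hy => add_mem hx hy) ?_
    intro χ _
    refine mul_mem ?_ ?_
    · have h1 : ¬ p ∣ orderOf (1 : G) := by
        rw [orderOf_one]
        exact fun h => hp.one_lt.ne' (Nat.dvd_one.mp h)
      exact hval χ 1 h1
    · rw [← Cfsg.Agent.Lib.Helper81.irr_inv]
      apply hval
      rw [orderOf_inv]
      exact hg

end Cfsg.Agent.S4664
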