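import Cfsg.Statements.S4665
import Cfsg.Agent.Lib.Helper77.CharBasic

set_option autoImplicit false
open Cfsg

namespace Cfsg.Agent.S4665

open Cfsg.Agent.Lib.Helper77

/-- Fix a prime p, a maximal ideal M of the algebraic integers containing p, and a p-block B of the finite group G, and let p^a be the p-part of the order of G. Let χ be an integer combination of the irreducible characters in B. If the function that agrees with χ on p-regular elements and vanishes on p-singular elements is again an integer combination of the irreducible characters in B, then p^a divides χ(1). -/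
theorem result {G : Type*} [Group G] [Fintype G] (p : ℕ) [Fact p.Prime] (M : Ideal Cfsg.AlgInt) (hM : Cfsg.IsPModular p M) (B : Set (Cfsg.IrrCharacter G)) (hB : Cfsg.IsPBlock M B) (χ : G → ℂ) (hχ : (∃ n : Cfsg.IrrCharacter G → ℤ, ∀ g : G, χ g = ∑ᶠ ψ ∈ B, (n ψ : ℂ) * (ψ : G → ℂ) g)) (h0 : (∃ n : Cfsg.IrrCharacter G → ℤ, ∀ g : G, Cfsg.pRegularPart p χ g = ∑ᶠ ψ ∈ B, (n ψ : ℂ) * (ψ : G → ℂ) g)) : ∃ k : ℤ, χ 1 = (p ^ (Nat.card G).factorization p : ℂ) * k := by
  classical
  have hp : p.Prime := Fact.out
  obtain ⟨n, hn⟩ := h0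
  haveI := irr_finite G
  have hBfin : B.Finite := Set.toFinite B
  obtain ⟨P⟩ : Nonempty (Sylow p G) := inferInstance
  haveI : Fintype (P : Subgroup G) := Fintype.ofFinite _
  have hcard : Nat.card (P : Subgroup G) = p ^ (Nat.card G).factorization p :=
    P.card_eq_multiplicity
  -- choose the multiplicities
  have hm : ∀ ψ : Cfsg.IrrCharacter G, ∃ m : ℕ,
      ∑ x : (P : Subgroup G), (ψ : G → ℂ) (x : G) = (Nat.card (P : Subgroup G) : ℂ) * m :=
    fun ψ => sum_subgroup_char (P : Subgroup G) (ψ : G → ℂ) (irr_isCharacter ψ)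
  choose m hm using hm
  -- left side
  have hL : ∑ x : (P : Subgroup G), Cfsg.pRegularPart p χ (x : G) = χ 1 := by
    rw [Finset.sum_eq_single (1 : (P : Subgroup G))]
    · have : Cfsg.IsPRegular p (1 : G) := by
        unfold Cfsg.IsPRegular
        rw [orderOf_one]
        exact hp.one_lt.ne' ∘ Nat.dvd_one.mp
      simp [Cfsg.pRegularPart, this]
    · intro x _ hx
      have hx1 : (x : G) ≠ 1 := fun h => hx (Subtype.ext h)
      have hnot : ¬ Cfsg.IsPRegular p (x : G) := by
        unfold Cfsg.IsPRegular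
        rw [not_not]
        obtain ⟨k, hk⟩ := P.isPGroup' x
        have hk' : (x : G) ^ p ^ k = 1 := by
          have := congrArg Subtype.val hk
          simpa using this
        obtain ⟨j, _, hj⟩ := (Nat.dvd_prime_pow hp).mp (orderOf_dvd_of_pow_eq_one hk')
        rcases j with _ | j
        · rw [pow_zero, orderOf_eq_one_iff] at hj
          exact absurd hj hx1
        · rw [hj]; exact dvd_pow_self p (Nat.succ_ne_zero j)
      simp [Cfsg.pRegularPart, hnot]
    · intro h; exact absurd (Finset.mem_univ _) h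
  -- right side
  have hR : ∑ x : (P : Subgroup G), Cfsg.pRegularPart p χ (x : G)
      = (Nat.card (P : Subgroup G) : ℂ) * ((∑ ψ ∈ hBfin.toFinset, n ψ * (m ψ : ℤ) : ℤ) : ℂ) := by
    simp_rw [hn, finsum_mem_eq_finite_toFinset_sum _ hBfin]
    rw [Finset.sum_comm]
    push_cast
    rw [Finset.mul_sum]
    refine Finset.sum_congr rfl fun ψ _ => ?_
    rw [← Finset.mul_sum, hm ψ]
    ring
  refine ⟨∑ ψ ∈ hBfin.toFinset, n ψ * (m ψ : ℤ), ?_⟩
  rw [← hL, hR, hcard]
  push_cast
  rfl

end Cfsg.Agent.S4665
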