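import Mathlib
import Cfsg.Statements.S4668
import Cfsg.Agent.Lib.Helper77.NormalP
import Cfsg.Agent.Lib.Helper77.Osima
import Cfsg.Agent.S0028

set_option autoImplicit false
open Cfsg

namespace Cfsg.Agent.S4668

open Cfsg.Agent.Lib.Helper77 Cfsg.Agent.Lib.Helper16

/-- Fix a prime p and a maximal ideal M of the algebraic integers containing p. Let Q₀ < Q₁ < ⋯ < Q_m be a strictly increasing chain of p-subgroups of the finite group G and N the intersection of their normalizers. Then every block idempotent of N is supported on C_G(Q_m): for every p-block E of N, the idempotent coefficient of E vanishes at every element of N outside C_G(Q_m). -/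
theorem result {G : Type*} [Group G] [Fintype G] (p : ℕ) [Fact p.Prime] (M : Ideal Cfsg.AlgInt) (hM : Cfsg.IsPModular p M) (m : ℕ) (Q : Fin (m + 1) → Subgroup G) (hQ : StrictMono Q) (hQp : ∀ i, IsPGroup p (Q i)) (N : Subgroup G) (hN : ∀ g : G, g ∈ N ↔ ∀ i, g ∈ Subgroup.normalizer (Q i : Set G)) (E : Set (Cfsg.IrrCharacter N)) (hE : Cfsg.IsPBlock M E) (n : N) (hn : (n : G) ∉ Subgroup.centralizer (Q (Fin.last m) : Set G)) : Cfsg.blockCoeff E n = 0 := by
  classical
  have hFin : Fintype N := Fintype.ofFinite N
  by_contra hne
  have hp := (Fact.out : p.Prime)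
  have hreg : ¬ p ∣ orderOf n := fun h => hne (blockCoeff_eq_zero_of_singular hM E hE h)
  have hcent : ∀ i, ∀ x : G, x ∈ Q i → x ∈ N → x * (n : G) = (n : G) * x := by
    intro i x hxQ hxN
    have hnorm : ((Q i).subgroupOf N).Normal := by
      constructor
      intro y hy z
      rw [Subgroup.mem_subgroupOf] at hy ⊢
      have hz := (hN z).mp z.2 i
      have := (Subgroup.mem_normalizer_iff.mp hz (y : G)).mp hy
      simpa using this
    have hpg : IsPGroup p ((Q i).subgroupOf N) := (hQp i).comap_subtype
    have h1 : n ∈ Subgroup.centralizer (((Q i).subgroupOf N : Subgroup N) : Set N) := by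
      by_contra hcon
      exact hne (blockCoeff_eq_zero_of_not_mem_centralizer hM ((Q i).subgroupOf N) hpg E hE n hcon)
    have h2 := Subgroup.mem_centralizer_iff.mp h1 ⟨x, hxN⟩
      (show (⟨x, hxN⟩ : N) ∈ (Q i).subgroupOf N from Subgroup.mem_subgroupOf.mpr hxQ)
    exact congrArg Subtype.val h2
  have key : ∀ k (hk : k < m + 1), ∀ x ∈ Q ⟨k, hk⟩, x * (n : G) = (n : G) * x := by
    intro k
    induction k with
    | zero =>
      intro hk x hx
      apply hcent ⟨0, hk⟩ x hx
      rw [hN]
      intro i
      have hle : Q ⟨0, hk⟩ ≤ Q i := hQ.monotone (by simp)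
      exact Subgroup.le_normalizer (hle hx)
    | succ k ih =>
      intro hk x hx
      have hk' : k < m + 1 := by omega
      have ih' := ih hk'
      have hT := Cfsg.Agent.S0028.result p (Q ⟨k, hk'⟩) (Subgroup.zpowers (n : G))
        (Q ⟨k + 1, hk⟩) (hQp _) ?_ (hQp _) ?_ ?_ ?_ ?_
      · have h3 := hT (Subgroup.mem_zpowers (n : G))
        exact (Subgroup.mem_centralizer_iff.mp h3 x hx)
      · rw [Nat.card_zpowers, Subgroup.orderOf_coe]
        exact ((Nat.Prime.coprime_iff_not_dvd hp).mpr hreg).symm
      · intro y hy
        rw [Subgroup.mem_centralizer_iff]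
        rintro _ ⟨j, rfl⟩
        have hc : Commute (n : G) y := (ih' y hy).symm
        exact (hc.zpow_left j).eq
      · exact (hQ.monotone (by simp [Fin.le_def])).trans Subgroup.le_normalizer
      · rw [Subgroup.zpowers_le]
        exact (hN n).mp n.2 _
      · rintro y ⟨hy1, hy2⟩
        have hyN : y ∈ N := by
          rw [hN]
          intro i
          by_cases hi : (i : ℕ) ≤ k
          · have hle : Q i ≤ Q ⟨k, hk'⟩ := hQ.monotone (by simpa [Fin.le_def] using hi)
            have hyc : ∀ z ∈ Q i, y * z * y⁻¹ = z := by
              intro z hz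
              have := Subgroup.mem_centralizer_iff.mp hy2 z (hle hz)
              rw [← this]; group
            rw [Subgroup.mem_normalizer_iff]
            intro z
            constructor
            · intro hz
              rw [hyc z hz]; exact hz
            · intro hz
              have h5 := hyc _ hz
              have h6 : y * z * y⁻¹ = z := by
                have : y * (y * z * y⁻¹) * y⁻¹ = y * z * y⁻¹ := h5
                have h7 : y⁻¹ * (y * (y * z * y⁻¹) * y⁻¹) * y = y⁻¹ * (y * z * y⁻¹) * y := by
                  rw [this]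
                have e1 : y⁻¹ * (y * (y * z * y⁻¹) * y⁻¹) * y = y * z * y⁻¹ := by group
                have e2 : y⁻¹ * (y * z * y⁻¹) * y = z := by group
                rw [e1, e2] at h7
                exact h7
              rw [← h6]; exact hz
          · have hle : Q ⟨k + 1, hk⟩ ≤ Q i := hQ.monotone (by
              simp only [Fin.le_def]; omega)
            exact Subgroup.le_normalizer (hle hy1)
        have h8 := hcent ⟨k + 1, hk⟩ y hy1 hyN
        rw [Subgroup.mem_centralizer_iff]
        rintro _ ⟨j, rfl⟩
        have hc : Commute (n : G) y := h8.symm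
        exact (hc.zpow_left j).eq
  exact hn (by
    rw [Subgroup.mem_centralizer_iff]
    intro x hx
    exact key m (by omega) x hx)

end Cfsg.Agent.S4668
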