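import Cfsg.Statements.S4669
import Mathlib
import Cfsg.Agent.Lib.Helper79.CentProd2

set_option autoImplicit false
open Cfsg

namespace Cfsg.Agent.S4669

/-- Fix a prime p and a maximal ideal M of the algebraic integers containing p. If the p-block B of the finite group G has a defect group P contained in the centre of G, then B has p-regular rank one (a single irreducible Brauer character). -/
theorem result {G : Type*} [Group G] [Fintype G] (p : ℕ) [Fact p.Prime] (M : Ideal Cfsg.AlgInt) (hM : Cfsg.IsPModular p M) (B : Set (Cfsg.IrrCharacter G)) (hB : Cfsg.IsPBlock M B) (P : Subgroup G) (hD : Cfsg.IsDefectGroup p M B P) (hPZ : P ≤ Subgroup.center G) : Cfsg.blockRank p B = 1 := by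
  classical
  have hMp := Cfsg.Agent.Lib.Helper16.isPrime_of_isPModular hM
  have hp : p.Prime := Fact.out
  have hP : IsPGroup p P := by
    obtain ⟨g, -, S, hS⟩ := hD
    rw [hS]
    exact S.isPGroup'.map _
  have hcent : Subgroup.centralizer (P : Set G) = ⊤ :=
    Subgroup.centralizer_eq_top_iff_subset.mpr hPZ
  have hG : P ⊔ Subgroup.centralizer (P : Set G) = ⊤ := by
    rw [hcent]
    exact sup_top_eq _
  have : Fintype P := Fintype.ofFinite P
  choose lam psi hspec using fun χ : Cfsg.IrrCharacter G =>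
    Cfsg.Agent.Lib.Helper16.exists_prod_decomp P hG χ
  obtain ⟨χ₀, hχ₀⟩ := Cfsg.Agent.Lib.Helper16.IsPBlock.nonempty hMp hB
  have hreg : Cfsg.IsPRegular p (1 : G) := by
    unfold Cfsg.IsPRegular
    rw [orderOf_one]
    exact fun h1 => hp.one_lt.ne' (Nat.dvd_one.mp h1)
  have hne0 : Cfsg.pRegularPart p (χ₀ : G → ℂ) ≠ 0 := by
    intro h0
    have h1 := congrFun h0 1
    simp only [Cfsg.pRegularPart, if_pos hreg, Pi.zero_apply] at h1
    exact Cfsg.Agent.Lib.Helper79.irr_one_ne_zero χ₀.2 h1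
  have hl0 : (lam χ₀ : P → ℂ) 1 ≠ 0 := Cfsg.Agent.Lib.Helper79.irr_one_ne_zero (lam χ₀).2
  have hmul : ∀ θ ∈ B, Cfsg.pRegularPart p (θ : G → ℂ) =
      ((lam θ : P → ℂ) 1 / (lam χ₀ : P → ℂ) 1) • Cfsg.pRegularPart p (χ₀ : G → ℂ) := by
    intro θ hθ
    funext x
    simp only [Cfsg.pRegularPart, Pi.smul_apply, smul_eq_mul]
    by_cases hx : Cfsg.IsPRegular p x
    · rw [if_pos hx, if_pos hx]
      have hxC : x ∈ Subgroup.centralizer (P : Set G) := by
        rw [hcent]
        trivial
      have e1 := hspec θ 1 ⟨x, hxC⟩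
      have e2 := hspec χ₀ 1 ⟨x, hxC⟩
      simp only [OneMemClass.coe_one, one_mul] at e1 e2
      have e3 := Cfsg.Agent.Lib.Helper79.psi_eq_of_pRegular hM P hP hG B hB hD lam psi hspec
        θ χ₀ hθ hχ₀ ⟨x, hxC⟩ hx
      rw [e1, e2, e3]
      field_simp
    · rw [if_neg hx, if_neg hx, mul_zero]
  unfold Cfsg.blockRank
  have hspan : Submodule.span ℂ
      ((fun χ : Cfsg.IrrCharacter G => Cfsg.pRegularPart p (χ : G → ℂ)) '' B) =
      Submodule.span ℂ {Cfsg.pRegularPart p (χ₀ : G → ℂ)} := by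
    apply le_antisymm
    · rw [Submodule.span_le]
      rintro f ⟨θ, hθ, rfl⟩
      show Cfsg.pRegularPart p (θ : G → ℂ) ∈ _
      rw [hmul θ hθ]
      exact Submodule.smul_mem _ _ (Submodule.subset_span rfl)
    · rw [Submodule.span_le]
      rintro f hf
      rw [Set.mem_singleton_iff] at hf
      rw [hf]
      exact Submodule.subset_span ⟨χ₀, hχ₀, rfl⟩
  rw [hspan]
  exact finrank_span_singleton hne0

end Cfsg.Agent.S4669
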