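import Cfsg.Statements.S4670
import Cfsg.Agent.Lib.Helper77.BrauerCorr

set_option autoImplicit false
open Cfsg

namespace Cfsg.Agent.S4670

open Cfsg.Agent.Lib.Helper77 Cfsg.Agent.Lib.Helper16 in
/-- Fix a prime p and a maximal ideal M of the algebraic integers containing p. Let P be a p-subgroup of the finite group G and H a subgroup containing N_G(P). For every p-block B of G with defect group P there is exactly one p-block c of H with defect group P whose idempotent agrees with that of B, modulo the local ideal at M, at every element of C_G(P) (their Brauer-map images at P coincide); and every p-block c of H with defect group P arises in this way from exactly one such B. This is the Brauer correspondence over H. -/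
theorem result {G : Type*} [Group G] [Fintype G] (p : ℕ) [Fact p.Prime] (M : Ideal Cfsg.AlgInt) (hM : Cfsg.IsPModular p M) (P H : Subgroup G) (hP : IsPGroup p P) (hH : Subgroup.normalizer (P : Set G) ≤ H) : (∀ B : Set (Cfsg.IrrCharacter G), Cfsg.IsPBlock M B → Cfsg.IsDefectGroup p M B P → ∃! c : Set (Cfsg.IrrCharacter H), Cfsg.IsPBlock M c ∧ Cfsg.IsDefectGroup p M c (P.subgroupOf H) ∧ ∀ x : G, x ∈ Subgroup.centralizer (P : Set G) → Cfsg.MemLocalIdeal M (Cfsg.blockCoeff B x - Cfsg.subgroupBlockCoeff H c x)) ∧ (∀ c : Set (Cfsg.IrrCharacter H), Cfsg.IsPBlock M c → Cfsg.IsDefectGroup p M c (P.subgroupOf H) → ∃! B : Set (Cfsg.IrrCharacter G), Cfsg.IsPBlock M B ∧ Cfsg.IsDefectGroup p M B P ∧ ∀ x : G, x ∈ Subgroup.centralizer (P : Set G) → Cfsg.MemLocalIdeal M (Cfsg.blockCoeff B x - Cfsg.subgroupBlockCoeff H c x)) := by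
  classical
  have hMp := isPrime_of_isPModular hM
  have hPH : P ≤ H := Subgroup.le_normalizer.trans hH
  refine ⟨?_, ?_⟩
  · intro B hB hD
    obtain ⟨c, hc, hDc, hcong⟩ := exists_block_sub_of_block hM P H hH B hB hD
    refine ⟨c, ⟨hc, hDc, hcong⟩, ?_⟩
    rintro c' ⟨hc', hDc', hcong'⟩
    apply eq_of_subgroupBlockCoeff_congr hM P H hPH c' c hc' hc hDc' hDc
    intro x hx
    have h1 := hcong x hx
    have h2 := hcong' x hx
    have e : Cfsg.subgroupBlockCoeff H c' x - Cfsg.subgroupBlockCoeff H c x =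
        (Cfsg.blockCoeff B x - Cfsg.subgroupBlockCoeff H c x) -
        (Cfsg.blockCoeff B x - Cfsg.subgroupBlockCoeff H c' x) := by ring
    rw [e]
    exact memLocalIdeal_sub hMp h1 h2
  · intro c hc hDc
    obtain ⟨B, hB, hDB, hcong⟩ := exists_block_of_block_sub hM P H hP hH c hc hDc
    refine ⟨B, ⟨hB, hDB, hcong⟩, ?_⟩
    rintro B' ⟨hB', hDB', hcong'⟩
    apply eq_of_blockCoeff_congr_centralizer hM P B' B hB' hB hDB' hDB
    intro x hx
    have h1 := hcong x hx
    have h2 := hcong' x hx
    have e : Cfsg.blockCoeff B' x - Cfsg.blockCoeff B x =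
        (Cfsg.blockCoeff B' x - Cfsg.subgroupBlockCoeff H c x) -
        (Cfsg.blockCoeff B x - Cfsg.subgroupBlockCoeff H c x) := by ring
    rw [e]
    exact memLocalIdeal_sub hMp h2 h1

end Cfsg.Agent.S4670
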