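import Cfsg.Statements.S4681
import Cfsg.Agent.Lib.Helper77.ThirdMain

set_option autoImplicit false
open Cfsg

namespace Cfsg.Agent.S4681

open Cfsg.Agent.Lib.Helper77 Cfsg.Agent.Lib.Helper16 in
/-- Fix a prime p and a maximal ideal M of the algebraic integers containing p. Let B₀ be the principal p-block of the finite group G, P a Sylow p-subgroup and e₀ the principal p-block of C_G(P). Then (P, e₀) is a maximal Brauer pair of B₀, and the fusion system of B₀ on (P, e₀) is the fusion system of G on P: its maps from each subgroup of P are exactly the conjugation maps into P by elements of G. -/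
theorem result {G : Type*} [Group G] [Fintype G] (p : ℕ) [Fact p.Prime] (M : Ideal Cfsg.AlgInt) (hM : Cfsg.IsPModular p M) (S : Sylow p G) : Cfsg.IsMaximalBrauerPair p M (Cfsg.principalBlock M G) (S : Subgroup G) (Cfsg.principalBlock M (Subgroup.centralizer ((S : Subgroup G) : Set G))) ∧ ∀ F : Cfsg.FusionSystem (S : Subgroup G), Cfsg.IsBlockFusionSystemOn p M (Cfsg.principalBlock M G) (S : Subgroup G) (Cfsg.principalBlock M (Subgroup.centralizer ((S : Subgroup G) : Set G))) F → ∀ Q : Subgroup G, F.Hom Q = (Cfsg.groupFusionSystem (S : Subgroup G)).Hom Q := by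
  have hMp := isPrime_of_isPModular hM
  have hmax := isMaximalBrauerPair_principalBlock (M := M) hM S
  refine ⟨hmax, ?_⟩
  intro F hF Q
  have hPe := hmax.1.1
  have key : ∀ Q' : Subgroup G, Q' ≤ (S : Subgroup G) →
      Cfsg.SubpairLE p M Q' (Cfsg.principalBlock M (Subgroup.centralizer (Q' : Set G)))
        (S : Subgroup G)
        (Cfsg.principalBlock M (Subgroup.centralizer ((S : Subgroup G) : Set G))) := by
    intro Q' hQ'
    obtain ⟨f, hf, hle⟩ := exists_subpairLE hM (S : Subgroup G) _ hPe _ Q' hQ' le_rfl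
    have h1 := eq_principalBlock_of_subpairLE hM hle rfl
    have h2 : f = Cfsg.principalBlock M (Subgroup.centralizer (Q' : Set G)) := h1
    rw [h2] at hle
    exact hle
  ext φ
  rw [hF.2 Q φ]
  constructor
  · rintro ⟨hQ, g, hg, hQg, -⟩
    refine ⟨hQ, fun x => ?_, g, hg⟩
    rw [hg]
    exact hQg ⟨x, x.2, rfl⟩
  · rintro ⟨hQ, hφS, g, hg⟩
    have hQg : Q.map (MulAut.conj g).toMonoidHom ≤ (S : Subgroup G) := by
      rintro _ ⟨q, hq, rfl⟩
      have h1 := hφS ⟨q, hq⟩
      rw [hg] at h1
      exact h1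
    refine ⟨hQ, g, hg, hQg, Cfsg.principalBlock M (Subgroup.centralizer (Q : Set G)),
      key Q hQ, ?_⟩
    rw [(conjBlock_eq_principalBlock_iff hMp Q g _).mpr rfl]
    exact key _ hQg

end Cfsg.Agent.S4681
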