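import Cfsg.Statements.S4682
import Cfsg.Agent.Lib.Helper77.PairTools

set_option autoImplicit false

open Cfsg

namespace Cfsg.Agent.S4682

open Cfsg.Agent.Lib.Helper77 Cfsg.Agent.Lib.Helper16 in
/-- Fix a prime p and a maximal ideal M of the algebraic integers containing p, a p-block B of the finite group G with maximal Brauer pair (P, e), P abelian, and a Brauer pair (Q, f) ≤ (P, e). Let T_Q be the stabilizer of f in N_G(Q) and T_P the stabilizer of e in N_G(P). Then every element of T_Q is a product of an element of T_P and an element of C_G(Q); and the index of C_G(Q) in T_Q equals the index of T_P ∩ C_G(Q) in T_P ∩ N_G(Q). -/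
theorem result {G : Type*} [Group G] [Fintype G] (p : ℕ) [Fact p.Prime] (M : Ideal Cfsg.AlgInt) (hM : Cfsg.IsPModular p M) (B : Set (Cfsg.IrrCharacter G)) (P : Subgroup G) (e : Set (Cfsg.IrrCharacter (Subgroup.centralizer (P : Set G)))) (hmax : Cfsg.IsMaximalBrauerPair p M B P e) (hab : ∀ x ∈ P, ∀ y ∈ P, x * y = y * x) (Q : Subgroup G) (f : Set (Cfsg.IrrCharacter (Subgroup.centralizer (Q : Set G)))) (hQP : Q ≤ P) (hf : Cfsg.IsPBlock M f) (hle : Cfsg.SubpairLE p M Q f P e) (TQ : Subgroup G) (hTQ : ∀ y : G, y ∈ TQ ↔ y ∈ Subgroup.normalizer (Q : Set G) ∧ Cfsg.StabilizesBlock (Subgroup.centralizer (Q : Set G)) f y) (TP : Subgroup G) (hTP : ∀ y : G, y ∈ TP ↔ y ∈ Subgroup.normalizer (P : Set G) ∧ Cfsg.StabilizesBlock (Subgroup.centralizer (P : Set G)) e y) : (∀ x ∈ TQ, ∃ y ∈ TP, ∃ c ∈ Subgroup.centralizer (Q : Set G), x = y * c) ∧ ((Subgroup.centralizer (Q : Set G)).subgroupOf TQ).index = ((TP ⊓ Subgroup.centralizer (Q : Set G)).subgroupOf (TP ⊓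 Subgroup.normalizer (Q : Set G))).index := by
  classical
  have part1 : ∀ x ∈ TQ, ∃ y ∈ TP, ∃ c ∈ Subgroup.centralizer (Q : Set G), x = y * c := by
    intro x hx
    obtain ⟨hxn, hxs⟩ := (hTQ x).mp hx
    obtain ⟨c₀, hc₀, hyn, hys⟩ := exists_mul_mem_stabilizer_of_abelian hM hmax hab hQP hf hle
      hxn hxs
    refine ⟨c₀ * x, (hTP _).mpr ⟨hyn, hys⟩, x⁻¹ * c₀⁻¹ * x, ?_, by group⟩
    exact (Subgroup.mem_normalizer_iff''.mp (normalizer_le_normalizer_centralizer Q hxn) _).mp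
      (Subgroup.inv_mem _ hc₀)
  refine ⟨part1, ?_⟩
  have hCQ : Subgroup.centralizer (Q : Set G) ≤ TQ := fun c hc =>
    (hTQ c).mpr ⟨Subgroup.centralizer_le_normalizer (Q : Set G) hc, stabilizesBlock_of_mem _ f hc⟩
  have hA : TP ⊓ Subgroup.normalizer (Q : Set G) ≤ TQ := by
    intro y hy
    obtain ⟨hyTP, hyN⟩ := Subgroup.mem_inf.mp hy
    obtain ⟨hyP, hye⟩ := (hTP y).mp hyTP
    exact (hTQ y).mpr ⟨hyN, stabilizesBlock_of_subpairLE hM hmax.1.1 hle hyP hye hyN⟩
  have hsup : TQ = (TP ⊓ Subgroup.normalizer (Q : Set G)) ⊔ Subgroup.centralizer (Q : Set G) := by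
    apply le_antisymm
    · intro x hx
      obtain ⟨y, hy, c, hc, rfl⟩ := part1 x hx
      have hyN : y ∈ Subgroup.normalizer (Q : Set G) := by
        have h1 := ((hTQ _).mp hx).1
        have h2 : c⁻¹ ∈ Subgroup.normalizer (Q : Set G) :=
          Subgroup.inv_mem _ (Subgroup.centralizer_le_normalizer (Q : Set G) hc)
        have h3 := Subgroup.mul_mem _ h1 h2
        rwa [mul_inv_cancel_right] at h3
      exact Subgroup.mul_mem_sup (Subgroup.mem_inf.mpr ⟨hy, hyN⟩) hc
    · exact sup_le hA hCQ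
  show (Subgroup.centralizer (Q : Set G)).relIndex TQ =
    (TP ⊓ Subgroup.centralizer (Q : Set G)).relIndex (TP ⊓ Subgroup.normalizer (Q : Set G))
  have hnorm : TP ⊓ Subgroup.normalizer (Q : Set G) ≤
      Subgroup.normalizer ((Subgroup.centralizer (Q : Set G) : Subgroup G) : Set G) :=
    fun y hy => normalizer_le_normalizer_centralizer Q (Subgroup.mem_inf.mp hy).2
  rw [hsup, relIndex_sup_right_of_le_normalizer _ _ hnorm, ← Subgroup.inf_relIndex_right]
  congr 1
  ext z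
  simp only [Subgroup.mem_inf]
  constructor
  · rintro ⟨h1, h2, -⟩
    exact ⟨h2, h1⟩
  · rintro ⟨h1, h2⟩
    exact ⟨h2, h1, Subgroup.centralizer_le_normalizer (Q : Set G) h2⟩

end Cfsg.Agent.S4682
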