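import Cfsg.Statements.S4683
import Mathlib
import Cfsg.Agent.Lib.Helper76.SubSection
import Cfsg.Agent.S0919
import Cfsg.Agent.Lib.Helper16.Induced
import Cfsg.Agent.Lib.Helper16.Osima

set_option autoImplicit false
open Cfsg

namespace Cfsg.Agent.S4683

open Cfsg.Agent.Lib.Helper16

/-- Fix a prime p and a maximal ideal M of the algebraic integers containing p, a p-block B of the finite group G, a p-element u and a p-block e of C = C_G(u) such that (⟨u⟩, e) is a Brauer pair of B (a Brauer element of B). For χ ∈ B let χ_u be the e-part of the class function c ↦ χ(u c) on C and χ_u' the e-part of c ↦ χ(u⁻¹ c). Then the sum over χ ∈ B and over the p-regular elements s of C of χ_u(s)·χ_u'(s⁻¹) equals the order of C times the p-regular rank of e (the number of irreducible Brauer characters of e). -/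
theorem result {G : Type*} [Group G] [Fintype G] (p : ℕ) [Fact p.Prime] (M : Ideal Cfsg.AlgInt) (hM : Cfsg.IsPModular p M) (B : Set (Cfsg.IrrCharacter G)) (u : G) (hu : ∃ k : ℕ, orderOf u = p ^ k) (e : Set (Cfsg.IrrCharacter (Subgroup.centralizer (Subgroup.zpowers u : Set G)))) (hBe : Cfsg.IsBrauerPairOf p M B (Subgroup.zpowers u) e) : ∑ᶠ χ ∈ B, ∑ᶠ s : Subgroup.centralizer (Subgroup.zpowers u : Set G), Cfsg.pRegularPart p (Cfsg.blockPart e (fun c : Subgroup.centralizer (Subgroup.zpowers u : Set G) => (χ : G → ℂ) (u * c))) s * Cfsg.blockPart e (fun c : Subgroup.centralizer (Subgroup.zpowers u : Set G) => (χ : G → ℂ) (u⁻¹ * c)) s⁻¹ = (Nat.card (Subgroup.centralizer (Subgroup.zpowers u : Set G)) : ℂ) * (Cfsg.blockRank p e : ℂ) := by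
  classical
  have hP := isPrime_of_isPModular hM
  obtain ⟨⟨-, he⟩, hB, hbr⟩ := hBe
  letI : Fintype (Subgroup.centralizer (Subgroup.zpowers u : Set G)) := Fintype.ofFinite _
  have hC : ∀ g : G, g ∈ Subgroup.centralizer (Subgroup.zpowers u : Set G) ↔ g * u = u * g := by
    intro g
    rw [Subgroup.mem_centralizer_iff]
    constructor
    · intro h
      exact (h u (Subgroup.mem_zpowers u)).symm
    · intro h x hx
      obtain ⟨i, rfl⟩ := Subgroup.mem_zpowers_iff.mp hx
      have h1 : Commute g u := h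
      exact (h1.zpow_right i).eq.symm
  have hPg : IsPGroup p (Subgroup.zpowers u) := by
    obtain ⟨k, hk⟩ := hu
    apply IsPGroup.of_card (n := k)
    rw [Nat.card_zpowers, hk]
  have hPH : Subgroup.zpowers u ≤ Subgroup.centralizer (Subgroup.zpowers u : Set G) := by
    intro x hx
    rw [hC]
    obtain ⟨i, rfl⟩ := Subgroup.mem_zpowers_iff.mp hx
    exact ((Commute.refl u).zpow_left i).eq
  obtain ⟨B', hB'⟩ := Cfsg.Agent.S0919.result p M hM (Subgroup.zpowers u)
    (Subgroup.centralizer (Subgroup.zpowers u : Set G)) hPg hPH le_rfl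
    (Subgroup.centralizer_le_normalizer _) e he
  obtain ⟨ξ, hξ⟩ := IsPBlock.nonempty hP he
  obtain ⟨χ', hχ'⟩ := IsPBlock.nonempty hP hB'.2.1
  have h1 := omega_resFun_sub hP (Subgroup.centralizer (Subgroup.zpowers u : Set G))
    (ξ : Subgroup.centralizer (Subgroup.zpowers u : Set G) → ℂ) χ' (hB'.2.2 ξ hξ χ' hχ')
    (isRClass_blockCoeff hP hB)
  have h2 := hbr ξ hξ
  have h3 : Cfsg.brauerOmega (Subgroup.zpowers u) (Cfsg.blockCoeff B)
      (ξ : Subgroup.centralizer (Subgroup.zpowers u : Set G) → ℂ) =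
      omega (ξ : Subgroup.centralizer (Subgroup.zpowers u : Set G) → ℂ)
        (resFun (Subgroup.centralizer (Subgroup.zpowers u : Set G)) (Cfsg.blockCoeff B)) := by
    unfold Cfsg.brauerOmega omega resFun
    rw [finsum_eq_sum_of_fintype]
  rw [h3] at h2
  have h4 : MemLocalIdeal M (omega (χ' : G → ℂ) (Cfsg.blockCoeff B) - 1) := by
    have := memLocalIdeal_sub hP h2 h1
    convert this using 1
    ring
  rw [omega_blockCoeff hP hB χ'] at h4
  have hχ'B : χ' ∈ B := by
    by_contra hc
    rw [if_neg hc, zero_sub] at h4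
    exact not_memLocalIdeal_one hP (by simpa using memLocalIdeal_neg h4)
  have hBB' : B' = B := by
    rw [IsPBlock.eq_blockOf hP hB'.2.1 hχ', IsPBlock.eq_blockOf hP hB hχ'B]
  rw [hBB'] at hB'
  exact Cfsg.Agent.Lib.Helper76.subsection_sum hM B u hu _ hC e hB'

end Cfsg.Agent.S4683
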