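import Cfsg.Statements.S4686
import Cfsg.Agent.Lib.Helper77.NilControl

set_option autoImplicit false
open Cfsg

namespace Cfsg.Agent.S4686

open Cfsg.Agent.Lib.Helper77 Cfsg.Agent.Lib.Helper16 in
/-- Fix a prime p and a maximal ideal M of the algebraic integers containing p, a p-block B of the finite group G with maximal Brauer pair (P, e) and fusion system F on P. Then B is nilpotent (for every Brauer pair (Q, f) of B the stabilizer of f in N_G(Q) is C_G(Q) extended by a p-group) if and only if F is the inner fusion system of P: its maps from each subgroup of P are exactly the conjugations by elements of P. -/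
theorem result {G : Type*} [Group G] [Fintype G] (p : ℕ) [Fact p.Prime] (M : Ideal Cfsg.AlgInt) (hM : Cfsg.IsPModular p M) (B : Set (Cfsg.IrrCharacter G)) (P : Subgroup G) (e : Set (Cfsg.IrrCharacter (Subgroup.centralizer (P : Set G)))) (hmax : Cfsg.IsMaximalBrauerPair p M B P e) (F : Cfsg.FusionSystem P) (hF : Cfsg.IsBlockFusionSystemOn p M B P e F) : Cfsg.IsNilpotentBlock p M B ↔ ∀ Q : Subgroup G, F.Hom Q = (Cfsg.innerFusionSystem P).Hom Q := by
  classical
  have hMp := isPrime_of_isPModular hM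
  have hp : p.Prime := Fact.out
  constructor
  · -- nilpotent ⇒ inner
    intro hnil Q
    ext φ
    constructor
    · intro hφ
      obtain ⟨hQP, g, hg, -, f, hle, hle'⟩ := (hF.2 Q φ).mp hφ
      obtain ⟨u, hu, hconj⟩ := exists_conj_eq_of_isNilpotentBlock hM hmax hnil _ Q f g rfl hle hle'
      exact ⟨hQP, u, hu, fun x => (hg x).trans (hconj x x.2)⟩
    · rintro ⟨hQP, u, hu, hφ⟩
      have h1 : φ = Cfsg.conjHom Q u := MonoidHom.ext hφ
      rw [h1]
      exact F.conj_mem hQP hu
  · -- inner ⇒ nilpotent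
    intro hin
    refine ⟨hmax.1.2.1, ?_⟩
    intro Q f hQf x hxn hxs hxreg
    obtain ⟨a, ha⟩ := Cfsg.Agent.S4660.result p M hM B P Q e f hmax hQf
    have hQ'P : Q.map (MulAut.conj a).toMonoidHom ≤ P := subpairLE_le ha
    have hyn := conj_mem_normalizer_map_conj a Q hxn
    have hys := (stabilizesBlock_conjBlock_iff a Q f hxn).mpr hxs
    have hmem : Cfsg.conjHom (Q.map (MulAut.conj a).toMonoidHom) (a * x * a⁻¹) ∈
        F.Hom (Q.map (MulAut.conj a).toMonoidHom) := by
      rw [hF.2]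
      refine ⟨hQ'P, a * x * a⁻¹, fun u => rfl, ?_, Cfsg.conjBlock Q a f, ha, ?_⟩
      · rw [← map_conj_eq_of_mem_normalizer hyn]
        exact hQ'P
      · unfold Cfsg.SubpairLE
        rw [sigma_conjBlock_of_stabilizes _ _ hyn hys]
        exact ha
    rw [hin] at hmem
    obtain ⟨-, u, hu, hφ⟩ := hmem
    have hyu : ∀ q ∈ Q.map (MulAut.conj a).toMonoidHom,
        a * x * a⁻¹ * q * (a * x * a⁻¹)⁻¹ = u * q * u⁻¹ := fun q hq => hφ ⟨q, hq⟩
    have hpow : ∀ (k : ℕ), ∀ q ∈ Q.map (MulAut.conj a).toMonoidHom,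
        (a * x * a⁻¹) ^ k * q * ((a * x * a⁻¹) ^ k)⁻¹ = u ^ k * q * (u ^ k)⁻¹ ∧
          u ^ k * q * (u ^ k)⁻¹ ∈ Q.map (MulAut.conj a).toMonoidHom := by
      intro k
      induction k with
      | zero =>
        intro q hq
        simpa using hq
      | succ k ih =>
        intro q hq
        have h1 := hyu q hq
        have hq' : u * q * u⁻¹ ∈ Q.map (MulAut.conj a).toMonoidHom := by
          rw [← h1]
          exact (Subgroup.mem_normalizer_iff.mp hyn q).mp hq
        obtain ⟨h2, h3⟩ := ih _ hq'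
        have e1 : (a * x * a⁻¹) ^ (k + 1) * q * ((a * x * a⁻¹) ^ (k + 1))⁻¹ =
            (a * x * a⁻¹) ^ k * (a * x * a⁻¹ * q * (a * x * a⁻¹)⁻¹) * ((a * x * a⁻¹) ^ k)⁻¹ := by
          rw [pow_succ]; group
        have e2 : u ^ (k + 1) * q * (u ^ (k + 1))⁻¹ = u ^ k * (u * q * u⁻¹) * (u ^ k)⁻¹ := by
          rw [pow_succ]; group
        rw [e1, e2, h1]
        exact ⟨h2, h3⟩
    obtain ⟨j, hj⟩ := hmax.1.1.1 ⟨u, hu⟩
    have hj' : u ^ (p ^ j) = 1 := by
      have := congrArg Subtype.val hj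
      simpa using this
    have hyc : (a * x * a⁻¹) ^ (p ^ j) ∈ Subgroup.centralizer
        ((Q.map (MulAut.conj a).toMonoidHom : Subgroup G) : Set G) := by
      rw [Subgroup.mem_centralizer_iff]
      intro q hq
      have h1 := (hpow (p ^ j) q hq).1
      rw [hj'] at h1
      have h2 : (a * x * a⁻¹) ^ (p ^ j) * q * ((a * x * a⁻¹) ^ (p ^ j))⁻¹ = q := by
        rw [h1]; group
      calc q * (a * x * a⁻¹) ^ (p ^ j)
          = (a * x * a⁻¹) ^ (p ^ j) * q * ((a * x * a⁻¹) ^ (p ^ j))⁻¹ * (a * x * a⁻¹) ^ (p ^ j) := by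
            rw [h2]
        _ = (a * x * a⁻¹) ^ (p ^ j) * q := by group
    rw [conj_pow] at hyc
    have hxc : x ^ (p ^ j) ∈ Subgroup.centralizer (Q : Set G) :=
      (mem_centralizer_map_conj_iff a Q _).mpr hyc
    have hcop : Nat.Coprime (p ^ j) (orderOf x) :=
      Nat.Coprime.pow_left j ((Nat.Prime.coprime_iff_not_dvd hp).mpr hxreg)
    obtain ⟨m, hm⟩ := exists_pow_eq_self_of_coprime hcop
    rw [← hm]
    exact Subgroup.pow_mem _ hxc m

end Cfsg.Agent.S4686
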