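import Cfsg.Statements.S4688
import Cfsg.Agent.Lib.Helper77.NilControl
import Cfsg.Agent.Lib.Helper77.LocalPairs
import Cfsg.Agent.Lib.Helper77.FusionPairs

set_option autoImplicit false
open Cfsg

namespace Cfsg.Agent.S4688

open Cfsg.Agent.Lib.Helper77 Cfsg.Agent.Lib.Helper16 in
/-- the centralizer in `C_G(Q)` of a subgroup `R'` is the centralizer in `G` of `Q R'` -/
theorem centEq_sup_centralizer {G : Type*} [Group G] (Q : Subgroup G)
    (R' : Subgroup (Subgroup.centralizer (Q : Set G))) :
    CentEq (Subgroup.centralizer (Q : Set G)) R'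
      (Q ⊔ R'.map (Subgroup.centralizer (Q : Set G)).subtype) := by
  intro x
  constructor
  · intro hx
    have hxQ : x ∈ Subgroup.centralizer (Q : Set G) :=
      Subgroup.centralizer_le (by exact_mod_cast (le_sup_left : Q ≤ _)) hx
    refine ⟨hxQ, ?_⟩
    rw [Subgroup.mem_centralizer_iff]
    intro r hr
    apply Subtype.ext
    exact Subgroup.mem_centralizer_iff.mp hx (r : G)
      ((le_sup_right : R'.map _ ≤ Q ⊔ _) ⟨r, hr, rfl⟩)
  · rintro ⟨hxQ, hx⟩
    rw [Subgroup.mem_centralizer_iff]
    have hle : Q ⊔ R'.map (Subgroup.centralizer (Q : Set G)).subtype ≤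
        Subgroup.centralizer ({x} : Set G) := by
      apply sup_le
      · intro q hq
        rw [Subgroup.mem_centralizer_iff]
        rintro _ rfl
        exact (Subgroup.mem_centralizer_iff.mp hxQ q hq).symm
      · rintro _ ⟨r, hr, rfl⟩
        rw [Subgroup.mem_centralizer_iff]
        rintro _ rfl
        have := Subgroup.mem_centralizer_iff.mp hx r hr
        exact (congrArg Subtype.val this).symm
    intro h hh
    have := Subgroup.mem_centralizer_iff.mp (hle hh) x rfl
    exact this.symm

open Cfsg.Agent.Lib.Helper77 Cfsg.Agent.Lib.Helper16 in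
/-- Fix a prime p and a maximal ideal M of the algebraic integers containing p, and a nilpotent p-block B of the finite group G with maximal Brauer pair (P, e). Then for every Brauer pair (Q, f) of B, f is a nilpotent block of C_G(Q); and if moreover (Q, f) ≤ (P, e), then C_P(Q) is a defect group of f as a block of C_G(Q). -/
theorem result {G : Type*} [Group G] [Fintype G] (p : ℕ) [Fact p.Prime] (M : Ideal Cfsg.AlgInt) (hM : Cfsg.IsPModular p M) (B : Set (Cfsg.IrrCharacter G)) (P : Subgroup G) (e : Set (Cfsg.IrrCharacter (Subgroup.centralizer (P : Set G)))) (hmax : Cfsg.IsMaximalBrauerPair p M B P e) (hnil : Cfsg.IsNilpotentBlock p M B) (Q : Subgroup G) (f : Set (Cfsg.IrrCharacter (Subgroup.centralizer (Q : Set G)))) (hQf : Cfsg.IsBrauerPairOf p M B Q f) : Cfsg.IsNilpotentBlock p M f ∧ (Cfsg.SubpairLE p M Q f P e → Cfsg.IsDefectGroup p M f ((P ⊓ Subgroup.centralizer (Q : Set G)).subgroupOf (Subgroup.centralizer (Q : Set G)))) := by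
  classical
  have hMp := isPrime_of_isPModular hM
  have hp : p.Prime := Fact.out
  have hf : Cfsg.IsPBlock M f := hQf.1.2
  have hQ : IsPGroup p Q := hQf.1.1
  constructor
  · refine ⟨hf, ?_⟩
    intro R' g' hR'g' x hxn hxs hxreg
    have hcent := centEq_sup_centralizer Q R'
    have hRH : R'.map (Subgroup.centralizer (Q : Set G)).subtype ≤
        Subgroup.centralizer (Q : Set G) := by
      rintro _ ⟨r, -, rfl⟩
      exact r.2
    have hRN : R'.map (Subgroup.centralizer (Q : Set G)).subtype ≤
        Subgroup.normalizer (Q : Set G) :=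
      hRH.trans (Subgroup.centralizer_le_normalizer (Q : Set G))
    have hpR₂ : IsPGroup p (Q ⊔ R'.map (Subgroup.centralizer (Q : Set G)).subtype : Subgroup G) :=
      hQ.to_sup_of_normal_left' (hR'g'.1.1.map _) hRN
    have hR₂N : Q ⊔ R'.map (Subgroup.centralizer (Q : Set G)).subtype ≤
        Subgroup.normalizer (Q : Set G) := sup_le Subgroup.le_normalizer hRN
    have hstab : ∀ y ∈ Q ⊔ R'.map (Subgroup.centralizer (Q : Set G)).subtype,
        Cfsg.StabilizesBlock (Subgroup.centralizer (Q : Set G)) f y := by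
      have hle : Q ⊔ R'.map (Subgroup.centralizer (Q : Set G)).subtype ≤
          blockStab (Subgroup.centralizer (Q : Set G)) f :=
        sup_le (fun q hq => stabilizesBlock_of_mem_self Q f hq)
          (hRH.trans (le_blockStab _ f))
      exact fun y hy => hle hy
    have hn : Cfsg.IsNormalSubpair p M Q f
        (Q ⊔ R'.map (Subgroup.centralizer (Q : Set G)).subtype)
        (mapSet (subCentIso (Subgroup.centralizer (Q : Set G)) R' _ hcent) g') :=
      isNormalSubpair_of_isBrauerPairOf_sub hMp hQf.1 (Subgroup.centralizer (Q : Set G)) (F := f)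
        (fun t => by rw [subgroupBlockCoeff_eq_ext0, ext0_of_mem _ _ t.2])
        hcent hpR₂ le_sup_left hR₂N hstab hR'g'
    have hB₂ := isBrauerPairOf_of_isNormalSubpair hM hn hQf
    have hxQn : (x : G) ∈ Subgroup.normalizer (Q : Set G) :=
      Subgroup.centralizer_le_normalizer (Q : Set G) x.2
    have hRx : (R'.map (Subgroup.centralizer (Q : Set G)).subtype).map
        (MulAut.conj (x : G)).toMonoidHom = R'.map (Subgroup.centralizer (Q : Set G)).subtype := by
      have h1 : R'.map (MulAut.conj x).toMonoidHom = R' :=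
        (map_conj_eq_of_mem_normalizer hxn).symm
      conv_rhs => rw [← h1]
      rw [Subgroup.map_map, Subgroup.map_map]
      rfl
    have hxnG : (x : G) ∈ Subgroup.normalizer
        ((Q ⊔ R'.map (Subgroup.centralizer (Q : Set G)).subtype : Subgroup G) : Set G) := by
      apply Cfsg.Agent.Lib.Helper77.mem_normalizer_of_map_conj_eq
      rw [Subgroup.map_sup, hRx, ← map_conj_eq_of_mem_normalizer hxQn]
    have hxregG : Cfsg.IsPRegular p (x : G) := by
      unfold Cfsg.IsPRegular at hxreg ⊢
      rwa [Subgroup.orderOf_coe]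
    have hxG := hnil.2 _ _ hB₂ (x : G) hxnG
      (stabilizesBlock_subCentIso (Subgroup.centralizer (Q : Set G)) R' _ hcent g' hxs) hxregG
    obtain ⟨hxH, hx'⟩ := (hcent _).mp hxG
    exact hx'
  · intro hle
    have hQP : Q ≤ P := subpairLE_le hle
    obtain ⟨x, hx, hDx⟩ := exists_conj_isDefectGroup_centralizer hM hmax hle hf
    obtain ⟨u, hu, hconj⟩ := exists_conj_eq_of_isNilpotentBlock hM hmax hnil _ Q f x rfl hle hx
    obtain ⟨D, hD, hWD⟩ := exists_isDefectGroup_centralizer_ge hM hmax hQP hle hf
    have hcard := card_isDefectGroup_conjBlock hM Q x hf hD hDx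
    have hmap : (P ⊓ Subgroup.centralizer
        ((Q.map (MulAut.conj x).toMonoidHom : Subgroup G) : Set G)).map
          (MulAut.conj u⁻¹).toMonoidHom ≤ P ⊓ Subgroup.centralizer (Q : Set G) := by
      rintro _ ⟨z, ⟨hzP, hzC⟩, rfl⟩
      refine ⟨P.mul_mem (P.mul_mem (P.inv_mem hu) hzP) (by simpa using hu), ?_⟩
      show u⁻¹ * z * u⁻¹⁻¹ ∈ Subgroup.centralizer (Q : Set G)
      rw [Subgroup.mem_centralizer_iff]
      intro q hq
      have h1 := Subgroup.mem_centralizer_iff.mp hzC (x * q * x⁻¹) ⟨q, hq, rfl⟩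
      rw [hconj q hq] at h1
      show q * (u⁻¹ * z * u⁻¹⁻¹) = u⁻¹ * z * u⁻¹⁻¹ * q
      calc q * (u⁻¹ * z * u⁻¹⁻¹) = u⁻¹ * (u * q * u⁻¹ * z) * u := by group
        _ = u⁻¹ * (z * (u * q * u⁻¹)) * u := by rw [h1]
        _ = u⁻¹ * z * u⁻¹⁻¹ * q := by group
    have h2 := Subgroup.card_le_of_le hmap
    rw [card_map_conj] at h2
    have h3 : Nat.card ((P ⊓ Subgroup.centralizer (Q : Set G)).subgroupOf
        (Subgroup.centralizer (Q : Set G))) =
        Nat.card (P ⊓ Subgroup.centralizer (Q : Set G) : Subgroup G) :=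
      Nat.card_congr (Subgroup.subgroupOfEquivOfLe inf_le_right).toEquiv
    have h4 : Nat.card ((P ⊓ Subgroup.centralizer
        ((Q.map (MulAut.conj x).toMonoidHom : Subgroup G) : Set G)).subgroupOf
        (Subgroup.centralizer ((Q.map (MulAut.conj x).toMonoidHom : Subgroup G) : Set G))) =
        Nat.card (P ⊓ Subgroup.centralizer
          ((Q.map (MulAut.conj x).toMonoidHom : Subgroup G) : Set G) : Subgroup G) :=
      Nat.card_congr (Subgroup.subgroupOfEquivOfLe inf_le_right).toEquiv
    have h5 := Subgroup.eq_of_le_of_card_ge hWD (by rw [h3, ← hcard, h4]; exact h2)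
    rw [h5]
    exact hD

end Cfsg.Agent.S4688
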