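import Cfsg.Statements.S4693
import Cfsg.Agent.Lib.Helper77.SubBlock
import Cfsg.Agent.Lib.Helper77.FusionPairs

set_option autoImplicit false

open Cfsg

namespace Cfsg.Agent.S4693

open Cfsg.Agent.Lib.Helper77 Cfsg.Agent.Lib.Helper16 in
/-- Fix a prime p and a maximal ideal M of the algebraic integers containing p, a p-block B of the finite group G with maximal Brauer pair (P, e) and fusion system F on P, and a Brauer pair (Q, f) ≤ (P, e) with Q centric in F. Suppose every element of G normalizes Q and stabilizes f. Then the idempotent of B agrees with that of f modulo M at every element of G, and f is the idempotent of a nilpotent block of Q·C_G(Q): some p-block of Q·C_G(Q) has the idempotent coefficients of f and is nilpotent. -/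
theorem result {G : Type*} [Group G] [Fintype G] (p : ℕ) [Fact p.Prime] (M : Ideal Cfsg.AlgInt) (hM : Cfsg.IsPModular p M) (B : Set (Cfsg.IrrCharacter G)) (P : Subgroup G) (e : Set (Cfsg.IrrCharacter (Subgroup.centralizer (P : Set G)))) (hmax : Cfsg.IsMaximalBrauerPair p M B P e) (F : Cfsg.FusionSystem P) (hF : Cfsg.IsBlockFusionSystemOn p M B P e F) (Q : Subgroup G) (f : Set (Cfsg.IrrCharacter (Subgroup.centralizer (Q : Set G)))) (hQP : Q ≤ P) (hf : Cfsg.IsPBlock M f) (hle : Cfsg.SubpairLE p M Q f P e) (hcen : F.IsCentric Q) (hG : ∀ x : G, x ∈ Subgroup.normalizer (Q : Set G) ∧ Cfsg.StabilizesBlock (Subgroup.centralizer (Q : Set G)) f x) : (∀ g : G, Cfsg.MemLocalIdeal M (Cfsg.blockCoeff B g - Cfsg.subgroupBlockCoeff (Subgroup.centralizer (Q : Set G)) f g)) ∧ ∃ F' : Set (Cfsg.IrrCharacter ↥(Q ⊔ Subgroup.centralizer (Q : Set G))), Cfsg.IsPBlock M F' ∧ (∀ t : ↥(Q ⊔ Subgroup.centralizer (Q : Set G)), Cfsg.blockCoeff F' t = Cfsg.subgroupBlockCoeff (Subgroup.centralizer (Q : Set G)) f (t : G)) ∧ Cfsg.IsNilpotentBlock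 p M F' := by
  classical
  have hMp := isPrime_of_isPModular hM
  have hP : IsPGroup p P := hmax.1.1.1
  have hQ : IsPGroup p Q := hP.to_le hQP
  have hQn : Q.Normal := by
    constructor
    intro n hn g
    exact (Subgroup.mem_normalizer_iff.mp (hG g).1 n).mp hn
  have hBf : Cfsg.IsBrauerPairOf p M B Q f :=
    isBrauerPairOf_of_subpairLE_down hM (a := ⟨Q, f⟩) (b := ⟨P, e⟩) hle hmax.1
  have hfinC : Fintype (Subgroup.centralizer (Q : Set G)) := Fintype.ofFinite _
  refine ⟨?_, ?_⟩
  · obtain ⟨B', hB', hB'c⟩ := exists_block_of_stable_of_supp hMp (Subgroup.centralizer (Q : Set G))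
      f hf (fun x => (hG x).2)
      (fun A hA g hg => blockCoeff_eq_zero_of_not_mem_centralizer hM Q hQ A hA g hg)
    have hB'f : Cfsg.IsBrauerPairOf p M B' Q f := by
      refine ⟨⟨hQ, hf⟩, hB', fun ξ hξ => ?_⟩
      have e1 : Cfsg.blockCoeff B' = ext0 (Subgroup.centralizer (Q : Set G)) (Cfsg.blockCoeff f) :=
        funext (fun g => by rw [hB'c, subgroupBlockCoeff_eq_ext0])
      rw [e1, brauerOmega_eq_omegaF, res_ext0, omegaF_blockCoeff_set, if_pos hξ, sub_self]
      exact memLocalIdeal_zero hMp
    have hBB' : B = B' := isBrauerPairOf_unique hM hBf hB'f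
    intro g
    rw [hBB', hB'c, sub_self]
    exact memLocalIdeal_zero hMp
  · have hKL : Subgroup.centralizer (Q : Set G) ≤ Q ⊔ Subgroup.centralizer (Q : Set G) :=
      le_sup_right
    have hLN : Q ⊔ Subgroup.centralizer (Q : Set G) ≤
        Subgroup.normalizer ((Subgroup.centralizer (Q : Set G) : Subgroup G) : Set G) :=
      fun x _ => normalizer_le_normalizer_centralizer Q (hG x).1
    have hCn : (Subgroup.centralizer (Q : Set G)).Normal := by
      constructor
      intro n hn g
      exact (Subgroup.mem_normalizer_iff.mp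
        (normalizer_le_normalizer_centralizer Q (hG g).1) n).mp hn
    have hidx : ∃ k : ℕ, (Subgroup.centralizer (Q : Set G)).relIndex
        (Q ⊔ Subgroup.centralizer (Q : Set G)) = p ^ k := by
      rw [Subgroup.relIndex_sup_right]
      obtain ⟨n, hn⟩ := IsPGroup.iff_card.mp hQ
      have h1 := Subgroup.relIndex_dvd_card (Subgroup.centralizer (Q : Set G)) Q
      rw [hn] at h1
      obtain ⟨j, -, hj⟩ := (Nat.dvd_prime_pow (Fact.out : p.Prime)).mp h1
      exact ⟨j, hj⟩
    obtain ⟨F', hF', hF'c⟩ := exists_block_of_stable_relIndex hM hKL hLN hidx f hf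
      (fun x _ => (hG x).2)
    refine ⟨F', hF', hF'c, hF', ?_⟩
    intro R' g' hR'g' x hxn hxs hxreg
    have hfinL : Fintype ↥(Q ⊔ Subgroup.centralizer (Q : Set G)) := Fintype.ofFinite _
    have hn : ((Subgroup.centralizer (Q : Set G)).subgroupOf
        (Q ⊔ Subgroup.centralizer (Q : Set G))).Normal :=
      (Subgroup.normal_subgroupOf_iff_le_normalizer hKL).mpr hLN
    have hxN : x ∈ (Subgroup.centralizer (Q : Set G)).subgroupOf
        (Q ⊔ Subgroup.centralizer (Q : Set G)) := by
      by_contra hcon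
      exact hxreg (dvd_orderOf_of_not_mem _ hidx hcon)
    obtain ⟨c, hc, hcne⟩ := exists_not_memLocalIdeal_blockCoeff_of_isBrauerPairOf hMp hR'g'
    obtain ⟨D', hD', hR'D'⟩ := exists_isDefectGroup_ge hM hF' R' hR'g'.1.1 hc hcne
    obtain ⟨htop, hDN⟩ := sup_eq_top_and_isDefectGroup_inf_rel hM hKL hLN hidx f hf
      (fun x _ => (hG x).2) F' hF'c D' hD'
    have hZ := (isCentric_iff hM hF hQP hf hle).mp hcen
    have hZ' := isDefectGroup_pullSet hKL hZ
    have hQ'D' : Q.subgroupOf (Q ⊔ Subgroup.centralizer (Q : Set G)) ≤ D' :=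
      normal_pgroup_le_of_isDefectGroup hM _ hQ.comap_subtype hF' hD'
    suffices hsuff : D' ≤ Q.subgroupOf (Q ⊔ Subgroup.centralizer (Q : Set G)) by
      rw [Subgroup.mem_centralizer_iff]
      intro r hr
      have hrQ := hsuff (hR'D' hr)
      rw [Subgroup.mem_subgroupOf] at hrQ hxN
      apply Subtype.ext
      show (r : G) * (x : G) = (x : G) * (r : G)
      exact (Subgroup.mem_centralizer_iff.mp hxN) (r : G) hrQ
    have h1 := card_inf_mul_relIndex ((Subgroup.centralizer (Q : Set G)).subgroupOf
      (Q ⊔ Subgroup.centralizer (Q : Set G))) D'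
    have h2 := card_inf_mul_relIndex ((Subgroup.centralizer (Q : Set G)).subgroupOf
      (Q ⊔ Subgroup.centralizer (Q : Set G))) (Q.subgroupOf (Q ⊔ Subgroup.centralizer (Q : Set G)))
    have h3 : ((Subgroup.centralizer (Q : Set G)).subgroupOf
        (Q ⊔ Subgroup.centralizer (Q : Set G))).relIndex D' =
        ((Subgroup.centralizer (Q : Set G)).subgroupOf
          (Q ⊔ Subgroup.centralizer (Q : Set G))).index := by
      rw [← Subgroup.relIndex_sup_left, htop, Subgroup.relIndex_top_right]
    have h4 : ((Subgroup.centralizer (Q : Set G)).subgroupOf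
        (Q ⊔ Subgroup.centralizer (Q : Set G))).relIndex
          (Q.subgroupOf (Q ⊔ Subgroup.centralizer (Q : Set G))) =
        ((Subgroup.centralizer (Q : Set G)).subgroupOf
          (Q ⊔ Subgroup.centralizer (Q : Set G))).index := by
      rw [← Subgroup.relIndex_sup_left, ← Subgroup.subgroupOf_sup hKL le_sup_left, sup_comm,
        Subgroup.subgroupOf_self, Subgroup.relIndex_top_right]
    have h5 : Nat.card (((Subgroup.centralizer (Q : Set G)).subgroupOf
        (Q ⊔ Subgroup.centralizer (Q : Set G)) ⊓ D' : Subgroup _)) =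
        Nat.card (Q ⊓ Subgroup.centralizer (Q : Set G) : Subgroup G) := by
      have e1 := card_eq_of_isDefectGroup hM (isPBlock_pullSet hMp hKL hf) hDN hZ'
      rw [Subgroup.card_map_of_injective (MulEquiv.injective _)] at e1
      have e2 : Nat.card ((D' ⊓ (Subgroup.centralizer (Q : Set G)).subgroupOf
          (Q ⊔ Subgroup.centralizer (Q : Set G))).subgroupOf
          ((Subgroup.centralizer (Q : Set G)).subgroupOf
            (Q ⊔ Subgroup.centralizer (Q : Set G)))) =
          Nat.card (D' ⊓ (Subgroup.centralizer (Q : Set G)).subgroupOf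
            (Q ⊔ Subgroup.centralizer (Q : Set G)) : Subgroup _) :=
        Nat.card_congr (Subgroup.subgroupOfEquivOfLe inf_le_right).toEquiv
      have e3 : Nat.card ((Q ⊓ Subgroup.centralizer (Q : Set G)).subgroupOf
          (Subgroup.centralizer (Q : Set G))) =
          Nat.card (Q ⊓ Subgroup.centralizer (Q : Set G) : Subgroup G) :=
        Nat.card_congr (Subgroup.subgroupOfEquivOfLe inf_le_right).toEquiv
      rw [inf_comm, ← e2, e1, e3]
    have h6 : Nat.card (((Subgroup.centralizer (Q : Set G)).subgroupOf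
        (Q ⊔ Subgroup.centralizer (Q : Set G)) ⊓
          Q.subgroupOf (Q ⊔ Subgroup.centralizer (Q : Set G)) : Subgroup _)) =
        Nat.card (Q ⊓ Subgroup.centralizer (Q : Set G) : Subgroup G) := by
      have e1 : (Subgroup.centralizer (Q : Set G)).subgroupOf
          (Q ⊔ Subgroup.centralizer (Q : Set G)) ⊓
            Q.subgroupOf (Q ⊔ Subgroup.centralizer (Q : Set G)) =
          (Q ⊓ Subgroup.centralizer (Q : Set G)).subgroupOf
            (Q ⊔ Subgroup.centralizer (Q : Set G)) := by
        ext y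
        simp only [Subgroup.mem_inf, Subgroup.mem_subgroupOf]
        tauto
      rw [e1]
      exact Nat.card_congr (Subgroup.subgroupOfEquivOfLe (inf_le_left.trans le_sup_left)).toEquiv
    have hcard : Nat.card D' ≤
        Nat.card (Q.subgroupOf (Q ⊔ Subgroup.centralizer (Q : Set G))) := by
      rw [← h1, ← h2, h3, h4, h5, h6]
    exact (Subgroup.eq_of_le_of_card_ge hQ'D' hcard).ge

end Cfsg.Agent.S4693
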