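import Cfsg.Statements.S4706
import Mathlib
import Cfsg.Agent.S0675
import Cfsg.Agent.S1013
import Cfsg.Agent.S4702
import Cfsg.Agent.Lib.Helper12.PrimeDeg2

set_option autoImplicit false
open Cfsg

namespace Cfsg.Agent.S4706

open MulAction

/-- Fixed points of `g` on `k`-tuples of distinct points. -/
theorem card_fixedBy_emb {G α : Type*} [Group G] [MulAction G α] [Finite α] (g : G) (k : ℕ) :
    Nat.card (fixedBy (Fin k ↪ α) g) = (Nat.card (fixedBy α g)).descFactorial k := by
  classical
  haveI : Fintype α := Fintype.ofFinite α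
  haveI : Fintype (fixedBy α g) := Fintype.ofFinite _
  have e : fixedBy (Fin k ↪ α) g ≃ (Fin k ↪ fixedBy α g) :=
    { toFun := fun x => ⟨fun i => ⟨x.1 i, by
          have h := x.2
          rw [mem_fixedBy] at h ⊢
          exact congrArg (fun y : Fin k ↪ α => y i) h⟩,
          fun i j hij => x.1.injective (congrArg Subtype.val hij)⟩
      invFun := fun y => ⟨y.trans (Function.Embedding.subtype _), by
          rw [mem_fixedBy]
          ext i
          exact (y i).2⟩
      left_inv := fun x => by ext i; rfl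
      right_inv := fun y => by ext i; rfl }
  rw [Nat.card_congr e, Nat.card_eq_fintype_card, Fintype.card_embedding_eq, Fintype.card_fin,
    Nat.card_eq_fintype_card]

/-- Burnside's lemma with `Nat.card`. -/
theorem burnside_nat {G β : Type*} [Group G] [MulAction G β] [Fintype G] [Finite β] :
    ∑ g : G, Nat.card (fixedBy β g) = Nat.card (orbitRel.Quotient G β) * Nat.card G := by
  classical
  haveI : Fintype β := Fintype.ofFinite β
  haveI : ∀ g : G, Fintype (fixedBy β g) := fun g => Fintype.ofFinite _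
  haveI : Fintype (Quotient (orbitRel G β)) := Fintype.ofFinite _
  have h := sum_card_fixedBy_eq_card_orbits_mul_card_group G β
  simp only [Nat.card_eq_fintype_card]
  exact h

/-- The pointwise inequality behind the count. -/
theorem pointwise_le (p n : ℕ) (hn : n ≤ p) :
    n.descFactorial 3 + 2 * p * n + (if n = 0 then 2 * p else 0) ≤
      p * n.descFactorial 2 + 2 * p := by
  rcases n with _ | _ | _ | m
  · simp
  · simp [Nat.descFactorial]
  · simp [Nat.descFactorial]; nlinarith
  · have h1 : (m + 3).descFactorial 3 = (m + 1) * ((m + 2) * (m + 3)) := by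
      simp [Nat.descFactorial]
    have h2 : (m + 3).descFactorial 2 = (m + 2) * (m + 3) := by
      simp [Nat.descFactorial]
    rw [h1, h2, if_neg (by omega)]
    have h3 : m + 3 ≤ p := hn
    have h4 : (m + 3) * ((m + 1) * (m + 2)) ≤ p * ((m + 1) * (m + 2)) :=
      Nat.mul_le_mul_right _ h3
    nlinarith

theorem pointwise_lt (p n : ℕ) (hn : n < p) (h3 : 3 ≤ n) :
    n.descFactorial 3 + 2 * p * n + (if n = 0 then 2 * p else 0) <
      p * n.descFactorial 2 + 2 * p := by
  obtain ⟨m, rfl⟩ : ∃ m, n = m + 3 := ⟨n - 3, by omega⟩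
  have h1 : (m + 3).descFactorial 3 = (m + 1) * ((m + 2) * (m + 3)) := by
    simp [Nat.descFactorial]
  have h2 : (m + 3).descFactorial 2 = (m + 2) * (m + 3) := by
    simp [Nat.descFactorial]
  rw [h1, h2, if_neg (by omega)]
  have h3' : m + 4 ≤ p := hn
  have h4 : (m + 4) * ((m + 1) * (m + 2)) ≤ p * ((m + 1) * (m + 2)) :=
    Nat.mul_le_mul_right _ h3'
  nlinarith

/-- An element conjugating a nonidentity element of a subgroup of prime order into the subgroup
normalizes it. -/
theorem mem_normalizer_of_conj {G : Type*} [Group G] (P : Subgroup G) {p : ℕ} [Fact p.Prime]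
    (hP : Nat.card P = p) {h y : G} (hy : y ∈ P) (hy1 : y ≠ 1) (hc : h * y * h⁻¹ ∈ P) :
    h ∈ Subgroup.normalizer (P : Set G) := by
  have gen : ∀ {v : G}, v ∈ P → v ≠ 1 → ∀ u ∈ P, ∃ k : ℤ, v ^ k = u := by
    intro v hv hv1 u hu
    have h1 : (⟨u, hu⟩ : P) ∈ Subgroup.zpowers (⟨v, hv⟩ : P) :=
      mem_zpowers_of_prime_card hP (fun h => hv1 (congrArg Subtype.val h))
    obtain ⟨k, hk⟩ := Subgroup.mem_zpowers_iff.mp h1
    exact ⟨k, by simpa using congrArg Subtype.val hk⟩
  rw [Subgroup.mem_normalizer_iff]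
  intro u
  constructor
  · intro hu
    obtain ⟨k, rfl⟩ := gen hy hy1 u hu
    rw [← conj_zpow]
    exact P.zpow_mem hc k
  · intro hu
    have hy01 : h * y * h⁻¹ ≠ 1 := by
      intro h0
      apply hy1
      have : y = h⁻¹ * (h * y * h⁻¹) * h := by group
      rw [this, h0]
      group
    obtain ⟨k, hk⟩ := gen hc hy01 _ hu
    rw [conj_zpow] at hk
    have : y ^ k = u := by
      have h2 : h⁻¹ * (h * y ^ k * h⁻¹) * h = h⁻¹ * (h * u * h⁻¹) * h := by rw [hk]
      have e1 : h⁻¹ * (h * y ^ k * h⁻¹) * h = y ^ k := by group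
      have e2 : h⁻¹ * (h * u * h⁻¹) * h = u := by group
      rw [e1, e2] at h2
      exact h2
    rw [← this]
    exact P.zpow_mem hy k


/-- Let p > 2 be a prime and G a permutation group on p letters whose Sylow p-subgroup P has normalizer of order 2p. Then either P is normal in G, or p − 1 = 2^a for some a and G is isomorphic to SL(2, 2^a). -/
theorem result {α : Type*} [Fintype α] [DecidableEq α] {p : ℕ} [Fact p.Prime] (hp : 2 < p) (hα : Fintype.card α = p) (G : Subgroup (Equiv.Perm α)) (P : Sylow p G) (hN : Nat.card (Subgroup.normalizer ((P : Subgroup G) : Set G)) = 2 * p) : (P : Subgroup G).Normal ∨ ∃ (a : ℕ) (F : Type) (_ : Field F) (_ : Fintype F), p = 2 ^ a + 1 ∧ Fintype.card F = 2 ^ a ∧ Nonempty (G ≃* Matrix.SpecialLinearGroup (Fin 2) F) := by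
  classical
  have hpp : p.Prime := Fact.out
  by_cases hnorm : (P : Subgroup G).Normal
  · exact Or.inl hnorm
  right
  haveI : Fintype G := Fintype.ofFinite G
  -- the order of `P`
  have hPdvd : Nat.card (P : Subgroup G) ∣ 2 * p := by
    rw [← hN]
    exact Subgroup.card_dvd_of_le Subgroup.le_normalizer
  have hPne : (P : Subgroup G) ≠ ⊥ := by
    intro h
    apply hnorm
    rw [h]
    infer_instance
  obtain ⟨k, hk⟩ := IsPGroup.iff_card.mp P.isPGroup'
  have hPcard : Nat.card (P : Subgroup G) = p := by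
    have hk0 : k ≠ 0 := by
      rintro rfl
      rw [pow_zero] at hk
      exact hPne (Subgroup.eq_bot_of_card_eq _ hk)
    have hk2 : k < 2 := by
      by_contra hcon
      have h1 : p ^ 2 ∣ 2 * p := by
        rw [hk] at hPdvd
        exact (pow_dvd_pow p (by omega)).trans hPdvd
      rw [pow_two] at h1
      have h2 : p ∣ 2 := Nat.dvd_of_mul_dvd_mul_right hpp.pos h1
      have := Nat.le_of_dvd (by norm_num) h2
      omega
    have : k = 1 := by omega
    rw [hk, this, pow_one]
  -- a generator
  obtain ⟨x, hx1⟩ := Subgroup.ne_bot_iff_exists_ne_one.mp hPne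
  have hxord : orderOf x = p := by
    apply orderOf_eq_prime _ hx1
    have h5 : x ^ Nat.card (P : Subgroup G) = 1 := pow_card_eq_one'
    rwa [hPcard] at h5
  have hxord' : orderOf (((x : G) : Equiv.Perm α)) = p := by
    rw [Subgroup.orderOf_coe, Subgroup.orderOf_coe, hxord]
  obtain ⟨e, he⟩ := Lib.Helper12.PrimeDeg2.exists_coord_of_orderOf hα
    (((x : G) : Equiv.Perm α)) hxord'
  haveI htrans : IsPretransitive G α := by
    refine ⟨fun a b => ?_⟩
    refine ⟨(x : G) ^ (e b - e a).val, ?_⟩
    apply e.injective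
    have h1 := Lib.Helper12.PrimeDeg2.coord_pow e (((x : G) : Equiv.Perm α)) he (e b - e a).val a
    show e ((((x : G) ^ (e b - e a).val : G) : Equiv.Perm α) a) = e b
    rw [Subgroup.coe_pow, h1, ZMod.natCast_zmod_val]
    ring
  have hn : 1 < Nat.card (Sylow p G) := by
    have hidx : (Subgroup.normalizer ((P : Subgroup G) : Set G)).index = Nat.card (Sylow p G) :=
      (Sylow.card_eq_index_normalizer P).symm
    by_contra h
    have h1 : (Subgroup.normalizer ((P : Subgroup G) : Set G)).index = 1 := by
      have h0 : (Subgroup.normalizer ((P : Subgroup G) : Set G)).index ≠ 0 :=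
        Subgroup.index_ne_zero_of_finite
      omega
    exact hnorm (Subgroup.normalizer_eq_top_iff.mp (Subgroup.index_eq_one.mp h1))
  have ht : (((P : Subgroup G).subgroupOf
      (Subgroup.normalizer ((P : Subgroup G) : Set G))).index).Prime := by
    have h1 := Subgroup.card_mul_index ((P : Subgroup G).subgroupOf
      (Subgroup.normalizer ((P : Subgroup G) : Set G)))
    rw [hN] at h1
    have h2 : Nat.card ((P : Subgroup G).subgroupOf
        (Subgroup.normalizer ((P : Subgroup G) : Set G))) = p := by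
      exact (Nat.card_congr (Subgroup.subgroupOfEquivOfLe Subgroup.le_normalizer).toEquiv).trans
        hPcard
    rw [h2] at h1
    have h3 : ((P : Subgroup G).subgroupOf
        (Subgroup.normalizer ((P : Subgroup G) : Set G))).index = 2 := by
      have h4 : p * ((P : Subgroup G).subgroupOf
        (Subgroup.normalizer ((P : Subgroup G) : Set G))).index = p * 2 := by
        rw [h1]; ring
      exact Nat.eq_of_mul_eq_mul_left hpp.pos h4
    rw [h3]
    exact Nat.prime_two
  have hsimple := Cfsg.Agent.S1013.result hα G P hn ht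
  have hns : ¬ Group.IsSolvable G := by
    intro hs
    have hc : ∀ a b : G, a * b = b * a := (IsSimpleGroup.comm_iff_isSolvable).mpr hs
    apply hnorm
    refine ⟨fun n hn g => ?_⟩
    rw [hc g n, mul_inv_cancel_right]
    exact hn
  have h2t : IsMultiplyPretransitive G α 2 :=
    (Cfsg.Agent.S0675.result (by rw [hα]; exact hpp) G).resolve_left hns
  -- fixed point counts
  obtain ⟨f, hfdef⟩ : ∃ f : G → ℕ, f = fun g => Nat.card (fixedBy α g) := ⟨_, rfl⟩
  have hf_ncard : ∀ g : G, f g = (fixedBy α g).ncard := by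
    intro g
    rw [hfdef]
    exact Nat.card_coe_set_eq _
  have hf_le : ∀ g, f g ≤ p := by
    intro g
    rw [hf_ncard]
    have h1 := Set.ncard_le_ncard (Set.subset_univ (fixedBy α g)) (Set.toFinite _)
    rwa [Set.ncard_univ, Nat.card_eq_fintype_card, hα] at h1
  have hf_eq : ∀ g : G, g ≠ 1 → f g < p := by
    intro g hne
    obtain ⟨a, ha⟩ : ∃ a : α, g • a ≠ a := by
      by_contra hcon
      push Not at hcon
      apply hne
      apply Subtype.ext
      exact Equiv.ext (fun a => hcon a)
    have h1 : fixedBy α g ⊂ Set.univ := by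
      rw [Set.ssubset_univ_iff]
      intro h
      have : a ∈ fixedBy α g := by rw [h]; trivial
      exact ha this
    have h2 := Set.ncard_lt_ncard h1 (Set.toFinite _)
    rw [Set.ncard_univ, Nat.card_eq_fintype_card, hα] at h2
    rw [hf_ncard]
    exact h2
  have hp3 : 3 ≤ p := by omega
  haveI hαne : Nonempty α := by
    rw [← Fintype.card_pos_iff, hα]
    exact hpp.pos
  haveI hne2 : Nonempty (Fin 2 ↪ α) :=
    Function.Embedding.nonempty_of_card_le (by rw [Fintype.card_fin, hα]; omega)
  haveI hne3 : Nonempty (Fin 3 ↪ α) :=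
    Function.Embedding.nonempty_of_card_le (by rw [Fintype.card_fin, hα]; omega)
  have B1 : ∑ g : G, f g = Nat.card G := by
    have h := burnside_nat (G := G) (β := α)
    have h1 : Nat.card (orbitRel.Quotient G α) = 1 := by
      haveI := ((pretransitive_iff_unique_quotient_of_nonempty (G := G) (α := α)).mp
        htrans).some
      exact Nat.card_unique
    rw [h1, one_mul] at h
    rw [hfdef]
    exact h
  have B2 : ∑ g : G, (f g).descFactorial 2 = Nat.card G := by
    have h := burnside_nat (G := G) (β := Fin 2 ↪ α)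
    have h1 : Nat.card (orbitRel.Quotient G (Fin 2 ↪ α)) = 1 := by
      haveI := ((pretransitive_iff_unique_quotient_of_nonempty (G := G)
        (α := Fin 2 ↪ α)).mp h2t).some
      exact Nat.card_unique
    rw [h1, one_mul] at h
    rw [← h, hfdef]
    exact Finset.sum_congr rfl (fun g _ => (card_fixedBy_emb g 2).symm)
  obtain ⟨c, hc⟩ : ∃ c : ℕ, c = Nat.card (orbitRel.Quotient G (Fin 3 ↪ α)) := ⟨_, rfl⟩
  have B3 : ∑ g : G, (f g).descFactorial 3 = c * Nat.card G := by
    rw [hc, ← burnside_nat (G := G) (β := Fin 3 ↪ α), hfdef]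
    exact Finset.sum_congr rfl (fun g _ => (card_fixedBy_emb g 3).symm)
  have hc1 : 1 ≤ c := by
    rw [hc]
    haveI : Nonempty (orbitRel.Quotient G (Fin 3 ↪ α)) :=
      ⟨Quotient.mk'' (Classical.arbitrary _)⟩
    exact Nat.card_pos
  -- elements of order `p` have no fixed points
  have hder : ∀ g : G, orderOf g = p → f g = 0 := by
    intro g hg
    have hσ : ((g : Equiv.Perm α)) ^ p ^ 1 = 1 := by
      rw [pow_one, ← Subgroup.coe_pow, ← hg, pow_orderOf_eq_one]
      rfl
    have hmod := Equiv.Perm.card_compl_support_modEq (p := p) (n := 1) hσ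
    have hfix : f g = ((g : Equiv.Perm α).supportᶜ).card := by
      rw [hf_ncard, ← Set.ncard_coe_finset]
      congr 1
      ext a
      simp only [mem_fixedBy, Finset.coe_compl, Set.mem_compl_iff, Finset.mem_coe,
        Equiv.Perm.mem_support, not_not]
      rfl
    rw [← hfix, hα] at hmod
    have hdvd : p ∣ f g := (Nat.modEq_zero_iff_dvd.mp (hmod.trans (by simp [Nat.ModEq])))
    have hg1 : g ≠ 1 := by
      rintro rfl
      rw [orderOf_one] at hg
      exact hpp.one_lt.ne hg
    have hlt := hf_eq g hg1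
    exact Nat.eq_zero_of_dvd_of_lt hdvd hlt
  -- counting the elements of order `p`
  obtain ⟨D, hD⟩ : ∃ D : Finset G, D = Finset.univ.filter (fun g : G => f g = 0) := ⟨_, rfl⟩
  obtain ⟨q, hq⟩ : ∃ q, p = q + 1 := ⟨p - 1, by omega⟩
  have hDcount : q * Nat.card G ≤ 2 * p * D.card := by
    obtain ⟨Q, hQ⟩ : ∃ Q : Finset G, Q = (Finset.univ.filter
      (fun y : G => y ∈ (P : Subgroup G))).erase 1 := ⟨_, rfl⟩
    have hQcard : Q.card = q := by
      rw [hQ, Finset.card_erase_of_mem (by simp [one_mem]), ← Fintype.card_subtype,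
        ← Nat.card_eq_fintype_card]
      have : Nat.card {y : G // y ∈ (P : Subgroup G)} = p := hPcard
      rw [this, hq]
      rfl
    have hQmem : ∀ y : G, y ∈ Q ↔ y ∈ (P : Subgroup G) ∧ y ≠ 1 := by
      intro y
      rw [hQ]
      simp [and_comm]
    obtain ⟨S, hS⟩ : ∃ S : Finset (G × G), S = (Finset.univ : Finset G) ×ˢ Q := ⟨_, rfl⟩
    obtain ⟨φ, hφ⟩ : ∃ φ : G × G → G, φ = fun z => z.1 * z.2 * z.1⁻¹ := ⟨_, rfl⟩
    obtain ⟨NN, hNN⟩ : ∃ NN : Finset G, NN = Finset.univ.filter
      (fun y : G => y ∈ Subgroup.normalizer ((P : Subgroup G) : Set G)) := ⟨_, rfl⟩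
    have hNNcard : NN.card = 2 * p := by
      rw [hNN, ← Fintype.card_subtype, ← Nat.card_eq_fintype_card]
      exact hN
    have hScard : S.card = Nat.card G * q := by
      rw [hS, Finset.card_product, hQcard, Finset.card_univ, Nat.card_eq_fintype_card]
    have hfib : ∀ w ∈ S.image φ, (S.filter (fun z => φ z = w)).card ≤ 2 * p := by
      intro w hw
      obtain ⟨z₀, hz₀S, hz₀⟩ := Finset.mem_image.mp hw
      rw [← hNNcard]
      apply Finset.card_le_card_of_injOn (fun z => z₀.1⁻¹ * z.1)
      · intro z hz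
        rw [Finset.mem_coe] at hz ⊢
        have hz' := Finset.mem_filter.mp hz
        have hzS : z.2 ∈ Q := by
          have := hz'.1
          rw [hS, Finset.mem_product] at this
          exact this.2
        have hz₀Q : z₀.2 ∈ Q := by
          rw [hS, Finset.mem_product] at hz₀S
          exact hz₀S.2
        rw [hQmem] at hzS hz₀Q
        rw [hNN, Finset.mem_filter]
        refine ⟨Finset.mem_univ _, ?_⟩
        apply mem_normalizer_of_conj (P : Subgroup G) hPcard hzS.1 hzS.2
        have h1 : φ z = φ z₀ := hz'.2.trans hz₀.symm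
        rw [hφ] at h1
        simp only at h1
        have h2 : z₀.1⁻¹ * z.1 * z.2 * (z₀.1⁻¹ * z.1)⁻¹ = z₀.1⁻¹ * (z.1 * z.2 * z.1⁻¹) * z₀.1 := by
          group
        rw [h2, h1]
        have h3 : z₀.1⁻¹ * (z₀.1 * z₀.2 * z₀.1⁻¹) * z₀.1 = z₀.2 := by group
        rw [h3]
        exact hz₀Q.1
      · intro z hz z' hz' hzz
        have hz1 := (Finset.mem_filter.mp (Finset.mem_coe.mp hz)).2
        have hz1' := (Finset.mem_filter.mp (Finset.mem_coe.mp hz')).2
        have h1 : z.1 = z'.1 := mul_left_cancel hzz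
        have h2 : z.2 = z'.2 := by
          rw [hφ] at hz1 hz1'
          simp only at hz1 hz1'
          have h3 : z.1 * z.2 * z.1⁻¹ = z.1 * z'.2 * z.1⁻¹ := by
            rw [hz1, ← hz1', h1]
          exact mul_left_cancel (mul_right_cancel h3)
        exact Prod.ext h1 h2
    have h1 := Finset.card_le_mul_card_image S (2 * p) hfib
    have h2 : (S.image φ).card ≤ D.card := by
      apply Finset.card_le_card
      intro w hw
      obtain ⟨z, hzS, hz⟩ := Finset.mem_image.mp hw
      rw [hS, Finset.mem_product] at hzS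
      have hzQ := (hQmem z.2).mp hzS.2
      rw [hD]
      simp only [Finset.mem_filter, Finset.mem_univ, true_and]
      apply hder
      rw [← hz, hφ]
      simp only
      have hconj : orderOf (z.1 * z.2 * z.1⁻¹) = orderOf z.2 :=
        (SemiconjBy.orderOf_eq z.1 (x := z.2) (y := z.1 * z.2 * z.1⁻¹)
          (by unfold SemiconjBy; group)).symm
      rw [hconj]
      apply orderOf_eq_prime
      · have h5 : (⟨z.2, hzQ.1⟩ : (P : Subgroup G)) ^ Nat.card (P : Subgroup G) = 1 :=
          pow_card_eq_one'
        rw [hPcard] at h5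
        exact congrArg Subtype.val h5
      · exact hzQ.2
    calc q * Nat.card G = S.card := by rw [hScard, mul_comm]
    _ ≤ 2 * p * (S.image φ).card := h1
    _ ≤ 2 * p * D.card := Nat.mul_le_mul_left _ h2
  -- the sums
  have hsumL : ∑ g : G, ((f g).descFactorial 3 + 2 * p * f g + (if f g = 0 then 2 * p else 0)) =
      c * Nat.card G + 2 * p * Nat.card G + 2 * p * D.card := by
    rw [Finset.sum_add_distrib, Finset.sum_add_distrib, B3, ← Finset.mul_sum, B1, Finset.sum_ite,
      Finset.sum_const, Finset.sum_const_zero, add_zero, smul_eq_mul, hD, mul_comm (Finset.card _)]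
  have hsumR : ∑ g : G, (p * (f g).descFactorial 2 + 2 * p) =
      p * Nat.card G + 2 * p * Nat.card G := by
    rw [Finset.sum_add_distrib, ← Finset.mul_sum, B2, Finset.sum_const, Finset.card_univ,
      smul_eq_mul, Nat.card_eq_fintype_card, mul_comm (Fintype.card G)]
  have hGpos : 0 < Nat.card G := Nat.card_pos
  have hcle : c ≤ 1 := by
    have h1 : ∑ g : G, ((f g).descFactorial 3 + 2 * p * f g + (if f g = 0 then 2 * p else 0)) ≤
        ∑ g : G, (p * (f g).descFactorial 2 + 2 * p) :=
      Finset.sum_le_sum (fun g _ => pointwise_le p (f g) (hf_le g))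
    rw [hsumL, hsumR] at h1
    have h2 : c * Nat.card G ≤ 1 * Nat.card G := by
      rw [hq] at h1 hDcount
      nlinarith
    exact Nat.le_of_mul_le_mul_right h2 hGpos
  have h3t : IsMultiplyPretransitive G α 3 := by
    haveI : Subsingleton (orbitRel.Quotient G (Fin 3 ↪ α)) :=
      (Finite.card_le_one_iff_subsingleton).mp (hc ▸ hcle)
    exact (pretransitive_iff_subsingleton_quotient (G := G) (α := Fin 3 ↪ α)).mpr this
  have hfix : ∀ g : G, 3 ≤ Nat.card (fixedBy α g) → g = 1 := by
    intro g hg
    by_contra hne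
    have hg' : 3 ≤ f g := by rw [hfdef]; exact hg
    have h1 : ∑ g : G, ((f g).descFactorial 3 + 2 * p * f g + (if f g = 0 then 2 * p else 0)) <
        ∑ g : G, (p * (f g).descFactorial 2 + 2 * p) :=
      Finset.sum_lt_sum (fun g _ => pointwise_le p (f g) (hf_le g))
        ⟨g, Finset.mem_univ g, pointwise_lt p (f g) (hf_eq g hne) hg'⟩
    rw [hsumL, hsumR] at h1
    rw [hq] at h1 hDcount
    nlinarith
  have hodd : Odd (Fintype.card α) := by
    rw [hα]
    exact hpp.odd_of_ne_two (by omega)
  obtain ⟨a, -, ha, F, fF, ftF, hF, hiso⟩ :=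
    Cfsg.Agent.S4702.result (by rw [hα]; exact hp3) hodd G h3t hfix
  exact ⟨a, F, fF, ftF, by rw [← hα]; exact ha, hF, hiso⟩

end Cfsg.Agent.S4706
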