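-- Statement S4708: principal block degree square sums and normal subgroups (via Lemma (L)).
import Mathlib
import Cfsg.Statements.S4708
import Cfsg.Agent.Lib.Helper74.LemmaL
import Cfsg.Agent.S0964
import Cfsg.Agent.Lib.Helper77.IrrMap

set_option autoImplicit false
open Cfsg

namespace Cfsg.Agent.S4708

open Cfsg.Agent.Lib.Helper16 Cfsg.Agent.Lib.Helper77

/-- a finite sum over a set as a filtered sum -/
theorem finsum_mem_eq_sum_filter' {α : Type*} [Fintype α] (s : Set α) [DecidablePred (· ∈ s)]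
    (f : α → ℕ) : ∑ᶠ a ∈ s, f a = ∑ a ∈ Finset.univ.filter (· ∈ s), f a := by
  rw [finsum_mem_eq_finite_toFinset_sum f (Set.toFinite s)]
  congr 1
  ext a
  simp

theorem sum_sq_le_sq_sum {ι : Type*} (s : Finset ι) (f : ι → ℕ) :
    ∑ i ∈ s, f i ^ 2 ≤ (∑ i ∈ s, f i) ^ 2 := by
  classical
  induction s using Finset.induction_on with
  | empty => simp
  | insert a s ha ih =>
    rw [Finset.sum_insert ha, Finset.sum_insert ha]
    nlinarith [ih, Nat.zero_le (f a * ∑ i ∈ s, f i)]

/-- Let p be a prime, M a maximal ideal of the algebraic integers containing p, G a finite group and H a normal subgroup. Write λ(X) for the sum of the squares of the degrees of the irreducible characters in the principal p-block of a group X. Then λ(H) ≤ λ(G) ≤ [G : H]·λ(H). -/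
theorem result {G : Type*} [Group G] [Finite G] (p : ℕ) [Fact p.Prime] (M : Ideal Cfsg.AlgInt) (hM : Cfsg.IsPModular p M) (H : Subgroup G) [H.Normal] : (∑ᶠ θ ∈ Cfsg.principalBlock M H, Cfsg.charDegree (θ : H → ℂ) ^ 2) ≤ (∑ᶠ χ ∈ Cfsg.principalBlock M G, Cfsg.charDegree (χ : G → ℂ) ^ 2) ∧ (∑ᶠ χ ∈ Cfsg.principalBlock M G, Cfsg.charDegree (χ : G → ℂ) ^ 2) ≤ H.index * ∑ᶠ θ ∈ Cfsg.principalBlock M H, Cfsg.charDegree (θ : H → ℂ) ^ 2 := by
  classical
  let _ := Fintype.ofFinite G
  let _ := Fintype.ofFinite H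
  haveI : Fintype (Cfsg.IrrCharacter G) := Fintype.ofFinite _
  haveI : Fintype (Cfsg.IrrCharacter H) := Fintype.ofFinite _
  have hPr := isPrime_of_isPModular hM
  set BG := Cfsg.principalBlock M G with hBG
  set BH := Cfsg.principalBlock M H with hBH
  -- multiplicities
  have hexp : ∀ χ : Cfsg.IrrCharacter G, ∃ m : Cfsg.IrrCharacter H → ℕ,
      (∀ θ : Cfsg.IrrCharacter H,
        Cfsg.classInner (fun n : H => (χ : G → ℂ) n) (θ : H → ℂ) = m θ) ∧
      (fun n : H => (χ : G → ℂ) n) = ∑ θ : Cfsg.IrrCharacter H, (m θ : ℂ) • (θ : H → ℂ) :=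
    fun χ => Cfsg.Agent.Lib.Helper80.character_expansion
      (Cfsg.Agent.Lib.Helper80.isCharacter_restrict H
        (Cfsg.Agent.Lib.Helper80.isCharacter_of_isIrrCharacter χ.2))
  choose m hm hmexp using hexp
  have hdegG : ∀ χ : Cfsg.IrrCharacter G, Cfsg.charDegree (χ : G → ℂ) =
      ∑ θ : Cfsg.IrrCharacter H, m χ θ * Cfsg.charDegree (θ : H → ℂ) := by
    intro χ
    have h := Cfsg.Agent.Lib.Helper80.charDegree_eq_sum
      (Cfsg.Agent.Lib.Helper80.isCharacter_restrict H
        (Cfsg.Agent.Lib.Helper80.isCharacter_of_isIrrCharacter χ.2)) (m χ) (hmexp χ)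
    exact h
  have hind : ∀ θ : Cfsg.IrrCharacter H,
      ∑ χ : Cfsg.IrrCharacter G, m χ θ * Cfsg.charDegree (χ : G → ℂ) =
        H.index * Cfsg.charDegree (θ : H → ℂ) := by
    intro θ
    have hφ : Cfsg.IsCharacter G (Cfsg.indFun H (θ : H → ℂ)) :=
      Cfsg.Agent.Lib.Helper80.isCharacter_indFun H
        (Cfsg.Agent.Lib.Helper80.isCharacter_of_isIrrCharacter θ.2)
    obtain ⟨m', hm', hexp'⟩ := Cfsg.Agent.Lib.Helper80.character_expansion hφ
    have h1 := Cfsg.Agent.Lib.Helper80.charDegree_eq_sum hφ m' hexp'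
    have h2 : ∀ χ : Cfsg.IrrCharacter G, m' χ = m χ θ := by
      intro χ
      have h3 := hm' χ
      rw [Cfsg.Agent.Lib.Helper80.frobenius_reciprocity H _ _
        (Cfsg.Agent.Lib.Helper80.isClassFunction_of_isCharacter
          (Cfsg.Agent.Lib.Helper80.isCharacter_of_isIrrCharacter χ.2)),
        ← Cfsg.Agent.Lib.Helper80.classInner_conj_symm, hm χ θ, Complex.conj_natCast] at h3
      exact_mod_cast h3.symm
    have h4 : Cfsg.charDegree (Cfsg.indFun H (θ : H → ℂ)) =
        H.index * Cfsg.charDegree (θ : H → ℂ) := by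
      have h5 := Cfsg.Agent.Lib.Helper80.char_one_eq_charDegree hφ
      rw [Cfsg.Agent.Lib.Helper80.indFun_one, Cfsg.Agent.Lib.Helper80.char_one_eq_charDegree
        (Cfsg.Agent.Lib.Helper80.isCharacter_of_isIrrCharacter θ.2)] at h5
      exact_mod_cast h5.symm
    rw [← h4, h1]
    exact Finset.sum_congr rfl (fun χ _ => by rw [h2 χ])
  -- Lemma (L): every θ ∈ B₀(H) lies under some χ ∈ B₀(G)
  obtain ⟨P⟩ : Nonempty (Sylow p G) := inferInstance
  have hlow : ∀ θ ∈ BH, ∃ χ ∈ BG, m χ θ ≠ 0 := by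
    intro θ hθ
    obtain ⟨χ, hχ, hne⟩ := Cfsg.Agent.Lib.Helper74.LemmaL.exists_over p M hM P H
      (fun x _ l hl => Subgroup.Normal.conj_mem inferInstance l hl x) θ hθ
    refine ⟨χ, hχ, ?_⟩
    intro h0
    apply hne
    rw [hm χ θ, h0]
    simp
  -- covering: constituents of characters of B₀(G) lie in B₀(H)
  have htriv : Cfsg.classInner (fun n : H => (trivIrr G : G → ℂ) n) (trivIrr H : H → ℂ) ≠ 0 := by
    have h1 : (fun n : H => (trivIrr G : G → ℂ) n) = (trivIrr H : H → ℂ) := rfl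
    rw [h1, Cfsg.Agent.Lib.Helper80.classInner_irr, if_pos rfl]
    exact one_ne_zero
  have hup : ∀ χ ∈ BG, ∀ θ : Cfsg.IrrCharacter H, m χ θ ≠ 0 → θ ∈ BH := by
    intro χ hχ ψ hψ
    have hψ' : Cfsg.classInner (fun n : H => (χ : G → ℂ) n) (ψ : H → ℂ) ≠ 0 := by
      rw [hm χ ψ]
      exact_mod_cast hψ
    obtain ⟨g, θ', hθ', hconj⟩ := Cfsg.Agent.S0964.result p M hM H BG
      (isPBlock_principalBlock M) BH (isPBlock_principalBlock M) (trivIrr G)
      (trivIrr_mem_principalBlock hPr) (trivIrr H) (trivIrr_mem_principalBlock hPr) htriv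
      χ hχ ψ hψ'
    intro n
    have h1 := hθ' (MulAut.conjNormal g n)
    have e1 : Cfsg.centralChar (fun _ : H => (1 : ℂ)) n =
        Cfsg.centralChar (fun _ : H => (1 : ℂ)) (MulAut.conjNormal g n) := by
      unfold Cfsg.centralChar
      rw [index_centralizer_map (MulAut.conjNormal g) n]
    have e2 : Cfsg.centralChar (ψ : H → ℂ) n =
        Cfsg.centralChar (θ' : H → ℂ) (MulAut.conjNormal g n) := by
      unfold Cfsg.centralChar
      rw [index_centralizer_map (MulAut.conjNormal g) n, hconj n, hconj 1]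
      have e3 : (⟨g * ((1 : H) : G) * g⁻¹, Subgroup.Normal.conj_mem inferInstance _ (1 : H).2 g⟩ : H)
          = 1 := by
        apply Subtype.ext
        simp
      rw [e3]
      rfl
    rw [e1, e2]
    exact h1
  rw [finsum_mem_eq_sum_filter', finsum_mem_eq_sum_filter']
  set FG := Finset.univ.filter (· ∈ BG) with hFG
  set FH := Finset.univ.filter (· ∈ BH) with hFH
  have hmemG : ∀ χ, χ ∈ FG ↔ χ ∈ BG := fun χ => by rw [hFG, Finset.mem_filter]; simp
  have hmemH : ∀ θ, θ ∈ FH ↔ θ ∈ BH := fun θ => by rw [hFH, Finset.mem_filter]; simp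
  constructor
  · calc ∑ θ ∈ FH, Cfsg.charDegree (θ : H → ℂ) ^ 2
        ≤ ∑ θ ∈ FH, ∑ χ ∈ FG, (if m χ θ ≠ 0 then Cfsg.charDegree (θ : H → ℂ) ^ 2 else 0) := by
          apply Finset.sum_le_sum
          intro θ hθ
          obtain ⟨χ, hχ, hne⟩ := hlow θ ((hmemH θ).mp hθ)
          calc Cfsg.charDegree (θ : H → ℂ) ^ 2
              = (if m χ θ ≠ 0 then Cfsg.charDegree (θ : H → ℂ) ^ 2 else 0) := by rw [if_pos hne]
            _ ≤ _ := Finset.single_le_sum
                (f := fun χ => if m χ θ ≠ 0 then Cfsg.charDegree (θ : H → ℂ) ^ 2 else 0)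
                (fun _ _ => Nat.zero_le _) ((hmemG χ).mpr hχ)
      _ = ∑ χ ∈ FG, ∑ θ ∈ FH, (if m χ θ ≠ 0 then Cfsg.charDegree (θ : H → ℂ) ^ 2 else 0) :=
          Finset.sum_comm
      _ ≤ ∑ χ ∈ FG, Cfsg.charDegree (χ : G → ℂ) ^ 2 := by
          apply Finset.sum_le_sum
          intro χ _
          calc ∑ θ ∈ FH, (if m χ θ ≠ 0 then Cfsg.charDegree (θ : H → ℂ) ^ 2 else 0)
              ≤ ∑ θ ∈ FH, (m χ θ * Cfsg.charDegree (θ : H → ℂ)) ^ 2 := by
                apply Finset.sum_le_sum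
                intro θ _
                split_ifs with h
                · have h1 : 1 ≤ m χ θ := Nat.one_le_iff_ne_zero.mpr h
                  calc Cfsg.charDegree (θ : H → ℂ) ^ 2
                      = (1 * Cfsg.charDegree (θ : H → ℂ)) ^ 2 := by ring
                    _ ≤ (m χ θ * Cfsg.charDegree (θ : H → ℂ)) ^ 2 :=
                        Nat.pow_le_pow_left (Nat.mul_le_mul_right _ h1) 2
                · exact Nat.zero_le _
            _ ≤ ∑ θ : Cfsg.IrrCharacter H, (m χ θ * Cfsg.charDegree (θ : H → ℂ)) ^ 2 :=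
                Finset.sum_le_sum_of_subset (Finset.subset_univ _)
            _ ≤ (∑ θ : Cfsg.IrrCharacter H, m χ θ * Cfsg.charDegree (θ : H → ℂ)) ^ 2 :=
                sum_sq_le_sq_sum _ _
            _ = Cfsg.charDegree (χ : G → ℂ) ^ 2 := by rw [← hdegG χ]
  · calc ∑ χ ∈ FG, Cfsg.charDegree (χ : G → ℂ) ^ 2
        = ∑ χ ∈ FG, Cfsg.charDegree (χ : G → ℂ) *
            ∑ θ ∈ FH, m χ θ * Cfsg.charDegree (θ : H → ℂ) := by
          apply Finset.sum_congr rfl
          intro χ hχ
          rw [sq]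
          congr 1
          rw [hdegG χ]
          symm
          apply Finset.sum_subset (Finset.subset_univ _)
          intro θ _ hθ
          by_contra hne
          apply hθ
          rw [hmemH]
          exact hup χ ((hmemG χ).mp hχ) θ (fun h0 => hne (by rw [h0, zero_mul]))
      _ = ∑ θ ∈ FH, Cfsg.charDegree (θ : H → ℂ) *
            ∑ χ ∈ FG, m χ θ * Cfsg.charDegree (χ : G → ℂ) := by
          simp_rw [Finset.mul_sum]
          rw [Finset.sum_comm]
          apply Finset.sum_congr rfl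
          intro θ _
          apply Finset.sum_congr rfl
          intro χ _
          ring
      _ ≤ ∑ θ ∈ FH, Cfsg.charDegree (θ : H → ℂ) *
            ∑ χ : Cfsg.IrrCharacter G, m χ θ * Cfsg.charDegree (χ : G → ℂ) := by
          apply Finset.sum_le_sum
          intro θ _
          apply Nat.mul_le_mul_left
          exact Finset.sum_le_sum_of_subset (Finset.subset_univ _)
      _ = ∑ θ ∈ FH, Cfsg.charDegree (θ : H → ℂ) * (H.index * Cfsg.charDegree (θ : H → ℂ)) := by
          simp_rw [hind]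
      _ = H.index * ∑ θ ∈ FH, Cfsg.charDegree (θ : H → ℂ) ^ 2 := by
          rw [Finset.mul_sum]
          apply Finset.sum_congr rfl
          intro θ _
          ring

end Cfsg.Agent.S4708
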