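-- Statement S4711: p-length one iff the principal block restricts irreducibly to the Sylow normalizer.
import Mathlib
import Cfsg.Statements.S4711
import Cfsg.Agent.Lib.Helper74.LemmaL
import Cfsg.Agent.Lib.Helper74.PLenOne
import Cfsg.Agent.Lib.Helper79.PrincSq
import Cfsg.Agent.Lib.Helper49.PPrimeP
import Cfsg.Agent.Lib.Helper69.PSolvable
import Cfsg.Agent.S0915

set_option autoImplicit false
open Cfsg

namespace Cfsg.Agent.S4711

open Cfsg.Agent.Lib.Helper16 Cfsg.Agent.Lib.Helper77 Cfsg.Agent.Lib.Helper63 Cfsg.Agent.Lib.Helper15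

/-- Let p be a prime, M a maximal ideal of the algebraic integers containing p, G a finite group, P a Sylow p-subgroup and N = N_G(P). Then G has p-length 1 (G = O_{p',p,p'}(G)) if and only if every irreducible character in the principal p-block of G restricts to an irreducible character of N. -/
theorem result {G : Type*} [Group G] [Finite G] (p : ℕ) [Fact p.Prime] (M : Ideal Cfsg.AlgInt) (hM : Cfsg.IsPModular p M) (P : Sylow p G) : Cfsg.PLengthLE p 1 G ↔ ∀ χ ∈ Cfsg.principalBlock M G, Cfsg.IsIrrCharacter ↥(Subgroup.normalizer ((P : Subgroup G) : Set G)) (fun n : ↥(Subgroup.normalizer ((P : Subgroup G) : Set G)) => (χ : G → ℂ) n) := by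
  classical
  have hp : p.Prime := Fact.out
  have hPr := isPrime_of_isPModular hM
  constructor
  · -- `p`-length one: `G = O_{p'}(G) N` and `O_{p'}(G)` is in the kernel of the principal block
    intro h χ hχ
    have hs := U_isPSeries p G
    rw [plengthLE_iff] at h
    obtain ⟨K, hKdef⟩ : ∃ K : Subgroup G, K = U p G 1 := ⟨_, rfl⟩
    obtain ⟨U2, hU2def⟩ : ∃ U2 : Subgroup G, U2 = U p G 2 := ⟨_, rfl⟩
    have hKn : K.Normal := by rw [hKdef]; exact hs.normal 1
    have hU2n : U2.Normal := by rw [hU2def]; exact hs.normal 2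
    have hKcop : (Nat.card K).Coprime p := by
      apply card_coprime_of_forall
      intro x hx
      rw [hKdef] at hx
      obtain ⟨m, hm, hxm⟩ := hs.even 0 (by decide) x hx
      rw [U_zero, Subgroup.mem_bot] at hxm
      exact ⟨m, hm, hxm⟩
    have hPU2 : (P : Subgroup G) ≤ U2 := by
      intro x hx
      have hx3 : x ∈ U p G (2 + 1) := by
        have h' : U p G (2 + 1) = ⊤ := h
        rw [h']; exact Subgroup.mem_top x
      obtain ⟨m, hm, hxm⟩ := hs.even 2 (by decide) x hx3
      obtain ⟨k, hk⟩ := P.2 ⟨x, hx⟩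
      have hk' : x ^ p ^ k = 1 := by
        have := congrArg Subtype.val hk
        simpa using this
      have h1 : orderOf x ∣ p ^ k := orderOf_dvd_of_pow_eq_one hk'
      have hc : (orderOf x).Coprime m :=
        Nat.Coprime.coprime_dvd_left h1 (Nat.Coprime.pow_left k hm.symm)
      rw [hU2def]
      exact nx_mem_of_pow_mem _ hc hxm
    have hKU2 : K ≤ U2 := by rw [hKdef, hU2def]; exact U_le_succ p G 1
    have hU2le : U2 ≤ K ⊔ (P : Subgroup G) := by
      rw [← Subgroup.relIndex_eq_one]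
      have hd1 : (K ⊔ (P : Subgroup G)).relIndex U2 ∣ K.relIndex U2 :=
        Subgroup.relIndex_dvd_of_le_left U2 le_sup_left
      have hd2 : (K ⊔ (P : Subgroup G)).relIndex U2 ∣ (P : Subgroup G).index :=
        (Subgroup.relIndex_dvd_of_le_left U2 le_sup_right).trans
          (Subgroup.relIndex_dvd_index_of_le hPU2)
      have hpg : IsPGroup p (↥U2 ⧸ K.subgroupOf U2) := by
        intro q
        obtain ⟨x, rfl⟩ := QuotientGroup.mk_surjective q
        have hx2 : (x : G) ∈ U p G (1 + 1) := hU2def.le x.2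
        obtain ⟨k, hk⟩ := hs.odd 1 (by decide) (x : G) hx2
        refine ⟨k, ?_⟩
        rw [← QuotientGroup.mk_pow, QuotientGroup.eq_one_iff, Subgroup.mem_subgroupOf, hKdef]
        simpa using hk
      obtain ⟨n, hn⟩ := IsPGroup.iff_card.mp hpg
      have h3 : K.relIndex U2 = p ^ n := by
        rw [← hn]
        exact Subgroup.index_eq_card _
      rw [h3] at hd1
      have hcop : ((K ⊔ (P : Subgroup G)).relIndex U2).Coprime (p ^ n) :=
        Nat.Coprime.pow_right n (Nat.Coprime.coprime_dvd_left hd2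
          ((Nat.Prime.coprime_iff_not_dvd hp).mpr P.not_dvd_index).symm)
      exact Nat.Coprime.eq_one_of_dvd hcop hd1
    have hsup : Subgroup.normalizer ((P : Subgroup G) : Set G) ⊔ K = ⊤ := by
      have h3 : Subgroup.normalizer ((P : Subgroup G) : Set G) ⊔ U2 = ⊤ :=
        Sylow.normalizer_sup_eq_top' P hPU2
      rw [eq_top_iff, ← h3]
      refine sup_le le_sup_left ?_
      exact hU2le.trans (sup_le le_sup_right (Subgroup.le_normalizer.trans le_sup_left))
    have hpK : ¬ p ∣ Nat.card K := (Nat.Prime.coprime_iff_not_dvd hp).mp hKcop.symm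
    obtain ⟨ψ, hψ, hψχ⟩ := (Cfsg.Agent.Lib.Helper79.principalBlock_bijOn_inflate K hM hpK).surjOn hχ
    obtain ⟨φ, hφdef⟩ : ∃ φ : ↥(Subgroup.normalizer ((P : Subgroup G) : Set G)) →* G ⧸ K,
        ∀ a, φ a = (QuotientGroup.mk' K) (a : G) :=
      ⟨(QuotientGroup.mk' K).comp (Subgroup.subtype _), fun a => rfl⟩
    have hφ : Function.Surjective φ := by
      intro q
      obtain ⟨g, rfl⟩ := QuotientGroup.mk'_surjective K q
      have hg : g ∈ Subgroup.normalizer ((P : Subgroup G) : Set G) ⊔ K := by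
        rw [hsup]; exact Subgroup.mem_top g
      obtain ⟨n, hn, k, hk, rfl⟩ := Subgroup.mem_sup_of_normal_right.mp hg
      refine ⟨⟨n, hn⟩, ?_⟩
      have hk1 : (QuotientGroup.mk' K) k = 1 := (QuotientGroup.eq_one_iff k).mpr hk
      rw [hφdef, map_mul, hk1, mul_one]
    have h5 := Cfsg.Agent.Lib.Helper80.isIrrCharacter_comp φ hφ ψ.2
    have h6 : (fun n : ↥(Subgroup.normalizer ((P : Subgroup G) : Set G)) => (χ : G → ℂ) n) =
        fun n => (ψ : G ⧸ K → ℂ) (φ n) := by
      funext n
      rw [← hψχ, hφdef]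
      rfl
    rw [h6]
    exact h5
  · -- every irreducible character of `N` trivial on `O_{p'}(N)` extends to `G`
    intro hirr
    apply Cfsg.Agent.Lib.Helper74.PLenOne.plengthLE_one_of_ext p P
      (Subgroup.normalizer ((P : Subgroup G) : Set G)) rfl
    intro D hDn hK0D ψ'
    let _ := Fintype.ofFinite ↥(Subgroup.normalizer ((P : Subgroup G) : Set G))
    obtain ⟨K0, hK0def⟩ : ∃ K0 : Subgroup ↥(Subgroup.normalizer ((P : Subgroup G) : Set G)),
        K0 = Cfsg.pPrimeCore p ↥(Subgroup.normalizer ((P : Subgroup G) : Set G)) := ⟨_, rfl⟩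
    rw [← hK0def] at hK0D
    have hK0n : K0.Normal := by
      rw [hK0def]; exact Cfsg.Agent.Lib.Helper22.pPrimeCore_normal' p _
    have hK0cop : (Nat.card K0).Coprime p := by
      rw [hK0def]; exact card_pPrimeCore_coprime' p _
    have hpK0 : ¬ p ∣ Nat.card K0 := (Nat.Prime.coprime_iff_not_dvd hp).mp hK0cop.symm
    have hPN : (P : Subgroup G) ≤ Subgroup.normalizer ((P : Subgroup G) : Set G) :=
      Subgroup.le_normalizer
    obtain ⟨PN, hPNcoe⟩ : ∃ PN : Sylow p ↥(Subgroup.normalizer ((P : Subgroup G) : Set G)),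
        (PN : Subgroup ↥(Subgroup.normalizer ((P : Subgroup G) : Set G))) =
          (P : Subgroup G).subgroupOf (Subgroup.normalizer ((P : Subgroup G) : Set G)) :=
      ⟨P.subtype hPN, rfl⟩
    have hPNn : (PN : Subgroup ↥(Subgroup.normalizer ((P : Subgroup G) : Set G))).Normal := by
      rw [hPNcoe]; infer_instance
    have hsolvN : Cfsg.IsPSolvable p ↥(Subgroup.normalizer ((P : Subgroup G) : Set G)) :=
      Cfsg.Agent.Lib.Helper49.isPSolvable_of_normal_sylow PN hPNn
    have hsolv : Cfsg.IsPSolvable p (↥(Subgroup.normalizer ((P : Subgroup G) : Set G)) ⧸ K0) :=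
      Cfsg.Agent.Lib.Helper69.isPSolvable_of_surj p (QuotientGroup.mk' K0)
        (QuotientGroup.mk'_surjective K0) hsolvN
    have hcore : Cfsg.pPrimeCore p (↥(Subgroup.normalizer ((P : Subgroup G) : Set G)) ⧸ K0) = ⊥ := by
      subst hK0def
      exact Cfsg.Agent.Lib.Helper22.pPrimeCore_quotient_eq_bot p _
    obtain ⟨φ, hφdef⟩ : ∃ φ : ↥(Subgroup.normalizer ((P : Subgroup G) : Set G)) ⧸ K0 →*
        ↥(Subgroup.normalizer ((P : Subgroup G) : Set G)) ⧸ D,
        ∀ a : ↥(Subgroup.normalizer ((P : Subgroup G) : Set G)),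
          φ (a : ↥(Subgroup.normalizer ((P : Subgroup G) : Set G)) ⧸ K0) =
            (a : ↥(Subgroup.normalizer ((P : Subgroup G) : Set G)) ⧸ D) :=
      ⟨QuotientGroup.lift K0 (QuotientGroup.mk' D)
        (fun x hx => (QuotientGroup.eq_one_iff x).mpr (hK0D hx)), fun a => rfl⟩
    have hφ : Function.Surjective φ := by
      intro q
      obtain ⟨x, rfl⟩ := QuotientGroup.mk_surjective q
      exact ⟨(x : ↥(Subgroup.normalizer ((P : Subgroup G) : Set G)) ⧸ K0), hφdef x⟩
    obtain ⟨ψ2, hψ2def⟩ : ∃ ψ2 : Cfsg.IrrCharacter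
        (↥(Subgroup.normalizer ((P : Subgroup G) : Set G)) ⧸ K0),
        ∀ q, (ψ2 : _ → ℂ) q = (ψ' : _ → ℂ) (φ q) :=
      ⟨⟨fun q => (ψ' : _ → ℂ) (φ q), Cfsg.Agent.Lib.Helper80.isIrrCharacter_comp φ hφ ψ'.2⟩,
        fun q => rfl⟩
    have hψ2 : ψ2 ∈ Cfsg.principalBlock M
        (↥(Subgroup.normalizer ((P : Subgroup G) : Set G)) ⧸ K0) :=
      Cfsg.Agent.S0915.result p M hM hsolv hcore (trivIrr _) ψ2
    have hθ := (Cfsg.Agent.Lib.Helper79.principalBlock_bijOn_inflate K0 hM hpK0).mapsTo hψ2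
    obtain ⟨χ, hχ, hne⟩ := Cfsg.Agent.Lib.Helper74.LemmaL.exists_over p M hM P
      (Subgroup.normalizer ((P : Subgroup G) : Set G))
      (fun x hx l hl => Subgroup.mul_mem _ (Subgroup.mul_mem _ (hPN hx) hl)
        (Subgroup.inv_mem _ (hPN hx))) _ hθ
    have hχN := hirr χ hχ
    have heq : (fun n : ↥(Subgroup.normalizer ((P : Subgroup G) : Set G)) => (χ : G → ℂ) n) =
        ((Cfsg.Agent.Lib.Helper80.inflateIrr K0 ψ2 :
          Cfsg.IrrCharacter ↥(Subgroup.normalizer ((P : Subgroup G) : Set G))) : _ → ℂ) := by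
      by_contra hcon
      apply hne
      rw [Cfsg.Agent.Lib.Helper80.classInner_irr_fun hχN
        (Cfsg.Agent.Lib.Helper80.inflateIrr K0 ψ2).1.2, if_neg hcon]
    refine ⟨χ, fun x => ?_⟩
    have h7 := congrFun heq x
    rw [← hφdef x, ← hψ2def]
    exact h7

end Cfsg.Agent.S4711
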