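import Cfsg.Statements.S4713
import Cfsg.Agent.Lib.Helper80.ItoConverse

set_option autoImplicit false
open Cfsg

namespace Cfsg.Agent.S4713

/-- Let p be a prime and G a finite p-solvable group. Then G has a normal abelian Sylow p-subgroup if and only if the degree of every irreducible character of G is prime to p. -/
theorem result {G : Type*} [Group G] [Finite G] (p : ℕ) [Fact p.Prime] (hsolv : Cfsg.IsPSolvable p G) (P : Sylow p G) : ((P : Subgroup G).Normal ∧ IsMulCommutative P) ↔ ∀ χ : Cfsg.IrrCharacter G, ¬ p ∣ Cfsg.charDegree (χ : G → ℂ) := by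
  constructor
  · rintro ⟨hn, hc⟩ χ
    exact Cfsg.Agent.Lib.Helper80.not_dvd_charDegree_of_sylow_normal_comm p P hn
      (fun a ha b hb => congrArg Subtype.val (hc.is_comm.comm (⟨a, ha⟩ : P) ⟨b, hb⟩)) χ
  · intro h
    exact Cfsg.Agent.Lib.Helper80.sylow_normal_comm_of_not_dvd_charDegree p hsolv h P

end Cfsg.Agent.S4713
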