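import Cfsg.Statements.S4714
import Mathlib
import Cfsg.Agent.Lib.Helper79.CentProd2

set_option autoImplicit false
open Cfsg

namespace Cfsg.Agent.S4714

/-- Let p be a prime, M a maximal ideal of the algebraic integers containing p, D a p-subgroup of the finite group G with G = D·C_G(D), and B a p-block with defect group D. Let χ be a member of B having D in its kernel (there is exactly one, the canonical character of B). Then the irreducible characters in B are exactly the functions θ on G for which there is an irreducible character ζ of D such that θ(yx) = ζ(y)χ(x) whenever y ∈ D, x has order prime to p and x commutes with y, and θ(z) = 0 whenever the p-part of z does not lie in D. -/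
theorem result {G : Type*} [Group G] [Finite G] (p : ℕ) [Fact p.Prime] (M : Ideal Cfsg.AlgInt) (hM : Cfsg.IsPModular p M) (D : Subgroup G) (hD : IsPGroup p D) (hG : D ⊔ Subgroup.centralizer (D : Set G) = ⊤) (B : Set (Cfsg.IrrCharacter G)) (hB : Cfsg.IsPBlock M B) (hBD : Cfsg.IsDefectGroup p M B D) (χ : Cfsg.IrrCharacter G) (hχ : χ ∈ B) (hχD : ∀ y ∈ D, (χ : G → ℂ) y = (χ : G → ℂ) 1) : (∀ θ : Cfsg.IrrCharacter G, θ ∈ B ↔ ∃ ζ : Cfsg.IrrCharacter D, (∀ (y : D) (x : G), ¬ p ∣ orderOf x → Commute (y : G) x → (θ : G → ℂ) ((y : G) * x) = (ζ : D → ℂ) y * (χ : G → ℂ) x) ∧ (∀ z : G, (∀ y : G, Cfsg.IsPPart p z y → y ∉ D) → (θ : G → ℂ) z = 0)) ∧ ∀ ζ : Cfsg.IrrCharacter D, ∃ θ ∈ B, (∀ (y : D) (x : G), ¬ p ∣ orderOf x → Commute (y : G) x → (θ : G → ℂ) ((y : G) * x) = (ζ : D → ℂ) y * (χ : G → ℂ) x) ∧ (∀ z : G, (∀ y : G, Cfsg.IsPPart p z y → y ∉ D) → (θ : G → ℂ) z = 0) := by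
  classical
  have : Fintype G := Fintype.ofFinite G
  have : Fintype D := Fintype.ofFinite D
  have hMp := Cfsg.Agent.Lib.Helper16.isPrime_of_isPModular hM
  have hp : p.Prime := Fact.out
  choose lam psi hspec using fun χ : Cfsg.IrrCharacter G =>
    Cfsg.Agent.Lib.Helper16.exists_prod_decomp D hG χ
  have hsurj : ∀ lam0 : Cfsg.IrrCharacter D, ∃ χ ∈ B, lam χ = lam0 :=
    Cfsg.Agent.Lib.Helper16.exists_mem_lam_eq hM D hD B hB lam psi hspec
  have hDn := Cfsg.Agent.Lib.Helper16.normal_of_sup_centralizer D hG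
  have hpsi1 : (psi χ : ↥(Subgroup.centralizer (D : Set G)) → ℂ) 1 ≠ 0 :=
    Cfsg.Agent.Lib.Helper79.irr_one_ne_zero (psi χ).2
  have hχ1 : (χ : G → ℂ) 1 = (lam χ : D → ℂ) 1 *
      (psi χ : ↥(Subgroup.centralizer (D : Set G)) → ℂ) 1 := by
    have := hspec χ 1 1
    simpa using this
  have hlamconst : ∀ y : D, (lam χ : D → ℂ) y = (lam χ : D → ℂ) 1 := by
    intro y
    have h2 := hχD y y.2
    have h3 := hspec χ y 1
    simp only [OneMemClass.coe_one, mul_one] at h3
    rw [h3, hχ1] at h2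
    exact mul_right_cancel₀ hpsi1 h2
  have hlamtriv : lam χ = Cfsg.Agent.Lib.Helper77.trivIrr D := by
    have h2 := Cfsg.Agent.Lib.Helper80.classInner_irr (lam χ) (Cfsg.Agent.Lib.Helper77.trivIrr D)
    by_contra hne
    rw [if_neg hne] at h2
    unfold Cfsg.classInner at h2
    have h3 : ∑ x : D, (lam χ : D → ℂ) x *
        (starRingEnd ℂ) ((Cfsg.Agent.Lib.Helper77.trivIrr D : D → ℂ) x) =
        (Nat.card D : ℂ) * (lam χ : D → ℂ) 1 := by
      rw [Finset.sum_congr rfl (fun x _ => by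
        rw [hlamconst x, Cfsg.Agent.Lib.Helper77.trivIrr_apply, map_one, mul_one])]
      rw [Finset.sum_const, Finset.card_univ, Nat.card_eq_fintype_card]
      simp
    rw [h3] at h2
    have hP0 : (Nat.card D : ℂ) ≠ 0 := by
      exact_mod_cast Nat.card_pos.ne'
    rcases mul_eq_zero.mp h2 with h4 | h4
    · exact inv_ne_zero hP0 h4
    · rcases mul_eq_zero.mp h4 with h5 | h5
      · exact hP0 h5
      · exact Cfsg.Agent.Lib.Helper79.irr_one_ne_zero (lam χ).2 h5
  have hmain : ∀ θ ∈ B, (∀ (y : D) (x : G), ¬ p ∣ orderOf x → Commute (y : G) x →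
      (θ : G → ℂ) ((y : G) * x) = (lam θ : D → ℂ) y * (χ : G → ℂ) x) ∧
      (∀ z : G, (∀ y : G, Cfsg.IsPPart p z y → y ∉ D) → (θ : G → ℂ) z = 0) := by
    intro θ hθ
    constructor
    · intro y x hx _
      have hxC := Cfsg.Agent.Lib.Helper16.mem_centralizer_of_pRegular hp D hD hG hx
      have e1 := hspec θ y ⟨x, hxC⟩
      have e2 := hspec χ 1 ⟨x, hxC⟩
      simp only [OneMemClass.coe_one, one_mul] at e2
      rw [hlamtriv, Cfsg.Agent.Lib.Helper77.trivIrr_apply, one_mul] at e2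
      have e3 := Cfsg.Agent.Lib.Helper79.psi_eq_of_pRegular hM D hD hG B hB hBD lam psi hspec
        θ χ hθ hχ ⟨x, hxC⟩ hx
      rw [e1, e2, e3]
    · intro z hz
      obtain ⟨y, hy⟩ := Cfsg.Agent.Lib.Helper78.exists_isPPart hp z
      exact Cfsg.Agent.Lib.Helper16.eq_zero_of_isPPart_not_mem hM D hDn B hB hBD θ hθ hy (hz y hy)
  refine ⟨fun θ => ⟨fun hθ => ⟨lam θ, hmain θ hθ⟩, ?_⟩, fun ζ => ?_⟩
  · rintro ⟨ζ, h1, -⟩
    have hsame : Cfsg.SameBlock M (χ : G → ℂ) (θ : G → ℂ) := by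
      apply Cfsg.Agent.Lib.Helper16.sameBlock_of_pRegular hM χ θ
      intro g hg
      have e := h1 1 g hg (by rw [OneMemClass.coe_one]; exact Commute.one_left g)
      simp only [OneMemClass.coe_one, one_mul] at e
      have e1 := h1 1 1 (by rw [orderOf_one]; exact fun h => hp.one_lt.ne' (Nat.dvd_one.mp h))
        (Commute.one_right _)
      simp only [OneMemClass.coe_one, one_mul] at e1
      have hζ1 : (ζ : D → ℂ) 1 ≠ 0 := Cfsg.Agent.Lib.Helper79.irr_one_ne_zero ζ.2
      have hχ1' : (χ : G → ℂ) 1 ≠ 0 := Cfsg.Agent.Lib.Helper79.irr_one_ne_zero χ.2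
      have h0 : Cfsg.centralChar (χ : G → ℂ) g - Cfsg.centralChar (θ : G → ℂ) g = 0 := by
        unfold Cfsg.centralChar
        rw [e, e1]
        field_simp
        ring
      rw [h0]
      exact Cfsg.Agent.Lib.Helper16.memLocalIdeal_zero hMp
    rw [Cfsg.Agent.Lib.Helper16.IsPBlock.eq_blockOf hMp hB hχ]
    exact hsame
  · obtain ⟨θ, hθ, hlam⟩ := hsurj ζ
    refine ⟨θ, hθ, ?_⟩
    have h := hmain θ hθ
    rw [hlam] at h
    exact h

end Cfsg.Agent.S4714
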