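import Cfsg.Statements.S4716
import Mathlib
import Cfsg.Agent.Lib.Helper76.ContribData

set_option autoImplicit false
open Cfsg

namespace Cfsg.Agent.S4716

/-- Let p be a prime, M a maximal ideal of the algebraic integers containing p, and B a p-block of defect d of the finite group G all of whose irreducible characters have height zero. Let y be a p-element, C = C_G(y), and b a block of C inducing B and having the same defect d (a major subsection). Then k(B)^2 ≤ p^(2d)·l(b), where k(B) is the number of irreducible characters in B and l(b) the p-regular rank of b (its number of irreducible Brauer characters); in particular (y = 1) k(B)^2 ≤ p^(2d)·l(B). -/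
theorem result {G : Type*} [Group G] [Finite G] (p : ℕ) [Fact p.Prime] (M : Ideal Cfsg.AlgInt) (hM : Cfsg.IsPModular p M) (B : Set (Cfsg.IrrCharacter G)) (hB : Cfsg.IsPBlock M B) (d : ℕ) (hd : Cfsg.blockDefect p B = d) (hh : ∀ χ ∈ B, Cfsg.blockHeight p B (χ : G → ℂ) = 0) (y : G) (hy : ∃ k : ℕ, orderOf y = p ^ k) (b : Set (Cfsg.IrrCharacter ↥(Subgroup.centralizer ({y} : Set G)))) (hind : Cfsg.IsInducedBlock M (Subgroup.centralizer ({y} : Set G)) b B) (hbd : Cfsg.blockDefect p b = d) : Nat.card B ^ 2 ≤ p ^ (2 * d) * Cfsg.blockRank p b := by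
  classical
  letI : Fintype G := Fintype.ofFinite G
  letI : Fintype (Cfsg.IrrCharacter G) := @Fintype.ofFinite _ (Cfsg.Agent.Lib.Helper81.irr_finite _)
  have hp : p.Prime := Fact.out
  obtain ⟨k, hk⟩ := hy
  have hCy : ∀ g : G, g ∈ Subgroup.centralizer ({y} : Set G) ↔ g * y = y * g := by
    intro g
    rw [Subgroup.mem_centralizer_iff]
    simp [eq_comm]
  set J := (Finset.range (p ^ k)).filter (fun j => Nat.Coprime j (p ^ k)) with hJ
  set FB := Finset.univ.filter (· ∈ B) with hFB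
  have hjf : ∀ j ∈ J, orderOf (y ^ j) = p ^ k ∧
      ∀ g : G, g ∈ Subgroup.centralizer ({y} : Set G) ↔ g * y ^ j = y ^ j * g := by
    intro j hj
    have hcop : Nat.Coprime j (p ^ k) := (Finset.mem_filter.1 hj).2
    have hcop' : Nat.Coprime (orderOf y) j := by rw [hk]; exact hcop.symm
    have ho : orderOf (y ^ j) = p ^ k := by
      rw [Nat.Coprime.orderOf_pow hcop', hk]
    refine ⟨ho, fun g => ?_⟩
    rw [hCy]
    constructor
    · intro h
      exact (Commute.pow_right (show Commute g y from h) j)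
    · intro h
      obtain ⟨m, hm⟩ := exists_pow_eq_self_of_coprime (x := y) hcop'.symm
      have := Commute.pow_right (show Commute g (y ^ j) from h) m
      rw [hm] at this
      exact this
  have h1 : ∀ j ∈ J, ∑ χ ∈ FB, ∑ ψ ∈ FB, Complex.normSq (Cfsg.Agent.Lib.Helper76.contrib p
      (Subgroup.centralizer ({y} : Set G)) b (y ^ j) (χ : G → ℂ) (ψ : G → ℂ)) ≤
      (Cfsg.blockRank p b : ℝ) := fun j hj =>
    Cfsg.Agent.Lib.Helper76.contrib_trace_le hM B (y ^ j) ⟨k, (hjf j hj).1⟩ _ (hjf j hj).2 b hind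
  have h2 : ∀ χ ∈ FB, ∀ ψ ∈ FB, (Nat.totient (p ^ k) : ℝ) ≤ ∑ j ∈ J,
      Complex.normSq (((p ^ Cfsg.blockDefect p b : ℕ) : ℂ) *
        Cfsg.Agent.Lib.Helper76.contrib p (Subgroup.centralizer ({y} : Set G)) b (y ^ j)
          (χ : G → ℂ) (ψ : G → ℂ)) := by
    intro χ hχ ψ hψ
    have hχB : χ ∈ B := (Finset.mem_filter.1 hχ).2
    have hψB : ψ ∈ B := (Finset.mem_filter.1 hψ).2
    exact Cfsg.Agent.Lib.Helper76.contrib_avg hM B y k hk _ hCy b hind χ ψ hχB hψB
      (hh χ hχB) (hh ψ hψB)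
  have hcard : Nat.card B = FB.card := by
    rw [hFB, ← Fintype.card_subtype]
    exact Nat.card_eq_fintype_card
  have hJcard : J.card = Nat.totient (p ^ k) := by
    rw [Nat.totient_eq_card_coprime, hJ]
    congr 1
    refine Finset.filter_congr (fun j _ => ?_)
    exact Nat.coprime_comm
  have hφ : 0 < Nat.totient (p ^ k) := Nat.totient_pos.mpr (pow_pos hp.pos k)
  have hnorm : ∀ (j : ℕ) (χ ψ : Cfsg.IrrCharacter G),
      Complex.normSq (((p ^ Cfsg.blockDefect p b : ℕ) : ℂ) *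
        Cfsg.Agent.Lib.Helper76.contrib p (Subgroup.centralizer ({y} : Set G)) b (y ^ j)
          (χ : G → ℂ) (ψ : G → ℂ)) = (p : ℝ) ^ (2 * d) *
      Complex.normSq (Cfsg.Agent.Lib.Helper76.contrib p (Subgroup.centralizer ({y} : Set G)) b
        (y ^ j) (χ : G → ℂ) (ψ : G → ℂ)) := by
    intro j χ ψ
    rw [Complex.normSq_mul, Complex.normSq_natCast, hbd]
    push_cast
    ring
  have hmain : (Nat.totient (p ^ k) : ℝ) * ((FB.card : ℝ) ^ 2) ≤
      (Nat.totient (p ^ k) : ℝ) * ((p : ℝ) ^ (2 * d) * (Cfsg.blockRank p b : ℝ)) := by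
    calc (Nat.totient (p ^ k) : ℝ) * ((FB.card : ℝ) ^ 2)
        = ∑ χ ∈ FB, ∑ ψ ∈ FB, (Nat.totient (p ^ k) : ℝ) := by
          rw [Finset.sum_const, Finset.sum_const]
          simp only [nsmul_eq_mul]
          ring
      _ ≤ ∑ χ ∈ FB, ∑ ψ ∈ FB, ∑ j ∈ J,
            Complex.normSq (((p ^ Cfsg.blockDefect p b : ℕ) : ℂ) *
              Cfsg.Agent.Lib.Helper76.contrib p (Subgroup.centralizer ({y} : Set G)) b (y ^ j)
                (χ : G → ℂ) (ψ : G → ℂ)) :=
          Finset.sum_le_sum (fun χ hχ => Finset.sum_le_sum (fun ψ hψ => h2 χ hχ ψ hψ))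
      _ = ∑ j ∈ J, (p : ℝ) ^ (2 * d) * ∑ χ ∈ FB, ∑ ψ ∈ FB,
            Complex.normSq (Cfsg.Agent.Lib.Helper76.contrib p
              (Subgroup.centralizer ({y} : Set G)) b (y ^ j) (χ : G → ℂ) (ψ : G → ℂ)) := by
          have hsw : ∀ χ ∈ FB, ∑ ψ ∈ FB, ∑ j ∈ J,
              Complex.normSq (((p ^ Cfsg.blockDefect p b : ℕ) : ℂ) *
                Cfsg.Agent.Lib.Helper76.contrib p (Subgroup.centralizer ({y} : Set G)) b (y ^ j)
                  (χ : G → ℂ) (ψ : G → ℂ)) = ∑ j ∈ J, ∑ ψ ∈ FB,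
              Complex.normSq (((p ^ Cfsg.blockDefect p b : ℕ) : ℂ) *
                Cfsg.Agent.Lib.Helper76.contrib p (Subgroup.centralizer ({y} : Set G)) b (y ^ j)
                  (χ : G → ℂ) (ψ : G → ℂ)) := fun χ _ => Finset.sum_comm
          rw [Finset.sum_congr rfl hsw, Finset.sum_comm]
          refine Finset.sum_congr rfl (fun j _ => ?_)
          rw [Finset.mul_sum]
          refine Finset.sum_congr rfl (fun χ _ => ?_)
          rw [Finset.mul_sum]
          refine Finset.sum_congr rfl (fun ψ _ => ?_)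
          exact hnorm j χ ψ
      _ ≤ ∑ j ∈ J, (p : ℝ) ^ (2 * d) * (Cfsg.blockRank p b : ℝ) :=
          Finset.sum_le_sum (fun j hj => mul_le_mul_of_nonneg_left (h1 j hj) (by positivity))
      _ = (Nat.totient (p ^ k) : ℝ) * ((p : ℝ) ^ (2 * d) * (Cfsg.blockRank p b : ℝ)) := by
          rw [Finset.sum_const, hJcard, nsmul_eq_mul]
  have hfin : ((FB.card : ℝ) ^ 2) ≤ (p : ℝ) ^ (2 * d) * (Cfsg.blockRank p b : ℝ) :=
    le_of_mul_le_mul_left hmain (by exact_mod_cast hφ)
  rw [hcard]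
  exact_mod_cast hfin

end Cfsg.Agent.S4716
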