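import Cfsg.Statements.S4717
import Mathlib
import Cfsg.Agent.Lib.Helper76.DefectOne
import Cfsg.Agent.Lib.Helper76.SectionInner
import Cfsg.Agent.Lib.Helper78.HeightZero
import Cfsg.Agent.S0919
import Cfsg.Agent.S0936
import Cfsg.Agent.S0923

set_option autoImplicit false
open Cfsg

namespace Cfsg.Agent.S4717

open Cfsg.Agent.Lib.Helper16 Cfsg.Agent.Lib.Helper76

/-- Let p be a prime, M a maximal ideal of the algebraic integers containing p, and r a natural number; say that a finite group X has deficiency class r when X has no non-principal p-block of defect ≥ r. If G has deficiency class r then so does the centralizer of every p-element of G; conversely, if r > 0 and the centralizer of every element of order p has deficiency class r, then G has deficiency class r. -/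
theorem result {G : Type*} [Group G] [Finite G] (p : ℕ) [Fact p.Prime] (M : Ideal Cfsg.AlgInt) (hM : Cfsg.IsPModular p M) (r : ℕ) : ((∀ B' : Set (Cfsg.IrrCharacter G), Cfsg.IsPBlock M B' → B' ≠ Cfsg.principalBlock M G → Cfsg.blockDefect p B' < r) → ∀ y : G, (∃ k : ℕ, orderOf y = p ^ k) → (∀ B' : Set (Cfsg.IrrCharacter ↥(Subgroup.centralizer ({y} : Set G))), Cfsg.IsPBlock M B' → B' ≠ Cfsg.principalBlock M ↥(Subgroup.centralizer ({y} : Set G)) → Cfsg.blockDefect p B' < r)) ∧ (0 < r → (∀ y : G, orderOf y = p → (∀ B' : Set (Cfsg.IrrCharacter ↥(Subgroup.centralizer ({y} : Set G))), Cfsg.IsPBlock M B' → B' ≠ Cfsg.principalBlock M ↥(Subgroup.centralizer ({y} : Set G)) → Cfsg.blockDefect p B' < r)) → (∀ B' : Set (Cfsg.IrrCharacter G), Cfsg.IsPBlock M B' → B' ≠ Cfsg.principalBlock M G → Cfsg.blockDefect p B' < r)) := by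
  classical
  letI : Fintype G := Fintype.ofFinite G
  have hP := isPrime_of_isPModular hM
  have hp : p.Prime := Fact.out
  refine ⟨?_, ?_⟩
  · intro hG y hy B' hB' hnp
    obtain ⟨k, hk⟩ := hy
    have hyC : y ∈ Subgroup.centralizer ({y} : Set G) := by
      rw [Subgroup.mem_centralizer_iff]
      intro h hh
      rw [Set.mem_singleton_iff] at hh
      rw [hh]
    have hPg : IsPGroup p (Subgroup.zpowers y) := by
      apply IsPGroup.of_card (n := k)
      rw [Nat.card_zpowers, hk]
    have hPH : Subgroup.zpowers y ≤ Subgroup.centralizer ({y} : Set G) :=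
      Subgroup.zpowers_le.mpr hyC
    have hCH : Subgroup.centralizer ((Subgroup.zpowers y : Subgroup G) : Set G) ≤
        Subgroup.centralizer ({y} : Set G) :=
      Subgroup.centralizer_le (by
        intro a ha
        rw [Set.mem_singleton_iff] at ha
        rw [ha]
        exact Subgroup.mem_zpowers y)
    have hHN : Subgroup.centralizer ({y} : Set G) ≤
        Subgroup.normalizer ((Subgroup.zpowers y : Subgroup G) : Set G) := by
      intro g hg
      have hgy : Commute g y := by
        rw [Subgroup.mem_centralizer_iff] at hg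
        exact (hg y rfl).symm
      have hc : ∀ (g' : G), Commute g' y → ∀ h ∈ Subgroup.zpowers y, g' * h * g'⁻¹ = h := by
        intro g' hg' h hh
        obtain ⟨n, rfl⟩ := Subgroup.mem_zpowers_iff.mp hh
        have : Commute g' (y ^ n) := hg'.zpow_right n
        rw [this.eq, mul_assoc, mul_inv_cancel, mul_one]
      rw [Subgroup.mem_normalizer_iff]
      intro h
      constructor
      · intro hh
        rw [hc g hgy h hh]
        exact hh
      · intro hh
        have h2 := hc g⁻¹ hgy.inv_left (g * h * g⁻¹) hh
        have h3 : g⁻¹ * (g * h * g⁻¹) * g⁻¹⁻¹ = h := by group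
        rw [h3] at h2
        rw [h2]
        exact hh
    obtain ⟨B, hind⟩ := Cfsg.Agent.S0919.result p M hM (Subgroup.zpowers y)
      (Subgroup.centralizer ({y} : Set G)) hPg hPH hCH hHN B' hB'
    have hBnp : B ≠ Cfsg.principalBlock M G := by
      intro h
      rw [h] at hind
      exact hnp ((Cfsg.Agent.S0936.result p M hM _ B' ⟨_, hind⟩).mp hind)
    have h1 := hG B hind.2.1 hBnp
    have h2 := defect_le_of_induced hM hind
    omega
  · intro hr hyp B' hB' hnp
    by_contra hcon
    push Not at hcon
    obtain ⟨y, hy⟩ := Cfsg.Agent.Lib.Helper77.exists_isDefectClass hP B' hB'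
    obtain ⟨P⟩ : Nonempty (Sylow p (Subgroup.centralizer ({y} : Set G))) := inferInstance
    have hD : Cfsg.IsDefectGroup p M B'
        ((P : Subgroup (Subgroup.centralizer ({y} : Set G))).map
          (Subgroup.centralizer ({y} : Set G)).subtype) := ⟨y, hy, P, rfl⟩
    have hcardD := Cfsg.Agent.Lib.Helper77.card_isDefectGroup hM B' hB' _ hD
    have hcardP : Nat.card (P : Subgroup (Subgroup.centralizer ({y} : Set G))) =
        p ^ Cfsg.blockDefect p B' := by
      rw [← hcardD, Subgroup.card_map_of_injective (Subgroup.subtype_injective _)]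
    have hd1 : 1 ≤ Cfsg.blockDefect p B' := by omega
    have hPg : IsPGroup p (P : Subgroup (Subgroup.centralizer ({y} : Set G))) := P.isPGroup'
    haveI hnt : Nontrivial (P : Subgroup (Subgroup.centralizer ({y} : Set G))) := by
      rw [← Finite.one_lt_card_iff_nontrivial, hcardP]
      exact Nat.one_lt_pow (by omega) hp.one_lt
    haveI hcnt := hPg.center_nontrivial
    have hcg : IsPGroup p
        (Subgroup.center (P : Subgroup (Subgroup.centralizer ({y} : Set G)))) :=
      hPg.to_subgroup _
    have hpd : p ∣ Nat.card
        (Subgroup.center (P : Subgroup (Subgroup.centralizer ({y} : Set G)))) := by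
      rcases hcg.card_eq_or_dvd with h | h
      · exfalso
        have := Finite.one_lt_card_iff_nontrivial.mpr hcnt
        omega
      · exact h
    obtain ⟨z₀, hz₀⟩ := exists_prime_orderOf_dvd_card' p hpd
    obtain ⟨x, hxdef⟩ : ∃ x : Subgroup.centralizer ({y} : Set G),
        x = ((z₀ : (P : Subgroup (Subgroup.centralizer ({y} : Set G)))) :
          Subgroup.centralizer ({y} : Set G)) := ⟨_, rfl⟩
    obtain ⟨z, hzdef⟩ : ∃ z : G, z = (x : G) := ⟨_, rfl⟩
    have hzord : orderOf z = p := by
      rw [hzdef, Subgroup.orderOf_coe, hxdef, Subgroup.orderOf_coe, Subgroup.orderOf_coe, hz₀]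
    have hzy : Commute z y := by
      have := x.2
      rw [Subgroup.mem_centralizer_iff] at this
      rw [hzdef]
      exact (this y rfl).symm
    have hzP : ∀ w : Subgroup.centralizer ({y} : Set G),
        w ∈ (P : Subgroup (Subgroup.centralizer ({y} : Set G))) → (w : G) * z = z * (w : G) := by
      intro w hw
      have h1 := Subgroup.mem_center_iff.mp z₀.2 ⟨w, hw⟩
      have h2 := congrArg (fun q : (P : Subgroup (Subgroup.centralizer ({y} : Set G))) =>
        ((q : Subgroup.centralizer ({y} : Set G)) : G)) h1
      rw [hzdef, hxdef]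
      exact h2
    obtain ⟨χ, hχ, h0⟩ := Cfsg.Agent.Lib.Helper78.exists_height_zero p B'
      (IsPBlock.nonempty hP hB')
    have hzp : orderOf z = p ^ 1 := by rw [hzord, pow_one]
    have h1 := Cfsg.Agent.Lib.Helper78.not_memLocalIdeal_irr_mul_defect_class hM B' hB' y hy χ hχ h0
      z hzy 1 hzp
    have hyC : y ∈ Subgroup.centralizer ({z} : Set G) := by
      rw [Subgroup.mem_centralizer_iff]
      intro h hh
      rw [Set.mem_singleton_iff] at hh
      rw [hh]
      exact hzy.eq
    have hyreg : ¬ p ∣ orderOf (⟨y, hyC⟩ : Subgroup.centralizer ({z} : Set G)) := by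
      rw [Subgroup.orderOf_mk]
      exact Cfsg.Agent.Lib.Helper78.isDefectClass_regular hM B' hB' y hy
    letI : Fintype (Subgroup.centralizer ({z} : Set G)) := Fintype.ofFinite _
    have := Cfsg.Agent.Lib.Helper81.irr_finite (Subgroup.centralizer ({z} : Set G))
    letI : Fintype (Cfsg.IrrCharacter (Subgroup.centralizer ({z} : Set G))) := Fintype.ofFinite _
    -- the centralizer of `y` in `C_G(z)` contains the defect group
    have hcent : Cfsg.blockDefect p B' ≤ (Nat.card (Subgroup.centralizer
        ({(⟨y, hyC⟩ : Subgroup.centralizer ({z} : Set G))} :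
          Set (Subgroup.centralizer ({z} : Set G))))).factorization p := by
      have hDC : (P : Subgroup (Subgroup.centralizer ({y} : Set G))).map
          (Subgroup.centralizer ({y} : Set G)).subtype ≤ Subgroup.centralizer ({z} : Set G) := by
        rintro _ ⟨w, hw, rfl⟩
        rw [Subgroup.mem_centralizer_iff]
        intro h hh
        rw [Set.mem_singleton_iff] at hh
        rw [hh]
        exact (hzP w hw).symm
      have hQle : ((P : Subgroup (Subgroup.centralizer ({y} : Set G))).map
          (Subgroup.centralizer ({y} : Set G)).subtype).subgroupOf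
            (Subgroup.centralizer ({z} : Set G)) ≤
          Subgroup.centralizer ({(⟨y, hyC⟩ : Subgroup.centralizer ({z} : Set G))} :
            Set (Subgroup.centralizer ({z} : Set G))) := by
        intro q hq
        rw [Subgroup.mem_subgroupOf] at hq
        obtain ⟨w, hw, hwq⟩ := hq
        rw [Subgroup.mem_centralizer_iff]
        intro h hh
        rw [Set.mem_singleton_iff] at hh
        rw [hh]
        apply Subtype.ext
        show y * (q : G) = (q : G) * y
        have h3 : (w : G) = (q : G) := hwq
        rw [← h3]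
        have := w.2
        rw [Subgroup.mem_centralizer_iff] at this
        exact this y rfl
      have hcardQ : Nat.card (((P : Subgroup (Subgroup.centralizer ({y} : Set G))).map
          (Subgroup.centralizer ({y} : Set G)).subtype).subgroupOf
            (Subgroup.centralizer ({z} : Set G))) = p ^ Cfsg.blockDefect p B' := by
        rw [← hcardD]
        exact Nat.card_congr (Subgroup.subgroupOfEquivOfLe hDC).toEquiv
      have hdvd := Subgroup.card_dvd_of_le hQle
      rw [hcardQ] at hdvd
      exact (Nat.Prime.pow_dvd_iff_le_factorization hp Nat.card_pos.ne').mp hdvd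
    apply h1
    have hexp := classFun_eq_sum_blockPart (M := M) hP
      (fun c : Subgroup.centralizer ({z} : Set G) => (χ : G → ℂ) (z * (c : G)))
      (isClassFunction_section χ z) ⟨y, hyC⟩
    have hexp' : (χ : G → ℂ) (z * y) = ∑ b ∈ (Finset.univ.image
        (fun ψ : Cfsg.IrrCharacter (Subgroup.centralizer ({z} : Set G)) =>
          Cfsg.blockOf M (ψ : Subgroup.centralizer ({z} : Set G) → ℂ))),
        Cfsg.blockPart b (fun c : Subgroup.centralizer ({z} : Set G) =>
          (χ : G → ℂ) (z * (c : G))) ⟨y, hyC⟩ := hexp
    rw [hexp']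
    apply memLocalIdeal_sum hP
    intro b'' hb''
    obtain ⟨ψ₀, -, rfl⟩ := Finset.mem_image.mp hb''
    by_cases hind : Cfsg.IsInducedBlock M (Subgroup.centralizer ({z} : Set G))
        (Cfsg.blockOf M (ψ₀ : Subgroup.centralizer ({z} : Set G) → ℂ)) B'
    · have hnp2 : Cfsg.blockOf M (ψ₀ : Subgroup.centralizer ({z} : Set G) → ℂ) ≠
          Cfsg.principalBlock M (Subgroup.centralizer ({z} : Set G)) := by
        intro heq
        have h3 := (Cfsg.Agent.S0936.result p M hM _ _ ⟨B', hind⟩).mpr heq
        exact hnp (induced_unique hP hind h3)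
      have hdlt := hyp z hzord _ (isPBlock_blockOf ψ₀) hnp2
      unfold Cfsg.blockPart
      rw [finsum_mem_eq_sum_ite]
      apply memLocalIdeal_sum hP
      intro θ _
      split_ifs with hθ
      · exact memLocalIdeal_mul_left hP (memLocalRing_classInner_section hM χ z 1 hzp θ)
          (memLocalIdeal_irr_of_defect_lt hM _ θ hθ _ (by omega))
      · exact memLocalIdeal_zero hP
    · rw [Cfsg.Agent.S0923.result p M hM z ⟨1, hzp⟩ B' hB' χ hχ _ (isPBlock_blockOf ψ₀) hind
        ⟨y, hyC⟩ hyreg]
      exact memLocalIdeal_zero hP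

end Cfsg.Agent.S4717
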