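import Cfsg.Statements.S4718
import Mathlib
import Cfsg.Agent.Lib.Helper76.Landau
import Cfsg.Agent.Lib.Helper79.RealOdd
import Cfsg.Agent.S0133

set_option autoImplicit false
universe u
open Cfsg

namespace Cfsg.Agent.S4718

/-- Let p be a prime and a a natural number. There is a bound N such that every finite group whose Sylow p-subgroups have order p^a and whose only p-block (relative to a maximal ideal of the algebraic integers containing p) is the principal block has order at most N. -/
theorem result (p : ℕ) [Fact p.Prime] (a : ℕ) : ∃ N : ℕ, ∀ (G : Type u) [Group G] [Finite G] (M : Ideal Cfsg.AlgInt), Cfsg.IsPModular p M → (Nat.card G).factorization p = a → (∀ B : Set (Cfsg.IrrCharacter G), Cfsg.IsPBlock M B → B = Cfsg.principalBlock M G) → Nat.card G ≤ N := by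
  classical
  obtain ⟨N, hN⟩ := Cfsg.Agent.Lib.Helper76.landau_bound.{u} (p ^ (2 * a))
  refine ⟨N, ?_⟩
  intro G _ _ M hM ha hB
  apply hN
  letI : Fintype G := Fintype.ofFinite G
  haveI : Finite (Cfsg.IrrCharacter G) := Cfsg.Agent.Lib.Helper81.irr_finite G
  letI : Fintype (Cfsg.IrrCharacter G) := Fintype.ofFinite _
  have hp : p.Prime := Fact.out
  rw [← Cfsg.Agent.S0133.result]
  have hP := Cfsg.Agent.Lib.Helper16.isPrime_of_isPModular hM
  have hall : ∀ χ : Cfsg.IrrCharacter G, χ ∈ Cfsg.principalBlock M G := by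
    intro χ
    have h1 := hB (Cfsg.blockOf M (χ : G → ℂ)) (Cfsg.Agent.Lib.Helper16.isPBlock_blockOf χ)
    rw [← h1]
    exact Cfsg.Agent.Lib.Helper16.mem_blockOf_self hP χ
  obtain ⟨χ₀⟩ : Nonempty (Cfsg.IrrCharacter G) := by
    by_contra hne
    rw [not_nonempty_iff] at hne
    have h0 : Nat.card (Cfsg.IrrCharacter G) = 0 := Nat.card_of_isEmpty
    rw [Cfsg.Agent.S0133.result] at h0
    have : Nonempty (ConjClasses G) := ⟨ConjClasses.mk 1⟩
    have := Nat.card_pos (α := ConjClasses G)
    omega
  have hpb : Cfsg.IsPBlock M (Cfsg.principalBlock M G) := by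
    have h1 := hB (Cfsg.blockOf M (χ₀ : G → ℂ)) (Cfsg.Agent.Lib.Helper16.isPBlock_blockOf χ₀)
    rw [← h1]
    exact Cfsg.Agent.Lib.Helper16.isPBlock_blockOf χ₀
  have h1 := Cfsg.Agent.Lib.Helper79.card_block_le hM (Cfsg.principalBlock M G) hpb
  have hfilter : (Finset.univ.filter (· ∈ Cfsg.principalBlock M G)) = Finset.univ := by
    apply Finset.filter_true_of_mem
    intro χ _
    exact hall χ
  rw [hfilter, Finset.card_univ, ← Nat.card_eq_fintype_card] at h1
  refine le_trans h1 (Nat.pow_le_pow_right hp.pos ?_)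
  have : Cfsg.blockDefect p (Cfsg.principalBlock M G) ≤ a := by
    unfold Cfsg.blockDefect
    rw [ha]
    exact Nat.sub_le _ _
  omega

end Cfsg.Agent.S4718
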