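import Cfsg.Statements.S4721
import Cfsg.Agent.Lib.Helper78.BLTwo
import Cfsg.Agent.Lib.Helper32.SylowConj

set_option autoImplicit false
open Cfsg

namespace Cfsg.Agent.S4721

/-- Let p be a prime, M a maximal ideal of the algebraic integers containing p, and G a finite group with a nontrivial abelian Sylow p-subgroup P, N = N_G(P), C = C_G(P), such that N/C is cyclic of order 3, #P > 4, and C_G(y) ∩ N = C for every non-identity y ∈ P. Then the principal p-block is the disjoint union of a set X of exactly 3 characters containing the principal character and a set Y of (#P − 1)/3 characters, with signs a_χ = ±1 (χ ∈ X, a = 1 at the principal character) and δ = ±1 such that every χ ∈ X takes the value a_χ at every element whose p-part is a non-identity element of P, and there is a map ζ from the non-principal linear characters of P onto Y, constant on N-conjugacy classes, with ζ_ψ(z) = δ·Σ ψ'(y) over the N-orbit of ψ, for z with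 p-part y ≠ 1 in P. If moreover G has an involution lying in no proper normal subgroup of G, then exactly two of the three numbers −δ and a_χ (χ ∈ X non-principal) equal −1, and the product of the degrees of the two non-principal members of X and of any member of Y is a perfect square. -/
theorem result {G : Type*} [Group G] [Finite G] (p : ℕ) [Fact p.Prime] (M : Ideal Cfsg.AlgInt) (hM : Cfsg.IsPModular p M) (P : Sylow p G) (hab : IsMulCommutative P) (hP1 : Nat.card P ≠ 1) (hCN : (Subgroup.centralizer ((P : Subgroup G) : Set G)).relIndex (Subgroup.normalizer ((P : Subgroup G) : Set G)) = 3) (hcyc : ∃ g : G, g ∈ Subgroup.normalizer ((P : Subgroup G) : Set G) ∧ Subgroup.centralizer ((P : Subgroup G) : Set G) ⊔ Subgroup.zpowers g = Subgroup.normalizer ((P : Subgroup G) : Set G)) (hm2 : 3 + 1 < Nat.card P) (hfrob : ∀ y : G, y ∈ (P : Subgroup G) → y ≠ 1 → Subgroup.centralizer ({y} : Set G) ⊓ Subgroup.normalizer ((P : Subgroup G) :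 Set G) = Subgroup.centralizer ((P : Subgroup G) : Set G)) : ∃ (X Y : Set (Cfsg.IrrCharacter G)), Cfsg.principalBlock M G = X ∪ Y ∧ Disjoint X Y ∧ Nat.card X = 3 ∧ Nat.card Y = (Nat.card P - 1) / 3 ∧ (∃ χ₁ ∈ X, (χ₁ : G → ℂ) = fun _ => 1) ∧ ∃ (a : Cfsg.IrrCharacter G → ℤ) (δ : ℤ) (ζ : (↥(P : Subgroup G) →* ℂˣ) → Cfsg.IrrCharacter G), (δ = 1 ∨ δ = -1) ∧ (∀ χ ∈ X, (a χ = 1 ∨ a χ = -1) ∧ ∀ z y : G, Cfsg.IsPPart p z y → y ∈ (P : Subgroup G) → y ≠ 1 → (χ : G → ℂ) z = (a χ : ℂ)) ∧ (∀ ψ : ↥(P : Subgroup G) →* ℂˣ, ψ ≠ 1 → ζ ψ ∈ Y) ∧ (∀ η ∈ Y, ∃ ψ : ↥(P : Subgroup G) →* ℂˣ, ψ ≠ 1 ∧ ζ ψ = η) ∧ (∀ ψ ψ' : ↥(P : Subgroup G) →* ℂˣ, ψ ≠ 1 → (∃ n : G, n ∈ Subgroup.normalizer ((P : Subgroup G) : Set G) ∧ ∀ w w' : ↥(P : Subgroup G), (w' : G) = n * w * n⁻¹ → ψ' w' = ψ w) → ζ ψ' = ζ ψ) ∧ (∀ ψ : ↥(P : Subgroup G) →* ℂˣ, ψ ≠ 1 → ∀ (z : G) (y : ↥(P : Subgroup G)), Cfsg.IsPPart p z (y : G) → (y : G) ≠ 1 → (ζ ψ : G → ℂ) z = (δ : ℂ) * ∑ᶠ ψ' ∈ {ψ' : ↥(P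 : Subgroup G) →* ℂˣ | ∃ n : G, n ∈ Subgroup.normalizer ((P : Subgroup G) : Set G) ∧ ∀ w w' : ↥(P : Subgroup G), (w' : G) = n * w * n⁻¹ → ψ' w' = ψ w}, ((ψ' y : ℂˣ) : ℂ)) ∧ ((∃ t : G, orderOf t = 2 ∧ ∀ K : Subgroup G, K.Normal → t ∈ K → K = ⊤) → Nat.card {χ : Cfsg.IrrCharacter G // χ ∈ X ∧ (χ : G → ℂ) ≠ (fun _ => 1) ∧ a χ = -1} + (if δ = 1 then 1 else 0) = 2 ∧ ∀ η ∈ Y, IsSquare (Cfsg.charDegree (η : G → ℂ) * ∏ᶠ χ ∈ {χ : Cfsg.IrrCharacter G | χ ∈ X ∧ (χ : G → ℂ) ≠ fun _ => 1}, Cfsg.charDegree (χ : G → ℂ))) := by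
  classical
  have hp : p.Prime := hM.1
  obtain ⟨δ, η, X, Y, a, ζ, χ₂, χ₃, hD, hB, hdisj, hcY, h6, h7, h8, h9, h10, h12, h13, hYr, hX,
    hne2, hne3, h23, hatriv⟩ := Cfsg.Agent.Lib.Helper78.bl_three_struct M P hM hab hP1 hCN hm2 hfrob
  haveI : Finite ((P : Subgroup G) →* ℂˣ) := Cfsg.Agent.Lib.Helper79.finite_monoidHom_units
  haveI : Fintype (Cfsg.Agent.Lib.Helper78.blOrb (P : Subgroup G)) := Fintype.ofFinite _
  have hδ := hD.1
  have hinj := hD.2.1
  have htrivX : Cfsg.Agent.Lib.Helper77.trivIrr G ∈ X := by rw [hX]; simp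
  have hm2X : χ₂ ∈ X := by rw [hX]; simp
  have hm3X : χ₃ ∈ X := by rw [hX]; simp
  have hchar : ∀ χ : IrrCharacter G, IsCharacter G (χ : G → ℂ) := fun χ =>
    Cfsg.Agent.Lib.Helper80.isCharacter_of_isIrrCharacter χ.2
  have hcoe : ∀ χ : IrrCharacter G, (χ : G → ℂ) ≠ (fun _ => 1) ↔
      χ ≠ Cfsg.Agent.Lib.Helper77.trivIrr G := by
    intro χ
    constructor
    · intro h h'
      exact h (by rw [h']; rfl)
    · intro h h'
      exact h (Subtype.ext h')
  refine ⟨X, Y, hB, hdisj, ?_, hcY, ⟨Cfsg.Agent.Lib.Helper77.trivIrr G, htrivX, rfl⟩, a, δ, ζ, hδ,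
    h6, h7, h8, h9, h10, ?_⟩
  · rw [Nat.card_coe_set_eq, hX]
    exact Set.ncard_eq_three.mpr ⟨_, _, _, fun h => hne2 h.symm, fun h => hne3 h.symm, h23, rfl⟩
  · rintro ⟨t, ht, hK⟩
    have hsplit := Cfsg.Agent.Lib.Helper78.bl_sum_B0 M P η hinj X Y χ₂ χ₃ hB hdisj hYr hX hne2
      hne3 h23
    have hηne : ∀ q, η q ≠ Cfsg.Agent.Lib.Helper77.trivIrr G := by
      intro q h
      have h1 : η q ∈ Y := by rw [hYr]; exact ⟨q, rfl⟩
      rw [h] at h1
      exact (Set.disjoint_left.mp hdisj htrivX) h1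
    by_cases hp2 : p = 2
    · exfalso
      obtain ⟨⟨hdeg, ha2⟩, -⟩ := Cfsg.Agent.Lib.Helper78.bl_three_two M P hM hab hP1 hCN hm2 hfrob
        δ η hD χ₂ χ₃ (a χ₂) (a χ₃) (h6 χ₂ hm2X).1 (h6 χ₃ hm3X).1 hsplit (h6 χ₂ hm2X).2
        (h6 χ₃ hm3X).2 h12 h13 hp2
      obtain ⟨c, -, hc⟩ := Cfsg.Agent.Lib.Helper32.exists_conj_mem_sylow_of_mem ⊤ P le_top t
        (Subgroup.mem_top t) ⟨1, by rw [hp2, pow_one, ← ht, pow_orderOf_eq_one]⟩
      have hc1 : c * t * c⁻¹ ≠ 1 := by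
        intro h
        have h1 : t = 1 := by
          have h2 : c⁻¹ * (c * t * c⁻¹) * c = c⁻¹ * 1 * c := by rw [h]
          rw [mul_one, inv_mul_cancel] at h2
          rw [← h2]
          group
        rw [h1, orderOf_one] at ht
        omega
      have hv := (h6 χ₂ hm2X).2 (c * t * c⁻¹) (c * t * c⁻¹)
        (Cfsg.Agent.Lib.Helper78.bl_isPPart_self P _ hc) hc hc1
      rw [Cfsg.Agent.Lib.Helper80.char_conj_eq (hchar χ₂) t c, ha2] at hv
      apply Cfsg.Agent.Lib.Helper78.bl_val_ne_deg χ₂ hne2 t hK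
      rw [hv, Cfsg.Agent.Lib.Helper80.char_one_eq_charDegree (hchar χ₂), hdeg]
      norm_num
    · obtain ⟨q₀⟩ : Nonempty (Cfsg.Agent.Lib.Helper78.blOrb (P : Subgroup G)) := by
        have hcard := Cfsg.Agent.Lib.Helper78.bl_card_orb P hab 3 hCN hfrob
        have : 0 < Nat.card (Cfsg.Agent.Lib.Helper78.blOrb (P : Subgroup G)) := by
          rcases Nat.eq_zero_or_pos (Nat.card (Cfsg.Agent.Lib.Helper78.blOrb (P : Subgroup G)))
            with h | h
          · rw [h] at hcard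
            omega
          · exact h
        exact (Nat.card_pos_iff.mp this).1
      have hodd := fun q => Cfsg.Agent.Lib.Helper78.bl_three_odd M P hM hab hCN hm2 hfrob
        δ η hD χ₂ χ₃ (a χ₂) (a χ₃) (h6 χ₂ hm2X).1 (h6 χ₃ hm3X).1 hne2 hne3 hηne hsplit
        (h6 χ₂ hm2X).2 (h6 χ₃ hm3X).2 h12 h13 hp2 t ht hK q
      obtain ⟨hprod, hnot, -⟩ := hodd q₀
      constructor
      · -- the count
        have hset : {χ : Cfsg.IrrCharacter G | χ ∈ X ∧ (χ : G → ℂ) ≠ (fun _ => 1) ∧ a χ = -1} =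
            ((({χ₂, χ₃} : Finset (IrrCharacter G)).filter (fun χ => a χ = -1) :
              Finset (IrrCharacter G)) : Set (IrrCharacter G)) := by
          ext χ
          simp only [Set.mem_ofPred_eq, Finset.coe_filter, Finset.mem_insert,
            Finset.mem_singleton]
          rw [hcoe, hX]
          constructor
          · rintro ⟨h1, h2, h3⟩
            rcases h1 with h1 | h1 | h1
            · exact absurd h1 h2
            · exact ⟨Or.inl h1, h3⟩
            · exact ⟨Or.inr h1, h3⟩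
          · rintro ⟨h1 | h1, h3⟩
            · exact ⟨by rw [h1]; simp, by rw [h1]; exact hne2, h3⟩
            · exact ⟨by rw [h1]; simp, by rw [h1]; exact hne3, h3⟩
        have hcnt : Nat.card {χ : Cfsg.IrrCharacter G // χ ∈ X ∧ (χ : G → ℂ) ≠ (fun _ => 1) ∧
            a χ = -1} = (if a χ₂ = -1 then 1 else 0) + (if a χ₃ = -1 then 1 else 0) := by
          have h1 : Nat.card {χ : Cfsg.IrrCharacter G // χ ∈ X ∧ (χ : G → ℂ) ≠ (fun _ => 1) ∧
              a χ = -1} = Set.ncard {χ : Cfsg.IrrCharacter G | χ ∈ X ∧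
                (χ : G → ℂ) ≠ (fun _ => 1) ∧ a χ = -1} := Nat.card_coe_set_eq _
          rw [h1, hset, Set.ncard_coe_finset, Finset.card_filter, Finset.sum_pair h23]
        rw [hcnt]
        rcases (h6 χ₂ hm2X).1 with h | h <;> rcases (h6 χ₃ hm3X).1 with h' | h' <;>
          rcases hδ with h'' | h'' <;> rw [h, h', h''] at hprod hnot ⊢ <;>
          first | (exfalso; revert hprod; norm_num; done) | (exfalso; exact hnot ⟨rfl, rfl, rfl⟩) |
            norm_num
      · intro η' hη'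
        rw [hYr] at hη'
        obtain ⟨q, rfl⟩ := hη'
        have hfp : {χ : Cfsg.IrrCharacter G | χ ∈ X ∧ (χ : G → ℂ) ≠ fun _ => 1} = {χ₂, χ₃} := by
          ext χ
          simp only [Set.mem_ofPred_eq, Set.mem_insert_iff, Set.mem_singleton_iff]
          rw [hcoe, hX]
          constructor
          · rintro ⟨h1, h2⟩
            rcases h1 with h1 | h1 | h1
            · exact absurd h1 h2
            · exact Or.inl h1
            · exact Or.inr h1
          · rintro (h1 | h1)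
            · exact ⟨by rw [h1]; simp, by rw [h1]; exact hne2⟩
            · exact ⟨by rw [h1]; simp, by rw [h1]; exact hne3⟩
        rw [hfp, finprod_mem_pair h23]
        exact (hodd q).2.2

end Cfsg.Agent.S4721
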