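import Mathlib
import Cfsg.Statements.S4722
import Cfsg.Agent.Lib.Helper53.BlockCol

set_option autoImplicit false
open Cfsg

namespace Cfsg.Agent.S4722

/-- Let M be a maximal ideal of the algebraic integers containing 2, P a 2-subgroup of the finite group G, U a subset of P, and t an involution of G such that no element of U is inverted by any conjugate of t. Let θ be a generalized character of P vanishing outside U, and for χ in the principal 2-block B₀ put a_χ = #P⁻¹ Σ_{y ∈ P} χ(y) θ(y⁻¹). Then Σ_{χ ∈ B₀} a_χ χ(t)^2/χ(1) = 0, Σ_{χ ∈ B₀} a_χ χ(1) = 0 and Σ_{χ ∈ B₀} a_χ χ(t) = 0. If moreover #P⁻¹ Σ_{y ∈ P} θ(y) ≠ 0, then either at least two of the a_χ have positive real part and at least two have negative real part, or G has a proper normal subgroup containing O_2'(G) and t. -/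
theorem result {G : Type*} [Group G] [Finite G] (M : Ideal Cfsg.AlgInt) (hM : Cfsg.IsPModular 2 M) (P : Subgroup G) (hP : IsPGroup 2 P) (U : Set G) (hUP : U ⊆ (P : Set G)) (t : G) (ht : orderOf t = 2) (hinv : ∀ u ∈ U, ∀ g : G, (g * t * g⁻¹) * u * (g * t * g⁻¹)⁻¹ ≠ u⁻¹) (θ : ↥P → ℂ) (hθ : Cfsg.IsGeneralizedCharacter ↥P θ) (hθU : ∀ y : ↥P, (y : G) ∉ U → θ y = 0) : (∑ᶠ χ ∈ Cfsg.principalBlock M G, ((Nat.card ↥P : ℂ)⁻¹ * ∑ᶠ y : ↥P, (χ : G → ℂ) (y : G) * θ y⁻¹) * (χ : G → ℂ) t ^ 2 / (χ : G → ℂ) 1 = 0) ∧ (∑ᶠ χ ∈ Cfsg.principalBlock M G, ((Nat.card ↥P : ℂ)⁻¹ * ∑ᶠ y : ↥P, (χ : G → ℂ) (y : G) * θ y⁻¹) * (χ : G → ℂ) 1 = 0) ∧ (∑ᶠ χ ∈ Cfsg.principalBlock M G, ((Nat.card ↥P : ℂ)⁻¹ * ∑ᶠ y : ↥P, (χ : G → ℂ) (y : G) * θ y⁻¹) * (χ : G → ℂ) t = 0) ∧ ((Nat.card ↥P : ℂ)⁻¹ * ∑ᶠ y : ↥P, θ y ≠ 0 → (2 ≤ Nat.card {χ : Cfsg.IrrCharacter G // χ ∈ Cfsg.principalBlock M G ∧ 0 < (((Nat.card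 ↥P : ℂ)⁻¹ * ∑ᶠ y : ↥P, (χ : G → ℂ) (y : G) * θ y⁻¹)).re} ∧ 2 ≤ Nat.card {χ : Cfsg.IrrCharacter G // χ ∈ Cfsg.principalBlock M G ∧ (((Nat.card ↥P : ℂ)⁻¹ * ∑ᶠ y : ↥P, (χ : G → ℂ) (y : G) * θ y⁻¹)).re < 0}) ∨ ∃ K : Subgroup G, K.Normal ∧ K ≠ ⊤ ∧ Cfsg.pPrimeCore 2 G ≤ K ∧ t ∈ K) := by
  classical
  haveI : Fact (Nat.Prime 2) := ⟨Nat.prime_two⟩
  letI := Fintype.ofFinite G
  haveI := Cfsg.Agent.Lib.Helper81.irr_finite (G := G)
  letI := Fintype.ofFinite (Cfsg.IrrCharacter G)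
  letI : Fintype ↥P := Fintype.ofFinite _
  have hPr := Cfsg.Agent.Lib.Helper16.isPrime_of_isPModular hM
  obtain ⟨B, hBdef⟩ : ∃ B : Finset (Cfsg.IrrCharacter G),
      B = Finset.univ.filter (fun χ => χ ∈ Cfsg.principalBlock M G) := ⟨_, rfl⟩
  have hB : ∀ χ : Cfsg.IrrCharacter G, χ ∈ B ↔ χ ∈ Cfsg.principalBlock M G := by
    intro χ
    rw [hBdef]
    simp
  obtain ⟨a, ha⟩ : ∃ a : Cfsg.IrrCharacter G → ℂ, a = fun χ : Cfsg.IrrCharacter G =>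
      (Nat.card ↥P : ℂ)⁻¹ * ∑ᶠ y : ↥P, (χ : G → ℂ) (y : G) * θ y⁻¹ := ⟨_, rfl⟩
  have ha' : ∀ χ : Cfsg.IrrCharacter G,
      (Nat.card ↥P : ℂ)⁻¹ * ∑ᶠ y : ↥P, (χ : G → ℂ) (y : G) * θ y⁻¹ = a χ := by
    intro χ
    rw [ha]
  have ha2 : ∀ χ : Cfsg.IrrCharacter G,
      a χ = (Nat.card ↥P : ℂ)⁻¹ * ∑ y : ↥P, (χ : G → ℂ) (y : G) * θ y⁻¹ := by
    intro χ
    rw [← ha' χ, finsum_eq_sum_of_fintype]
  simp only [ha']
  -- the general relation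
  have hgen : ∀ F : Cfsg.IrrCharacter G → ℂ,
      (∀ y : G, (∃ k : ℕ, orderOf y = 2 ^ k) →
        (∀ g : G, (g * t * g⁻¹) * y * (g * t * g⁻¹)⁻¹ ≠ y⁻¹) →
        ∑ χ ∈ B, (χ : G → ℂ) y * F χ = 0) → ∑ χ ∈ B, a χ * F χ = 0 := by
    intro F hF
    have h1 : ∑ χ ∈ B, a χ * F χ = (Nat.card ↥P : ℂ)⁻¹ *
        ∑ y : ↥P, θ y⁻¹ * ∑ χ ∈ B, (χ : G → ℂ) (y : G) * F χ := by
      simp only [ha2, Finset.mul_sum, Finset.sum_mul]
      rw [Finset.sum_comm]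
      refine Finset.sum_congr rfl (fun y _ => Finset.sum_congr rfl (fun χ _ => ?_))
      ring
    rw [h1]
    have h2 : ∀ y : ↥P, θ y⁻¹ * ∑ χ ∈ B, (χ : G → ℂ) (y : G) * F χ = 0 := by
      intro y
      by_cases hyU : ((y⁻¹ : ↥P) : G) ∈ U
      · have h3 : ∑ χ ∈ B, (χ : G → ℂ) (y : G) * F χ = 0 := by
          apply hF (y : G)
          · obtain ⟨k, hk⟩ := hP y
            have h4 : (y : G) ^ 2 ^ k = 1 := by exact_mod_cast congrArg Subtype.val hk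
            obtain ⟨j, -, hj⟩ := (Nat.dvd_prime_pow Nat.prime_two).mp
              (orderOf_dvd_of_pow_eq_one h4)
            exact ⟨j, hj⟩
          · intro g hg
            apply hinv _ hyU g
            rw [Subgroup.coe_inv, inv_inv]
            have h5 : (g * t * g⁻¹) * (y : G)⁻¹ * (g * t * g⁻¹)⁻¹ =
                ((g * t * g⁻¹) * (y : G) * (g * t * g⁻¹)⁻¹)⁻¹ := by group
            rw [h5, hg, inv_inv]
        rw [h3, mul_zero]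
      · rw [hθU _ hyU, zero_mul]
    rw [Finset.sum_eq_zero (fun y _ => h2 y), mul_zero]
  have hrel := fun (y : G) (hy2 : ∃ k : ℕ, orderOf y = 2 ^ k)
      (hyt : ∀ g : G, (g * t * g⁻¹) * y * (g * t * g⁻¹)⁻¹ ≠ y⁻¹) =>
    Cfsg.Agent.Lib.Helper53.blockcol_rels M hM t ht y hy2 hyt B hB
  have R1 : ∑ χ ∈ B, a χ * (χ : G → ℂ) 1 = 0 := hgen _ (fun y h1 h2 => (hrel y h1 h2).1)
  have R2 : ∑ χ ∈ B, a χ * (χ : G → ℂ) t = 0 := hgen _ (fun y h1 h2 => (hrel y h1 h2).2.1)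
  have R3 : ∑ χ ∈ B, a χ * ((χ : G → ℂ) t * (χ : G → ℂ) t / (χ : G → ℂ) 1) = 0 :=
    hgen _ (fun y h1 h2 => (hrel y h1 h2).2.2)
  have hconv : ∀ F : Cfsg.IrrCharacter G → ℂ,
      ∑ᶠ χ ∈ Cfsg.principalBlock M G, F χ = ∑ χ ∈ B, F χ := by
    intro F
    rw [Cfsg.Agent.Lib.Helper16.finsum_mem_eq_sum_ite, ← Finset.sum_filter, hBdef]
  refine ⟨?_, ?_, ?_, ?_⟩
  · rw [hconv, ← R3]
    refine Finset.sum_congr rfl (fun χ _ => ?_)
    ring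
  · rw [hconv]
    exact R1
  · rw [hconv]
    exact R2
  · intro hne
    rw [finsum_eq_sum_of_fintype] at hne
    have hdeg := fun χ : Cfsg.IrrCharacter G => Cfsg.Agent.Lib.Helper79.irr_charDegree χ.2
    choose n hn using fun χ : Cfsg.IrrCharacter G => Cfsg.Agent.S0944.result χ t ht
    have hre : ∀ (F : Cfsg.IrrCharacter G → ℂ) (f : Cfsg.IrrCharacter G → ℝ),
        (∀ χ, F χ = (f χ : ℂ)) → ∑ χ ∈ B, a χ * F χ = 0 → ∑ χ ∈ B, (a χ).re * f χ = 0 := by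
      intro F f hFf h
      have h1 := congrArg Complex.re h
      rw [Complex.re_sum] at h1
      simp only [hFf, Complex.re_mul_ofReal, Complex.zero_re] at h1
      exact h1
    have R1' : ∑ χ ∈ B, (a χ).re * (Cfsg.charDegree (χ : G → ℂ) : ℝ) = 0 :=
      hre _ _ (fun χ => by rw [(hdeg χ).1, Complex.ofReal_natCast]) R1
    have R2' : ∑ χ ∈ B, (a χ).re * (n χ : ℝ) = 0 :=
      hre _ _ (fun χ => by rw [(hn χ).1, Complex.ofReal_intCast]) R2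
    have R3' : ∑ χ ∈ B, (a χ).re * ((n χ : ℝ) ^ 2 / (Cfsg.charDegree (χ : G → ℂ) : ℝ)) = 0 :=
      hre _ _ (fun χ => by rw [(hn χ).1, (hdeg χ).1]; push_cast; ring) R3
    obtain ⟨i₀, hi₀def⟩ : ∃ i₀ : Cfsg.IrrCharacter G, i₀ = Cfsg.Agent.Lib.Helper77.trivIrr G :=
      ⟨_, rfl⟩
    have hi₀ : i₀ ∈ B := by
      rw [hB, hi₀def]
      exact Cfsg.Agent.Lib.Helper77.trivIrr_mem_principalBlock hPr
    have hi₀v : ∀ g : G, (i₀ : G → ℂ) g = 1 := by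
      intro g
      rw [hi₀def]
      rfl
    have hn0 : n i₀ = 1 := by
      have h1 := (hn i₀).1
      rw [hi₀v] at h1
      exact_mod_cast h1.symm
    have hd0 : Cfsg.charDegree (i₀ : G → ℂ) = 1 := by
      have h1 := (hdeg i₀).1
      rw [hi₀v] at h1
      exact_mod_cast h1.symm
    have hc0 : (n i₀ : ℝ) = (Cfsg.charDegree (i₀ : G → ℂ) : ℝ) := by
      rw [hn0, hd0]
      norm_num
    have ha0 : a i₀ = (Nat.card ↥P : ℂ)⁻¹ * ∑ y : ↥P, θ y := by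
      rw [ha2]
      congr 1
      simp only [hi₀v, one_mul]
      exact Fintype.sum_equiv (Equiv.inv ↥P) _ _ (fun y => rfl)
    obtain ⟨ψ₁, ψ₂, h₁, h₂, hθeq⟩ := hθ
    obtain ⟨m₁, hm₁⟩ := Cfsg.Agent.Lib.Helper80.classInner_nat h₁
      (Cfsg.Agent.Lib.Helper80.isCharacter_one (G := ↥P))
    obtain ⟨m₂, hm₂⟩ := Cfsg.Agent.Lib.Helper80.classInner_nat h₂
      (Cfsg.Agent.Lib.Helper80.isCharacter_one (G := ↥P))
    unfold Cfsg.classInner at hm₁ hm₂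
    simp only [map_one, mul_one] at hm₁ hm₂
    have ha0' : a i₀ = (m₁ : ℂ) - (m₂ : ℂ) := by
      rw [ha0, hθeq]
      simp only [Pi.sub_apply, Finset.sum_sub_distrib, mul_sub]
      rw [hm₁, hm₂]
    have hα0 : (a i₀).re ≠ 0 := by
      rw [← ha0] at hne
      rw [ha0'] at hne ⊢
      intro h
      apply hne
      simp only [Complex.sub_re, Complex.natCast_re] at h
      have h' : (m₁ : ℝ) = (m₂ : ℝ) := by linarith
      have h'' : m₁ = m₂ := by exact_mod_cast h'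
      rw [h'']
      ring
    rcases Cfsg.Agent.Lib.Helper53.sign_lemma B (fun χ => (a χ).re)
      (fun χ => (Cfsg.charDegree (χ : G → ℂ) : ℝ)) (fun χ => (n χ : ℝ)) i₀ hi₀
      (fun χ _ => by exact_mod_cast (hdeg χ).2.1) hc0 hα0 R1' R2' R3' with ⟨h1, h2⟩ | ⟨χ, hχB, hχne, -, hcd⟩
    · left
      rw [Nat.subtype_card (B.filter (fun χ => 0 < (a χ).re))
        (fun χ => by rw [Finset.mem_filter, hB]),
        Nat.subtype_card (B.filter (fun χ => (a χ).re < 0))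
        (fun χ => by rw [Finset.mem_filter, hB])]
      exact ⟨h1, h2⟩
    · right
      refine ⟨Cfsg.Agent.Lib.Helper80.irrKer χ, inferInstance, ?_, ?_, ?_⟩
      · intro htop
        apply hχne
        rw [hi₀def]
        apply Cfsg.Agent.Lib.Helper53.irr_eq_triv_of_const
        intro g
        exact (Cfsg.Agent.Lib.Helper80.mem_irrKer χ g).mp (htop ▸ Subgroup.mem_top g)
      · intro x hx
        rw [Cfsg.Agent.Lib.Helper80.mem_irrKer]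
        exact Cfsg.Agent.Lib.Helper78.principalBlock_ker 2 M hM χ ((hB χ).mp hχB) x hx
      · rw [Cfsg.Agent.Lib.Helper80.mem_irrKer, (hn χ).1, (hdeg χ).1]
        have h3 := congrArg (fun r : ℝ => (r : ℂ)) hcd
        simp only [Complex.ofReal_intCast, Complex.ofReal_natCast] at h3
        exact h3

end Cfsg.Agent.S4722
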