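import Mathlib
import Cfsg.Statements.S4725
import Cfsg.Agent.Lib.Helper76.BlockInd

set_option autoImplicit false
open Cfsg

namespace Cfsg.Agent.S4725

/-- Let p be a prime, M a maximal ideal of the algebraic integers containing p, H a subgroup of the finite group G, and b a p-block of H inducing the p-block B of G, with b and B of the same defect. Then for every height-zero ζ ∈ b there is a height-zero χ ∈ B whose multiplicity in the character induced from ζ is not divisible by p. -/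
theorem result {G : Type*} [Group G] [Fintype G] (p : ℕ) [Fact p.Prime] (M : Ideal Cfsg.AlgInt) (hM : Cfsg.IsPModular p M) (H : Subgroup G) (b : Set (Cfsg.IrrCharacter ↥H)) (B : Set (Cfsg.IrrCharacter G)) (hind : Cfsg.IsInducedBlock M H b B) (hdef : Cfsg.blockDefect p b = Cfsg.blockDefect p B) (ζ : Cfsg.IrrCharacter ↥H) (hζ : ζ ∈ b) (hζ0 : Cfsg.blockHeight p b (ζ : ↥H → ℂ) = 0) : ∃ χ ∈ B, Cfsg.blockHeight p B (χ : G → ℂ) = 0 ∧ ∃ a : ℕ, Cfsg.classInner (Cfsg.indFun H (ζ : ↥H → ℂ)) (χ : G → ℂ) = (a : ℂ) ∧ ¬ p ∣ a := by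
  classical
  have : Fintype H := Fintype.ofFinite H
  have := Cfsg.Agent.Lib.Helper81.irr_finite G
  have := Fintype.ofFinite (Cfsg.IrrCharacter G)
  have hp : p.Prime := Fact.out
  have hMp := Cfsg.Agent.Lib.Helper16.isPrime_of_isPModular hM
  have hp1 : ¬ p ∣ 1 := fun h => hp.one_lt.ne' (Nat.dvd_one.mp h)
  have hB : Cfsg.IsPBlock M B := hind.2.1
  obtain ⟨h1, hpos, hdvd⟩ := Cfsg.Agent.Lib.Helper79.irr_charDegree ζ.2
  have hDpos : 0 < Cfsg.charDegree (Cfsg.indFun H (ζ : H → ℂ)) := by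
    rw [Cfsg.Agent.Lib.Helper76.charDegree_indFun]
    exact Nat.mul_pos (Nat.pos_of_ne_zero Subgroup.index_ne_zero_of_finite) hpos
  obtain ⟨n, t, hn, hnt, htR, ht1, -, hnsum⟩ :=
    Cfsg.Agent.Lib.Helper76.blockPart_indFun_val hM H b B hind ζ hζ B hB
  have hv := (Cfsg.Agent.Lib.Helper76.val_iff hM (n : ℤ) _ 1 hDpos hp1 t htR
    (by push_cast; rw [mul_one]; exact hnt)).1.mp (ht1 rfl)
  have hn0 : n ≠ 0 := by exact_mod_cast hv.1
  have hvn : n.factorization p =
      (Cfsg.charDegree (Cfsg.indFun H (ζ : H → ℂ))).factorization p := by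
    rw [Nat.factorization_def n hp]
    have h2 := hv.2
    rw [padicValInt.of_nat] at h2
    exact h2
  -- the valuations
  set sB := sInf ((fun ψ : Cfsg.IrrCharacter G => (Cfsg.charDegree (ψ : G → ℂ)).factorization p) '' B)
    with hsB
  set sb := sInf ((fun ψ : Cfsg.IrrCharacter H => (Cfsg.charDegree (ψ : H → ℂ)).factorization p) '' b)
    with hsb
  have hdefB : Cfsg.blockDefect p B = (Nat.card G).factorization p - sB := rfl
  have hdefb : Cfsg.blockDefect p b = (Nat.card H).factorization p - sb := rfl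
  have hhtB : ∀ χ : Cfsg.IrrCharacter G, Cfsg.blockHeight p B (χ : G → ℂ) =
      (Cfsg.charDegree (χ : G → ℂ)).factorization p - sB := fun χ => rfl
  have hhtb : Cfsg.blockHeight p b (ζ : H → ℂ) =
      (Cfsg.charDegree (ζ : H → ℂ)).factorization p - sb := rfl
  have hsbζ : sb ≤ (Cfsg.charDegree (ζ : H → ℂ)).factorization p :=
    Nat.sInf_le ⟨ζ, hζ, rfl⟩
  have hζle : (Cfsg.charDegree (ζ : H → ℂ)).factorization p ≤ (Nat.card H).factorization p :=
    (Nat.factorization_le_iff_dvd hpos.ne' Nat.card_pos.ne').mpr hdvd p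
  have hsBle : ∀ χ ∈ B, sB ≤ (Cfsg.charDegree (χ : G → ℂ)).factorization p :=
    fun χ hχ => Nat.sInf_le ⟨χ, hχ, rfl⟩
  obtain ⟨χ₁, hχ₁⟩ := Cfsg.Agent.Lib.Helper16.IsPBlock.nonempty hMp hB
  obtain ⟨-, hpos₁, hdvd₁⟩ := Cfsg.Agent.Lib.Helper79.irr_charDegree χ₁.2
  have hχ₁le : (Cfsg.charDegree (χ₁ : G → ℂ)).factorization p ≤ (Nat.card G).factorization p :=
    (Nat.factorization_le_iff_dvd hpos₁.ne' Nat.card_pos.ne').mpr hdvd₁ p
  have hidx : (Nat.card G).factorization p =
      (Nat.card H).factorization p + (H.index).factorization p := by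
    rw [← H.card_mul_index, Nat.factorization_mul Nat.card_pos.ne' Subgroup.index_ne_zero_of_finite]
    rfl
  have hDfac : (Cfsg.charDegree (Cfsg.indFun H (ζ : H → ℂ))).factorization p =
      (H.index).factorization p + (Cfsg.charDegree (ζ : H → ℂ)).factorization p := by
    rw [Cfsg.Agent.Lib.Helper76.charDegree_indFun,
      Nat.factorization_mul Subgroup.index_ne_zero_of_finite hpos.ne']
    rfl
  have hvn' : n.factorization p = sB := by
    have := hsBle χ₁ hχ₁
    omega
  -- the contradiction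
  by_contra hcon
  push Not at hcon
  have hm := fun χ : Cfsg.IrrCharacter G =>
    Cfsg.Agent.Lib.Helper75.classInner_char_nat
      (Cfsg.Agent.Lib.Helper75.isCharacter_indFun H (Cfsg.Agent.Lib.Helper26.isCharacter_of_irr ζ.2))
      (Cfsg.Agent.Lib.Helper26.isCharacter_of_irr χ.2)
  choose m hm using hm
  have hdiv : p ^ (sB + 1) ∣ n := by
    rw [hnsum, finsum_mem_eq_toFinset_sum]
    refine Finset.dvd_sum fun χ hχ => ?_
    have hχB : χ ∈ B := Set.mem_toFinset.mp hχ
    rw [hm χ, Complex.natCast_re, Nat.floor_natCast]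
    obtain ⟨-, hposχ, -⟩ := Cfsg.Agent.Lib.Helper79.irr_charDegree χ.2
    by_cases hht : Cfsg.blockHeight p B (χ : G → ℂ) = 0
    · have hpm : p ∣ m χ := hcon χ hχB hht (m χ) (hm χ)
      have hpd : p ^ sB ∣ Cfsg.charDegree (χ : G → ℂ) :=
        (hp.pow_dvd_iff_le_factorization hposχ.ne').mpr (hsBle χ hχB)
      rw [pow_succ']
      exact mul_dvd_mul hpm hpd
    · have hpd : p ^ (sB + 1) ∣ Cfsg.charDegree (χ : G → ℂ) := by
        refine (hp.pow_dvd_iff_le_factorization hposχ.ne').mpr ?_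
        have := hhtB χ
        omega
      exact Dvd.dvd.mul_left hpd _
  have := (hp.pow_dvd_iff_le_factorization hn0).mp hdiv
  omega

end Cfsg.Agent.S4725
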