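import Cfsg.Statements.S4726
import Cfsg.Agent.Lib.Helper77.IndPairs
import Cfsg.Agent.Lib.Helper77.BrauerCorr

set_option autoImplicit false
open Cfsg

namespace Cfsg.Agent.S4726

open Cfsg.Agent.Lib.Helper77 Cfsg.Agent.Lib.Helper16 in
/-- Let p be a prime, M a maximal ideal of the algebraic integers containing p, H a subgroup of the finite group G and b a p-block of H with defect group D₀ such that C_G(D₀) ≤ H. Then b induces a block of G, and for every block B of G induced by b there is a defect group D of B with Z(D) ≤ Z(D₀) ≤ D₀ ≤ D (as subgroups of G). In particular, if the defect groups of B are abelian then D₀ is a defect group of B. -/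
theorem result {G : Type*} [Group G] [Finite G] (p : ℕ) [Fact p.Prime] (M : Ideal Cfsg.AlgInt) (hM : Cfsg.IsPModular p M) (H : Subgroup G) (b : Set (Cfsg.IrrCharacter ↥H)) (hb : Cfsg.IsPBlock M b) (D₀ : Subgroup ↥H) (hD₀ : Cfsg.IsDefectGroup p M b D₀) (hC : Subgroup.centralizer ((D₀.map H.subtype : Subgroup G) : Set G) ≤ H) : Cfsg.InducedBlockDefined M H b ∧ ∀ B : Set (Cfsg.IrrCharacter G), Cfsg.IsInducedBlock M H b B → (∃ D : Subgroup G, Cfsg.IsDefectGroup p M B D ∧ (Subgroup.center ↥D).map D.subtype ≤ ((Subgroup.center ↥D₀).map D₀.subtype).map H.subtype ∧ ((Subgroup.center ↥D₀).map D₀.subtype).map H.subtype ≤ D₀.map H.subtype ∧ D₀.map H.subtype ≤ D) ∧ (∀ D : Subgroup G, Cfsg.IsDefectGroup p M B D → IsMulCommutative ↥D → Cfsg.IsDefectGroup p M B (D₀.map H.subtype)) := by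
  classical
  have hfin : Fintype G := Fintype.ofFinite G
  have hMp := isPrime_of_isPModular hM
  obtain ⟨A, hind, D, hD, hZ, hD₁D⟩ := exists_induced_of_centralizer_le hM H b hb D₀ hD₀ hC
  refine ⟨⟨A, hind⟩, fun B hB => ?_⟩
  have hBA : B = A := Cfsg.Agent.Lib.Helper77.isInducedBlock_unique hMp hB hind
  subst hBA
  refine ⟨⟨D, hD, hZ, ?_, hD₁D⟩, fun D' hD' hcomm => ?_⟩
  · apply Subgroup.map_mono
    rintro _ ⟨z, -, rfl⟩
    exact z.2
  · obtain ⟨x, hx⟩ := isDefectGroup_conj hM B hind.2.1 hD' hD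
    have hDcomm : ∀ a ∈ D, ∀ c ∈ D, a * c = c * a := by
      rw [hx]
      rintro _ ⟨a, ha, rfl⟩ _ ⟨c, hc, rfl⟩
      have h1 := hcomm.is_comm.comm (⟨a, ha⟩ : D') ⟨c, hc⟩
      have h2 : a * c = c * a := congrArg Subtype.val h1
      show x * a * x⁻¹ * (x * c * x⁻¹) = x * c * x⁻¹ * (x * a * x⁻¹)
      calc x * a * x⁻¹ * (x * c * x⁻¹) = x * (a * c) * x⁻¹ := by group
        _ = x * (c * a) * x⁻¹ := by rw [h2]
        _ = x * c * x⁻¹ * (x * a * x⁻¹) := by group
    have hDle : D ≤ D₀.map H.subtype := by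
      intro d hd
      have h1 : (⟨d, hd⟩ : D) ∈ Subgroup.center D := by
        rw [Subgroup.mem_center_iff]
        intro g
        exact Subtype.ext (hDcomm g g.2 d hd)
      have h2 := hZ ⟨⟨d, hd⟩, h1, rfl⟩
      obtain ⟨y, ⟨z, -, hzy⟩, hyd⟩ := h2
      refine ⟨(z : H), z.2, ?_⟩
      rw [← hzy] at hyd
      exact hyd
    have heq : D₀.map H.subtype = D := le_antisymm hD₁D hDle
    rw [heq]
    exact hD

end Cfsg.Agent.S4726
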