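import Cfsg.Statements.S4729
import Cfsg.Agent.Lib.Helper78.LocalIdeal
import Cfsg.Agent.Lib.Helper78.Eigen

set_option autoImplicit false
open Cfsg

namespace Cfsg.Agent.S4729

open Cfsg.Agent.Lib.Helper78

theorem geom_root {w : ℂ} {m : ℕ} (hw : w ^ m = 1) (hw1 : w ≠ 1) :
    ∑ k ∈ Finset.range m, w ^ k = 0 := by
  have h := geom_sum_mul w m
  rw [hw, sub_self] at h
  rcases mul_eq_zero.1 h with h | h
  · exact h
  · exact absurd (sub_eq_zero.1 h) hw1

theorem key {G : Type*} [Group G] [Finite G] (p : ℕ) [Fact p.Prime] (M : Ideal AlgInt)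
    (hM : IsPModular p M) (hperf : commutator G = ⊤) (P : Sylow p G) (n : ℕ)
    (ρ : Representation ℂ G (Fin n → ℂ))
    (hχ : ∀ g : G, MemLocalIdeal M
      (centralChar (fun _ : G => (1 : ℂ)) g - centralChar ρ.character g))
    (hfaith : ∀ g : G, ρ.character g = ρ.character 1 → g = 1) (hdeg : n < 2 * p)
    (x : G) (hxP : x ∈ Subgroup.centralizer ((P : Subgroup G) : Set G))
    (hx : ¬ p ∣ orderOf x) : x = 1 := by
  classical
  have hp : p.Prime := Fact.out
  by_cases hn0 : n = 0
  · apply hfaith
    subst hn0
    have : ρ x = ρ 1 := LinearMap.ext fun v => Subsingleton.elim _ _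
    simp only [Representation.character, this]
  set m := orderOf x with hm
  have hmpos : 0 < m := orderOf_pos x
  set A : Module.End ℂ (Fin n → ℂ) := ρ x with hA
  have hAm : A ^ m = 1 := by rw [hA, ← map_pow, hm, pow_orderOf_eq_one, map_one]
  obtain ⟨ι, hι, b, d, hd, hAb⟩ := exists_eigenbasis A m hmpos hAm
  have hcard : Fintype.card ι = n := by
    rw [← Module.finrank_eq_card_basis b, Module.finrank_fin_fun]
  have hchar : ∀ k : ℕ, ρ.character (x ^ k) = ∑ i, d i ^ k := by
    intro k
    rw [Representation.character, map_pow]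
    exact trace_pow_eigen b A d hAb k
  have hone : ρ.character 1 = n := by
    rw [Representation.char_one, Module.finrank_fin_fun]
  have hnC : (n : ℂ) ≠ 0 := by exact_mod_cast hn0
  -- local ideal facts
  have hJ : ∀ k : ℕ, MemLocalIdeal M (ρ.character (x ^ k) / n - 1) := by
    intro k
    have hc : ¬ p ∣ (Subgroup.centralizer ({x ^ k} : Set G)).index := by
      have hle : (P : Subgroup G) ≤ Subgroup.centralizer ({x ^ k} : Set G) := by
        intro y hy
        rw [Subgroup.mem_centralizer_iff]
        intro z hz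
        rw [Set.mem_singleton_iff] at hz
        subst hz
        have hxy : y * x = x * y := Subgroup.mem_centralizer_iff.1 hxP y hy
        have hcomm : Commute y x := hxy
        exact (hcomm.pow_right k).eq.symm
      exact fun h => P.not_dvd_index (dvd_trans h (Subgroup.index_dvd_of_le hle))
    have h1 := hχ (x ^ k)
    unfold centralChar at h1
    rw [hone] at h1
    have h2 : MemLocalIdeal M (((Subgroup.centralizer ({x ^ k} : Set G)).index : ℂ) *
        (1 - ρ.character (x ^ k) / n)) := by
      convert h1 using 1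
      ring
    have h3 := memLocalIdeal_of_natCast_mul hM hc h2
    have h4 := memLocalIdeal_neg h3
    convert h4 using 1
    ring
  -- multiplicities
  have hmult : ∀ ζ : ℂ, ζ ^ m = 1 → ζ ≠ 1 →
      p ∣ (Finset.univ.filter (fun i => d i = ζ)).card := by
    intro ζ hζ hζ1
    have hζ0 : ζ ≠ 0 := by
      intro h0
      rw [h0, zero_pow hmpos.ne'] at hζ
      exact zero_ne_one hζ
    have hinv : ζ⁻¹ ^ m = 1 := by rw [inv_pow, hζ, inv_one]
    have hinv1 : ζ⁻¹ ≠ 1 := by
      intro h
      apply hζ1
      exact inv_eq_one.1 h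
    have hint : IsIntegral ℤ ζ⁻¹ := IsIntegral.of_pow hmpos (by rw [hinv]; exact isIntegral_one)
    have hsumJ : MemLocalIdeal M (∑ k ∈ Finset.range m,
        ζ⁻¹ ^ k * (ρ.character (x ^ k) / n - 1)) :=
      memLocalIdeal_sum hM _ _ (fun k _ => memLocalIdeal_mul_int (hint.pow k) (hJ k))
    have hgeo : ∀ i, ∑ k ∈ Finset.range m, (d i * ζ⁻¹) ^ k = if d i = ζ then (m : ℂ) else 0 := by
      intro i
      by_cases hi : d i = ζ
      · rw [if_pos hi, hi, mul_inv_cancel₀ hζ0]
        simp
      · rw [if_neg hi]
        apply geom_root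
        · rw [mul_pow, hd i, hinv, one_mul]
        · intro h
          apply hi
          field_simp at h
          exact h
    have hsum : ∑ k ∈ Finset.range m, ζ⁻¹ ^ k * (ρ.character (x ^ k) / n - 1)
        = (m : ℂ) * (((Finset.univ.filter (fun i => d i = ζ)).card : ℂ) / (n : ℂ)) := by
      have e1 : ∑ k ∈ Finset.range m, ζ⁻¹ ^ k * (ρ.character (x ^ k) / n - 1)
          = (∑ k ∈ Finset.range m, ζ⁻¹ ^ k * ρ.character (x ^ k)) / n
            - ∑ k ∈ Finset.range m, ζ⁻¹ ^ k := by
        rw [Finset.sum_div, ← Finset.sum_sub_distrib]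
        apply Finset.sum_congr rfl
        intro k _
        ring
      rw [e1, geom_root hinv hinv1, sub_zero]
      have e2 : ∑ k ∈ Finset.range m, ζ⁻¹ ^ k * ρ.character (x ^ k)
          = ∑ i, ∑ k ∈ Finset.range m, (d i * ζ⁻¹) ^ k := by
        rw [Finset.sum_comm]
        apply Finset.sum_congr rfl
        intro k _
        rw [hchar k, Finset.mul_sum]
        apply Finset.sum_congr rfl
        intro i _
        rw [mul_pow, mul_comm]
      rw [e2]
      simp only [hgeo]
      rw [Finset.sum_ite, Finset.sum_const_zero, add_zero, Finset.sum_const, nsmul_eq_mul]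
      ring
    rw [hsum] at hsumJ
    have h5 := memLocalIdeal_of_natCast_mul hM hx hsumJ
    exact dvd_of_memLocalIdeal_div hM hn0 h5
  by_cases hall : ∀ i, d i = 1
  · apply hfaith
    have h1 := hchar 1
    rw [pow_one] at h1
    rw [h1, hone]
    simp [hall, hcard]
  · exfalso
    obtain ⟨i0, hi0⟩ := not_forall.1 hall
    have hN0 := hmult (d i0) (hd i0) hi0
    have hS0pos : 0 < (Finset.univ.filter (fun i => d i = d i0)).card :=
      Finset.card_pos.2 ⟨i0, by simp⟩
    have hS0ge : p ≤ (Finset.univ.filter (fun i => d i = d i0)).card :=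
      Nat.le_of_dvd hS0pos hN0
    have hothers : ∀ i, d i ≠ d i0 → d i = 1 := by
      intro i hne
      by_contra hcon
      have hN1 := hmult (d i) (hd i) hcon
      have hS1ge : p ≤ (Finset.univ.filter (fun j => d j = d i)).card :=
        Nat.le_of_dvd (Finset.card_pos.2 ⟨i, by simp⟩) hN1
      have hdisj : Disjoint (Finset.univ.filter (fun j => d j = d i0))
          (Finset.univ.filter (fun j => d j = d i)) := by
        rw [Finset.disjoint_filter]
        intro j _ h1 h2
        exact hne (h2.symm.trans h1)
      have hle : ((Finset.univ.filter (fun j => d j = d i0)) ∪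
          (Finset.univ.filter (fun j => d j = d i))).card ≤ Fintype.card ι :=
        Finset.card_le_univ _
      rw [Finset.card_union_of_disjoint hdisj] at hle
      omega
    have hS0lt : (Finset.univ.filter (fun i => d i = d i0)).card < 2 * p :=
      lt_of_le_of_lt (Finset.card_le_univ _) (by rw [hcard]; exact hdeg)
    have hS0eq : (Finset.univ.filter (fun i => d i = d i0)).card = p := by
      obtain ⟨c, hc⟩ := hN0
      rw [hc] at hS0lt hS0ge hS0pos ⊢
      have hc1 : c = 1 := by
        have hppos := hp.pos
        have h1 : c < 2 := by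
          by_contra h
          have h' : 2 ≤ c := Nat.le_of_not_lt h
          have : p * 2 ≤ p * c := Nat.mul_le_mul_left p h'
          omega
        have h2 : 0 < c := by
          by_contra h
          have : c = 0 := by omega
          rw [this] at hS0pos
          simp at hS0pos
        omega
      rw [hc1, mul_one]
    have hdet : LinearMap.det A = 1 := by
      let δ : G →* ℂ := (LinearMap.det : Module.End ℂ (Fin n → ℂ) →* ℂ).comp ρ
      have hker : x ∈ (δ.toHomUnits).ker := by
        have := Abelianization.commutator_subset_ker δ.toHomUnits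
        rw [hperf] at this
        exact this (Subgroup.mem_top x)
      rw [MonoidHom.mem_ker] at hker
      have h2 : ((δ.toHomUnits x : ℂˣ) : ℂ) = 1 := by rw [hker]; rfl
      rw [MonoidHom.coe_toHomUnits] at h2
      exact h2
    have hprod : ∏ i, d i = d i0 ^ p := by
      rw [← Finset.prod_filter_mul_prod_filter_not Finset.univ (fun i => d i = d i0)]
      have e1 : ∏ i ∈ Finset.univ.filter (fun i => d i = d i0), d i = d i0 ^ p := by
        rw [Finset.prod_congr rfl (fun i hi => (Finset.mem_filter.1 hi).2), Finset.prod_const,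
          hS0eq]
      have e2 : ∏ i ∈ Finset.univ.filter (fun i => ¬ d i = d i0), d i = 1 := by
        apply Finset.prod_eq_one
        intro i hi
        exact hothers i (Finset.mem_filter.1 hi).2
      rw [e1, e2, mul_one]
    have hpow : d i0 ^ p = 1 := by rw [← hprod, ← det_eigen b A d hAb, hdet]
    have hgcd : d i0 ^ (Nat.gcd m p) = 1 := pow_gcd_eq_one.2 ⟨hd i0, hpow⟩
    have hcop : Nat.gcd m p = 1 := by
      have : Nat.Coprime p m := (Nat.Prime.coprime_iff_not_dvd hp).2 hx
      exact this.symm
    rw [hcop, pow_one] at hgcd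
    exact hi0 hgcd

/-- Let p be a prime, M a maximal ideal of the algebraic integers containing p, G a finite perfect group and P a Sylow p-subgroup. If the principal p-block of G contains a faithful irreducible character of degree less than 2p, then the centralizer of P is a p-group. -/
theorem result {G : Type*} [Group G] [Finite G] (p : ℕ) [Fact p.Prime] (M : Ideal Cfsg.AlgInt) (hM : Cfsg.IsPModular p M) (hperf : commutator G = ⊤) (P : Sylow p G) (χ : Cfsg.IrrCharacter G) (hχ : χ ∈ Cfsg.principalBlock M G) (hfaith : ∀ g : G, (χ : G → ℂ) g = (χ : G → ℂ) 1 → g = 1) (hdeg : Cfsg.charDegree (χ : G → ℂ) < 2 * p) : IsPGroup p ↥(Subgroup.centralizer ((P : Subgroup G) : Set G)) := by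
  have hp : p.Prime := Fact.out
  obtain ⟨χ, n, ρ, hirr, hρ⟩ := χ
  subst hρ
  have hdeg' : n < 2 * p := by
    have : charDegree ρ.character = n := by
      unfold charDegree
      rw [Representation.char_one, Module.finrank_fin_fun]
      simp
    simpa [this] using hdeg
  rintro ⟨g, hg⟩
  obtain ⟨k, m', hm', hgo⟩ := Nat.exists_eq_pow_mul_and_not_dvd (orderOf_pos g).ne' p hp.ne_one
  refine ⟨k, ?_⟩
  apply Subtype.ext
  show g ^ p ^ k = 1
  apply key p M hM hperf P n ρ hχ hfaith hdeg' (g ^ p ^ k)
    (Subgroup.pow_mem _ hg _)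
  intro hdvd
  apply hm'
  apply dvd_trans hdvd
  apply orderOf_dvd_of_pow_eq_one
  rw [← pow_mul, ← hgo, pow_orderOf_eq_one]

end Cfsg.Agent.S4729
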