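import Cfsg.Statements.S4730
import Cfsg.Agent.Lib.Helper78.LocalIdeal
import Cfsg.Agent.Lib.Helper78.Eigen
import Cfsg.Agent.Lib.Helper78.CharBasic
import Cfsg.Agent.Lib.Helper78.RootsOfUnity

set_option autoImplicit false
open Cfsg

namespace Cfsg.Agent.S4730

open Cfsg.Agent.Lib.Helper78

theorem sylow_le_centralizer {G : Type*} [Group G] [Finite G] (p : ℕ) [Fact p.Prime]
    (P : Sylow p G) (z : G) (hzc : ∀ y ∈ (P : Subgroup G), y * z = z * y) :
    ¬ p ∣ (Subgroup.centralizer ({z} : Set G)).index := by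
  have hle : (P : Subgroup G) ≤ Subgroup.centralizer ({z} : Set G) := by
    intro y hy
    rw [Subgroup.mem_centralizer_iff]
    intro w hw
    rw [Set.mem_singleton_iff] at hw
    subst hw
    exact (hzc y hy).symm
  exact fun h => P.not_dvd_index (dvd_trans h (Subgroup.index_dvd_of_le hle))

theorem vanish {G : Type*} [Group G] [Finite G] (p : ℕ) [Fact p.Prime]
    (hZ : Subgroup.center G = ⊥) (P : Sylow p G)
    (N : ℕ) (ρ : Representation ℂ G (Fin N → ℂ)) (hirr : ρ.IsIrreducible)
    (hfaith : ∀ g : G, ρ.character g = ρ.character 1 → g = 1) (n : ℕ) (hdeg : N = p ^ n)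
    (z : G) (hzc : ∀ y ∈ (P : Subgroup G), y * z = z * y) (hz1 : z ≠ 1) :
    ρ.character z = 0 := by
  classical
  have hp : p.Prime := Fact.out
  have hc := sylow_le_centralizer p P z hzc
  have hω := isIntegral_centralChar ρ hirr z
  have hNpos := irr_dim_pos ρ hirr
  have hNC : (N : ℂ) ≠ 0 := by exact_mod_cast hNpos.ne'
  obtain ⟨ι, hι, bb, d, hd, hAb⟩ := exists_eigenbasis (ρ z) (orderOf z) (orderOf_pos z)
    (by rw [← map_pow, pow_orderOf_eq_one, map_one])
  have hcard : Fintype.card ι = N := by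
    rw [← Module.finrank_eq_card_basis bb, Module.finrank_fin_fun]
  have hchar : ρ.character z = ∑ i, d i := by
    have := trace_pow_eigen bb (ρ z) d hAb 1
    simpa [Representation.character] using this
  have hχint : IsIntegral ℤ (ρ.character z) := by
    rw [hchar]
    exact IsIntegral.sum _ (fun i _ => IsIntegral.of_pow (orderOf_pos z)
      (by rw [hd i]; exact isIntegral_one))
  have hquot : IsIntegral ℤ (ρ.character z / (N : ℂ)) := by
    have hcop : Nat.Coprime (Subgroup.centralizer ({z} : Set G)).index (p ^ n) :=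
      Nat.Coprime.pow_right n ((Nat.Prime.coprime_iff_not_dvd hp).2 hc).symm
    have hbez := Nat.gcd_eq_gcd_ab (Subgroup.centralizer ({z} : Set G)).index (p ^ n)
    rw [hcop] at hbez
    have hbezC : (1 : ℂ) = ((Subgroup.centralizer ({z} : Set G)).index : ℂ) *
        ((Nat.gcdA (Subgroup.centralizer ({z} : Set G)).index (p ^ n) : ℤ) : ℂ) +
        ((p ^ n : ℕ) : ℂ) * ((Nat.gcdB (Subgroup.centralizer ({z} : Set G)).index (p ^ n) : ℤ) : ℂ) := by
      exact_mod_cast hbez
    have heq : ρ.character z / (N : ℂ) =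
        ((Nat.gcdA (Subgroup.centralizer ({z} : Set G)).index (p ^ n) : ℤ) : ℂ) *
          centralChar ρ.character z +
        ((Nat.gcdB (Subgroup.centralizer ({z} : Set G)).index (p ^ n) : ℤ) : ℂ) *
          ρ.character z := by
      unfold centralChar
      rw [char_one_fin]
      have hNp : (N : ℂ) = ((p ^ n : ℕ) : ℂ) := by rw [hdeg]
      field_simp
      rw [hNp]
      linear_combination (ρ.character z) * hbezC
    rw [heq]
    exact (isIntegral_algebraMap.mul hω).add (isIntegral_algebraMap.mul hχint)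
  rcases sum_roots_eq_zero_or_all_eq d (orderOf z) (orderOf_pos z) hd
      (by rw [hcard, ← hchar]; exact hquot) with h0 | hall
  · rw [hchar, h0]
  · exfalso
    have hscal : ρ z = ((∑ j, d j) / (Fintype.card ι : ℂ)) • (1 : Module.End ℂ (Fin N → ℂ)) := by
      apply bb.ext
      intro i
      rw [hAb i, ← hall i]
      simp
    have hzcen : z ∈ Subgroup.center G := by
      rw [Subgroup.mem_center_iff]
      intro g
      have h1 : ρ (g * z * g⁻¹ * z⁻¹) = 1 := by
        have e1 : ρ (g * z * g⁻¹ * z⁻¹) = ρ g * ρ z * ρ g⁻¹ * ρ z⁻¹ := by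
          simp only [map_mul]
        have e2 : ρ g * ρ z * ρ g⁻¹ = ρ z := by
          rw [hscal, mul_smul_comm, smul_mul_assoc, mul_one, ← map_mul, mul_inv_cancel, map_one]
        rw [e1, e2, ← map_mul, mul_inv_cancel, map_one]
      have h2 := hfaith (g * z * g⁻¹ * z⁻¹)
        (by simp only [Representation.character, h1, map_one])
      have h3 : g * z = z * g := by
        have : g * z * g⁻¹ * z⁻¹ * z * g = z * g := by rw [h2, one_mul]
        rw [← this]; group
      exact h3
    rw [hZ] at hzcen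
    exact hz1 (Subgroup.mem_bot.1 hzcen)

theorem main_claim {G : Type*} [Group G] [Finite G] (p : ℕ) [Fact p.Prime] (M : Ideal AlgInt)
    (hM : IsPModular p M) (hZ : Subgroup.center G = ⊥) (P : Sylow p G) (b : ℕ)
    (hb : Nat.card (Subgroup.center ↥(P : Subgroup G)) = p ^ b)
    (N : ℕ) (ρ : Representation ℂ G (Fin N → ℂ)) (hirr : ρ.IsIrreducible)
    (hfaith : ∀ g : G, ρ.character g = ρ.character 1 → g = 1) (n : ℕ) (hdeg : N = p ^ n)
    (N' : ℕ) (ρ' : Representation ℂ G (Fin N' → ℂ)) (hirr' : ρ'.IsIrreducible)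
    (hblock : SameBlock M ρ.character ρ'.character) : p ^ b ∣ N' := by
  classical
  have hp : p.Prime := Fact.out
  have hN'pos := irr_dim_pos ρ' hirr'
  have hN'C : (N' : ℂ) ≠ 0 := by exact_mod_cast hN'pos.ne'
  -- the local ideal fact
  have hJ : ∀ z : G, (∀ y ∈ (P : Subgroup G), y * z = z * y) → z ≠ 1 →
      MemLocalIdeal M (ρ'.character z / (N' : ℂ)) := by
    intro z hzc hz1
    have hc := sylow_le_centralizer p P z hzc
    have h1 := hblock z
    unfold centralChar at h1
    rw [vanish p hZ P N ρ hirr hfaith n hdeg z hzc hz1, char_one_fin ρ, char_one_fin ρ'] at h1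
    have h2 : MemLocalIdeal M (((Subgroup.centralizer ({z} : Set G)).index : ℂ) *
        (ρ'.character z / (N' : ℂ))) := by
      have := memLocalIdeal_neg h1
      convert this using 1
      ring
    exact memLocalIdeal_of_natCast_mul hM hc h2
  -- the sum over the centre of P
  let f : ↥(Subgroup.center ↥(P : Subgroup G)) →* G :=
    (P : Subgroup G).subtype.comp (Subgroup.center ↥(P : Subgroup G)).subtype
  let ρ'' : Representation ℂ ↥(Subgroup.center ↥(P : Subgroup G)) (Fin N' → ℂ) := ρ'.comp f
  let _ : Fintype ↥(Subgroup.center ↥(P : Subgroup G)) := Fintype.ofFinite _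
  have hcardC : (Nat.card ↥(Subgroup.center ↥(P : Subgroup G)) : ℂ) ≠ 0 := by
    rw [hb]
    exact_mod_cast (pow_pos hp.pos b).ne'
  let _ : Invertible (Nat.card ↥(Subgroup.center ↥(P : Subgroup G)) : ℂ) :=
    invertibleOfNonzero hcardC
  have hsum := Representation.card_inv_mul_sum_char_eq_finrank ρ''
  set F := Module.finrank ℂ (Representation.invariants ρ'') with hF
  have hsum2 : ∑ z : ↥(Subgroup.center ↥(P : Subgroup G)), ρ'.character (f z)
      = ((p ^ b : ℕ) : ℂ) * (F : ℂ) := by
    have h3 : ∑ z : ↥(Subgroup.center ↥(P : Subgroup G)), ρ'.character (f z)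
        = ∑ z : ↥(Subgroup.center ↥(P : Subgroup G)), ρ''.character z := rfl
    rw [h3, ← hb, ← hsum]
    field_simp
  -- split off the identity
  have hsplit : ∑ z : ↥(Subgroup.center ↥(P : Subgroup G)), ρ'.character (f z)
      = (N' : ℂ) + ∑ z ∈ Finset.univ.erase (1 : ↥(Subgroup.center ↥(P : Subgroup G))),
          ρ'.character (f z) := by
    rw [← Finset.add_sum_erase Finset.univ _ (Finset.mem_univ (1 : ↥(Subgroup.center ↥(P : Subgroup G))))]
    congr 1
    rw [map_one, char_one_fin]
  have hrest : MemLocalIdeal M (∑ z ∈ Finset.univ.erase (1 : ↥(Subgroup.center ↥(P : Subgroup G))),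
      ρ'.character (f z) / (N' : ℂ)) := by
    apply memLocalIdeal_sum hM
    intro z hz
    have hz1 : z ≠ 1 := (Finset.mem_erase.1 hz).1
    apply hJ
    · intro y hy
      have hzc := (Subgroup.mem_center_iff.1 z.2) ⟨y, hy⟩
      exact congrArg Subtype.val hzc
    · intro h
      apply hz1
      apply Subtype.ext
      apply Subtype.ext
      exact h
  have hkey : MemLocalIdeal M (((p ^ b * F : ℕ) : ℂ) / (N' : ℂ) - 1) := by
    have e : ((p ^ b * F : ℕ) : ℂ) / (N' : ℂ) - 1
        = ∑ z ∈ Finset.univ.erase (1 : ↥(Subgroup.center ↥(P : Subgroup G))),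
          ρ'.character (f z) / (N' : ℂ) := by
      rw [← Finset.sum_div]
      have : ((p ^ b * F : ℕ) : ℂ) = ((p ^ b : ℕ) : ℂ) * (F : ℂ) := by push_cast; ring
      rw [this, ← hsum2, hsplit]
      field_simp
      ring
    rw [e]
    exact hrest
  -- arithmetic
  by_contra hndvd
  obtain ⟨t, u, hu, hNtu⟩ := Nat.exists_eq_pow_mul_and_not_dvd hN'pos.ne' p hp.ne_one
  have htb : t < b := by
    by_contra hle
    apply hndvd
    rw [hNtu]
    exact dvd_mul_of_dvd_left (pow_dvd_pow p (Nat.le_of_not_lt hle)) u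
  have huC : (u : ℂ) ≠ 0 := by
    intro h
    have : u = 0 := by exact_mod_cast h
    exact hu (this ▸ dvd_zero p)
  have hpC : (p : ℂ) ≠ 0 := by exact_mod_cast hp.ne_zero
  have hfrac : ((p ^ b * F : ℕ) : ℂ) / (N' : ℂ) = ((p ^ (b - t) * F : ℕ) : ℂ) / (u : ℂ) := by
    have hbt : b = (b - t) + t := by omega
    rw [hNtu]
    conv_lhs => rw [hbt]
    push_cast
    field_simp
    ring
  have hmem : MemLocalIdeal M (((p ^ (b - t) * F : ℕ) : ℂ) / (u : ℂ)) := by
    apply memLocalIdeal_natCast_div hM _ hu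
    apply dvd_mul_of_dvd_left
    exact dvd_pow_self p (by omega)
  rw [hfrac] at hkey
  have hone := memLocalIdeal_sub hM hmem hkey
  rw [sub_sub_cancel] at hone
  exact not_memLocalIdeal_one hone

/-- Let p be a prime, M a maximal ideal of the algebraic integers containing p, and G a finite group with trivial centre, Sylow p-subgroup P of order p^a and centre Z(P) of order p^b. If χ is a faithful irreducible character of G whose degree is a power of p, then the p-block of χ has defect at most a − b; in particular, if P is abelian then χ lies in a block of defect zero. -/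
theorem result {G : Type*} [Group G] [Finite G] (p : ℕ) [Fact p.Prime] (M : Ideal Cfsg.AlgInt) (hM : Cfsg.IsPModular p M) (hZ : Subgroup.center G = ⊥) (P : Sylow p G) (a b : ℕ) (ha : Nat.card P = p ^ a) (hb : Nat.card (Subgroup.center ↥(P : Subgroup G)) = p ^ b) (χ : Cfsg.IrrCharacter G) (hfaith : ∀ g : G, (χ : G → ℂ) g = (χ : G → ℂ) 1 → g = 1) (n : ℕ) (hdeg : Cfsg.charDegree (χ : G → ℂ) = p ^ n) : Cfsg.blockDefect p (Cfsg.blockOf M (χ : G → ℂ)) ≤ a - b ∧ (IsMulCommutative ↥(P : Subgroup G) → Cfsg.blockDefect p (Cfsg.blockOf M (χ : G → ℂ)) = 0) := by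
  classical
  have hp : p.Prime := Fact.out
  obtain ⟨χ, N, ρ, hirr, hρ⟩ := χ
  subst hρ
  have hN : N = p ^ n := by rw [← hdeg]; exact (charDegree_fin ρ).symm
  have hfact : (Nat.card G).factorization p = a := by
    have h1 := P.card_eq_multiplicity
    rw [ha] at h1
    exact (Nat.pow_right_injective hp.two_le h1).symm
  have hmain : ∀ ψ ∈ blockOf M ρ.character,
      b ≤ (charDegree (ψ : G → ℂ)).factorization p := by
    rintro ⟨ψ, N', ρ', hirr', rfl⟩ hψ
    have hdvd := main_claim p M hM hZ P b hb N ρ hirr hfaith n hN N' ρ' hirr' hψ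
    rw [charDegree_fin]
    exact (hp.pow_dvd_iff_le_factorization (irr_dim_pos ρ' hirr').ne').1 hdvd
  have hdef : blockDefect p (blockOf M ρ.character) ≤ a - b := by
    unfold blockDefect
    rw [hfact]
    apply Nat.sub_le_sub_left
    apply le_csInf
    · refine ⟨_, ⟨⟨ρ.character, N, ρ, hirr, rfl⟩, ?_, rfl⟩⟩
      intro g
      rw [sub_self]
      exact memLocalIdeal_zero hM
    · rintro _ ⟨ψ, hψ, rfl⟩
      exact hmain ψ hψ
  refine ⟨hdef, ?_⟩
  intro hcomm
  have hab : b = a := by
    have hcard : Nat.card (Subgroup.center ↥(P : Subgroup G)) = Nat.card ↥(P : Subgroup G) := by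
      have htop : Subgroup.center ↥(P : Subgroup G) = ⊤ := by
        rw [eq_top_iff]
        intro z _
        rw [Subgroup.mem_center_iff]
        intro g
        exact hcomm.is_comm.comm g z
      rw [htop]
      exact Subgroup.card_top
    have ha' : Nat.card ↥(P : Subgroup G) = p ^ a := ha
    rw [hb, ha'] at hcard
    exact Nat.pow_right_injective hp.two_le hcard
  rw [hab, Nat.sub_self] at hdef
  exact Nat.le_zero.1 hdef

end Cfsg.Agent.S4730
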