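import Cfsg.Statements.S4733
import Cfsg.Agent.Lib.Helper79.BlockRank

set_option autoImplicit false
open Cfsg

namespace Cfsg.Agent.S4733

/-- Let p be a prime, M a maximal ideal of the algebraic integers containing p, and B a p-block of the finite group G with k irreducible characters and p-regular rank l (the number of irreducible Brauer characters). Then l ≤ k, and the following are equivalent: B has defect 0; k = l = 1; k = l. -/
theorem result {G : Type*} [Group G] [Finite G] (p : ℕ) [Fact p.Prime] (M : Ideal Cfsg.AlgInt) (hM : Cfsg.IsPModular p M) (B : Set (Cfsg.IrrCharacter G)) (hB : Cfsg.IsPBlock M B) : Cfsg.blockRank p B ≤ Nat.card B ∧ (Cfsg.blockDefect p B = 0 ↔ (Nat.card B = 1 ∧ Cfsg.blockRank p B = 1)) ∧ (Cfsg.blockDefect p B = 0 ↔ Nat.card B = Cfsg.blockRank p B) := by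
  classical
  have hp : p.Prime := Fact.out
  let _ : Fintype G := Fintype.ofFinite G
  have hprime := Cfsg.Agent.Lib.Helper16.isPrime_of_isPModular hM
  have hfin : Finite (Cfsg.IrrCharacter G) := Cfsg.Agent.Lib.Helper3.irr_finite
  let _ : Fintype B := Fintype.ofFinite _
  obtain ⟨χ₀, hχ₀⟩ := Cfsg.Agent.Lib.Helper16.IsPBlock.nonempty hprime hB
  have hGne : Nat.card G ≠ 0 := Nat.card_pos.ne'
  have hle : ∀ χ : Cfsg.IrrCharacter G,
      (Cfsg.charDegree (χ : G → ℂ)).factorization p ≤ (Nat.card G).factorization p := by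
    intro χ
    obtain ⟨-, hpos, hdvd⟩ := Cfsg.Agent.Lib.Helper79.irr_charDegree χ.2
    exact (Nat.factorization_le_iff_dvd hpos.ne' hGne).mpr hdvd p
  -- defect zero of the block means every member has defect zero
  have hdef_iff : Cfsg.blockDefect p B = 0 ↔ ∀ χ ∈ B,
      (Cfsg.charDegree (χ : G → ℂ)).factorization p = (Nat.card G).factorization p := by
    unfold Cfsg.blockDefect
    constructor
    · intro h χ hχ
      have h1 : sInf ((fun χ : Cfsg.IrrCharacter G =>
          (Cfsg.charDegree (χ : G → ℂ)).factorization p) '' B) ≤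
          (Cfsg.charDegree (χ : G → ℂ)).factorization p := Nat.sInf_le ⟨χ, hχ, rfl⟩
      have h2 := hle χ
      omega
    · intro h
      have hset : (fun χ : Cfsg.IrrCharacter G =>
          (Cfsg.charDegree (χ : G → ℂ)).factorization p) '' B =
          {(Nat.card G).factorization p} := by
        ext n
        simp only [Set.mem_image, Set.mem_singleton_iff]
        constructor
        · rintro ⟨χ, hχ, rfl⟩
          exact h χ hχ
        · rintro rfl
          exact ⟨χ₀, hχ₀, h χ₀ hχ₀⟩
      rw [hset, csInf_singleton, Nat.sub_self]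
  have hsingle : (∀ χ ∈ B, (Cfsg.charDegree (χ : G → ℂ)).factorization p =
      (Nat.card G).factorization p) → B = {χ₀} := by
    intro h
    ext ψ
    simp only [Set.mem_singleton_iff]
    constructor
    · intro hψ
      exact (Cfsg.Agent.Lib.Helper79.eq_of_sameBlock_of_defect_zero hM χ₀ ψ
        (Cfsg.Agent.Lib.Helper16.IsPBlock.sameBlock hprime hB hχ₀ hψ) (h χ₀ hχ₀)).symm
    · rintro rfl
      exact hχ₀
  have hrange : (fun χ : Cfsg.IrrCharacter G => Cfsg.pRegularPart p (χ : G → ℂ)) '' B =
      Set.range (fun χ : B => Cfsg.pRegularPart p ((χ : Cfsg.IrrCharacter G) : G → ℂ)) := by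
    ext f
    simp only [Set.mem_range, Set.mem_image, Subtype.exists, exists_prop]
  have hrank_le : Cfsg.blockRank p B ≤ Nat.card B := by
    unfold Cfsg.blockRank
    rw [hrange, Nat.card_eq_fintype_card]
    exact finrank_range_le_card _
  have hfwd : Cfsg.blockDefect p B = 0 → Nat.card B = 1 ∧ Cfsg.blockRank p B = 1 := by
    intro h
    have hB1 := hsingle (hdef_iff.mp h)
    have hreg : Cfsg.IsPRegular p (1 : G) := by
      unfold Cfsg.IsPRegular
      rw [orderOf_one]
      exact fun h1 => hp.one_lt.ne' (Nat.dvd_one.mp h1)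
    have hne0 : Cfsg.pRegularPart p (χ₀ : G → ℂ) ≠ 0 := by
      intro h0
      have h1 := congrFun h0 1
      simp only [Cfsg.pRegularPart, if_pos hreg, Pi.zero_apply] at h1
      exact Cfsg.Agent.Lib.Helper79.irr_one_ne_zero χ₀.2 h1
    constructor
    · rw [hB1]
      simp
    · unfold Cfsg.blockRank
      rw [hB1, Set.image_singleton]
      exact finrank_span_singleton hne0
  have hback : Nat.card B = Cfsg.blockRank p B → Cfsg.blockDefect p B = 0 := by
    intro h
    rw [hdef_iff]
    intro χ hχ
    exact Cfsg.Agent.Lib.Helper79.defect_zero_of_vanish_singular p χ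
      (Cfsg.Agent.Lib.Helper79.vanish_singular_of_card_eq_blockRank hM B hB h χ hχ)
  refine ⟨hrank_le, ⟨hfwd, ?_⟩, ⟨?_, hback⟩⟩
  · rintro ⟨h1, h2⟩
    exact hback (h1.trans h2.symm)
  · intro h
    obtain ⟨h1, h2⟩ := hfwd h
    exact h1.trans h2.symm

end Cfsg.Agent.S4733
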