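import Cfsg.Statements.S4736
import Cfsg.Agent.Lib.Helper79.PSolvBlock
import Cfsg.Agent.Lib.Helper80.ItoConverse
import Cfsg.Agent.Lib.Helper55.Cores
import Cfsg.Agent.Lib.Helper79.ClassMult

set_option autoImplicit false
open Cfsg

namespace Cfsg.Agent.S4736

/-- Let p be a prime, M a maximal ideal of the algebraic integers containing p, and G a finite p-solvable group with Sylow p-subgroup P. Then P is abelian if and only if every irreducible character in the principal p-block of G has height zero. -/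
theorem result {G : Type*} [Group G] [Finite G] (p : ℕ) [Fact p.Prime] (M : Ideal Cfsg.AlgInt) (hM : Cfsg.IsPModular p M) (hsolv : Cfsg.IsPSolvable p G) (P : Sylow p G) : IsMulCommutative P ↔ ∀ χ ∈ Cfsg.principalBlock M G, Cfsg.blockHeight p (Cfsg.principalBlock M G) (χ : G → ℂ) = 0 := by
  classical
  let _ : Fintype G := Fintype.ofFinite G
  have hp : p.Prime := Fact.out
  have hMp := Cfsg.Agent.Lib.Helper16.isPrime_of_isPModular hM
  have hNn : (Cfsg.pPrimeCore p G).Normal := Cfsg.Agent.Lib.Helper75.pPrimeCore_normal' p G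
  have hpN : ¬ p ∣ Nat.card (Cfsg.pPrimeCore p G) :=
    Cfsg.Agent.Lib.Helper75.pPrimeCore_not_dvd p hp G
  have hsolv' : Cfsg.IsPSolvable p (G ⧸ Cfsg.pPrimeCore p G) :=
    Cfsg.Agent.Lib.Helper69.isPSolvable_of_surj p (QuotientGroup.mk' _)
      (QuotientGroup.mk'_surjective _) hsolv
  have hcore' := Cfsg.Agent.Lib.Helper63.pPrimeCore_quotient_eq_bot p G
  have hmem := Cfsg.Agent.Lib.Helper79.mem_principalBlock_iff_of_isPSolvable p M hM hsolv
  -- heights in the principal block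
  have hheight : ∀ χ : Cfsg.IrrCharacter G,
      Cfsg.blockHeight p (Cfsg.principalBlock M G) (χ : G → ℂ) = 0 ↔
        ¬ p ∣ Cfsg.charDegree (χ : G → ℂ) := by
    intro χ
    have hinf : sInf ((fun ψ : Cfsg.IrrCharacter G =>
        (Cfsg.charDegree (ψ : G → ℂ)).factorization p) '' Cfsg.principalBlock M G) = 0 := by
      rw [Nat.sInf_eq_zero]
      left
      refine ⟨Cfsg.Agent.Lib.Helper77.trivIrr G,
        Cfsg.Agent.Lib.Helper77.trivIrr_mem_principalBlock hMp, ?_⟩
      have h1 : Cfsg.charDegree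
          ((Cfsg.Agent.Lib.Helper77.trivIrr G : Cfsg.IrrCharacter G) : G → ℂ) = 1 := by
        unfold Cfsg.charDegree
        rw [Cfsg.Agent.Lib.Helper77.trivIrr_apply]
        simp
      show (Cfsg.charDegree
        ((Cfsg.Agent.Lib.Helper77.trivIrr G : Cfsg.IrrCharacter G) : G → ℂ)).factorization p = 0
      rw [h1]
      simp
    unfold Cfsg.blockHeight
    rw [hinf, Nat.sub_zero]
    have hpos := (Cfsg.Agent.Lib.Helper79.irr_charDegree χ.2).2.1
    rw [Nat.factorization_eq_zero_iff]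
    constructor
    · rintro (h | h | h)
      · exact absurd hp h
      · exact h
      · exact absurd h hpos.ne'
    · intro h
      exact Or.inr (Or.inl h)
  -- degrees of the quotient
  have hquot : (∀ χ ∈ Cfsg.principalBlock M G, ¬ p ∣ Cfsg.charDegree (χ : G → ℂ)) ↔
      ∀ ψ : Cfsg.IrrCharacter (G ⧸ Cfsg.pPrimeCore p G),
        ¬ p ∣ Cfsg.charDegree (ψ : G ⧸ Cfsg.pPrimeCore p G → ℂ) := by
    constructor
    · intro h ψ
      have hinfl := Cfsg.Agent.Lib.Helper80.isIrrCharacter_inflate (Cfsg.pPrimeCore p G) ψ.2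
      have hin : (⟨_, hinfl⟩ : Cfsg.IrrCharacter G) ∈ Cfsg.principalBlock M G := by
        rw [hmem]
        intro n hn
        show (ψ : G ⧸ Cfsg.pPrimeCore p G → ℂ) (n : G ⧸ Cfsg.pPrimeCore p G) =
          (ψ : G ⧸ Cfsg.pPrimeCore p G → ℂ) ((1 : G) : G ⧸ Cfsg.pPrimeCore p G)
        rw [(QuotientGroup.eq_one_iff n).mpr hn]
        rfl
      exact h _ hin
    · intro h χ hχ
      obtain ⟨ψ', hψ', hψψ'⟩ := Cfsg.Agent.Lib.Helper80.exists_isIrrCharacter_deflate
        (Cfsg.pPrimeCore p G) χ.2 ((hmem χ).mp hχ)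
      have h1 := h ⟨ψ', hψ'⟩
      have e : Cfsg.charDegree (χ : G → ℂ) = Cfsg.charDegree ψ' := by
        unfold Cfsg.charDegree
        rw [← hψψ' 1]
        rfl
      rw [e]
      exact h1
  have hgoal : (∀ χ ∈ Cfsg.principalBlock M G,
      Cfsg.blockHeight p (Cfsg.principalBlock M G) (χ : G → ℂ) = 0) ↔
      ∀ ψ : Cfsg.IrrCharacter (G ⧸ Cfsg.pPrimeCore p G),
        ¬ p ∣ Cfsg.charDegree (ψ : G ⧸ Cfsg.pPrimeCore p G → ℂ) := by
    rw [← hquot]
    exact forall₂_congr (fun χ _ => hheight χ)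
  rw [hgoal]
  obtain ⟨Pbar, hPbar⟩ : ∃ Pbar : Sylow p (G ⧸ Cfsg.pPrimeCore p G),
      (Pbar : Subgroup (G ⧸ Cfsg.pPrimeCore p G)) =
        (P : Subgroup G).map (QuotientGroup.mk' (Cfsg.pPrimeCore p G)) :=
    ⟨P.mapSurjective (QuotientGroup.mk'_surjective _), rfl⟩
  have hinj : ∀ a ∈ (P : Subgroup G), a ∈ Cfsg.pPrimeCore p G → a = 1 := by
    intro a haP haN
    have h1 : orderOf a ∣ Nat.card (Cfsg.pPrimeCore p G) := by
      have h2 := orderOf_dvd_natCard (⟨a, haN⟩ : Cfsg.pPrimeCore p G)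
      rwa [Subgroup.orderOf_mk] at h2
    obtain ⟨k, hk⟩ := (IsPGroup.iff_orderOf.mp P.2) ⟨a, haP⟩
    rw [Subgroup.orderOf_mk] at hk
    rcases k with _ | k
    · rw [pow_zero] at hk
      exact orderOf_eq_one_iff.mp hk
    · exfalso
      apply hpN
      rw [hk] at h1
      exact dvd_trans (dvd_pow_self p (Nat.succ_ne_zero k)) h1
  constructor
  · intro hcomm ψ
    have hc : ∀ a ∈ (Pbar : Subgroup (G ⧸ Cfsg.pPrimeCore p G)),
        ∀ b ∈ (Pbar : Subgroup (G ⧸ Cfsg.pPrimeCore p G)), a * b = b * a := by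
      intro a ha b hb
      rw [hPbar] at ha hb
      obtain ⟨x, hx, rfl⟩ := Subgroup.mem_map.mp ha
      obtain ⟨y, hy, rfl⟩ := Subgroup.mem_map.mp hb
      have hxy : x * y = y * x := by
        have h1 := hcomm.is_comm.comm (⟨x, hx⟩ : P) ⟨y, hy⟩
        exact congrArg Subtype.val h1
      rw [← map_mul, ← map_mul, hxy]
    have hcent := Cfsg.Agent.Lib.Helper63.centralizer_pCore_le hcore'
      (Cfsg.Agent.Lib.Helper63.exists_plengthLE_of_isPSolvable hsolv')
    have hle : Cfsg.pCore p (G ⧸ Cfsg.pPrimeCore p G) ≤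
        (Pbar : Subgroup (G ⧸ Cfsg.pPrimeCore p G)) :=
      Cfsg.Agent.Lib.Helper55.pCore_le_sylow Pbar
    have heq : (Pbar : Subgroup (G ⧸ Cfsg.pPrimeCore p G)) =
        Cfsg.pCore p (G ⧸ Cfsg.pPrimeCore p G) := by
      apply le_antisymm _ hle
      intro a ha
      apply hcent
      rw [Subgroup.mem_centralizer_iff]
      intro b hb
      exact hc b (hle hb) a ha
    have hn : (Pbar : Subgroup (G ⧸ Cfsg.pPrimeCore p G)).Normal := by
      rw [heq]
      exact Cfsg.pCore_normal p _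
    exact Cfsg.Agent.Lib.Helper80.not_dvd_charDegree_of_sylow_normal_comm p Pbar hn hc ψ
  · intro hdeg
    obtain ⟨-, hcommbar⟩ :=
      Cfsg.Agent.Lib.Helper80.sylow_normal_comm_of_not_dvd_charDegree p hsolv' hdeg Pbar
    refine ⟨⟨fun a b => ?_⟩⟩
    apply Subtype.ext
    show (a : G) * (b : G) = (b : G) * (a : G)
    have ha' : ((a : G) : G ⧸ Cfsg.pPrimeCore p G) ∈
        (Pbar : Subgroup (G ⧸ Cfsg.pPrimeCore p G)) := by
      rw [hPbar]
      exact Subgroup.mem_map_of_mem _ a.2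
    have hb' : ((b : G) : G ⧸ Cfsg.pPrimeCore p G) ∈
        (Pbar : Subgroup (G ⧸ Cfsg.pPrimeCore p G)) := by
      rw [hPbar]
      exact Subgroup.mem_map_of_mem _ b.2
    have h1 := hcommbar.is_comm.comm (⟨_, ha'⟩ : Pbar) ⟨_, hb'⟩
    have h2 : (((a : G) * (b : G) : G) : G ⧸ Cfsg.pPrimeCore p G) =
        (((b : G) * (a : G) : G) : G ⧸ Cfsg.pPrimeCore p G) := congrArg Subtype.val h1
    have h3 := QuotientGroup.eq.mp h2
    have h4 := hinj _ (mul_mem (inv_mem (mul_mem a.2 b.2)) (mul_mem b.2 a.2)) h3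
    exact inv_mul_eq_one.mp h4

end Cfsg.Agent.S4736
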