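import Cfsg.Statements.S4955
import Cfsg.Agent.Lib.Helper82.AbelianSylow
import Cfsg.Agent.Lib.Helper82.CoprimePairs

set_option autoImplicit false
open Cfsg

namespace Cfsg.Agent.S4955

/-- For a complement `G` of the abelian subgroup `V` and `v ∈ V`: `|C_X(v)| = |C_G(v)| |V|`. -/
theorem card_centralizer_eq {X : Type*} [Group X] [Finite X] (V G : Subgroup X)
    (hab : ∀ a ∈ V, ∀ b ∈ V, a * b = b * a) (hGV : Subgroup.IsComplement' V G) (v : X)
    (hv : v ∈ V) :
    Nat.card (Subgroup.centralizer ({v} : Set X)) =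
      Nat.card ↥(G ⊓ Subgroup.centralizer ({v} : Set X)) * Nat.card V := by
  have hVC : V ≤ Subgroup.centralizer ({v} : Set X) := by
    intro u hu
    rw [Subgroup.mem_centralizer_iff]
    intro y hy
    rw [Set.mem_singleton_iff] at hy
    subst hy
    exact hab _ hv _ hu
  let f : ↥(G ⊓ Subgroup.centralizer ({v} : Set X)) × ↥V →
      ↥(Subgroup.centralizer ({v} : Set X)) :=
    fun q => ⟨(q.2 : X) * (q.1 : X), mul_mem (hVC q.2.2) q.1.2.2⟩
  have hbij : Function.Bijective f := by
    have hc : Function.Bijective (fun x : ↥(V : Set X) × ↥(G : Set X) => (x.1 : X) * (x.2 : X)) :=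
      hGV
    constructor
    · intro q q' h
      have h1 : (q.2 : X) * (q.1 : X) = (q'.2 : X) * (q'.1 : X) := congrArg Subtype.val h
      have h2 := @hc.1 (⟨q.2.1, q.2.2⟩, ⟨q.1.1, q.1.2.1⟩) (⟨q'.2.1, q'.2.2⟩, ⟨q'.1.1, q'.1.2.1⟩) h1
      simp only [Prod.mk.injEq, Subtype.mk.injEq] at h2
      exact Prod.ext (Subtype.ext h2.2) (Subtype.ext h2.1)
    · intro x
      obtain ⟨⟨u, g⟩, hug⟩ := hc.2 (x : X)
      simp only at hug
      have hg : (g : X) ∈ Subgroup.centralizer ({v} : Set X) := by
        have : (g : X) = (u : X)⁻¹ * x := by rw [← hug]; group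
        rw [this]
        exact mul_mem (inv_mem (hVC u.2)) x.2
      exact ⟨(⟨g, ⟨g.2, hg⟩⟩, ⟨u, u.2⟩), Subtype.ext hug⟩
  rw [← Nat.card_prod]
  exact (Nat.card_congr (Equiv.ofBijective f hbij)).symm

/-- Let X be a finite group with an abelian normal Sylow p-subgroup V (a normal p-subgroup of index prime to p in which any two elements commute), and let G be a complement to V in X. Then for every v in V, writing C for the centralizer of v in G, the number k(X) of conjugacy classes of X satisfies k(X) ≤ (order of C)·(order of V) − ((order of G) − k(G)); the statement is written with the subtracted term moved to the left. In particular, if some v in V is centralized by no nonidentity element of G, then k(X) is at most the order of V. -/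
theorem result {X : Type*} [Group X] [Finite X] (p : ℕ) [Fact p.Prime] (V : Subgroup X) [V.Normal] (hVp : IsPGroup p V) (hidx : ¬ p ∣ V.index) (hab : ∀ a ∈ V, ∀ b ∈ V, a * b = b * a) (G : Subgroup X) (hGV : Subgroup.IsComplement' V G) (v : X) (hv : v ∈ V) : Nat.card (ConjClasses X) + Nat.card G ≤ Nat.card ↥(G ⊓ Subgroup.centralizer ({v} : Set X)) * Nat.card V + Nat.card (ConjClasses G) := by
  obtain ⟨a, ha⟩ : ∃ a, orderOf v = p ^ a := by
    obtain ⟨k, hk⟩ := hVp ⟨v, hv⟩
    have h1 : v ^ p ^ k = 1 := by
      have := congrArg Subtype.val hk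
      simpa using this
    have h2 := orderOf_dvd_of_pow_eq_one h1
    obtain ⟨a, _, ha⟩ := (Nat.dvd_prime_pow (Fact.out : p.Prime)).1 h2
    exact ⟨a, ha⟩
  have hmain := Cfsg.Agent.Lib.Helper82.card_conjClasses_add_index_le p V hidx hab v hv a ha
  rw [hGV.symm.index_eq_card, card_centralizer_eq V G hab hGV v hv,
    Cfsg.Agent.Lib.Helper82.card_conjClasses_congr hGV.symm.QuotientMulEquiv] at hmain
  exact hmain

end Cfsg.Agent.S4955
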