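import Cfsg.Statements.S4956
import Cfsg.Agent.Lib.Helper82.CoprimePairs

set_option autoImplicit false
open Cfsg

namespace Cfsg.Agent.S4956

open Cfsg.Agent.Lib.Helper82

/-- When `V` is normal with complement `G`, two products `u * g` and `w * h` commute iff the
`G`-parts commute and the `V`-parts satisfy the twisted relation. -/
theorem comm_iff {X : Type*} [Group X] (V G : Subgroup X) [V.Normal]
    (hGV : Subgroup.IsComplement' V G) (u w : ↥V) (g h : ↥G) :
    ((u : X) * g) * (w * h) = (w * h) * (u * g) ↔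
      ((g : X) * h = h * g ∧ (u : X) * (g * w * (g : X)⁻¹) = w * (h * u * (h : X)⁻¹)) := by
  have hinj : Function.Injective (fun p : ↥V × ↥G => (p.1 : X) * (p.2 : X)) := hGV.1
  have e1 : ((u : X) * g) * (w * h) = ((u : X) * (g * w * (g : X)⁻¹)) * ((g : X) * h) := by group
  have e2 : ((w : X) * h) * (u * g) = ((w : X) * (h * u * (h : X)⁻¹)) * ((h : X) * g) := by group
  constructor
  · intro hc
    rw [e1, e2] at hc
    have h1 : (u : X) * (g * w * (g : X)⁻¹) ∈ V :=
      V.mul_mem u.2 (Subgroup.Normal.conj_mem inferInstance _ w.2 _)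
    have h2 : (w : X) * (h * u * (h : X)⁻¹) ∈ V :=
      V.mul_mem w.2 (Subgroup.Normal.conj_mem inferInstance _ u.2 _)
    have := @hinj (⟨_, h1⟩, g * h) (⟨_, h2⟩, h * g) hc
    rw [Prod.mk.injEq] at this
    exact ⟨congrArg Subtype.val this.2, congrArg Subtype.val this.1⟩
  · rintro ⟨h1, h2⟩
    rw [e1, e2, h1, h2]

/-- The number of commuting pairs of elements of `G` centralizing `v`. -/
noncomputable def cnt {X : Type*} [Group X] (G : Subgroup X) (v : X) : ℕ :=
  Nat.card {p : ↥G × ↥G // (p.1 : X) * p.2 = p.2 * p.1 ∧ (p.1 : X) * v = v * p.1 ∧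
    (p.2 : X) * v = v * p.2}

theorem cnt_eq {X : Type*} [Group X] (G : Subgroup X) (v : X) :
    cnt G v = Nat.card (ConjClasses ↥(G ⊓ Subgroup.centralizer ({v} : Set X))) *
      Nat.card ↥(G ⊓ Subgroup.centralizer ({v} : Set X)) := by
  rw [← card_comm_eq_card_conjClasses_mul_card]
  unfold cnt
  have hmem : ∀ g : X, g ∈ G → g * v = v * g → g ∈ G ⊓ Subgroup.centralizer ({v} : Set X) := by
    intro g hg hgv
    refine Subgroup.mem_inf.2 ⟨hg, ?_⟩
    rw [Subgroup.mem_centralizer_iff]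
    intro x hx
    rw [Set.mem_singleton_iff] at hx
    rw [hx, hgv]
  have hmem' : ∀ g : X, g ∈ G ⊓ Subgroup.centralizer ({v} : Set X) → g ∈ G ∧ g * v = v * g := by
    intro g hg
    rw [Subgroup.mem_inf] at hg
    refine ⟨hg.1, ?_⟩
    have := (Subgroup.mem_centralizer_iff.1 hg.2) v (Set.mem_singleton v)
    exact this.symm
  refine Nat.card_congr
    { toFun := fun p => ⟨(⟨p.1.1.1, hmem _ p.1.1.2 p.2.2.1⟩, ⟨p.1.2.1, hmem _ p.1.2.2 p.2.2.2⟩),
        Subtype.ext p.2.1⟩
      invFun := fun q => ⟨(⟨q.1.1.1, (hmem' _ q.1.1.2).1⟩, ⟨q.1.2.1, (hmem' _ q.1.2.2).1⟩),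
        congrArg Subtype.val q.2, (hmem' _ q.1.1.2).2, (hmem' _ q.1.2.2).2⟩
      left_inv := fun p => rfl
      right_inv := fun q => rfl }

/-- For fixed `g, h` in the complement: the number of pairs `(u, w)` in `V` such that `u * g`
and `w * h` commute is `|V|` times the number of `v` in `V` centralized by the commuting pair. -/
theorem fibre_count {X : Type*} [Group X] [Finite X] (V : Subgroup X) [V.Normal]
    (hab : ∀ a ∈ V, ∀ b ∈ V, a * b = b * a) (G : Subgroup X) (hGV : Subgroup.IsComplement' V G)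
    (hcop : (Nat.card V).Coprime (Nat.card G)) (g h : ↥G) :
    Nat.card {uw : ↥V × ↥V // ((uw.1 : X) * g) * (uw.2 * h) = (uw.2 * h) * (uw.1 * g)} =
      Nat.card V * Nat.card {v : ↥V // (g : X) * h = h * g ∧ (g : X) * v = v * g ∧
        (h : X) * v = v * h} := by
  by_cases hgh : (g : X) * h = h * g
  · -- apply the counting lemma to the two conjugation automorphisms
    let σ : ↥V ≃* ↥V := MulAut.conjNormal (g : X)
    let τ : ↥V ≃* ↥V := MulAut.conjNormal (h : X)
    have hσ : ∀ v : ↥V, ((σ v : ↥V) : X) = g * v * (g : X)⁻¹ := fun v => MulAut.conjNormal_apply _ _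
    have hτ : ∀ v : ↥V, ((τ v : ↥V) : X) = h * v * (h : X)⁻¹ := fun v => MulAut.conjNormal_apply _ _
    have hcomm : ∀ v, σ (τ v) = τ (σ v) := by
      intro v
      apply Subtype.ext
      rw [hσ, hτ, hτ, hσ]
      have h' : (g : X)⁻¹ * (h : X)⁻¹ = (h : X)⁻¹ * (g : X)⁻¹ := by
        rw [← mul_inv_rev, ← mul_inv_rev, hgh]
      calc (g : X) * (h * v * (h : X)⁻¹) * (g : X)⁻¹ = ((g : X) * h) * v * ((h : X)⁻¹ * (g : X)⁻¹) := by group
        _ = ((h : X) * g) * v * ((g : X)⁻¹ * (h : X)⁻¹) := by rw [hgh, h']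
        _ = (h : X) * (g * v * (g : X)⁻¹) * (h : X)⁻¹ := by group
    have hn : ∀ v, (σ ^ Nat.card G) v = v := by
      intro v
      have : σ ^ Nat.card G = 1 := by
        show (MulAut.conjNormal (g : X) : MulAut ↥V) ^ Nat.card G = 1
        rw [← map_pow]
        have hg : (g : X) ^ Nat.card G = 1 := by
          have := pow_card_eq_one' (G := ↥G) (x := g)
          rw [← Subgroup.coe_pow, this, Subgroup.coe_one]
        rw [hg, map_one]
      rw [this]; rfl
    have key := card_twisted_commuting_pairs' (V := ↥V)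
      (fun a b => Subtype.ext (hab a a.2 b b.2)) σ τ hcomm (Nat.card G) hn hcop
    have e1 : Nat.card {uw : ↥V × ↥V // ((uw.1 : X) * g) * (uw.2 * h) = (uw.2 * h) * (uw.1 * g)} =
        Nat.card {p : ↥V × ↥V // p.1 * σ p.2 = p.2 * τ p.1} := by
      refine Nat.card_congr (Equiv.subtypeEquivRight ?_)
      intro uw
      rw [comm_iff V G hGV, Subtype.ext_iff, Subgroup.coe_mul, Subgroup.coe_mul, hσ, hτ]
      exact ⟨fun hh => hh.2, fun hh => ⟨hgh, hh⟩⟩
    have e2 : Nat.card {v : ↥V // (g : X) * h = h * g ∧ (g : X) * v = v * g ∧ (h : X) * v = v * h} =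
        Nat.card {v : ↥V // σ v = v ∧ τ v = v} := by
      refine Nat.card_congr (Equiv.subtypeEquivRight ?_)
      intro v
      rw [Subtype.ext_iff, Subtype.ext_iff, hσ, hτ, mul_inv_eq_iff_eq_mul, mul_inv_eq_iff_eq_mul]
      exact ⟨fun hh => ⟨hh.2.1, hh.2.2⟩, fun hh => ⟨hgh, hh.1, hh.2⟩⟩
    rw [e1, e2, key]
  · have e1 : IsEmpty {uw : ↥V × ↥V // ((uw.1 : X) * g) * (uw.2 * h) = (uw.2 * h) * (uw.1 * g)} := by
      refine ⟨fun uw => hgh ?_⟩
      exact ((comm_iff V G hGV _ _ _ _).1 uw.2).1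
    have e2 : IsEmpty {v : ↥V // (g : X) * h = h * g ∧ (g : X) * v = v * g ∧ (h : X) * v = v * h} :=
      ⟨fun v => hgh v.2.1⟩
    rw [@Nat.card_of_isEmpty _ e1, @Nat.card_of_isEmpty _ e2, mul_zero]

/-- The number of commuting pairs of `X = V ⋊ G` in terms of the numbers `cnt G v`. -/
theorem count_main {X : Type*} [Group X] [Finite X] (V : Subgroup X) [V.Normal]
    (hab : ∀ a ∈ V, ∀ b ∈ V, a * b = b * a) (G : Subgroup X) (hGV : Subgroup.IsComplement' V G)
    (hcop : (Nat.card V).Coprime (Nat.card G)) :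
    Nat.card {p : X × X // Commute p.1 p.2} = Nat.card V * ∑ᶠ v : ↥V, cnt G (v : X) := by
  classical
  have := Fintype.ofFinite ↥V
  have := Fintype.ofFinite ↥G
  let e : ↥V × ↥G ≃ X := Equiv.ofBijective (fun p : ↥V × ↥G => (p.1 : X) * (p.2 : X)) hGV
  have he : ∀ p : ↥V × ↥G, e p = (p.1 : X) * (p.2 : X) := fun _ => rfl
  let E : (↥G × ↥G) × (↥V × ↥V) ≃ X × X :=
    { toFun := fun r => (e (r.2.1, r.1.1), e (r.2.2, r.1.2))
      invFun := fun p => (((e.symm p.1).2, (e.symm p.2).2), ((e.symm p.1).1, (e.symm p.2).1))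
      left_inv := by intro r; simp
      right_inv := by intro p; simp }
  let Q : ↥G × ↥G → ↥V × ↥V → Prop := fun gh uw =>
    ((uw.1 : X) * gh.1) * (uw.2 * gh.2) = (uw.2 * gh.2) * (uw.1 * gh.1)
  let P : ↥G × ↥G → ↥V → Prop := fun gh v =>
    (gh.1 : X) * gh.2 = gh.2 * gh.1 ∧ (gh.1 : X) * v = v * gh.1 ∧ (gh.2 : X) * v = v * gh.2
  have s1 : Nat.card {p : X × X // Commute p.1 p.2} =
      Nat.card {r : (↥G × ↥G) × (↥V × ↥V) // Q r.1 r.2} :=
    (Nat.card_congr (Equiv.subtypeEquiv E (fun r => Iff.rfl))).symm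
  have s2 : Nat.card {r : (↥G × ↥G) × (↥V × ↥V) // Q r.1 r.2} =
      ∑ gh : ↥G × ↥G, Nat.card {uw : ↥V × ↥V // Q gh uw} := by
    rw [Nat.card_congr (Equiv.subtypeProdEquivSigmaSubtype Q), Nat.card_sigma]
  have s3 : ∀ gh : ↥G × ↥G, Nat.card {uw : ↥V × ↥V // Q gh uw} =
      Nat.card V * Nat.card {v : ↥V // P gh v} := fun gh =>
    fibre_count V hab G hGV hcop gh.1 gh.2
  have s4 : ∑ gh : ↥G × ↥G, Nat.card {v : ↥V // P gh v} = ∑ v : ↥V, cnt G (v : X) := by
    have a1 : ∑ gh : ↥G × ↥G, Nat.card {v : ↥V // P gh v} =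
        Nat.card {r : (↥G × ↥G) × ↥V // P r.1 r.2} := by
      rw [Nat.card_congr (Equiv.subtypeProdEquivSigmaSubtype P), Nat.card_sigma]
    have a2 : ∑ v : ↥V, cnt G (v : X) = Nat.card {r : ↥V × (↥G × ↥G) // P r.2 r.1} := by
      rw [Nat.card_congr (Equiv.subtypeProdEquivSigmaSubtype (fun v gh => P gh v)), Nat.card_sigma]
      rfl
    rw [a1, a2]
    exact Nat.card_congr (Equiv.subtypeEquiv (Equiv.prodComm _ _) (fun r => Iff.rfl))
  rw [s1, s2, finsum_eq_sum_of_fintype, ← s4, Finset.mul_sum]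
  exact Finset.sum_congr rfl (fun gh _ => s3 gh)

theorem mem_inf_centralizer {X : Type*} [Group X] (G : Subgroup X) (x y : X) :
    y ∈ G ⊓ Subgroup.centralizer ({x} : Set X) ↔ y ∈ G ∧ y * x = x * y := by
  rw [Subgroup.mem_inf, Subgroup.mem_centralizer_iff]
  constructor
  · rintro ⟨h1, h2⟩
    exact ⟨h1, (h2 x (Set.mem_singleton x)).symm⟩
  · rintro ⟨h1, h2⟩
    refine ⟨h1, ?_⟩
    intro z hz
    rw [Set.mem_singleton_iff] at hz
    rw [hz, h2]

/-- Conjugation by an element of `G` identifies the centralizers in `G` of conjugate elements. -/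
noncomputable def conjEquiv {X : Type*} [Group X] (G : Subgroup X) (g : X) (hg : g ∈ G) (x : X) :
    ↥(G ⊓ Subgroup.centralizer ({x} : Set X)) ≃*
      ↥(G ⊓ Subgroup.centralizer ({g⁻¹ * x * g} : Set X)) where
  toFun y := ⟨g⁻¹ * y * g, by
    have hy := (mem_inf_centralizer G x y).1 y.2
    rw [mem_inf_centralizer]
    refine ⟨G.mul_mem (G.mul_mem (G.inv_mem hg) hy.1) hg, ?_⟩
    calc g⁻¹ * (y : X) * g * (g⁻¹ * x * g) = g⁻¹ * ((y : X) * x) * g := by group
      _ = g⁻¹ * (x * (y : X)) * g := by rw [hy.2]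
      _ = g⁻¹ * x * g * (g⁻¹ * (y : X) * g) := by group⟩
  invFun y := ⟨g * y * g⁻¹, by
    have hy := (mem_inf_centralizer G _ y).1 y.2
    rw [mem_inf_centralizer]
    refine ⟨G.mul_mem (G.mul_mem hg hy.1) (G.inv_mem hg), ?_⟩
    have h2 : (y : X) * g⁻¹ * x * g = g⁻¹ * x * g * (y : X) := by
      rw [← hy.2]; group
    calc g * (y : X) * g⁻¹ * x = g * ((y : X) * g⁻¹ * x * g) * g⁻¹ := by group
      _ = g * (g⁻¹ * x * g * (y : X)) * g⁻¹ := by rw [h2]
      _ = x * (g * (y : X) * g⁻¹) := by group⟩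
  left_inv y := by apply Subtype.ext; simp only; group
  right_inv y := by apply Subtype.ext; simp only; group
  map_mul' y y' := by apply Subtype.ext; simp only [Subgroup.coe_mul]; group

theorem sum_cnt {X : Type*} [Group X] [Finite X] (V : Subgroup X) [V.Normal] (G : Subgroup X)
    (S : Finset X) (hSV : ∀ s ∈ S, s ∈ V)
    (hrep : ∀ v ∈ V, ∃! s, s ∈ S ∧ ∃ g ∈ G, g * v * g⁻¹ = s) :
    ∑ᶠ v : ↥V, cnt G (v : X) =
      Nat.card G * ∑ s ∈ S, Nat.card (ConjClasses ↥(G ⊓ Subgroup.centralizer ({s} : Set X))) := by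
  classical
  have := Fintype.ofFinite ↥V
  have := Fintype.ofFinite ↥G
  -- class numbers are invariant under conjugation by `G`
  have hc : ∀ (x : X) (g : X), g ∈ G →
      Nat.card (ConjClasses ↥(G ⊓ Subgroup.centralizer ({g⁻¹ * x * g} : Set X))) =
        Nat.card (ConjClasses ↥(G ⊓ Subgroup.centralizer ({x} : Set X))) := fun x g hg =>
    (card_conjClasses_congr (conjEquiv G g hg x)).symm
  -- the centralizer order counts the elements conjugating `v` into `S`
  have hz : ∀ v ∈ V, Nat.card ↥(G ⊓ Subgroup.centralizer ({v} : Set X)) =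
      Nat.card {g : ↥G // (g : X)⁻¹ * v * g ∈ S} := by
    intro v hv
    obtain ⟨s₀, ⟨hs₀, g₁, hg₁, hg₁v⟩, huniq⟩ := hrep v hv
    let f : ↥(G ⊓ Subgroup.centralizer ({v} : Set X)) → {g : ↥G // (g : X)⁻¹ * v * g ∈ S} :=
      fun c => ⟨⟨(c : X) * g₁⁻¹, G.mul_mem ((mem_inf_centralizer G v c).1 c.2).1 (G.inv_mem hg₁)⟩, by
        have hcv := ((mem_inf_centralizer G v c).1 c.2).2
        have : ((c : X) * g₁⁻¹)⁻¹ * v * ((c : X) * g₁⁻¹) = s₀ := by
          rw [← hg₁v]
          calc ((c : X) * g₁⁻¹)⁻¹ * v * ((c : X) * g₁⁻¹) = g₁ * ((c : X)⁻¹ * (v * (c : X))) * g₁⁻¹ := by group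
            _ = g₁ * ((c : X)⁻¹ * ((c : X) * v)) * g₁⁻¹ := by rw [hcv]
            _ = g₁ * v * g₁⁻¹ := by group
        show ((c : X) * g₁⁻¹)⁻¹ * v * ((c : X) * g₁⁻¹) ∈ S
        rw [this]; exact hs₀⟩
    refine Nat.card_eq_of_bijective f ⟨?_, ?_⟩
    · intro c c' h
      have h' : (c : X) * g₁⁻¹ = (c' : X) * g₁⁻¹ := congrArg (fun t => ((t.1 : ↥G) : X)) h
      exact Subtype.ext (mul_right_cancel h')
    · rintro ⟨g, hgS⟩
      have hs : (g : X)⁻¹ * v * g = s₀ :=
        huniq _ ⟨hgS, (g : X)⁻¹, G.inv_mem g.2, by rw [inv_inv]⟩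
      have hmem : (g : X) * g₁ ∈ G ⊓ Subgroup.centralizer ({v} : Set X) := by
        rw [mem_inf_centralizer]
        refine ⟨G.mul_mem g.2 hg₁, ?_⟩
        have e1 : g₁ * v = s₀ * g₁ := by rw [← hg₁v]; group
        have e2 : (g : X) * s₀ = v * g := by rw [← hs]; group
        rw [mul_assoc, e1, ← mul_assoc, e2, mul_assoc]
      refine ⟨⟨(g : X) * g₁, hmem⟩, ?_⟩
      apply Subtype.ext
      apply Subtype.ext
      show (g : X) * g₁ * g₁⁻¹ = g
      group
  -- rewrite each summand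
  have h1 : ∀ v : ↥V, cnt G (v : X) = ∑ g : ↥G, if (g : X)⁻¹ * v * g ∈ S then
      Nat.card (ConjClasses ↥(G ⊓ Subgroup.centralizer ({(v : X)} : Set X))) else 0 := by
    intro v
    have hcard : Nat.card {g : ↥G // (g : X)⁻¹ * v * g ∈ S} =
        ∑ g : ↥G, if (g : X)⁻¹ * v * g ∈ S then 1 else 0 := by
      rw [Nat.card_eq_fintype_card, Fintype.card_subtype, Finset.card_filter]
    rw [cnt_eq, hz v v.2, hcard, Finset.mul_sum]
    refine Finset.sum_congr rfl (fun g _ => ?_)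
    split_ifs <;> simp
  have h2 : ∀ g : ↥G, (∑ v : ↥V, if (g : X)⁻¹ * v * g ∈ S then
      Nat.card (ConjClasses ↥(G ⊓ Subgroup.centralizer ({(v : X)} : Set X))) else 0) =
      ∑ v : ↥V, if (v : X) ∈ S then
        Nat.card (ConjClasses ↥(G ⊓ Subgroup.centralizer ({(v : X)} : Set X))) else 0 := by
    intro g
    let ψ : ↥V ≃ ↥V := (MulAut.conjNormal (g : X)⁻¹ : ↥V ≃* ↥V).toEquiv
    have hψ : ∀ v : ↥V, ((ψ v : ↥V) : X) = (g : X)⁻¹ * v * g := by
      intro v
      have := MulAut.conjNormal_apply (H := V) (g : X)⁻¹ v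
      rw [inv_inv] at this
      exact this
    rw [← Equiv.sum_comp ψ (fun v : ↥V => if (v : X) ∈ S then
        Nat.card (ConjClasses ↥(G ⊓ Subgroup.centralizer ({(v : X)} : Set X))) else 0)]
    refine Finset.sum_congr rfl (fun v _ => ?_)
    rw [hψ, hc (v : X) (g : X) g.2]
  have h3 : (∑ v : ↥V, if (v : X) ∈ S then
        Nat.card (ConjClasses ↥(G ⊓ Subgroup.centralizer ({(v : X)} : Set X))) else 0) =
      ∑ s ∈ S, Nat.card (ConjClasses ↥(G ⊓ Subgroup.centralizer ({s} : Set X))) := by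
    rw [← Finset.sum_filter,
      ← Finset.sum_subtype_of_mem (fun s => Nat.card (ConjClasses ↥(G ⊓ Subgroup.centralizer ({s} : Set X)))) hSV]
    refine Finset.sum_congr ?_ (fun _ _ => rfl)
    ext v
    simp
  rw [finsum_eq_sum_of_fintype, Finset.sum_congr rfl (fun v _ => h1 v), Finset.sum_comm,
    Finset.sum_congr rfl (fun g _ => h2 g), h3, Finset.sum_const, Finset.card_univ, smul_eq_mul,
    Nat.card_eq_fintype_card]

/-- Let X be a finite group, V an abelian normal subgroup of X (any two elements of V commute) and G a complement to V in X whose order is coprime to that of V. Let S be a set of representatives of the orbits of G on V under conjugation: S lies in V and every element of V is conjugate under G to exactly one member of S. Then the number of conjugacy classes of X equals the sum, over s in S, of the number of conjugacy classes of the centralizer of s in G. -/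
theorem result {X : Type*} [Group X] [Finite X] (V : Subgroup X) [V.Normal] (hab : ∀ a ∈ V, ∀ b ∈ V, a * b = b * a) (G : Subgroup X) (hGV : Subgroup.IsComplement' V G) (hcop : (Nat.card V).Coprime (Nat.card G)) (S : Finset X) (hSV : ∀ s ∈ S, s ∈ V) (hrep : ∀ v ∈ V, ∃! s, s ∈ S ∧ ∃ g ∈ G, g * v * g⁻¹ = s) : Nat.card (ConjClasses X) = ∑ s ∈ S, Nat.card (ConjClasses ↥(G ⊓ Subgroup.centralizer ({s} : Set X))) := by
  have h1 := count_main V hab G hGV hcop
  rw [card_comm_eq_card_conjClasses_mul_card, sum_cnt V G S hSV hrep, ← mul_assoc,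
    hGV.card_mul_card, mul_comm] at h1
  exact Nat.eq_of_mul_eq_mul_left Nat.card_pos h1

end Cfsg.Agent.S4956
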