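import Cfsg.Statements.S4965
import Mathlib

set_option autoImplicit false
open Cfsg

namespace Cfsg.Agent.S4965

/-- Let X be a finite group with an abelian normal subgroup V (any two elements of V commute), and let φ be the action of X ⧸ V on V induced by conjugation (well defined because V is abelian; the hypothesis hφ says that the class of x acts as conjugation by x). Then X has at most as many conjugacy classes as the semidirect product of V by X ⧸ V formed with this action: the split extension has the largest class number among extensions with the given action. -/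
theorem result {X : Type*} [Group X] [Finite X] (V : Subgroup X) [V.Normal] (hab : ∀ a ∈ V, ∀ b ∈ V, a * b = b * a) (φ : X ⧸ V →* MulAut ↥V) (hφ : ∀ (x : X) (v : ↥V), ((φ (QuotientGroup.mk x) v : ↥V) : X) = x * v * x⁻¹) : Nat.card (ConjClasses X) ≤ Nat.card (ConjClasses (SemidirectProduct ↥V (X ⧸ V) φ)) := by
  classical
  -- the split extension
  set S := SemidirectProduct ↥V (X ⧸ V) φ with hS
  have : Finite S := Finite.of_equiv _ (SemidirectProduct.equivProd (φ := φ)).symm
  have hcardS : Nat.card S = Nat.card X := by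
    rw [SemidirectProduct.card, mul_comm, ← Subgroup.card_eq_card_quotient_mul_card_subgroup]
  -- a choice of commuting lifts
  have hex : ∀ q : (X ⧸ V) × (X ⧸ V), ∃ c : X × X,
      (∃ x y : X, (QuotientGroup.mk x : X ⧸ V) = q.1 ∧ (QuotientGroup.mk y : X ⧸ V) = q.2 ∧ x * y = y * x) →
        ((QuotientGroup.mk c.1 : X ⧸ V) = q.1 ∧ (QuotientGroup.mk c.2 : X ⧸ V) = q.2 ∧ c.1 * c.2 = c.2 * c.1) := by
    intro q
    by_cases h : ∃ x y : X, (QuotientGroup.mk x : X ⧸ V) = q.1 ∧ (QuotientGroup.mk y : X ⧸ V) = q.2 ∧ x * y = y * x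
    · obtain ⟨x, y, h1, h2, h3⟩ := h
      exact ⟨(x, y), fun _ => ⟨h1, h2, h3⟩⟩
    · exact ⟨(1, 1), fun h' => absurd h' h⟩
  choose c hc using hex
  -- the map on pairs
  let toV : X → ↥V := fun x => if h : x ∈ V then ⟨x, h⟩ else 1
  have toV_coe : ∀ x : X, x ∈ V → ((toV x : ↥V) : X) = x := by
    intro x hx
    simp [toV, hx]
  let F : X × X → S × S := fun p =>
    (⟨toV (p.1 * (c (QuotientGroup.mk p.1, QuotientGroup.mk p.2)).1⁻¹), QuotientGroup.mk p.1⟩,
     ⟨toV (p.2 * (c (QuotientGroup.mk p.1, QuotientGroup.mk p.2)).2⁻¹), QuotientGroup.mk p.2⟩)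
  have key : ∀ p : X × X, p.1 * p.2 = p.2 * p.1 →
      ((QuotientGroup.mk (c (QuotientGroup.mk p.1, QuotientGroup.mk p.2)).1 : X ⧸ V) = QuotientGroup.mk p.1 ∧
       (QuotientGroup.mk (c (QuotientGroup.mk p.1, QuotientGroup.mk p.2)).2 : X ⧸ V) = QuotientGroup.mk p.2 ∧
       (c (QuotientGroup.mk p.1, QuotientGroup.mk p.2)).1 * (c (QuotientGroup.mk p.1, QuotientGroup.mk p.2)).2 =
        (c (QuotientGroup.mk p.1, QuotientGroup.mk p.2)).2 * (c (QuotientGroup.mk p.1, QuotientGroup.mk p.2)).1) := by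
    intro p hp
    exact hc (QuotientGroup.mk p.1, QuotientGroup.mk p.2) ⟨p.1, p.2, rfl, rfl, hp⟩
  have memV : ∀ a b : X, (QuotientGroup.mk b : X ⧸ V) = QuotientGroup.mk a → a * b⁻¹ ∈ V := by
    intro a b h
    have h' : (QuotientGroup.mk (a * b⁻¹) : X ⧸ V) = 1 := by
      rw [QuotientGroup.mk_mul, QuotientGroup.mk_inv, h, mul_inv_cancel]
    exact (QuotientGroup.eq_one_iff _).1 h'
  have Fcomm : ∀ p : X × X, p.1 * p.2 = p.2 * p.1 → Commute (F p).1 (F p).2 := by
    rintro ⟨x, y⟩ hp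
    obtain ⟨h1, h2, h3⟩ := key (x, y) hp
    simp only at h1 h2 h3 hp
    set x₀ := (c (QuotientGroup.mk x, QuotientGroup.mk y)).1 with hx₀
    set y₀ := (c (QuotientGroup.mk x, QuotientGroup.mk y)).2 with hy₀
    have hu : x * x₀⁻¹ ∈ V := memV x x₀ h1
    have hw : y * y₀⁻¹ ∈ V := memV y y₀ h2
    show (F (x, y)).1 * (F (x, y)).2 = (F (x, y)).2 * (F (x, y)).1
    apply SemidirectProduct.ext
    · show toV (x * x₀⁻¹) * φ (QuotientGroup.mk x) (toV (y * y₀⁻¹)) =
        toV (y * y₀⁻¹) * φ (QuotientGroup.mk y) (toV (x * x₀⁻¹))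
      apply Subtype.ext
      rw [Subgroup.coe_mul, Subgroup.coe_mul, ← h1, ← h2, hφ, hφ, toV_coe _ hu, toV_coe _ hw]
      have h3' : y₀⁻¹ * x₀⁻¹ = x₀⁻¹ * y₀⁻¹ := by
        rw [← mul_inv_rev, ← mul_inv_rev, h3]
      calc x * x₀⁻¹ * (x₀ * (y * y₀⁻¹) * x₀⁻¹) = x * y * (y₀⁻¹ * x₀⁻¹) := by group
        _ = y * x * (x₀⁻¹ * y₀⁻¹) := by rw [hp, h3']
        _ = y * y₀⁻¹ * (y₀ * (x * x₀⁻¹) * y₀⁻¹) := by group
    · show (QuotientGroup.mk x : X ⧸ V) * QuotientGroup.mk y = QuotientGroup.mk y * QuotientGroup.mk x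
      rw [← QuotientGroup.mk_mul, ← QuotientGroup.mk_mul, hp]
  have Finj : ∀ p p' : X × X, p.1 * p.2 = p.2 * p.1 → p'.1 * p'.2 = p'.2 * p'.1 → F p = F p' → p = p' := by
    rintro ⟨x, y⟩ ⟨x', y'⟩ hp hp' hF
    obtain ⟨h1, h2, -⟩ := key (x, y) hp
    obtain ⟨h1', h2', -⟩ := key (x', y') hp'
    simp only at h1 h2 h1' h2' hp hp'
    have e1 : (QuotientGroup.mk x : X ⧸ V) = QuotientGroup.mk x' := by
      have := congrArg (fun t : S × S => t.1.right) hF
      simpa [F] using this
    have e2 : (QuotientGroup.mk y : X ⧸ V) = QuotientGroup.mk y' := by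
      have := congrArg (fun t : S × S => t.2.right) hF
      simpa [F] using this
    have l1 : toV (x * (c (QuotientGroup.mk x, QuotientGroup.mk y)).1⁻¹) =
        toV (x' * (c (QuotientGroup.mk x', QuotientGroup.mk y')).1⁻¹) := by
      have := congrArg (fun t : S × S => t.1.left) hF
      simpa [F] using this
    have l2 : toV (y * (c (QuotientGroup.mk x, QuotientGroup.mk y)).2⁻¹) =
        toV (y' * (c (QuotientGroup.mk x', QuotientGroup.mk y')).2⁻¹) := by
      have := congrArg (fun t : S × S => t.2.left) hF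
      simpa [F] using this
    rw [← e1, ← e2] at l1 l2 h1' h2'
    have l1' := congrArg (fun v : ↥V => (v : X)) l1
    have l2' := congrArg (fun v : ↥V => (v : X)) l2
    beta_reduce at l1' l2'
    rw [toV_coe _ (memV x _ h1), toV_coe _ (memV x' _ (h1'.trans e1))] at l1'
    rw [toV_coe _ (memV y _ h2), toV_coe _ (memV y' _ (h2'.trans e2))] at l2'
    exact Prod.ext (mul_right_cancel l1') (mul_right_cancel l2')
  -- compare the numbers of commuting pairs
  have hle : Nat.card { p : X × X // Commute p.1 p.2 } ≤ Nat.card { p : S × S // Commute p.1 p.2 } := by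
    refine Nat.card_le_card_of_injective (fun p => ⟨F p.1, Fcomm p.1 p.2⟩) ?_
    intro p p' h
    have h' : F p.1 = F p'.1 := congrArg Subtype.val h
    exact Subtype.ext (Finj p.1 p'.1 p.2 p'.2 h')
  rw [card_comm_eq_card_conjClasses_mul_card, card_comm_eq_card_conjClasses_mul_card, hcardS] at hle
  exact Nat.le_of_mul_le_mul_right hle Nat.card_pos

end Cfsg.Agent.S4965
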