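import Cfsg.Statements.S4966
import Cfsg.Agent.Lib.Helper99.SelfDual

set_option autoImplicit false
open Cfsg

namespace Cfsg.Agent.S4966

/-- Let F be a finite field of characteristic p, G a finite group of order prime to p, and V a finite-dimensional representation of G over F carrying a nondegenerate G-invariant bilinear form (equivalently, V is self-dual). Then V is the direct sum of two G-invariant subspaces U and W such that U carries a G-invariant alternating bilinear form that is nondegenerate on U and W carries a G-invariant symmetric bilinear form that is nondegenerate on W; moreover when p = 2 the decomposition can be chosen with G acting trivially on W. -/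
theorem result {F : Type*} [Field F] [Fintype F] (p : ℕ) [Fact p.Prime] [CharP F p] {G : Type*} [Group G] [Finite G] (hcop : ¬ p ∣ Nat.card G) {V : Type*} [AddCommGroup V] [Module F V] [FiniteDimensional F V] (ρ : Representation F G V) (B : LinearMap.BilinForm F V) (hB : B.Nondegenerate) (hBinv : ∀ g : G, ∀ x y : V, B (ρ g x) (ρ g y) = B x y) : ∃ U W : Submodule F V, IsCompl U W ∧ (∀ g : G, ∀ u ∈ U, ρ g u ∈ U) ∧ (∀ g : G, ∀ w ∈ W, ρ g w ∈ W) ∧ (∃ A : LinearMap.BilinForm F V, (∀ x : V, A x x = 0) ∧ (∀ g : G, ∀ x ∈ U, ∀ y ∈ U, A (ρ g x) (ρ g y) = A x y) ∧ (∀ x ∈ U, (∀ y ∈ U, A x y = 0) → x = 0)) ∧ (∃ S : LinearMap.BilinForm F V, (∀ x y : V, S x y = S y x) ∧ (∀ g : G, ∀ x ∈ W, ∀ y ∈ W, S (ρ g x) (ρ g y) = S x y) ∧ (∀ x ∈ W, (∀ y ∈ W, S x y = 0) → x = 0)) ∧ (p = 2 → ∀ g : G, ∀ w ∈ W, ρ g w = w) := by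
  classical
  haveI : Fintype G := Fintype.ofFinite G
  have hp := (Fact.out : p.Prime)
  have hG : (Fintype.card G : F) ≠ 0 := by
    rw [Ne, CharP.cast_eq_zero_iff F p, ← Nat.card_eq_fintype_card]
    exact hcop
  have h2 : p = 2 → (2 : F) = 0 := by
    intro h
    have := (CharP.cast_eq_zero_iff F p 2).mpr (by rw [h])
    exact_mod_cast this
  have h2' : p ≠ 2 → (2 : F) ≠ 0 := by
    intro h h0
    have h3 : ((2 : ℕ) : F) = 0 := by exact_mod_cast h0
    rw [CharP.cast_eq_zero_iff F p] at h3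
    exact h ((Nat.prime_dvd_prime_iff_eq hp Nat.prime_two).mp h3)
  have hgood := Lib.Helper99.sd_good p h2 h2' ρ hG B hBinv _ ⊤ rfl
    (fun g x _ => Submodule.mem_top) (fun x _ h => hB.1 x (fun y => h y Submodule.mem_top))
  obtain ⟨U, W, hUW, hsup, hU, hW, ⟨A, hA, hAc⟩, ⟨S, hS, hSc⟩, hp2⟩ := hgood
  by_cases hp' : p = 2
  · have hU0 := hp2 hp'
    rw [hU0, bot_sup_eq] at hsup
    subst hsup
    have hodd : (Fintype.card G : F) = 1 := by
      have h1 : ¬ 2 ∣ Fintype.card G := by
        rw [← Nat.card_eq_fintype_card, ← hp']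
        exact hcop
      have h3 : Fintype.card G = 2 * (Fintype.card G / 2) + 1 := by omega
      rw [h3]
      push_cast
      rw [h2 hp']
      ring
    obtain ⟨U', W', hc, hU', hW', ⟨A', hA', hAc'⟩, hSc', htriv⟩ :=
      Lib.Helper99.sd_final_two (h2 hp') hodd ρ S hS
        (fun g x y => hSc.1 g x Submodule.mem_top y Submodule.mem_top)
        (fun x h => hSc.2 x Submodule.mem_top (fun y _ => h y))
    exact ⟨U', W', hc, hU', hW', ⟨A', hA', hAc'.1, hAc'.2⟩, ⟨S, hS, hSc'.1, hSc'.2⟩,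
      fun _ => htriv⟩
  · exact ⟨U, W, IsCompl.of_eq hUW hsup, hU, hW, ⟨A, hA, hAc.1, hAc.2⟩, ⟨S, hS, hSc.1, hSc.2⟩,
      fun h => absurd h hp'⟩

end Cfsg.Agent.S4966
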