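import Cfsg.Statements.S5014
import Cfsg.Agent.Lib.Helper83.RankOne
open Cfsg.Agent.Lib.Helper83

set_option autoImplicit false
open Cfsg

namespace Cfsg.Agent.S5014

/-- Let X = ⟨A, B⟩ be a rank one group with unipotent subgroups A and B and let Ω be the set of conjugates of A under X. Then Ω has at least three members, X acts doubly transitively on Ω by conjugation (any two ordered pairs of distinct members are carried to one another by a single element of X), and A acts regularly on Ω with A removed: for C, D in Ω different from A there is exactly one element of A conjugating C to D. -/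
theorem result {G : Type*} [Group G] {A B : Subgroup G} (h : Cfsg.IsRankOnePair A B) :
    (∃ C₁ ∈ Cfsg.unipotentSubgroups A B, ∃ C₂ ∈ Cfsg.unipotentSubgroups A B, ∃ C₃ ∈ Cfsg.unipotentSubgroups A B,
      C₁ ≠ C₂ ∧ C₁ ≠ C₃ ∧ C₂ ≠ C₃) ∧
    (∀ C₁ ∈ Cfsg.unipotentSubgroups A B, ∀ C₂ ∈ Cfsg.unipotentSubgroups A B, ∀ D₁ ∈ Cfsg.unipotentSubgroups A B,
      ∀ D₂ ∈ Cfsg.unipotentSubgroups A B, C₁ ≠ C₂ → D₁ ≠ D₂ →
        ∃ x ∈ A ⊔ B, Cfsg.conjBy C₁ x = D₁ ∧ Cfsg.conjBy C₂ x = D₂) ∧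
    (∀ C ∈ Cfsg.unipotentSubgroups A B, ∀ D ∈ Cfsg.unipotentSubgroups A B, C ≠ A → D ≠ A →
      ∃! a : G, a ∈ A ∧ Cfsg.conjBy C a = D) := by
  refine ⟨?_, ?_, ?_⟩
  · obtain ⟨⟨a, ha⟩, ha1⟩ := (Subgroup.ne_bot_iff_exists_ne_one).mp (rankOne_ne_bot_left h)
    have ha1' : a ≠ 1 := fun e => ha1 (Subtype.ext e)
    refine ⟨A, left_mem_unipotent A B, B, rankOne_right_mem_unipotent h, conjBy B a,
      unipotent_conj_mem (rankOne_right_mem_unipotent h) (Subgroup.mem_sup_left ha), h.ne,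
      (rankOne_conjBy_right_ne_left h ha).symm, ?_⟩
    intro e
    apply ha1'
    have : conjBy B 1 = conjBy B a := by rw [conjBy_one]; exact e
    exact (rankOne_conjBy_right_inj h (one_mem _) ha this).symm
  · intro C₁ hC₁ C₂ hC₂ D₁ hD₁ D₂ hD₂ hC hD
    obtain ⟨x, hx, rfl, rfl⟩ := rankOne_two_transitive h hC₁ hC₂ hC
    obtain ⟨y, hy, rfl, rfl⟩ := rankOne_two_transitive h hD₁ hD₂ hD
    refine ⟨y * x⁻¹, mul_mem hy (inv_mem hx), ?_, ?_⟩
    · rw [conjBy_conjBy]; simp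
    · rw [conjBy_conjBy]; simp
  · intro C hC D hD hCA hDA
    rcases rankOne_unipotent_cases h hC with e | ⟨a₁, ha₁, rfl⟩
    · exact absurd e hCA
    rcases rankOne_unipotent_cases h hD with e | ⟨a₂, ha₂, rfl⟩
    · exact absurd e hDA
    refine ⟨a₂ * a₁⁻¹, ⟨mul_mem ha₂ (inv_mem ha₁), ?_⟩, ?_⟩
    · rw [conjBy_conjBy]; simp
    · rintro a' ⟨ha', e⟩
      rw [conjBy_conjBy] at e
      have := rankOne_conjBy_right_inj h (mul_mem ha' ha₁) ha₂ e
      rw [← this]; group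

end Cfsg.Agent.S5014
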