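import Cfsg.Statements.S5015
import Cfsg.Agent.Lib.Helper83.RankOne
open Cfsg.Agent.Lib.Helper83

set_option autoImplicit false
open Cfsg

namespace Cfsg.Agent.S5015

/-- Let a group Y act doubly transitively on a set Ω with at least three points, and suppose that the stabilizer of a point α contains a nilpotent subgroup A, normalized by that stabilizer, which acts regularly on the points other than α. Then for any y in Y moving α, the subgroups A and y A y⁻¹ are the unipotent subgroups of a rank one group, and the normal closure of A in Y (the subgroup generated by all conjugates of A) is generated by A and y A y⁻¹ alone. -/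
theorem result {Y Ω : Type*} [Group Y] [MulAction Y Ω]
    (h2 : MulAction.IsMultiplyPretransitive Y Ω 2) (hΩ : 3 ≤ ENat.card Ω) (α : Ω) (A : Subgroup Y)
    (hA : A ≤ MulAction.stabilizer Y α) (hAn : ∀ y ∈ MulAction.stabilizer Y α, Cfsg.conjBy A y = A)
    (hnil : Group.IsNilpotent A) (hreg : ∀ β γ : Ω, β ≠ α → γ ≠ α → ∃! a : Y, a ∈ A ∧ a • β = γ)
    (y : Y) (hy : y ∉ MulAction.stabilizer Y α) :
    Cfsg.IsRankOnePair A (Cfsg.conjBy A y) ∧ Subgroup.normalClosure (A : Set Y) = A ⊔ Cfsg.conjBy A y := by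
  have hβ : y • α ≠ α := fun e => hy (MulAction.mem_stabilizer_iff.mpr e)
  -- conjugates of A depend only on the image of α
  have F1 : ∀ g g' : Y, g • α = g' • α → conjBy A g = conjBy A g' := by
    intro g g' e
    have hs : g⁻¹ * g' ∈ MulAction.stabilizer Y α := by
      rw [MulAction.mem_stabilizer_iff, mul_smul, ← e, inv_smul_smul]
    have e2 : g' = g * (g⁻¹ * g') := by group
    rw [e2, ← conjBy_conjBy, hAn _ hs]
  have hAfix : ∀ a ∈ A, a • α = α := fun a ha => MulAction.mem_stabilizer_iff.mp (hA ha)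
  have hBfix : ∀ b ∈ conjBy A y, b • (y • α) = y • α := by
    intro b hb
    rw [mem_conjBy] at hb
    have := hAfix _ hb
    rw [mul_smul, mul_smul, inv_smul_eq_iff] at this
    exact this
  -- transitivity of the conjugate on the points other than y • α
  have hBtrans : ∀ γ δ : Ω, γ ≠ y • α → δ ≠ y • α → ∃ b ∈ conjBy A y, b • γ = δ := by
    intro γ δ hγ hδ
    have hγ' : y⁻¹ • γ ≠ α := fun e => hγ (by rw [← e, smul_inv_smul])
    have hδ' : y⁻¹ • δ ≠ α := fun e => hδ (by rw [← e, smul_inv_smul])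
    obtain ⟨a, ⟨ha, hae⟩, -⟩ := hreg _ _ hγ' hδ'
    refine ⟨y * a * y⁻¹, conj_mem_conjBy ha y, ?_⟩
    rw [mul_smul, mul_smul, hae, smul_inv_smul]
  have hBuniq : ∀ γ : Ω, γ ≠ y • α → ∀ b ∈ conjBy A y, b • γ = γ → b = 1 := by
    intro γ hγ b hb hbγ
    have hγ' : y⁻¹ • γ ≠ α := fun e => hγ (by rw [← e, smul_inv_smul])
    rw [mem_conjBy] at hb
    obtain ⟨a, -, hau⟩ := hreg _ _ hγ' hγ'
    have h1 : y⁻¹ * b * y = a := hau _ ⟨hb, by rw [mul_smul, mul_smul, smul_inv_smul, hbγ]⟩
    have h2 : (1 : Y) = a := hau _ ⟨one_mem _, one_smul _ _⟩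
    have h3 : y⁻¹ * b * y = 1 := by rw [h1, ← h2]
    calc b = y * (y⁻¹ * b * y) * y⁻¹ := by group
      _ = 1 := by rw [h3]; group
  have hAuniq : ∀ γ : Ω, γ ≠ α → ∀ a ∈ A, a • γ = γ → a = 1 := by
    intro γ hγ a ha haγ
    obtain ⟨a', -, hau⟩ := hreg _ _ hγ hγ
    have h1 : a = a' := hau _ ⟨ha, haγ⟩
    have h2 : (1 : Y) = a' := hau _ ⟨one_mem _, one_smul _ _⟩
    rw [h1, ← h2]
  obtain ⟨γ, hγα, hγβ⟩ := ENat.exists_ne_ne_of_three_le hΩ α (y • α)
  have hne : A ≠ conjBy A y := by
    intro e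
    obtain ⟨a, ⟨ha, hae⟩, -⟩ := hreg _ _ hβ hγα
    have : a • (y • α) = y • α := hBfix a (by rw [← e]; exact ha)
    rw [hae] at this
    exact hγβ this
  refine ⟨⟨hne, hnil, conjBy_nilpotent hnil y, ?_, ?_⟩, ?_⟩
  · -- rank one condition for (A, B)
    intro a ha ha1
    have h1 : a⁻¹ • (y • α) ≠ y • α := by
      intro e
      have := hAuniq _ hβ a⁻¹ (inv_mem ha) e
      exact ha1 (inv_eq_one.mp this)
    have h2 : a⁻¹ • (y • α) ≠ α := by
      intro e
      rw [inv_smul_eq_iff, hAfix a ha] at e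
      exact hβ e
    obtain ⟨b₀, hb₀, hb₀e⟩ := hBtrans α (a⁻¹ • (y • α)) (Ne.symm hβ) h1
    refine ⟨b₀⁻¹, inv_mem hb₀, ?_, ?_⟩
    · intro e
      rw [inv_eq_one] at e
      rw [e, one_smul] at hb₀e
      exact h2 hb₀e.symm
    · rw [inv_inv, conjBy_conjBy]
      apply F1
      rw [hb₀e, mul_smul]
  · -- rank one condition for (B, A)
    intro b hb hb1
    have h1 : b⁻¹ • α ≠ α := by
      intro e
      have := hBuniq α (Ne.symm hβ) b⁻¹ (inv_mem hb) e
      exact hb1 (inv_eq_one.mp this)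
    have h2 : b⁻¹ • α ≠ y • α := by
      intro e
      rw [inv_smul_eq_iff, hBfix b hb] at e
      exact hβ e.symm
    obtain ⟨a₀, ⟨ha₀, ha₀e⟩, -⟩ := hreg _ _ hβ h1
    refine ⟨a₀⁻¹, inv_mem ha₀, ?_, ?_⟩
    · intro e
      rw [inv_eq_one] at e
      rw [e, one_smul] at ha₀e
      exact h2 ha₀e.symm
    · rw [inv_inv, conjBy_conjBy]
      apply F1
      rw [mul_smul, ha₀e]
  · -- the normal closure
    have hconj : ∀ g : Y, conjBy A g ≤ A ⊔ conjBy A y := by
      intro g
      by_cases hg : g • α = α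
      · rw [hAn g (MulAction.mem_stabilizer_iff.mpr hg)]
        exact le_sup_left
      · obtain ⟨a, ⟨ha, hae⟩, -⟩ := hreg _ _ hβ hg
        have : conjBy A g = conjBy (conjBy A y) a := by
          rw [conjBy_conjBy]
          apply F1
          rw [mul_smul, hae]
        rw [this]
        exact conjBy_le_of_mem le_sup_right (Subgroup.mem_sup_left ha)
    have hnormal : (A ⊔ conjBy A y).Normal := by
      refine ⟨fun x hx g => ?_⟩
      have h1 : g * x * g⁻¹ ∈ conjBy (A ⊔ conjBy A y) g := conj_mem_conjBy hx g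
      rw [conjBy_sup, conjBy_conjBy] at h1
      exact (sup_le (hconj g) (hconj (g * y))) h1
    apply le_antisymm
    · exact Subgroup.normalClosure_le_normal (fun x hx => Subgroup.mem_sup_left hx)
    · refine sup_le Subgroup.le_normalClosure ?_
      intro x hx
      rw [mem_conjBy] at hx
      have h1 := (Subgroup.normalClosure_normal (s := (A : Set Y))).conj_mem _
        (Subgroup.le_normalClosure hx) y
      have e : y * (y⁻¹ * x * y) * y⁻¹ = x := by group
      rw [e] at h1
      exact h1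

end Cfsg.Agent.S5015
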