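import Cfsg.Statements.S5016
import Cfsg.Agent.Lib.Helper83.RootSet3

set_option autoImplicit false
open Cfsg
open Cfsg.Agent.Lib.Helper83

namespace Cfsg.Agent.S5016

variable {k : Type*} [Field k]

/-- The lower unitriangular matrix with entry `t`. -/
def lowerMat (t : k) : Matrix.SpecialLinearGroup (Fin 2) k :=
  ⟨!![1, 0; t, 1], by simp [Matrix.det_fin_two]⟩

/-- The upper unitriangular matrix with entry `s`. -/
def upperMat (s : k) : Matrix.SpecialLinearGroup (Fin 2) k :=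
  ⟨!![1, s; 0, 1], by simp [Matrix.det_fin_two]⟩

/-- The Weyl element. -/
def weylMat : Matrix.SpecialLinearGroup (Fin 2) k :=
  ⟨!![0, 1; -1, 0], by simp [Matrix.det_fin_two]⟩

theorem sl2_ext {x y : Matrix.SpecialLinearGroup (Fin 2) k} (h00 : x.1 0 0 = y.1 0 0)
    (h01 : x.1 0 1 = y.1 0 1) (h10 : x.1 1 0 = y.1 1 0) (h11 : x.1 1 1 = y.1 1 1) : x = y := by
  apply Subtype.ext
  ext i j
  fin_cases i <;> fin_cases j <;> assumption

theorem sl2_mul_apply (x y : Matrix.SpecialLinearGroup (Fin 2) k) (i j : Fin 2) :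
    (x * y).1 i j = x.1 i 0 * y.1 0 j + x.1 i 1 * y.1 1 j := by
  simp [Matrix.mul_apply, Fin.sum_univ_two]

theorem sl2_inv_00 (x : Matrix.SpecialLinearGroup (Fin 2) k) : (x⁻¹).1 0 0 = x.1 1 1 := by
  simp [Matrix.adjugate_fin_two]
theorem sl2_inv_01 (x : Matrix.SpecialLinearGroup (Fin 2) k) : (x⁻¹).1 0 1 = - x.1 0 1 := by
  simp [Matrix.adjugate_fin_two]
theorem sl2_inv_10 (x : Matrix.SpecialLinearGroup (Fin 2) k) : (x⁻¹).1 1 0 = - x.1 1 0 := by
  simp [Matrix.adjugate_fin_two]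
theorem sl2_inv_11 (x : Matrix.SpecialLinearGroup (Fin 2) k) : (x⁻¹).1 1 1 = x.1 0 0 := by
  simp [Matrix.adjugate_fin_two]

theorem sl2_det (x : Matrix.SpecialLinearGroup (Fin 2) k) :
    x.1 0 0 * x.1 1 1 - x.1 0 1 * x.1 1 0 = 1 := by
  have := x.2
  rw [Matrix.det_fin_two] at this
  exact this

theorem sl2_one_00 : (1 : Matrix.SpecialLinearGroup (Fin 2) k).1 0 0 = 1 := by simp
theorem sl2_one_01 : (1 : Matrix.SpecialLinearGroup (Fin 2) k).1 0 1 = 0 := by simp
theorem sl2_one_10 : (1 : Matrix.SpecialLinearGroup (Fin 2) k).1 1 0 = 0 := by simp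
theorem sl2_one_11 : (1 : Matrix.SpecialLinearGroup (Fin 2) k).1 1 1 = 1 := by simp

theorem lowerMat_00 (t : k) : (lowerMat t).1 0 0 = 1 := by simp [lowerMat]
theorem lowerMat_01 (t : k) : (lowerMat t).1 0 1 = 0 := by simp [lowerMat]
theorem lowerMat_10 (t : k) : (lowerMat t).1 1 0 = t := by simp [lowerMat]
theorem lowerMat_11 (t : k) : (lowerMat t).1 1 1 = 1 := by simp [lowerMat]
theorem upperMat_00 (t : k) : (upperMat t).1 0 0 = 1 := by simp [upperMat]
theorem upperMat_01 (t : k) : (upperMat t).1 0 1 = t := by simp [upperMat]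
theorem upperMat_10 (t : k) : (upperMat t).1 1 0 = 0 := by simp [upperMat]
theorem upperMat_11 (t : k) : (upperMat t).1 1 1 = 1 := by simp [upperMat]
theorem weylMat_00 : (weylMat (k := k)).1 0 0 = 0 := by simp [weylMat]
theorem weylMat_01 : (weylMat (k := k)).1 0 1 = 1 := by simp [weylMat]
theorem weylMat_10 : (weylMat (k := k)).1 1 0 = -1 := by simp [weylMat]
theorem weylMat_11 : (weylMat (k := k)).1 1 1 = 0 := by simp [weylMat]

theorem mem_lower_iff {x : Matrix.SpecialLinearGroup (Fin 2) k} :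
    x ∈ lowerUnipotentSL2 k ↔ x.1 0 1 = 0 ∧ x.1 0 0 = 1 ∧ x.1 1 1 = 1 := by
  constructor
  · intro hx
    induction hx using Subgroup.closure_induction with
    | mem y hy => exact hy
    | one => exact ⟨sl2_one_01, sl2_one_00, sl2_one_11⟩
    | mul y z _ _ hy hz =>
      obtain ⟨hy1, hy2, hy3⟩ := hy
      obtain ⟨hz1, hz2, hz3⟩ := hz
      refine ⟨?_, ?_, ?_⟩ <;> simp only [sl2_mul_apply, hy1, hy2, hy3, hz1, hz2, hz3] <;> ring
    | inv y _ hy =>
      obtain ⟨hy1, hy2, hy3⟩ := hy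
      refine ⟨?_, ?_, ?_⟩
      · rw [sl2_inv_01, hy1, neg_zero]
      · rw [sl2_inv_00, hy3]
      · rw [sl2_inv_11, hy2]
  · intro hx
    exact Subgroup.subset_closure hx

theorem mem_upper_iff {x : Matrix.SpecialLinearGroup (Fin 2) k} :
    x ∈ upperUnipotentSL2 k ↔ x.1 1 0 = 0 ∧ x.1 0 0 = 1 ∧ x.1 1 1 = 1 := by
  constructor
  · intro hx
    induction hx using Subgroup.closure_induction with
    | mem y hy => exact hy
    | one => exact ⟨sl2_one_10, sl2_one_00, sl2_one_11⟩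
    | mul y z _ _ hy hz =>
      obtain ⟨hy1, hy2, hy3⟩ := hy
      obtain ⟨hz1, hz2, hz3⟩ := hz
      refine ⟨?_, ?_, ?_⟩ <;> simp only [sl2_mul_apply, hy1, hy2, hy3, hz1, hz2, hz3] <;> ring
    | inv y _ hy =>
      obtain ⟨hy1, hy2, hy3⟩ := hy
      refine ⟨?_, ?_, ?_⟩
      · rw [sl2_inv_10, hy1, neg_zero]
      · rw [sl2_inv_00, hy3]
      · rw [sl2_inv_11, hy2]
  · intro hx
    exact Subgroup.subset_closure hx

theorem lowerMat_mem (t : k) : lowerMat t ∈ lowerUnipotentSL2 k :=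
  mem_lower_iff.mpr ⟨lowerMat_01 t, lowerMat_00 t, lowerMat_11 t⟩

theorem upperMat_mem (t : k) : upperMat t ∈ upperUnipotentSL2 k :=
  mem_upper_iff.mpr ⟨upperMat_10 t, upperMat_00 t, upperMat_11 t⟩

theorem eq_lowerMat {x : Matrix.SpecialLinearGroup (Fin 2) k} (hx : x ∈ lowerUnipotentSL2 k) :
    x = lowerMat (x.1 1 0) := by
  obtain ⟨h1, h2, h3⟩ := mem_lower_iff.mp hx
  apply sl2_ext
  · rw [h2, lowerMat_00]
  · rw [h1, lowerMat_01]
  · rw [lowerMat_10]
  · rw [h3, lowerMat_11]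

theorem eq_upperMat {x : Matrix.SpecialLinearGroup (Fin 2) k} (hx : x ∈ upperUnipotentSL2 k) :
    x = upperMat (x.1 0 1) := by
  obtain ⟨h1, h2, h3⟩ := mem_upper_iff.mp hx
  apply sl2_ext
  · rw [h2, upperMat_00]
  · rw [upperMat_01]
  · rw [h1, upperMat_10]
  · rw [h3, upperMat_11]

theorem lowerMat_zero : lowerMat (0 : k) = 1 := by
  apply sl2_ext
  · rw [lowerMat_00, sl2_one_00]
  · rw [lowerMat_01, sl2_one_01]
  · rw [lowerMat_10, sl2_one_10]
  · rw [lowerMat_11, sl2_one_11]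

theorem upperMat_zero : upperMat (0 : k) = 1 := by
  apply sl2_ext
  · rw [upperMat_00, sl2_one_00]
  · rw [upperMat_01, sl2_one_01]
  · rw [upperMat_10, sl2_one_10]
  · rw [upperMat_11, sl2_one_11]

theorem lowerMat_ne_one {t : k} (ht : t ≠ 0) : lowerMat t ≠ 1 := by
  intro e
  have := congrArg (fun x : Matrix.SpecialLinearGroup (Fin 2) k => x.1 1 0) e
  simp only [lowerMat_10, sl2_one_10] at this
  exact ht this

theorem upperMat_ne_one {t : k} (ht : t ≠ 0) : upperMat t ≠ 1 := by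
  intro e
  have := congrArg (fun x : Matrix.SpecialLinearGroup (Fin 2) k => x.1 0 1) e
  simp only [upperMat_01, sl2_one_01] at this
  exact ht this

/-- Matrices with non-zero lower left entry are products upper * lower * upper. -/
theorem mem_sup_of_ne {g : Matrix.SpecialLinearGroup (Fin 2) k} (hc : g.1 1 0 ≠ 0) :
    g ∈ lowerUnipotentSL2 k ⊔ upperUnipotentSL2 k := by
  have hg : g = upperMat ((g.1 0 0 - 1) / g.1 1 0) * lowerMat (g.1 1 0) *
      upperMat ((g.1 1 1 - 1) / g.1 1 0) := by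
    have hdet := sl2_det g
    apply sl2_ext <;>
      simp only [sl2_mul_apply, lowerMat_00, lowerMat_01, lowerMat_10, lowerMat_11, upperMat_00,
        upperMat_01, upperMat_10, upperMat_11] <;> field_simp <;>
      first | ring1 | linear_combination hdet | linear_combination (-1 : k) * hdet
  rw [hg]
  exact mul_mem (mul_mem (Subgroup.mem_sup_right (upperMat_mem _)) (Subgroup.mem_sup_left (lowerMat_mem _)))
    (Subgroup.mem_sup_right (upperMat_mem _))

theorem sup_eq_top : lowerUnipotentSL2 k ⊔ upperUnipotentSL2 k = ⊤ := by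
  rw [eq_top_iff]
  intro g _
  by_cases hc : g.1 1 0 = 0
  · have hdet := sl2_det g
    rw [hc, mul_zero, sub_zero] at hdet
    have ha : g.1 0 0 ≠ 0 := by
      intro h
      rw [h, zero_mul] at hdet
      exact zero_ne_one hdet
    have h1 : (lowerMat 1 * g).1 1 0 ≠ 0 := by
      simp only [sl2_mul_apply, lowerMat_10, lowerMat_11, hc]
      simpa using ha
    have h2 := mem_sup_of_ne h1
    have e : g = (lowerMat 1)⁻¹ * (lowerMat 1 * g) := by group
    rw [e]
    exact mul_mem (inv_mem (Subgroup.mem_sup_left (lowerMat_mem _))) h2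
  · exact mem_sup_of_ne hc

theorem lower_comm : IsMulCommutative ↥(lowerUnipotentSL2 k) := by
  refine ⟨⟨fun x y => ?_⟩⟩
  apply Subtype.ext
  obtain ⟨hx1, hx2, hx3⟩ := mem_lower_iff.mp x.2
  obtain ⟨hy1, hy2, hy3⟩ := mem_lower_iff.mp y.2
  show (x : Matrix.SpecialLinearGroup (Fin 2) k) * y = y * x
  apply sl2_ext <;> simp only [sl2_mul_apply, hx1, hx2, hx3, hy1, hy2, hy3] <;> ring

theorem upper_comm : IsMulCommutative ↥(upperUnipotentSL2 k) := by
  refine ⟨⟨fun x y => ?_⟩⟩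
  apply Subtype.ext
  obtain ⟨hx1, hx2, hx3⟩ := mem_upper_iff.mp x.2
  obtain ⟨hy1, hy2, hy3⟩ := mem_upper_iff.mp y.2
  show (x : Matrix.SpecialLinearGroup (Fin 2) k) * y = y * x
  apply sl2_ext <;> simp only [sl2_mul_apply, hx1, hx2, hx3, hy1, hy2, hy3] <;> ring

theorem lower_ne_upper : lowerUnipotentSL2 k ≠ upperUnipotentSL2 k := by
  intro e
  have h1 : lowerMat (1 : k) ∈ upperUnipotentSL2 k := by rw [← e]; exact lowerMat_mem 1
  have := (mem_upper_iff.mp h1).1
  rw [lowerMat_10] at this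
  exact one_ne_zero this

/-- Conjugating the lower unitriangular group by the Weyl element gives the upper one. -/
theorem conjBy_lower_weyl : conjBy (lowerUnipotentSL2 k) weylMat = upperUnipotentSL2 k := by
  ext x
  rw [mem_conjBy, mem_lower_iff, mem_upper_iff]
  simp only [sl2_mul_apply, sl2_inv_00, sl2_inv_01, sl2_inv_10, sl2_inv_11, weylMat_00, weylMat_01,
    weylMat_10, weylMat_11]
  constructor
  · rintro ⟨h1, h2, h3⟩
    refine ⟨?_, ?_, ?_⟩
    · linear_combination (-1 : k) * h1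
    · linear_combination h3
    · linear_combination h2
  · rintro ⟨h1, h2, h3⟩
    refine ⟨?_, ?_, ?_⟩
    · linear_combination (-1 : k) * h1
    · linear_combination h3
    · linear_combination h2

theorem conjBy_lower_le {n : Matrix.SpecialLinearGroup (Fin 2) k} (hn : n.1 0 1 = 0) :
    conjBy (lowerUnipotentSL2 k) n ≤ lowerUnipotentSL2 k := by
  intro x hx
  rw [mem_conjBy] at hx
  obtain ⟨h1, h2, h3⟩ := mem_lower_iff.mp hx
  have e : x = n * (n⁻¹ * x * n) * n⁻¹ := by group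
  have hdet := sl2_det n
  rw [hn, zero_mul, sub_zero] at hdet
  rw [e, mem_lower_iff]
  refine ⟨?_, ?_, ?_⟩
  · rw [sl2_mul_apply, sl2_mul_apply n, sl2_mul_apply n, sl2_inv_01, sl2_inv_11, hn, h1, h2, h3]
    ring
  · rw [sl2_mul_apply, sl2_mul_apply n, sl2_mul_apply n, sl2_inv_00, sl2_inv_10, hn, h1, h2, h3]
    linear_combination hdet
  · rw [sl2_mul_apply, sl2_mul_apply n, sl2_mul_apply n, sl2_inv_01, sl2_inv_11, hn, h1, h3]
    linear_combination hdet

theorem conjBy_lower_eq {n : Matrix.SpecialLinearGroup (Fin 2) k} (hn : n.1 0 1 = 0) :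
    conjBy (lowerUnipotentSL2 k) n = lowerUnipotentSL2 k :=
  conjBy_eq_of_le (conjBy_lower_le hn) (conjBy_lower_le (by rw [sl2_inv_01, hn, neg_zero]))

/-- The basic conjugation identity. -/
theorem conj_identity {t : k} (ht : t ≠ 0) :
    conjBy (lowerUnipotentSL2 k) (upperMat t⁻¹)⁻¹ = conjBy (upperUnipotentSL2 k) (lowerMat t)⁻¹ := by
  have hn : (upperMat t⁻¹ * (lowerMat t)⁻¹ * weylMat).1 0 1 = 0 := by
    simp only [sl2_mul_apply, sl2_inv_00, sl2_inv_01, sl2_inv_10, sl2_inv_11, lowerMat_00, lowerMat_01,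
      lowerMat_10, lowerMat_11, upperMat_00, upperMat_01, weylMat_01, weylMat_11]
    field_simp
    ring
  have e : (upperMat t⁻¹)⁻¹ * (upperMat t⁻¹ * (lowerMat t)⁻¹ * weylMat) = (lowerMat t)⁻¹ * weylMat := by
    group
  calc conjBy (lowerUnipotentSL2 k) (upperMat t⁻¹)⁻¹
      = conjBy (conjBy (lowerUnipotentSL2 k) (upperMat t⁻¹ * (lowerMat t)⁻¹ * weylMat))
          (upperMat t⁻¹)⁻¹ := by rw [conjBy_lower_eq hn]
    _ = conjBy (lowerUnipotentSL2 k) ((lowerMat t)⁻¹ * weylMat) := by rw [conjBy_conjBy, e]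
    _ = conjBy (upperUnipotentSL2 k) (lowerMat t)⁻¹ := by rw [← conjBy_conjBy, conjBy_lower_weyl]

theorem rankOnePair : IsRankOnePair (lowerUnipotentSL2 k) (upperUnipotentSL2 k) := by
  refine ⟨lower_ne_upper, ⟨⟨1, Subgroup.upperCentralSeries_one_eq_top_iff.mpr lower_comm⟩⟩,
    ⟨⟨1, Subgroup.upperCentralSeries_one_eq_top_iff.mpr upper_comm⟩⟩, ?_, ?_⟩
  · intro a ha ha1
    have ht : a.1 1 0 ≠ 0 := by
      intro h
      apply ha1
      rw [eq_lowerMat ha, h, lowerMat_zero]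
    refine ⟨upperMat (a.1 1 0)⁻¹, upperMat_mem _, upperMat_ne_one (inv_ne_zero ht), ?_⟩
    rw [conj_identity ht, ← eq_lowerMat ha]
  · intro b hb hb1
    have hs : b.1 0 1 ≠ 0 := by
      intro h
      apply hb1
      rw [eq_upperMat hb, h, upperMat_zero]
    refine ⟨lowerMat (b.1 0 1)⁻¹, lowerMat_mem _, lowerMat_ne_one (inv_ne_zero hs), ?_⟩
    have := conj_identity (inv_ne_zero hs)
    rw [inv_inv, ← eq_upperMat hb] at this
    exact this.symm

theorem special_identity {t : k} (ht : t ≠ 0) :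
    (upperMat t⁻¹)⁻¹ * lowerMat t * upperMat t⁻¹ = (lowerMat t)⁻¹ * (upperMat t⁻¹)⁻¹ * lowerMat t := by
  apply sl2_ext <;>
    simp only [sl2_mul_apply, sl2_inv_00, sl2_inv_01, sl2_inv_10, sl2_inv_11, lowerMat_00, lowerMat_01,
      lowerMat_10, lowerMat_11, upperMat_00, upperMat_01, upperMat_10, upperMat_11] <;>
    field_simp <;> ring

/-- For any field k, the special linear group SL₂(k) is a special rank one group with abelian unipotent subgroups, the unipotent subgroups being the group of lower unitriangular matrices and the group of upper unitriangular matrices. -/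
theorem result (k : Type*) [Field k] :
    Cfsg.IsRankOneGroup (Matrix.SpecialLinearGroup (Fin 2) k) (Cfsg.lowerUnipotentSL2 k) (Cfsg.upperUnipotentSL2 k) ∧
    Cfsg.IsSpecialRankOnePair (Cfsg.lowerUnipotentSL2 k) (Cfsg.upperUnipotentSL2 k) ∧
    Cfsg.HasAbelianUnipotents (Cfsg.lowerUnipotentSL2 k) (Cfsg.upperUnipotentSL2 k) := by
  refine ⟨⟨sup_eq_top, rankOnePair⟩, ⟨rankOnePair, ?_⟩, ⟨lower_comm, upper_comm⟩⟩
  intro a ha ha1 b hb _ hab
  have ht : a.1 1 0 ≠ 0 := by
    intro h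
    apply ha1
    rw [eq_lowerMat ha, h, lowerMat_zero]
  have hab' : conjBy (lowerUnipotentSL2 k) (upperMat (a.1 1 0)⁻¹)⁻¹ =
      conjBy (upperUnipotentSL2 k) a⁻¹ := by
    rw [conj_identity ht, ← eq_lowerMat ha]
  have hb' : b = upperMat (a.1 1 0)⁻¹ := rankOne_partner_unique rankOnePair hb (upperMat_mem _) hab hab'
  rw [hb', eq_lowerMat ha]
  simp only [lowerMat_10]
  exact special_identity ht

end Cfsg.Agent.S5016
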