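import Cfsg.Statements.S5019
import Cfsg.Agent.Lib.Helper83.Quadratic
open Cfsg.Agent.Lib.Helper83

set_option autoImplicit false
open Cfsg

namespace Cfsg.Agent.S5019

/-- Let X be a rank one group with abelian unipotent subgroups A and B, and suppose X acts on an abelian group N (written additively) in such a way that A acts quadratically, meaning a' • (a • n − n) = a • n − n for all a, a' in A and n in N, while X as a whole does not: y • (x • n − n) ≠ x • n − n for some x, y in X and n in N. Then X is a special rank one group. -/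
theorem result {X : Type*} [Group X] {A B : Subgroup X} (h : Cfsg.IsRankOneGroup X A B)
    (hab : Cfsg.HasAbelianUnipotents A B) {N : Type*} [AddCommGroup N] [DistribMulAction X N]
    (hq : ∀ a ∈ A, ∀ a' ∈ A, ∀ n : N, a' • (a • n - n) = a • n - n)
    (hX : ∃ x y : X, ∃ n : N, y • (x • n - n) ≠ x • n - n) : Cfsg.IsSpecialRankOnePair A B := by
  obtain ⟨htop, hp⟩ := h
  have hA : QuadOn A N := quadOn_iff.mpr hq
  have hB : QuadOn B N := quadOn_right_of_rankOne hp hA
  have hker : ∀ z : X, actRho X N z = 1 → z ∈ Subgroup.center X := by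
    rcases rankOneGroup_normal_dichotomy ⟨htop, hp⟩ (actRho X N).ker (MonoidHom.normal_ker _)
      with hsup | hle
    · exfalso
      obtain ⟨x, y, n, hxy⟩ := hX
      have hx : x ∈ (actRho X N).ker ⊔ A := by rw [hsup]; trivial
      have hy : y ∈ (actRho X N).ker ⊔ A := by rw [hsup]; trivial
      obtain ⟨k, hk, a, ha, rfl⟩ := exists_mul_of_mem_normal_sup (MonoidHom.normal_ker _) hx
      obtain ⟨k', hk', a', ha', rfl⟩ := exists_mul_of_mem_normal_sup (MonoidHom.normal_ker _) hy
      rw [MonoidHom.mem_ker] at hk hk'
      apply hxy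
      have h1 := hA a ha a' ha'
      have e1 : actRho X N (k * a) = actRho X N a := by rw [map_mul, hk, one_mul]
      have e2 : actRho X N (k' * a') = actRho X N a' := by rw [map_mul, hk', one_mul]
      rw [← e1, ← e2] at h1
      exact actRho_quad_iff.mp h1 n
    · intro z hz
      exact hle (MonoidHom.mem_ker.mpr hz)
  refine ⟨hp, ?_⟩
  intro a ha _ b hb _ e
  exact quad_special hp hA hB hker ha hb e

end Cfsg.Agent.S5019
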