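import Cfsg.Statements.S5020
import Cfsg.Agent.Lib.Helper83.SLp2
open Cfsg.Agent.Lib.Helper83

set_option autoImplicit false
open Cfsg

namespace Cfsg.Agent.S5020

/-- Let X be a special rank one group with abelian unipotent subgroups A and B, and H = N(A) ∩ N(B) its diagonal subgroup. Then either A has at most three elements and X is isomorphic to SL₂(2), SL₂(3) or PSL₂(3); or X = X' A with the commutator subgroup X' quasisimple and the commutator subgroup ⁅A, H⁆ having more than three elements. -/
theorem result {X : Type*} [Group X] {A B : Subgroup X} (h : Cfsg.IsRankOneGroup X A B)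
    (hs : Cfsg.IsSpecialRankOnePair A B) (hab : Cfsg.HasAbelianUnipotents A B) :
    (ENat.card A ≤ 3 ∧ (Nonempty (X ≃* Matrix.SpecialLinearGroup (Fin 2) (ZMod 2)) ∨
        Nonempty (X ≃* Matrix.SpecialLinearGroup (Fin 2) (ZMod 3)) ∨
        Nonempty (X ≃* Matrix.ProjectiveSpecialLinearGroup (Fin 2) (ZMod 3)))) ∨
    (commutator X ⊔ A = ⊤ ∧ Cfsg.IsQuasisimple (commutator X) ∧
      3 < ENat.card ↥(⁅A, Cfsg.rankOneDiagonal A B⁆ : Subgroup X)) := by
  by_cases h3 : 3 < ENat.card A
  · exact Or.inr (special_large_structure h hs hab h3)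
  · left
    have hle : ENat.card A ≤ 3 := not_lt.mp h3
    refine ⟨hle, ?_⟩
    have hfin : Finite A := by
      rw [← ENat.card_lt_top]
      exact lt_of_le_of_lt hle (ENat.coe_lt_top 3)
    have hn : Nat.card A ≤ 3 := by
      rw [ENat.card_eq_coe_natCard] at hle
      exact_mod_cast hle
    have hn1 : 1 < Nat.card A := A.one_lt_card_iff_ne_bot.mpr (rankOne_ne_bot_left h.2)
    have hcases : Nat.card A = 2 ∨ Nat.card A = 3 := by omega
    rcases hcases with h2 | h2
    · have : Fact (Nat.Prime 2) := ⟨Nat.prime_two⟩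
      rcases special_prime_card_iso h hs h2 with h4 | h4
      · exact Or.inl h4
      · obtain ⟨e⟩ := h4
        obtain ⟨e'⟩ := psl2_two_iso
        exact Or.inl ⟨e.trans e'⟩
    · have : Fact (Nat.Prime 3) := ⟨Nat.prime_three⟩
      rcases special_prime_card_iso h hs h2 with h4 | h4
      · exact Or.inr (Or.inl h4)
      · exact Or.inr (Or.inr h4)

end Cfsg.Agent.S5020
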