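import Cfsg.Statements.S5021
import Cfsg.Agent.Lib.Helper83.Special
import Cfsg.Agent.Lib.Helper83.RootSet
open Cfsg.Agent.Lib.Helper83

set_option autoImplicit false
open Cfsg

namespace Cfsg.Agent.S5021

/-- In a special rank one group with abelian unipotent subgroups A and B, either A is an elementary abelian p-group for some prime p, or A is torsion-free and divisible (every element of A has an n-th root in A for every positive n). -/
theorem result {X : Type*} [Group X] {A B : Subgroup X} (h : Cfsg.IsRankOneGroup X A B)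
    (hs : Cfsg.IsSpecialRankOnePair A B) (hab : Cfsg.HasAbelianUnipotents A B) :
    (∃ p : ℕ, p.Prime ∧ Cfsg.IsElementaryAbelian p A) ∨
    ((∀ a ∈ A, a ≠ 1 → ¬ IsOfFinOrder a) ∧ ∀ a ∈ A, ∀ n : ℕ, 0 < n → ∃ c ∈ A, c ^ n = a) := by
  obtain ⟨htop, hp⟩ := h
  have hcomm : ∀ x ∈ A, ∀ y ∈ A, x * y = y * x := fun x hx y hy =>
    mulComm_of_isMulCommutative hab.1 hx hy
  by_cases hfin : ∃ a ∈ A, a ≠ 1 ∧ IsOfFinOrder a
  · left
    -- the least prime occurring as an order
    have hex : ∃ q : ℕ, q.Prime ∧ ∃ x ∈ A, orderOf x = q := by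
      obtain ⟨a₀, ha₀, ha₀1, hfo⟩ := hfin
      have hn0 : orderOf a₀ ≠ 0 := (orderOf_pos_iff.mpr hfo).ne'
      have hn1 : orderOf a₀ ≠ 1 := fun h1 => ha₀1 (orderOf_eq_one_iff.mp h1)
      exact ⟨(orderOf a₀).minFac, Nat.minFac_prime hn1, a₀ ^ (orderOf a₀ / (orderOf a₀).minFac),
        A.pow_mem ha₀ _, orderOf_pow_orderOf_div hn0 (Nat.minFac_dvd _)⟩
    classical
    have hq := Nat.find_spec hex
    have hmin : ∀ q' < Nat.find hex, ¬ (q'.Prime ∧ ∃ x ∈ A, orderOf x = q') :=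
      fun q' hq' => Nat.find_min hex hq'
    generalize Nat.find hex = q at hq hmin
    obtain ⟨hqp, x, hx, hxo⟩ := hq
    have hx1 : x ≠ 1 := by
      intro e
      rw [e, orderOf_one] at hxo
      exact hqp.one_lt.ne hxo
    have hxq : x ^ q = 1 := by rw [← hxo]; exact pow_orderOf_eq_one x
    have hT : ∀ y ∈ A, y ≠ 1 → ∀ j, 1 ≤ j → j ≤ q - 1 → y ^ j ≠ 1 := by
      intro y hy hy1 j hj1 hjq hyj
      have hdvd : orderOf y ∣ j := orderOf_dvd_of_pow_eq_one hyj
      have hle : orderOf y ≤ j := Nat.le_of_dvd hj1 hdvd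
      have hn0 : orderOf y ≠ 0 := fun e => by rw [e, zero_dvd_iff] at hdvd; omega
      have hn1 : orderOf y ≠ 1 := fun h1 => hy1 (orderOf_eq_one_iff.mp h1)
      have hlt : (orderOf y).minFac < q := by
        have := Nat.minFac_le (Nat.pos_of_ne_zero hn0)
        have hq2 := hqp.two_le
        omega
      exact hmin _ hlt ⟨Nat.minFac_prime hn1, y ^ (orderOf y / (orderOf y).minFac), A.pow_mem hy _,
        orderOf_pow_orderOf_div hn0 (Nat.minFac_dvd _)⟩
    have hP := special_pow hs (q - 1) hT q hqp.one_lt.le (by have := hqp.two_le; omega)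
    refine ⟨q, hqp, hab.1, ?_⟩
    intro y hy
    by_contra hyq
    have hy1 : y ≠ 1 := by
      rintro rfl
      exact hyq (one_pow q)
    have hyx1 : y * x ≠ 1 := by
      intro e
      apply hyq
      have : y = x⁻¹ := eq_inv_of_mul_eq_one_left e
      rw [this, inv_pow, hxq, inv_one]
    have hpow : (y * x) ^ q = y ^ q := by
      rw [(show Commute y x from hcomm y hy x hx).mul_pow, hxq, mul_one]
    obtain ⟨b₁, r₁⟩ := rpartner_exists hp hy hy1
    obtain ⟨b₂, r₂⟩ := rpartner_exists hp (A.mul_mem hy hx) hyx1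
    obtain ⟨b₃, r₃⟩ := rpartner_exists hp (A.pow_mem hy q) hyq
    have e1 := hP y b₁ b₃ r₁ r₃
    have e2 := hP (y * x) b₂ b₃ r₂ (by rw [hpow]; exact r₃)
    rw [e1] at e2
    rw [← e2] at r₂
    have := rpartner_unique_left hp r₁ r₂
    exact hx1 (by simpa using this)
  · right
    have htf : ∀ a ∈ A, a ≠ 1 → ¬ IsOfFinOrder a := fun a ha ha1 hfo => hfin ⟨a, ha, ha1, hfo⟩
    refine ⟨htf, ?_⟩
    intro a ha n hn
    by_cases ha1 : a = 1
    · exact ⟨1, one_mem _, by rw [ha1, one_pow]⟩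
    obtain ⟨x, -, hBx⟩ := rankOne_right_mem_unipotent hp
    have hb : x * a * x⁻¹ ∈ B := by rw [hBx]; exact conj_mem_conjBy ha x
    have hb1 : x * a * x⁻¹ ≠ 1 := by
      intro e
      apply ha1
      have : a = x⁻¹ * (x * a * x⁻¹) * x := by group
      rw [this, e]; group
    obtain ⟨a₂, r₂⟩ := rpartner_exists' hp hb hb1
    have ha₂1 := rpartner_ne_one_left hp r₂
    have hpow1 : ∀ y ∈ A, y ≠ 1 → ∀ j, 1 ≤ j → y ^ j ≠ 1 := by
      intro y hy hy1 j hj hyj
      exact htf y hy hy1 (isOfFinOrder_iff_pow_eq_one.mpr ⟨j, hj, hyj⟩)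
    obtain ⟨b₂, r₃⟩ := rpartner_exists hp (A.pow_mem r₂.1 n) (hpow1 a₂ r₂.1 ha₂1 n hn)
    have hP := special_pow hs n (fun y hy hy1 j hj _ => hpow1 y hy hy1 j hj) n hn (by omega)
      a₂ _ b₂ r₂ r₃
    have hc : x⁻¹ * b₂ * x ∈ A := by
      have := r₃.2.1
      rw [hBx, mem_conjBy] at this
      exact this
    refine ⟨x⁻¹ * b₂ * x, hc, ?_⟩
    have e1 : (x⁻¹ * b₂ * x) ^ n = x⁻¹ * b₂ ^ n * x := by
      have := conj_pow (a := x⁻¹) (b := b₂) (i := n)
      rwa [inv_inv] at this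
    rw [e1, hP]; group

end Cfsg.Agent.S5021
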