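import Cfsg.Statements.S5023
import Cfsg.Agent.Lib.Helper83.Quadratic
open Cfsg.Agent.Lib.Helper83

set_option autoImplicit false
open Cfsg

namespace Cfsg.Agent.S5023

/-- Let X be a rank one group with unipotent subgroups A and B that acts faithfully on an abelian group V (written additively) with A acting quadratically: a' • (a • v − v) = a • v − v for all a, a' in A and v in V. Then A is either torsion-free or an elementary abelian p-group for some prime p. -/
theorem result {X : Type*} [Group X] {A B : Subgroup X} (h : Cfsg.IsRankOneGroup X A B)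
    {V : Type*} [AddCommGroup V] [DistribMulAction X V] (hf : ∀ x : X, (∀ v : V, x • v = v) → x = 1)
    (hq : ∀ a ∈ A, ∀ a' ∈ A, ∀ v : V, a' • (a • v - v) = a • v - v) :
    (∀ a ∈ A, a ≠ 1 → ¬ IsOfFinOrder a) ∨ ∃ p : ℕ, p.Prime ∧ Cfsg.IsElementaryAbelian p A := by
  obtain ⟨htop, hp⟩ := h
  have hA : QuadOn A V := quadOn_iff.mpr hq
  have hB : QuadOn B V := quadOn_right_of_rankOne hp hA
  have hker1 : ∀ z : X, actRho X V z = 1 → z = 1 := fun z hz => hf z (actRho_eq_one_iff.mp hz)
  have hker : ∀ z : X, actRho X V z = 1 → z ∈ Subgroup.center X := by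
    intro z hz
    rw [hker1 z hz]
    exact one_mem _
  have hinj : ∀ x y : X, actRho X V x = actRho X V y → x = y := by
    intro x y hxy
    have : actRho X V (x * y⁻¹) = 1 := by
      rw [map_mul, hxy, actRho_mul_inv]
    exact mul_inv_eq_one.mp (hker1 _ this)
  have hcomm : IsMulCommutative A := by
    refine ⟨⟨fun x y => Subtype.ext ?_⟩⟩
    apply hinj
    show actRho X V ((x : X) * (y : X)) = actRho X V ((y : X) * (x : X))
    rw [quadOn_mul hA y.2 x.2, quadOn_mul hA x.2 y.2, add_comm (actRho X V (x : X) - 1)]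
  by_cases hfin : ∃ a ∈ A, a ≠ 1 ∧ IsOfFinOrder a
  swap
  · left
    intro a ha ha1 hfo
    exact hfin ⟨a, ha, ha1, hfo⟩
  right
  obtain ⟨a₀, ha₀, ha₀1, hfo⟩ := hfin
  have hn0 : orderOf a₀ ≠ 0 := (orderOf_pos_iff.mpr hfo).ne'
  have hn1 : orderOf a₀ ≠ 1 := fun h1 => ha₀1 (orderOf_eq_one_iff.mp h1)
  have hpp : (orderOf a₀).minFac.Prime := Nat.minFac_prime hn1
  have hpd : (orderOf a₀).minFac ∣ orderOf a₀ := Nat.minFac_dvd _
  generalize (orderOf a₀).minFac = p at hpp hpd
  refine ⟨p, hpp, hcomm, ?_⟩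
  -- an element of order p
  have hord : orderOf (a₀ ^ (orderOf a₀ / p)) = p := orderOf_pow_orderOf_div hn0 hpd
  have ha : a₀ ^ (orderOf a₀ / p) ∈ A := A.pow_mem ha₀ _
  generalize a₀ ^ (orderOf a₀ / p) = a at hord ha
  have hap : a ^ p = 1 := by rw [← hord]; exact pow_orderOf_eq_one a
  have ha1 : a ≠ 1 := by
    intro h1
    rw [h1, orderOf_one] at hord
    exact hpp.one_lt.ne hord
  have hPα : (p : AddMonoid.End V) * (actRho X V a - 1) = 0 := by
    have := quadOn_pow hA ha p
    rw [hap, map_one] at this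
    have h2 : (1 : AddMonoid.End V) + 0 = 1 + (p : AddMonoid.End V) * (actRho X V a - 1) := by
      rw [add_zero]; exact this
    exact (add_left_cancel h2).symm
  obtain ⟨b, hb, hb1, e⟩ := hp.cond_left a ha ha1
  intro a' ha'
  by_cases ha'1 : a' = 1
  · rw [ha'1, one_pow]
  obtain ⟨b', hb', hb'1, e'⟩ := hp.cond_left a' ha' ha'1
  obtain ⟨s1, s2⟩ := quad_star hA hB ha hb ha' hb' e
  obtain ⟨-, hρ, -⟩ := quad_core hA hB ha' hb' e'
  have hsp := quad_special hp hA hB hker ha' hb' e'
  have hb2 : b' * (a' * b'⁻¹ * a' * b' * a'⁻¹) = 1 := by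
    have e6 : b' * (a' * b'⁻¹ * a' * b' * a'⁻¹) = b' * a' * (b'⁻¹ * a' * b') * a'⁻¹ := by group
    rw [e6, hsp]; group
  rw [hb2, map_one] at hρ
  have hsum : (actRho X V a' - 1) + (actRho X V b' - 1) =
      (actRho X V a' - 1) * (actRho X V b' - 1) * (actRho X V a' - 1) +
      (actRho X V b' - 1) * (actRho X V a' - 1) * (actRho X V b' - 1) := by
    have h2 : (1 : AddMonoid.End V) + 0 = 1 + ((actRho X V a' - 1) + (actRho X V b' - 1) -
          (actRho X V a' - 1) * (actRho X V b' - 1) * (actRho X V a' - 1) -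
          (actRho X V b' - 1) * (actRho X V a' - 1) * (actRho X V b' - 1)) := by
      rw [add_zero]; exact hρ
    have h3 := (add_left_cancel h2).symm
    rw [sub_sub, sub_eq_zero] at h3
    exact h3
  -- p kills the products
  have hc : ∀ z : AddMonoid.End V, (p : AddMonoid.End V) * z = z * (p : AddMonoid.End V) :=
    fun z => Nat.cast_comm p z
  have hp1 : (p : AddMonoid.End V) * ((actRho X V a' - 1) * (actRho X V b' - 1)) = 0 := by
    rw [s1]
    calc (p : AddMonoid.End V) *
          ((actRho X V a' - 1) * (actRho X V b - 1) * (actRho X V a - 1) * (actRho X V b' - 1))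
        = ((p : AddMonoid.End V) * ((actRho X V a' - 1) * (actRho X V b - 1))) * (actRho X V a - 1) *
            (actRho X V b' - 1) := by simp only [mul_assoc]
      _ = (actRho X V a' - 1) * (actRho X V b - 1) * ((p : AddMonoid.End V) * (actRho X V a - 1)) *
            (actRho X V b' - 1) := by rw [hc]; simp only [mul_assoc]
      _ = 0 := by rw [hPα, mul_zero, zero_mul]
  have hp2 : (p : AddMonoid.End V) * ((actRho X V b' - 1) * (actRho X V a' - 1)) = 0 := by
    rw [s2]
    calc (p : AddMonoid.End V) *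
          ((actRho X V b' - 1) * (actRho X V a - 1) * (actRho X V b - 1) * (actRho X V a' - 1))
        = ((p : AddMonoid.End V) * (actRho X V b' - 1)) * (actRho X V a - 1) * (actRho X V b - 1) *
            (actRho X V a' - 1) := by simp only [mul_assoc]
      _ = (actRho X V b' - 1) * ((p : AddMonoid.End V) * (actRho X V a - 1)) * (actRho X V b - 1) *
            (actRho X V a' - 1) := by rw [hc]; simp only [mul_assoc]
      _ = 0 := by rw [hPα, mul_zero, zero_mul, zero_mul]
  have hp3 : (p : AddMonoid.End V) * (actRho X V a' - 1) +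
      (p : AddMonoid.End V) * (actRho X V b' - 1) = 0 := by
    rw [← mul_add, hsum, mul_add,
      ← mul_assoc (p : AddMonoid.End V) ((actRho X V a' - 1) * (actRho X V b' - 1)), hp1,
      ← mul_assoc (p : AddMonoid.End V) ((actRho X V b' - 1) * (actRho X V a' - 1)), hp2,
      zero_mul, zero_mul, add_zero]
  -- compare a'^p and b'⁻¹^p
  have hβ' := hB b' hb' b' hb'
  have e1 : actRho X V (a' ^ p) = actRho X V (b'⁻¹ ^ p) := by
    rw [quadOn_pow hA ha', map_pow, quadOn_inv hB hb', sub_eq_add_neg (1 : AddMonoid.End V),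
      quad_ring_pow _ (by rw [neg_mul_neg, hβ']), mul_neg, ← eq_neg_iff_add_eq_zero.mpr hp3]
  have e2 := hinj _ _ e1
  have hmem : a' ^ p ∈ A ⊓ Subgroup.normalizer (B : Set X) :=
    ⟨A.pow_mem ha' p, by rw [e2]; exact Subgroup.le_normalizer (B.pow_mem (B.inv_mem hb') p)⟩
  rw [rankOne_inf_normalizer hp] at hmem
  exact hmem

end Cfsg.Agent.S5023
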