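import Cfsg.Statements.S5033
import Cfsg.Agent.Lib.Helper83.Quasi

set_option autoImplicit false
open Cfsg

namespace Cfsg.Agent.S5033

/-- Quasisimplicity criterion for groups generated by abstract root subgroups. Let S be a set of abstract root subgroups of G with more than one member such that: the graph of rank one pairs on S is connected; no two different members of S have the same set of commuting members of S; if S is degenerate then every member of S has more than three elements; and every rank one pair in S is special. Then for every A ∈ S one has G = G' A with A ∩ G' ≠ 1, and the commutator subgroup G' is quasisimple. Moreover G is perfect if S is non-degenerate, or if some rank one pair A, B in S generates a perfect group. -/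
theorem result {G : Type*} [Group G] {S : Set (Subgroup G)} (hS : Cfsg.IsRootSubgroupSet S) (h2 : ∃ A ∈ S, ∃ B ∈ S, A ≠ B)
    (h1 : Cfsg.IsConnectedFamily (Cfsg.FAdj S) S)
    (h2' : ∀ A ∈ S, ∀ C ∈ S, A ≠ C → Cfsg.centralizingMembers S A ≠ Cfsg.centralizingMembers S C)
    (h3 : Cfsg.IsDegenerateRootSet S → ∀ A ∈ S, 3 < ENat.card A)
    (h4 : ∀ A ∈ S, ∀ B ∈ Cfsg.rankOnePartners S A, Cfsg.IsSpecialRankOnePair A B) :
    (∀ A ∈ S, commutator G ⊔ A = ⊤ ∧ A ⊓ commutator G ≠ ⊥) ∧ Cfsg.IsQuasisimple ↥(commutator G) ∧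
    (Cfsg.IsNondegenerateRootSet S → commutator G = ⊤) ∧
    ((∃ A ∈ S, ∃ B ∈ Cfsg.rankOnePartners S A, Group.IsPerfect ↥(A ⊔ B)) → commutator G = ⊤) := by
  have hcls : IsConjClassOfSubgroups S :=
    ((Cfsg.Agent.Lib.Helper83.root_connected_iff hS h2).mp h1).1
  have hpartner : ∀ A ∈ S, ∃ F ∈ S, IsRankOnePair A F := by
    intro A hA
    obtain ⟨A₀, hA₀, B₀, hB₀, hne⟩ := h2
    obtain ⟨X, hX, hXA⟩ : ∃ X ∈ S, X ≠ A := by
      by_cases h : A₀ = A
      · exact ⟨B₀, hB₀, fun e => hne (h.trans e.symm)⟩
      · exact ⟨A₀, hA₀, h⟩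
    rcases Relation.ReflTransGen.cases_head (h1 A hA X hX) with e | ⟨F, hF, -⟩
    · exact absurd e.symm hXA
    · exact ⟨F, hF.2.1, hF.2.2⟩
  have hperf : commutator G = ⊤ := by
    have hall : ∀ A ∈ S, A ≤ commutator G := by
      by_cases hdeg : IsDegenerateRootSet S
      · intro A hA
        obtain ⟨F, hF, hAF⟩ := hpartner A hA
        have hK := Cfsg.Agent.Lib.Helper83.special_comm_diag_top_of_card (h4 A hA F ⟨hF, hAF⟩)
          (hS.commutative A hA) (h3 hdeg A hA)
        refine hK.trans ?_
        rw [commutator_def]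
        exact Subgroup.commutator_mono le_top le_top
      · unfold IsDegenerateRootSet at hdeg
        push Not at hdeg
        obtain ⟨A₁, hA₁, T₁, hT₁, hc⟩ := hdeg
        intro A hA
        obtain ⟨g, rfl⟩ := hcls.2 _ hc.1 A hA
        have hD : ⁅A₁, T₁⁆ ≤ commutator G := by
          rw [commutator_def]
          exact Subgroup.commutator_mono le_top le_top
        intro x hx
        rw [Cfsg.Agent.Lib.Helper83.mem_conjBy] at hx
        have hn : (commutator G).Normal := inferInstance
        have hmem := hn.conj_mem _ (hD hx) g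
        have e : x = g * (g⁻¹ * x * g) * g⁻¹ := by group
        rw [e]
        exact hmem
    rw [eq_top_iff, ← hS.generates]
    exact iSup₂_le hall
  have hZ : Subgroup.center G ≠ ⊤ := by
    intro hZ
    obtain ⟨A₀, hA₀, -⟩ := h2
    obtain ⟨F, hF, hAF⟩ := hpartner A₀ hA₀
    apply Cfsg.Agent.Lib.Helper83.rankOne_not_commute_all hAF
    intro a ha b hb
    have hmem : a ∈ Subgroup.center G := by rw [hZ]; trivial
    exact (Subgroup.mem_center_iff.mp hmem b).symm
  have hdich : ∀ N : Subgroup G, N.Normal → N ≤ Subgroup.center G ∨ N = ⊤ := by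
    intro N hN
    by_cases hNZ : N ≤ Subgroup.center G
    · left; exact hNZ
    · right
      obtain ⟨D, hD, hND⟩ := Cfsg.Agent.Lib.Helper83.root_normal_exists_le hS hcls h2' h3 h4 hN hNZ
      exact Cfsg.Agent.Lib.Helper83.root_normal_top_of_inf_ne_bot hS h1 hperf hN hD hND
  have hQ : IsQuasisimple G := Cfsg.Agent.Lib.Helper83.isQuasisimple_of_dichotomy hperf hZ hdich
  refine ⟨?_, ?_, fun _ => hperf, fun _ => hperf⟩
  · intro A hA
    rw [hperf]
    exact ⟨top_sup_eq _, by rw [inf_top_eq]; exact hS.ne_bot A hA⟩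
  · rw [hperf]
    exact Cfsg.Agent.Lib.Helper83.isQuasisimple_congr Subgroup.topEquiv hQ

end Cfsg.Agent.S5033
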