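-- Statement S5035: homomorphic images of sets of abstract root subgroups.
import Cfsg.Statements.S5035
import Cfsg.Agent.Lib.Helper84.RootBasic

set_option autoImplicit false
open Cfsg

namespace Cfsg.Agent.S5035

open Cfsg.Agent.Lib.Helper84

variable {G H : Type*} [Group G] [Group H]

/-- a rank one pair with trivial image of the first member has trivial image of the second. -/
theorem map_eq_bot_of_pair (f : G →* H) {A B : Subgroup G} (hA : A ≠ ⊥) (h : IsRankOnePair A B)
    (hf : A.map f = ⊥) : B.map f = ⊥ := by
  obtain ⟨a, ha1⟩ := (Subgroup.ne_bot_iff_exists_ne_one.1 hA)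
  obtain ⟨b, hb, hb1, hconj⟩ := h.cond_left a.1 a.2 (fun h1 => ha1 (Subtype.ext h1))
  have h2 := congrArg (Subgroup.map f) hconj
  rw [map_conjBy, map_conjBy, hf] at h2
  have h3 : ∀ g : H, conjBy (⊥ : Subgroup H) g = ⊥ := fun g => Subgroup.map_bot _
  rw [h3] at h2
  have h4 : conjBy (conjBy (B.map f) (f a.1⁻¹)) (f a.1) = conjBy ⊥ (f a.1) := by rw [← h2]
  rw [conjBy_conjBy] at h4
  have h5 : f a.1 * f a.1⁻¹ = 1 := by simp
  rw [h5, conjBy_one] at h4
  rw [h4]
  exact h3 _

/-- the rank one condition passes to images with different images. -/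
theorem rankOneCondition_map (f : G →* H) {A B : Subgroup G} (h : RankOneCondition A B)
    (hne : A.map f ≠ B.map f) : RankOneCondition (A.map f) (B.map f) := by
  rintro _ ⟨a, ha, rfl⟩ hfa
  have ha1 : a ≠ 1 := by
    rintro rfl
    exact hfa (map_one f)
  obtain ⟨b, hb, hb1, hconj⟩ := h a ha ha1
  have h2 := congrArg (Subgroup.map f) hconj
  rw [map_conjBy, map_conjBy, map_inv, map_inv] at h2
  refine ⟨f b, Subgroup.mem_map_of_mem f hb, ?_, h2⟩
  intro hfb
  apply hne
  rw [hfb, inv_one, conjBy_one] at h2
  have h4 : conjBy (A.map f) (f a) = conjBy (conjBy (B.map f) (f a)⁻¹) (f a) := by rw [← h2]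
  rw [conjBy_conjBy, mul_inv_cancel, conjBy_one, conjBy_of_mem (Subgroup.mem_map_of_mem f ha)] at h4
  exact h4

theorem isRankOnePair_map (f : G →* H) {A B : Subgroup G} (hA : IsMulCommutative A)
    (hB : IsMulCommutative B) (h : IsRankOnePair A B)
    (hne : A.map f ≠ B.map f) : IsRankOnePair (A.map f) (B.map f) :=
  ⟨hne, isNilpotent_of_isMulCommutative _, isNilpotent_of_isMulCommutative _,
    rankOneCondition_map f h.cond_left hne, rankOneCondition_map f h.cond_right (Ne.symm hne)⟩

theorem rootCommutatorCase_map (f : G →* H) {S : Set (Subgroup G)} {A B : Subgroup G}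
    (h : RootCommutatorCase S A B) :
    RootCommutatorCase ((fun A : Subgroup G => A.map f) '' S) (A.map f) (B.map f) := by
  obtain ⟨h1, h2, h3, h4⟩ := h
  refine ⟨⟨⁅A, B⁆, h1, Subgroup.map_commutator A B f⟩, ?_, ?_, ?_⟩
  · intro c hc x hx
    rw [← Subgroup.map_commutator] at hc
    rw [← Subgroup.map_sup] at hx
    obtain ⟨c', hc', rfl⟩ := hc
    obtain ⟨x', hx', rfl⟩ := hx
    rw [← map_mul, ← map_mul, h2 c' hc' x' hx']
  · rintro _ ⟨a, ha, rfl⟩ hfa
    have ha1 : a ≠ 1 := by
      rintro rfl
      exact hfa (map_one f)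
    have h5 := congrArg (Subgroup.map f) (h3 a ha ha1)
    rw [MonoidHom.map_closure, Subgroup.map_commutator] at h5
    rw [← h5]
    congr 1
    rw [Subgroup.coe_map, Set.image_image, Set.image_image]
    apply Set.image_congr
    intro b _
    simp
  · rintro _ ⟨b, hb, rfl⟩ hfb
    have hb1 : b ≠ 1 := by
      rintro rfl
      exact hfb (map_one f)
    have h5 := congrArg (Subgroup.map f) (h4 b hb hb1)
    rw [MonoidHom.map_closure, Subgroup.map_commutator] at h5
    rw [← h5]
    congr 1
    rw [Subgroup.coe_map, Set.image_image, Set.image_image]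
    apply Set.image_congr
    intro a _
    simp

/-- Let S be a set of abstract root subgroups of G whose graph of rank one pairs is connected, and f a homomorphism from G onto a group H. Then either the images of the members of S form a set of abstract root subgroups of H whose graph of rank one pairs is again connected, or H equals the image of a member of S. -/
theorem result {G H : Type*} [Group G] [Group H] {S : Set (Subgroup G)} (hS : Cfsg.IsRootSubgroupSet S)
    (hc : Cfsg.IsConnectedFamily (Cfsg.FAdj S) S) (f : G →* H) (hf : Function.Surjective f) :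
    (Cfsg.IsRootSubgroupSet ((fun A : Subgroup G => A.map f) '' S) ∧
      Cfsg.IsConnectedFamily (Cfsg.FAdj ((fun A : Subgroup G => A.map f) '' S)) ((fun A : Subgroup G => A.map f) '' S)) ∨
    ∃ A ∈ S, A.map f = ⊤ := by
  have hgen : (⨆ A ∈ S, A.map f) = ⊤ := by
    have h1 : (⨆ A ∈ S, A.map f) = (⨆ A ∈ S, A).map f := by
      rw [Subgroup.map_iSup]
      congr 1
      ext A
      rw [Subgroup.map_iSup]
    rw [h1, hS.generates, ← MonoidHom.range_eq_map, MonoidHom.range_eq_top]
    exact hf
  by_cases hbot : ∃ A ∈ S, A.map f = ⊥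
  · right
    obtain ⟨A, hA, hAf⟩ := hbot
    have hall : ∀ B ∈ S, B.map f = ⊥ := by
      intro B hB
      have hpath := hc A hA B hB
      induction hpath with
      | refl => exact hAf
      | tail _ hbc ih =>
        obtain ⟨hb, hc', hpair⟩ := hbc
        exact map_eq_bot_of_pair f (hS.ne_bot _ hb) hpair (ih hb)
    have htop : (⊥ : Subgroup H) = ⊤ := by
      rw [← hgen]
      symm
      rw [eq_bot_iff]
      apply iSup₂_le
      intro B hB
      rw [hall B hB]
    exact ⟨A, hA, hAf.trans htop⟩
  · left
    have hbot : ∀ A ∈ S, A.map f ≠ ⊥ := fun A hA hAf => hbot ⟨A, hA, hAf⟩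
    have hcomm : ∀ A ∈ S, IsMulCommutative (A.map f) := by
      intro A hA
      have := hS.commutative A hA
      infer_instance
    constructor
    · refine ⟨?_, ?_, ?_, ?_, ?_⟩
      · rintro _ ⟨A, hA, rfl⟩
        exact hcomm A hA
      · rintro _ ⟨A, hA, rfl⟩
        exact hbot A hA
      · rw [iSup_image]
        exact hgen
      · rintro _ ⟨A, hA, rfl⟩ h
        obtain ⟨g, rfl⟩ := hf h
        exact ⟨conjBy A g, hS.conj_mem A hA g, map_conjBy f A g⟩
      · rintro _ ⟨A, hA, rfl⟩ _ ⟨B, hB, rfl⟩
        rcases hS.pair A hA B hB with h | h | h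
        · left
          show ⁅A.map f, B.map f⁆ = ⊥
          rw [← Subgroup.map_commutator, h, Subgroup.map_bot]
        · by_cases e : A.map f = B.map f
          · left
            show ⁅A.map f, B.map f⁆ = ⊥
            rw [← e]
            exact commutator_self_eq_bot (hcomm A hA)
          · right; left
            exact isRankOnePair_map f (hS.commutative A hA) (hS.commutative B hB) h e
        · right; right
          exact rootCommutatorCase_map f h
    · rintro _ ⟨A, hA, rfl⟩ _ ⟨B, hB, rfl⟩
      have hpath := hc A hA B hB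
      refine Relation.ReflTransGen.lift' (fun A : Subgroup G => A.map f) ?_ _ _ hpath
      rintro X Y ⟨hX, hY, hpair⟩
      by_cases e : X.map f = Y.map f
      · show Relation.ReflTransGen _ (X.map f) (Y.map f)
        rw [e]
      · apply Relation.ReflTransGen.single
        exact ⟨⟨X, hX, rfl⟩, ⟨Y, hY, rfl⟩,
          isRankOnePair_map f (hS.commutative X hX) (hS.commutative Y hY) hpair e⟩

end Cfsg.Agent.S5035
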