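import Cfsg.Statements.S5038
import Cfsg.Agent.Lib.Helper83.RootSet8
open Cfsg.Agent.Lib.Helper83

set_option autoImplicit false
open Cfsg

namespace Cfsg.Agent.S5038

/-- Let S be a set of abstract root subgroups of G in which every member has a rank one partner, A ∈ S and B a line partner of A. Then the subgroup generated by the members of S normalizing AB permutes the members of S inside AB doubly transitively by conjugation. -/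
theorem result {G : Type*} [Group G] {S : Set (Subgroup G)} (hS : Cfsg.IsRootSubgroupSet S)
    (hF : ∀ A ∈ S, ¬ Cfsg.IsIsolatedIn (Cfsg.FAdj S) S A) {A B : Subgroup G} (hA : A ∈ S) (hB : B ∈ Cfsg.linePartners S A) :
    ∀ C₁ ∈ Cfsg.membersIn S (A ⊔ B), ∀ C₂ ∈ Cfsg.membersIn S (A ⊔ B), ∀ D₁ ∈ Cfsg.membersIn S (A ⊔ B),
      ∀ D₂ ∈ Cfsg.membersIn S (A ⊔ B), C₁ ≠ C₂ → D₁ ≠ D₂ →
        ∃ x ∈ ⨆ E ∈ Cfsg.normalizingMembers S (A ⊔ B), E, Cfsg.conjBy C₁ x = D₁ ∧ Cfsg.conjBy C₂ x = D₂ := by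
  obtain ⟨K, hK, hAK⟩ := exists_rankOne_partner_of_not_isolated hA (hF A hA)
  obtain ⟨T₁, hT₁, hc₁, hℓ₁⟩ := root_line_T hS hA hK hAK hB
  have hE₁ : ⁅A, T₁⁆ ∈ S := hc₁.1
  obtain ⟨K', hK', hEK'⟩ := exists_rankOne_partner_of_not_isolated hE₁ (hF _ hE₁)
  have hAline : A ∈ linePartners S ⁅A, T₁⁆ := root_mem_linePartners_commutator hS hA hK hAK hc₁
  obtain ⟨T₂, hT₂, hc₂, hℓ₂⟩ := root_line_T hS hE₁ hK' hEK' hAline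
  have hℓ₂' : ⁅A, T₁⁆ ⊔ ⁅⁅A, T₁⁆, T₂⁆ = A ⊔ B := by rw [hℓ₂, sup_comm, hℓ₁]
  obtain ⟨hn₁, hst₁, hpt₁⟩ := root_line_stab hS hA hK hAK hT₁ hc₁
  obtain ⟨hn₂, hst₂, hpt₂⟩ := root_line_stab hS hE₁ hK' hEK' hT₂ hc₂
  rw [hℓ₁] at hn₁ hst₁ hpt₁
  rw [hℓ₂'] at hn₂ hst₂ hpt₂
  have hT₁H : T₁ ≤ ⨆ E ∈ normalizingMembers S (A ⊔ B), E :=
    le_iSup₂ (f := fun E (_ : E ∈ normalizingMembers S (A ⊔ B)) => E) T₁ hn₁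
  have hT₂H : T₂ ≤ ⨆ E ∈ normalizingMembers S (A ⊔ B), E :=
    le_iSup₂ (f := fun E (_ : E ∈ normalizingMembers S (A ⊔ B)) => E) T₂ hn₂
  have hHnorm : (⨆ E ∈ normalizingMembers S (A ⊔ B), E) ≤
      Subgroup.normalizer ((A ⊔ B : Subgroup G) : Set G) :=
    iSup₂_le (fun E hE => hE.2)
  have hpres : ∀ x ∈ ⨆ E ∈ normalizingMembers S (A ⊔ B), E, ∀ P ∈ membersIn S (A ⊔ B),
      conjBy P x ∈ membersIn S (A ⊔ B) := by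
    intro x hx P hP
    refine ⟨hS.conj_mem P hP.1 x, ?_⟩
    have := conjBy_mono hP.2 x
    rwa [mem_normalizer_iff_conjBy.mp (hHnorm hx)] at this
  have hAE₁ : A ≠ ⁅A, T₁⁆ := root_ne_commutator hS hc₁
  have hE₁E₂ : ⁅A, T₁⁆ ≠ ⁅⁅A, T₁⁆, T₂⁆ := root_ne_commutator hS hc₂
  have hAmem : A ∈ membersIn S (A ⊔ B) := ⟨hA, le_sup_left⟩
  have hE₁mem : ⁅A, T₁⁆ ∈ membersIn S (A ⊔ B) := ⟨hE₁, by rw [← hℓ₁]; exact le_sup_right⟩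
  obtain ⟨P₃, hP₃, hP₃1, hP₃2⟩ : ∃ P₃ ∈ membersIn S (A ⊔ B), P₃ ≠ ⁅A, T₁⁆ ∧
      P₃ ≠ ⁅⁅A, T₁⁆, T₂⁆ := by
    by_cases h : A = ⁅⁅A, T₁⁆, T₂⁆
    · obtain ⟨⟨t, ht⟩, ht1⟩ := (Subgroup.ne_bot_iff_exists_ne_one).mp (hS.ne_bot T₁ hT₁)
      have ht1' : t ≠ 1 := fun e => ht1 (Subtype.ext e)
      obtain ⟨q1, q2, q3⟩ := hpt₁ t ht ht1'
      exact ⟨conjBy A t, q3, q2, by rw [← h]; exact q1⟩
    · exact ⟨A, hAmem, hAE₁, h⟩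
  obtain ⟨y₀, hy₀, hy₀e, -⟩ := hst₂ _ hE₁mem P₃ hP₃ hE₁E₂ hP₃2
  have toE₁ : ∀ P ∈ membersIn S (A ⊔ B),
      ∃ x ∈ ⨆ E ∈ normalizingMembers S (A ⊔ B), E, conjBy P x = ⁅A, T₁⁆ := by
    intro P hP
    by_cases h : P = ⁅A, T₁⁆
    · exact ⟨1, one_mem _, by rw [conjBy_one]; exact h⟩
    · obtain ⟨z, hz, hze, -⟩ := hst₁ P hP P₃ hP₃ h hP₃1
      refine ⟨y₀⁻¹ * z, mul_mem (inv_mem (hT₂H hy₀)) (hT₁H hz), ?_⟩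
      rw [← conjBy_conjBy P, hze]
      exact (conjBy_eq_iff.mp hy₀e).symm
  have toPair : ∀ C₁ ∈ membersIn S (A ⊔ B), ∀ C₂ ∈ membersIn S (A ⊔ B), C₁ ≠ C₂ →
      ∃ x ∈ ⨆ E ∈ normalizingMembers S (A ⊔ B), E, conjBy C₁ x = ⁅A, T₁⁆ ∧ conjBy C₂ x = A := by
    intro C₁ hC₁ C₂ hC₂ hne
    obtain ⟨x₁, hx₁, e₁⟩ := toE₁ C₁ hC₁
    have hC₂' : conjBy C₂ x₁ ≠ ⁅A, T₁⁆ := by
      intro e
      exact hne (conjBy_inj (e₁.trans e.symm))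
    obtain ⟨z, hz, hze, hzE⟩ := hst₁ _ (hpres x₁ hx₁ C₂ hC₂) A hAmem hC₂' hAE₁
    refine ⟨z * x₁, mul_mem (hT₁H hz) hx₁, ?_, ?_⟩
    · rw [← conjBy_conjBy C₁, e₁]; exact hzE
    · rw [← conjBy_conjBy C₂]; exact hze
  intro C₁ hC₁ C₂ hC₂ D₁ hD₁ D₂ hD₂ hC hD
  obtain ⟨x, hx, ex1, ex2⟩ := toPair C₁ hC₁ C₂ hC₂ hC
  obtain ⟨y, hy, ey1, ey2⟩ := toPair D₁ hD₁ D₂ hD₂ hD
  refine ⟨y⁻¹ * x, mul_mem (inv_mem hy) hx, ?_, ?_⟩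
  · rw [← conjBy_conjBy C₁, ex1]; exact (conjBy_eq_iff.mp ey1).symm
  · rw [← conjBy_conjBy C₂, ex2]; exact (conjBy_eq_iff.mp ey2).symm

end Cfsg.Agent.S5038
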