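import Cfsg.Statements.S5041
import Cfsg.Agent.Lib.Helper83.RootSet7
import Cfsg.Agent.Lib.Helper83.RootSet4
import Cfsg.Agent.S5034
open Cfsg.Agent.Lib.Helper83

set_option autoImplicit false
open Cfsg

namespace Cfsg.Agent.S5041

/-- Let S be a non-degenerate class of abstract root subgroups of G. Then the graph on S joining A to its line partners, and the commuting graph on S, are both connected. -/
theorem result {G : Type*} [Group G] {S : Set (Subgroup G)} (hS : Cfsg.IsRootSubgroupClass S) (hnd : Cfsg.IsNondegenerateRootSet S) :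
    Cfsg.IsConnectedFamily (Cfsg.EAdj S S) S ∧ Cfsg.IsConnectedFamily (Cfsg.DAdj S) S := by
  have hSet := hS.1
  have hconj := hS.2.2
  obtain ⟨A₀, hA₀, B₀, hB₀, hAB₀⟩ := hnd.2.1
  have hFconn : IsConnectedFamily (FAdj S) S := by
    rw [root_connected_iff hSet ⟨A₀, hA₀, B₀, hB₀, hAB₀.ne⟩]
    refine ⟨hS.2, A₀, hA₀, ?_⟩
    intro hiso
    exact (hiso.2 B₀).1 ⟨hA₀, hB₀, hAB₀⟩
  have hedge : ∀ A B, FAdj S A B → Relation.ReflTransGen (EAdj S S) A B := by
    rintro A B ⟨hA, hB, hAB⟩
    obtain ⟨⟨C, hCline, hCS, hBC⟩, -⟩ := Cfsg.Agent.S5034.result hS hnd hA ⟨hB, hAB⟩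
    have hcBC := root_commCase_of_commutator_mem hSet hB hCS hBC
    have hCB : ⁅C, B⁆ ∈ S := by rw [Subgroup.commutator_comm]; exact hBC
    have hcCB := root_commCase_of_commutator_mem hSet hCS hB hCB
    obtain ⟨g, hg⟩ := hconj A hA C hCS
    have hCK : IsRankOnePair C (conjBy B g) := by rw [hg]; exact rankOne_conj hAB g
    have h1 : EAdj S S A C := ⟨hA, hCS, hCline⟩
    have h2 : EAdj S S C ⁅B, C⁆ := by
      refine ⟨hCS, hBC, ?_⟩
      have := linePartners_symm hCB
        (root_mem_linePartners_commutator hSet hCS (hSet.conj_mem B hB g) hCK hcCB)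
      rwa [Subgroup.commutator_comm] at this
    have h3 : EAdj S S ⁅B, C⁆ B :=
      ⟨hBC, hB, root_mem_linePartners_commutator hSet hB hA (rankOne_symm hAB) hcBC⟩
    exact Relation.ReflTransGen.head h1 (Relation.ReflTransGen.head h2 (Relation.ReflTransGen.single h3))
  have hEconn : IsConnectedFamily (EAdj S S) S := by
    intro A hA B hB
    exact Relation.ReflTransGen.lift' id hedge A B (hFconn A hA B hB)
  refine ⟨hEconn, ?_⟩
  intro A hA B hB
  have hle : ∀ X Y, EAdj S S X Y → DAdj S X Y :=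
    fun X Y h => ⟨h.1, h.2.1, h.2.2.1.2.1.symm, h.2.2.1.2.2⟩
  exact Relation.ReflTransGen.mono hle A B (hEconn A hA B hB)

end Cfsg.Agent.S5041
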