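import Cfsg.Statements.S5042
import Cfsg.Agent.Lib.Helper83.RootSet9
import Cfsg.Agent.S5041
open Cfsg.Agent.Lib.Helper83

set_option autoImplicit false
open Cfsg

namespace Cfsg.Agent.S5042

/-- Let S be a non-degenerate class of abstract root subgroups of G, A ∈ S and B a rank one partner of A. Then G is generated by the line partners of A together with B. -/
theorem result {G : Type*} [Group G] {S : Set (Subgroup G)} (hS : Cfsg.IsRootSubgroupClass S) (hnd : Cfsg.IsNondegenerateRootSet S)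
    {A B : Subgroup G} (hA : A ∈ S) (hB : B ∈ Cfsg.rankOnePartners S A) :
    (⨆ C ∈ Cfsg.linePartners S A, C) ⊔ B = ⊤ := by
  have hSet := hS.1
  have hconj := hS.2.2
  obtain ⟨hBS, hAB⟩ := hB
  obtain ⟨Y, hYdef⟩ : ∃ Y, Y = (⨆ C ∈ linePartners S A, C) ⊔ B := ⟨_, rfl⟩
  rw [← hYdef]
  have hM : ∀ C ∈ linePartners S A, C ≤ Y := by
    intro C hC
    rw [hYdef]
    exact (le_iSup₂ (f := fun C (_ : C ∈ linePartners S A) => C) C hC).trans le_sup_left
  have hBY : B ≤ Y := by rw [hYdef]; exact le_sup_right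
  have hpartner : ∀ P ∈ S, ∃ K ∈ S, IsRankOnePair P K := by
    intro P hP
    obtain ⟨g, hg⟩ := hconj A hA P hP
    exact ⟨conjBy B g, hSet.conj_mem B hBS g, by rw [hg]; exact rankOne_conj hAB g⟩
  have hAY : A ≤ Y := by
    obtain ⟨-, -, ⟨A₁, hA₁, T₁, hT₁, hc₁⟩⟩ := hnd
    obtain ⟨g, hg⟩ := hconj _ hc₁.1 A hA
    have hD' : conjBy A₁ g ∈ S := hSet.conj_mem A₁ hA₁ g
    have hT' : conjBy T₁ g ∈ S := hSet.conj_mem T₁ hT₁ g
    have hAeq : ⁅conjBy A₁ g, conjBy T₁ g⁆ = A := by rw [← conjBy_commutator]; exact hg.symm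
    have hAeq' : ⁅conjBy T₁ g, conjBy A₁ g⁆ = A := by rw [Subgroup.commutator_comm]; exact hAeq
    have hc' : RootCommutatorCase S (conjBy A₁ g) (conjBy T₁ g) :=
      root_commCase_of_commutator_mem hSet hD' hT' (by rw [hAeq]; exact hA)
    have hc'' : RootCommutatorCase S (conjBy T₁ g) (conjBy A₁ g) :=
      root_commCase_of_commutator_mem hSet hT' hD' (by rw [hAeq']; exact hA)
    obtain ⟨K₁, hK₁, hr₁⟩ := hpartner _ hD'
    obtain ⟨K₂, hK₂, hr₂⟩ := hpartner _ hT'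
    have h1 : conjBy A₁ g ∈ linePartners S A := by
      have := root_mem_linePartners_commutator hSet hD' hK₁ hr₁ hc'
      rwa [hAeq] at this
    have h2 : conjBy T₁ g ∈ linePartners S A := by
      have := root_mem_linePartners_commutator hSet hT' hK₂ hr₂ hc''
      rwa [hAeq'] at this
    calc A = ⁅conjBy A₁ g, conjBy T₁ g⁆ := hAeq.symm
      _ ≤ conjBy A₁ g ⊔ conjBy T₁ g := Subgroup.commutator_le_sup _ _
      _ ≤ Y := sup_le (hM _ h1) (hM _ h2)
  have hstep : ∀ C ∈ linePartners S A, ∃ y ∈ Y, C = conjBy A y := by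
    intro C hC
    obtain ⟨E, hE, hBE, hsup⟩ := root_line_special hSet hA hBS hAB hC
    have hES : E ∈ S := hE.1.1
    have hEA : E ≠ A := hE.1.2.1
    have hAE : ⁅A, E⁆ = ⊥ := hE.1.2.2
    have hline : ∀ c ∈ E, ∀ a ∈ A, c * a ≠ 1 → ∃ E' ∈ S, c * a ∈ E' := by
      intro c hc a ha hne
      obtain ⟨E', hE', hm⟩ := hE.2.2.1 (c * a)
        (mul_mem (Subgroup.mem_sup_right hc) (Subgroup.mem_sup_left ha)) hne
      exact ⟨E', hE'.1, hm⟩
    have hAT : ⁅A, ⁅B, E⁆⁆ = E := root_comm_comm_eq hSet hA hBS hES hAB hAE hEA hBE hline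
    have hc : RootCommutatorCase S A ⁅B, E⁆ :=
      root_commCase_of_commutator_mem hSet hA hBE (by rw [hAT]; exact hES)
    have hTY : ⁅B, E⁆ ≤ Y := (Subgroup.commutator_le_sup B E).trans (sup_le hBY (hM E hE))
    have hmem := root_membersIn_sup_commutator hSet hA hBS hAB hc
    rw [hAT] at hmem
    have hEΔ : ∃ y ∈ Y, E = conjBy A y := by
      obtain ⟨K, hK, hEK⟩ := hpartner E hES
      have hAlineE : A ∈ linePartners S E := linePartners_symm hA hE
      obtain ⟨T₂, hT₂, hc₂, hℓ₂⟩ := root_line_T hSet hES hK hEK hAlineE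
      have hE₂mem : ⁅E, T₂⁆ ∈ membersIn S (A ⊔ E) :=
        ⟨hc₂.1, by rw [sup_comm, ← hℓ₂]; exact le_sup_right⟩
      have hE₂ne : ⁅E, T₂⁆ ≠ E := (root_ne_commutator hSet hc₂).symm
      rw [hmem] at hE₂mem
      rcases hE₂mem with ⟨t, ht, het⟩ | h
      swap
      · exact absurd (Set.mem_singleton_iff.mp h) hE₂ne
      have het' : conjBy A t = ⁅E, T₂⁆ := het
      have hT₂Y : T₂ ≤ Y := by
        obtain ⟨K₂, hK₂, hr₂⟩ := hpartner T₂ hT₂
        have hc₂' : RootCommutatorCase S T₂ E :=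
          root_commCase_of_commutator_mem hSet hT₂ hES
            (by rw [Subgroup.commutator_comm]; exact hc₂.1)
        have h1 : T₂ ∈ linePartners S ⁅T₂, E⁆ :=
          root_mem_linePartners_commutator hSet hT₂ hK₂ hr₂ hc₂'
        rw [Subgroup.commutator_comm, ← het'] at h1
        have h2 := linePartners_conj hSet h1 t⁻¹
        rw [conjBy_conjBy_inv] at h2
        have h3 : conjBy T₂ t⁻¹ ≤ Y := hM _ h2
        have h4 := conjBy_le_of_mem h3 (hTY ht)
        rwa [conjBy_inv_conjBy] at h4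
      obtain ⟨⟨t₂, ht₂⟩, ht₂1⟩ := (Subgroup.ne_bot_iff_exists_ne_one).mp (hSet.ne_bot T₂ hT₂)
      have ht₂1' : t₂ ≠ 1 := fun e => ht₂1 (Subtype.ext e)
      obtain ⟨q1, -, q3⟩ := (root_line_stab hSet hES hK hEK hT₂ hc₂).2.2 t₂ ht₂ ht₂1'
      rw [hℓ₂, sup_comm, hmem] at q3
      rcases q3 with ⟨t', ht', hq⟩ | h
      swap
      · exact absurd (Set.mem_singleton_iff.mp h) q1
      have hq' : conjBy A t' = conjBy E t₂ := hq
      refine ⟨t₂⁻¹ * t', mul_mem (inv_mem (hT₂Y ht₂)) (hTY ht'), ?_⟩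
      rw [← conjBy_conjBy A, hq', conjBy_conjBy_inv]
    have hCmem : C ∈ membersIn S (A ⊔ E) := ⟨hC.1.1, by rw [hsup]; exact le_sup_right⟩
    rw [hmem] at hCmem
    rcases hCmem with ⟨t, ht, het⟩ | h
    · exact ⟨t, hTY ht, het.symm⟩
    · rw [Set.mem_singleton_iff.mp h]; exact hEΔ
  have hΔ : ∀ E, Relation.ReflTransGen (EAdj S S) A E → ∃ y ∈ Y, E = conjBy A y := by
    intro E h
    induction h with
    | refl => exact ⟨1, one_mem _, (conjBy_one A).symm⟩
    | @tail X Z _ hXZ ih =>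
      obtain ⟨y, hy, rfl⟩ := ih
      have h1 := linePartners_conj hSet hXZ.2.2 y⁻¹
      rw [conjBy_conjBy_inv] at h1
      obtain ⟨y', hy', e⟩ := hstep _ h1
      refine ⟨y * y', mul_mem hy hy', ?_⟩
      rw [← conjBy_conjBy A, ← e, conjBy_inv_conjBy]
  have hEconn := (Cfsg.Agent.S5041.result hS hnd).1
  rw [eq_top_iff, ← hSet.generates]
  apply iSup₂_le
  intro E hE
  obtain ⟨y, hy, rfl⟩ := hΔ E (hEconn A hA E hE)
  exact conjBy_le_of_mem hAY hy

end Cfsg.Agent.S5042
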