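import Cfsg.Statements.S5040
import Cfsg.Agent.Lib.Helper83.RootSet9
import Cfsg.Agent.S5042
open Cfsg.Agent.Lib.Helper83

set_option autoImplicit false
open Cfsg

namespace Cfsg.Agent.S5040

/-- Let S be a non-degenerate class of abstract root subgroups of G and Δ a weak TI-subset of S. Then the members of Δ commute with one another elementwise. -/
theorem result {G : Type*} [Group G] {S : Set (Subgroup G)} (hS : Cfsg.IsRootSubgroupClass S) (hnd : Cfsg.IsNondegenerateRootSet S)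
    {Δ : Set (Subgroup G)} (hΔ : Cfsg.IsWeakTISubset S Δ) : Cfsg.IsAbelianFamily Δ := by
  obtain ⟨hΔS, -, hΔne, hTI⟩ := hΔ
  have hSet := hS.1
  have hconj := hS.2.2
  have hstab : ∀ d, (∃ E ∈ S, d ∈ E) → (∃ A ∈ Δ, conjBy A d ∈ Δ) → d ∈ conjStabilizer Δ := by
    intro d hd ⟨A, hA, hAd⟩
    by_cases hd1 : d = 1
    · rw [hd1]; exact one_mem _
    · obtain ⟨E, hE, hdE⟩ := hd
      have himg : (fun A => conjBy A d) '' Δ = Δ := by
        rcases hTI d ⟨hd1, E, hE, hdE⟩ with h | h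
        · exact h
        · exfalso
          exact Set.disjoint_left.mp h ⟨A, hA, rfl⟩ hAd
      refine ⟨?_, ?_⟩
      · intro C hC
        rw [← himg]
        exact ⟨C, hC, rfl⟩
      · intro C hC
        rw [← himg] at hC
        obtain ⟨C', hC', rfl⟩ := hC
        show conjBy (conjBy C' d) d⁻¹ ∈ Δ
        rw [conjBy_conjBy_inv]
        exact hC'
  have hΔle : ∀ A ∈ Δ, A ≤ conjStabilizer Δ := by
    intro A hA a ha
    exact hstab a ⟨A, hΔS hA, ha⟩ ⟨A, hA, by rw [conjBy_of_mem ha]; exact hA⟩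
  have hcommle : ∀ E ∈ S, ∀ A ∈ Δ, ⁅A, E⁆ = ⊥ → E ≤ conjStabilizer Δ := by
    intro E hE A hA hAE e he
    refine hstab e ⟨E, hE, he⟩ ⟨A, hA, ?_⟩
    rw [conjBy_eq_of_commute (fun a ha => (commute_of_commutator_eq_bot hAE ha he).symm)]
    exact hA
  have hnoRank : ∀ A ∈ Δ, ∀ B ∈ Δ, ¬ IsRankOnePair A B := by
    intro A hA B hB hAB
    have hAS := hΔS hA
    have hBS := hΔS hB
    have htop := Cfsg.Agent.S5042.result hS hnd hAS ⟨hBS, hAB⟩
    have hle : (⨆ C ∈ linePartners S A, C) ⊔ B ≤ conjStabilizer Δ := by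
      apply sup_le
      · apply iSup₂_le
        intro C hC
        exact hcommle C hC.1.1 A hA hC.1.2.2
      · exact hΔle B hB
    rw [htop] at hle
    apply hΔne
    apply Set.Subset.antisymm hΔS
    intro E hE
    obtain ⟨g, hg⟩ := hconj A hAS E hE
    rw [hg]
    exact (hle (Subgroup.mem_top g)).1 A hA
  intro A hA B hB a ha b hb
  have hAS := hΔS hA
  have hBS := hΔS hB
  rcases hSet.pair A hAS B hBS with h0 | h1 | h2
  · exact commute_of_commutator_eq_bot h0 ha hb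
  · exact absurd h1 (hnoRank A hA B hB)
  · exfalso
    obtain ⟨-, ⟨A₀, hA₀, B₀, hB₀, hAB₀⟩, -⟩ := hnd
    have hpartner : ∀ P ∈ S, ∃ K ∈ S, IsRankOnePair P K := by
      intro P hP
      obtain ⟨g, hg⟩ := hconj A₀ hA₀ P hP
      exact ⟨conjBy B₀ g, hSet.conj_mem B₀ hB₀ g, by rw [hg]; exact rankOne_conj hAB₀ g⟩
    have hDS : ⁅A, B⁆ ∈ S := h2.1
    obtain ⟨K, hK, hAK⟩ := hpartner A hAS
    obtain ⟨F₀, hF₀, hDF₀⟩ := hpartner _ hDS
    have hAline : A ∈ linePartners S ⁅A, B⁆ :=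
      root_mem_linePartners_commutator hSet hAS hK hAK h2
    obtain ⟨E, hE, hFE, hsup⟩ := root_line_special hSet hDS hF₀ hDF₀ hAline
    have hES := hE.1.1
    have hline : ∀ c ∈ E, ∀ d ∈ ⁅A, B⁆, c * d ≠ 1 → ∃ E' ∈ S, c * d ∈ E' := by
      intro c hc d hd hne
      obtain ⟨E', hE', hm⟩ := hE.2.2.1 (c * d)
        (mul_mem (Subgroup.mem_sup_right hc) (Subgroup.mem_sup_left hd)) hne
      exact ⟨E', hE'.1, hm⟩
    have hDT : ⁅⁅A, B⁆, ⁅F₀, E⁆⁆ = E :=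
      root_comm_comm_eq hSet hDS hF₀ hES hDF₀ hE.1.2.2 hE.1.2.1 hFE hline
    have hEmem : E ∈ membersIn S (A ⊔ ⁅A, B⁆) :=
      ⟨hES, by rw [sup_comm, ← hsup]; exact le_sup_right⟩
    rw [root_membersIn_sup_commutator hSet hAS hK hAK h2] at hEmem
    rcases hEmem with ⟨b', hb', hEb⟩ | h
    swap
    · exact hE.1.2.1 (Set.mem_singleton_iff.mp h)
    have hEb' : conjBy A b' = E := hEb
    have hT'S : conjBy ⁅F₀, E⁆ b'⁻¹ ∈ S := hSet.conj_mem _ hFE b'⁻¹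
    have hDfix : conjBy ⁅A, B⁆ b'⁻¹ = ⁅A, B⁆ :=
      conjBy_eq_of_commute
        (fun c hc => (h2.2.1 c hc b'⁻¹ (Subgroup.mem_sup_right (inv_mem hb'))).symm)
    have e2 : conjBy E b'⁻¹ = A := by rw [← hEb', conjBy_conjBy_inv]
    have hDT' : ⁅⁅A, B⁆, conjBy ⁅F₀, E⁆ b'⁻¹⁆ = A := by
      have this : conjBy ⁅⁅A, B⁆, ⁅F₀, E⁆⁆ b'⁻¹ = conjBy E b'⁻¹ :=
        congrArg (fun K => conjBy K b'⁻¹) hDT
      rw [conjBy_commutator, hDfix, e2] at this
      exact this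
    have hT'D : ⁅conjBy ⁅F₀, E⁆ b'⁻¹, ⁅A, B⁆⁆ = A := by
      rw [Subgroup.commutator_comm]; exact hDT'
    have hBT' : IsRankOnePair B (conjBy ⁅F₀, E⁆ b'⁻¹) :=
      (root_opposite_main hSet hAS hBS hDS hT'S rfl hT'D).1
    have hcT' : RootCommutatorCase S ⁅A, B⁆ (conjBy ⁅F₀, E⁆ b'⁻¹) :=
      root_commCase_of_commutator_mem hSet hDS hT'S (by rw [hDT']; exact hAS)
    have hAT' : ⁅A, conjBy ⁅F₀, E⁆ b'⁻¹⁆ = ⊥ := by
      rw [Subgroup.commutator_eq_bot_iff_le_centralizer]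
      intro x hx
      rw [Subgroup.mem_centralizer_iff]
      intro y hy
      have hx' : x ∈ ⁅⁅A, B⁆, conjBy ⁅F₀, E⁆ b'⁻¹⁆ := by rw [hDT']; exact hx
      exact (hcT'.2.1 x hx' y (Subgroup.mem_sup_right hy)).symm
    have hT'stab := hcommle _ hT'S A hA hAT'
    obtain ⟨x, hx, hxe⟩ := rankOne_right_mem_unipotent hBT'
    have hT'Δ : conjBy ⁅F₀, E⁆ b'⁻¹ ∈ Δ := by
      rw [hxe]
      exact ((sup_le (hΔle B hB) hT'stab) hx).1 B hB
    exact hnoRank B hB _ hT'Δ hBT'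

end Cfsg.Agent.S5040
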