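import Cfsg.Statements.S5048
-- import your own Cfsg.Agent.* helpers here

set_option autoImplicit false
open Cfsg
open scoped commutatorElement

namespace Cfsg.Agent.S5048

section Aux

variable {G : Type*} [Group G]

/-- `O_2(G)` is a 2-group. -/
theorem pcore_two_isPGroup (G : Type*) [Group G] : IsPGroup 2 ↥(pCore 2 G) := by
  haveI : Fact (Nat.Prime 2) := ⟨Nat.prime_two⟩
  obtain ⟨P⟩ := (inferInstance : Nonempty (Sylow 2 G))
  apply P.isPGroup'.to_le
  apply sSup_le
  rintro N ⟨hN, hp⟩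
  haveI := hN
  have h1 : IsPGroup 2 ↥((P : Subgroup G) ⊔ N : Subgroup G) :=
    P.isPGroup'.to_sup_of_normal_right hp
  have h2 := P.is_maximal' h1 le_sup_left
  calc N ≤ (P : Subgroup G) ⊔ N := le_sup_right
    _ = P := h2

theorem le_pcore_two {N : Subgroup G} (hN : N.Normal) (hp : IsPGroup 2 ↥N) : N ≤ pCore 2 G :=
  le_sSup ⟨hN, hp⟩

theorem pcore_two_char (G : Type*) [Group G] : (pCore 2 G).Characteristic := by
  rw [Subgroup.characteristic_iff_map_le]
  intro φ
  exact le_pcore_two (Subgroup.Normal.map inferInstance _ φ.surjective)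
    ((pcore_two_isPGroup G).map _)

/-- `O_2(N) ≤ O_2(G)` for a normal subgroup `N`. -/
theorem map_pcore_le (N : Subgroup G) [N.Normal] : (pCore 2 ↥N).map N.subtype ≤ pCore 2 G := by
  haveI := pcore_two_char ↥N
  exact le_pcore_two inferInstance ((pcore_two_isPGroup ↥N).map _)

theorem inv_sq {D : Set G} (hD : IsRootInvolutionSet D) {d : G} (hd : d ∈ D) : d * d = 1 := by
  have := pow_orderOf_eq_one d
  rw [hD.orderOf_eq d hd, pow_two] at this
  exact this

theorem inv_eq_self {D : Set G} (hD : IsRootInvolutionSet D) {d : G} (hd : d ∈ D) : d⁻¹ = d :=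
  inv_eq_of_mul_eq_one_left (inv_sq hD hd)

/-- Members with product of odd order are conjugate. -/
theorem conj_of_oddAdj {D : Set G} (hD : IsRootInvolutionSet D) {a b : G} (h : OddAdj D a b) :
    ∃ g : G, b = g * a * g⁻¹ := by
  obtain ⟨ha, hb, -, m, hm⟩ := h
  have ha2 := inv_sq hD ha
  have hai := inv_eq_self hD ha
  have hbi := inv_eq_self hD hb
  have hu : (a * b) ^ m * (a * b) ^ m * (a * b) = 1 := by
    rw [← pow_add, ← pow_succ, ← two_mul, ← hm]; exact pow_orderOf_eq_one _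
  refine ⟨(a * b) ^ m, ?_⟩
  have h1 : a * (a * b) ^ m * a⁻¹ = ((a * b) ^ m)⁻¹ := by
    rw [← conj_pow, ← inv_pow]
    congr 1
    rw [mul_inv_rev, hai, hbi, ← mul_assoc a a b, ha2, one_mul]
  obtain ⟨v, hv⟩ : ∃ v, v = (a * b) ^ m := ⟨_, rfl⟩
  rw [← hv] at hu h1 ⊢
  have h2 : v * v = b * a := by
    have : v * v = (a * b)⁻¹ := eq_inv_of_mul_eq_one_left hu
    rw [this, mul_inv_rev, hai, hbi]
  calc b = b * (a * a) := by rw [ha2, mul_one]
    _ = v * v * a := by rw [h2, mul_assoc]
    _ = v * (a * a) * v * a := by rw [ha2, mul_one]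
    _ = v * a * (a * v * a⁻¹) := by rw [hai]; simp only [mul_assoc]
    _ = v * a * v⁻¹ := by rw [h1]

/-- If the odd-order-product graph is connected, `D` is a single conjugacy class. -/
theorem single_class {D : Set G} (hD : IsRootInvolutionSet D)
    (hc : IsConnectedSet (OddAdj D) D) : ∀ a ∈ D, ∀ b ∈ D, ∃ g : G, b = g * a * g⁻¹ := by
  intro a ha b hb
  have key : ∀ b, Relation.ReflTransGen (OddAdj D) a b → ∃ g : G, b = g * a * g⁻¹ := by
    intro b h
    induction h with
    | refl => exact ⟨1, by simp⟩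
    | tail _ hbc ih =>
      obtain ⟨g, hg⟩ := ih
      obtain ⟨g', hg'⟩ := conj_of_oddAdj hD hbc
      exact ⟨g' * g, by rw [hg', hg]; group⟩
  exact key b (hc a ha b hb)

/-- The key computation: if `π` kills no member of `D`, `d, b, d b ∈ D` and `a ∈ D` has the same
image as `d`, then `a` commutes with `d`. -/
theorem core_comm {H : Type*} [Group H] (π : G →* H) {D : Set G} (hD : IsRootInvolutionSet D)
    (hker : ∀ x ∈ D, π x ≠ 1) {d b a : G} (hd : d ∈ D) (hb : b ∈ D) (hdbD : d * b ∈ D)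
    (ha : a ∈ D) (hπ : π a = π d) : a * d = d * a := by
  have hd2 := inv_sq hD hd
  have hb2 := inv_sq hD hb
  have hdb2 := inv_sq hD hdbD
  have odd_aux : ∀ (y : H) (k : ℕ), Odd k → y ^ 2 = 1 → y ^ k = 1 → y = 1 := by
    rintro y k ⟨m, rfl⟩ h2 hk
    rw [pow_succ, pow_mul, h2, one_pow, one_mul] at hk
    exact hk
  have hab : a * b = b * a := by
    rcases hD.pair a ha b hb with h | h | ⟨-, hsq⟩
    · exact h
    · exfalso
      apply hker (d * b) hdbD
      apply odd_aux _ _ h
      · rw [← map_pow, pow_two, hdb2, map_one]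
      · have e : π (d * b) = π (a * b) := by rw [map_mul, map_mul, hπ]
        rw [e, ← map_pow, pow_orderOf_eq_one, map_one]
    · exfalso
      apply hker _ hsq
      rw [map_pow, map_mul, hπ, ← map_mul, ← map_pow, pow_two, hdb2, map_one]
  have e : π (a * (d * b)) = π b := by
    rw [map_mul, hπ, ← map_mul, ← mul_assoc, hd2, one_mul]
  have hadb : a * (d * b) = d * b * a := by
    rcases hD.pair a ha (d * b) hdbD with h | h | ⟨-, hsq⟩
    · exact h
    · exfalso
      apply hker b hb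
      apply odd_aux _ _ h
      · rw [← map_pow, pow_two, hb2, map_one]
      · rw [← e, ← map_pow, pow_orderOf_eq_one, map_one]
    · exfalso
      apply hker _ hsq
      rw [map_pow, e, ← map_pow, pow_two, hb2, map_one]
  calc a * d = a * (d * b) * b := by rw [mul_assoc, mul_assoc, hb2, mul_one]
    _ = d * b * a * b := by rw [hadb]
    _ = d * b * (b * a) := by rw [mul_assoc (d * b) a b, hab]
    _ = d * a := by rw [← mul_assoc, mul_assoc d b b, hb2, mul_one]

/-- For a normal subgroup `N` missing `D` and `d ∈ D` with a product partner: every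
`N`-conjugate of `d` commutes with `d`, and `[d, n] ∈ O_2(G)`. -/
theorem comm_mem_pcore {D : Set G} (hD : IsRootInvolutionSet D) (N : Subgroup G) [hN : N.Normal]
    (hND : ∀ x ∈ D, x ∉ N) {d b : G} (hd : d ∈ D) (hb : b ∈ D) (hdbD : d * b ∈ D) :
    ∀ n ∈ N, (n * d * n⁻¹) * d = d * (n * d * n⁻¹) ∧ d * (n * d * n⁻¹) ∈ pCore 2 G := by
  have hker : ∀ x ∈ D, QuotientGroup.mk' N x ≠ 1 := by
    intro x hx h
    exact hND x hx ((QuotientGroup.eq_one_iff x).1 h)
  have hd2 := inv_sq hD hd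
  have hdi := inv_eq_self hD hd
  have hcomm : ∀ n ∈ N, (n * d * n⁻¹) * d = d * (n * d * n⁻¹) := by
    intro n hn
    apply core_comm (QuotientGroup.mk' N) hD hker hd hb hdbD (hD.conj_mem d hd n)
    have hn1 : QuotientGroup.mk' N n = 1 := (QuotientGroup.eq_one_iff n).2 hn
    rw [map_mul, map_mul, map_inv, hn1]
    simp
  obtain ⟨T, hT⟩ : ∃ T : Set G, T = {x | ∃ n ∈ N, x = n * d * n⁻¹} := ⟨_, rfl⟩
  have hTmem : ∀ x, x ∈ T ↔ ∃ n ∈ N, x = n * d * n⁻¹ := by
    intro x; rw [hT]; exact Iff.rfl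
  have hTc : ∀ x ∈ T, ∀ y ∈ T, x * y = y * x := by
    intro x hx y hy
    obtain ⟨n, hn, rfl⟩ := (hTmem x).1 hx
    obtain ⟨m, hm, rfl⟩ := (hTmem y).1 hy
    have h := hcomm (n⁻¹ * m) (N.mul_mem (N.inv_mem hn) hm)
    calc n * d * n⁻¹ * (m * d * m⁻¹)
        = n * (d * ((n⁻¹ * m) * d * (n⁻¹ * m)⁻¹)) * n⁻¹ := by group
      _ = n * (((n⁻¹ * m) * d * (n⁻¹ * m)⁻¹) * d) * n⁻¹ := by rw [h]
      _ = m * d * m⁻¹ * (n * d * n⁻¹) := by group
  obtain ⟨K, hK⟩ : ∃ K : Subgroup G, K = Subgroup.closure T := ⟨_, rfl⟩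
  have hK1 : K ≤ Subgroup.centralizer T := by
    rw [hK, Subgroup.closure_le]
    intro x hx
    rw [SetLike.mem_coe, Subgroup.mem_centralizer_iff]
    intro y hy
    exact hTc y hy x hx
  have hK2 : K ≤ Subgroup.centralizer (K : Set G) := by
    conv_lhs => rw [hK]
    rw [Subgroup.closure_le]
    intro x hx
    rw [SetLike.mem_coe, Subgroup.mem_centralizer_iff]
    intro y hy
    exact ((Subgroup.mem_centralizer_iff.1 (hK1 hy)) x hx).symm
  have hKc : ∀ x ∈ K, ∀ y ∈ K, x * y = y * x := by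
    intro x hx y hy
    exact (Subgroup.mem_centralizer_iff.1 (hK2 hy)) x hx
  have hKsq' : ∀ x ∈ Subgroup.closure T, x * x = 1 := by
    intro x hx
    induction hx using Subgroup.closure_induction with
    | mem x hx =>
      obtain ⟨n, hn, rfl⟩ := (hTmem x).1 hx
      calc n * d * n⁻¹ * (n * d * n⁻¹) = n * (d * d) * n⁻¹ := by group
        _ = 1 := by rw [hd2]; group
    | one => simp
    | mul x y hx hy ihx ihy =>
      have hxK : x ∈ K := by rw [hK]; exact hx
      have hyK : y ∈ K := by rw [hK]; exact hy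
      calc x * y * (x * y) = x * (y * x) * y := by group
        _ = x * (x * y) * y := by rw [hKc y hyK x hxK]
        _ = (x * x) * (y * y) := by group
        _ = 1 := by rw [ihx, ihy, one_mul]
    | inv x hx ih =>
      calc x⁻¹ * x⁻¹ = (x * x)⁻¹ := by group
        _ = 1 := by rw [ih, inv_one]
  have hKsq : ∀ x ∈ K, x * x = 1 := by
    intro x hx
    exact hKsq' x (by rw [← hK]; exact hx)
  have hKn' : ∀ m ∈ N, ∀ x ∈ Subgroup.closure T, m * x * m⁻¹ ∈ Subgroup.closure T := by
    intro m hm x hx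
    induction hx using Subgroup.closure_induction with
    | mem x hx =>
      obtain ⟨n, hn, rfl⟩ := (hTmem x).1 hx
      apply Subgroup.subset_closure
      rw [hTmem]
      exact ⟨m * n, N.mul_mem hm hn, by group⟩
    | one => simp
    | mul x y hx hy ihx ihy =>
      have := (Subgroup.closure T).mul_mem ihx ihy
      have e : m * (x * y) * m⁻¹ = m * x * m⁻¹ * (m * y * m⁻¹) := by group
      rw [e]; exact this
    | inv x hx ih =>
      have := (Subgroup.closure T).inv_mem ih
      have e : m * x⁻¹ * m⁻¹ = (m * x * m⁻¹)⁻¹ := by group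
      rw [e]; exact this
  have hKn : ∀ m ∈ N, ∀ x ∈ K, m * x * m⁻¹ ∈ K := by
    intro m hm x hx
    rw [hK] at hx ⊢
    exact hKn' m hm x hx
  have hMn : (K.subgroupOf N).Normal := by
    refine ⟨fun x hx g => ?_⟩
    rw [Subgroup.mem_subgroupOf] at hx ⊢
    have := hKn g g.2 x hx
    simpa using this
  have hMp : IsPGroup 2 ↥(K.subgroupOf N) := by
    intro y
    refine ⟨1, ?_⟩
    have h := hKsq ((y : ↥N) : G) (Subgroup.mem_subgroupOf.1 y.2)
    apply Subtype.ext
    apply Subtype.ext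
    simpa [pow_two] using h
  have hMle : K.subgroupOf N ≤ pCore 2 ↥N := le_pcore_two hMn hMp
  intro n hn
  refine ⟨hcomm n hn, ?_⟩
  have hdT : d ∈ T := (hTmem d).2 ⟨1, N.one_mem, by simp⟩
  have hcK : d * (n * d * n⁻¹) ∈ K := by
    rw [hK]
    exact (Subgroup.closure T).mul_mem (Subgroup.subset_closure hdT)
      (Subgroup.subset_closure ((hTmem _).2 ⟨n, hn, rfl⟩))
  have hcN : d * (n * d * n⁻¹) ∈ N := by
    have h1 := N.mul_mem (hN.conj_mem n hn d) (N.inv_mem hn)
    rw [hdi] at h1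
    have e : d * (n * d * n⁻¹) = d * n * d * n⁻¹ := by group
    rw [e]; exact h1
  have h2 : (⟨d * (n * d * n⁻¹), hcN⟩ : ↥N) ∈ pCore 2 ↥N :=
    hMle (Subgroup.mem_subgroupOf.2 hcK)
  exact map_pcore_le N (Subgroup.mem_map_of_mem N.subtype h2)

/-- A normal subgroup missing `D` lies in `O_{2,Z}(G)`. -/
theorem le_twoZCore {D : Set G} (hD : IsRootInvolutionSet D)
    (hpartner : ∀ d ∈ D, ∃ b ∈ D, d * b ∈ D) (N : Subgroup G) [hN : N.Normal]
    (hND : ∀ x ∈ D, x ∉ N) : N ≤ twoZCore G := by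
  intro n hn
  show QuotientGroup.mk' (pCore 2 G) n ∈ Subgroup.center (G ⧸ pCore 2 G)
  rw [Subgroup.mem_center_iff]
  intro y
  obtain ⟨g, rfl⟩ := QuotientGroup.mk'_surjective (pCore 2 G) y
  have hg : g ∈ Subgroup.closure D := by rw [hD.generates]; trivial
  induction hg using Subgroup.closure_induction with
  | mem d hd =>
    obtain ⟨b, hb, hdb⟩ := hpartner d hd
    obtain ⟨hc, hm⟩ := comm_mem_pcore hD N hND hd hb hdb n⁻¹ (N.inv_mem hn)
    rw [← map_mul, ← map_mul]
    refine (QuotientGroup.mk'_eq_mk' _).2 ⟨(d * n)⁻¹ * (n * d), ?_, by group⟩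
    have e : (d * n)⁻¹ * (n * d) = d * (n⁻¹ * d * n⁻¹⁻¹) := by
      rw [← hc, mul_inv_rev, inv_eq_self hD hd, inv_inv]
      simp only [mul_assoc]
    rw [e]; exact hm
  | one => simp
  | mul x y _ _ ihx ihy => rw [map_mul, mul_assoc, ihy, ← mul_assoc, ihx, mul_assoc]
  | inv x _ ih =>
    rw [map_inv, eq_mul_inv_iff_mul_eq, mul_assoc, ← ih, ← mul_assoc, inv_mul_cancel, one_mul]

/-- `O_{2,Z}(G)` is solvable. -/
theorem twoZCore_solvable (G : Type*) [Group G] [Finite G] : Group.IsSolvable ↥(twoZCore G) := by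
  haveI : Fact (Nat.Prime 2) := ⟨Nat.prime_two⟩
  have hle : pCore 2 G ≤ twoZCore G := by
    intro x hx
    show QuotientGroup.mk' (pCore 2 G) x ∈ Subgroup.center (G ⧸ pCore 2 G)
    have : QuotientGroup.mk' (pCore 2 G) x = 1 := (QuotientGroup.eq_one_iff x).2 hx
    rw [this]
    exact Subgroup.one_mem _
  haveI : Group.IsSolvable ↥(pCore 2 G) := by
    haveI : Group.IsNilpotent ↥(pCore 2 G) := (pcore_two_isPGroup G).isNilpotent
    infer_instance
  haveI : Group.IsSolvable ↥(Subgroup.center (G ⧸ pCore 2 G)) :=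
    Group.isSolvable_of_comm (fun a b => Subtype.ext (Subgroup.mem_center_iff.1 b.2 a))
  let g : ↥(twoZCore G) →* ↥(Subgroup.center (G ⧸ pCore 2 G)) :=
    ((QuotientGroup.mk' (pCore 2 G)).comp (twoZCore G).subtype).codRestrict _ (fun z => z.2)
  apply Group.isSolvable_of_ker_le_range (Subgroup.inclusion hle) g
  intro z hz
  rw [MonoidHom.mem_ker] at hz
  have h1 : QuotientGroup.mk' (pCore 2 G) (z : G) = 1 := congrArg Subtype.val hz
  have h2 : (z : G) ∈ pCore 2 G := (QuotientGroup.eq_one_iff _).1 h1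
  exact ⟨⟨z, h2⟩, rfl⟩

/-- An element of odd order whose square lies in `O_2(G)` is trivial. -/
theorem eq_one_of_odd_of_sq_mem (x : G) (hx : Odd (orderOf x)) (hmem : x ^ 2 ∈ pCore 2 G) :
    x = 1 := by
  obtain ⟨j, hj⟩ := (pcore_two_isPGroup G) ⟨x ^ 2, hmem⟩
  have h1 : x ^ (2 ^ (j + 1)) = 1 := by
    have := congrArg Subtype.val hj
    simp only [Subgroup.coe_pow, Subgroup.coe_one] at this
    rw [pow_succ, mul_comm, pow_mul]; exact this
  have h2 : orderOf x ∣ 2 ^ (j + 1) := orderOf_dvd_of_pow_eq_one h1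
  obtain ⟨i, -, hi⟩ := (Nat.dvd_prime_pow Nat.prime_two).1 h2
  rw [hi] at hx
  have hi0 : i = 0 := by
    by_contra h0
    have : Even (2 ^ i) := (Nat.even_pow.2 ⟨even_two, h0⟩)
    exact (Nat.not_even_iff_odd.2 hx) this
  rw [hi0, pow_zero] at hi
  exact orderOf_eq_one_iff.1 hi

end Aux

/-- Let G be a finite group generated by a set D of root involutions whose odd-order-product graph is connected, with some product of two different commuting members of D again in D. Then the largest solvable normal subgroup of G is the preimage of the centre of G/O₂(G), and the quotient of G by it is a simple group. -/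
theorem result {G : Type*} [Group G] [Finite G] {D : Set G} (hD : Cfsg.IsRootInvolutionSet D)
    (hc : Cfsg.IsConnectedSet (Cfsg.OddAdj D) D) (hDD : (D ∩ Cfsg.commutingProducts D).Nonempty) :
    Cfsg.solvableRadical G = Cfsg.twoZCore G ∧ IsSimpleGroup (G ⧸ Cfsg.twoZCore G) := by
  have hconj := single_class hD hc
  obtain ⟨x, hxD, a0, ha0, b0, hb0, -, hne0, hx⟩ := hDD
  have ha0b0 : a0 ≠ b0 := by
    rintro rfl
    exact hne0 (inv_sq hD ha0)
  have hpartner : ∀ d ∈ D, ∃ b ∈ D, d * b ∈ D := by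
    intro d hd
    obtain ⟨g, rfl⟩ := hconj a0 ha0 d hd
    refine ⟨g * b0 * g⁻¹, hD.conj_mem b0 hb0 g, ?_⟩
    have e : g * a0 * g⁻¹ * (g * b0 * g⁻¹) = g * (a0 * b0) * g⁻¹ := by group
    rw [e, ← hx]
    exact hD.conj_mem _ hxD g
  obtain ⟨c0, hedge⟩ : ∃ c, OddAdj D a0 c := by
    rcases Relation.ReflTransGen.cases_head (hc a0 ha0 b0 hb0) with h | ⟨c, h1, -⟩
    · exact absurd h ha0b0
    · exact ⟨c, h1⟩
  obtain ⟨-, hc0, hac0, hodd0⟩ := hedge
  obtain ⟨g0, hg0⟩ := hconj a0 ha0 c0 hc0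
  have ha0i := inv_eq_self hD ha0
  have hc0i := inv_eq_self hD hc0
  have ha02 := inv_sq hD ha0
  -- the product `a0 * c0` has no square in `O_2(G)`
  have hnosq : (a0 * c0) ^ 2 ∉ pCore 2 G := by
    intro hmem
    have h1 := eq_one_of_odd_of_sq_mem (a0 * c0) hodd0 hmem
    apply hac0
    rw [← ha0i]
    exact inv_eq_of_mul_eq_one_right h1
  have hmain : ∀ N : Subgroup G, N.Normal → (∀ d ∈ D, d ∉ N) → N ≤ twoZCore G := by
    intro N hN h
    haveI := hN
    exact le_twoZCore hD hpartner N h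
  have hdich : ∀ N : Subgroup G, N.Normal → (∀ d ∈ D, d ∉ N) ∨ N = ⊤ := by
    intro N hN
    by_cases h : ∀ d ∈ D, d ∉ N
    · exact Or.inl h
    · right
      push Not at h
      obtain ⟨d, hd, hdN⟩ := h
      rw [eq_top_iff, ← hD.generates, Subgroup.closure_le]
      intro e he
      obtain ⟨g, rfl⟩ := hconj d hd e he
      exact hN.conj_mem d hdN g
  -- no normal subgroup missing `D` contains the commutator subgroup
  have hnocomm : ∀ N : Subgroup G, N.Normal → (∀ d ∈ D, d ∉ N) → ¬ commutator G ≤ N := by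
    intro N hN h hle
    haveI := hN
    apply hnosq
    have hn : a0 * c0 ∈ N := by
      apply hle
      have e : a0 * c0 = ⁅a0, g0⁆ := by
        rw [commutatorElement_def, hg0, ha0i]; group
      rw [e]
      exact Subgroup.commutator_mem_commutator (Subgroup.mem_top _) (Subgroup.mem_top _)
    obtain ⟨b, hb, hdb⟩ := hpartner a0 ha0
    have h2 := (comm_mem_pcore hD N h ha0 hb hdb (a0 * c0) hn).2
    have hinv : (a0 * c0)⁻¹ = c0 * a0 := by rw [mul_inv_rev, ha0i, hc0i]
    have h3 : a0 * (a0 * c0 * a0 * (a0 * c0)⁻¹) = c0 * a0 * (c0 * a0) := by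
      rw [hinv]
      simp only [← mul_assoc]
      rw [ha02, one_mul]
    have h4 : (a0 * c0) ^ 2 = (a0 * (a0 * c0 * a0 * (a0 * c0)⁻¹))⁻¹ := by
      rw [h3, pow_two, mul_inv_rev, mul_inv_rev, ha0i, hc0i]
    rw [h4]
    exact (pCore 2 G).inv_mem h2
  -- `O_{2,Z}(G) ≠ ⊤`
  have hZtop : twoZCore G ≠ ⊤ := by
    intro htop
    apply hnosq
    have hcen : QuotientGroup.mk' (pCore 2 G) a0 ∈ Subgroup.center (G ⧸ pCore 2 G) := by
      have : a0 ∈ twoZCore G := by rw [htop]; trivial
      exact this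
    have h1 : QuotientGroup.mk' (pCore 2 G) (a0 * c0) = 1 := by
      have h := Subgroup.mem_center_iff.1 hcen (QuotientGroup.mk' (pCore 2 G) g0)
      rw [hg0, map_mul, map_mul, map_mul, map_inv, h, mul_assoc, mul_inv_cancel, mul_one,
        ← map_mul, ha02, map_one]
    have h2 : a0 * c0 ∈ pCore 2 G := (QuotientGroup.eq_one_iff _).1 h1
    exact (pCore 2 G).pow_mem h2 2
  -- `G` is not solvable
  have hns : ¬ Group.IsSolvable G := by
    intro hs
    haveI := hs
    haveI : Nontrivial G := ⟨⟨a0, c0, hac0⟩⟩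
    have hlt := Group.IsSolvable.commutator_lt_top_of_nontrivial G
    rcases hdich (commutator G) inferInstance with h | h
    · exact hnocomm (commutator G) inferInstance h le_rfl
    · exact hlt.ne h
  refine ⟨?_, ?_⟩
  · apply le_antisymm
    · apply sSup_le
      rintro N ⟨hN, hsN⟩
      rcases hdich N hN with h | h
      · exact hmain N hN h
      · exfalso
        apply hns
        subst h
        haveI := hsN
        exact Group.isSolvable_of_surjective (f := (Subgroup.topEquiv : ↥(⊤ : Subgroup G) ≃* G).toMonoidHom)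
          (Subgroup.topEquiv : ↥(⊤ : Subgroup G) ≃* G).surjective
    · exact le_sSup ⟨twoZCore_normal G, twoZCore_solvable G⟩
  · obtain ⟨y, -, hy⟩ := SetLike.exists_of_lt (lt_top_iff_ne_top.2 hZtop)
    haveI hnt : Nontrivial (G ⧸ twoZCore G) :=
      ⟨⟨(y : G ⧸ twoZCore G), 1, fun h => hy ((QuotientGroup.eq_one_iff y).1 h)⟩⟩
    refine ⟨fun H hH => ?_⟩
    have hNn : (H.comap (QuotientGroup.mk' (twoZCore G))).Normal := hH.comap _
    rcases hdich _ hNn with h | h
    · left
      have hle := hmain _ hNn h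
      rw [eq_bot_iff]
      intro z hz
      obtain ⟨w, rfl⟩ := QuotientGroup.mk'_surjective (twoZCore G) z
      have hw : w ∈ twoZCore G := hle (Subgroup.mem_comap.2 hz)
      exact Subgroup.mem_bot.2 ((QuotientGroup.eq_one_iff w).2 hw)
    · right
      rw [eq_top_iff]
      intro z _
      obtain ⟨w, rfl⟩ := QuotientGroup.mk'_surjective (twoZCore G) z
      have hw : w ∈ H.comap (QuotientGroup.mk' (twoZCore G)) := by rw [h]; trivial
      exact Subgroup.mem_comap.1 hw

end Cfsg.Agent.S5048
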