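-- Statement S5049: odd transpositions and O_2(G).
import Mathlib
import Cfsg.Statements.S5049
import Cfsg.Agent.Lib.Helper84.PCoreBasic

set_option autoImplicit false
open Cfsg

namespace Cfsg.Agent.S5049

open Cfsg.Agent.Lib.Helper84
open scoped commutatorElement

variable {G : Type*} [Group G]

theorem mul_self_of_mem {D : Set G} (hD : IsRootInvolutionSet D) {d : G} (hd : d ∈ D) : d * d = 1 := by
  have := pow_orderOf_eq_one d
  rw [hD.orderOf_eq d hd, pow_two] at this
  exact this

theorem sq_mul_comm {e a : G} (h : e * a = a * e) (he : e * e = 1) (ha : a * a = 1) :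
    (e * a) ^ 2 = 1 := by
  rw [pow_two, mul_assoc, ← mul_assoc a, ← h, mul_assoc e a a, ha, mul_one, he]

/-- two odd transpositions whose product squares into `O_2(G)` commute. -/
theorem comm_of_sq_mem {D : Set G} (hD : IsOddTranspositionSet D) {e d : G} (he : e ∈ D) (hd : d ∈ D)
    (h : (e * d) ^ 2 ∈ pCore 2 G) : e * d = d * e := by
  rcases hD.1.pair e he d hd with h1 | h1 | h1
  · exact h1
  · obtain ⟨k, hk⟩ := pCore_isPGroup 2 G ⟨(e * d) ^ 2, h⟩
    have hk' : ((e * d) ^ 2) ^ (2 ^ k) = 1 := by
      have := congrArg Subtype.val hk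
      simpa using this
    have h2 : orderOf (e * d) ∣ 2 ^ (k + 1) := by
      apply orderOf_dvd_of_pow_eq_one
      rw [pow_succ', pow_mul]
      exact hk'
    have h3 : orderOf (e * d) = 1 :=
      Nat.Coprime.eq_one_of_dvd (Nat.Coprime.pow_right _ (Nat.coprime_two_right.2 h1)) h2
    have h4 : e * d = 1 := orderOf_eq_one_iff.1 h3
    have h5 : d * e = 1 := by
      have : d = e⁻¹ := eq_inv_of_mul_eq_one_right h4
      rw [this]
      simp
    rw [h4, h5]
  · exact absurd h1.1 (hD.2 e he d hd)

/-- a member commuting with `a` commutes with every `O_2(G)`-conjugate of `a`. -/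
theorem comm_conj {D : Set G} (hD : IsOddTranspositionSet D) {e a q : G} (he : e ∈ D) (ha : a ∈ D)
    (hea : e * a = a * e) (hq : q ∈ pCore 2 G) : e * (q * a * q⁻¹) = (q * a * q⁻¹) * e := by
  apply comm_of_sq_mem hD he (hD.1.conj_mem a ha q)
  have hq1 : QuotientGroup.mk' (pCore 2 G) q = 1 := (QuotientGroup.eq_one_iff q).2 hq
  have h1 : QuotientGroup.mk' (pCore 2 G) ((e * (q * a * q⁻¹)) ^ 2) = 1 := by
    rw [map_pow, map_mul, map_mul, map_mul, map_inv, hq1, one_mul, inv_one, mul_one, ← map_mul, ← map_pow,
      sq_mul_comm hea (mul_self_of_mem hD.1 he) (mul_self_of_mem hD.1 ha), map_one]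
  exact (QuotientGroup.eq_one_iff _).1 h1

/-- Let G be a finite group generated by a set D of odd transpositions (root involutions with no product of order 4), Q = O₂(G), and for a ∈ D let Q_a be the commutator subgroup of Q with a. Then every member of D commuting with a centralizes Q_a; and for b ∈ D with ab of odd order greater than 1, the centralizer of ab in Q is the intersection of the centralizers of a and b in Q. -/
theorem result {G : Type*} [Group G] [Finite G] {D : Set G} (hD : Cfsg.IsOddTranspositionSet D) {a : G} (ha : a ∈ D) :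
    (∀ e ∈ Cfsg.commutingMembers D a, ∀ q ∈ ⁅Cfsg.pCore 2 G, Subgroup.zpowers a⁆, e * q = q * e) ∧
    (∀ b ∈ Cfsg.oddPartners D a,
      Cfsg.pCore 2 G ⊓ Subgroup.centralizer {a * b} = Cfsg.pCore 2 G ⊓ Subgroup.centralizer {a} ⊓ Subgroup.centralizer {b}) := by
  have ha2 := mul_self_of_mem hD.1 ha
  constructor
  · rintro e ⟨heD, hea⟩ q hq
    have hle : ⁅pCore 2 G, Subgroup.zpowers a⁆ ≤ Subgroup.centralizer {e} := by
      rw [Subgroup.commutator_le]
      rintro g hg _ ⟨i, rfl⟩
      rw [Subgroup.mem_centralizer_iff]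
      intro h hh
      rw [Set.mem_singleton_iff] at hh
      subst hh
      have c1 : Commute h (g * a * g⁻¹) := comm_conj hD heD ha hea hg
      have c2 : Commute h (g * a ^ i * g⁻¹) := by
        rw [← conj_zpow]
        exact c1.zpow_right i
      have c3 : Commute h (a ^ i)⁻¹ := (Commute.zpow_right hea i).inv_right
      exact (c2.mul_right c3).eq
    have := hle hq
    rw [Subgroup.mem_centralizer_iff] at this
    exact this e rfl
  · rintro b ⟨hbD, hba, hodd⟩
    have hb2 := mul_self_of_mem hD.1 hbD
    apply le_antisymm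
    · intro q hq
      rw [Subgroup.mem_inf] at hq
      obtain ⟨hqQ, hqx⟩ := hq
      rw [Subgroup.mem_centralizer_iff] at hqx
      have hqx' : (a * b) * q = q * (a * b) := hqx (a * b) rfl
      -- z = q a q⁻¹ a⁻¹ and w = q b q⁻¹ b⁻¹
      have hca : a * (q * a * q⁻¹) = (q * a * q⁻¹) * a := comm_conj hD ha ha rfl hqQ
      have hcb : b * (q * b * q⁻¹) = (q * b * q⁻¹) * b := comm_conj hD hbD hbD rfl hqQ
      have hainv : a⁻¹ = a := inv_eq_of_mul_eq_one_right ha2
      have hbinv : b⁻¹ = b := inv_eq_of_mul_eq_one_right hb2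
      have ha2' : ∀ t : G, a * (a * t) = t := fun t => by rw [← mul_assoc, ha2, one_mul]
      have hb2' : ∀ t : G, b * (b * t) = t := fun t => by rw [← mul_assoc, hb2, one_mul]
      obtain ⟨z, hz⟩ : ∃ z, z = q * a * q⁻¹ * a := ⟨_, rfl⟩
      obtain ⟨w, hw⟩ : ∃ w, w = q * b * q⁻¹ * b := ⟨_, rfl⟩
      have hza : z * a = a * z := by
        rw [hz]
        calc q * a * q⁻¹ * a * a = q * a * q⁻¹ := by rw [mul_assoc, ha2, mul_one]
          _ = q * a * q⁻¹ * a * a := by rw [mul_assoc (q * a * q⁻¹), ha2, mul_one]
          _ = a * (q * a * q⁻¹) * a := by rw [hca]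
          _ = a * (q * a * q⁻¹ * a) := by rw [mul_assoc a]
      have hwb : w * b = b * w := by
        rw [hw]
        calc q * b * q⁻¹ * b * b = q * b * q⁻¹ := by rw [mul_assoc, hb2, mul_one]
          _ = q * b * q⁻¹ * b * b := by rw [mul_assoc (q * b * q⁻¹), hb2, mul_one]
          _ = b * (q * b * q⁻¹) * b := by rw [hcb]
          _ = b * (q * b * q⁻¹ * b) := by rw [mul_assoc b]
      have hz2 : z * z = 1 := by
        have h1 : q * a * q⁻¹ * (q * a * q⁻¹) = 1 := by simp [mul_assoc, ha2, ha2']
        calc z * z = q * a * q⁻¹ * (a * (q * a * q⁻¹)) * a := by rw [hz]; simp only [mul_assoc]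
          _ = q * a * q⁻¹ * ((q * a * q⁻¹) * a) * a := by rw [hca]
          _ = (q * a * q⁻¹ * (q * a * q⁻¹)) * (a * a) := by simp only [mul_assoc]
          _ = 1 := by rw [h1, ha2, one_mul]
      -- conjugating a * b by q
      have hconj : (q * a * q⁻¹) * (q * b * q⁻¹) = a * b := by
        have : q * (a * b) * q⁻¹ = a * b := by rw [← hqx']; simp
        rw [← this]
        simp [mul_assoc]
      have hqa : q * a * q⁻¹ = z * a := by rw [hz]; simp [mul_assoc, ha2, ha2']
      have hqb : q * b * q⁻¹ = w * b := by rw [hw]; simp [mul_assoc, hb2, hb2']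
      have hwz : w = z := by
        rw [hqa, hqb] at hconj
        -- z * a * (w * b) = a * b
        have h1 : z * a * w = a := by
          have := congrArg (fun t => t * b) hconj
          simpa [mul_assoc, hb2] using this
        have h2 : a * z * w = a := by rw [← hza]; exact h1
        have h3 : z * w = 1 := by
          have := congrArg (fun t => a * t) h2
          simpa [← mul_assoc, ha2] using this
        have h4 : w = z⁻¹ := eq_inv_of_mul_eq_one_right h3
        rw [h4]
        exact inv_eq_of_mul_eq_one_right hz2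
      have hzb : z * b = b * z := by rw [← hwz]; exact hwb
      have hzx : Commute z (a * b) := (Commute.mul_right hza hzb)
      -- the pair (q a q⁻¹, b)
      have hprod : (q * a * q⁻¹) * b = z * (a * b) := by rw [hqa, mul_assoc]
      have hz1 : z = 1 := by
        rcases hD.1.pair (q * a * q⁻¹) (hD.1.conj_mem a ha q) b hbD with h1 | h1 | h1
        · -- commuting case is impossible
          exfalso
          have h2 : ((q * a * q⁻¹) * b) ^ 2 = 1 :=
            sq_mul_comm h1 (by simp [mul_assoc, ha2, ha2']) hb2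
          rw [hprod, hzx.mul_pow, pow_two z, hz2, one_mul] at h2
          have h3 : orderOf (a * b) ∣ 2 := orderOf_dvd_of_pow_eq_one h2
          have h4 : orderOf (a * b) = 1 :=
            Nat.Coprime.eq_one_of_dvd (Nat.coprime_two_right.2 hodd) h3
          have h5 : a * b = 1 := orderOf_eq_one_iff.1 h4
          apply hba
          have : b = a⁻¹ := eq_inv_of_mul_eq_one_right h5
          rw [this, hainv]
        · -- odd case
          rw [hprod] at h1
          obtain ⟨j, hj⟩ := h1
          have h2 : (z * (a * b)) ^ (2 * j + 1) = 1 := by rw [← hj]; exact pow_orderOf_eq_one _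
          have hzpow : z ^ (2 * j + 1) = z := by
            rw [pow_succ, pow_mul, pow_two, hz2, one_pow, one_mul]
          rw [hzx.mul_pow, hzpow] at h2
          -- z = ((a*b)^(2j+1))⁻¹
          have h3 : z = ((a * b) ^ (2 * j + 1))⁻¹ := eq_inv_of_mul_eq_one_left h2
          obtain ⟨m, hm⟩ := hodd
          have h4 : z ^ (2 * m + 1) = 1 := by
            rw [h3, inv_pow, ← pow_mul, mul_comm, pow_mul, ← hm, pow_orderOf_eq_one, one_pow, inv_one]
          have h5 : z ^ (2 * m + 1) = z := by
            rw [pow_succ, pow_mul, pow_two, hz2, one_pow, one_mul]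
          rw [h5] at h4
          exact h4
        · exact absurd h1.1 (hD.2 _ (hD.1.conj_mem a ha q) b hbD)
      have hqa' : q * a = a * q := by
        have : q * a * q⁻¹ = a := by rw [hqa, hz1, one_mul]
        have := congrArg (fun t => t * q) this
        simpa using this
      have hqb' : q * b = b * q := by
        have : q * b * q⁻¹ = b := by rw [hqb, hwz, hz1, one_mul]
        have := congrArg (fun t => t * q) this
        simpa using this
      rw [Subgroup.mem_inf, Subgroup.mem_inf]
      refine ⟨⟨hqQ, ?_⟩, ?_⟩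
      · rw [Subgroup.mem_centralizer_iff]
        intro h hh
        rw [Set.mem_singleton_iff] at hh
        rw [hh, hqa']
      · rw [Subgroup.mem_centralizer_iff]
        intro h hh
        rw [Set.mem_singleton_iff] at hh
        rw [hh, hqb']
    · intro q hq
      rw [Subgroup.mem_inf, Subgroup.mem_inf] at hq
      obtain ⟨⟨hqQ, hqa⟩, hqb⟩ := hq
      rw [Subgroup.mem_inf]
      refine ⟨hqQ, ?_⟩
      rw [Subgroup.mem_centralizer_iff] at hqa hqb ⊢
      intro h hh
      rw [Set.mem_singleton_iff] at hh
      have h1 := hqa a rfl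
      have h2 := hqb b rfl
      rw [hh, mul_assoc, h2, ← mul_assoc, h1, mul_assoc]

end Cfsg.Agent.S5049
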