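-- Statement S5057: the involutions of Alt(6).
import Mathlib
import Cfsg.Statements.S5057

set_option autoImplicit false
open Cfsg

namespace Cfsg.Agent.S5057

open Equiv Equiv.Perm

/-- the possible cycle types of even permutations of six points. -/
theorem cycleType_cases (m : Multiset ℕ) (h1 : ∀ n ∈ m, 2 ≤ n) (h2 : m.sum ≤ 6)
    (h3 : Even (m.sum + Multiset.card m)) :
    m.lcm ≤ 5 ∧ (m.lcm = 2 → m = {2, 2}) := by
  have hc : Multiset.card m • 2 ≤ m.sum := Multiset.card_nsmul_le_sum h1
  have hc3 : Multiset.card m ≤ 3 := by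
    rw [smul_eq_mul] at hc
    omega
  obtain ⟨c, hcard⟩ : ∃ c, Multiset.card m = c := ⟨_, rfl⟩
  rw [hcard] at hc3
  interval_cases c
  · rw [Multiset.card_eq_zero] at hcard
    subst hcard
    decide
  · obtain ⟨a, rfl⟩ := Multiset.card_eq_one.1 hcard
    have ha : 2 ≤ a := h1 a (by simp)
    have h2' : a ≤ 6 := by simpa using h2
    interval_cases a <;> first | (revert h3; decide)
  · obtain ⟨a, b, rfl⟩ := Multiset.card_eq_two.1 hcard
    have ha : 2 ≤ a := h1 a (by simp)
    have hb : 2 ≤ b := h1 b (by simp)
    have h2' : a + b ≤ 6 := by simpa using h2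
    have ha4 : a ≤ 4 := by omega
    have hb4 : b ≤ 4 := by omega
    interval_cases a <;> interval_cases b <;> first | omega | (revert h3; decide)
  · obtain ⟨a, b, c, rfl⟩ := Multiset.card_eq_three.1 hcard
    have ha : 2 ≤ a := h1 a (by simp)
    have hb : 2 ≤ b := h1 b (by simp)
    have hc' : 2 ≤ c := h1 c (by simp)
    have h2' : a + b + c ≤ 6 := by
      have : ({a, b, c} : Multiset ℕ).sum = a + b + c := by
        simp [add_assoc]
      omega
    obtain rfl : a = 2 := by omega
    obtain rfl : b = 2 := by omega
    obtain rfl : c = 2 := by omega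
    revert h3
    decide

theorem alt6_order (σ : Perm (Fin 6)) (hσ : σ ∈ alternatingGroup (Fin 6)) :
    orderOf σ ≤ 5 ∧ (orderOf σ = 2 → σ.cycleType = {2, 2}) := by
  have h1 : ∀ n ∈ σ.cycleType, 2 ≤ n := fun n hn => two_le_of_mem_cycleType hn
  have h2 : σ.cycleType.sum ≤ 6 := by
    have := sum_cycleType_le σ
    simpa using this
  have h3 : Even (σ.cycleType.sum + Multiset.card σ.cycleType) := by
    have h := sign_of_cycleType σ
    rw [mem_alternatingGroup.1 hσ] at h
    exact (neg_one_pow_eq_one_iff_even (by decide)).1 h.symm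
  have := cycleType_cases _ h1 h2 h3
  rw [lcm_cycleType] at this
  exact this

theorem orderOf_coe (g : alternatingGroup (Fin 6)) : orderOf (g : Perm (Fin 6)) = orderOf g :=
  Subgroup.orderOf_coe g

/-- The involutions of the alternating group of degree 6 form a class of root involutions (a single conjugacy class of involutions generating the group, any two of which commute, have product of odd order, or have product of order 4 whose square is again an involution of the class), and the product of any two of them has order at most 5. -/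
theorem result :
    Cfsg.IsRootInvolutionClass {g : ↥(alternatingGroup (Fin 6)) | orderOf g = 2} ∧
    ∀ d ∈ {g : ↥(alternatingGroup (Fin 6)) | orderOf g = 2}, ∀ e ∈ {g : ↥(alternatingGroup (Fin 6)) | orderOf g = 2},
      orderOf (d * e) ≤ 5 := by
  have hord : ∀ g : alternatingGroup (Fin 6), orderOf g ≤ 5 := by
    intro g
    rw [← orderOf_coe]
    exact (alt6_order g g.2).1
  have hpos : ∀ g : alternatingGroup (Fin 6), 0 < orderOf g := fun g => orderOf_pos g
  have hconj : ∀ (d g : alternatingGroup (Fin 6)), orderOf (g * d * g⁻¹) = orderOf d := by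
    intro d g
    have h : SemiconjBy g d (g * d * g⁻¹) := by
      unfold SemiconjBy
      simp
    exact (h.orderOf_eq).symm
  -- an explicit involution
  have hx : (swap (0 : Fin 6) 1 * swap (2 : Fin 6) 3) ∈ alternatingGroup (Fin 6) := by
    rw [mem_alternatingGroup]
    decide
  have hx2 : orderOf (⟨swap (0 : Fin 6) 1 * swap (2 : Fin 6) 3, hx⟩ : alternatingGroup (Fin 6)) = 2 := by
    rw [← orderOf_coe]
    apply orderOf_eq_prime
    · show (swap (0 : Fin 6) 1 * swap (2 : Fin 6) 3) ^ 2 = 1
      decide
    · show (swap (0 : Fin 6) 1 * swap (2 : Fin 6) 3) ≠ 1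
      decide
  have hne : ({g : ↥(alternatingGroup (Fin 6)) | orderOf g = 2}).Nonempty := ⟨_, hx2⟩
  have hsimple : IsSimpleGroup (alternatingGroup (Fin 6)) := alternatingGroup.isSimpleGroup (by simp)
  refine ⟨⟨⟨?_, ?_, ?_, ?_⟩, hne, ?_⟩, ?_⟩
  · intro d hd
    exact hd
  · -- generation
    have hsub : Group.conjugatesOfSet {g : ↥(alternatingGroup (Fin 6)) | orderOf g = 2} ⊆
        {g : ↥(alternatingGroup (Fin 6)) | orderOf g = 2} := by
      intro y hy
      rw [Group.mem_conjugatesOfSet_iff] at hy
      obtain ⟨a, ha, hay⟩ := hy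
      rw [isConj_iff] at hay
      obtain ⟨c, rfl⟩ := hay
      show orderOf (c * a * c⁻¹) = 2
      rw [hconj]
      exact ha
    have heq : Subgroup.closure {g : ↥(alternatingGroup (Fin 6)) | orderOf g = 2} =
        Subgroup.normalClosure {g : ↥(alternatingGroup (Fin 6)) | orderOf g = 2} := by
      unfold Subgroup.normalClosure
      exact le_antisymm (Subgroup.closure_mono Group.subset_conjugatesOfSet) (Subgroup.closure_mono hsub)
    rw [heq]
    rcases (Subgroup.normalClosure_normal (s := {g : ↥(alternatingGroup (Fin 6)) | orderOf g = 2})).eq_bot_or_eq_top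
      with h | h
    · exfalso
      have hmem : (⟨swap (0 : Fin 6) 1 * swap (2 : Fin 6) 3, hx⟩ : alternatingGroup (Fin 6)) ∈
          Subgroup.normalClosure {g : ↥(alternatingGroup (Fin 6)) | orderOf g = 2} :=
        Subgroup.subset_normalClosure hx2
      rw [h, Subgroup.mem_bot] at hmem
      rw [hmem, orderOf_one] at hx2
      omega
    · exact h
  · intro d hd g
    show orderOf (g * d * g⁻¹) = 2
    rw [hconj]
    exact hd
  · intro a ha b hb
    have ha2 : a * a = 1 := by
      have := pow_orderOf_eq_one a
      rw [ha, pow_two] at this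
      exact this
    have hb2 : b * b = 1 := by
      have := pow_orderOf_eq_one b
      rw [hb, pow_two] at this
      exact this
    have h5 := hord (a * b)
    have h0 := hpos (a * b)
    obtain ⟨n, hn⟩ : ∃ n, orderOf (a * b) = n := ⟨_, rfl⟩
    rw [hn] at h5 h0
    interval_cases n
    · right; left
      rw [hn]
      decide
    · left
      have h := pow_orderOf_eq_one (a * b)
      rw [hn, pow_two] at h
      -- a b a b = 1 → a b = b⁻¹ a⁻¹ = b a
      have hainv : a⁻¹ = a := inv_eq_of_mul_eq_one_right ha2
      have hbinv : b⁻¹ = b := inv_eq_of_mul_eq_one_right hb2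
      have : a * b = (a * b)⁻¹ := eq_inv_of_mul_eq_one_right h
      rw [this, mul_inv_rev, hainv, hbinv]
    · right; left
      rw [hn]
      decide
    · right; right
      refine ⟨hn, ?_⟩
      show orderOf ((a * b) ^ 2) = 2
      rw [orderOf_pow, hn]
      rfl
    · right; left
      rw [hn]
      decide
  · intro a ha b hb
    have hca : (a : Perm (Fin 6)).cycleType = {2, 2} := (alt6_order a a.2).2 (by rw [orderOf_coe]; exact ha)
    have hcb : (b : Perm (Fin 6)).cycleType = {2, 2} := (alt6_order b b.2).2 (by rw [orderOf_coe]; exact hb)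
    have hc : IsConj (a : Perm (Fin 6)) (b : Perm (Fin 6)) := isConj_iff_cycleType_eq.2 (hca.trans hcb.symm)
    have hsupp : (a : Perm (Fin 6)).support.card + 2 ≤ Fintype.card (Fin 6) := by
      rw [← sum_cycleType, hca]
      decide
    have := alternatingGroup.isConj_of hc hsupp
    rw [isConj_iff] at this
    obtain ⟨c, hc⟩ := this
    exact ⟨c, hc.symm⟩
  · intro d _ e _
    exact hord (d * e)

end Cfsg.Agent.S5057
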