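import Cfsg.Statements.S5058
import Cfsg.Agent.Lib.Helper99.Flag
import Cfsg.Agent.Lib.Helper5.SLGen

set_option autoImplicit false
open Matrix
open Cfsg

namespace Cfsg.Agent.S5058


open Cfsg.Agent.Lib.Helper99

section General

variable {n : ℕ} {F : Type*} [Field F]

/-- the set of transvections `1 + v φᵀ` -/
def tvSet (n : ℕ) (F : Type*) [Field F] : Set (Matrix.SpecialLinearGroup (Fin (n + 3)) F) :=
  {t | ∃ v φ : Fin (n + 3) → F, v ≠ 0 ∧ φ ≠ 0 ∧ φ ⬝ᵥ v = 0 ∧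
    (t : Matrix (Fin (n + 3)) (Fin (n + 3)) F) = tvm v φ}

theorem single_ne_zero' (i : Fin (n + 3)) : (Pi.single i (1 : F) : Fin (n + 3) → F) ≠ 0 := by
  intro h
  have := congrFun h i
  simp at this

theorem stmt_set_eq : {t : Matrix.SpecialLinearGroup (Fin (n + 3)) F | ∃ c : F, c ≠ 0 ∧
        ∃ g : Matrix.SpecialLinearGroup (Fin (n + 3)) F, ((g⁻¹ * t * g : Matrix.SpecialLinearGroup (Fin (n + 3)) F) :
          Matrix (Fin (n + 3)) (Fin (n + 3)) F) = Matrix.transvection 0 1 c} = tvSet n F := by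
  ext t
  constructor
  · rintro ⟨c, hc, g, hg⟩
    have ht : t = g * (g⁻¹ * t * g) * g⁻¹ := by group
    have ht' : (t : Matrix (Fin (n + 3)) (Fin (n + 3)) F) =
        tvm ((g : Matrix (Fin (n + 3)) (Fin (n + 3)) F) *ᵥ (c • Pi.single 0 1))
          (Pi.single 1 1 ᵥ* ((g⁻¹ : Matrix.SpecialLinearGroup (Fin (n + 3)) F) :
            Matrix (Fin (n + 3)) (Fin (n + 3)) F)) := by
      rw [← conj_tvm, ← transvection_eq_tvm', ← hg]
      conv_lhs => rw [ht]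
      rfl
    have hv : (g : Matrix (Fin (n + 3)) (Fin (n + 3)) F) *ᵥ (c • Pi.single 0 1) ≠ 0 :=
      sl_mulVec_ne_zero g (smul_ne_zero hc (single_ne_zero' 0))
    have hφ : (Pi.single 1 (1 : F) : Fin (n + 3) → F) ᵥ* ((g⁻¹ : Matrix.SpecialLinearGroup (Fin (n + 3)) F) :
            Matrix (Fin (n + 3)) (Fin (n + 3)) F) ≠ 0 :=
      sl_vecMul_ne_zero g⁻¹ (single_ne_zero' 1)
    refine ⟨_, _, hv, hφ, ?_, ht'⟩
    have h1 := t.2
    rw [ht', tvm_det] at h1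
    simpa using h1
  · rintro ⟨v, φ, hv, hφ, h, ht⟩
    obtain ⟨g, hg⟩ := exists_sl_conj_tvm v φ hv hφ h
    refine ⟨1, one_ne_zero, g, ?_⟩
    have h0 : (Pi.single 1 (1 : F) : Fin (n + 3) → F) ⬝ᵥ Pi.single 0 1 = 0 := by
      rw [single_one_dotProduct]
      have h10 : (0 : Fin (n + 3)) ≠ 1 := by
        intro h'
        have := congrArg Fin.val h'
        rw [Fin.val_one] at this
        simp at this
      simp [h10.symm]
    have e : t = g * tvS (Pi.single 0 1) (Pi.single 1 1) h0 * g⁻¹ := by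
      apply Subtype.ext
      rw [ht, ← hg]
      rfl
    have e2 : g⁻¹ * t * g = tvS (Pi.single 0 1) (Pi.single 1 1) h0 := by
      rw [e]; group
    rw [e2, tvS_coe, transvection_eq_tvm', one_smul]

theorem tvSet_conj {d : Matrix.SpecialLinearGroup (Fin (n + 3)) F} (hd : d ∈ tvSet n F)
    (g : Matrix.SpecialLinearGroup (Fin (n + 3)) F) : g * d * g⁻¹ ∈ tvSet n F := by
  obtain ⟨v, φ, hv, hφ, h, hd⟩ := hd
  refine ⟨_, _, sl_mulVec_ne_zero g hv, sl_vecMul_ne_zero g⁻¹ hφ, ?_, ?_⟩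
  · rw [sl_dot_conj]; exact h
  · rw [← conj_tvm, ← hd]; rfl

theorem tvSet_closure : Subgroup.closure (tvSet n F) = ⊤ := by
  apply Cfsg.Agent.Lib.Helper5.eq_top_of_transvection_mem
  intro i j hij c
  by_cases hc : c = 0
  · have : Matrix.SpecialLinearGroup.transvection hij c = 1 := by
      apply Subtype.ext
      rw [Matrix.SpecialLinearGroup.transvection_coe, hc, Matrix.single_zero, add_zero]
      rfl
    rw [this]
    exact one_mem _
  · apply Subgroup.subset_closure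
    refine ⟨c • Pi.single i 1, Pi.single j 1, smul_ne_zero hc (single_ne_zero' i), single_ne_zero' j, ?_, ?_⟩
    · rw [single_one_dotProduct]
      simp [hij.symm]
    · rw [Matrix.SpecialLinearGroup.transvection_coe]
      exact transvection_eq_tvm' i j c

theorem tvSet_class {a b : Matrix.SpecialLinearGroup (Fin (n + 3)) F} (ha : a ∈ tvSet n F)
    (hb : b ∈ tvSet n F) : ∃ g : Matrix.SpecialLinearGroup (Fin (n + 3)) F, b = g * a * g⁻¹ := by
  obtain ⟨v, φ, hv, hφ, h, ha⟩ := ha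
  obtain ⟨w, ψ, hw, hψ, h', hb⟩ := hb
  obtain ⟨g, hg⟩ := exists_sl_conj_tvm v φ hv hφ h
  obtain ⟨g', hg'⟩ := exists_sl_conj_tvm w ψ hw hψ h'
  have h0 : (Pi.single 1 (1 : F) : Fin (n + 3) → F) ⬝ᵥ Pi.single 0 1 = 0 := by
    rw [single_one_dotProduct]
    have h10 : (0 : Fin (n + 3)) ≠ 1 := by
      intro h'
      have := congrArg Fin.val h'
      rw [Fin.val_one] at this
      simp at this
    simp [h10]
  have e : a = g * tvS (Pi.single 0 1) (Pi.single 1 1) h0 * g⁻¹ := by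
    apply Subtype.ext
    rw [ha, ← hg]
    rfl
  have e' : b = g' * tvS (Pi.single 0 1) (Pi.single 1 1) h0 * g'⁻¹ := by
    apply Subtype.ext
    rw [hb, ← hg']
    rfl
  refine ⟨g' * g⁻¹, ?_⟩
  rw [e, e']
  group

/-- the basic relations between `M = vφ + wψ + α vψ` and `P = α vψ + β wφ` -/
theorem rel_MM (v φ w ψ : Fin (n + 3) → F) (α β : F) (hv : φ ⬝ᵥ v = 0) (hw : ψ ⬝ᵥ w = 0)
    (hα : φ ⬝ᵥ w = α) (hβ : ψ ⬝ᵥ v = β) :
    (Matrix.vecMulVec v φ + Matrix.vecMulVec w ψ + α • Matrix.vecMulVec v ψ) *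
      (Matrix.vecMulVec v φ + Matrix.vecMulVec w ψ + α • Matrix.vecMulVec v ψ) =
    (α * β) • (Matrix.vecMulVec v φ + Matrix.vecMulVec w ψ + α • Matrix.vecMulVec v ψ) +
      (α • Matrix.vecMulVec v ψ + β • Matrix.vecMulVec w φ) := by
  simp only [add_mul, mul_add, smul_mul_assoc, mul_smul_comm, Matrix.vecMulVec_mul_vecMulVec,
    Matrix.vecMulVec_smul, hv, hw, hα, hβ, zero_smul, smul_zero, add_zero, zero_add,
    Matrix.vecMulVec_zero]
  module

theorem rel_PM (v φ w ψ : Fin (n + 3) → F) (α β : F) (hv : φ ⬝ᵥ v = 0) (hw : ψ ⬝ᵥ w = 0)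
    (hα : φ ⬝ᵥ w = α) (hβ : ψ ⬝ᵥ v = β) :
    (α • Matrix.vecMulVec v ψ + β • Matrix.vecMulVec w φ) *
      (Matrix.vecMulVec v φ + Matrix.vecMulVec w ψ + α • Matrix.vecMulVec v ψ) =
    (α * β) • (Matrix.vecMulVec v φ + Matrix.vecMulVec w ψ + α • Matrix.vecMulVec v ψ) := by
  simp only [add_mul, mul_add, smul_mul_assoc, mul_smul_comm, Matrix.vecMulVec_mul_vecMulVec,
    Matrix.vecMulVec_smul, hv, hw, hα, hβ, zero_smul, smul_zero, add_zero, zero_add,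
    Matrix.vecMulVec_zero]
  module

theorem rel_MP (v φ w ψ : Fin (n + 3) → F) (α β : F) (hv : φ ⬝ᵥ v = 0) (hw : ψ ⬝ᵥ w = 0)
    (hα : φ ⬝ᵥ w = α) (hβ : ψ ⬝ᵥ v = β) :
    (Matrix.vecMulVec v φ + Matrix.vecMulVec w ψ + α • Matrix.vecMulVec v ψ) *
      (α • Matrix.vecMulVec v ψ + β • Matrix.vecMulVec w φ) =
    (α * β) • (Matrix.vecMulVec v φ + Matrix.vecMulVec w ψ + α • Matrix.vecMulVec v ψ) := by
  simp only [add_mul, mul_add, smul_mul_assoc, mul_smul_comm, Matrix.vecMulVec_mul_vecMulVec,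
    Matrix.vecMulVec_smul, hv, hw, hα, hβ, zero_smul, smul_zero, add_zero, zero_add,
    Matrix.vecMulVec_zero]
  module

theorem rel_PP (v φ w ψ : Fin (n + 3) → F) (α β : F) (hv : φ ⬝ᵥ v = 0) (hw : ψ ⬝ᵥ w = 0)
    (hα : φ ⬝ᵥ w = α) (hβ : ψ ⬝ᵥ v = β) :
    (α • Matrix.vecMulVec v ψ + β • Matrix.vecMulVec w φ) *
      (α • Matrix.vecMulVec v ψ + β • Matrix.vecMulVec w φ) =
    (α * β) • (α • Matrix.vecMulVec v ψ + β • Matrix.vecMulVec w φ) := by
  simp only [add_mul, mul_add, smul_mul_assoc, mul_smul_comm, Matrix.vecMulVec_mul_vecMulVec,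
    Matrix.vecMulVec_smul, hv, hw, hα, hβ, zero_smul, smul_zero, add_zero, zero_add,
    Matrix.vecMulVec_zero]
  module

/-- powers of `1 + M` stay in the span of `1, M, P` -/
theorem pow_form (M P : Matrix (Fin (n + 3)) (Fin (n + 3)) F) (τ : F) (hMM : M * M = τ • M + P)
    (hPM : P * M = τ • M) (m : ℕ) : ∃ x y : F, (1 + M) ^ m = 1 + x • M + y • P := by
  induction m with
  | zero => exact ⟨0, 0, by simp⟩
  | succ m ih =>
    obtain ⟨x, y, h⟩ := ih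
    refine ⟨1 + x + x * τ + y * τ, x + y, ?_⟩
    rw [pow_succ, h]
    simp only [add_mul, mul_add, one_mul, mul_one, smul_mul_assoc, hMM, hPM]
    module

theorem M_mulVec (v φ w ψ : Fin (n + 3) → F) (hw : ψ ⬝ᵥ w = 0) :
    (Matrix.vecMulVec v φ + Matrix.vecMulVec w ψ + (φ ⬝ᵥ w) • Matrix.vecMulVec v ψ) *ᵥ w =
      (φ ⬝ᵥ w) • v := by
  simp only [Matrix.add_mulVec, Matrix.smul_mulVec, Matrix.vecMulVec_mulVec, op_smul_eq_smul, hw,
    zero_smul, smul_zero, add_zero]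

theorem P_mulVec (v φ w ψ : Fin (n + 3) → F) (hw : ψ ⬝ᵥ w = 0) :
    ((φ ⬝ᵥ w) • Matrix.vecMulVec v ψ + (ψ ⬝ᵥ v) • Matrix.vecMulVec w φ) *ᵥ w =
      ((φ ⬝ᵥ w) * (ψ ⬝ᵥ v)) • w := by
  simp only [Matrix.add_mulVec, Matrix.smul_mulVec, Matrix.vecMulVec_mulVec, op_smul_eq_smul, hw,
    zero_smul, smul_zero, zero_add, smul_smul]
  rw [mul_comm]

end General

section CharTwo

variable {n : ℕ} {F : Type*} [Field F] [CharP F 2]

theorem mat_add_self (M : Matrix (Fin (n + 3)) (Fin (n + 3)) F) : M + M = 0 := by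
  ext i j
  simp [CharTwo.add_self_eq_zero]

theorem vec_add_self (v : Fin (n + 3) → F) : v + v = 0 := by
  funext i
  exact CharTwo.add_self_eq_zero (v i)

theorem tvSet_sq {d : Matrix.SpecialLinearGroup (Fin (n + 3)) F} (hd : d ∈ tvSet n F) : d ^ 2 = 1 := by
  obtain ⟨v, φ, hv, hφ, h, hd⟩ := hd
  apply Subtype.ext
  rw [pow_two, Matrix.SpecialLinearGroup.coe_mul, hd, tvm_mul_same _ _ _ h, vec_add_self, tvm_zero_left]
  rfl

theorem tvSet_order {d : Matrix.SpecialLinearGroup (Fin (n + 3)) F} (hd : d ∈ tvSet n F) :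
    orderOf d = 2 := by
  have : Fact (Nat.Prime 2) := ⟨Nat.prime_two⟩
  apply orderOf_eq_prime (tvSet_sq hd)
  obtain ⟨v, φ, hv, hφ, h, hd'⟩ := hd
  intro h1
  apply tvm_ne_one hv hφ
  rw [← hd', h1]
  rfl

theorem sq_form (M P : Matrix (Fin (n + 3)) (Fin (n + 3)) F) (τ x y : F) (hMM : M * M = τ • M + P)
    (hPM : P * M = τ • M) (hMP : M * P = τ • M) (hPP : P * P = τ • P) :
    (1 + x • M + y • P) * (1 + x • M + y • P) = 1 + (x ^ 2 * τ) • M + (x ^ 2 + y ^ 2 * τ) • P := by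
  have h : (1 + x • M + y • P) * (1 + x • M + y • P) =
      1 + (x ^ 2 * τ) • M + (x ^ 2 + y ^ 2 * τ) • P + x • (M + M) + y • (P + P) +
        (x * y * τ) • (M + M) := by
    simp only [add_mul, mul_add, one_mul, mul_one, smul_mul_assoc, mul_smul_comm, hMM, hPM, hMP, hPP]
    module
  rw [h, mat_add_self, mat_add_self]
  simp

theorem pow_add_self_eq_one {v φ w ψ : Fin (n + 3) → F} (hv : φ ⬝ᵥ v = 0) (hw : ψ ⬝ᵥ w = 0)
    (hα : φ ⬝ᵥ w ≠ 0) (hβ : ψ ⬝ᵥ v ≠ 0) (m : ℕ)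
    (h : (tvm v φ * tvm w ψ) ^ (m + m) = 1) : (tvm v φ * tvm w ψ) ^ m = 1 := by
  have hMM := rel_MM v φ w ψ _ _ hv hw rfl rfl
  have hPM := rel_PM v φ w ψ _ _ hv hw rfl rfl
  have hMP := rel_MP v φ w ψ _ _ hv hw rfl rfl
  have hPP := rel_PP v φ w ψ _ _ hv hw rfl rfl
  have hMw := M_mulVec v φ w ψ hw
  have hPw := P_mulVec v φ w ψ hw
  have hX : tvm v φ * tvm w ψ = 1 + (Matrix.vecMulVec v φ + Matrix.vecMulVec w ψ +
      (φ ⬝ᵥ w) • Matrix.vecMulVec v ψ) := by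
    rw [tvm_mul_tvm, add_assoc, add_assoc, add_assoc]
  rw [hX] at h ⊢
  generalize Matrix.vecMulVec v φ + Matrix.vecMulVec w ψ + (φ ⬝ᵥ w) • Matrix.vecMulVec v ψ = M
    at hMM hPM hMP hPP hMw h ⊢
  generalize (φ ⬝ᵥ w) • Matrix.vecMulVec v ψ + (ψ ⬝ᵥ v) • Matrix.vecMulVec w φ = P
    at hMM hPM hMP hPP hPw
  obtain ⟨x, y, hxy⟩ := pow_form M P _ hMM hPM m
  rw [pow_add, hxy, sq_form M P _ x y hMM hPM hMP hPP, add_assoc] at h
  have hZ : (x ^ 2 * ((φ ⬝ᵥ w) * (ψ ⬝ᵥ v))) • M + (x ^ 2 + y ^ 2 * ((φ ⬝ᵥ w) * (ψ ⬝ᵥ v))) • P = 0 :=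
    add_left_cancel (h.trans (add_zero 1).symm)
  have hZw := congrArg (fun Z : Matrix (Fin (n + 3)) (Fin (n + 3)) F => Z *ᵥ w) hZ
  simp only [Matrix.add_mulVec, Matrix.smul_mulVec, hMw, hPw, Matrix.zero_mulVec] at hZw
  have h1 := congrArg (fun u : Fin (n + 3) → F => ψ ⬝ᵥ u) hZw
  simp only [dotProduct_add, dotProduct_smul, hw, dotProduct_zero, smul_eq_mul, mul_zero,
    add_zero] at h1
  have hx : x = 0 := by
    have : x ^ 2 * ((φ ⬝ᵥ w) * (ψ ⬝ᵥ v)) * ((φ ⬝ᵥ w) * (ψ ⬝ᵥ v)) = 0 := by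
      linear_combination h1
    simpa [hα, hβ] using this
  have h2 := congrArg (fun u : Fin (n + 3) → F => φ ⬝ᵥ u) hZw
  simp only [dotProduct_add, dotProduct_smul, hv, dotProduct_zero, smul_eq_mul, mul_zero,
    zero_add, hx] at h2
  have hy : y = 0 := by
    have : y ^ 2 * ((φ ⬝ᵥ w) * (ψ ⬝ᵥ v)) * ((φ ⬝ᵥ w) * (ψ ⬝ᵥ v)) * (φ ⬝ᵥ w) = 0 := by
      linear_combination h2
    simpa [hα, hβ] using this
  rw [hxy, hx, hy]
  simp

theorem sq_of_beta_zero (v φ w ψ : Fin (n + 3) → F) (hv : φ ⬝ᵥ v = 0) (hw : ψ ⬝ᵥ w = 0)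
    (hβ : ψ ⬝ᵥ v = 0) :
    (tvm v φ * tvm w ψ) * (tvm v φ * tvm w ψ) = tvm ((φ ⬝ᵥ w) • v) ψ := by
  have hMM := rel_MM v φ w ψ _ _ hv hw rfl hβ
  have hX : tvm v φ * tvm w ψ = 1 + (Matrix.vecMulVec v φ + Matrix.vecMulVec w ψ +
      (φ ⬝ᵥ w) • Matrix.vecMulVec v ψ) := by
    rw [tvm_mul_tvm, add_assoc, add_assoc, add_assoc]
  rw [hX]
  generalize Matrix.vecMulVec v φ + Matrix.vecMulVec w ψ + (φ ⬝ᵥ w) • Matrix.vecMulVec v ψ = M
    at hMM ⊢
  have h : (1 + M) * (1 + M) = 1 + (M + M) + M * M := by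
    simp only [add_mul, mul_add, one_mul, mul_one]
    abel
  rw [h, mat_add_self, hMM, tvm, Matrix.smul_vecMulVec]
  simp

theorem sq_of_alpha_zero (v φ w ψ : Fin (n + 3) → F) (hv : φ ⬝ᵥ v = 0) (hw : ψ ⬝ᵥ w = 0)
    (hα : φ ⬝ᵥ w = 0) :
    (tvm v φ * tvm w ψ) * (tvm v φ * tvm w ψ) = tvm ((ψ ⬝ᵥ v) • w) φ := by
  have hMM := rel_MM v φ w ψ _ _ hv hw hα rfl
  have hX : tvm v φ * tvm w ψ = 1 + (Matrix.vecMulVec v φ + Matrix.vecMulVec w ψ +
      (0 : F) • Matrix.vecMulVec v ψ) := by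
    rw [tvm_mul_tvm, hα, add_assoc, add_assoc, add_assoc]
  rw [hX]
  generalize Matrix.vecMulVec v φ + Matrix.vecMulVec w ψ + (0 : F) • Matrix.vecMulVec v ψ = M
    at hMM ⊢
  have h : (1 + M) * (1 + M) = 1 + (M + M) + M * M := by
    simp only [add_mul, mul_add, one_mul, mul_one]
    abel
  rw [h, mat_add_self, hMM, tvm, Matrix.smul_vecMulVec]
  simp

theorem cube_eq_one (v φ w ψ : Fin (n + 3) → F) (hv : φ ⬝ᵥ v = 0) (hw : ψ ⬝ᵥ w = 0)
    (hα : φ ⬝ᵥ w = 1) (hβ : ψ ⬝ᵥ v = 1) : (tvm v φ * tvm w ψ) ^ 3 = 1 := by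
  have hMM := rel_MM v φ w ψ _ _ hv hw hα hβ
  have hPM := rel_PM v φ w ψ _ _ hv hw hα hβ
  have hX : tvm v φ * tvm w ψ = 1 + (Matrix.vecMulVec v φ + Matrix.vecMulVec w ψ +
      (1 : F) • Matrix.vecMulVec v ψ) := by
    rw [tvm_mul_tvm, hα, add_assoc, add_assoc, add_assoc]
  rw [hX]
  generalize Matrix.vecMulVec v φ + Matrix.vecMulVec w ψ + (1 : F) • Matrix.vecMulVec v ψ = M
    at hMM hPM ⊢
  generalize (1 : F) • Matrix.vecMulVec v ψ + (1 : F) • Matrix.vecMulVec w φ = P at hMM hPM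
  rw [mul_one, one_smul] at hMM hPM
  have h : (1 + M) ^ 3 = 1 + (M + M) + (M + M) + (M + M) + (M + M) + (P + P) + (P + P) := by
    simp only [pow_succ, pow_zero, one_mul, add_mul, mul_add, mul_one, hMM, hPM]
    abel
  rw [h, mat_add_self, mat_add_self]
  simp

theorem odd_order [Finite F] {a b : Matrix.SpecialLinearGroup (Fin (n + 3)) F} {v φ w ψ : Fin (n + 3) → F}
    (ha : (a : Matrix (Fin (n + 3)) (Fin (n + 3)) F) = tvm v φ)
    (hb : (b : Matrix (Fin (n + 3)) (Fin (n + 3)) F) = tvm w ψ)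
    (hv : φ ⬝ᵥ v = 0) (hw : ψ ⬝ᵥ w = 0) (hα : φ ⬝ᵥ w ≠ 0) (hβ : ψ ⬝ᵥ v ≠ 0) :
    Odd (orderOf (a * b)) := by
  have hpos : 0 < orderOf (a * b) := orderOf_pos _
  by_contra hodd
  rw [Nat.not_odd_iff_even] at hodd
  obtain ⟨m, hm⟩ := hodd
  have h1 : (a * b) ^ (m + m) = 1 := by rw [← hm]; exact pow_orderOf_eq_one _
  have h2 : (a * b) ^ m = 1 := by
    apply Subtype.ext
    have h1' := congrArg (fun x : Matrix.SpecialLinearGroup (Fin (n + 3)) F =>
      (x : Matrix (Fin (n + 3)) (Fin (n + 3)) F)) h1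
    simp only [Matrix.SpecialLinearGroup.coe_pow, Matrix.SpecialLinearGroup.coe_mul, ha, hb,
      Matrix.SpecialLinearGroup.coe_one] at h1'
    rw [Matrix.SpecialLinearGroup.coe_pow, Matrix.SpecialLinearGroup.coe_mul, ha, hb]
    exact pow_add_self_eq_one hv hw hα hβ m h1'
  have h3 := orderOf_dvd_of_pow_eq_one h2
  have h4 := Nat.le_of_dvd (by omega) h3
  omega

theorem order_four {a b : Matrix.SpecialLinearGroup (Fin (n + 3)) F} {v φ w ψ : Fin (n + 3) → F}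
    (ha : (a : Matrix (Fin (n + 3)) (Fin (n + 3)) F) = tvm v φ)
    (hb : (b : Matrix (Fin (n + 3)) (Fin (n + 3)) F) = tvm w ψ)
    (hvn : v ≠ 0) (hφn : φ ≠ 0) (hwn : w ≠ 0) (hψn : ψ ≠ 0)
    (hv : φ ⬝ᵥ v = 0) (hw : ψ ⬝ᵥ w = 0)
    (h : (φ ⬝ᵥ w ≠ 0 ∧ ψ ⬝ᵥ v = 0) ∨ (φ ⬝ᵥ w = 0 ∧ ψ ⬝ᵥ v ≠ 0)) :
    orderOf (a * b) = 4 ∧ (a * b) ^ 2 ∈ tvSet n F := by
  have hmem : (a * b) ^ 2 ∈ tvSet n F := by
    rcases h with ⟨hα, hβ⟩ | ⟨hα, hβ⟩
    · refine ⟨(φ ⬝ᵥ w) • v, ψ, smul_ne_zero hα hvn, hψn, ?_, ?_⟩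
      · rw [dotProduct_smul, hβ, smul_zero]
      · rw [pow_two, Matrix.SpecialLinearGroup.coe_mul, Matrix.SpecialLinearGroup.coe_mul, ha, hb,
          sq_of_beta_zero v φ w ψ hv hw hβ]
    · refine ⟨(ψ ⬝ᵥ v) • w, φ, smul_ne_zero hβ hwn, hφn, ?_, ?_⟩
      · rw [dotProduct_smul, hα, smul_zero]
      · rw [pow_two, Matrix.SpecialLinearGroup.coe_mul, Matrix.SpecialLinearGroup.coe_mul, ha, hb,
          sq_of_alpha_zero v φ w ψ hv hw hα]
  refine ⟨?_, hmem⟩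
  have : Fact (Nat.Prime 2) := ⟨Nat.prime_two⟩
  have h1 : ¬ (a * b) ^ 2 ^ 1 = 1 := by
    intro h1
    have h2 := tvSet_order hmem
    rw [pow_one] at h1
    rw [h1, orderOf_one] at h2
    omega
  have h2 : (a * b) ^ 2 ^ (1 + 1) = 1 := by
    have := tvSet_sq hmem
    rw [← pow_mul] at this
    exact this
  exact orderOf_eq_prime_pow h1 h2

end CharTwo

/-- Let F be a finite field of characteristic 2 and n a natural number. Then the transvections of SL_{n+3}(F) (so in every dimension at least 3) (the conjugates of the elementary matrices 1 + c E₁₂, c ≠ 0) form a class of root involutions of SL_{n+3}(F); when F has two elements they form a class of {3,4}⁺-transpositions (every product of odd order has order 1 or 3). -/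
theorem result (F : Type*) [Field F] [Fintype F] [CharP F 2] (n : ℕ) :
    Cfsg.IsRootInvolutionClass {t : Matrix.SpecialLinearGroup (Fin (n + 3)) F | ∃ c : F, c ≠ 0 ∧
        ∃ g : Matrix.SpecialLinearGroup (Fin (n + 3)) F, ((g⁻¹ * t * g : Matrix.SpecialLinearGroup (Fin (n + 3)) F) :
          Matrix (Fin (n + 3)) (Fin (n + 3)) F) = Matrix.transvection 0 1 c} ∧
    (Fintype.card F = 2 → Cfsg.IsThreeFourPlusTranspositionSet {t : Matrix.SpecialLinearGroup (Fin (n + 3)) F | ∃ c : F, c ≠ 0 ∧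
        ∃ g : Matrix.SpecialLinearGroup (Fin (n + 3)) F, ((g⁻¹ * t * g : Matrix.SpecialLinearGroup (Fin (n + 3)) F) :
          Matrix (Fin (n + 3)) (Fin (n + 3)) F) = Matrix.transvection 0 1 c}) := by

  rw [stmt_set_eq]
  have hpair : ∀ a ∈ tvSet n F, ∀ b ∈ tvSet n F,
      (a * b = b * a ∧ (a * b) ^ 2 = 1) ∨
      (Odd (orderOf (a * b)) ∧ (Fintype.card F = 2 → (a * b) ^ 3 = 1)) ∨
      (orderOf (a * b) = 4 ∧ (a * b) ^ 2 ∈ tvSet n F) := by
    intro a ha b hb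
    have ha2 := tvSet_sq ha
    have hb2 := tvSet_sq hb
    obtain ⟨v, φ, hvn, hφn, hv, ha⟩ := ha
    obtain ⟨w, ψ, hwn, hψn, hw, hb⟩ := hb
    by_cases hα : φ ⬝ᵥ w = 0
    · by_cases hβ : ψ ⬝ᵥ v = 0
      · left
        have hc : a * b = b * a := by
          apply Subtype.ext
          rw [Matrix.SpecialLinearGroup.coe_mul, Matrix.SpecialLinearGroup.coe_mul, ha, hb,
            tvm_mul_tvm, tvm_mul_tvm, hα, hβ, zero_smul, zero_smul, add_zero, add_zero,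
            add_right_comm]
        refine ⟨hc, ?_⟩
        have hc' : Commute a b := hc
        rw [hc'.mul_pow, ha2, hb2, one_mul]
      · right; right
        exact order_four ha hb hvn hφn hwn hψn hv hw (Or.inr ⟨hα, hβ⟩)
    · by_cases hβ : ψ ⬝ᵥ v = 0
      · right; right
        exact order_four ha hb hvn hφn hwn hψn hv hw (Or.inl ⟨hα, hβ⟩)
      · right; left
        refine ⟨odd_order ha hb hv hw hα hβ, fun hcard => ?_⟩
        have hone : ∀ x : F, x ≠ 0 → x = 1 := by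
          intro x hx
          have := FiniteField.pow_card_sub_one_eq_one x hx
          rw [hcard] at this
          simpa using this
        apply Subtype.ext
        rw [Matrix.SpecialLinearGroup.coe_pow, Matrix.SpecialLinearGroup.coe_mul, ha, hb,
          cube_eq_one v φ w ψ hv hw (hone _ hα) (hone _ hβ)]
        rfl
  have hset : Cfsg.IsRootInvolutionSet (tvSet n F) := by
    refine ⟨fun d hd => tvSet_order hd, tvSet_closure, fun d hd g => tvSet_conj hd g, ?_⟩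
    intro a ha b hb
    rcases hpair a ha b hb with h | h | h
    · exact Or.inl h.1
    · exact Or.inr (Or.inl h.1)
    · exact Or.inr (Or.inr h)
  have h01 : (Pi.single 1 (1 : F) : Fin (n + 3) → F) ⬝ᵥ Pi.single 0 1 = 0 := by
    rw [single_one_dotProduct]
    have h10 : (1 : Fin (n + 3)) ≠ 0 := by
      intro h'
      have := congrArg Fin.val h'
      rw [Fin.val_one] at this
      simp at this
    simp [h10]
  refine ⟨⟨hset, ⟨tvS (Pi.single 0 1) (Pi.single 1 1) h01, _, _, single_ne_zero' 0,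
    single_ne_zero' 1, h01, rfl⟩, fun a ha b hb => tvSet_class ha hb⟩, fun hcard => ⟨hset, ?_⟩⟩
  intro a ha b hb hodd
  rcases hpair a ha b hb with h | h | h
  · left
    have h2 := orderOf_dvd_of_pow_eq_one h.2
    rcases (Nat.dvd_prime Nat.prime_two).1 h2 with h3 | h3
    · exact h3
    · rw [h3] at hodd
      exact absurd hodd (by decide)
  · have h2 := orderOf_dvd_of_pow_eq_one (h.2 hcard)
    exact (Nat.dvd_prime Nat.prime_three).1 h2
  · rw [h.1] at hodd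
    exact absurd hodd (by decide)

end Cfsg.Agent.S5058
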