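-- Statement S5059: E(sigma) in a quadratic pair.
import Mathlib
import Cfsg.Statements.S5059

set_option autoImplicit false
universe u
open Cfsg

namespace Cfsg.Agent.S5059

variable {k : Type*} [Field k] {M : Type*} [AddCommGroup M] [Module k M]

/-- the property carried by all elements of `E(σ)`. -/
def Good (G : Subgroup (LinearMap.GeneralLinearGroup k M)) (σ g : LinearMap.GeneralLinearGroup k M) : Prop :=
  (∀ m, ((g : M →ₗ[k] M) - 1) m ∈ LinearMap.range ((σ : M →ₗ[k] M) - 1)) ∧
  (∀ m ∈ LinearMap.ker ((σ : M →ₗ[k] M) - 1), ((g : M →ₗ[k] M) - 1) m = 0) ∧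
  (∀ c : k, ∀ τ : LinearMap.GeneralLinearGroup k M, (τ : M →ₗ[k] M) = 1 + c • ((g : M →ₗ[k] M) - 1) → τ ∈ G)

theorem good_mul_zero {G : Subgroup (LinearMap.GeneralLinearGroup k M)} {σ g h : LinearMap.GeneralLinearGroup k M}
    (hRK : LinearMap.range ((σ : M →ₗ[k] M) - 1) ≤ LinearMap.ker ((σ : M →ₗ[k] M) - 1))
    (hg : Good G σ g) (hh : Good G σ h) :
    ((g : M →ₗ[k] M) - 1) * ((h : M →ₗ[k] M) - 1) = 0 := by
  ext m
  rw [Module.End.mul_apply]
  exact hg.2.1 _ (hRK (hh.1 m))

theorem one_add_mul_one_sub (a : M →ₗ[k] M) (ha : a * a = 0) : (1 + a) * (1 - a) = 1 := by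
  calc (1 + a) * (1 - a) = 1 - a * a := by noncomm_ring
    _ = 1 := by rw [ha, sub_zero]

theorem one_sub_mul_one_add (a : M →ₗ[k] M) (ha : a * a = 0) : (1 - a) * (1 + a) = 1 := by
  calc (1 - a) * (1 + a) = 1 - a * a := by noncomm_ring
    _ = 1 := by rw [ha, sub_zero]

theorem one_add_mul_one_add (A B : M →ₗ[k] M) : 1 + A + B + A * B = (1 + A) * (1 + B) := by
  noncomm_ring

/-- the unit `1 + c n` for a square-zero endomorphism `n`. -/
def sqUnit (n : M →ₗ[k] M) (hn : n * n = 0) (c : k) : LinearMap.GeneralLinearGroup k M :=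
  ⟨1 + c • n, 1 - c • n,
    one_add_mul_one_sub _ (by rw [smul_mul_smul_comm, hn, smul_zero]),
    one_sub_mul_one_add _ (by rw [smul_mul_smul_comm, hn, smul_zero])⟩

theorem sqUnit_val (n : M →ₗ[k] M) (hn : n * n = 0) (c : k) :
    ((sqUnit n hn c : LinearMap.GeneralLinearGroup k M) : M →ₗ[k] M) = 1 + c • n := rfl

theorem good_one (G : Subgroup (LinearMap.GeneralLinearGroup k M)) (σ : LinearMap.GeneralLinearGroup k M) :
    Good G σ 1 := by
  refine ⟨?_, ?_, ?_⟩
  · intro m
    simp
  · intro m _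
    simp
  · intro c τ hτ
    have : τ = 1 := by
      apply Units.ext
      rw [hτ]
      simp
    rw [this]
    exact G.one_mem

theorem good_mul {G : Subgroup (LinearMap.GeneralLinearGroup k M)} {σ g h : LinearMap.GeneralLinearGroup k M}
    (hRK : LinearMap.range ((σ : M →ₗ[k] M) - 1) ≤ LinearMap.ker ((σ : M →ₗ[k] M) - 1))
    (hg : Good G σ g) (hh : Good G σ h) : Good G σ (g * h) := by
  have h0 := good_mul_zero hRK hg hh
  have hgg := good_mul_zero hRK hg hg
  have hhh := good_mul_zero hRK hh hh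
  have e : ((g * h : LinearMap.GeneralLinearGroup k M) : M →ₗ[k] M) - 1 =
      ((g : M →ₗ[k] M) - 1) + ((h : M →ₗ[k] M) - 1) := by
    rw [Units.val_mul]
    calc (g : M →ₗ[k] M) * (h : M →ₗ[k] M) - 1
        = ((g : M →ₗ[k] M) - 1) * ((h : M →ₗ[k] M) - 1) + ((g : M →ₗ[k] M) - 1) + ((h : M →ₗ[k] M) - 1) := by
          noncomm_ring
      _ = ((g : M →ₗ[k] M) - 1) + ((h : M →ₗ[k] M) - 1) := by rw [h0, zero_add]
  refine ⟨?_, ?_, ?_⟩
  · intro m
    rw [e, LinearMap.add_apply]
    exact Submodule.add_mem _ (hg.1 m) (hh.1 m)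
  · intro m hm
    rw [e, LinearMap.add_apply, hg.2.1 m hm, hh.2.1 m hm, add_zero]
  · intro c τ hτ
    have h1 := hg.2.2 c (sqUnit _ hgg c) rfl
    have h2 := hh.2.2 c (sqUnit _ hhh c) rfl
    have : τ = sqUnit _ hgg c * sqUnit _ hhh c := by
      apply Units.ext
      rw [hτ, e, Units.val_mul, sqUnit_val, sqUnit_val]
      have h3 : (c • ((g : M →ₗ[k] M) - 1)) * (c • ((h : M →ₗ[k] M) - 1)) = 0 := by
        rw [smul_mul_smul_comm, h0, smul_zero]
      calc 1 + c • (((g : M →ₗ[k] M) - 1) + ((h : M →ₗ[k] M) - 1))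
          = 1 + c • ((g : M →ₗ[k] M) - 1) + c • ((h : M →ₗ[k] M) - 1) + 0 := by
            rw [smul_add, add_zero, add_assoc]
        _ = 1 + c • ((g : M →ₗ[k] M) - 1) + c • ((h : M →ₗ[k] M) - 1) +
              (c • ((g : M →ₗ[k] M) - 1)) * (c • ((h : M →ₗ[k] M) - 1)) := by rw [h3]
        _ = (1 + c • ((g : M →ₗ[k] M) - 1)) * (1 + c • ((h : M →ₗ[k] M) - 1)) := one_add_mul_one_add _ _
    rw [this]
    exact G.mul_mem h1 h2

theorem inv_val_of_good {G : Subgroup (LinearMap.GeneralLinearGroup k M)} {σ g : LinearMap.GeneralLinearGroup k M}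
    (hRK : LinearMap.range ((σ : M →ₗ[k] M) - 1) ≤ LinearMap.ker ((σ : M →ₗ[k] M) - 1))
    (hg : Good G σ g) : ((g⁻¹ : LinearMap.GeneralLinearGroup k M) : M →ₗ[k] M) - 1 = -((g : M →ₗ[k] M) - 1) := by
  have hgg := good_mul_zero hRK hg hg
  have h1 : g * sqUnit _ hgg (-1) = 1 := by
    apply Units.ext
    rw [Units.val_mul, sqUnit_val, Units.val_one]
    calc (g : M →ₗ[k] M) * (1 + (-1 : k) • ((g : M →ₗ[k] M) - 1))
        = 1 - ((g : M →ₗ[k] M) - 1) * ((g : M →ₗ[k] M) - 1) := by
          rw [neg_one_smul]; noncomm_ring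
      _ = 1 := by rw [hgg, sub_zero]
  have h2 : g⁻¹ = sqUnit _ hgg (-1) := inv_eq_of_mul_eq_one_right h1
  rw [h2, sqUnit_val, neg_one_smul]
  noncomm_ring

theorem good_inv {G : Subgroup (LinearMap.GeneralLinearGroup k M)} {σ g : LinearMap.GeneralLinearGroup k M}
    (hRK : LinearMap.range ((σ : M →ₗ[k] M) - 1) ≤ LinearMap.ker ((σ : M →ₗ[k] M) - 1))
    (hg : Good G σ g) : Good G σ g⁻¹ := by
  have e := inv_val_of_good hRK hg
  refine ⟨?_, ?_, ?_⟩
  · intro m
    rw [e, LinearMap.neg_apply]
    exact Submodule.neg_mem _ (hg.1 m)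
  · intro m hm
    rw [e, LinearMap.neg_apply, hg.2.1 m hm, neg_zero]
  · intro c τ hτ
    apply hg.2.2 (-c) τ
    rw [hτ, e, smul_neg, neg_smul]

theorem good_of_mem {G : Subgroup (LinearMap.GeneralLinearGroup k M)} {σ τ : LinearMap.GeneralLinearGroup k M}
    (hτ : τ ∈ sameActionClass G σ) : Good G σ τ := by
  obtain ⟨⟨⟨-, -, hfam⟩, -⟩, hker, hrange⟩ := hτ
  refine ⟨?_, ?_, ?_⟩
  · intro m
    rw [← hrange]
    exact LinearMap.mem_range_self _ m
  · intro m hm
    rw [← hker] at hm
    exact LinearMap.mem_ker.1 hm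
  · intro c ρ hρ
    exact hfam ⟨c, hρ⟩

theorem good_of_mem_closure {G : Subgroup (LinearMap.GeneralLinearGroup k M)} {σ x : LinearMap.GeneralLinearGroup k M}
    (hRK : LinearMap.range ((σ : M →ₗ[k] M) - 1) ≤ LinearMap.ker ((σ : M →ₗ[k] M) - 1))
    (hx : x ∈ sameActionSubgroup G σ) : Good G σ x := by
  unfold sameActionSubgroup at hx
  induction hx using Subgroup.closure_induction with
  | mem y hy => exact good_of_mem hy
  | one => exact good_one G σ
  | mul y z _ _ hy hz => exact good_mul hRK hy hz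
  | inv y _ hy => exact good_inv hRK hy

/-- Let k be a field of characteristic not 2 with k not of order 3, M a finite-dimensional k-vector space and G ≤ GL(M) such that (G, M) is a quadratic pair (M irreducible for G, and G generated by its quadratically acting elements σ whose scalar family 1 + c(σ − 1), c ∈ k, lies in G). Write 𝒬_d for the quadratic elements of G of minimal commutator rank, E(σ) for the subgroup generated by the members of 𝒬_d with the same fixed space and commutator space as σ, and Σ for the set of these subgroups. Then for σ ∈ 𝒬_d the subgroup E(σ) consists exactly of those members together with the identity, it is abelian, and if k has prime characteristic p every element of E(σ) has order dividing p. -/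
theorem result {k : Type u} [Field k] (hk2 : ringChar k ≠ 2) (hk3 : Nat.card k ≠ 3)
    {M : Type u} [AddCommGroup M] [Module k M] [FiniteDimensional k M]
    {G : Subgroup (LinearMap.GeneralLinearGroup k M)} (hG : Cfsg.IsQuadraticPair G)
    {σ : LinearMap.GeneralLinearGroup k M} (hσ : σ ∈ Cfsg.minimalQuadraticElements G) :
    (Cfsg.sameActionSubgroup G σ : Set (LinearMap.GeneralLinearGroup k M)) = Cfsg.sameActionClass G σ ∪ {1} ∧
    IsMulCommutative ↥(Cfsg.sameActionSubgroup G σ) ∧
    (∀ p : ℕ, p.Prime → ringChar k = p → ∀ x ∈ Cfsg.sameActionSubgroup G σ, x ^ p = 1) := by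
  have hRK : LinearMap.range ((σ : M →ₗ[k] M) - 1) ≤ LinearMap.ker ((σ : M →ₗ[k] M) - 1) := by
    rintro _ ⟨m, rfl⟩
    rw [LinearMap.mem_ker, ← Module.End.mul_apply, hσ.1.2.1.1]
    rfl
  refine ⟨?_, ?_, ?_⟩
  · apply Set.Subset.antisymm
    · intro x hx
      have hgood := good_of_mem_closure hRK hx
      by_cases hx1 : x = 1
      · right
        exact hx1
      · left
        have hxx := good_mul_zero hRK hgood hgood
        have hne : (x : M →ₗ[k] M) - 1 ≠ 0 := by
          intro h0
          apply hx1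
          apply Units.ext
          rw [Units.val_one]
          exact sub_eq_zero.1 h0
        have hxG : x ∈ G := by
          apply hgood.2.2 1 x
          rw [one_smul]
          abel
        have hxq : x ∈ quadraticElements G := ⟨hxG, ⟨hxx, hne⟩, by
          rintro τ ⟨c, hc⟩
          exact hgood.2.2 c τ hc⟩
        have hle : LinearMap.range ((x : M →ₗ[k] M) - 1) ≤ LinearMap.range ((σ : M →ₗ[k] M) - 1) := by
          rintro _ ⟨m, rfl⟩
          exact hgood.1 m
        have hrk : commutatorRank σ ≤ commutatorRank x := hσ.2 x hxq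
        have hrange : LinearMap.range ((x : M →ₗ[k] M) - 1) = LinearMap.range ((σ : M →ₗ[k] M) - 1) :=
          Submodule.eq_of_le_of_finrank_le hle hrk
        have hkle : LinearMap.ker ((σ : M →ₗ[k] M) - 1) ≤ LinearMap.ker ((x : M →ₗ[k] M) - 1) := by
          intro m hm
          rw [LinearMap.mem_ker]
          exact hgood.2.1 m hm
        have hker : LinearMap.ker ((σ : M →ₗ[k] M) - 1) = LinearMap.ker ((x : M →ₗ[k] M) - 1) := by
          apply Submodule.eq_of_le_of_finrank_le hkle
          have h1 := LinearMap.finrank_range_add_finrank_ker ((x : M →ₗ[k] M) - 1)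
          have h2 := LinearMap.finrank_range_add_finrank_ker ((σ : M →ₗ[k] M) - 1)
          rw [hrange] at h1
          omega
        refine ⟨⟨hxq, ?_⟩, hker.symm, hrange⟩
        intro τ hτ
        have : commutatorRank x = commutatorRank σ := by
          unfold commutatorRank
          rw [hrange]
        rw [this]
        exact hσ.2 τ hτ
    · intro x hx
      rcases hx with hx | hx
      · exact Subgroup.subset_closure hx
      · rw [Set.mem_singleton_iff] at hx
        rw [hx]
        exact (sameActionSubgroup G σ).one_mem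
  · refine ⟨⟨fun x y => ?_⟩⟩
    have hx := good_of_mem_closure hRK x.2
    have hy := good_of_mem_closure hRK y.2
    have h1 := good_mul_zero hRK hx hy
    have h2 := good_mul_zero hRK hy hx
    apply Subtype.ext
    apply Units.ext
    show ((x : LinearMap.GeneralLinearGroup k M) : M →ₗ[k] M) * ((y : LinearMap.GeneralLinearGroup k M) : M →ₗ[k] M) =
      ((y : LinearMap.GeneralLinearGroup k M) : M →ₗ[k] M) * ((x : LinearMap.GeneralLinearGroup k M) : M →ₗ[k] M)
    have e1 : ((x : LinearMap.GeneralLinearGroup k M) : M →ₗ[k] M) * ((y : LinearMap.GeneralLinearGroup k M) : M →ₗ[k] M) =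
        (((x : LinearMap.GeneralLinearGroup k M) : M →ₗ[k] M) - 1) * (((y : LinearMap.GeneralLinearGroup k M) : M →ₗ[k] M) - 1)
          + ((x : LinearMap.GeneralLinearGroup k M) : M →ₗ[k] M) + ((y : LinearMap.GeneralLinearGroup k M) : M →ₗ[k] M) - 1 := by
      noncomm_ring
    have e2 : ((y : LinearMap.GeneralLinearGroup k M) : M →ₗ[k] M) * ((x : LinearMap.GeneralLinearGroup k M) : M →ₗ[k] M) =
        (((y : LinearMap.GeneralLinearGroup k M) : M →ₗ[k] M) - 1) * (((x : LinearMap.GeneralLinearGroup k M) : M →ₗ[k] M) - 1)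
          + ((x : LinearMap.GeneralLinearGroup k M) : M →ₗ[k] M) + ((y : LinearMap.GeneralLinearGroup k M) : M →ₗ[k] M) - 1 := by
      noncomm_ring
    rw [e1, e2, h1, h2]
  · intro p hp hchar x hx
    have hgood := good_of_mem_closure hRK hx
    have hxx := good_mul_zero hRK hgood hgood
    have hpow : ∀ j : ℕ, (x : M →ₗ[k] M) ^ j = 1 + (j : k) • ((x : M →ₗ[k] M) - 1) := by
      intro j
      induction j with
      | zero => simp
      | succ j ih =>
        rw [pow_succ, ih]
        have h3 : ((j : k) • ((x : M →ₗ[k] M) - 1)) * ((x : M →ₗ[k] M) - 1) = 0 := by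
          rw [smul_mul_assoc, hxx, smul_zero]
        calc (1 + (j : k) • ((x : M →ₗ[k] M) - 1)) * (x : M →ₗ[k] M)
            = 1 + (j : k) • ((x : M →ₗ[k] M) - 1) + ((x : M →ₗ[k] M) - 1)
                + ((j : k) • ((x : M →ₗ[k] M) - 1)) * ((x : M →ₗ[k] M) - 1) := by noncomm_ring
          _ = 1 + ((j : k) • ((x : M →ₗ[k] M) - 1) + (1 : k) • ((x : M →ₗ[k] M) - 1)) := by
            rw [h3, add_zero, one_smul, add_assoc]
          _ = 1 + ((j + 1 : ℕ) : k) • ((x : M →ₗ[k] M) - 1) := by
            rw [← add_smul]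
            push_cast
            rfl
    apply Units.ext
    rw [Units.val_pow_eq_pow_val, hpow p, Units.val_one]
    have : (p : k) = 0 := by
      rw [← hchar]
      exact ringChar.Nat.cast_ringChar
    rw [this, zero_smul, add_zero]

end Cfsg.Agent.S5059
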