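import Cfsg.Statements.S5060
import Cfsg.Agent.Lib.Helper89.SL2Adjoin

set_option autoImplicit false
open Cfsg

namespace Cfsg.Agent.S5060

open Matrix Cfsg.Agent.Lib.Helper5.SL2 Cfsg.Agent.Lib.Helper89 Cfsg.Agent.Lib.Helper89.Adj

theorem exists_good {k : Type*} [Field k] (hk2 : ringChar k ≠ 2) (hk3 : Nat.card k ≠ 3) :
    ∃ c : k, c ≠ 0 ∧ c * c ≠ 1 := by
  have h2 : (2 : k) ≠ 0 := Ring.two_ne_zero hk2
  by_cases h3 : (3 : k) = 0
  · by_contra hno
    push Not at hno
    apply hk3
    have hall : ∀ c : k, c = 0 ∨ c = 1 ∨ c = -1 := by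
      intro c
      by_cases hc : c = 0
      · left; exact hc
      · right
        have h := hno c hc
        have h' : (c - 1) * (c + 1) = 0 := by linear_combination h
        rcases mul_eq_zero.1 h' with h1 | h1
        · left; linear_combination h1
        · right; linear_combination h1
    have h01 : (0 : k) ≠ 1 := zero_ne_one
    have h0m : (0 : k) ≠ -1 := by
      intro h; apply h01; linear_combination -h
    have h1m : (1 : k) ≠ -1 := by
      intro h; apply h2; linear_combination h
    have huniv : (Set.univ : Set k) = {0, 1, -1} := by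
      ext c
      simp only [Set.mem_univ, Set.mem_insert_iff, Set.mem_singleton_iff, true_iff]
      exact hall c
    rw [← Set.ncard_univ, huniv, Set.ncard_insert_of_notMem (by
      simp only [Set.mem_insert_iff, Set.mem_singleton_iff, not_or]
      exact ⟨h01, h0m⟩), Set.ncard_pair h1m]
  · refine ⟨2, h2, ?_⟩
    intro h
    apply h3
    linear_combination h

theorem entries_mem {K : Type*} [Field K] (L : Set K) (g : SpecialLinearGroup (Fin 2) K)
    (h00 : g.1 0 0 ∈ L) (h01 : g.1 0 1 ∈ L) (h10 : g.1 1 0 ∈ L) (h11 : g.1 1 1 ∈ L) :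
    ∀ i j : Fin 2, g.1 i j ∈ L := by
  intro i j
  fin_cases i <;> fin_cases j <;> assumption

theorem word_eq {K : Type*} [Field K] (g : SpecialLinearGroup (Fin 2) K) (h : g.1 1 0 ≠ 0) :
    g = uSL ((g.1 0 0 - 1) / g.1 1 0) * lSL (g.1 1 0) * uSL ((g.1 1 1 - 1) / g.1 1 0) := by
  have hd := sl_det g
  apply sl_ext <;>
    simp only [sl_mul_00, sl_mul_01, sl_mul_10, sl_mul_11, uSL_00, uSL_01, uSL_10, uSL_11,
      lSL_00, lSL_01, lSL_10, lSL_11] <;> field_simp <;>
    first | ring1 | linear_combination hd | linear_combination -hd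

/-- Let k ⊆ K be fields with the characteristic of k not 2 and k not of order 3, and let α ∈ K be a non-zero element algebraic over k. Then the subgroup of SL₂(K) generated by the upper unitriangular matrices with entry c and the lower unitriangular matrices with entry cα, c ranging over k, is exactly the group of matrices of SL₂(K) with all entries in k(α). -/
theorem result {k K : Type*} [Field k] [Field K] [Algebra k K] (hk2 : ringChar k ≠ 2) (hk3 : Nat.card k ≠ 3)
    (α : K) (hα : IsAlgebraic k α) (hα0 : α ≠ 0) :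
    (Subgroup.closure ({g : Matrix.SpecialLinearGroup (Fin 2) K | ∃ c : k, (g : Matrix (Fin 2) (Fin 2) K) = !![1, algebraMap k K c; 0, 1]} ∪
        {g : Matrix.SpecialLinearGroup (Fin 2) K | ∃ c : k, (g : Matrix (Fin 2) (Fin 2) K) = !![1, 0; algebraMap k K c * α, 1]}) :
      Set (Matrix.SpecialLinearGroup (Fin 2) K)) =
    {g : Matrix.SpecialLinearGroup (Fin 2) K | ∀ i j : Fin 2, (g : Matrix (Fin 2) (Fin 2) K) i j ∈ IntermediateField.adjoin k ({α} : Set K)} := by
  have h2 : (2 : k) ≠ 0 := Ring.two_ne_zero hk2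
  have h3 := exists_good hk2 hk3
  have hgens : ({g : Matrix.SpecialLinearGroup (Fin 2) K | ∃ c : k, (g : Matrix (Fin 2) (Fin 2) K) = !![1, algebraMap k K c; 0, 1]} ∪
        {g : Matrix.SpecialLinearGroup (Fin 2) K | ∃ c : k, (g : Matrix (Fin 2) (Fin 2) K) = !![1, 0; algebraMap k K c * α, 1]}) = gens k α := by
    ext g
    constructor
    · rintro (⟨c, hc⟩ | ⟨c, hc⟩)
      · exact Or.inl ⟨c, Subtype.ext (hc.trans (uSL_coe _).symm)⟩
      · exact Or.inr ⟨c, Subtype.ext (hc.trans (lSL_coe _).symm)⟩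
    · rintro (⟨c, rfl⟩ | ⟨c, rfl⟩)
      · exact Or.inl ⟨c, uSL_coe _⟩
      · exact Or.inr ⟨c, lSL_coe _⟩
  rw [hgens]
  have hαL : α ∈ IntermediateField.adjoin k ({α} : Set K) :=
    IntermediateField.mem_adjoin_simple_self k α
  have hkL : ∀ c : k, algebraMap k K c ∈ IntermediateField.adjoin k ({α} : Set K) :=
    fun c => IntermediateField.algebraMap_mem _ c
  ext g
  constructor
  · intro hg
    have hg' : g ∈ Subgroup.closure (gens k α) := hg
    clear hg
    induction hg' using Subgroup.closure_induction with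
    | mem x hx =>
      rcases hx with ⟨c, rfl⟩ | ⟨c, rfl⟩
      · apply entries_mem
        · rw [uSL_00]; exact one_mem _
        · rw [uSL_01]; exact hkL c
        · rw [uSL_10]; exact zero_mem _
        · rw [uSL_11]; exact one_mem _
      · apply entries_mem
        · rw [lSL_00]; exact one_mem _
        · rw [lSL_01]; exact zero_mem _
        · rw [lSL_10]; exact mul_mem (hkL c) hαL
        · rw [lSL_11]; exact one_mem _
    | one =>
      apply entries_mem
      · rw [sl_one_00]; exact one_mem _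
      · rw [sl_one_01]; exact zero_mem _
      · rw [sl_one_10]; exact zero_mem _
      · rw [sl_one_11]; exact one_mem _
    | mul x y _ _ hx hy =>
      have hx' : ∀ i j : Fin 2, x.1 i j ∈ IntermediateField.adjoin k ({α} : Set K) := hx
      have hy' : ∀ i j : Fin 2, y.1 i j ∈ IntermediateField.adjoin k ({α} : Set K) := hy
      apply entries_mem
      · rw [sl_mul_00]; exact add_mem (mul_mem (hx' 0 0) (hy' 0 0)) (mul_mem (hx' 0 1) (hy' 1 0))
      · rw [sl_mul_01]; exact add_mem (mul_mem (hx' 0 0) (hy' 0 1)) (mul_mem (hx' 0 1) (hy' 1 1))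
      · rw [sl_mul_10]; exact add_mem (mul_mem (hx' 1 0) (hy' 0 0)) (mul_mem (hx' 1 1) (hy' 1 0))
      · rw [sl_mul_11]; exact add_mem (mul_mem (hx' 1 0) (hy' 0 1)) (mul_mem (hx' 1 1) (hy' 1 1))
    | inv x _ hx =>
      have hx' : ∀ i j : Fin 2, x.1 i j ∈ IntermediateField.adjoin k ({α} : Set K) := hx
      apply entries_mem
      · rw [sl_inv_00]; exact hx' 1 1
      · rw [sl_inv_01]; exact neg_mem (hx' 0 1)
      · rw [sl_inv_10]; exact neg_mem (hx' 1 0)
      · rw [sl_inv_11]; exact hx' 0 0
  · intro hg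
    show g ∈ HH k α
    have hg' : ∀ i j : Fin 2, g.1 i j ∈ IntermediateField.adjoin k ({α} : Set K) := hg
    have main : ∀ g : SpecialLinearGroup (Fin 2) K,
        (∀ i j : Fin 2, g.1 i j ∈ IntermediateField.adjoin k ({α} : Set K)) → g.1 1 0 ≠ 0 →
        g ∈ HH k α := by
      intro g hg h10
      rw [word_eq g h10]
      have ha : (g.1 0 0 - 1) / g.1 1 0 ∈ IntermediateField.adjoin k ({α} : Set K) :=
        div_mem (sub_mem (hg 0 0) (one_mem _)) (hg 1 0)
      have hb : (g.1 1 1 - 1) / g.1 1 0 ∈ IntermediateField.adjoin k ({α} : Set K) :=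
        div_mem (sub_mem (hg 1 1) (one_mem _)) (hg 1 0)
      exact (HH k α).mul_mem ((HH k α).mul_mem (uSL_lSL_mem_HH h2 h3 α hα hα0 ha).1
        (uSL_lSL_mem_HH h2 h3 α hα hα0 (hg 1 0)).2) (uSL_lSL_mem_HH h2 h3 α hα hα0 hb).1
    by_cases h10 : g.1 1 0 = 0
    · have hl1 : lSL (1 : K) ∈ HH k α := (uSL_lSL_mem_HH h2 h3 α hα hα0 (one_mem _)).2
      have hg2 : lSL (1 : K) * g ∈ HH k α := by
        apply main
        · apply entries_mem
          · rw [sl_mul_00, lSL_00, lSL_01]
            exact add_mem (mul_mem (one_mem _) (hg' 0 0)) (mul_mem (zero_mem _) (hg' 1 0))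
          · rw [sl_mul_01, lSL_00, lSL_01]
            exact add_mem (mul_mem (one_mem _) (hg' 0 1)) (mul_mem (zero_mem _) (hg' 1 1))
          · rw [sl_mul_10, lSL_10, lSL_11]
            exact add_mem (mul_mem (one_mem _) (hg' 0 0)) (mul_mem (one_mem _) (hg' 1 0))
          · rw [sl_mul_11, lSL_10, lSL_11]
            exact add_mem (mul_mem (one_mem _) (hg' 0 1)) (mul_mem (one_mem _) (hg' 1 1))
        · rw [sl_mul_10, lSL_10, lSL_11, h10]
          simpa using upper_00_ne_zero h10
      have := (HH k α).mul_mem ((HH k α).inv_mem hl1) hg2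
      rwa [inv_mul_cancel_left] at this
    · exact main g hg' h10

end Cfsg.Agent.S5060
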