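import Cfsg.Statements.S5061
import Cfsg.Agent.Lib.Helper40.UnipBS

set_option autoImplicit false
open Cfsg

namespace Cfsg.Agent.S5061

open Cfsg.Agent.Lib.Helper40.UBS

theorem isUnipotentOn_iff {k : Type*} [Field k] {M : Type*} [AddCommGroup M] [Module k M]
    (H : Subgroup (LinearMap.GeneralLinearGroup k M)) :
    Cfsg.IsUnipotentOn H ↔ IsNil (aug (k := k) (R := M →ₗ[k] M) H) := by
  rw [← unipotent_iff]
  unfold Cfsg.IsUnipotentOn
  have key : ∀ l : List (LinearMap.GeneralLinearGroup k M),
      (List.map (fun g : M →ₗ[k] M => g - 1) (do let a ← l; pure (a : M →ₗ[k] M))) =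
        l.map (fun g : LinearMap.GeneralLinearGroup k M => (g : M →ₗ[k] M) - 1) := by
    intro l
    have h2 : ∀ l : List (LinearMap.GeneralLinearGroup k M),
        List.flatMap (fun a : LinearMap.GeneralLinearGroup k M => [(a : M →ₗ[k] M)]) l =
          l.map (fun a : LinearMap.GeneralLinearGroup k M => (a : M →ₗ[k] M)) := by
      intro l
      induction l with
      | nil => rfl
      | cons a l ih => simp [List.flatMap_cons, ih]
    simp [h2]
  constructor
  · rintro ⟨n, hn⟩
    refine ⟨n, fun l hl hlen => ?_⟩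
    have := hn l hl hlen
    rw [key] at this
    exact this
  · rintro ⟨n, hn⟩
    refine ⟨n, fun l hl hlen => ?_⟩
    rw [key]
    exact hn l hl hlen

/-- Let M be a finite-dimensional vector space over a field k, G ≤ GL(M), and 𝒲 a set of subgroups of G, invariant under conjugation by G, such that any two members of 𝒲 generate a subgroup acting unipotently on M (for some n all products of n endomorphisms g − 1 from it vanish). Then the subgroup generated by all members of 𝒲 acts unipotently on M and is normal in G. -/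
theorem result {k : Type*} [Field k] {M : Type*} [AddCommGroup M] [Module k M] [FiniteDimensional k M]
    {G : Subgroup (LinearMap.GeneralLinearGroup k M)} {W : Set (Subgroup (LinearMap.GeneralLinearGroup k M))} (hWG : ∀ A ∈ W, A ≤ G)
    (hWW : ∀ A ∈ W, ∀ B ∈ W, Cfsg.IsUnipotentOn (A ⊔ B)) (hWconj : ∀ A ∈ W, ∀ g ∈ G, Cfsg.conjBy A g ∈ W) :
    Cfsg.IsUnipotentOn (⨆ A ∈ W, A) ∧ ∀ g ∈ G, Cfsg.conjBy (⨆ A ∈ W, A) g = ⨆ A ∈ W, A := by
  constructor
  · rw [isUnipotentOn_iff, ← sSup_eq_iSup]
    refine nil_sSup W (fun A hA B hB => (isUnipotentOn_iff _).mp (hWW A hA B hB)) ?_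
    intro A hA B hB g hg
    exact hWconj A hA g (hWG B hB hg)
  · intro g hg
    apply le_antisymm
    · unfold Cfsg.conjBy
      rw [Subgroup.map_le_iff_le_comap]
      refine iSup₂_le fun A hA => ?_
      rw [← Subgroup.map_le_iff_le_comap]
      exact le_iSup₂_of_le (Cfsg.conjBy A g) (hWconj A hA g hg) le_rfl
    · refine iSup₂_le fun A hA => ?_
      have h1 : Cfsg.conjBy A g⁻¹ ∈ W := hWconj A hA g⁻¹ (G.inv_mem hg)
      have h2 : A = Cfsg.conjBy (Cfsg.conjBy A g⁻¹) g := by
        unfold Cfsg.conjBy
        rw [Subgroup.map_map]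
        ext x
        simp only [Subgroup.mem_map, MonoidHom.comp_apply, MulEquiv.coe_toMonoidHom,
          MulAut.conj_apply, inv_inv]
        constructor
        · intro hx
          exact ⟨x, hx, by group⟩
        · rintro ⟨y, hy, rfl⟩
          have : g * (g⁻¹ * y * g) * g⁻¹ = y := by group
          rw [this]; exact hy
      rw [h2]
      exact Subgroup.map_mono (le_iSup₂_of_le (Cfsg.conjBy A g⁻¹) h1 le_rfl)

end Cfsg.Agent.S5061
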