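-- Statement S5067: normal closures of abelian generating subgroups have smaller class.
import Mathlib
import Cfsg.Statements.S5067

set_option autoImplicit false
open Cfsg

namespace Cfsg.Agent.S5067

open scoped commutatorElement

variable {P : Type*} [Group P]

/-- commutators of the normal closure of an abelian subgroup lie in the third term of the lower
central series. -/
theorem comm_normalClosure_le {E : Subgroup P} (hE : IsMulCommutative ↥E) :
    ⁅Subgroup.normalClosure (E : Set P), Subgroup.normalClosure (E : Set P)⁆ ≤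
      (⊤ : Subgroup P).lowerCentralSeries 2 := by
  set Z : Subgroup P := (⊤ : Subgroup P).lowerCentralSeries 2 with hZ
  have hZn : Z.Normal := by rw [hZ]; infer_instance
  let π := QuotientGroup.mk' Z
  -- images of commutators are central in the quotient
  have hcen : ∀ w ∈ ⁅(⊤ : Subgroup P), (⊤ : Subgroup P)⁆, ∀ q : P ⧸ Z, q * π w = π w * q := by
    intro w hw q
    obtain ⟨t, rfl⟩ := QuotientGroup.mk'_surjective Z q
    have h1 : ⁅w, t⁆ ∈ Z := Subgroup.commutator_mem_commutator hw (Subgroup.mem_top t)
    have h2 : π ⁅w, t⁆ = 1 := (QuotientGroup.eq_one_iff _).2 h1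
    rw [commutatorElement_def, map_mul, map_mul, map_mul, map_inv, map_inv] at h2
    have h3 : π w * π t = π t * π w := by
      have := congrArg (fun z => z * π t * π w) h2
      simpa [mul_assoc] using this
    exact h3.symm
  have hcomm : ∀ x ∈ π '' (Group.conjugatesOfSet (E : Set P)), ∀ y ∈ π '' (Group.conjugatesOfSet (E : Set P)),
      x * y = y * x := by
    rintro _ ⟨x, hx, rfl⟩ _ ⟨y, hy, rfl⟩
    rw [Group.mem_conjugatesOfSet_iff] at hx hy
    obtain ⟨a, ha, hax⟩ := hx
    obtain ⟨b, hb, hby⟩ := hy
    rw [isConj_iff] at hax hby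
    obtain ⟨g, rfl⟩ := hax
    obtain ⟨h, rfl⟩ := hby
    have e1 : g * a * g⁻¹ = ⁅g, a⁆ * a := by simp [commutatorElement_def]
    have e2 : h * b * h⁻¹ = ⁅h, b⁆ * b := by simp [commutatorElement_def]
    have hw1 : ⁅g, a⁆ ∈ ⁅(⊤ : Subgroup P), (⊤ : Subgroup P)⁆ :=
      Subgroup.commutator_mem_commutator (Subgroup.mem_top _) (Subgroup.mem_top _)
    have hw2 : ⁅h, b⁆ ∈ ⁅(⊤ : Subgroup P), (⊤ : Subgroup P)⁆ :=
      Subgroup.commutator_mem_commutator (Subgroup.mem_top _) (Subgroup.mem_top _)
    have hab : a * b = b * a := by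
      have := mul_comm' (⟨a, ha⟩ : E) ⟨b, hb⟩
      exact congrArg Subtype.val this
    have c1 := hcen _ hw1
    have c2 := hcen _ hw2
    rw [e1, e2, map_mul, map_mul]
    have hab' : π a * π b = π b * π a := by rw [← map_mul, ← map_mul, hab]
    calc π ⁅g, a⁆ * π a * (π ⁅h, b⁆ * π b)
        = π ⁅g, a⁆ * (π a * π ⁅h, b⁆) * π b := by simp only [mul_assoc]
      _ = π ⁅g, a⁆ * (π ⁅h, b⁆ * π a) * π b := by rw [c2 (π a)]
      _ = π ⁅g, a⁆ * π ⁅h, b⁆ * (π a * π b) := by simp only [mul_assoc]
      _ = π ⁅h, b⁆ * π ⁅g, a⁆ * (π b * π a) := by rw [c2 (π ⁅g, a⁆), hab']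
      _ = π ⁅h, b⁆ * (π ⁅g, a⁆ * π b) * π a := by simp only [mul_assoc]
      _ = π ⁅h, b⁆ * (π b * π ⁅g, a⁆) * π a := by rw [c1 (π b)]
      _ = π ⁅h, b⁆ * π b * (π ⁅g, a⁆ * π a) := by simp only [mul_assoc]
  have hNmap : (Subgroup.normalClosure (E : Set P)).map π =
      Subgroup.closure (π '' (Group.conjugatesOfSet (E : Set P))) := by
    unfold Subgroup.normalClosure
    rw [MonoidHom.map_closure]
  have hcommN : IsMulCommutative ((Subgroup.normalClosure (E : Set P)).map π) := by
    rw [hNmap]
    exact ⟨⟨fun x y => by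
      have := Subgroup.closure_induction₂ (p := fun x y _ _ => x * y = y * x)
        (fun x y hx hy => hcomm x hx y hy)
        (fun x _ => by simp) (fun x _ => by simp)
        (fun x y z _ _ _ h1 h2 => by rw [mul_assoc, h2, ← mul_assoc, h1, mul_assoc])
        (fun x y z _ _ _ h1 h2 => by rw [← mul_assoc, h1, mul_assoc, h2, ← mul_assoc])
        (fun x y _ _ h1 => by
          have := congrArg (fun z => x⁻¹ * z * x⁻¹) h1
          simpa [mul_assoc] using this.symm)
        (fun x y _ _ h1 => by
          have := congrArg (fun z => y⁻¹ * z * y⁻¹) h1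
          simpa [mul_assoc] using this.symm)
        x.2 y.2
      exact Subtype.ext this⟩⟩
  have h5 : ⁅(Subgroup.normalClosure (E : Set P)).map π, (Subgroup.normalClosure (E : Set P)).map π⁆ = ⊥ := by
    rw [Subgroup.commutator_eq_bot_iff_le_centralizer]
    exact Subgroup.le_centralizer_iff_isMulCommutative.2 hcommN
  rw [← Subgroup.map_commutator] at h5
  intro x hx
  have h6 : π x ∈ (⊥ : Subgroup (P ⧸ Z)) := by
    rw [← h5]
    exact Subgroup.mem_map_of_mem π hx
  rw [Subgroup.mem_bot] at h6
  exact (QuotientGroup.eq_one_iff x).1 h6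

theorem lcs_normalClosure_le {E : Subgroup P} (hE : IsMulCommutative ↥E) (n : ℕ) :
    (Subgroup.normalClosure (E : Set P)).lowerCentralSeries (n + 1) ≤
      (⊤ : Subgroup P).lowerCentralSeries (n + 2) := by
  induction n with
  | zero => exact comm_normalClosure_le hE
  | succ n ih =>
    rw [Subgroup.lowerCentralSeries_succ, Subgroup.lowerCentralSeries_succ (⊤ : Subgroup P) (n + 2)]
    exact Subgroup.commutator_mono ih le_top

theorem class_normalClosure_lt [Group.IsNilpotent P] (hna : ¬ IsMulCommutative P) {E : Subgroup P}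
    (hE : IsMulCommutative ↥E) :
    Group.nilpotencyClass ↥(Subgroup.normalClosure (E : Set P)) < Group.nilpotencyClass P := by
  have hc2 : 2 ≤ Group.nilpotencyClass P := by
    by_contra h
    apply hna
    rw [← Group.IsNilpotent.nilpotencyClass_le_one_iff]
    omega
  obtain ⟨c, hc⟩ : ∃ c, Group.nilpotencyClass P = c + 2 := ⟨Group.nilpotencyClass P - 2, by omega⟩
  have h1 : Group.nilpotencyClass ↥(Subgroup.normalClosure (E : Set P)) ≤ c + 1 := by
    rw [← Subgroup.lowerCentralSeries_eq_bot_iff_nilpotencyClass_le,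
      ← (Subgroup.map_injective (Subgroup.subtype_injective _)).eq_iff, Subgroup.map_bot,
      Subgroup.top_subtype_lowerCentralSeries, eq_bot_iff]
    have h2 : (⊤ : Subgroup P).lowerCentralSeries (c + 2) = ⊥ := by
      rw [Subgroup.lowerCentralSeries_eq_bot_iff_nilpotencyClass_le, hc]
    rw [← h2]
    exact lcs_normalClosure_le hE c
  omega

/-- Let P be a non-abelian nilpotent p-group (every element of p-power order; P possibly infinite) generated by two abelian subgroups E and F. Then the normal closure of E in P, and likewise that of F, has nilpotency class strictly smaller than that of P. -/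
theorem result {P : Type*} [Group P] {p : ℕ} [Fact p.Prime] (hP : IsPGroup p P) [Group.IsNilpotent P]
    (hna : ¬ IsMulCommutative P) {E F : Subgroup P} (hE : IsMulCommutative ↥E) (hF : IsMulCommutative ↥F) (hgen : E ⊔ F = ⊤) :
    Group.nilpotencyClass ↥(Subgroup.normalClosure (E : Set P)) < Group.nilpotencyClass P ∧
    Group.nilpotencyClass ↥(Subgroup.normalClosure (F : Set P)) < Group.nilpotencyClass P := by
  exact ⟨class_normalClosure_lt hna hE, class_normalClosure_lt hna hF⟩

end Cfsg.Agent.S5067
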