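import Cfsg.Statements.S5078
import Cfsg.Agent.Lib.Helper84.FusionBasic

set_option autoImplicit false
open Cfsg

namespace Cfsg.Agent.S5078

open Cfsg.Agent.Lib.Helper84 Cfsg.FusionSystem

/-- In any fusion system over a finite subgroup S, a receptive subgroup is fully centralized. -/
theorem result {Ω : Type*} [Group Ω] {S : Subgroup Ω} [Finite S] (F : Cfsg.FusionSystem S) (P : Subgroup Ω) (hP : F.IsReceptive P) : F.IsFullyCentralized P := by
  refine ⟨hP.1, ?_⟩
  intro Q hQ
  obtain ⟨ψ, hψ, hψr⟩ := isConj_symm F hQ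
  obtain ⟨χ, hχ, hχψ⟩ := hP.2 Q ψ hψ hψr
  have hQS : Q ≤ S := hom_le F hψ
  have hCN : centralizerIn S Q ≤ extender S Q ψ := centralizerIn_le_extender S Q ψ
  have hQN : Q ≤ extender S Q ψ := le_extender hQS ψ (hom_mem_S F hψ)
  have hfin : Finite (centralizerIn S P) := finite_of_le (centralizerIn_le S P)
  have key : ∀ c : centralizerIn S Q, χ (Subgroup.inclusion hCN c) ∈ centralizerIn S P := by
    intro c
    rw [mem_centralizerIn]
    refine ⟨hom_mem_S F hχ _, ?_⟩
    intro p hp
    rw [← hψr] at hp
    obtain ⟨q, rfl⟩ := hp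
    have h1 : ψ q = χ (Subgroup.inclusion hQN q) := (hχψ q q.2 (hQN q.2)).symm
    rw [h1, ← map_mul, ← map_mul]
    congr 1
    apply Subtype.ext
    have hc := (mem_centralizerIn.1 c.2).2 q q.2
    exact hc
  let f : centralizerIn S Q → centralizerIn S P := fun c => ⟨χ (Subgroup.inclusion hCN c), key c⟩
  have hf : Function.Injective f := by
    intro c d hcd
    have h1 : χ (Subgroup.inclusion hCN c) = χ (Subgroup.inclusion hCN d) := congrArg Subtype.val hcd
    have h2 := F.injective_of_mem hχ h1
    exact Subgroup.inclusion_injective hCN h2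
  exact Nat.card_le_card_of_injective f hf

end Cfsg.Agent.S5078
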