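-- Statement S5080: essential subgroups are radical.
import Cfsg.Statements.S5080
import Cfsg.Agent.Lib.Helper84.FusionBasic
import Cfsg.Agent.Lib.Helper84.PCoreBasic

set_option autoImplicit false
open Cfsg

namespace Cfsg.Agent.S5080

open Cfsg.Agent.Lib.Helper84 Cfsg.FusionSystem

/-- In a saturated fusion system over a finite p-group, every essential subgroup is radical (it is centric and fully normalized by definition, so it is centric-radical and fully normalized). -/
theorem result {Ω : Type*} [Group Ω] {S : Subgroup Ω} [Finite S] (p : ℕ) [Fact p.Prime] (hS : IsPGroup p S) (F : Cfsg.FusionSystem S) (hF : F.IsSaturated p) (P : Subgroup Ω) (hP : F.IsEssential p P) : F.IsRadical p P := by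
  obtain ⟨hcen, -, hnorm, E, hE⟩ := hP
  have hPS : P ≤ S := hcen.1
  refine ⟨hPS, ?_⟩
  have hfinP : Finite P := finite_of_le hPS
  have hPp : IsPGroup p P := hS.to_le hPS
  have hInn : Inn P ≤ F.autGroup P := inn_le_autGroup F hPS
  have hOut : pCore p (F.autGroup P ⧸ (Inn P).subgroupOf (F.autGroup P)) = ⊥ :=
    pCore_eq_bot_of_stronglyPEmbedded hE
  have h1 : pCore p (F.autGroup P) ≤ (Inn P).subgroupOf (F.autGroup P) := by
    have hmap : (pCore p (F.autGroup P)).map (QuotientGroup.mk' ((Inn P).subgroupOf (F.autGroup P))) ≤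
        pCore p (F.autGroup P ⧸ (Inn P).subgroupOf (F.autGroup P)) := by
      apply le_pCore
      · exact Subgroup.Normal.map inferInstance _ (QuotientGroup.mk'_surjective _)
      · exact (pCore_isPGroup p _).map _
    rw [hOut] at hmap
    intro x hx
    have : QuotientGroup.mk' ((Inn P).subgroupOf (F.autGroup P)) x ∈ (⊥ : Subgroup _) :=
      hmap ⟨x, hx, rfl⟩
    rw [Subgroup.mem_bot] at this
    exact (QuotientGroup.eq_one_iff x).1 this
  have h2 : (Inn P).subgroupOf (F.autGroup P) ≤ pCore p (F.autGroup P) := by
    apply le_pCore hnorm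
    exact (inn_isPGroup hPp).comap_subtype
  have h3 : pCore p (F.autGroup P) = (Inn P).subgroupOf (F.autGroup P) := le_antisymm h1 h2
  rw [h3]
  exact Subgroup.map_subgroupOf_eq_of_le hInn

end Cfsg.Agent.S5080
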