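import Cfsg.Statements.S5083
import Cfsg.Agent.Lib.Helper87.FusionMore
-- import your own Cfsg.Agent.* helpers here

set_option autoImplicit false
open Cfsg

namespace Cfsg.Agent.S5083

/-- If F is a saturated fusion system over a finite p-group S in which Aut_F(P) is a p-group for every P ≤ S, then F is the inner fusion system of S (all its maps are conjugations by elements of S). -/
theorem result {Ω : Type*} [Group Ω] {S : Subgroup Ω} [Finite S] (p : ℕ) [Fact p.Prime] (hS : IsPGroup p S) (F : Cfsg.FusionSystem S) (hF : F.IsSaturated p) (h : ∀ P : Subgroup Ω, P ≤ S → IsPGroup p (F.autGroup P)) : F = Cfsg.innerFusionSystem S := by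
  apply Lib.Helper87.fusionSystem_ext
  exact Lib.Helper87.inner_of_autGroup_pGroup hS F hF (fun R _ hrec _ _ => h R hrec.1)

end Cfsg.Agent.S5083
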