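-- Statement S5085: a characteristic subgroup of a subgroup normal in the system is normal in the system.
import Cfsg.Statements.S5085
import Cfsg.Agent.Lib.Helper84.FusionBasic

set_option autoImplicit false
open Cfsg

namespace Cfsg.Agent.S5085

open Cfsg.Agent.Lib.Helper84 Cfsg.FusionSystem

/-- In any fusion system, a characteristic subgroup of a subgroup that is normal in the system is itself normal in the system. -/
theorem result {Ω : Type*} [Group Ω] {S : Subgroup Ω} (F : Cfsg.FusionSystem S) (Q U : Subgroup Ω) (hQ : F.IsNormal Q) (hUQ : U ≤ Q) (hU : (U.subgroupOf Q).Characteristic) : F.IsNormal U := by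
  refine ⟨hUQ.trans hQ.1, ?_⟩
  intro P φ hφ
  obtain ⟨ψ, hψ, hψφ, hψQ⟩ := hQ.2 P φ hφ
  have hle : P ⊔ U ≤ P ⊔ Q := sup_le_sup_left hUQ P
  -- ψ maps Q into Q
  have hQQ : ∀ q : Q, ψ (Subgroup.inclusion le_sup_right q) ∈ Q := by
    intro q
    have : ψ (Subgroup.inclusion le_sup_right q) ∈ (Q.subgroupOf (P ⊔ Q)).map ψ := by
      refine ⟨Subgroup.inclusion le_sup_right q, ?_, rfl⟩
      rw [SetLike.mem_coe, Subgroup.mem_subgroupOf]
      exact q.2
    rwa [hψQ] at this
  let f : Q →* Q := (ψ.comp (Subgroup.inclusion le_sup_right)).codRestrict Q hQQ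
  have hfinj : Function.Injective f := by
    intro a b hab
    have h1 : ψ (Subgroup.inclusion le_sup_right a) = ψ (Subgroup.inclusion le_sup_right b) :=
      congrArg Subtype.val hab
    exact Subgroup.inclusion_injective _ (F.injective_of_mem hψ h1)
  have hfsurj : Function.Surjective f := by
    intro q
    have hq : (q : Ω) ∈ (Q.subgroupOf (P ⊔ Q)).map ψ := by rw [hψQ]; exact q.2
    obtain ⟨y, hy, hyq⟩ := hq
    rw [SetLike.mem_coe, Subgroup.mem_subgroupOf] at hy
    refine ⟨⟨y, hy⟩, ?_⟩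
    apply Subtype.ext
    show ψ (Subgroup.inclusion le_sup_right ⟨(y : Ω), hy⟩) = q
    rw [← hyq]
    rfl
  let α : Q ≃* Q := MulEquiv.ofBijective f ⟨hfinj, hfsurj⟩
  have hfix := hU.fixed α
  have hiff : ∀ q : Q, (f q : Ω) ∈ U ↔ (q : Ω) ∈ U := by
    intro q
    have h1 : q ∈ (U.subgroupOf Q).comap α.toMonoidHom ↔ q ∈ U.subgroupOf Q := by rw [hfix]
    rw [Subgroup.mem_comap, Subgroup.mem_subgroupOf, Subgroup.mem_subgroupOf] at h1
    exact h1
  refine ⟨ψ.comp (Subgroup.inclusion hle), res_mem F hψ hle, ?_, ?_⟩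
  · intro x
    rw [← hψφ x]
    rfl
  · apply le_antisymm
    · rintro _ ⟨y, hy, rfl⟩
      rw [SetLike.mem_coe, Subgroup.mem_subgroupOf] at hy
      have := (hiff ⟨y, hUQ hy⟩).2 hy
      exact this
    · intro u hu
      obtain ⟨q, hq⟩ := hfsurj ⟨u, hUQ hu⟩
      have hqU : (q : Ω) ∈ U := by
        rw [← hiff q, hq]
        exact hu
      refine ⟨⟨q, (le_sup_right : U ≤ P ⊔ U) hqU⟩, ?_, ?_⟩
      · rw [SetLike.mem_coe, Subgroup.mem_subgroupOf]
        exact hqU
      · have := congrArg Subtype.val hq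
        exact this

end Cfsg.Agent.S5085
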