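import Cfsg.Statements.S5088
import Cfsg.Agent.Lib.Helper87.FusionMore
-- import your own Cfsg.Agent.* helpers here

set_option autoImplicit false
open Cfsg

namespace Cfsg.Agent.S5088

/-- In a saturated fusion system over a finite p-group, a subgroup Q is normal in the system if and only if there is a chain of subgroups 1 = Q₀ ≤ Q₁ ≤ ⋯ ≤ Qₙ = Q such that each Qᵢ with i ≥ 1 is strongly closed in the system and [Q, Qᵢ] ≤ Qᵢ₋₁. -/
theorem result {Ω : Type*} [Group Ω] {S : Subgroup Ω} [Finite S] (p : ℕ) [Fact p.Prime] (hS : IsPGroup p S) (F : Cfsg.FusionSystem S) (hF : F.IsSaturated p) (Q : Subgroup Ω) : F.IsNormal Q ↔ ∃ (n : ℕ) (Qs : Fin (n + 1) → Subgroup Ω), Qs 0 = ⊥ ∧ Qs (Fin.last n) = Q ∧ Monotone Qs ∧ ∀ i : Fin n, F.StronglyClosed (Qs i.succ) ∧ ⁅Q, Qs i.succ⁆ ≤ Qs (Fin.castSucc i) := by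
  constructor
  · intro hQ
    have hQS : Q ≤ S := hQ.1
    have hfinQ : Finite Q := Lib.Helper87.finite_of_le hQS
    have hnil : Group.IsNilpotent Q := (hS.to_le hQS).isNilpotent
    obtain ⟨n, hn⟩ := hnil.nilpotent'
    refine ⟨n, fun i => (Subgroup.upperCentralSeries Q (i : ℕ)).map Q.subtype, ?_, ?_, ?_, ?_⟩
    · show (Subgroup.upperCentralSeries Q 0).map Q.subtype = ⊥
      rw [Subgroup.upperCentralSeries_zero, Subgroup.map_bot]
    · show (Subgroup.upperCentralSeries Q n).map Q.subtype = Q
      rw [hn]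
      ext y
      constructor
      · rintro ⟨x, -, rfl⟩
        exact x.2
      · intro hy
        exact ⟨⟨y, hy⟩, Subgroup.mem_top _, rfl⟩
    · intro i j hij
      exact Subgroup.map_mono (Subgroup.upperCentralSeries_mono Q hij)
    · intro i
      refine ⟨Lib.Helper87.isNormal_char_stronglyClosed F hQ _, ?_⟩
      rw [Subgroup.commutator_comm, Subgroup.commutator_le]
      rintro _ ⟨z, hz, rfl⟩ q hq
      have h1 : z * ⟨q, hq⟩ * z⁻¹ * (⟨q, hq⟩ : Q)⁻¹ ∈ Subgroup.upperCentralSeries Q (i : ℕ) :=
        (Subgroup.mem_upperCentralSeries_succ_iff.1 hz) ⟨q, hq⟩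
      exact ⟨_, h1, rfl⟩
  · rintro ⟨n, C, hC0, hCn, hmono, hstep⟩
    have hQ : F.StronglyClosed Q := by
      rcases Nat.eq_zero_or_pos n with h0 | hpos
      · subst h0
        have : Q = ⊥ := by
          rw [← hCn, ← hC0]
          rfl
        rw [this]
        exact Lib.Helper87.stronglyClosed_bot F
      · have h1 := (hstep ⟨n - 1, by omega⟩).1
        have h2 : (⟨n - 1, by omega⟩ : Fin n).succ = Fin.last n := by
          apply Fin.ext
          simp only [Fin.val_succ, Fin.val_last]
          omega
        rw [h2, hCn] at h1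
        exact h1
    refine Lib.Helper87.isNormal_of_chain hS F hF hQ
      (fun j => if h : j ≤ n then C ⟨j, Nat.lt_succ_of_le h⟩ else Q) n ?_ ?_ ?_ ?_ ?_
    · simp only [Nat.zero_le, dite_true]
      exact hC0
    · intro j hj
      by_cases h : j ≤ n
      · have hjn : j = n := le_antisymm h hj
        subst hjn
        simp only [le_refl, dite_true]
        exact hCn
      · simp only [h, dite_false]
    · intro j
      by_cases h : j ≤ n
      · simp only [h, dite_true]
        rw [← hCn]
        exact hmono (Fin.le_last _)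
      · simp only [h, dite_false]
        exact le_rfl
    · intro j hj
      have h1 : j + 1 ≤ n := hj
      have h2 : j ≤ n := hj.le
      simp only [h1, h2, dite_true]
      rw [Subgroup.commutator_comm]
      exact (hstep ⟨j, hj⟩).2
    · intro j hj
      have h2 : j ≤ n := hj.le
      simp only [h2, dite_true]
      rcases Nat.eq_zero_or_pos j with h0 | hpos
      · subst h0
        have : C ⟨0, Nat.lt_succ_of_le h2⟩ = ⊥ := hC0
        rw [this]
        exact Lib.Helper87.stronglyClosed_weaklyClosed F (Lib.Helper87.stronglyClosed_bot F)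
      · have h1 := (hstep ⟨j - 1, by omega⟩).1
        have h3 : (⟨j - 1, by omega⟩ : Fin n).succ = ⟨j, Nat.lt_succ_of_le h2⟩ := by
          apply Fin.ext
          simp only [Fin.val_succ]
          omega
        rw [h3] at h1
        exact Lib.Helper87.stronglyClosed_weaklyClosed F h1

end Cfsg.Agent.S5088
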