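import Cfsg.Statements.S5089
import Cfsg.Agent.Lib.Helper87.FusionMore
-- import your own Cfsg.Agent.* helpers here

set_option autoImplicit false
open Cfsg

namespace Cfsg.Agent.S5089

/-- A saturated fusion system over a finite p-group has a nontrivial subgroup that is normal in the system (O_p(F) ≠ 1) if and only if some nontrivial abelian subgroup is strongly closed in the system. -/
theorem result {Ω : Type*} [Group Ω] {S : Subgroup Ω} [Finite S] (p : ℕ) [Fact p.Prime] (hS : IsPGroup p S) (F : Cfsg.FusionSystem S) (hF : F.IsSaturated p) : F.core ≠ ⊥ ↔ ∃ Q : Subgroup Ω, Q ≠ ⊥ ∧ IsMulCommutative Q ∧ F.StronglyClosed Q := by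
  constructor
  · intro hcore
    have hex : ∃ Q : Subgroup Ω, F.IsNormal Q ∧ Q ≠ ⊥ := by
      by_contra hcon
      push Not at hcon
      apply hcore
      rw [eq_bot_iff]
      apply sSup_le
      intro Q hQ
      rw [hcon Q hQ]
    obtain ⟨Q, hQ, hQne⟩ := hex
    have hQS : Q ≤ S := hQ.1
    have hfinQ : Finite Q := Lib.Helper87.finite_of_le hQS
    have hpQ : IsPGroup p Q := hS.to_le hQS
    have hnt : Nontrivial Q := by
      rw [← Subgroup.nontrivial_iff_ne_bot] at hQne
      exact hQne
    have hZnt : Nontrivial (Subgroup.center Q) := hpQ.center_nontrivial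
    refine ⟨(Subgroup.center Q).map Q.subtype, ?_, ?_, Lib.Helper87.isNormal_char_stronglyClosed F hQ _⟩
    · obtain ⟨z, hz⟩ := exists_ne (1 : Subgroup.center Q)
      intro hbot
      apply hz
      have h1 : ((z : Q) : Ω) ∈ (Subgroup.center Q).map Q.subtype := ⟨z, z.2, rfl⟩
      rw [hbot, Subgroup.mem_bot] at h1
      apply Subtype.ext
      apply Subtype.ext
      exact h1
    · refine ⟨⟨?_⟩⟩
      rintro ⟨_, a, ha, rfl⟩ ⟨_, b, hb, rfl⟩
      apply Subtype.ext
      show ((a : Q) : Ω) * (b : Q) = (b : Q) * (a : Q)
      have h1 : b * a = a * b := (Subgroup.mem_center_iff.1 ha) b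
      have h2 := congrArg Subtype.val h1
      exact h2.symm
  · rintro ⟨Q, hQne, hcomm, hQ⟩
    have hN : F.IsNormal Q := by
      refine Lib.Helper87.isNormal_of_chain hS F hF hQ (fun j => if j = 0 then ⊥ else Q) 1
        ?_ ?_ ?_ ?_ ?_
      · simp
      · intro j hj
        have : j ≠ 0 := by omega
        simp [this]
      · intro j
        by_cases h : j = 0
        · simp [h]
        · simp [h]
      · intro j hj
        have h0 : j = 0 := by omega
        subst h0
        simp only [zero_add, one_ne_zero, if_false, if_true]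
        rw [Subgroup.commutator_le]
        intro a ha b hb
        rw [Subgroup.mem_bot]
        have h1 : (⟨a, ha⟩ : Q) * ⟨b, hb⟩ = ⟨b, hb⟩ * ⟨a, ha⟩ := hcomm.is_comm.comm _ _
        have h2 : a * b = b * a := congrArg Subtype.val h1
        rw [commutatorElement_def, h2]
        group
      · intro j hj
        have h0 : j = 0 := by omega
        subst h0
        simp only [if_true]
        exact Lib.Helper87.stronglyClosed_weaklyClosed F (Lib.Helper87.stronglyClosed_bot F)
    intro hcore
    apply hQne
    rw [eq_bot_iff, ← hcore]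
    exact le_sSup hN

end Cfsg.Agent.S5089
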