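import Cfsg.Statements.S5102
-- import your own Cfsg.Agent.* helpers here
import Cfsg.Agent.Lib.Helper85.FusionBasic

set_option autoImplicit false
open Cfsg

namespace Cfsg.Agent.S5102

open Cfsg.FusionSystem Cfsg.Agent.Lib.Helper85

/-- A normal p-subgroup of a finite group G is normal in the fusion system of G on a Sylow p-subgroup. -/
theorem result {G : Type*} [Group G] [Finite G] (p : ℕ) [Fact p.Prime] (S : Sylow p G) (R : Subgroup G) [R.Normal] (hR : IsPGroup p R) : (Cfsg.groupFusionSystem (S : Subgroup G)).IsNormal R := by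
  have hRn : R.Normal := inferInstance
  have hRS : R ≤ (S : Subgroup G) := hR.le_sylow_of_normal S
  refine ⟨hRS, ?_⟩
  rintro P φ ⟨hP, hφS, g, hg⟩
  have hg' : ∀ x : ↥(P ⊔ R), g * (x : G) * g⁻¹ ∈ (S : Subgroup G) := by
    intro x
    have h1 := map_sup_mem (φ' := conjHom (P ⊔ R) g) (R := (S : Subgroup G)) (Q' := R)
      (fun x hx => by
        have := hφS ⟨x, hx⟩
        rw [hg] at this
        exact this)
      (fun x hx => hRn.conj_mem _ hx g) x
    rw [sup_eq_left.mpr hRS] at h1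
    exact h1
  refine ⟨conjHom (P ⊔ R) g, ⟨sup_le hP hRS, hg', g, fun x => rfl⟩, fun x => (hg x).symm, ?_⟩
  ext y
  constructor
  · rintro ⟨x, hx, rfl⟩
    exact hRn.conj_mem _ (Subgroup.mem_subgroupOf.mp hx) g
  · intro hy
    have hy' : g⁻¹ * y * g ∈ R := by simpa using hRn.conj_mem _ hy g⁻¹
    refine ⟨⟨g⁻¹ * y * g, Subgroup.mem_sup_right hy'⟩, Subgroup.mem_subgroupOf.mpr hy', ?_⟩
    show g * (g⁻¹ * y * g) * g⁻¹ = y
    group

end Cfsg.Agent.S5102
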