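import Cfsg.Statements.S5103
-- import your own Cfsg.Agent.* helpers here
import Cfsg.Agent.Lib.Helper85.Realized
import Cfsg.Agent.Lib.Helper85.FusionNormal

set_option autoImplicit false
open Cfsg

namespace Cfsg.Agent.S5103

/-- A fusion system over a finite p-group that has a model (a finite group realizing it on a Sylow p-subgroup with self-centralizing largest normal p-subgroup) is constrained. -/
theorem result {Ω : Type*} [Group Ω] {S : Subgroup Ω} [Finite S] (p : ℕ) [Fact p.Prime] (hS : IsPGroup p S) (F : Cfsg.FusionSystem S) {G : Type*} [Group G] (ι : S →* G) (hG : F.IsModel p G ι) : F.IsConstrained p := by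
  classical
  open Cfsg.FusionSystem Cfsg.Agent.Lib.Helper85 in
  obtain ⟨hfin, hreal, ⟨T, hT⟩, hcent⟩ := hG
  have hsat := Cfsg.Agent.Lib.Helper85.realized_isSaturated hreal T hT
  obtain ⟨hinj, hr⟩ := hreal
  have hQn : (pCore p G).Normal := Subgroup.sSup_normal _ (fun H hH => hH.1)
  have hQT : pCore p G ≤ (T : Subgroup G) :=
    sSup_le (fun N hN => by haveI := hN.1; exact hN.2.le_sylow_of_normal T)
  have hQr : pCore p G ≤ ι.range := hT ▸ hQT
  have hQS : Cfsg.Agent.Lib.Helper85.preSub ι (pCore p G) ≤ S :=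
    Cfsg.Agent.Lib.Helper85.preSub_le _ _
  refine ⟨hsat, Cfsg.Agent.Lib.Helper85.preSub ι (pCore p G), ⟨hQS, ?_⟩, hQS, ?_⟩
  · -- normal
    intro P φ hφ
    have hP := (F.le_of_mem hφ).1
    have hφS := (F.le_of_mem hφ).2
    obtain ⟨g, hg⟩ := (hr P hP φ hφS).mp hφ
    have hPQ : P ⊔ Cfsg.Agent.Lib.Helper85.preSub ι (pCore p G) ≤ S := sup_le hP hQS
    have hle : P ⊔ Cfsg.Agent.Lib.Helper85.preSub ι (pCore p G) ≤
        Cfsg.Agent.Lib.Helper85.preSub ι (ι.range.comap (MulAut.conj g).toMonoidHom) := by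
      refine sup_le ?_ ?_
      · intro x hx
        refine Cfsg.Agent.Lib.Helper85.mem_preSub.mpr ⟨hP hx, ?_⟩
        show g * ι ⟨x, hP hx⟩ * g⁻¹ ∈ ι.range
        rw [← hg ⟨x, hx⟩]; exact ⟨_, rfl⟩
      · intro x hx
        obtain ⟨hxS, hxQ⟩ := Cfsg.Agent.Lib.Helper85.mem_preSub.mp hx
        refine Cfsg.Agent.Lib.Helper85.mem_preSub.mpr ⟨hxS, ?_⟩
        show g * ι ⟨x, hxS⟩ * g⁻¹ ∈ ι.range
        exact hQr (hQn.conj_mem _ hxQ g)
    have hval : ∀ x : ↥(P ⊔ Cfsg.Agent.Lib.Helper85.preSub ι (pCore p G)),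
        g * ι ⟨x, hPQ x.2⟩ * g⁻¹ ∈ ι.range := fun x =>
      (Cfsg.Agent.Lib.Helper85.mem_preSub.mp (hle x.2)).2
    obtain ⟨ψ, hψS, hψ⟩ := Cfsg.Agent.Lib.Helper85.exists_lift_conj hinj hPQ g hval
    refine ⟨ψ, (hr _ hPQ ψ hψS).mpr ⟨g, hψ⟩, ?_, ?_⟩
    · intro x
      have h1 := hψ (Subgroup.inclusion le_sup_left x)
      have h2 := hg x
      have h3 : ι ⟨ψ (Subgroup.inclusion le_sup_left x), hψS _⟩ = ι ⟨φ x, hφS x⟩ :=
        h1.trans h2.symm
      exact Subtype.mk.inj (hinj h3)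
    · rw [Cfsg.Agent.Lib.Helper85.map_subgroupOf_eq_iff]
      constructor
      · intro x hx
        refine Cfsg.Agent.Lib.Helper85.mem_preSub.mpr ⟨hψS x, ?_⟩
        rw [hψ]
        exact hQn.conj_mem _ (Cfsg.Agent.Lib.Helper85.mem_preSub.mp hx).2 g
      · intro y hy
        obtain ⟨hyS, hyQ⟩ := Cfsg.Agent.Lib.Helper85.mem_preSub.mp hy
        have h1 : g⁻¹ * ι ⟨y, hyS⟩ * g ∈ pCore p G := by
          have := hQn.conj_mem _ hyQ g⁻¹
          simpa using this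
        obtain ⟨x, hx⟩ := hQr h1
        have hxQ : (x : Ω) ∈ Cfsg.Agent.Lib.Helper85.preSub ι (pCore p G) :=
          Cfsg.Agent.Lib.Helper85.mem_preSub.mpr ⟨x.2, by rw [← hx] at h1; exact h1⟩
        refine ⟨⟨x, Subgroup.mem_sup_right hxQ⟩, hxQ, ?_⟩
        have h2 := hψ ⟨x, Subgroup.mem_sup_right hxQ⟩
        have h3 : ι ⟨ψ ⟨x, Subgroup.mem_sup_right hxQ⟩, hψS _⟩ = ι ⟨y, hyS⟩ := by
          rw [h2]
          show g * ι x * g⁻¹ = _
          rw [hx]; group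
        exact Subtype.mk.inj (hinj h3)
  · -- centric
    intro Q' hQQ'
    obtain ⟨φ, hφ, rfl⟩ := hQQ'
    have hφS := (F.le_of_mem hφ).2
    obtain ⟨g, hg⟩ := (hr _ hQS φ hφS).mp hφ
    have hrange : φ.range = Cfsg.Agent.Lib.Helper85.preSub ι (pCore p G) := by
      have hle : φ.range ≤ Cfsg.Agent.Lib.Helper85.preSub ι (pCore p G) := by
        rintro _ ⟨x, rfl⟩
        refine Cfsg.Agent.Lib.Helper85.mem_preSub.mpr ⟨hφS x, ?_⟩
        rw [hg]
        exact hQn.conj_mem _ (Cfsg.Agent.Lib.Helper85.map_mem_of_mem_preSub x) g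
      haveI : Finite ↥(Cfsg.Agent.Lib.Helper85.preSub ι (pCore p G)) :=
        Cfsg.Agent.Lib.Helper85.finite_of_le hQS
      apply Subgroup.eq_of_le_of_card_ge hle
      exact (Nat.card_congr (MonoidHom.ofInjective (F.injective_of_mem hφ)).toEquiv).le
    rw [hrange]
    intro s hs
    obtain ⟨hsS, hsC⟩ := Subgroup.mem_inf.mp hs
    refine Cfsg.Agent.Lib.Helper85.mem_preSub.mpr ⟨hsS, ?_⟩
    apply hcent
    rw [Subgroup.mem_centralizer_iff]
    intro y hy
    obtain ⟨x, rfl⟩ := hQr hy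
    have hxQ : (x : Ω) ∈ Cfsg.Agent.Lib.Helper85.preSub ι (pCore p G) :=
      Cfsg.Agent.Lib.Helper85.mem_preSub.mpr ⟨x.2, hy⟩
    have := Subgroup.mem_centralizer_iff.mp hsC x hxQ
    rw [← map_mul, ← map_mul]
    congr 1
    exact Subtype.ext this

end Cfsg.Agent.S5103
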