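import Cfsg.Statements.S5105
-- import your own Cfsg.Agent.* helpers here
import Mathlib

set_option autoImplicit false
open Cfsg

namespace Cfsg.Agent.S5105

theorem aut_eq_conj_of_fix_sylow {G : Type*} [Group G] [Finite G] {p : ℕ} [Fact p.Prime]
    (T : Sylow p G) (C : Subgroup G) [hCn : C.Normal] (hCT : C ≤ (T : Subgroup G))
    (hab : ∀ a ∈ C, ∀ b ∈ C, a * b = b * a) (ψ : G ≃* G)
    (hψT : ∀ x ∈ (T : Subgroup G), ψ x = x) (hψC : ∀ g : G, g⁻¹ * ψ g ∈ C) :
    ∃ v ∈ C, ∀ g : G, ψ g = v * g * v⁻¹ := by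
  classical
  letI : CommGroup ↥C :=
    { (inferInstance : Group ↥C) with mul_comm := fun a b => Subtype.ext (hab a a.2 b b.2) }
  letI : Fintype (G ⧸ (T : Subgroup G)) := Fintype.ofFinite _
  have hw : ∀ g : G, ψ g * g⁻¹ ∈ C := by
    intro g
    have := hCn.conj_mem _ (hψC g) g
    simpa [mul_assoc] using this
  let w : G → ↥C := fun g => ⟨ψ g * g⁻¹, hw g⟩
  have hwT : ∀ (a b : G), a⁻¹ * b ∈ (T : Subgroup G) → w a = w b := by
    intro a b hab'
    apply Subtype.ext
    show ψ a * a⁻¹ = ψ b * b⁻¹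
    have h1 := hψT _ hab'
    rw [map_mul, map_inv] at h1
    have : ψ b = ψ a * (a⁻¹ * b) := by rw [← h1]; group
    rw [this]
    group
  let W : G ⧸ (T : Subgroup G) → ↥C := fun c =>
    Quotient.liftOn' c w (fun a b hab' => hwT a b (QuotientGroup.leftRel_apply.mp hab'))
  have hcocycle : ∀ h g : G, w (h * g) = w h * (MulAut.conjNormal h : MulAut ↥C) (w g) := by
    intro h g
    apply Subtype.ext
    show ψ (h * g) * (h * g)⁻¹ = ψ h * h⁻¹ * (h * (ψ g * g⁻¹) * h⁻¹)
    rw [map_mul]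
    group
  have hWsmul : ∀ (h : G) (c : G ⧸ (T : Subgroup G)),
      W (h • c) = w h * (MulAut.conjNormal h : MulAut ↥C) (W c) := by
    intro h c
    induction c using QuotientGroup.induction_on with
    | H g => exact hcocycle h g
  have hkey : ∀ h : G, (∏ c : G ⧸ (T : Subgroup G), W c) =
      w h ^ Fintype.card (G ⧸ (T : Subgroup G)) *
        (MulAut.conjNormal h : MulAut ↥C) (∏ c : G ⧸ (T : Subgroup G), W c) := by
    intro h
    calc (∏ c : G ⧸ (T : Subgroup G), W c)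
        = ∏ c : G ⧸ (T : Subgroup G), W (h • c) :=
          (Equiv.prod_comp (MulAction.toPerm h) W).symm
      _ = ∏ c : G ⧸ (T : Subgroup G), (w h * (MulAut.conjNormal h : MulAut ↥C) (W c)) := by
          simp only [hWsmul]
      _ = _ := by
          rw [Finset.prod_mul_distrib, Finset.prod_const, Finset.card_univ, map_prod]
  have hcop : (Nat.card ↥C).Coprime (Fintype.card (G ⧸ (T : Subgroup G))) := by
    have hC : IsPGroup p C := T.isPGroup'.to_le hCT
    obtain ⟨k, hk⟩ := IsPGroup.iff_card.mp hC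
    rw [hk]
    apply Nat.Coprime.pow_left
    rw [Nat.Prime.coprime_iff_not_dvd Fact.out]
    have : Fintype.card (G ⧸ (T : Subgroup G)) = (T : Subgroup G).index := by
      rw [Subgroup.index, Nat.card_eq_fintype_card]
    rw [this]
    exact T.not_dvd_index
  obtain ⟨v, hv⟩ : ∃ v : ↥C, v ^ Fintype.card (G ⧸ (T : Subgroup G)) =
      ∏ c : G ⧸ (T : Subgroup G), W c :=
    ⟨(powCoprime hcop).symm _, (powCoprime hcop).apply_symm_apply _⟩
  refine ⟨v, v.2, fun h => ?_⟩
  have h1 : w h ^ Fintype.card (G ⧸ (T : Subgroup G)) =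
      (v * ((MulAut.conjNormal h : MulAut ↥C) v)⁻¹) ^ Fintype.card (G ⧸ (T : Subgroup G)) := by
    have := hkey h
    rw [mul_pow, inv_pow, ← map_pow, hv, eq_mul_inv_iff_mul_eq]
    exact this.symm
  have h2 : w h = v * ((MulAut.conjNormal h : MulAut ↥C) v)⁻¹ := (powCoprime hcop).injective h1
  have h3 : ψ h * h⁻¹ = (v : G) * (h * (v : G) * h⁻¹)⁻¹ := congrArg Subtype.val h2
  generalize (v : G) = v' at h3 ⊢
  calc ψ h = ψ h * h⁻¹ * h := by group
    _ = v' * (h * v' * h⁻¹)⁻¹ * h := by rw [h3]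
    _ = v' * h * v'⁻¹ := by group

/-- Model Theorem, rigidity: if G is a model of a constrained fusion system over a finite p-group S (through ι : S → G), then every automorphism of G fixing ι(S) elementwise is conjugation by ι(z) for some z in the centre of S. -/
theorem result {Ω : Type*} [Group Ω] {S : Subgroup Ω} [Finite S] (p : ℕ) [Fact p.Prime] (hS : IsPGroup p S) (F : Cfsg.FusionSystem S) (hF : F.IsConstrained p) {G : Type*} [Group G] (ι : S →* G) (hG : F.IsModel p G ι) (ψ : G ≃* G) (hψ : ∀ x : S, ψ (ι x) = ι x) : ∃ z : S, z ∈ Subgroup.center S ∧ ∀ g : G, ψ g = ι z * g * (ι z)⁻¹ := by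
  obtain ⟨hfin, ⟨hinj, -⟩, ⟨T, hT⟩, hcent⟩ := hG
  haveI := hfin
  haveI hQn : (pCore p G).Normal := Subgroup.sSup_normal _ (fun H hH => hH.1)
  have hQT : pCore p G ≤ (T : Subgroup G) :=
    sSup_le (fun N hN => by haveI := hN.1; exact hN.2.le_sylow_of_normal T)
  have hψT : ∀ x ∈ (T : Subgroup G), ψ x = x := by
    intro x hx
    rw [hT] at hx
    obtain ⟨s, rfl⟩ := hx
    exact hψ s
  have hCT : Subgroup.centralizer ((pCore p G : Subgroup G) : Set G) ≤ (T : Subgroup G) :=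
    hcent.trans hQT
  have hab : ∀ a ∈ Subgroup.centralizer ((pCore p G : Subgroup G) : Set G),
      ∀ b ∈ Subgroup.centralizer ((pCore p G : Subgroup G) : Set G), a * b = b * a := by
    intro a ha b hb
    exact (Subgroup.mem_centralizer_iff.mp ha b (hcent hb)).symm
  have hψC : ∀ g : G, g⁻¹ * ψ g ∈ Subgroup.centralizer ((pCore p G : Subgroup G) : Set G) := by
    intro g
    rw [Subgroup.mem_centralizer_iff]
    intro x hx
    have h1 : g * x * g⁻¹ ∈ pCore p G := hQn.conj_mem x hx g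
    have h2 := hψT _ (hQT h1)
    rw [map_mul, map_mul, map_inv, hψT x (hQT hx)] at h2
    calc x * (g⁻¹ * ψ g) = g⁻¹ * (g * x * g⁻¹) * ψ g := by group
      _ = g⁻¹ * (ψ g * x * (ψ g)⁻¹) * ψ g := by rw [h2]
      _ = g⁻¹ * ψ g * x := by group
  obtain ⟨v, hvC, hv⟩ := aut_eq_conj_of_fix_sylow T _ hCT hab ψ hψT hψC
  have hvT : v ∈ ι.range := by rw [← hT]; exact hCT hvC
  obtain ⟨z, rfl⟩ := hvT
  refine ⟨z, ?_, hv⟩
  rw [Subgroup.mem_center_iff]
  intro s
  apply hinj
  have h1 := hv (ι s)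
  rw [hψ s] at h1
  rw [map_mul, map_mul]
  calc ι s * ι z = (ι z * ι s * (ι z)⁻¹) * ι z := by rw [← h1]
    _ = ι z * ι s := by group

end Cfsg.Agent.S5105
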