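import Cfsg.Statements.S5106
import Cfsg.Agent.Lib.Helper89.FusionExtra

set_option autoImplicit false
open Cfsg

namespace Cfsg.Agent.S5106

open Cfsg.FusionSystem Cfsg.Agent.Lib.Helper87 Cfsg.Agent.Lib.Helper89

/-- The chain `P ≥ P ⊓ R ≥ ⊥`. -/
def chain2 {Ω : Type*} [Group Ω] (P R : Subgroup Ω) : ℕ → Subgroup Ω
  | 0 => P
  | 1 => P ⊓ R
  | _ => ⊥

/-- Automorphisms of `P` in the system which are trivial modulo `R` and act on `P ⊓ R` as
conjugation by an element of `R`. -/
def innMod {Ω : Type*} [Group Ω] {S : Subgroup Ω} (F : FusionSystem S) {R : Subgroup Ω}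
    (hR : F.StronglyClosed R) {P : Subgroup Ω} (hP : P ≤ S) : Subgroup (MulAut P) where
  carrier := {β | β ∈ F.autGroup P ∧ β ∈ trivMod R P ∧
    ∃ r ∈ R, ∀ x : P, (x : Ω) ∈ R → ((β x : P) : Ω) = r * x * r⁻¹}
  one_mem' := ⟨one_mem _, one_mem _, 1, R.one_mem, fun x _ => by simp⟩
  mul_mem' := by
    rintro a b ⟨ha, ha1, r, hr, har⟩ ⟨hb, hb1, t, ht, hbt⟩
    refine ⟨mul_mem ha hb, mul_mem ha1 hb1, r * t, R.mul_mem hr ht, fun x hx => ?_⟩
    show ((a (b x) : P) : Ω) = _
    have hbx : ((b x : P) : Ω) ∈ R := by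
      rw [hbt x hx]
      exact R.mul_mem (R.mul_mem ht hx) (R.inv_mem ht)
    rw [har (b x) hbx, hbt x hx]
    group
  inv_mem' := by
    rintro a ⟨ha, ha1, r, hr, har⟩
    refine ⟨inv_mem ha, inv_mem ha1, r⁻¹, R.inv_mem hr, fun x hx => ?_⟩
    have hax : ((a⁻¹ x : P) : Ω) ∈ R := stronglyClosed_aut_mem F hR hP (inv_mem ha) x hx
    have h1 := har (a⁻¹ x) hax
    rw [MulAut.apply_inv_self] at h1
    rw [h1]
    group

/-- In a saturated fusion system over a finite p-group S, a subgroup R ≤ S is normal in the system if and only if every map of the system whose source is a subgroup of R is the restriction of an element of Aut_F(R). -/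
theorem result {Ω : Type*} [Group Ω] {S : Subgroup Ω} [Finite S] (p : ℕ) [Fact p.Prime] (hS : IsPGroup p S) (F : Cfsg.FusionSystem S) (hF : F.IsSaturated p) (R : Subgroup Ω) (hRS : R ≤ S) : F.IsNormal R ↔ ∀ (P : Subgroup Ω) (hPR : P ≤ R) (φ : P →* Ω), φ ∈ F.Hom P → ∃ α ∈ F.autGroup R, ∀ x : P, ((α (Subgroup.inclusion hPR x) : R) : Ω) = φ x := by
  constructor
  · intro hN P hPR φ hφ
    obtain ⟨ψ, hψ, hext, hmap⟩ := hN.2 P φ hφ
    rw [map_subgroupOf_eq_iff le_sup_right] at hmap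
    have hψ' := hom_restrict F (le_sup_right : R ≤ P ⊔ R) hψ
    have hrange : (ψ.comp (Subgroup.inclusion (le_sup_right : R ≤ P ⊔ R))).range = R := by
      ext y
      constructor
      · rintro ⟨x, rfl⟩
        exact hmap.1 x x.2
      · intro hy
        obtain ⟨q', hq', h⟩ := hmap.2 y hy
        exact ⟨⟨q', hq'⟩, h⟩
    refine ⟨isoOfHom _ (F.injective_of_mem hψ') hrange, ?_, ?_⟩
    · rw [mem_autGroup_iff F hRS]
      have h1 : R.subtype.comp
          (isoOfHom _ (F.injective_of_mem hψ') hrange : MulAut R).toMonoidHom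
          = ψ.comp (Subgroup.inclusion (le_sup_right : R ≤ P ⊔ R)) :=
        subtype_comp_isoOfHom _ (F.injective_of_mem hψ') hrange
      rw [h1]
      exact hψ'
    · intro x
      rw [← hext x]
      rfl
  · intro hyp
    have hRs : F.StronglyClosed R := by
      refine ⟨hRS, fun P hPR φ hφ x => ?_⟩
      obtain ⟨α, -, hα⟩ := hyp P hPR φ hφ
      rw [← hα x]
      exact (α _).2
    have hRn : S ≤ Subgroup.normalizer (R : Set Ω) := stronglyClosed_le_normalizer F hRs
    obtain ⟨s, hs⟩ := hS.exists_card_eq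
    have hexpS : ∀ x : S, x ^ p ^ s = 1 := by
      intro x
      rw [← hs]
      exact pow_card_eq_one'
    have hexpΩ : ∀ x : Ω, x ∈ S → x ^ p ^ s = 1 := by
      intro x hx
      have h1 := hexpS ⟨x, hx⟩
      have h2 := congrArg Subtype.val h1
      simpa using h2
    have claim : ∀ P : Subgroup Ω, F.IsCentric P → F.IsRadical p P → R ≤ P := by
      intro P hc hr
      have hP : P ≤ S := hc.1
      by_contra hnot
      obtain ⟨g, hgR, hgN, hgP⟩ := exists_mem_normalizer_not_mem hS hRS hRn hP hnot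
      have hgS : g ∈ S := hRS hgR
      have hBn : ∀ α ∈ F.autGroup P, ∀ β ∈ innMod F hRs hP, α * β * α⁻¹ ∈ innMod F hRs hP := by
        rintro α hα β ⟨hβ, hβ1, r, hr, hβr⟩
        refine ⟨mul_mem (mul_mem hα hβ) (inv_mem hα), ?_, ?_⟩
        · have hnorm := trivMod_normal F hRs hP
          have h1 := hnorm.conj_mem ⟨β, hβ⟩ (Subgroup.mem_subgroupOf.2 hβ1) ⟨α, hα⟩
          exact Subgroup.mem_subgroupOf.1 h1
        · have hαF := (mem_autGroup_iff F hP α).1 hα
          have hφ₀ := hom_restrict F (inf_le_left : P ⊓ R ≤ P) hαF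
          obtain ⟨γ, -, hγ⟩ := hyp (P ⊓ R) inf_le_right _ hφ₀
          have key : ∀ z : P, ∀ hz : (z : Ω) ∈ R, ((α z : P) : Ω) = ((γ ⟨z, hz⟩ : R) : Ω) :=
            fun z hz => (hγ ⟨z, ⟨z.2, hz⟩⟩).symm
          refine ⟨((γ ⟨r, hr⟩ : R) : Ω), (γ ⟨r, hr⟩).2, fun x hx => ?_⟩
          show ((α (β (α⁻¹ x)) : P) : Ω) = _
          have hy : ((α⁻¹ x : P) : Ω) ∈ R :=
            stronglyClosed_aut_mem F hRs hP (inv_mem hα) x hx
          have hβy : ((β (α⁻¹ x) : P) : Ω) ∈ R := by
            rw [hβr _ hy]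
            exact R.mul_mem (R.mul_mem hr hy) (R.inv_mem hr)
          have h2 : (⟨((β (α⁻¹ x) : P) : Ω), hβy⟩ : R)
              = ⟨r, hr⟩ * ⟨((α⁻¹ x : P) : Ω), hy⟩ * (⟨r, hr⟩ : R)⁻¹ :=
            Subtype.ext (hβr _ hy)
          rw [key _ hβy, h2, map_mul, map_mul, map_inv]
          have h3 : ((γ ⟨((α⁻¹ x : P) : Ω), hy⟩ : R) : Ω) = x := by
            rw [← key _ hy, MulAut.apply_inv_self]
          show ((γ ⟨r, hr⟩ : R) : Ω) * ((γ ⟨((α⁻¹ x : P) : Ω), hy⟩ : R) : Ω)
            * ((γ ⟨r, hr⟩ : R) : Ω)⁻¹ = _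
          rw [h3]
      have hBp : IsPGroup p ↥(innMod F hRs hP) := by
        rintro ⟨β, hβ, hβ1, r, hr, hβr⟩
        have hpow : ∀ n : ℕ, ∀ x : P, (x : Ω) ∈ R →
            (((β ^ n) x : P) : Ω) = r ^ n * x * (r ^ n)⁻¹ := by
          intro n
          induction n with
          | zero => intro x _; simp
          | succ n ih =>
            intro x hx
            have hβx : ((β x : P) : Ω) ∈ R := by
              rw [hβr x hx]
              exact R.mul_mem (R.mul_mem hr hx) (R.inv_mem hr)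
            rw [pow_succ, MulAut.mul_apply, ih (β x) hβx, hβr x hx, pow_succ]
            group
        have hfix : ∀ x : P, (x : Ω) ∈ R → (β ^ p ^ s) x = x := by
          intro x hx
          apply Subtype.ext
          rw [hpow (p ^ s) x hx, hexpΩ r (hRS hr)]
          simp
        have hfix' : ∀ x : P, (x : Ω) ∈ R → (β ^ p ^ s)⁻¹ x = x := by
          intro x hx
          have h2 : (β ^ p ^ s)⁻¹ ((β ^ p ^ s) x) = x := MulAut.inv_apply_self _ _ x
          rw [hfix x hx] at h2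
          exact h2
        have htm : β ^ p ^ s ∈ trivMod R P := pow_mem hβ1 _
        have htm' : (β ^ p ^ s)⁻¹ ∈ trivMod R P := inv_mem htm
        have hmem : β ^ p ^ s ∈ chainStab P (chain2 P R) 2 := by
          intro k hk x hx
          rcases k with _ | _ | k
          · refine ⟨((β ^ p ^ s) x).2, ((β ^ p ^ s)⁻¹ x).2, ⟨?_, htm x⟩, ⟨?_, htm' x⟩⟩
            · exact P.mul_mem (P.inv_mem x.2) ((β ^ p ^ s) x).2
            · exact P.mul_mem (P.inv_mem x.2) ((β ^ p ^ s)⁻¹ x).2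
          · have hx' : (x : Ω) ∈ R := hx.2
            rw [hfix x hx', hfix' x hx']
            refine ⟨hx, hx, ?_, ?_⟩
            · show (x : Ω)⁻¹ * (x : Ω) ∈ (⊥ : Subgroup Ω)
              simp
            · show (x : Ω)⁻¹ * (x : Ω) ∈ (⊥ : Subgroup Ω)
              simp
          · omega
        have hexp : ∀ x : P, x ^ p ^ s = 1 := by
          intro x
          apply Subtype.ext
          have h2 := hexpΩ x (hP x.2)
          simpa using h2
        have hXm : ∀ x : P, (x : Ω) ∈ chain2 P R 2 → x = 1 := by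
          intro x hx
          have hx' : (x : Ω) ∈ (⊥ : Subgroup Ω) := hx
          rw [Subgroup.mem_bot] at hx'
          exact Subtype.ext hx'
        obtain ⟨N, hN⟩ := chainStab_pow_eq_one (chain2 P R) 2 s hexp le_rfl hXm hmem
        refine ⟨s + N, Subtype.ext ?_⟩
        show β ^ p ^ (s + N) = 1
        rw [pow_add, pow_mul]
        exact hN
      have hcg : conjAut P g hgN ∈ innMod F hRs hP := by
        refine ⟨autInducedBy_le_autGroup F hP (conjAut_mem_autInducedBy S P hgS hgN), ?_,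
          g, hgR, fun x _ => rfl⟩
        intro x
        show (x : Ω)⁻¹ * (g * (x : Ω) * g⁻¹) ∈ R
        have h1 : (x : Ω)⁻¹ * g * (x : Ω)⁻¹⁻¹ ∈ R :=
          stronglyClosed_conj_mem F hRs (S.inv_mem (hP x.2)) hgR
        have h2 : (x : Ω)⁻¹ * (g * (x : Ω) * g⁻¹) = (x : Ω)⁻¹ * g * (x : Ω)⁻¹⁻¹ * g⁻¹ := by group
        rw [h2]
        exact R.mul_mem h1 (R.inv_mem hgR)
      have hBA : innMod F hRs hP ≤ F.autGroup P := fun β hβ => hβ.1
      exact hgP (mem_of_conjAut_mem_normal_pSubgroup F hc hr _ hBA hBn hBp hgS hgN hcg)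
    refine isNormal_of_le_normSystem F hRS hRn ?_
    refine alperin hS F hF _ ?_
    intro P hfa hrec hc hr _ α hα
    have hP : P ≤ S := hrec.1
    exact isIso_normSystem_of_le F hRS hRn hP (claim P hc hr) hα
      (fun x hx => stronglyClosed_aut_mem F hRs hP hα x hx)
      (fun x hx => stronglyClosed_aut_mem F hRs hP ((F.autGroup P).inv_mem hα) x hx)

end Cfsg.Agent.S5106
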