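import Cfsg.Statements.S5107
import Cfsg.Agent.Lib.Helper87.FusionNormal
import Cfsg.Agent.Lib.Helper86.GroupFusion

set_option autoImplicit false
open Cfsg

namespace Cfsg.Agent.S5107

open Cfsg.FusionSystem Cfsg.Agent.Lib.Helper87

/-- The chain `⊥ ≤ Z ≤ S ≤ S ≤ ⋯`. -/
def chainZ {G : Type*} [Group G] (Z S : Subgroup G) : ℕ → Subgroup G
  | 0 => ⊥
  | 1 => Z
  | _ => S

/-- If a Sylow p-subgroup S of a finite group G has nilpotency class at most two and its centre is strongly closed in S with respect to G, then every map of the fusion system of G on S is conjugation by an element of N_G(S), and S is the largest subgroup normal in that fusion system. -/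
theorem result {G : Type*} [Group G] [Finite G] (p : ℕ) [Fact p.Prime] (S : Sylow p G) (hcl : ⁅(S : Subgroup G), (S : Subgroup G)⁆ ≤ (S : Subgroup G) ⊓ Subgroup.centralizer ((S : Subgroup G) : Set G)) (hZ : Cfsg.IsStronglyClosed ((S : Subgroup G) ⊓ Subgroup.centralizer ((S : Subgroup G) : Set G)) (S : Subgroup G)) : (∀ (P : Subgroup G) (φ : P →* G), φ ∈ (Cfsg.groupFusionSystem (S : Subgroup G)).Hom P → ∃ g ∈ Subgroup.normalizer ((S : Subgroup G) : Set G), ∀ x : P, φ x = g * (x : G) * g⁻¹) ∧ (Cfsg.groupFusionSystem (S : Subgroup G)).core = S := by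
  have hS : IsPGroup p (S : Subgroup G) := S.isPGroup'
  have hF : (Cfsg.groupFusionSystem (S : Subgroup G)).IsSaturated p :=
    Cfsg.Agent.Lib.Helper86.groupFusionSystem_isSaturated S
  have hSs : (Cfsg.groupFusionSystem (S : Subgroup G)).StronglyClosed (S : Subgroup G) :=
    ⟨le_rfl, fun R _ φ hφ x => ((Cfsg.groupFusionSystem (S : Subgroup G)).le_of_mem hφ).2 x⟩
  have hbot : (Cfsg.groupFusionSystem (S : Subgroup G)).WeaklyClosed ⊥ := by
    refine ⟨bot_le, fun φ _ => ?_⟩
    rw [eq_bot_iff]
    rintro _ ⟨x, rfl⟩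
    have hx : x = 1 := Subtype.ext (Subgroup.mem_bot.1 x.2)
    rw [hx, map_one]
    exact Subgroup.one_mem _
  have hZw : (Cfsg.groupFusionSystem (S : Subgroup G)).WeaklyClosed
      ((S : Subgroup G) ⊓ Subgroup.centralizer ((S : Subgroup G) : Set G)) := by
    refine ⟨inf_le_left, fun φ hφ => ?_⟩
    obtain ⟨-, hφS, g, hg⟩ := hφ
    have hle : φ.range ≤ (S : Subgroup G) ⊓ Subgroup.centralizer ((S : Subgroup G) : Set G) := by
      rintro _ ⟨x, rfl⟩
      have h1 := hφS x
      rw [hg x] at h1 ⊢
      exact hZ.2 x x.2 g h1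
    have hinj : Function.Injective φ := by
      intro a b hab
      rw [hg a, hg b] at hab
      exact Subtype.ext (mul_left_cancel (mul_right_cancel hab))
    apply Subgroup.eq_of_le_of_card_ge hle
    have h2 : Nat.card φ.range
        = Nat.card ↥((S : Subgroup G) ⊓ Subgroup.centralizer ((S : Subgroup G) : Set G)) :=
      (Nat.card_congr (Equiv.ofInjective φ hinj)).symm
    rw [h2]
  have hN : (Cfsg.groupFusionSystem (S : Subgroup G)).IsNormal (S : Subgroup G) := by
    refine isNormal_of_chain hS _ hF hSs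
      (chainZ ((S : Subgroup G) ⊓ Subgroup.centralizer ((S : Subgroup G) : Set G)) (S : Subgroup G))
      2 rfl ?_ ?_ ?_ ?_
    · intro j hj
      rcases j with _ | _ | j
      · omega
      · omega
      · rfl
    · intro j
      rcases j with _ | _ | j
      · exact bot_le
      · exact inf_le_left
      · exact le_rfl
    · intro j hj
      rcases j with _ | _ | j
      · show ⁅(S : Subgroup G) ⊓ Subgroup.centralizer ((S : Subgroup G) : Set G), (S : Subgroup G)⁆
          ≤ ⊥
        rw [Subgroup.commutator_le]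
        intro a ha b hb
        rw [Subgroup.mem_bot, commutatorElement_eq_one_iff_mul_comm]
        exact (ha.2 b hb).symm
      · exact hcl
      · omega
    · intro j hj
      rcases j with _ | _ | j
      · exact hbot
      · exact hZw
      · omega
  refine ⟨?_, le_antisymm (sSup_le fun Q hQ => hQ.1) (le_sSup hN)⟩
  intro P φ hφ
  obtain ⟨ψ, hψ, hext, hmap⟩ := hN.2 P φ hφ
  rw [map_subgroupOf_eq_iff le_sup_right] at hmap
  obtain ⟨-, -, g, hg⟩ := hψ
  refine ⟨g, ?_, fun x => ?_⟩
  · rw [Subgroup.mem_normalizer_iff]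
    intro h
    constructor
    · intro hh
      have h1 := hmap.1 h hh
      rw [hg] at h1
      exact h1
    · intro hh
      obtain ⟨q', hq', h1⟩ := hmap.2 _ hh
      rw [hg] at h1
      have h2 : q' = h := mul_left_cancel (mul_right_cancel h1)
      rw [← h2]
      exact hq'
  · rw [← hext x, hg]
    rfl

end Cfsg.Agent.S5107
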