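import Cfsg.Statements.S5111
-- import your own Cfsg.Agent.* helpers here
import Cfsg.Agent.Lib.Helper85.FusionMore
import Cfsg.Agent.Lib.Helper85.GroupSylow
import Cfsg.Agent.Lib.Helper85.FusionSatBasic
import Cfsg.Agent.Lib.Helper86.Saturated
import Cfsg.Agent.Lib.Helper54.Frobenius

set_option autoImplicit false
open Cfsg

namespace Cfsg.Agent.S5111

open Cfsg.FusionSystem Cfsg.Agent.Lib.Helper85 in
theorem isConj_top_eq {Ω : Type*} [Group Ω] {S : Subgroup Ω} [Finite S] (F : FusionSystem S)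
    {Q : Subgroup Ω} (h : F.IsConj S Q) : Q = S := by
  obtain ⟨φ, hφ, rfl⟩ := h
  have hle : φ.range ≤ S := by rintro _ ⟨x, rfl⟩; exact (F.le_of_mem hφ).2 x
  exact Subgroup.eq_of_le_of_card_ge hle
    (Nat.card_congr (MonoidHom.ofInjective (F.injective_of_mem hφ)).toEquiv).le

/-- If `α ^ m ∈ A`, `α ^ (p ^ b) = 1` and `p ∤ m` then `α ∈ A`. -/
theorem mem_of_pow_mem_coprime {M : Type*} [Group M] (A : Subgroup M) {α : M} {p m b : ℕ}
    (hp : p.Prime) (hm : ¬ p ∣ m) (hb : α ^ (p ^ b) = 1) (hα : α ^ m ∈ A) : α ∈ A := by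
  have hcop : Nat.gcd m (p ^ b) = 1 :=
    Nat.Coprime.pow_right b ((Nat.Prime.coprime_iff_not_dvd hp).mpr hm).symm
  have h1 := Nat.gcd_eq_gcd_ab m (p ^ b)
  rw [hcop] at h1
  have h2 : α = α ^ ((m : ℤ) * Nat.gcdA m (p ^ b) + ((p ^ b : ℕ) : ℤ) * Nat.gcdB m (p ^ b)) := by
    rw [← h1]; simp
  rw [zpow_add, zpow_mul, zpow_mul, zpow_natCast, zpow_natCast, hb, one_zpow, mul_one] at h2
  rw [h2]
  exact A.zpow_mem hα _

open Cfsg.FusionSystem Cfsg.Agent.Lib.Helper85 in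
theorem fa_of_fn {Ω : Type*} [Group Ω] {S : Subgroup Ω} [Finite S] {p : ℕ} [Fact p.Prime]
    (hS : IsPGroup p S) (F : FusionSystem S)
    (hI : F.IsFullyAutomized p S) (hII : ∀ P : Subgroup Ω, F.IsFullyNormalized P → F.IsReceptive P) :
    ∀ (k : ℕ) (Q : Subgroup Ω), F.IsFullyNormalized Q → Nat.card S - Nat.card Q ≤ k →
      F.IsFullyAutomized p Q := by
  classical
  intro k
  induction k with
  | zero =>
    intro Q hQ hk
    have hQS := hQ.1
    have : Q = S := Subgroup.eq_of_le_of_card_ge hQS (by omega)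
    rw [this]; exact hI
  | succ k ih =>
    intro Q hQ hk
    have hQS := hQ.1
    by_cases hne : Q = S
    · rw [hne]; exact hI
    have hQfin : Finite Q := finite_of_le hQS
    have hAB : autInducedBy S Q ≤ F.autGroup Q :=
      Cfsg.Agent.Lib.Helper84.autInducedBy_le_autGroup F hQS
    have hAp : IsPGroup p (autInducedBy S Q) := Cfsg.Agent.Lib.Helper86.isPGroup_autInducedBy hS Q
    obtain ⟨R, hAR, hRB, hRp, hRsyl⟩ := exists_isSylIn_ge hAB hAp
    by_cases hRA : R ≤ autInducedBy S Q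
    · have hAeq : R = autInducedBy S Q := le_antisymm hRA hAR
      exact ⟨hQS, hRsyl.of_eq_left hAeq⟩
    exfalso
    have hlt : autInducedBy S Q < R := lt_of_le_of_ne hAR (fun h => hRA h.ge)
    obtain ⟨α, hαR, hαN, hαA⟩ := Cfsg.Agent.Lib.Helper54.exists_mem_normalizer_not_mem hRp hlt
    obtain ⟨b, hb⟩ := hRp ⟨α, hαR⟩
    have hb' : α ^ (p ^ b) = 1 := congrArg Subtype.val hb
    have hαB : α ∈ F.autGroup Q := hRB hαR
    have hφ : Q.subtype.comp α.toMonoidHom ∈ F.Hom Q := (mem_autGroup_iff F hQS α).mp hαB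
    have hφrange : (Q.subtype.comp α.toMonoidHom).range = Q :=
      Cfsg.Agent.Lib.Helper86.range_comp_equiv α
    have hext : normalizerIn S Q ≤ extender S Q (Q.subtype.comp α.toMonoidHom) := by
      intro g hg
      refine Subgroup.subset_closure ⟨hg.1, hg.2, ?_⟩
      have hcg : Q.normalizerMonoidHom ⟨g, hg.2⟩ ∈ autInducedBy S Q :=
        Cfsg.Agent.Lib.Helper86.normalizerMonoidHom_mem_autInducedBy hg
      have h1 : α * Q.normalizerMonoidHom ⟨g, hg.2⟩ * α⁻¹ ∈ autInducedBy S Q :=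
        (Subgroup.mem_normalizer_iff.mp hαN _).mp hcg
      obtain ⟨h, hhS, hh⟩ := (mem_autInducedBy_iff S Q _).mp h1
      refine ⟨h, hhS, fun x hx => ?_⟩
      have h2 := hh (α x)
      have h3 : (α * Q.normalizerMonoidHom ⟨g, hg.2⟩ * α⁻¹) (α x) = α ⟨g * x * g⁻¹, hx⟩ := by
        rw [MulAut.mul_apply, MulAut.mul_apply, MulAut.inv_apply_self]
        rfl
      rw [h3] at h2
      exact h2
    have hNeq : extender S Q (Q.subtype.comp α.toMonoidHom) = normalizerIn S Q :=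
      le_antisymm (extender_le_normalizerIn S Q _) hext
    obtain ⟨ψ, hψ, hψφ⟩ : ∃ ψ ∈ F.Hom (normalizerIn S Q), ∀ (x : Ω) (hP : x ∈ Q)
        (hN : x ∈ normalizerIn S Q), ψ ⟨x, hN⟩ = ((α ⟨x, hP⟩ : Q) : Ω) := by
      have := (hII Q hQ).2 Q _ hφ hφrange
      rw [hNeq] at this
      exact this
    have hNS : normalizerIn S Q ≤ S := inf_le_left
    have hQN : Q ≤ normalizerIn S Q := le_inf hQS Subgroup.le_normalizer
    have hNfin : Finite ↥(normalizerIn S Q) := finite_of_le hNS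
    have hψN : ∀ g : ↥(normalizerIn S Q), ψ g ∈ normalizerIn S Q := by
      intro g
      refine ⟨(F.le_of_mem hψ).2 g, Cfsg.Agent.Lib.Helper86.mem_normalizer_of_finite ?_⟩
      intro x hx
      have hx' : ((α (α⁻¹ ⟨x, hx⟩) : Q) : Ω) = x := by rw [MulAut.apply_inv_self]
      have hgx : (g : Ω) * ((α⁻¹ ⟨x, hx⟩ : Q) : Ω) * (g : Ω)⁻¹ ∈ Q :=
        (Subgroup.mem_normalizer_iff.mp g.2.2 _).mp (α⁻¹ ⟨x, hx⟩).2
      have h1 : ψ (g * ⟨_, hQN (α⁻¹ ⟨x, hx⟩).2⟩ * g⁻¹) =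
          ψ g * ψ ⟨_, hQN (α⁻¹ ⟨x, hx⟩).2⟩ * (ψ g)⁻¹ := by
        rw [map_mul, map_mul, map_inv]
      have h2 := hψφ _ (α⁻¹ ⟨x, hx⟩).2 (hQN (α⁻¹ ⟨x, hx⟩).2)
      rw [h2, hx'] at h1
      rw [← h1]
      have h3 := hψφ _ hgx (hQN hgx)
      have h4 : (g * ⟨_, hQN (α⁻¹ ⟨x, hx⟩).2⟩ * g⁻¹ : ↥(normalizerIn S Q)) =
          ⟨(g : Ω) * ((α⁻¹ ⟨x, hx⟩ : Q) : Ω) * (g : Ω)⁻¹, hQN hgx⟩ := rfl
      rw [h4, h3]
      exact (α _).2
    have hrange : ψ.range = normalizerIn S Q := by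
      have hle : ψ.range ≤ normalizerIn S Q := by
        rintro _ ⟨g, rfl⟩; exact hψN g
      exact Subgroup.eq_of_le_of_card_ge hle
        (Nat.card_congr (MonoidHom.ofInjective (F.injective_of_mem hψ)).toEquiv).le
    obtain ⟨eb, heb⟩ := Cfsg.Agent.Lib.Helper86.exists_mulEquiv_of_range ψ
      (F.injective_of_mem hψ) hrange
    have hebF : (eb : MulAut ↥(normalizerIn S Q)) ∈ F.autGroup (normalizerIn S Q) := by
      rw [mem_autGroup_iff F hNS]
      exact Cfsg.Agent.Lib.Helper84.hom_of_eq F hψ (fun x => heb x)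
    -- restriction of powers of `eb` to `Q`
    have hpow : ∀ (j : ℕ) (x : Q),
        ((((eb : MulAut ↥(normalizerIn S Q)) ^ j) ⟨x, hQN x.2⟩ : ↥(normalizerIn S Q)) : Ω) =
          (((α ^ j) x : Q) : Ω) := by
      intro j
      induction j with
      | zero => intro x; simp
      | succ j ihj =>
        intro x
        rw [pow_succ, pow_succ, MulAut.mul_apply, MulAut.mul_apply]
        have h1 : (eb : MulAut ↥(normalizerIn S Q)) ⟨x, hQN x.2⟩ = ⟨(α x : Q), hQN (α x).2⟩ := by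
          apply Subtype.ext
          rw [heb]
          exact hψφ _ x.2 (hQN x.2)
        rw [h1]
        exact ihj (α x)
    -- the power trick
    have hopos : orderOf (eb : MulAut ↥(normalizerIn S Q)) ≠ 0 := (orderOf_pos _).ne'
    obtain ⟨a, m, hm, hom⟩ := Nat.exists_eq_pow_mul_and_not_dvd hopos p (Fact.out : p.Prime).one_lt.ne'
    have hβp : ((eb : MulAut ↥(normalizerIn S Q)) ^ m) ^ (p ^ a) = 1 := by
      rw [← pow_mul, mul_comm, ← hom, pow_orderOf_eq_one]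
    have hβF : (eb : MulAut ↥(normalizerIn S Q)) ^ m ∈ F.autGroup (normalizerIn S Q) :=
      Subgroup.pow_mem _ hebF m
    have hαm : α ^ m ∉ autInducedBy S Q := fun h =>
      hαA (mem_of_pow_mem_coprime _ (Fact.out : p.Prime) hm hb' h)
    generalize hβdef : (eb : MulAut ↥(normalizerIn S Q)) ^ m = β at hβp hβF
    have hβQ : ∀ x : Q, ((β ⟨x, hQN x.2⟩ : ↥(normalizerIn S Q)) : Ω) = (((α ^ m) x : Q) : Ω) := by
      intro x; rw [← hβdef]; exact hpow m x
    -- a fully normalized conjugate of the normalizer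
    obtain ⟨N', hNN', hN'fn⟩ := exists_fullyNormalized_conj F hNS
    obtain ⟨φ₀, hφ₀, hφ₀range⟩ := hNN'
    obtain ⟨e₀, he₀F, he₀⟩ := Cfsg.Agent.Lib.Helper86.exists_isFIso F hφ₀ hφ₀range
    have hN'S : N' ≤ S := hN'fn.1
    have hN'fin : Finite ↥N' := finite_of_le hN'S
    have hcardN : Nat.card ↥N' = Nat.card ↥(normalizerIn S Q) := (Nat.card_congr e₀.toEquiv).symm
    obtain ⟨g₀, hg₀N, hg₀Q⟩ := Cfsg.Agent.Lib.Helper86.exists_normalizerIn_not_mem hS hQS hne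
    have hcardlt : Nat.card Q < Nat.card ↥(normalizerIn S Q) :=
      Cfsg.Agent.Lib.Helper86.card_lt_of_le_of_not_mem hQN hg₀N hg₀Q
    have hcardS : Nat.card ↥N' ≤ Nat.card S := Subgroup.card_le_of_le hN'S
    have hN'fa : F.IsFullyAutomized p N' := ih N' hN'fn (by omega)
    have hsyl' : IsSylIn p (autInducedBy S N') (F.autGroup N') := hN'fa.2
    have hβ'F : MulAut.congr e₀ β ∈ F.autGroup N' := he₀F.congr_mem_autGroup hβF
    have hβ'p : (MulAut.congr e₀ β) ^ (p ^ a) = 1 := by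
      rw [← map_pow, hβp, map_one]
    have hzle : Subgroup.zpowers (MulAut.congr e₀ β) ≤ F.autGroup N' :=
      (Subgroup.zpowers_le).mpr hβ'F
    have hzp : IsPGroup p (Subgroup.zpowers (MulAut.congr e₀ β)) := by
      rintro ⟨y, hy⟩
      obtain ⟨i, rfl⟩ := Subgroup.mem_zpowers_iff.mp hy
      refine ⟨a, Subtype.ext ?_⟩
      show ((MulAut.congr e₀ β) ^ i) ^ (p ^ a) = 1
      rw [← zpow_natCast, ← zpow_mul, mul_comm, zpow_mul, zpow_natCast, hβ'p, one_zpow]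
    obtain ⟨γ, hγ, hγle⟩ := hsyl'.exists_conj_le hzle hzp
    have h1 : γ * MulAut.congr e₀ β * γ⁻¹ ∈ autInducedBy S N' :=
      hγle ⟨_, Subgroup.mem_zpowers _, rfl⟩
    obtain ⟨s, hsS, hs⟩ := (mem_autInducedBy_iff S N' _).mp h1
    have hγF : Cfsg.Agent.Lib.Helper86.IsFIso F (γ : ↥N' ≃* ↥N') :=
      (mem_autGroup_iff F hN'S γ).mp hγ
    have hχF : Cfsg.Agent.Lib.Helper86.IsFIso F (e₀.trans γ) := he₀F.trans hγF
    have hχ : ∀ x : ↥(normalizerIn S Q), (((e₀.trans γ) (β x) : ↥N') : Ω) =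
        s * (((e₀.trans γ) x : ↥N') : Ω) * s⁻¹ := by
      intro x
      have h2 := hs ((e₀.trans γ) x)
      have h3 : (γ * MulAut.congr e₀ β * γ⁻¹) ((e₀.trans γ) x) = (e₀.trans γ) (β x) := by
        rw [MulAut.mul_apply, MulAut.mul_apply]
        show γ (e₀ (β (e₀.symm (γ⁻¹ (γ (e₀ x)))))) = γ (e₀ (β x))
        rw [MulAut.inv_apply_self, e₀.symm_apply_apply]
      rw [h3] at h2
      exact h2
    -- the conjugate `Q'` of `Q`
    have hconj : F.IsConj Q ((Q.subgroupOf (normalizerIn S Q)).map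
        (N'.subtype.comp (e₀.trans γ).toMonoidHom)) := by
      refine ⟨(N'.subtype.comp (e₀.trans γ).toMonoidHom).comp (Subgroup.inclusion hQN),
        restrict_mem F hQN hχF, ?_⟩
      ext y
      constructor
      · rintro ⟨x, rfl⟩
        exact ⟨Subgroup.inclusion hQN x, Subgroup.mem_subgroupOf.mpr x.2, rfl⟩
      · rintro ⟨x, hx, rfl⟩
        exact ⟨⟨x, Subgroup.mem_subgroupOf.mp hx⟩, rfl⟩
    have hQ'mem : ∀ z, z ∈ (Q.subgroupOf (normalizerIn S Q)).map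
        (N'.subtype.comp (e₀.trans γ).toMonoidHom) ↔
        ∃ x : ↥(normalizerIn S Q), (x : Ω) ∈ Q ∧ (((e₀.trans γ) x : ↥N') : Ω) = z := by
      intro z
      constructor
      · rintro ⟨x, hx, rfl⟩
        exact ⟨x, Subgroup.mem_subgroupOf.mp hx, rfl⟩
      · rintro ⟨x, hx, rfl⟩
        exact ⟨x, Subgroup.mem_subgroupOf.mpr hx, rfl⟩
    have hQ'S : (Q.subgroupOf (normalizerIn S Q)).map
        (N'.subtype.comp (e₀.trans γ).toMonoidHom) ≤ S := (isConj_le F hconj).2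
    have hQ'fin : Finite ↥((Q.subgroupOf (normalizerIn S Q)).map
        (N'.subtype.comp (e₀.trans γ).toMonoidHom)) := finite_of_le hQ'S
    have hcard := hQ.2 _ hconj
    have hN'le : N' ≤ normalizerIn S ((Q.subgroupOf (normalizerIn S Q)).map
        (N'.subtype.comp (e₀.trans γ).toMonoidHom)) := by
      intro y hy
      refine ⟨hN'S hy, Cfsg.Agent.Lib.Helper86.mem_normalizer_of_finite ?_⟩
      intro z hz
      obtain ⟨x, hx, rfl⟩ := (hQ'mem z).mp hz
      have hgx : (((e₀.trans γ).symm ⟨y, hy⟩ : ↥(normalizerIn S Q)) : Ω) * (x : Ω) *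
          (((e₀.trans γ).symm ⟨y, hy⟩ : ↥(normalizerIn S Q)) : Ω)⁻¹ ∈ Q :=
        (Subgroup.mem_normalizer_iff.mp ((e₀.trans γ).symm ⟨y, hy⟩).2.2 _).mp hx
      refine (hQ'mem _).mpr ⟨(e₀.trans γ).symm ⟨y, hy⟩ * x * ((e₀.trans γ).symm ⟨y, hy⟩)⁻¹, hgx, ?_⟩
      rw [map_mul, map_mul, map_inv, MulEquiv.apply_symm_apply]
      rfl
    have hsN : s ∈ normalizerIn S ((Q.subgroupOf (normalizerIn S Q)).map
        (N'.subtype.comp (e₀.trans γ).toMonoidHom)) := by
      refine ⟨hsS, Cfsg.Agent.Lib.Helper86.mem_normalizer_of_finite ?_⟩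
      intro z hz
      obtain ⟨x, hx, rfl⟩ := (hQ'mem z).mp hz
      rw [← hχ x]
      refine (hQ'mem _).mpr ⟨β x, ?_, rfl⟩
      have := hβQ ⟨x, hx⟩
      have h4 : (⟨((⟨x, hx⟩ : Q) : Ω), hQN hx⟩ : ↥(normalizerIn S Q)) = x := Subtype.ext rfl
      rw [h4] at this
      rw [this]
      exact ((α ^ m) _).2
    have hNeq' : N' = normalizerIn S ((Q.subgroupOf (normalizerIn S Q)).map
        (N'.subtype.comp (e₀.trans γ).toMonoidHom)) := by
      have hfin' : Finite ↥(normalizerIn S ((Q.subgroupOf (normalizerIn S Q)).map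
        (N'.subtype.comp (e₀.trans γ).toMonoidHom))) := finite_of_le inf_le_left
      exact Subgroup.eq_of_le_of_card_ge hN'le (by rw [hcardN]; exact hcard)
    have hsN' : s ∈ N' := by rw [hNeq']; exact hsN
    apply hαm
    rw [mem_autInducedBy_iff]
    refine ⟨((e₀.trans γ).symm ⟨s, hsN'⟩ : ↥(normalizerIn S Q)), hNS ((e₀.trans γ).symm ⟨s, hsN'⟩).2,
      fun x => ?_⟩
    rw [← hβQ x]
    have h5 : (e₀.trans γ) (β ⟨x, hQN x.2⟩) =
        (e₀.trans γ) ((e₀.trans γ).symm ⟨s, hsN'⟩ * ⟨x, hQN x.2⟩ * ((e₀.trans γ).symm ⟨s, hsN'⟩)⁻¹) := by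
      apply Subtype.ext
      rw [hχ, map_mul, map_mul, map_inv, MulEquiv.apply_symm_apply]
      rfl
    have h6 := (e₀.trans γ).injective h5
    rw [h6]
    rfl

/-- A fusion system over a finite p-group S is saturated if and only if the inner automorphisms of S form a Sylow p-subgroup of Aut_F(S) and every fully normalized subgroup of S is receptive. -/
theorem result {Ω : Type*} [Group Ω] {S : Subgroup Ω} [Finite S] (p : ℕ) [Fact p.Prime] (hS : IsPGroup p S) (F : Cfsg.FusionSystem S) : F.IsSaturated p ↔ (F.IsFullyAutomized p S ∧ ∀ P : Subgroup Ω, F.IsFullyNormalized P → F.IsReceptive P) := by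
  constructor
  · intro hF
    refine ⟨?_, fun P hP => (Cfsg.Agent.Lib.Helper86.fullyNormalized_imp hS F hF hP).2⟩
    obtain ⟨Q, hSQ, hfa, -⟩ := hF S le_rfl
    rw [isConj_top_eq F hSQ] at hfa
    exact hfa
  · rintro ⟨hI, hII⟩ P hP
    obtain ⟨Q, hPQ, hQfn⟩ := Cfsg.Agent.Lib.Helper85.exists_fullyNormalized_conj F hP
    exact ⟨Q, hPQ, fa_of_fn hS F hI hII _ Q hQfn le_rfl, hII Q hQfn⟩

end Cfsg.Agent.S5111
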