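import Mathlib
import Cfsg.Statements.S5112
import Cfsg.Agent.Lib.Helper88.FusPAut
import Cfsg.Agent.Lib.Helper88.OddAutDQ

set_option autoImplicit false
open Cfsg Cfsg.FusionSystem Cfsg.Agent.Lib Cfsg.Agent.Lib.Helper88

namespace Cfsg.Agent.S5112

/-- If S is a dihedral or generalized quaternion 2-group of order at least 16, then in every saturated fusion system over S (at the prime 2) the automorphism group Aut_F(S) consists of the inner automorphisms of S. -/
theorem result {Ω : Type*} [Group Ω] {S : Subgroup Ω} [Finite S] (n : ℕ) (hn : 4 ≤ n) (hshape : Nonempty (S ≃* DihedralGroup (2 ^ (n - 1))) ∨ Nonempty (S ≃* QuaternionGroup (2 ^ (n - 2)))) (F : Cfsg.FusionSystem S) (hF : F.IsSaturated 2) : F.autGroup S = Cfsg.Inn S := by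
  classical
  have : Fact (Nat.Prime 2) := ⟨Nat.prime_two⟩
  have hodd : ∀ b : MulAut S, ∀ m : ℕ, m.Coprime 2 → b ^ m = 1 → b = 1 := by
    intro b m hm hbm
    have hm' : Odd m := Nat.coprime_two_right.1 hm
    rcases hshape with ⟨⟨e⟩⟩ | ⟨⟨e⟩⟩
    · have h1 : MulAut.congr e b = 1 := by
        apply dihedral_odd_aut (k := n - 1) rfl (by omega) _ hm'
        rw [← map_pow, hbm, map_one]
      exact (MulEquiv.map_eq_one_iff (MulAut.congr e)).1 h1
    · have h1 : MulAut.congr e b = 1 := by
        apply quaternion_odd_aut (k := n - 1) _ (by omega) _ hm'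
        · rw [← map_pow, hbm, map_one]
        · rw [← pow_succ']
          congr 1
          omega
      exact (MulEquiv.map_eq_one_iff (MulAut.congr e)).1 h1
  have hS : IsPGroup 2 S := by
    apply IsPGroup.of_card (n := n)
    rcases hshape with ⟨⟨e⟩⟩ | ⟨⟨e⟩⟩
    · rw [Nat.card_congr e.toEquiv, DihedralGroup.nat_card, ← pow_succ']
      congr 1
      omega
    · have : NeZero (2 ^ (n - 2)) := ⟨by positivity⟩
      rw [Nat.card_congr e.toEquiv, Nat.card_eq_fintype_card, QuaternionGroup.card]
      have h4 : (4 : ℕ) = 2 ^ 2 := by norm_num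
      rw [h4, ← pow_add]
      congr 1
      omega
  have hpg : IsPGroup 2 (F.autGroup S) :=
    isPGroup_autGroup_of_coprime_trivial F le_rfl (fun b _ m hm hbm => hodd b m hm hbm)
  have h1 := autGroup_le_inner_of_isPGroup hS F hF (top_fullyNormalized F) hpg
  apply le_antisymm
  · intro α hα
    have h2 := h1 hα
    rw [Helper84.mem_autGroup_iff _ le_rfl] at h2
    obtain ⟨-, g, hg, hgα⟩ := h2
    refine ⟨⟨g, hg⟩, ?_⟩
    ext x
    have := hgα x
    simp only [MonoidHom.coe_comp, Subgroup.coe_subtype, Function.comp_apply] at this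
    rw [MulAut.conj_apply]
    simp only [Subgroup.coe_mul, Subgroup.coe_inv]
    exact this.symm
  · rintro α ⟨s, rfl⟩
    rw [Helper84.mem_autGroup_iff _ le_rfl]
    apply Helper84.hom_of_eq F (F.conj_mem le_rfl s.2)
    intro x
    rfl

end Cfsg.Agent.S5112
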