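import Cfsg.Statements.S5119
-- import your own Cfsg.Agent.* helpers here
import Cfsg.Agent.Lib.Helper85.FusionMore
import Cfsg.Agent.Lib.Helper85.FusionFactor
import Cfsg.Agent.Lib.Helper85.FusionSatBasic
import Cfsg.Agent.Lib.Helper85.GroupSylow
import Cfsg.Agent.Lib.Helper85.GroupNormalSys
import Cfsg.Agent.Lib.Helper86.Saturated
import Cfsg.Agent.Lib.Helper89.FusionExtra

set_option autoImplicit false
open Cfsg

namespace Cfsg.Agent.S5119

open Cfsg.FusionSystem Cfsg.Agent.Lib.Helper85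

section
variable {Ω : Type*} [Group Ω] {S T : Subgroup Ω}

/-- Decomposable maps: an element of `Aut_F(T)` after a map of `E`. -/
def DecT (F : FusionSystem S) (E : FusionSystem T) {P : Subgroup Ω} (φ : P →* Ω) : Prop :=
  ∃ α ∈ F.autGroup T, ∃ φ₀ ∈ E.Hom P, ∀ (x : P) (hx : φ₀ x ∈ T), φ x = ((α ⟨φ₀ x, hx⟩ : T) : Ω)

/-- The strong invariance condition. -/
def StrongInv (F : FusionSystem S) (E : FusionSystem T) : Prop :=
  ∀ (P Q : Subgroup Ω) (hPQ : P ≤ Q) (_ : Q ≤ T) (φ : P →* Ω) (_ : φ ∈ E.Hom P)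
    (hφQ : ∀ x : P, φ x ∈ Q) (ψ : Q →* Ω) (_ : ψ ∈ F.Hom Q),
    ∃ χ ∈ E.Hom ((P.subgroupOf Q).map ψ),
      ∀ (x : P) (hx : ψ (Subgroup.inclusion hPQ x) ∈ (P.subgroupOf Q).map ψ),
        χ ⟨ψ (Subgroup.inclusion hPQ x), hx⟩ = ψ ⟨φ x, hφQ x⟩

theorem decT_congr (F : FusionSystem S) (E : FusionSystem T) {P : Subgroup Ω} {φ φ' : P →* Ω}
    (h : DecT F E φ) (heq : ∀ x, φ' x = φ x) : DecT F E φ' := by
  have : φ' = φ := MonoidHom.ext heq
  rw [this]; exact h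

theorem decT_restrict (F : FusionSystem S) (E : FusionSystem T) {P R : Subgroup Ω} {φ : P →* Ω}
    (h : DecT F E φ) (hRP : R ≤ P) : DecT F E (φ.comp (Subgroup.inclusion hRP)) := by
  obtain ⟨α, hα, φ₀, hφ₀, hφ⟩ := h
  exact ⟨α, hα, φ₀.comp (Subgroup.inclusion hRP), restrict_mem E hRP hφ₀,
    fun x hx => hφ (Subgroup.inclusion hRP x) hx⟩

/-- Claim A: post-composition with a map defined on a subgroup where everything decomposes. -/
theorem decT_comp [Finite S] (F : FusionSystem S) (E : FusionSystem T) (hTS : T ≤ S)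
    {P Q : Subgroup Ω} {φ : P →* Ω}
    (hdec : DecT F E φ) (h : ∀ x : P, φ x ∈ Q) {ψ : Q →* Ω} (hψ : ψ ∈ F.Hom Q) (hQT : Q ≤ T)
    (hbig : ∀ Q₁ : Subgroup Ω, Q₁ ≤ T → Nat.card Q ≤ Nat.card Q₁ →
      ∀ ψ₁ : Q₁ →* Ω, ψ₁ ∈ F.Hom Q₁ → DecT F E ψ₁) :
    DecT F E (ψ.comp (φ.codRestrict Q h)) := by
  obtain ⟨α, hα, φ₀, hφ₀, hφ⟩ := hdec
  have ha : T.subtype.comp α.toMonoidHom ∈ F.Hom T := (mem_autGroup_iff F hTS α).mp hα
  have hQ₁T : preimageAlong (T.subtype.comp α.toMonoidHom) Q ≤ T := preimageAlong_le _ _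
  have ha₁ := restrict_mem F hQ₁T ha
  have ha₁Q : ∀ y : ↥(preimageAlong (T.subtype.comp α.toMonoidHom) Q),
      ((T.subtype.comp α.toMonoidHom).comp (Subgroup.inclusion hQ₁T)) y ∈ Q := by
    intro y
    obtain ⟨hy, hy'⟩ := (mem_preimageAlong _ _ _).mp y.2
    exact hy'
  have hψ₁ := F.comp_mem ha₁ hψ ha₁Q
  have hfin : Finite ↥(preimageAlong (T.subtype.comp α.toMonoidHom) Q) :=
    finite_of_le (hQ₁T.trans hTS)
  have hcard : Nat.card Q ≤ Nat.card ↥(preimageAlong (T.subtype.comp α.toMonoidHom) Q) := by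
    have hmem : ∀ x : Q, ((α⁻¹ ⟨x, hQT x.2⟩ : T) : Ω) ∈
        preimageAlong (T.subtype.comp α.toMonoidHom) Q := by
      intro x
      refine (mem_preimageAlong _ _ _).mpr ⟨(α⁻¹ ⟨x, hQT x.2⟩ : T).2, ?_⟩
      show ((α (α⁻¹ ⟨x, hQT x.2⟩) : T) : Ω) ∈ Q
      rw [MulAut.apply_inv_self]
      exact x.2
    refine Nat.card_le_card_of_injective
      (fun x : Q => (⟨((α⁻¹ ⟨x, hQT x.2⟩ : T) : Ω), hmem x⟩ :
        ↥(preimageAlong (T.subtype.comp α.toMonoidHom) Q))) ?_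
    intro x y hxy
    have h1 : ((α⁻¹ ⟨x, hQT x.2⟩ : T) : Ω) = ((α⁻¹ ⟨y, hQT y.2⟩ : T) : Ω) :=
      Subtype.mk.inj hxy
    have h2 := (α⁻¹).injective (Subtype.ext h1)
    exact Subtype.ext (Subtype.mk.inj h2)
  obtain ⟨β, hβ, ψ₀, hψ₀, hψ₁'⟩ := hbig _ hQ₁T hcard _ hψ₁
  have h₀ : ∀ x : P, φ₀ x ∈ preimageAlong (T.subtype.comp α.toMonoidHom) Q := by
    intro x
    refine (mem_preimageAlong _ _ _).mpr ⟨(E.le_of_mem hφ₀).2 x, ?_⟩
    show ((α ⟨φ₀ x, (E.le_of_mem hφ₀).2 x⟩ : T) : Ω) ∈ Q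
    rw [← hφ x]
    exact h x
  refine ⟨β, hβ, ψ₀.comp (φ₀.codRestrict _ h₀), E.comp_mem hφ₀ hψ₀ h₀, fun x hx => ?_⟩
  have h1 := hψ₁' ⟨φ₀ x, h₀ x⟩ hx
  refine Eq.trans ?_ h1
  show ψ ⟨φ x, h x⟩ = ψ ⟨((α ⟨φ₀ x, _⟩ : T) : Ω), _⟩
  congr 1
  exact Subtype.ext (hφ x _)

/-- Transport of an `E`-automorphism along an `F`-isomorphism (strong invariance). -/
theorem aut_transport (F : FusionSystem S) (E : FusionSystem T) (hSI : StrongInv F E)
    {R R₁ : Subgroup Ω} (hRT : R ≤ T) (b : R ≃* R₁) (hb : Cfsg.Agent.Lib.Helper86.IsFIso F b)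
    {ε : MulAut R} (hε : ε ∈ E.autGroup R) : MulAut.congr b ε ∈ E.autGroup R₁ := by
  have hεE := (mem_autGroup_iff E hRT ε).mp hε
  obtain ⟨χ, hχ, hχx⟩ := hSI R R le_rfl hRT _ hεE (fun x => (ε x).2) _ hb
  have hR₁T : R₁ ≤ T := by
    intro y hy
    have h1 := hχx (b.symm ⟨y, hy⟩) ⟨_, Subgroup.mem_subgroupOf.mpr (b.symm ⟨y, hy⟩).2, rfl⟩
    have h2 := (E.le_of_mem hχ).1
      (⟨Subgroup.inclusion (le_refl R) (b.symm ⟨y, hy⟩),
        Subgroup.mem_subgroupOf.mpr (b.symm ⟨y, hy⟩).2, rfl⟩ :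
        (R₁.subtype.comp b.toMonoidHom) (Subgroup.inclusion (le_refl R) (b.symm ⟨y, hy⟩)) ∈
          (R.subgroupOf R).map (R₁.subtype.comp b.toMonoidHom))
    have h3 : (R₁.subtype.comp b.toMonoidHom)
        (Subgroup.inclusion (le_refl R) (b.symm ⟨y, hy⟩)) = y := by
      show ((b (b.symm ⟨y, hy⟩) : R₁) : Ω) = y
      rw [b.apply_symm_apply]
    rw [h3] at h2
    exact h2
  have hEq : R₁ = (R.subgroupOf R).map (R₁.subtype.comp b.toMonoidHom) := by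
    ext y
    constructor
    · intro hy
      refine ⟨b.symm ⟨y, hy⟩, Subgroup.mem_subgroupOf.mpr (b.symm ⟨y, hy⟩).2, ?_⟩
      show ((b (b.symm ⟨y, hy⟩) : R₁) : Ω) = y
      rw [b.apply_symm_apply]
    · rintro ⟨x, -, rfl⟩
      exact (b x).2
  have hχ' := hom_cast E hEq hχ
  rw [mem_autGroup_iff E hR₁T]
  refine Cfsg.Agent.Lib.Helper84.hom_of_eq E hχ' (fun y => ?_)
  have h1 := hχx (b.symm y) ⟨_, Subgroup.mem_subgroupOf.mpr (b.symm y).2, rfl⟩
  show ((b (ε (b.symm y)) : R₁) : Ω) = χ (Subgroup.inclusion hEq.le y)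
  have h2 : Subgroup.inclusion hEq.le y =
      ⟨(R₁.subtype.comp b.toMonoidHom) (Subgroup.inclusion (le_refl R) (b.symm y)),
        ⟨_, Subgroup.mem_subgroupOf.mpr (b.symm y).2, rfl⟩⟩ := by
    apply Subtype.ext
    show (y : Ω) = ((b (b.symm y) : R₁) : Ω)
    rw [b.apply_symm_apply]
  rw [h2, h1]
  rfl

theorem decT_aut (F : FusionSystem S) (E : FusionSystem T) (hTS : T ≤ S) (hSI : StrongInv F E)
    {P R : Subgroup Ω} {φ : P →* Ω} (hrange : φ.range = R) (hRT : R ≤ T)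
    (hdec : DecT F E φ) {ε : MulAut R} (hε : ε ∈ E.autGroup R)
    (h' : ∀ x : P, φ x ∈ R) :
    DecT F E ((R.subtype.comp ε.toMonoidHom).comp (φ.codRestrict R h')) := by
  obtain ⟨α, hα, φ₀, hφ₀, hφe⟩ := hdec
  have ha : T.subtype.comp α.toMonoidHom ∈ F.Hom T := (mem_autGroup_iff F hTS α).mp hα
  have hφ₀T : ∀ x : P, φ₀ x ∈ T := (E.le_of_mem hφ₀).2
  have hR₁T : φ₀.range ≤ T := by rintro _ ⟨x, rfl⟩; exact hφ₀T x
  have ha₁ := restrict_mem F hR₁T ha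
  have ha₁range : ((T.subtype.comp α.toMonoidHom).comp (Subgroup.inclusion hR₁T)).range = R := by
    rw [← hrange]
    ext y
    constructor
    · rintro ⟨⟨_, ⟨x, rfl⟩⟩, rfl⟩
      exact ⟨x, hφe x _⟩
    · rintro ⟨x, rfl⟩
      exact ⟨⟨φ₀ x, ⟨x, rfl⟩⟩, (hφe x (hφ₀T x)).symm⟩
  obtain ⟨a, haF, hax⟩ := Cfsg.Agent.Lib.Helper86.exists_isFIso F ha₁ ha₁range
  have hε₁ : MulAut.congr a.symm ε ∈ E.autGroup φ₀.range :=
    aut_transport F E hSI hRT a.symm haF.symm hε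
  have hε₁' := (mem_autGroup_iff E hR₁T _).mp hε₁
  have h₀ : ∀ x : P, φ₀ x ∈ φ₀.range := fun x => ⟨x, rfl⟩
  refine ⟨α, hα, _, E.comp_mem hφ₀ hε₁' h₀, fun x hx => ?_⟩
  have h1 : a ⟨φ₀ x, h₀ x⟩ = ⟨φ x, h' x⟩ := by
    apply Subtype.ext
    rw [hax]
    exact (hφe x (hφ₀T x)).symm
  have h2 : MulAut.congr a.symm ε ⟨φ₀ x, h₀ x⟩ = a.symm (ε ⟨φ x, h' x⟩) := by
    show a.symm (ε (a ⟨φ₀ x, h₀ x⟩)) = _
    rw [h1]
  have h3 := hax (a.symm (ε ⟨φ x, h' x⟩))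
  rw [a.apply_symm_apply] at h3
  have h4 : ((MulAut.congr a.symm ε ⟨φ₀ x, h₀ x⟩ : φ₀.range) : Ω) =
      ((a.symm (ε ⟨φ x, h' x⟩) : φ₀.range) : Ω) := congrArg Subtype.val h2
  refine h3.trans ?_
  show ((α ⟨_, _⟩ : T) : Ω) = ((α ⟨_, _⟩ : T) : Ω)
  congr 2
  exact Subtype.ext h4.symm

theorem fratT [Finite S] {p : ℕ} [Fact p.Prime] (hS : IsPGroup p S) (F : FusionSystem S)
    (E : FusionSystem T) (hTS : T ≤ S) (hEF : E.IsSubsystemOf F) (hSI : StrongInv F E)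
    {R : Subgroup Ω} (hRT : R ≤ T) (hfa : F.IsFullyAutomized p R) {γ : MulAut R}
    (hγ : γ ∈ F.autGroup R) :
    ∃ ε ∈ E.autGroup R, ∃ ν ∈ F.autGroup R, γ = ε * ν ∧
      ∀ a ∈ autInducedBy T R, ν * a * ν⁻¹ ∈ autInducedBy S R := by
  classical
  obtain ⟨hR, hsyl⟩ := hfa
  have hsyl' : IsSylIn p (autInducedBy S R) (F.autGroup R) := hsyl
  have hRfin : Finite R := finite_of_le hR
  have hAp : IsPGroup p (autInducedBy S R) := Cfsg.Agent.Lib.Helper86.isPGroup_autInducedBy hS R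
  have hAF : autInducedBy S R ≤ F.autGroup R :=
    Cfsg.Agent.Lib.Helper84.autInducedBy_le_autGroup F hR
  have hEle : E.autGroup R ≤ F.autGroup R := by
    intro ε hε
    rw [mem_autGroup_iff F hR]
    exact hEF R ((mem_autGroup_iff E hRT ε).mp hε)
  have hconj : ∀ γ ∈ F.autGroup R, ∀ ε ∈ E.autGroup R, γ * ε * γ⁻¹ ∈ E.autGroup R := by
    intro γ hγ ε hε
    have h1 : Cfsg.Agent.Lib.Helper86.IsFIso F γ := (mem_autGroup_iff F hR γ).mp hγ
    have h2 := aut_transport F E hSI hRT γ h1 hε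
    have h3 : MulAut.congr γ ε = γ * ε * γ⁻¹ := by
      ext x; rfl
    rw [← h3]; exact h2
  have hn : F.autGroup R ≤ Subgroup.normalizer ((E.autGroup R : Subgroup (MulAut R)) : Set (MulAut R)) :=
    fun γ hγ => mem_normalizer_of_conj_mem (fun ε hε => hconj γ hγ ε hε)
  have hsylK : IsSylIn p (autInducedBy S R ⊓ E.autGroup R) (E.autGroup R) :=
    hsyl'.inf_of_le_normalizer hAF hEle hn
  have hH : (autInducedBy S R ⊓ E.autGroup R).map (MulAut.conj γ).toMonoidHom ≤ E.autGroup R := by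
    rintro _ ⟨a, ha, rfl⟩
    exact hconj γ hγ a ha.2
  have hKp : IsPGroup p ↥(autInducedBy S R ⊓ E.autGroup R) := hAp.to_le inf_le_left
  obtain ⟨ε, hε, hle⟩ := hsylK.exists_conj_le hH (hKp.map _)
  refine ⟨ε⁻¹, Subgroup.inv_mem _ hε, ε * γ, Subgroup.mul_mem _ (hEle hε) hγ,
    by group, ?_⟩
  intro a ha
  have haK : a ∈ autInducedBy S R ⊓ E.autGroup R :=
    ⟨Cfsg.Agent.Lib.Helper89.autInducedBy_mono hTS R ha,
      Cfsg.Agent.Lib.Helper84.autInducedBy_le_autGroup E hRT ha⟩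
  have h1 : ε * (γ * a * γ⁻¹) * ε⁻¹ ∈ autInducedBy S R ⊓ E.autGroup R :=
    hle ⟨_, ⟨a, haK, rfl⟩, rfl⟩
  have h2 : ε * γ * a * (ε * γ)⁻¹ = ε * (γ * a * γ⁻¹) * ε⁻¹ := by group
  rw [h2]; exact h1.1

theorem ext_normalizerT (hTS : T ≤ S) {R : Subgroup Ω} {ν : MulAut R}
    (hν : ∀ a ∈ autInducedBy T R, ν * a * ν⁻¹ ∈ autInducedBy S R) :
    normalizerIn T R ≤ extender S R (R.subtype.comp ν.toMonoidHom) := by
  intro g hg
  have hc : R.normalizerMonoidHom ⟨g, hg.2⟩ ∈ autInducedBy T R :=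
    Cfsg.Agent.Lib.Helper86.normalizerMonoidHom_mem_autInducedBy hg
  obtain ⟨h, hh, hformula⟩ := (mem_autInducedBy_iff S R _).mp (hν _ hc)
  refine Subgroup.subset_closure ⟨hTS hg.1, hg.2, h, hh, fun x hx => ?_⟩
  have h1 := hformula (ν x)
  have h2 : (ν * R.normalizerMonoidHom ⟨g, hg.2⟩ * ν⁻¹) (ν x) = ν ⟨g * x * g⁻¹, hx⟩ := by
    show ν (R.normalizerMonoidHom ⟨g, hg.2⟩ (ν⁻¹ (ν x))) = _
    rw [MulAut.inv_apply_self]
    rfl
  rw [h2] at h1
  exact h1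

end

section
variable {Ω : Type*} [Group Ω] {S T : Subgroup Ω}

theorem aut_stepT [Finite S] {p : ℕ} [Fact p.Prime] (hS : IsPGroup p S) (F : FusionSystem S)
    (E : FusionSystem T) (hTS : T ≤ S) (hEF : E.IsSubsystemOf F) (hSI : StrongInv F E)
    {R : Subgroup Ω} (hRT : R ≤ T) (hfa : F.IsFullyAutomized p R) (hrec : F.IsReceptive R)
    (hne : R ≠ T)
    (hbig : ∀ Q : Subgroup Ω, Q ≤ T → Nat.card R < Nat.card Q →
      ∀ ψ : Q →* Ω, ψ ∈ F.Hom Q → DecT F E ψ)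
    {P : Subgroup Ω} {φ : P →* Ω} (hrange : φ.range = R)
    (hdec : DecT F E φ) (h' : ∀ x : P, φ x ∈ R)
    {γ : MulAut R} (hγ : γ ∈ F.autGroup R) :
    DecT F E ((R.subtype.comp γ.toMonoidHom).comp (φ.codRestrict R h')) := by
  classical
  have hR : R ≤ S := hrec.1
  have hTfin : Finite T := finite_of_le hTS
  have hTp : IsPGroup p T := hS.to_le hTS
  obtain ⟨ε, hε, ν, hν, rfl, hνA⟩ := fratT hS F E hTS hEF hSI hRT hfa hγ
  obtain ⟨g, hg, hgR⟩ := Cfsg.Agent.Lib.Helper86.exists_normalizerIn_not_mem hTp hRT hne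
  have hνF := (mem_autGroup_iff F hR ν).mp hν
  obtain ⟨ψ, hψ, hψext⟩ := hrec.2 R _ hνF (Cfsg.Agent.Lib.Helper86.range_comp_equiv ν)
  have hNle : normalizerIn T R ≤ extender S R (R.subtype.comp ν.toMonoidHom) :=
    ext_normalizerT hTS hνA
  have hψN := restrict_mem F hNle hψ
  have hRN : R ≤ normalizerIn T R := Cfsg.Agent.Lib.Helper84.le_normalizerIn hRT
  have hNT : normalizerIn T R ≤ T := inf_le_left
  have hfinN : Finite ↥(normalizerIn T R) := finite_of_le (hNT.trans hTS)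
  have hlt : Nat.card R < Nat.card ↥(normalizerIn T R) :=
    Cfsg.Agent.Lib.Helper86.card_lt_of_le_of_not_mem hRN hg hgR
  have h1 := decT_comp F E hTS hdec (fun x => hRN (h' x)) hψN hNT
    (fun Q₁ hQ₁T hQ₁ ψ₁ hψ₁ => hbig Q₁ hQ₁T (lt_of_lt_of_le hlt hQ₁) ψ₁ hψ₁)
  have h1' : DecT F E ((R.subtype.comp ν.toMonoidHom).comp (φ.codRestrict R h')) := by
    refine decT_congr F E h1 (fun x => ?_)
    exact (hψext (φ x) (h' x) (hNle (hRN (h' x)))).symm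
  have hrange1 : ((R.subtype.comp ν.toMonoidHom).comp (φ.codRestrict R h')).range = R := by
    apply le_antisymm
    · rintro _ ⟨x, rfl⟩; exact (ν _).2
    · intro y hy
      have hy' : ((ν⁻¹ ⟨y, hy⟩ : R) : Ω) ∈ φ.range := hrange.ge (ν⁻¹ ⟨y, hy⟩).2
      obtain ⟨x, hx⟩ := hy'
      refine ⟨x, ?_⟩
      show ((ν ⟨φ x, h' x⟩ : R) : Ω) = y
      have : (⟨φ x, h' x⟩ : R) = ν⁻¹ ⟨y, hy⟩ := Subtype.ext hx
      rw [this, MulAut.apply_inv_self]
  have h2 := decT_aut F E hTS hSI hrange1 hRT h1' hε (fun x => (ν _).2)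
  exact decT_congr F E h2 (fun x => rfl)

theorem frattiniT_all [Finite S] {p : ℕ} [Fact p.Prime] (hS : IsPGroup p S) (F : FusionSystem S)
    (hF : F.IsSaturated p) (E : FusionSystem T) (hEF : E.IsSubsystemOf F)
    (hT : F.StronglyClosed T) (hSI : StrongInv F E) :
    ∀ (P : Subgroup Ω), P ≤ T → ∀ (φ : P →* Ω), φ ∈ F.Hom P → DecT F E φ := by
  classical
  have hTS : T ≤ S := hT.1
  have hTfin : Finite T := finite_of_le hTS
  have hTp : IsPGroup p T := hS.to_le hTS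
  have main : ∀ n : ℕ, ∀ P : Subgroup Ω, P ≤ T → Nat.card T - Nat.card P = n →
      ∀ φ : P →* Ω, φ ∈ F.Hom P → DecT F E φ := by
    intro n
    induction n using Nat.strong_induction_on with
    | _ n ih =>
    intro P hPT hn φ hφ
    have hP : P ≤ S := hPT.trans hTS
    have hPfin : Finite P := finite_of_le hP
    have hbig : ∀ Q : Subgroup Ω, Q ≤ T → Nat.card P < Nat.card Q → ∀ ψ : Q →* Ω,
        ψ ∈ F.Hom Q → DecT F E ψ := by
      intro Q hQT hlt ψ hψ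
      have h1 : Nat.card Q ≤ Nat.card T := Subgroup.card_le_of_le hQT
      exact ih (Nat.card T - Nat.card Q) (by omega) Q hQT rfl ψ hψ
    have hφT : ∀ x : P, φ x ∈ T := fun x => hT.2 P hPT φ hφ x
    by_cases hPeq : P = T
    · have hrange : φ.range = T := by
        have hle : φ.range ≤ T := by rintro _ ⟨x, rfl⟩; exact hφT x
        apply Subgroup.eq_of_le_of_card_ge hle
        rw [← hPeq]
        exact (Nat.card_congr (MonoidHom.ofInjective (F.injective_of_mem hφ)).toEquiv).le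
      obtain ⟨e, he, hex⟩ := Cfsg.Agent.Lib.Helper86.exists_isFIso F hφ hrange
      have hαF : Cfsg.Agent.Lib.Helper86.IsFIso F
          ((MulEquiv.subgroupCongr hPeq.symm).trans e) := by
        have h1 : Cfsg.Agent.Lib.Helper86.IsFIso F (MulEquiv.subgroupCongr hPeq.symm) := by
          have h2 := subtype_mem F hTS
          exact Cfsg.Agent.Lib.Helper84.hom_of_eq F h2 (fun x => rfl)
        exact h1.trans he
      refine ⟨(MulEquiv.subgroupCongr hPeq.symm).trans e,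
        (mem_autGroup_iff F hTS _).mpr hαF, P.subtype, subtype_mem E hPT, fun x hx => ?_⟩
      have h3 := hex x
      rw [← h3]
      rfl
    · obtain ⟨R, hPR, hRfn⟩ := exists_fullyNormalized_conj F hP
      obtain ⟨hfa, hrec⟩ := Cfsg.Agent.Lib.Helper86.fullyNormalized_imp hS F hF hRfn
      have hR : R ≤ S := hrec.1
      have hRfin : Finite R := finite_of_le hR
      obtain ⟨θ, hθ, hθR⟩ := hPR
      have hRT : R ≤ T := by
        rw [← hθR]; rintro _ ⟨x, rfl⟩; exact hT.2 P hPT θ hθ x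
      obtain ⟨e₀, he₀, -⟩ := Cfsg.Agent.Lib.Helper86.exists_isFIso F hθ hθR
      have hcardR : Nat.card R = Nat.card P := (Nat.card_congr e₀.toEquiv).symm
      have hRne : R ≠ T := by
        intro hRS
        apply hPeq
        apply Subgroup.eq_of_le_of_card_ge hPT
        rw [← hcardR, hRS]
      obtain ⟨χ₁, hχ₁, hχ₁N, hχ₁P⟩ :=
        Cfsg.Agent.Lib.Helper86.exists_hom_normalizer_onto hS F hfa hrec ⟨θ, hθ, hθR⟩
      obtain ⟨g₁, hg₁, hg₁P⟩ :=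
        Cfsg.Agent.Lib.Helper86.exists_normalizerIn_not_mem hTp hPT hPeq
      have hPN : P ≤ normalizerIn T P := Cfsg.Agent.Lib.Helper84.le_normalizerIn hPT
      have hNN : normalizerIn T P ≤ normalizerIn S P := inf_le_inf_right _ hTS
      have hNT : normalizerIn T P ≤ T := inf_le_left
      have hfinN : Finite ↥(normalizerIn T P) := finite_of_le (hNT.trans hTS)
      have hlt₁ : Nat.card P < Nat.card ↥(normalizerIn T P) :=
        Cfsg.Agent.Lib.Helper86.card_lt_of_le_of_not_mem hPN hg₁ hg₁P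
      have hχ₁' := restrict_mem F hNN hχ₁
      have hdec₁ := decT_restrict F E (hbig _ hNT hlt₁ _ hχ₁') hPN
      have hφ₁ := restrict_mem F hPN hχ₁'
      have hrange₁ : ((χ₁.comp (Subgroup.inclusion hNN)).comp
          (Subgroup.inclusion hPN)).range = R := by
        rw [← hχ₁P]
        ext y
        constructor
        · rintro ⟨x, rfl⟩
          exact ⟨Subgroup.inclusion hNN (Subgroup.inclusion hPN x),
            Subgroup.mem_subgroupOf.mpr x.2, rfl⟩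
        · rintro ⟨x, hx, rfl⟩
          exact ⟨⟨x, Subgroup.mem_subgroupOf.mp hx⟩, rfl⟩
      obtain ⟨e₁, he₁, he₁x⟩ := Cfsg.Agent.Lib.Helper86.exists_isFIso F hφ₁ hrange₁
      obtain ⟨eφ, heφ, heφx⟩ := Cfsg.Agent.Lib.Helper86.exists_isFIso F hφ rfl
      have hP₂T : φ.range ≤ T := by rintro _ ⟨x, rfl⟩; exact hφT x
      have hP₂ : φ.range ≤ S := hP₂T.trans hTS
      have hP₂R : F.IsConj φ.range R :=
        isConj_trans F (isConj_symm F ⟨φ, hφ, rfl⟩) ⟨θ, hθ, hθR⟩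
      obtain ⟨χ₂, hχ₂, hχ₂N, hχ₂P⟩ :=
        Cfsg.Agent.Lib.Helper86.exists_hom_normalizer_onto hS F hfa hrec hP₂R
      have hP₂N : φ.range ≤ normalizerIn T φ.range :=
        Cfsg.Agent.Lib.Helper84.le_normalizerIn hP₂T
      have hNN₂ : normalizerIn T φ.range ≤ normalizerIn S φ.range := inf_le_inf_right _ hTS
      have hNT₂ : normalizerIn T φ.range ≤ T := inf_le_left
      have hχ₂' := restrict_mem F hNN₂ hχ₂
      have hφ₂ := restrict_mem F hP₂N hχ₂'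
      have hrange₂ : ((χ₂.comp (Subgroup.inclusion hNN₂)).comp
          (Subgroup.inclusion hP₂N)).range = R := by
        rw [← hχ₂P]
        ext y
        constructor
        · rintro ⟨x, rfl⟩
          exact ⟨Subgroup.inclusion hNN₂ (Subgroup.inclusion hP₂N x),
            Subgroup.mem_subgroupOf.mpr x.2, rfl⟩
        · rintro ⟨x, hx, rfl⟩
          exact ⟨⟨x, Subgroup.mem_subgroupOf.mp hx⟩, rfl⟩
      obtain ⟨e₂, he₂, he₂x⟩ := Cfsg.Agent.Lib.Helper86.exists_isFIso F hφ₂ hrange₂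
      have hγF : Cfsg.Agent.Lib.Helper86.IsFIso F (e₁.symm.trans (eφ.trans e₂)) :=
        he₁.symm.trans (heφ.trans he₂)
      have hγ : (e₁.symm.trans (eφ.trans e₂) : MulAut R) ∈ F.autGroup R :=
        (mem_autGroup_iff F hR _).mpr hγF
      have h'₁ : ∀ x : P, ((χ₁.comp (Subgroup.inclusion hNN)).comp
          (Subgroup.inclusion hPN)) x ∈ R :=
        fun x => hrange₁.le ⟨x, rfl⟩
      have hstep := aut_stepT hS F E hTS hEF hSI hRT hfa hrec hRne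
        (fun Q hQT hQ ψ hψ => hbig Q hQT (by rw [← hcardR]; exact hQ) ψ hψ)
        hrange₁ hdec₁ h'₁ hγ
      have hkey : ∀ x : P, ((R.subtype.comp
          (MulEquiv.toMonoidHom (e₁.symm.trans (eφ.trans e₂) : MulAut R))).comp
          (((χ₁.comp (Subgroup.inclusion hNN)).comp
            (Subgroup.inclusion hPN)).codRestrict R h'₁)) x =
          (χ₂.comp (Subgroup.inclusion hNN₂)) (Subgroup.inclusion hP₂N (eφ x)) := by
        intro x
        have h1 : (⟨((χ₁.comp (Subgroup.inclusion hNN)).comp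
            (Subgroup.inclusion hPN)) x, h'₁ x⟩ : R) = e₁ x :=
          Subtype.ext (he₁x x).symm
        show ((e₂ (eφ (e₁.symm ⟨((χ₁.comp (Subgroup.inclusion hNN)).comp
            (Subgroup.inclusion hPN)) x, h'₁ x⟩)) : R) : Ω) = _
        rw [h1, e₁.symm_apply_apply, he₂x]
        rfl
      obtain ⟨ω, hω, hωx⟩ := F.inv_mem hχ₂'
      have hrangeT : (χ₂.comp (Subgroup.inclusion hNN₂)).range ≤ T := by
        rintro _ ⟨y, rfl⟩
        exact hT.2 _ hNT₂ _ hχ₂' y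
      have hcardφ : Nat.card φ.range = Nat.card P := (Nat.card_congr eφ.toEquiv).symm
      have hP₂ne : φ.range ≠ T := by
        intro hRS
        apply hPeq
        apply Subgroup.eq_of_le_of_card_ge hPT
        rw [← hcardφ, hRS]
      obtain ⟨g₂, hg₂, hg₂P⟩ :=
        Cfsg.Agent.Lib.Helper86.exists_normalizerIn_not_mem hTp hP₂T hP₂ne
      have hfinN₂ : Finite ↥(normalizerIn T φ.range) := finite_of_le (hNT₂.trans hTS)
      have hlt₂' : Nat.card φ.range < Nat.card ↥(normalizerIn T φ.range) :=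
        Cfsg.Agent.Lib.Helper86.card_lt_of_le_of_not_mem hP₂N hg₂ hg₂P
      have hcardχ : Nat.card ↥(χ₂.comp (Subgroup.inclusion hNN₂)).range =
          Nat.card ↥(normalizerIn T φ.range) :=
        (Nat.card_congr (MonoidHom.ofInjective (F.injective_of_mem hχ₂')).toEquiv).symm
      have hlt₂ : Nat.card P < Nat.card ↥(χ₂.comp (Subgroup.inclusion hNN₂)).range := by omega
      have hmem : ∀ x : P, ((R.subtype.comp
          (MulEquiv.toMonoidHom (e₁.symm.trans (eφ.trans e₂) : MulAut R))).comp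
          (((χ₁.comp (Subgroup.inclusion hNN)).comp
            (Subgroup.inclusion hPN)).codRestrict R h'₁)) x ∈
          (χ₂.comp (Subgroup.inclusion hNN₂)).range := by
        intro x
        rw [hkey x]
        exact ⟨_, rfl⟩
      have hfinal := decT_comp F E hTS hstep hmem hω hrangeT
        (fun Q₁ hQ₁T hQ₁ ψ₁ hψ₁ => hbig Q₁ hQ₁T (lt_of_lt_of_le hlt₂ hQ₁) ψ₁ hψ₁)
      refine decT_congr F E hfinal (fun x => ?_)
      have h3 := hωx (Subgroup.inclusion hP₂N (eφ x))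
      have h4 : (⟨_, hmem x⟩ : (χ₂.comp (Subgroup.inclusion hNN₂)).range) =
          ⟨(χ₂.comp (Subgroup.inclusion hNN₂)) (Subgroup.inclusion hP₂N (eφ x)), ⟨_, rfl⟩⟩ :=
        Subtype.ext (hkey x)
      show φ x = ω ⟨_, hmem x⟩
      rw [h4, h3]
      exact (heφx x).symm
  intro P hPT φ hφ
  exact main _ P hPT rfl φ hφ

theorem strongInv_of_invariant (F : FusionSystem S) (E : FusionSystem T)
    (h : E.IsInvariantIn F) : StrongInv F E := by
  obtain ⟨hEF, hT, hinv, hfrat⟩ := h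
  intro P Q hPQ hQT φ hφ hφQ ψ hψ
  obtain ⟨α, hα, ψ₀, hψ₀, hψe⟩ := hfrat Q hQT ψ hψ
  have hψ₀T : ∀ y : Q, ψ₀ y ∈ T := (E.le_of_mem hψ₀).2
  have hψ₀P := restrict_mem E hPQ hψ₀
  obtain ⟨ι, hι, hιx⟩ := E.inv_mem hψ₀P
  have hιP : ∀ y : ↥(ψ₀.comp (Subgroup.inclusion hPQ)).range, ι y ∈ P := by
    rintro ⟨_, ⟨x, rfl⟩⟩
    rw [hιx x]; exact x.2
  have h1 := E.comp_mem hι hφ hιP
  have h1Q : ∀ y, (φ.comp (ι.codRestrict P hιP)) y ∈ Q := fun y => hφQ _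
  have hχ₁ := E.comp_mem h1 hψ₀ h1Q
  have hP₁T : (ψ₀.comp (Subgroup.inclusion hPQ)).range ≤ T := by
    rintro _ ⟨x, rfl⟩; exact hψ₀T _
  obtain ⟨χ, hχ, hχx⟩ := hinv _ hP₁T _ hχ₁ α hα
  have hEq : (P.subgroupOf Q).map ψ =
      (((ψ₀.comp (Subgroup.inclusion hPQ)).range).subgroupOf T).map
        (T.subtype.comp α.toMonoidHom) := by
    ext y
    constructor
    · rintro ⟨x, hx, rfl⟩
      refine ⟨⟨ψ₀ x, hψ₀T x⟩,
        Subgroup.mem_subgroupOf.mpr ⟨⟨x, Subgroup.mem_subgroupOf.mp hx⟩, rfl⟩, ?_⟩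
      exact (hψe x (hψ₀T x)).symm
    · rintro ⟨t, ht, rfl⟩
      obtain ⟨x, hx⟩ := Subgroup.mem_subgroupOf.mp ht
      refine ⟨Subgroup.inclusion hPQ x, Subgroup.mem_subgroupOf.mpr x.2, ?_⟩
      rw [hψe _ (hψ₀T _)]
      show ((α ⟨ψ₀ (Subgroup.inclusion hPQ x), _⟩ : T) : Ω) = ((α t : T) : Ω)
      congr 2
      exact Subtype.ext hx
  refine ⟨χ.comp (Subgroup.inclusion hEq.le), hom_cast E hEq hχ, fun x hx => ?_⟩
  have hy : (ψ₀.comp (Subgroup.inclusion hPQ)) x ∈ (ψ₀.comp (Subgroup.inclusion hPQ)).range :=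
    ⟨x, rfl⟩
  have hαx : ((α ⟨(ψ₀.comp (Subgroup.inclusion hPQ)) x, hP₁T hy⟩ : T) : Ω) ∈
      (((ψ₀.comp (Subgroup.inclusion hPQ)).range).subgroupOf T).map
        (T.subtype.comp α.toMonoidHom) :=
    ⟨⟨_, hP₁T hy⟩, Subgroup.mem_subgroupOf.mpr hy, rfl⟩
  have h2 := hχx ⟨_, hy⟩ ((E.le_of_mem hχ₁).2 _) hαx
  have hι' : (⟨ι ⟨_, hy⟩, hιP ⟨_, hy⟩⟩ : P) = x := Subtype.ext (hιx x)
  have hχ₁x : (ψ₀.comp ((φ.comp (ι.codRestrict P hιP)).codRestrict Q h1Q)) ⟨_, hy⟩ =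
      ψ₀ ⟨φ x, hφQ x⟩ := by
    show ψ₀ ⟨φ (⟨ι ⟨_, hy⟩, hιP ⟨_, hy⟩⟩ : P), _⟩ = _
    congr 1
    apply Subtype.ext
    show φ _ = φ x
    rw [hι']
  have h3 : (⟨ψ (Subgroup.inclusion hPQ x), hEq.le hx⟩ :
      ↥((((ψ₀.comp (Subgroup.inclusion hPQ)).range).subgroupOf T).map
        (T.subtype.comp α.toMonoidHom))) =
      ⟨((α ⟨(ψ₀.comp (Subgroup.inclusion hPQ)) x, hP₁T hy⟩ : T) : Ω), hαx⟩ :=
    Subtype.ext (hψe _ _)
  show χ ⟨ψ (Subgroup.inclusion hPQ x), hEq.le hx⟩ = ψ ⟨φ x, hφQ x⟩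
  rw [h3, h2, hψe ⟨φ x, hφQ x⟩ (hψ₀T _)]
  congr 2
  exact Subtype.ext hχ₁x

end

/-- Let F be a saturated fusion system over a finite p-group S and E a subsystem of F over a subgroup T that is strongly closed in F. Then E is invariant in F (invariance under Aut_F(T) plus the Frattini condition) if and only if the strong invariance condition holds: for P ≤ Q ≤ T, every map φ of E from P into Q and every map ψ of F with source Q, the transported map ψ φ ψ⁻¹ on ψ(P) is a map of E. -/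
theorem result {Ω : Type*} [Group Ω] {S : Subgroup Ω} [Finite S] (p : ℕ) [Fact p.Prime] (hS : IsPGroup p S) (F : Cfsg.FusionSystem S) (hF : F.IsSaturated p) {T : Subgroup Ω} (E : Cfsg.FusionSystem T) (hE : E.IsSubsystemOf F) (hT : F.StronglyClosed T) : E.IsInvariantIn F ↔ ∀ (P Q : Subgroup Ω) (hPQ : P ≤ Q) (_ : Q ≤ T) (φ : P →* Ω) (_ : φ ∈ E.Hom P) (hφQ : ∀ x : P, φ x ∈ Q) (ψ : Q →* Ω) (_ : ψ ∈ F.Hom Q), ∃ χ ∈ E.Hom ((P.subgroupOf Q).map ψ), ∀ (x : P) (hx : ψ (Subgroup.inclusion hPQ x) ∈ (P.subgroupOf Q).map ψ), χ ⟨ψ (Subgroup.inclusion hPQ x), hx⟩ = ψ ⟨φ x, hφQ x⟩ := by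
  classical
  constructor
  · intro h
    exact strongInv_of_invariant F E h
  · intro hSI
    have hSI' : StrongInv F E := hSI
    refine ⟨hE, hT, ?_, fun P hPT φ hφ => frattiniT_all hS F hF E hE hT hSI' P hPT φ hφ⟩
    intro P hPT φ hφ α hα
    have hαF := (Cfsg.Agent.Lib.Helper85.mem_autGroup_iff F hT.1 α).mp hα
    obtain ⟨χ, hχ, hχx⟩ := hSI P T hPT le_rfl φ hφ (fun x => (E.le_of_mem hφ).2 x) _ hαF
    exact ⟨χ, hχ, fun x hφx hαx => hχx x hαx⟩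

end Cfsg.Agent.S5119
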