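import Cfsg.Statements.S5139
import Cfsg.Agent.S5118
import Cfsg.Agent.Lib.Helper84.Hyperfocal
import Cfsg.Agent.Lib.Helper86.PPower

set_option autoImplicit false
open Cfsg

namespace Cfsg.Agent.S5139

open Cfsg.FusionSystem Cfsg.Agent.Lib.Helper84 Cfsg.Agent.Lib.Helper86 in
theorem hasPPowerIndexIn_aux {G : Type*} [Group G] [Finite G] (p : ℕ) [Fact p.Prime] (S : Sylow p G) :
    (Cfsg.fusionSystemOfSubgroup (Cfsg.pResidual p G) ((S : Subgroup G) ⊓ Cfsg.pResidual p G)
      inf_le_right).HasPPowerIndexIn (Cfsg.groupFusionSystem (S : Subgroup G)) p := by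
  have hK : (pResidual p G).Normal := Cfsg.Agent.Lib.Helper2.pResidual_normal p
  have hnorm := Cfsg.Agent.S5118.result p S (pResidual p G)
  refine ⟨hnorm.1.2.2.1, (Cfsg.Agent.Lib.Helper84.hyperfocal_eq p S).le, ?_⟩
  intro P hPT
  have hPS : P ≤ (S : Subgroup G) := hPT.trans inf_le_left
  rw [Subgroup.map_le_iff_le_comap]
  refine (Subgroup.closure_le _).2 ?_
  intro α hα
  have hα' : Nat.Coprime (orderOf α) p := hα
  rw [SetLike.mem_coe, Subgroup.mem_comap]
  show ((α : MulAut P)) ∈ _
  have hmem : (α : MulAut P) ∈ (groupFusionSystem (S : Subgroup G)).autGroup P := α.2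
  rw [Cfsg.Agent.Lib.Helper84.mem_autGroup_iff _ hPS] at hmem
  obtain ⟨-, -, g, hg⟩ := hmem
  have hord : Nat.Coprime (orderOf (α : MulAut P)) p := by
    rw [Subgroup.orderOf_coe]; exact hα'
  obtain ⟨g', hg'cop, hg'⟩ := Cfsg.Agent.Lib.Helper84.exists_pprime_lift (α : MulAut P) hord g (fun x => hg x)
  rw [Cfsg.Agent.Lib.Helper84.mem_autGroup_iff _ hPT]
  refine ⟨hPT, fun x => hPT ((α : MulAut P) x).2, g', Subgroup.subset_closure hg'cop, fun x => hg' x⟩

/-- Let G be a finite group with Sylow p-subgroup S and O^p(G) the subgroup generated by the elements of order prime to p. Then the p-residual subsystem of the fusion system of G on S — the saturated subsystem of p-power index over the hyperfocal subgroup — is the fusion system of O^p(G) on S ∩ O^p(G): its maps are exactly the conjugation maps by elements of O^p(G) between subgroups of S ∩ O^p(G). -/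
theorem result {G : Type*} [Group G] [Finite G] (p : ℕ) [Fact p.Prime] (S : Sylow p G) (E : Cfsg.FusionSystem ((Cfsg.groupFusionSystem (S : Subgroup G)).hyperfocalSubgroup p)) (hE : (Cfsg.groupFusionSystem (S : Subgroup G)).IsPResidual p E) : ∃ h : (S : Subgroup G) ⊓ Cfsg.pResidual p G ≤ Cfsg.pResidual p G, ∀ P : Subgroup G, E.Hom P = (Cfsg.fusionSystemOfSubgroup (Cfsg.pResidual p G) ((S : Subgroup G) ⊓ Cfsg.pResidual p G) h).Hom P := by
  refine ⟨inf_le_right, ?_⟩
  obtain ⟨hsat, hpp⟩ := hE
  have hK : (pResidual p G).Normal := Cfsg.Agent.Lib.Helper2.pResidual_normal p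
  have hnorm := Cfsg.Agent.S5118.result p S (pResidual p G)
  have key : ∀ (U : Subgroup G) (_ : U = (S : Subgroup G) ⊓ pResidual p G) (E : FusionSystem U),
      E.IsSaturated p → E.HasPPowerIndexIn (groupFusionSystem (S : Subgroup G)) p →
      ∀ P : Subgroup G, E.Hom P = (fusionSystemOfSubgroup (pResidual p G)
        ((S : Subgroup G) ⊓ pResidual p G) inf_le_right).Hom P := by
    intro U hU E hsat hpp P
    subst hU
    have := Cfsg.Agent.Lib.Helper86.eq_of_hasPPowerIndexIn S.isPGroup'
      (groupFusionSystem (S : Subgroup G)) E _ hsat hnorm.1.1 hpp (hasPPowerIndexIn_aux p S)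
    rw [this]
  exact key _ (Cfsg.Agent.Lib.Helper84.hyperfocal_eq p S) E hsat hpp

end Cfsg.Agent.S5139
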