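import Cfsg.Statements.S5144
-- import your own Cfsg.Agent.* helpers here
import Cfsg.Agent.Lib.Helper85.FusionNormal

set_option autoImplicit false
open Cfsg

namespace Cfsg.Agent.S5144

/-- For a fusion system over a finite subgroup S, the centre of the system (the join of all subgroups central in it) is itself central in the system, hence its largest central subgroup. -/
theorem result {Ω : Type*} [Group Ω] {S : Subgroup Ω} [Finite S] (F : Cfsg.FusionSystem S) : F.IsCentral F.center := by
  exact Cfsg.Agent.Lib.Helper85.isCentral_center F

end Cfsg.Agent.S5144
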