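import Cfsg.Statements.S5164
import Mathlib

set_option autoImplicit false
open Cfsg Equiv

namespace Cfsg.Agent.S5164

theorem comm_of_lt (n p : ℕ) [Fact p.Prime] (S : Sylow p (alternatingGroup (Fin n)))
    (h : n < p ^ 2) : IsMulCommutative S := by
  have hp : p.Prime := Fact.out
  constructor; constructor; intro x y
  have key : ∀ i : Fin n, (y * x)⁻¹ * (x * y) ∈ MulAction.stabilizer S i := by
    intro i
    set H := MulAction.stabilizer S i with hH
    have hS : IsPGroup p S := S.isPGroup'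
    obtain ⟨m, hm⟩ := hS.index H
    have hle : H.index ≤ n := by
      rw [MulAction.index_stabilizer]
      calc (MulAction.orbit S i).ncard ≤ (Set.univ : Set (Fin n)).ncard :=
            Set.ncard_le_ncard (Set.subset_univ _)
        _ = n := by simp
    have hm1 : m ≤ 1 := by
      by_contra hcon
      push Not at hcon
      have : p ^ 2 ≤ p ^ m := Nat.pow_le_pow_right hp.pos hcon
      omega
    interval_cases m
    · have : H = ⊤ := Subgroup.index_eq_one.mp (by simpa using hm)
      rw [this]; trivial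
    · have hm' : H.index = p := by simpa using hm
      have hcard : Nat.card (S ⧸ H) = p := by rw [← Subgroup.index_eq_card]; exact hm'
      have hnorm : H.Normal := by
        apply Subgroup.normal_of_index_eq_minFac_card
        obtain ⟨k, hk⟩ := (IsPGroup.iff_card.mp hS)
        have hk0 : k ≠ 0 := by
          rintro rfl
          have h1 : H.index ∣ Nat.card S := Subgroup.index_dvd_card H
          rw [hk, hm'] at h1
          simp at h1
          exact hp.one_lt.ne' h1
        rw [hk, hm', hp.pow_minFac hk0]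
      have := hnorm
      have : IsCyclic (S ⧸ H) := isCyclic_of_prime_card hcard
      have hc := (IsCyclic.isMulCommutative (α := S ⧸ H)).is_comm.comm (x : S ⧸ H) (y : S ⧸ H)
      exact QuotientGroup.eq.mp (by simpa using hc.symm)
  have h1 : (y * x)⁻¹ * (x * y) = 1 := by
    apply Subtype.ext; apply Subtype.ext; ext i
    have := key i
    rw [MulAction.mem_stabilizer_iff] at this
    exact congrArg Fin.val this
  have h2 : x * y = (y * x) * ((y * x)⁻¹ * (x * y)) := by group
  rw [h2, h1, mul_one]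

/-- Affine shear maps on `ZMod p × ZMod p`: a Heisenberg group. -/
def heis (p : ℕ) : Subgroup (Equiv.Perm (ZMod p × ZMod p)) where
  carrier := {σ | ∃ c a b : ZMod p, ∀ i j, σ (i, j) = (i + c, j + a * i + b)}
  mul_mem' := by
    rintro σ τ ⟨c₁, a₁, b₁, h₁⟩ ⟨c₂, a₂, b₂, h₂⟩
    refine ⟨c₁ + c₂, a₁ + a₂, b₁ + b₂ + a₁ * c₂, fun i j => ?_⟩
    rw [Equiv.Perm.mul_apply, h₂, h₁]
    ext
    · simp only; ring
    · simp only; ring
  one_mem' := ⟨0, 0, 0, fun i j => by simp⟩
  inv_mem' := by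
    rintro σ ⟨c, a, b, h⟩
    refine ⟨-c, -a, a * c - b, fun i j => ?_⟩
    rw [Equiv.Perm.inv_eq_iff_eq, h]
    ext
    · simp only; ring
    · simp only; ring

theorem heis_isPGroup (p : ℕ) [Fact p.Prime] : IsPGroup p (heis p) := by
  rintro ⟨σ, c, a, b, h⟩
  refine ⟨2, Subtype.ext ?_⟩
  have pow1 : ∀ m : ℕ, ∃ b' : ZMod p, ∀ i j,
      (σ ^ m) (i, j) = (i + m * c, j + (m * a) * i + b') := by
    intro m
    induction m with
    | zero => exact ⟨0, fun i j => by simp⟩
    | succ m ih =>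
      obtain ⟨b', hb'⟩ := ih
      refine ⟨b + m * a * c + b', fun i j => ?_⟩
      rw [pow_succ, Equiv.Perm.mul_apply, h, hb']
      ext
      · simp only; push_cast; ring
      · simp only; push_cast; ring
  obtain ⟨β, hβ⟩ := pow1 p
  have hβ' : ∀ i j, (σ ^ p) (i, j) = (i, j + β) := by
    intro i j; rw [hβ]; simp
  have pow2 : ∀ m : ℕ, ∀ i j, ((σ ^ p) ^ m) (i, j) = (i, j + m * β) := by
    intro m
    induction m with
    | zero => intro i j; simp
    | succ m ih =>
      intro i j
      rw [pow_succ, Equiv.Perm.mul_apply, hβ', ih]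
      ext
      · simp only
      · simp only; push_cast; ring
  show σ ^ p ^ 2 = 1
  rw [pow_two, pow_mul]
  ext ⟨i, j⟩
  · rw [pow2 p i j]; simp
  · rw [pow2 p i j]; simp

/-- the shear `(i, j) ↦ (i, j + i)` -/
def shearA (p : ℕ) : Equiv.Perm (ZMod p × ZMod p) :=
  Equiv.prodShear (Equiv.refl _) (fun i => Equiv.addRight i)

/-- the shift `(i, j) ↦ (i + 1, j)` -/
def shiftB (p : ℕ) : Equiv.Perm (ZMod p × ZMod p) :=
  Equiv.prodCongr (Equiv.addRight 1) (Equiv.refl _)

theorem shearA_mem (p : ℕ) : shearA p ∈ heis p :=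
  ⟨0, 1, 0, fun i j => by simp [shearA]⟩

theorem shiftB_mem (p : ℕ) : shiftB p ∈ heis p :=
  ⟨1, 0, 0, fun i j => by simp [shiftB]⟩

theorem shear_shift_ne (p : ℕ) [Fact p.Prime] : shearA p * shiftB p ≠ shiftB p * shearA p := by
  intro h
  have h1 := congrArg (fun σ : Equiv.Perm (ZMod p × ZMod p) => (σ (0, 0)).2) h
  simp [shearA, shiftB] at h1

theorem not_comm_of_subgroup {G : Type*} [Group G] [Finite G] {p : ℕ} [Fact p.Prime]
    (K : Subgroup G) (hK : IsPGroup p K) (x y : G) (hx : x ∈ K) (hy : y ∈ K)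
    (hxy : x * y ≠ y * x) (S : Sylow p G) : ¬ IsMulCommutative S := by
  intro hc
  obtain ⟨Q, hQ⟩ := hK.exists_le_sylow
  obtain ⟨g, hg⟩ := MulAction.exists_smul_eq G Q S
  have hmem : ∀ z ∈ K, g * z * g⁻¹ ∈ (S : Subgroup G) := by
    intro z hz
    rw [← hg, Sylow.smul_def, Sylow.pointwise_smul_def]
    exact ⟨z, hQ hz, rfl⟩
  have h1 := hc.is_comm.comm ⟨_, hmem x hx⟩ ⟨_, hmem y hy⟩
  have h2 : g * x * g⁻¹ * (g * y * g⁻¹) = g * y * g⁻¹ * (g * x * g⁻¹) := congrArg Subtype.val h1
  apply hxy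
  have h3 : x * y = g⁻¹ * (g * x * g⁻¹ * (g * y * g⁻¹)) * g := by group
  rw [h3, h2]; group

theorem sign_eq_one_of_pgroup {Y : Type*} [Fintype Y] [DecidableEq Y] {p : ℕ} [Fact p.Prime]
    (hp2 : p ≠ 2) (K : Subgroup (Perm Y)) (hK : IsPGroup p K) (σ : Perm Y) (hσ : σ ∈ K) :
    Perm.sign σ = 1 := by
  have hp : p.Prime := Fact.out
  obtain ⟨k, hk⟩ := hK ⟨σ, hσ⟩
  have h1 : σ ^ p ^ k = 1 := congrArg Subtype.val hk
  have h2 : Perm.sign σ ^ p ^ k = 1 := by rw [← map_pow, h1, map_one]
  rcases Int.units_eq_one_or (Perm.sign σ) with h | h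
  · exact h
  · rw [h] at h2
    have hodd : Odd (p ^ k) := (hp.odd_of_ne_two hp2).pow
    rw [Odd.neg_one_pow hodd] at h2
    exact absurd h2 (by decide)

theorem exists_in_alt (n p : ℕ) [Fact p.Prime] {Y : Type} [Fintype Y] [DecidableEq Y]
    (hY : Fintype.card Y ≤ n) (K : Subgroup (Perm Y)) (hK : IsPGroup p K)
    (heven : ∀ σ ∈ K, Perm.sign σ = 1) (x y : Perm Y) (hx : x ∈ K) (hy : y ∈ K)
    (hxy : x * y ≠ y * x) :
    ∃ (K' : Subgroup (alternatingGroup (Fin n))) (x' y' : alternatingGroup (Fin n)),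
      IsPGroup p K' ∧ x' ∈ K' ∧ y' ∈ K' ∧ x' * y' ≠ y' * x' := by
  obtain ⟨ι⟩ := Function.Embedding.nonempty_of_card_le (α := Y) (β := Fin n) (by simpa using hY)
  have hf : Function.Injective (Perm.viaEmbeddingHom ι) := Perm.viaEmbeddingHom_injective ι
  have hsign : ∀ σ, Perm.sign (Perm.viaEmbeddingHom ι σ) = Perm.sign σ := by
    intro σ
    rw [Perm.viaEmbeddingHom_apply, Perm.viaEmbedding, Perm.sign_extendDomain]
  have hK₁ : IsPGroup p (K.map (Perm.viaEmbeddingHom ι)) := hK.map _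
  have hle : K.map (Perm.viaEmbeddingHom ι) ≤ alternatingGroup (Fin n) := by
    rintro _ ⟨σ, hσ, rfl⟩
    rw [Perm.mem_alternatingGroup, hsign]; exact heven σ hσ
  refine ⟨(K.map (Perm.viaEmbeddingHom ι)).subgroupOf (alternatingGroup (Fin n)),
    ⟨Perm.viaEmbeddingHom ι x, hle ⟨x, hx, rfl⟩⟩, ⟨Perm.viaEmbeddingHom ι y, hle ⟨y, hy, rfl⟩⟩,
    hK₁.comap_subtype, ?_, ?_, ?_⟩
  · exact Subgroup.mem_subgroupOf.mpr ⟨x, hx, rfl⟩
  · exact Subgroup.mem_subgroupOf.mpr ⟨y, hy, rfl⟩
  · intro h
    apply hxy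
    apply hf
    rw [map_mul, map_mul]
    exact congrArg Subtype.val h

/-- a homomorphism from the sign group onto the permutations of two points -/
def epsHom : ℤˣ →* Perm (Fin 2) :=
  MonoidHom.mk' (fun u => if u = 1 then 1 else Equiv.swap 0 1) (by
    intro u v
    rcases Int.units_eq_one_or u with rfl | rfl <;> rcases Int.units_eq_one_or v with rfl | rfl <;>
      simp)

/-- every permutation group embeds into an alternating group on two more points -/
def twist (Y : Type) [Fintype Y] [DecidableEq Y] : Perm Y →* Perm (Y ⊕ Fin 2) :=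
  (Perm.sumCongrHom Y (Fin 2)).comp (MonoidHom.prod (MonoidHom.id _) (epsHom.comp Perm.sign))

theorem twist_injective (Y : Type) [Fintype Y] [DecidableEq Y] : Function.Injective (twist Y) := by
  intro σ τ h
  ext y
  have := congrArg (fun π : Perm (Y ⊕ Fin 2) => π (Sum.inl y)) h
  simpa [twist] using this

theorem sign_twist (Y : Type) [Fintype Y] [DecidableEq Y] (σ : Perm Y) :
    Perm.sign (twist Y σ) = 1 := by
  have h : twist Y σ = Equiv.sumCongr σ (epsHom (Perm.sign σ)) := rfl
  rw [h, Perm.sign_sumCongr]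
  rcases Int.units_eq_one_or (Perm.sign σ) with h1 | h1
  · rw [h1]; simp [epsHom]
  · rw [h1]; simp [epsHom]

/-- For n ≥ 6 and a prime p, a nontrivial Sylow p-subgroup of the alternating group of degree n is abelian if and only if n < p². -/
theorem result (n p : ℕ) (hn : 6 ≤ n) [Fact p.Prime] (S : Sylow p (alternatingGroup (Fin n))) (hS : (S : Subgroup (alternatingGroup (Fin n))) ≠ ⊥) : IsMulCommutative S ↔ n < p ^ 2 := by
  have hp : p.Prime := Fact.out
  constructor
  · intro hc
    by_contra hlt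
    push Not at hlt
    have : NeZero p := ⟨hp.ne_zero⟩
    have hcardX : Fintype.card (ZMod p × ZMod p) = p ^ 2 := by simp [ZMod.card, pow_two]
    obtain ⟨K', x', y', hK', hx', hy', hxy'⟩ : ∃ (K' : Subgroup (alternatingGroup (Fin n)))
        (x' y' : alternatingGroup (Fin n)), IsPGroup p K' ∧ x' ∈ K' ∧ y' ∈ K' ∧ x' * y' ≠ y' * x' := by
      by_cases hp2 : p = 2
      · subst hp2
        refine exists_in_alt n 2 (Y := (ZMod 2 × ZMod 2) ⊕ Fin 2) ?_ ((heis 2).map (twist _))
          ((heis_isPGroup 2).map _) ?_ (twist _ (shearA 2)) (twist _ (shiftB 2))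
          ⟨_, shearA_mem 2, rfl⟩ ⟨_, shiftB_mem 2, rfl⟩ ?_
        · simp only [Fintype.card_sum, hcardX, Fintype.card_fin]
          omega
        · rintro _ ⟨σ, -, rfl⟩
          exact sign_twist _ σ
        · intro h
          rw [← map_mul, ← map_mul] at h
          exact shear_shift_ne 2 (twist_injective _ h)
      · exact exists_in_alt n p (by rw [hcardX]; exact hlt) (heis p) (heis_isPGroup p)
          (fun σ hσ => sign_eq_one_of_pgroup hp2 _ (heis_isPGroup p) σ hσ) (shearA p) (shiftB p)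
          (shearA_mem p) (shiftB_mem p) (shear_shift_ne p)
    exact not_comm_of_subgroup K' hK' x' y' hx' hy' hxy' S hc
  · exact comm_of_lt n p S

end Cfsg.Agent.S5164
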