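import Cfsg.Statements.S5166
import Cfsg.Agent.Lib.Helper86.MathieuSmall
import Cfsg.Agent.Lib.Helper86.SemiDihedral

set_option autoImplicit false
set_option linter.unusedSimpArgs false
open Cfsg

namespace Cfsg.Agent.S5166

open Cfsg.Agent.Lib.Helper6.M12 Cfsg.Agent.Lib.Helper86

/-- an element of order `8` of `M11` -/
def tr : List ℕ := [0, 1, 3, 2, 8, 17, 13, 19, 6, 18, 15, 21, 16, 12, 23, 11, 9, 14, 4, 22, 10, 7, 20, 5]
/-- an involution with `s r s⁻¹ = r³` -/
def ts : List ℕ := [0, 1, 3, 2, 4, 5, 9, 10, 13, 6, 7, 11, 12, 8, 14, 20, 18, 23, 16, 21, 15, 19, 22, 17]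
/-- `g s g⁻¹ = r⁴` -/
def tg : List ℕ := [0, 1, 4, 12, 2, 14, 9, 7, 18, 6, 10, 17, 3, 13, 5, 15, 16, 11, 8, 20, 19, 21, 23, 22]
/-- `h (r s) h⁻¹ = r²` -/
def th : List ℕ := [0, 2, 1, 3, 4, 23, 8, 10, 6, 16, 7, 15, 12, 18, 14, 11, 9, 17, 13, 22, 20, 21, 19, 5]

theorem hr : tabPermD tr ∈ Cfsg.Spor.M11 := tabPermD_mem_M11 (by decide +kernel)
theorem hs : tabPermD ts ∈ Cfsg.Spor.M11 := tabPermD_mem_M11 (by decide +kernel)
theorem hg : tabPermD tg ∈ Cfsg.Spor.M11 := tabPermD_mem_M11 (by decide +kernel)
theorem hh : tabPermD th ∈ Cfsg.Spor.M11 := tabPermD_mem_M11 (by decide +kernel)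

theorem rel_r8 : tabPermD tr ^ 8 = 1 := by
  have := word_eq (L := List.replicate 8 tr) (L' := []) (by decide +kernel) (by decide +kernel)
    (by decide +kernel)
  simp only [List.map_replicate, List.prod_replicate, List.map_append, List.prod_append,
    List.map_cons, List.map_nil, List.prod_cons, List.prod_nil, mul_one] at this
  exact this

theorem rel_r4 : tabPermD tr ^ 4 ≠ 1 := by
  have := word_ne (L := List.replicate 4 tr) (L' := []) (by decide +kernel) (by decide +kernel)
    (by decide +kernel) (by decide +kernel) (by decide +kernel)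
  simp only [List.map_replicate, List.prod_replicate, List.map_append, List.prod_append,
    List.map_cons, List.map_nil, List.prod_cons, List.prod_nil, mul_one] at this
  exact this

theorem rel_s2 : tabPermD ts * tabPermD ts = 1 := by
  have := word_eq (L := [ts, ts]) (L' := []) (by decide +kernel) (by decide +kernel)
    (by decide +kernel)
  simp only [List.map_replicate, List.prod_replicate, List.map_append, List.prod_append,
    List.map_cons, List.map_nil, List.prod_cons, List.prod_nil, mul_one] at this
  exact this

theorem rel_sr : tabPermD ts * tabPermD tr = tabPermD tr ^ 3 * tabPermD ts := by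
  have := word_eq (L := [ts, tr]) (L' := List.replicate 3 tr ++ [ts]) (by decide +kernel)
    (by decide +kernel) (by decide +kernel)
  simp only [List.map_replicate, List.prod_replicate, List.map_append, List.prod_append,
    List.map_cons, List.map_nil, List.prod_cons, List.prod_nil, mul_one] at this
  exact this

theorem rel_s4 : tabPermD ts ≠ tabPermD tr ^ 4 := by
  have := word_ne (L := [ts]) (L' := List.replicate 4 tr) (by decide +kernel) (by decide +kernel)
    (by decide +kernel) (by decide +kernel) (by decide +kernel)
  simp only [List.map_replicate, List.prod_replicate, List.map_append, List.prod_append,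
    List.map_cons, List.map_nil, List.prod_cons, List.prod_nil, mul_one] at this
  exact this

theorem rel_s1 : tabPermD ts ≠ 1 := by
  have := word_ne (L := [ts]) (L' := []) (by decide +kernel) (by decide +kernel)
    (by decide +kernel) (by decide +kernel) (by decide +kernel)
  simp only [List.map_replicate, List.prod_replicate, List.map_append, List.prod_append,
    List.map_cons, List.map_nil, List.prod_cons, List.prod_nil, mul_one] at this
  exact this

theorem rel_g : tabPermD tg * tabPermD ts = tabPermD tr ^ 4 * tabPermD tg := by
  have := word_eq (L := [tg, ts]) (L' := List.replicate 4 tr ++ [tg]) (by decide +kernel)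
    (by decide +kernel) (by decide +kernel)
  simp only [List.map_replicate, List.prod_replicate, List.map_append, List.prod_append,
    List.map_cons, List.map_nil, List.prod_cons, List.prod_nil, mul_one] at this
  exact this

theorem rel_h : tabPermD th * (tabPermD tr * tabPermD ts) = tabPermD tr ^ 2 * tabPermD th := by
  have := word_eq (L := [th, tr, ts]) (L' := List.replicate 2 tr ++ [th]) (by decide +kernel)
    (by decide +kernel) (by decide +kernel)
  simp only [List.map_replicate, List.prod_replicate, List.map_append, List.prod_append,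
    List.map_cons, List.map_nil, List.prod_cons, List.prod_nil, mul_one] at this
  exact this

/-- The 2-fusion system of the Mathieu group M₁₁ (as the explicit permutation group carved out of the automorphism group of the binary Golay code) on a Sylow 2-subgroup is simple: saturated, over a nontrivial 2-group, with no normal subsystem other than the trivial one and itself. -/
theorem result (S : Sylow 2 Cfsg.Spor.M11) : (Cfsg.groupFusionSystem (S : Subgroup Cfsg.Spor.M11)).IsSimple 2 := by
  refine isSimple_of_semidihedral (G := ↥Cfsg.Spor.M11) (r := ⟨tabPermD tr, hr⟩)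
    (s := ⟨tabPermD ts, hs⟩) (g := ⟨tabPermD tg, hg⟩) (h := ⟨tabPermD th, hh⟩)
    ?_ ?_ ?_ ?_ ?_ ?_ ?_ ?_ ?_ S
  · rw [card_M11]; norm_num
  · exact Subtype.ext rel_r8
  · exact fun h => rel_r4 (congrArg Subtype.val h)
  · exact Subtype.ext rel_s2
  · exact Subtype.ext rel_sr
  · exact fun h => rel_s4 (congrArg Subtype.val h)
  · exact fun h => rel_s1 (congrArg Subtype.val h)
  · exact Subtype.ext rel_g
  · exact Subtype.ext rel_h

end Cfsg.Agent.S5166
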