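import Cfsg.Statements.S5345
-- import your own Cfsg.Agent.* helpers here

set_option autoImplicit false
open Cfsg

namespace Cfsg.Agent.S5345

/-- Let D be a conjugation-invariant generating set of 3-transpositions of a finite group G and T a Sylow 2-subgroup of G. Then the members of D lying in T generate an abelian subgroup, and their number is the width of D (the largest number of pairwise commuting members of D). -/
theorem result {G : Type*} [Group G] [Finite G] {D : Set G} (hD : Cfsg.IsThreeTranspositionGroup D) (T : Sylow 2 G) : IsMulCommutative (Subgroup.closure {d : G | d ∈ D ∧ d ∈ T}) ∧ {d : G | d ∈ D ∧ d ∈ T}.ncard = Cfsg.commutingWidth D := by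
  classical
  obtain ⟨⟨hord, h23⟩, hconj, -⟩ := hD
  have hsq : ∀ d ∈ D, d * d = 1 := by
    intro d hd
    have := pow_orderOf_eq_one d
    rw [hord d hd, pow_two] at this
    exact this
  have hinv' : ∀ d ∈ D, d⁻¹ = d := fun d hd => inv_eq_of_mul_eq_one_left (hsq d hd)
  have hcomm2 : ∀ x ∈ D, ∀ y ∈ D, (x * y) ^ 2 = 1 → x * y = y * x := by
    intro x hx y hy h
    have h1 : (x * y)⁻¹ = x * y := inv_eq_of_mul_eq_one_left (by rw [← pow_two]; exact h)
    calc x * y = (x * y)⁻¹ := h1.symm
      _ = y⁻¹ * x⁻¹ := mul_inv_rev x y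
      _ = y * x := by rw [hinv' x hx, hinv' y hy]
  -- members of D in a 2-subgroup commute
  have hcommP : ∀ P : Subgroup G, IsPGroup 2 P → ∀ x ∈ D, x ∈ P → ∀ y ∈ D, y ∈ P → x * y = y * x := by
    intro P hP x hx hxP y hy hyP
    rcases h23 x hx y hy with h | h
    · exact hcomm2 x hx y hy h
    · obtain ⟨k, hk⟩ := (IsPGroup.iff_orderOf.mp hP) ⟨x * y, P.mul_mem hxP hyP⟩
      rw [Subgroup.orderOf_mk] at hk
      have hdvd : orderOf (x * y) ∣ 3 := orderOf_dvd_of_pow_eq_one h
      rw [hk] at hdvd
      have hk0 : k = 0 := by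
        by_contra hk0
        have h2 : 2 ∣ 2 ^ k := dvd_pow_self 2 hk0
        have := h2.trans hdvd
        omega
      rw [hk0, pow_zero] at hk
      have h1 : x * y = 1 := orderOf_eq_one_iff.mp hk
      have hyx : y = x := by rw [← hinv' x hx]; exact eq_inv_of_mul_eq_one_right h1
      rw [hyx]
  have hDT : ∀ x ∈ {d : G | d ∈ D ∧ d ∈ T}, ∀ y ∈ {d : G | d ∈ D ∧ d ∈ T}, x * y = y * x :=
    fun x hx y hy => hcommP T T.isPGroup' x hx.1 hx.2 y hy.1 hy.2
  refine ⟨Subgroup.isMulCommutative_closure hDT, ?_⟩
  unfold Cfsg.commutingWidth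
  apply le_antisymm
  · apply le_csSup
    · refine ⟨Nat.card G, ?_⟩
      rintro n ⟨E, -, -, -, rfl⟩
      exact Set.ncard_le_card E
    · exact ⟨{d : G | d ∈ D ∧ d ∈ T}, fun x hx => hx.1, Set.toFinite _, fun a ha b hb => hDT a ha b hb, rfl⟩
  · apply csSup_le
    · exact ⟨_, {d : G | d ∈ D ∧ d ∈ T}, fun x hx => hx.1, Set.toFinite _, fun a ha b hb => hDT a ha b hb, rfl⟩
    · rintro n ⟨E, hED, -, hEc, rfl⟩
      -- closure of E is a 2-group
      have hA : ∀ x ∈ Subgroup.closure E, x * x = 1 := by
        have hcA := Subgroup.isMulCommutative_closure (k := E) (fun x hx y hy => hEc x hx y hy)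
        intro x hx
        induction hx using Subgroup.closure_induction with
        | mem x hx => exact hsq x (hED hx)
        | one => simp
        | mul x y hx hy ihx ihy =>
          have hxy : x * y = y * x := setLike_mul_comm hx hy
          calc x * y * (x * y) = x * (y * x) * y := by group
            _ = x * (x * y) * y := by rw [hxy]
            _ = (x * x) * (y * y) := by group
            _ = 1 := by rw [ihx, ihy, one_mul]
        | inv x hx ih =>
          rw [← mul_inv_rev, ih, inv_one]
      have hAp : IsPGroup 2 (Subgroup.closure E) := by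
        intro g
        refine ⟨1, ?_⟩
        rw [pow_one, pow_two]
        exact Subtype.ext (hA g g.2)
      obtain ⟨Q, hQ⟩ := hAp.exists_le_sylow
      obtain ⟨g, hg⟩ := MulAction.exists_smul_eq G Q T
      refine Set.ncard_le_ncard_of_injOn (fun x => g * x * g⁻¹) ?_ ?_ (Set.toFinite _)
      · intro x hx
        refine ⟨hconj g x (hED hx), ?_⟩
        have hxQ : x ∈ (Q : Subgroup G) := hQ (Subgroup.subset_closure hx)
        have : g * x * g⁻¹ ∈ ((g • Q : Sylow 2 G) : Subgroup G) := by
          rw [Sylow.coe_subgroup_smul, Subgroup.mem_pointwise_smul_iff_inv_smul_mem]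
          simpa [MulAut.smul_def, mul_assoc] using hxQ
        rw [hg] at this
        exact this
      · intro x _ y _ hxy
        simpa using hxy

end Cfsg.Agent.S5345
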