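import Cfsg.Statements.S5348
-- import your own Cfsg.Agent.* helpers here

set_option autoImplicit false
open Cfsg

namespace Cfsg.Agent.S5348

/-- Let D be a conjugation-invariant generating set of 3-transpositions of a finite group G and d a member of D. Let V be the set of members of D commuting with exactly the same members of D as d, and W the set of members w of D such that the members of D other than w commuting with w are precisely the members of D other than d commuting with d. Then V = {d} or W = {d}. -/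
theorem result {G : Type*} [Group G] [Finite G] {D : Set G} (hD : Cfsg.IsThreeTranspositionGroup D) {d : G} (hd : d ∈ D) : {v : G | v ∈ D ∧ ∀ e ∈ D, Commute v e ↔ Commute d e} = {d} ∨ {w : G | w ∈ D ∧ {y : G | y ∈ D ∧ y ≠ d ∧ Commute d y} = {y : G | y ∈ D ∧ y ≠ w ∧ Commute w y}} = {d} := by
  classical
  by_contra hcon
  rw [not_or] at hcon
  obtain ⟨hV, hW⟩ := hcon
  have hdV : d ∈ {v : G | v ∈ D ∧ ∀ e ∈ D, Commute v e ↔ Commute d e} := ⟨hd, fun e _ => Iff.rfl⟩
  have hdW : d ∈ {w : G | w ∈ D ∧ {y : G | y ∈ D ∧ y ≠ d ∧ Commute d y} = {y : G | y ∈ D ∧ y ≠ w ∧ Commute w y}} :=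
    ⟨hd, rfl⟩
  have h1 : ∃ v, v ∈ {v : G | v ∈ D ∧ ∀ e ∈ D, Commute v e ↔ Commute d e} ∧ v ≠ d := by
    by_contra h
    push Not at h
    exact hV (Set.eq_singleton_iff_unique_mem.mpr ⟨hdV, h⟩)
  have h2 : ∃ w, w ∈ {w : G | w ∈ D ∧ {y : G | y ∈ D ∧ y ≠ d ∧ Commute d y} = {y : G | y ∈ D ∧ y ≠ w ∧ Commute w y}} ∧ w ≠ d := by
    by_contra h
    push Not at h
    exact hW (Set.eq_singleton_iff_unique_mem.mpr ⟨hdW, h⟩)
  obtain ⟨v, ⟨hvD, hv⟩, hvd⟩ := h1
  obtain ⟨w, ⟨hwD, hw⟩, hwd⟩ := h2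
  have hvd' : Commute v d := (hv d hd).mpr (Commute.refl d)
  have hwd' : ¬ Commute d w := by
    intro hc
    have : w ∈ {y : G | y ∈ D ∧ y ≠ d ∧ Commute d y} := ⟨hwD, hwd, hc⟩
    rw [hw] at this
    exact this.2.1 rfl
  have hvmem : v ∈ {y : G | y ∈ D ∧ y ≠ d ∧ Commute d y} := ⟨hvD, hvd, hvd'.symm⟩
  rw [hw] at hvmem
  obtain ⟨-, -, hwv⟩ := hvmem
  exact hwd' ((hv w hwD).mp hwv.symm)

end Cfsg.Agent.S5348
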