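import Cfsg.Statements.S5349
import Cfsg.Agent.Lib.Helper24.TranspBlocks

set_option autoImplicit false
open Cfsg

namespace Cfsg.Agent.S5349

open Cfsg.Agent.Lib.Helper24 in
/-- Let D be a conjugacy class of 3-transpositions generating the finite group G, with at least two members, and d a member of D. Then the set of members of D commuting with exactly the same members of D as d coincides with the set of members of D lying in the coset of d modulo the largest normal 2-subgroup of G, and also with the orbit of d under conjugation by that normal 2-subgroup. -/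
theorem result {G : Type*} [Group G] [Finite G] {D : Set G} (hD : Cfsg.IsThreeTranspositionClass D) (hD2 : ∃ a ∈ D, ∃ b ∈ D, a ≠ b) {d : G} (hd : d ∈ D) : {v : G | v ∈ D ∧ ∀ e ∈ D, Commute v e ↔ Commute d e} = {v : G | v ∈ D ∧ d⁻¹ * v ∈ Cfsg.pCore 2 G} ∧ {v : G | v ∈ D ∧ ∀ e ∈ D, Commute v e ↔ Commute d e} = {v : G | ∃ g ∈ Cfsg.pCore 2 G, v = g * d * g⁻¹} := by
  classical
  have h : TD D := TD.of_class hD
  obtain ⟨-, ⟨d₀, hd₀, hDc⟩, hgen⟩ := hD
  have hinvd : d⁻¹ = d := h.inv hd
  have hn := pCore_normal_h24 2 G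
  have hA : ∀ v, v ∈ D → (∀ e ∈ D, Commute v e ↔ Commute d e) → d * v ∈ Cfsg.pCore 2 G :=
    fun v hv hs => mul_mem_pCore_two h hd hv (SameComm.symm hs)
  have hB : ∀ v, v ∈ D → d * v ∈ Cfsg.pCore 2 G → ∀ e ∈ D, Commute v e ↔ Commute d e := by
    intro v hv hdv e he
    constructor
    · intro hve
      have hvd : v * d ∈ Cfsg.pCore 2 G := by
        have := inv_mem hdv
        rwa [mul_inv_rev, h.inv hv, hinvd] at this
      exact commute_of_mul_mem_pCore_two h hv hd hvd he hve
    · intro hde
      exact commute_of_mul_mem_pCore_two h hd hv hdv he hde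
  have hex : ∃ e ∈ D, ¬ Commute d e := by
    by_contra hall
    push Not at hall
    have hcen : ∀ g : G, g * d * g⁻¹ = d := by
      intro g
      have hg : g ∈ Subgroup.centralizer ({d} : Set G) := by
        have hle : Subgroup.closure D ≤ Subgroup.centralizer ({d} : Set G) := by
          rw [Subgroup.closure_le]
          intro e he
          rw [SetLike.mem_coe, Subgroup.mem_centralizer_iff]
          intro x hx
          rw [Set.mem_singleton_iff.mp hx]
          exact (hall e he).eq
        exact hle (by rw [hgen]; exact Subgroup.mem_top g)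
      have := Subgroup.mem_centralizer_iff.mp hg d rfl
      rw [← this, mul_inv_cancel_right]
    obtain ⟨a, ha, b, hb, hab⟩ := hD2
    have hall' : ∀ x ∈ D, x = d := by
      intro x hx
      have hx' : IsConj d₀ x := by rw [hDc] at hx; exact hx
      have hd' : IsConj d₀ d := by rw [hDc] at hd; exact hd
      obtain ⟨g, hg⟩ := isConj_iff.mp (hd'.symm.trans hx')
      rw [← hg, hcen g]
    exact hab ((hall' a ha).trans (hall' b hb).symm)
  have hV1 : {v : G | v ∈ D ∧ ∀ e ∈ D, Commute v e ↔ Commute d e} =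
      {v : G | v ∈ D ∧ d⁻¹ * v ∈ Cfsg.pCore 2 G} := by
    ext v
    simp only [Set.mem_ofPred_eq]
    rw [hinvd]
    exact ⟨fun ⟨hv, hs⟩ => ⟨hv, hA v hv hs⟩, fun ⟨hv, hc⟩ => ⟨hv, hB v hv hc⟩⟩
  refine ⟨hV1, ?_⟩
  ext v
  simp only [Set.mem_ofPred_eq]
  constructor
  · rintro ⟨hv, hs⟩
    by_cases hvd : v = d
    · exact ⟨1, one_mem _, by rw [hvd]; group⟩
    · obtain ⟨e, he, hde⟩ := hex
      have hve : ¬ Commute v e := fun hc => hde ((hs e he).mp hc)
      have hdvc : Commute d v := (SameComm.symm hs).commute hd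
      refine ⟨e * (d * v) * e⁻¹, hn.conj_mem _ (hA v hv hs) e, ?_⟩
      exact (conj_block_eq h hd hv he hdvc hde hve).symm
  · rintro ⟨g, hg, rfl⟩
    have hvD : g * d * g⁻¹ ∈ D := h.conj g d hd
    refine ⟨hvD, hB _ hvD ?_⟩
    have e1 : d * (g * d * g⁻¹) = (d * g * d⁻¹) * g⁻¹ := by rw [hinvd]; group
    rw [e1]
    exact mul_mem (hn.conj_mem g hg d) (inv_mem hg)

end Cfsg.Agent.S5349
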