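import Cfsg.Statements.S5350
import Cfsg.Agent.Lib.Helper24.TranspBlocks3

set_option autoImplicit false
open Cfsg

namespace Cfsg.Agent.S5350

open Cfsg.Agent.Lib.Helper24 in
/-- Let D be a conjugacy class of 3-transpositions generating the finite group G, with at least two members, and d a member of D. Then the set of members w of D whose commuting partners in D (other than w) are exactly those of d (other than d) coincides with the set of members of D lying in the coset of d modulo the largest normal 3-subgroup of G, and also with the orbit of d under conjugation by that normal 3-subgroup. -/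
theorem result {G : Type*} [Group G] [Finite G] {D : Set G} (hD : Cfsg.IsThreeTranspositionClass D) (hD2 : ∃ a ∈ D, ∃ b ∈ D, a ≠ b) {d : G} (hd : d ∈ D) : {w : G | w ∈ D ∧ {y : G | y ∈ D ∧ y ≠ d ∧ Commute d y} = {y : G | y ∈ D ∧ y ≠ w ∧ Commute w y}} = {w : G | w ∈ D ∧ d⁻¹ * w ∈ Cfsg.pCore 3 G} ∧ {w : G | w ∈ D ∧ {y : G | y ∈ D ∧ y ≠ d ∧ Commute d y} = {y : G | y ∈ D ∧ y ≠ w ∧ Commute w y}} = {w : G | ∃ g ∈ Cfsg.pCore 3 G, w = g * d * g⁻¹} := by
  have h : TD D := TD.of_class hD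
  have h1 : (1 : G) ∉ D := by
    intro h1
    have := hD.1.1 1 h1
    rw [orderOf_one] at this
    omega
  have hn := pCore_normal_h24 3 G
  -- the three descriptions
  have A : ∀ w : G, (w ∈ D ∧ {y : G | y ∈ D ∧ y ≠ d ∧ Commute d y} = {y : G | y ∈ D ∧ y ≠ w ∧ Commute w y}) →
      (w ∈ D ∧ d⁻¹ * w ∈ Cfsg.pCore 3 G) := by
    rintro w ⟨hw, hs⟩
    refine ⟨hw, ?_⟩
    rw [h.inv hd]
    exact mul_mem_pCore_three h h1 hd hw hs
  have B : ∀ w : G, (w ∈ D ∧ d⁻¹ * w ∈ Cfsg.pCore 3 G) →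
      (w ∈ D ∧ {y : G | y ∈ D ∧ y ≠ d ∧ Commute d y} = {y : G | y ∈ D ∧ y ≠ w ∧ Commute w y}) := by
    rintro w ⟨hw, hdw⟩
    refine ⟨hw, ?_⟩
    rw [h.inv hd] at hdw
    have hwd : w * d ∈ Cfsg.pCore 3 G := by
      have := inv_mem hdw
      rwa [mul_inv_rev, h.inv hd, h.inv hw] at this
    ext y
    constructor
    · rintro ⟨hy, hyd, hc⟩
      exact ⟨hy, partner_of_mul_mem_pCore_three h h1 hd hw hdw hy hyd hc⟩
    · rintro ⟨hy, hyw, hc⟩
      exact ⟨hy, partner_of_mul_mem_pCore_three h h1 hw hd hwd hy hyw hc⟩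
  have C : ∀ w : G, (w ∈ D ∧ {y : G | y ∈ D ∧ y ≠ d ∧ Commute d y} = {y : G | y ∈ D ∧ y ≠ w ∧ Commute w y}) →
      ∃ g ∈ Cfsg.pCore 3 G, w = g * d * g⁻¹ := by
    rintro w ⟨hw, hs⟩
    by_cases hdw : d = w
    · exact ⟨1, one_mem _, by rw [← hdw]; group⟩
    · have hs' : SameA D d w := hs
      have hnc : ¬ Commute d w := hs'.not_commute hw hdw
      have hnc' : ¬ Commute w d := fun hc => hnc hc.symm
      refine ⟨d * w, mul_mem_pCore_three h h1 hd hw hs', ?_⟩
      rw [mul_inv_rev, h.inv hd, h.inv hw]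
      have e := h.braid hw hd hnc'
      calc w = (d * d) * w * (d * d) := by rw [h.sq d hd, one_mul, mul_one]
        _ = d * (d * w * d) * d := by group
        _ = d * (w * d * w) * d := by rw [e]
        _ = d * w * d * (w * d) := by group
  have E : ∀ w : G, (∃ g ∈ Cfsg.pCore 3 G, w = g * d * g⁻¹) →
      (w ∈ D ∧ d⁻¹ * w ∈ Cfsg.pCore 3 G) := by
    rintro w ⟨g, hg, rfl⟩
    refine ⟨h.conj g d hd, ?_⟩
    have h2 : d⁻¹ * g * d⁻¹⁻¹ ∈ Cfsg.pCore 3 G := hn.conj_mem g hg d⁻¹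
    have h3 := mul_mem h2 (inv_mem hg)
    have e : d⁻¹ * g * d⁻¹⁻¹ * g⁻¹ = d⁻¹ * (g * d * g⁻¹) := by group
    rwa [e] at h3
  constructor
  · ext w
    exact ⟨A w, B w⟩
  · ext w
    exact ⟨C w, fun hw => B w (E w hw)⟩

end Cfsg.Agent.S5350
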