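import Cfsg.Statements.S5355
import Cfsg.Agent.S5344

set_option autoImplicit false
open Cfsg

namespace Cfsg.Agent.S5355

/-- In a 3-transposition set closed under conjugation where `a, a'` is a commuting pair whose
commuting set is `{a, a'}` and `f` has commuting set `{f, f'}`, conjugating a non-commuting `f` by
`a a'` gives `f'`. -/
theorem key {G : Type*} [Group G] {D : Set G} (hD : Cfsg.IsThreeTranspositionSet D)
    (hconj : ∀ g : G, ∀ x ∈ D, g * x * g⁻¹ ∈ D)
    {a a' f f' : G} (ha : a ∈ D) (ha' : a' ∈ D) (hf : f ∈ D) (hne : a ≠ a') (hc : Commute a a')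
    (hP : ∀ y ∈ D, Commute a' y → y = a ∨ y = a')
    (hPf : ∀ y ∈ D, Commute f y → y = f ∨ y = f')
    (hnc : ¬ Commute a f) : (a * a') * f * (a * a')⁻¹ = f' := by
  have hnc' : ¬ Commute f a' := by
    intro h
    rcases hP f hf h.symm with h1 | h1
    · exact hnc (h1 ▸ Commute.refl _)
    · exact hnc (h1 ▸ hc)
  obtain ⟨ψ, hinj, h01, h12, h23⟩ := Cfsg.Agent.S5344.result hD ha hf ha' hne hc hnc hnc'
  have e1 : (a * a') * f * (a * a')⁻¹ = ψ (Equiv.swap 0 3) := by
    rw [← h01, ← h12, ← h23, ← map_mul, ← map_mul, ← map_inv, ← map_mul]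
    congr 1
    decide
  have hmem : (a * a') * f * (a * a')⁻¹ ∈ D := hconj _ _ hf
  have hcomm : Commute f ((a * a') * f * (a * a')⁻¹) := by
    rw [e1, ← h12]
    show ψ _ * ψ _ = ψ _ * ψ _
    rw [← map_mul, ← map_mul]
    congr 1
    decide
  rcases hPf _ hmem hcomm with h | h
  · exfalso
    rw [e1, ← h12] at h
    have := hinj h
    revert this; decide
  · exact h

/-- Let D be a conjugacy class of 3-transpositions generating the finite group G, with at least two members, and d a member of D. Suppose that every member of D commuting with d commutes with exactly the same members of D as d does, and that exactly one member of D other than d commutes with d. Then G is isomorphic to the symmetric group of degree 4. -/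
theorem result {G : Type*} [Group G] [Finite G] {D : Set G} (hD : Cfsg.IsThreeTranspositionClass D) (hD2 : ∃ a ∈ D, ∃ b ∈ D, a ≠ b) {d : G} (hd : d ∈ D) (hV : {y : G | y ∈ D ∧ Commute d y} = {v : G | v ∈ D ∧ ∀ e ∈ D, Commute v e ↔ Commute d e}) (hm : {y : G | y ∈ D ∧ Commute d y}.ncard = 2) : Nonempty (G ≃* Equiv.Perm (Fin 4)) := by
  obtain ⟨hset, ⟨d₀, hd₀, hDc⟩, hgen⟩ := hD
  have hconj : ∀ g : G, ∀ x ∈ D, g * x * g⁻¹ ∈ D := by
    intro g x hx
    rw [hDc] at hx ⊢
    have hx' : IsConj d₀ x := hx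
    show IsConj d₀ (g * x * g⁻¹)
    exact hx'.trans (isConj_iff.mpr ⟨g, rfl⟩)
  have hall : ∀ a ∈ D, ∃ g : G, a = g * d * g⁻¹ := by
    intro a ha
    rw [hDc] at ha hd
    have ha' : IsConj d₀ a := ha
    have hd' : IsConj d₀ d := hd
    obtain ⟨g, hg⟩ := isConj_iff.mp (hd'.symm.trans ha')
    exact ⟨g, hg.symm⟩
  -- partner of d
  obtain ⟨x, y, hxy, hS⟩ := Set.ncard_eq_two.mp hm
  have hdS : d ∈ {y : G | y ∈ D ∧ Commute d y} := ⟨hd, Commute.refl d⟩
  obtain ⟨d₁, hd₁, hdd₁, hcd₁, hPd₁⟩ : ∃ d' ∈ D, d' ≠ d ∧ Commute d d' ∧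
      ∀ y ∈ D, Commute d y → y = d ∨ y = d' := by
    have hdS' := hdS
    rw [hS] at hdS'
    rcases hdS' with h | h
    · have hy : y ∈ {y : G | y ∈ D ∧ Commute d y} := by rw [hS]; simp
      refine ⟨y, hy.1, ?_, hy.2, ?_⟩
      · rw [h]; exact hxy.symm
      · intro z hz hcz
        have : z ∈ ({x, y} : Set G) := by rw [← hS]; exact ⟨hz, hcz⟩
        rcases this with h1 | h1
        · left; rw [h1, h]
        · right; exact h1
    · have hx : x ∈ {y : G | y ∈ D ∧ Commute d y} := by rw [hS]; simp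
      have h' : d = y := h
      refine ⟨x, hx.1, ?_, hx.2, ?_⟩
      · rw [h']; exact hxy
      · intro z hz hcz
        have : z ∈ ({x, y} : Set G) := by rw [← hS]; exact ⟨hz, hcz⟩
        rcases this with h1 | h1
        · right; exact h1
        · left; rw [h', h1]
  have hP : ∀ a ∈ D, ∃ a' ∈ D, a' ≠ a ∧ Commute a a' ∧
      ∀ y ∈ D, Commute a y → y = a ∨ y = a' := by
    intro a ha
    obtain ⟨g, rfl⟩ := hall a ha
    refine ⟨g * d₁ * g⁻¹, hconj g d₁ hd₁, ?_, ?_, ?_⟩
    · intro h
      apply hdd₁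
      simpa using h
    · show g * d * g⁻¹ * (g * d₁ * g⁻¹) = g * d₁ * g⁻¹ * (g * d * g⁻¹)
      calc g * d * g⁻¹ * (g * d₁ * g⁻¹) = g * (d * d₁) * g⁻¹ := by group
        _ = g * (d₁ * d) * g⁻¹ := by rw [hcd₁.eq]
        _ = g * d₁ * g⁻¹ * (g * d * g⁻¹) := by group
    · intro y hy hcy
      have h1 : Commute d (g⁻¹ * y * g) := by
        have := hcy.eq
        show d * (g⁻¹ * y * g) = g⁻¹ * y * g * d
        calc d * (g⁻¹ * y * g) = g⁻¹ * ((g * d * g⁻¹) * y) * g := by group
          _ = g⁻¹ * (y * (g * d * g⁻¹)) * g := by rw [this]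
          _ = g⁻¹ * y * g * d := by group
      have h2 : g⁻¹ * y * g ∈ D := by simpa using hconj g⁻¹ y hy
      rcases hPd₁ _ h2 h1 with h | h
      · left; rw [← h]; group
      · right; rw [← h]; group
  have hP' : ∀ a ∈ D, ∃ a' ∈ D, a' ≠ a ∧ Commute a a' ∧
      (∀ y ∈ D, Commute a y → y = a ∨ y = a') ∧ (∀ y ∈ D, Commute a' y → y = a ∨ y = a') := by
    intro a ha
    obtain ⟨a', ha', hne, hc, hu⟩ := hP a ha
    obtain ⟨a'', ha'', hne', hc', hu'⟩ := hP a' ha'
    refine ⟨a', ha', hne, hc, hu, ?_⟩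
    have : a = a'' := by
      rcases hu' a ha hc.symm with h | h
      · exact absurd h.symm hne
      · exact h
    subst this
    intro y hy hcy
    rcases hu' y hy hcy with h | h
    · right; exact h
    · left; exact h
  obtain ⟨d', hd', hdd', hcd, hPd, hPd'⟩ := hP' d hd
  obtain ⟨e, he, hde⟩ : ∃ e ∈ D, ¬ Commute d e := by
    by_contra hcon
    push Not at hcon
    have hcen : ∀ g : G, Commute d g := by
      intro g
      have : g ∈ Subgroup.closure D := by rw [hgen]; trivial
      induction this using Subgroup.closure_induction with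
      | mem x hx => exact hcon x hx
      | one => exact Commute.one_right d
      | mul x y _ _ hx hy => exact hx.mul_right hy
      | inv x _ hx => exact hx.inv_right
    obtain ⟨g, hg⟩ := hall d' hd'
    apply hdd'
    rw [hg, ← (hcen g).eq]; group
  have hed' : ¬ Commute e d' := by
    intro h
    rcases hPd' e he h.symm with h1 | h1
    · exact hde (h1 ▸ Commute.refl _)
    · exact hde (h1 ▸ hcd)
  obtain ⟨φ, hinj, h01, h12, h23⟩ :=
    Cfsg.Agent.S5344.result hset hd he hd' (Ne.symm hdd') hcd hde hed'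
  have hT : ∀ σ : Equiv.Perm (Fin 4), φ (σ * Equiv.swap 0 1 * σ⁻¹) ∈ D := by
    intro σ
    rw [map_mul, map_mul, map_inv, h01]
    exact hconj _ _ hd
  have hc02 : φ (Equiv.swap 0 2) ∈ D := by
    have := hT (Equiv.swap 1 2)
    have h2 : (Equiv.swap 1 2 * Equiv.swap 0 1 * (Equiv.swap 1 2)⁻¹ : Equiv.Perm (Fin 4))
        = Equiv.swap 0 2 := by decide
    rwa [h2] at this
  have hc13 : φ (Equiv.swap 1 3) ∈ D := by
    have := hT (Equiv.swap 0 1 * Equiv.swap 1 2 * Equiv.swap 2 3 * Equiv.swap 1 2)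
    have h2 : ((Equiv.swap 0 1 * Equiv.swap 1 2 * Equiv.swap 2 3 * Equiv.swap 1 2) *
        Equiv.swap 0 1 * (Equiv.swap 0 1 * Equiv.swap 1 2 * Equiv.swap 2 3 * Equiv.swap 1 2)⁻¹ :
        Equiv.Perm (Fin 4)) = Equiv.swap 1 3 := by decide
    rwa [h2] at this
  have hc03 : φ (Equiv.swap 0 3) ∈ D := by
    have := hT (Equiv.swap 1 3)
    have h2 : ((Equiv.swap 1 3) *
        Equiv.swap 0 1 * (Equiv.swap 1 3)⁻¹ :
        Equiv.Perm (Fin 4)) = Equiv.swap 0 3 := by decide
    rwa [h2] at this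
  have hcomm : ∀ σ τ : Equiv.Perm (Fin 4), σ * τ = τ * σ → Commute (φ σ) (φ τ) := by
    intro σ τ h
    show φ σ * φ τ = φ τ * φ σ
    rw [← map_mul, ← map_mul, h]
  have hrange : ∀ f ∈ D, f ∈ φ.range := by
    intro f hf
    by_contra hfr
    have hnr : ∀ σ : Equiv.Perm (Fin 4), f ≠ φ σ := fun σ h => hfr ⟨σ, h.symm⟩
    obtain ⟨f', hf', hff', hcf, hPf, hPf'⟩ := hP' f hf
    -- partner of e is φ (swap 0 3)
    obtain ⟨e₁, he₁, hee₁, hce, hPe, hPe'⟩ := hP' e he
    have he₁eq : e₁ = φ (Equiv.swap 0 3) := by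
      have hc' : Commute e (φ (Equiv.swap 0 3)) := by
        rw [← h12]; exact hcomm _ _ (by decide)
      rcases hPe _ hc03 hc' with h | h
      · exfalso
        rw [← h12] at h
        have := hinj h
        revert this; decide
      · exact h.symm
    subst he₁eq
    -- partner of c = φ (swap 0 2) is φ (swap 1 3)
    obtain ⟨c₁, hc₁, hcc₁, hcc, hPc, hPc'⟩ := hP' _ hc02
    have hc₁eq : c₁ = φ (Equiv.swap 1 3) := by
      have hc' : Commute (φ (Equiv.swap 0 2)) (φ (Equiv.swap 1 3)) := hcomm _ _ (by decide)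
      rcases hPc _ hc13 hc' with h | h
      · exfalso
        have := hinj h
        revert this; decide
      · exact h.symm
    subst hc₁eq
    have hdf : ¬ Commute d f := by
      intro h
      rcases hPd f hf h with h1 | h1
      · exact hnr _ (h1.trans h01.symm)
      · exact hnr _ (h1.trans h23.symm)
    have hef : ¬ Commute e f := by
      intro h
      rcases hPe f hf h with h1 | h1
      · exact hnr _ (h1.trans h12.symm)
      · exact hnr _ h1
    have hcf' : ¬ Commute (φ (Equiv.swap 0 2)) f := by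
      intro h
      rcases hPc f hf h with h1 | h1
      · exact hnr _ h1
      · exact hnr _ h1
    have k1 := key hset hconj hd hd' hf (Ne.symm hdd') hcd hPd' hPf hdf
    have k2 := key hset hconj he hc03 hf (Ne.symm hee₁) hce hPe' hPf hef
    have k3 := key hset hconj hc02 hc13 hf (Ne.symm hcc₁) hcc hPc' hPf hcf'
    have hprod : φ (Equiv.swap 0 2) * φ (Equiv.swap 1 3) =
        (d * d') * (e * φ (Equiv.swap 0 3)) := by
      rw [← h01, ← h12, ← h23, ← map_mul, ← map_mul, ← map_mul, ← map_mul]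
      congr 1
      decide
    have hsq : (d * d') * (d * d') = 1 := by
      rw [← h01, ← h23, ← map_mul, ← map_mul, ← map_one φ]
      congr 1
      decide
    apply hff'
    rw [← k3, hprod]
    have hinv : (d * d')⁻¹ = d * d' := by
      rw [inv_eq_iff_mul_eq_one]; exact hsq
    calc (d * d') * (e * φ (Equiv.swap 0 3)) * f * ((d * d') * (e * φ (Equiv.swap 0 3)))⁻¹
        = (d * d') * ((e * φ (Equiv.swap 0 3)) * f * (e * φ (Equiv.swap 0 3))⁻¹) * (d * d')⁻¹ := by
          group
      _ = (d * d') * ((d * d') * f * (d * d')⁻¹) * (d * d')⁻¹ := by rw [k2, k1]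
      _ = ((d * d') * (d * d')) * f * ((d * d') * (d * d'))⁻¹ := by group
      _ = f := by rw [hsq]; group
  have htop : φ.range = ⊤ := by
    rw [eq_top_iff, ← hgen, Subgroup.closure_le]
    exact hrange
  have hsurj : Function.Surjective φ := MonoidHom.range_eq_top.mp htop
  exact ⟨(MulEquiv.ofBijective φ ⟨hinj, hsurj⟩).symm⟩

end Cfsg.Agent.S5355
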