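import Cfsg.Statements.S5358
import Cfsg.Agent.Lib.Helper14.Quad

set_option autoImplicit false
open scoped MatrixGroups
open Cfsg

namespace Cfsg.Agent.S5358

/-- Let Q be a non-degenerate quadratic form on the n-dimensional coordinate space over the field with three elements and u, v vectors of the same non-zero norm Q(u) = Q(v) spanning different lines (v ≠ u and v ≠ −u). Then the reflection matrices of u and v commute if and only if u and v are orthogonal for the polar form of Q. -/
theorem result (n : ℕ) (Q : QuadraticForm (ZMod 3) (Fin n → ZMod 3)) (hQ : (QuadraticMap.polarBilin Q).Nondegenerate) (u v : Fin n → ZMod 3) (hu : Q u ≠ 0) (huv : Q u = Q v) (h1 : v ≠ u) (h2 : v ≠ -u) : Commute (Cfsg.reflectionMatrix (⇑Q) u) (Cfsg.reflectionMatrix (⇑Q) v) ↔ QuadraticMap.polar (⇑Q) u v = 0 := by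
  have hmul : ∀ w x : Fin n → ZMod 3, (Cfsg.reflectionMatrix (⇑Q) w).mulVec x
      = x - ((Q w)⁻¹ * QuadraticMap.polar ⇑Q w x) • w :=
    fun w x => Cfsg.Agent.Lib.Helper14.reflectionMatrix_mulVec Q w x
  have hAB : ∀ x : Fin n → ZMod 3,
      (Cfsg.reflectionMatrix (⇑Q) u * Cfsg.reflectionMatrix (⇑Q) v).mulVec x
        = x - ((Q u)⁻¹ * QuadraticMap.polar ⇑Q v x) • v
          - ((Q u)⁻¹ * (QuadraticMap.polar ⇑Q u x
            - ((Q u)⁻¹ * QuadraticMap.polar ⇑Q v x) * QuadraticMap.polar ⇑Q u v)) • u := by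
    intro x
    rw [← Matrix.mulVec_mulVec, hmul v x, hmul u, ← huv, QuadraticMap.polar_sub_right,
      QuadraticMap.polar_smul_right, smul_eq_mul]
  have hBA : ∀ x : Fin n → ZMod 3,
      (Cfsg.reflectionMatrix (⇑Q) v * Cfsg.reflectionMatrix (⇑Q) u).mulVec x
        = x - ((Q u)⁻¹ * QuadraticMap.polar ⇑Q u x) • u
          - ((Q u)⁻¹ * (QuadraticMap.polar ⇑Q v x
            - ((Q u)⁻¹ * QuadraticMap.polar ⇑Q u x) * QuadraticMap.polar ⇑Q u v)) • v := by
    intro x
    rw [← Matrix.mulVec_mulVec, hmul u x, hmul v, ← huv, QuadraticMap.polar_sub_right,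
      QuadraticMap.polar_smul_right, smul_eq_mul, QuadraticMap.polar_comm (⇑Q) v u]
  constructor
  · intro hcomm
    by_contra hne
    have hkey : ∀ x : Fin n → ZMod 3, QuadraticMap.polar ⇑Q v x • u = QuadraticMap.polar ⇑Q u x • v := by
      intro x
      have h := congrArg (fun M => Matrix.mulVec M x) hcomm.eq
      simp only [hAB, hBA] at h
      ext i
      have hi := congrFun h i
      simp only [Pi.sub_apply, Pi.smul_apply, smul_eq_mul] at hi ⊢
      have ha : (Q u)⁻¹ ≠ 0 := inv_ne_zero hu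
      have h3 : (Q u)⁻¹ * (Q u)⁻¹ * QuadraticMap.polar ⇑Q u v
          * (QuadraticMap.polar ⇑Q v x * u i - QuadraticMap.polar ⇑Q u x * v i) = 0 := by
        linear_combination hi
      have h4 : (Q u)⁻¹ * (Q u)⁻¹ * QuadraticMap.polar ⇑Q u v ≠ 0 :=
        mul_ne_zero (mul_ne_zero ha ha) hne
      exact sub_eq_zero.mp ((mul_eq_zero.mp h3).resolve_left h4)
    have hv0 : v ≠ 0 := by
      intro h
      rw [huv, h, QuadraticMap.map_zero] at hu
      exact hu rfl
    have hsep : ∃ x, QuadraticMap.polar ⇑Q v x ≠ 0 := by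
      by_contra hall
      push Not at hall
      exact hv0 (hQ.1 v (fun y => by simpa using hall y))
    obtain ⟨x, hx⟩ := hsep
    have hu' : u = ((QuadraticMap.polar ⇑Q v x)⁻¹ * QuadraticMap.polar ⇑Q u x) • v := by
      rw [mul_smul, ← hkey x, smul_smul, inv_mul_cancel₀ hx, one_smul]
    have hcases : ∀ c : ZMod 3, c = 0 ∨ c = 1 ∨ c = -1 := by decide
    rcases hcases ((QuadraticMap.polar ⇑Q v x)⁻¹ * QuadraticMap.polar ⇑Q u x) with h | h | h
    · rw [h, zero_smul] at hu'
      rw [hu', QuadraticMap.map_zero] at hu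
      exact hu rfl
    · rw [h, one_smul] at hu'
      exact h1 hu'.symm
    · rw [h, neg_one_smul] at hu'
      exact h2 (by rw [hu', neg_neg])
  · intro h0
    show _ * _ = _ * _
    apply Matrix.mulVec_injective
    funext x
    rw [hAB, hBA, h0]
    ext i
    simp only [Pi.sub_apply, Pi.smul_apply, smul_eq_mul]
    ring

end Cfsg.Agent.S5358
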