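import Cfsg.Statements.S5363
-- import your own Cfsg.Agent.* helpers here

set_option autoImplicit false
open Cfsg

namespace Cfsg.Agent.S5363

/-- Let D be a conjugation-invariant set of involutions of a finite group G. Then every product of two members of D has odd order or order 2 if and only if, for every a in D and every b in D different from a and commuting with a, the members of D commuting with a b are exactly those commuting with both a and b. -/
theorem result {G : Type*} [Group G] [Finite G] {D : Set G} (hinv : ∀ d ∈ D, orderOf d = 2) (hconj : ∀ g : G, ∀ d ∈ D, g * d * g⁻¹ ∈ D) : (∀ a ∈ D, ∀ b ∈ D, Odd (orderOf (a * b)) ∨ orderOf (a * b) = 2) ↔ ∀ a ∈ D, ∀ b ∈ D, b ≠ a → Commute a b → {y : G | y ∈ D ∧ Commute (a * b) y} = {y : G | y ∈ D ∧ Commute a y} ∩ {y : G | y ∈ D ∧ Commute b y} := by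
  have hsq : ∀ d ∈ D, d * d = 1 := by
    intro d hd
    have := pow_orderOf_eq_one d
    rw [hinv d hd, pow_two] at this
    exact this
  have hinv' : ∀ d ∈ D, d⁻¹ = d := fun d hd => inv_eq_of_mul_eq_one_left (hsq d hd)
  have hcomm2 : ∀ x ∈ D, ∀ y ∈ D, (x * y) ^ 2 = 1 → Commute x y := by
    intro x hx y hy h
    have h1 : (x * y)⁻¹ = x * y := inv_eq_of_mul_eq_one_left (by rw [← pow_two]; exact h)
    show x * y = y * x
    calc x * y = (x * y)⁻¹ := h1.symm
      _ = y⁻¹ * x⁻¹ := mul_inv_rev x y
      _ = y * x := by rw [hinv' x hx, hinv' y hy]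
  constructor
  · intro H a ha b hb hne hab
    ext y
    simp only [Set.mem_ofPred_eq, Set.mem_inter_iff]
    constructor
    · rintro ⟨hy, hzy⟩
      have hz2 : (a * b) * (a * b) = 1 := by
        calc (a * b) * (a * b) = a * (b * a) * b := by group
          _ = a * (a * b) * b := by rw [hab.eq]
          _ = (a * a) * (b * b) := by group
          _ = 1 := by rw [hsq a ha, hsq b hb, one_mul]
      have hz1 : a * b ≠ 1 := by
        intro h
        apply hne
        have : b = a⁻¹ := eq_inv_of_mul_eq_one_right h
        rw [this, hinv' a ha]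
      have hoddpow : ∀ m : ℕ, Odd m → (a * b) ^ m = a * b := by
        rintro m ⟨j, rfl⟩
        rw [pow_succ, pow_mul, pow_two, hz2, one_pow, one_mul]
      have hza : Commute (a * b) a := (Commute.refl a).mul_left hab.symm
      have hay : Commute a y := by
        rcases H a ha y hy with hodd | h2
        · have hzay : Commute (a * b) (a * y) := hza.mul_right hzy
          have hby : b * y = (a * b) * (a * y) := by
            calc b * y = (a * a) * b * y := by rw [hsq a ha, one_mul]
              _ = a * (a * b) * y := by group
              _ = a * (b * a) * y := by rw [hab.eq]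
              _ = (a * b) * (a * y) := by group
          have hpow : (b * y) ^ (orderOf (a * y)) = a * b := by
            rw [hby, hzay.mul_pow, pow_orderOf_eq_one, mul_one]
            exact hoddpow _ hodd
          rcases H b hb y hy with hodd' | h2'
          · exfalso
            have h3 : (a * b) ^ (orderOf (b * y)) = 1 := by
              rw [← hpow, ← pow_mul, mul_comm, pow_mul, pow_orderOf_eq_one, one_pow]
            rw [hoddpow _ hodd'] at h3
            exact hz1 h3
          · have hby2 : (b * y) ^ 2 = 1 := by rw [← h2']; exact pow_orderOf_eq_one _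
            have hay2 : (a * y) ^ 2 = 1 := by
              rw [hby, hzay.mul_pow, pow_two (a * b), hz2, one_mul] at hby2; exact hby2
            have hdvd : orderOf (a * y) ∣ 2 := orderOf_dvd_of_pow_eq_one hay2
            have h1 : orderOf (a * y) = 1 := by
              rcases (Nat.dvd_prime Nat.prime_two).mp hdvd with h | h
              · exact h
              · exfalso; rw [h] at hodd; exact absurd hodd (by decide)
            have h4 : a * y = 1 := orderOf_eq_one_iff.mp h1
            have hya : y = a := by rw [← hinv' a ha]; exact eq_inv_of_mul_eq_one_right h4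
            rw [hya]
        · have h : (a * y) ^ 2 = 1 := by rw [← h2]; exact pow_orderOf_eq_one _
          exact hcomm2 a ha y hy h
      refine ⟨⟨hy, hay⟩, hy, ?_⟩
      have hb' : b = a * (a * b) := by rw [← mul_assoc, hsq a ha, one_mul]
      rw [hb']
      exact hay.mul_left hzy
    · rintro ⟨⟨hy, hay⟩, -, hby⟩
      exact ⟨hy, hay.mul_left hby⟩
  · intro H a ha b hb
    by_cases hodd : Odd (orderOf (a * b))
    · exact Or.inl hodd
    · right
      rw [Nat.not_odd_iff_even] at hodd
      obtain ⟨k, hk⟩ := hodd
      have hpos : 0 < orderOf (a * b) := orderOf_pos _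
      have hk0 : 0 < k := by omega
      have hz1 : (a * b) ^ k ≠ 1 := pow_ne_one_of_lt_orderOf (by omega) (by omega)
      have hz2 : (a * b) ^ k * (a * b) ^ k = 1 := by rw [← pow_add, ← hk, pow_orderOf_eq_one]
      have hzinv : ((a * b) ^ k)⁻¹ = (a * b) ^ k := inv_eq_of_mul_eq_one_left hz2
      have haz : a * (a * b) ^ k * a⁻¹ = (a * b) ^ k := by
        rw [← conj_pow]
        have : a * (a * b) * a⁻¹ = (a * b)⁻¹ := by
          rw [mul_inv_rev, hinv' b hb, ← mul_assoc, hsq a ha, one_mul]
        rw [this, inv_pow, hzinv]
      have hbz : b * (a * b) ^ k * b⁻¹ = (a * b) ^ k := by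
        rw [← conj_pow]
        have : b * (a * b) * b⁻¹ = (a * b)⁻¹ := by
          rw [mul_inv_rev, hinv' a ha, hinv' b hb, mul_assoc, mul_assoc, hsq b hb, mul_one]
        rw [this, inv_pow, hzinv]
      have haz' : Commute a ((a * b) ^ k) := by
        show a * (a * b) ^ k = (a * b) ^ k * a
        exact mul_inv_eq_iff_eq_mul.mp haz
      have hbz' : Commute b ((a * b) ^ k) := by
        show b * (a * b) ^ k = (a * b) ^ k * b
        exact mul_inv_eq_iff_eq_mul.mp hbz
      have hw : ∀ j : ℕ, a * (a * b) ^ j ∈ D ∧ a * (a * b) ^ (j + 1) ∈ D := by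
        intro j
        induction j with
        | zero =>
          refine ⟨by simpa using ha, ?_⟩
          rw [zero_add, pow_one, ← mul_assoc, hsq a ha, one_mul]
          exact hb
        | succ j ih =>
          refine ⟨ih.2, ?_⟩
          have h1 := hconj (b * a) _ ih.1
          have haa : ∀ x : G, a * (a * x) = x := fun x => by rw [← mul_assoc, hsq a ha, one_mul]
          have h2 : a * (a * b) ^ (j + 1 + 1) = b * (a * b) ^ (j + 1) := by
            rw [pow_succ' (a * b) (j + 1), mul_assoc, haa]
          have h3 : (b * a) * (a * (a * b) ^ j) * (b * a)⁻¹ = b * (a * b) ^ (j + 1) := by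
            rw [mul_inv_rev, hinv' a ha, hinv' b hb, pow_succ]
            simp only [mul_assoc]
            rw [haa]
          rw [h2, ← h3]
          exact h1
      have hr' : a * (a * b) ^ k ∈ D := (hw k).1
      have hne : a * (a * b) ^ k ≠ a := by
        intro h
        apply hz1
        exact mul_left_cancel (h.trans (mul_one a).symm)
      have hcomm : Commute a (a * (a * b) ^ k) := (Commute.refl a).mul_right haz'
      have hset := H a ha (a * (a * b) ^ k) hr' hne hcomm
      have hbm : b ∈ {y : G | y ∈ D ∧ Commute (a * (a * (a * b) ^ k)) y} := by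
        refine ⟨hb, ?_⟩
        rw [← mul_assoc, hsq a ha, one_mul]
        exact hbz'.symm
      rw [hset] at hbm
      have hab : Commute a b := hbm.1.2
      have h2 : (a * b) ^ 2 = 1 := by
        rw [hab.mul_pow, pow_two, pow_two, hsq a ha, hsq b hb, one_mul]
      have hdvd := orderOf_dvd_of_pow_eq_one h2
      rcases (Nat.dvd_prime Nat.prime_two).mp hdvd with h | h
      · omega
      · exact h

end Cfsg.Agent.S5363
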