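import Cfsg.Statements.S5364
-- import your own Cfsg.Agent.* helpers here

set_option autoImplicit false
open Cfsg

namespace Cfsg.Agent.S5364

/-- Let D be a conjugation-invariant set of involutions of a finite group G and t an involution in the centre of G such that d t does not lie in D for any d in D. If the images of the members of D in G modulo the subgroup generated by t satisfy the 3-transposition order conditions (each has order 2 and any two have product of order at most 3), then so do the members of D. -/
theorem result {G : Type*} [Group G] [Finite G] {D : Set G} (hinv : ∀ d ∈ D, orderOf d = 2) (hconj : ∀ g : G, ∀ d ∈ D, g * d * g⁻¹ ∈ D) (t : G) (ht : orderOf t = 2) (htZ : t ∈ Subgroup.center G) (hDt : ∀ d ∈ D, d * t ∉ D) [(Subgroup.zpowers t).Normal] (himg : Cfsg.IsThreeTranspositionSet ((QuotientGroup.mk : G → G ⧸ Subgroup.zpowers t) '' D)) : Cfsg.IsThreeTranspositionSet D := by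
  have hsq : ∀ d ∈ D, d * d = 1 := by
    intro d hd
    have := pow_orderOf_eq_one d
    rw [hinv d hd, pow_two] at this
    exact this
  have hinv' : ∀ d ∈ D, d⁻¹ = d := fun d hd => inv_eq_of_mul_eq_one_left (hsq d hd)
  have htt : t * t = 1 := by
    have := pow_orderOf_eq_one t
    rw [ht, pow_two] at this
    exact this
  have htc : ∀ x : G, x * t = t * x := fun x => Subgroup.mem_center_iff.mp htZ x
  have hmem : ∀ x : G, x ∈ Subgroup.zpowers t → x = 1 ∨ x = t := by
    intro x hx
    obtain ⟨k, rfl⟩ := Subgroup.mem_zpowers_iff.mp hx
    have h2 : t ^ (k % (orderOf t : ℤ)) = t ^ k := zpow_mod_orderOf t k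
    rw [ht] at h2
    rcases Int.emod_two_eq_zero_or_one k with h | h
    · left
      rw [← h2]
      have : k % ((2 : ℕ) : ℤ) = 0 := by exact_mod_cast h
      rw [this, zpow_zero]
    · right
      rw [← h2]
      have : k % ((2 : ℕ) : ℤ) = 1 := by exact_mod_cast h
      rw [this, zpow_one]
  refine ⟨hinv, fun d hd e he => ?_⟩
  have hde := himg.2 (QuotientGroup.mk d) ⟨d, hd, rfl⟩ (QuotientGroup.mk e) ⟨e, he, rfl⟩
  have hd2 := hsq d hd
  have he2 := hsq e he
  rcases hde with h | h
  · have h' : (d * e) ^ 2 ∈ Subgroup.zpowers t := by
      rw [← QuotientGroup.eq_one_iff]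
      simpa using h
    rcases hmem _ h' with h1 | h1
    · exact Or.inl h1
    · exfalso
      have hg : d * e * d⁻¹ ∈ D := hconj d e he
      rw [hinv' d hd] at hg
      have : d * e * d = e * t := by
        calc d * e * d = (d * e * (d * e)) * e⁻¹ := by group
          _ = t * e⁻¹ := by rw [← pow_two, h1]
          _ = t * e := by rw [hinv' e he]
          _ = e * t := (htc e).symm
      rw [this] at hg
      exact hDt e he hg
  · have h' : (d * e) ^ 3 ∈ Subgroup.zpowers t := by
      rw [← QuotientGroup.eq_one_iff]
      simpa using h
    rcases hmem _ h' with h1 | h1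
    · exact Or.inr h1
    · exfalso
      have hg : d * e * d⁻¹ ∈ D := hconj d e he
      have hf : e * d * e⁻¹ ∈ D := hconj e d hd
      rw [hinv' d hd] at hg
      rw [hinv' e he] at hf
      have hgf : (d * e * d) * (e * d * e) = t := by
        rw [← h1, pow_succ, pow_two]; group
      have hff := hsq _ hf
      have : d * e * d = (e * d * e) * t := by
        calc d * e * d = (d * e * d) * ((e * d * e) * (e * d * e)) := by rw [hff, mul_one]
          _ = ((d * e * d) * (e * d * e)) * (e * d * e) := by group
          _ = t * (e * d * e) := by rw [hgf]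
          _ = (e * d * e) * t := (htc _).symm
      rw [this] at hg
      exact hDt _ hf hg

end Cfsg.Agent.S5364
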