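import Cfsg.Statements.S5366
import Cfsg.Agent.Lib.Helper71.FischerInv
import Cfsg.Agent.Lib.Helper71.FischerModels

set_option autoImplicit false
open Cfsg

namespace Cfsg.Agent.S5366

open Cfsg.LineSystem Cfsg.Agent.Lib.Helper71.FischerInv

theorem lineMap_iso {X : Type*} {L : Set (Set X)} (hpl : IsPartialLinear L) (g : Equiv.Perm X)
    (hg : IsIso L L g) (y q : X) : lineMap L (g y) (g q) = g (lineMap L y q) := by
  by_cases h : ∃ z, Third L y q z
  · obtain ⟨z, hz⟩ := h
    rw [lineMap_of_third hpl hz]
    apply lineMap_of_third hpl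
    refine ⟨g.injective.ne hz.1, g.injective.ne hz.2.1, g.injective.ne hz.2.2.1, ?_⟩
    have := (hg _).1 hz.2.2.2
    simpa [Set.image_insert_eq] using this
  · rw [lineMap_of_not h]
    apply lineMap_of_not
    rintro ⟨w, hw⟩
    apply h
    refine ⟨g.symm w, ?_, ?_, fun e => hw.2.2.1 (by rw [e]), ?_⟩
    · intro e; apply hw.1; rw [← e]; simp
    · intro e; apply hw.2.1; rw [← e]; simp
    · apply (hg _).2
      have : g '' ({y, q, g.symm w} : Set X) = {g y, g q, w} := by
        simp [Set.image_insert_eq]
      rw [this]; exact hw.2.2.2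

/-- Let L be a nondegenerate Fischer space on the point type X (every point on a line). Then for every point x the map t(x) — sending a point collinear with x to the third point of their common line and fixing every other point — is a permutation of X of order 2 and an automorphism of the line system; and the set of all t(x) satisfies the 3-transposition order conditions in the permutation group of X (any two have product of order at most 3). -/
theorem result {X : Type*} (L : Set (Set X)) (hL : Cfsg.IsFischerSpace L) (hnd : Cfsg.LineSystem.IsNondegenerate L) : (∀ x : X, ∃ σ : Equiv.Perm X, ⇑σ = Cfsg.LineSystem.lineMap L x ∧ orderOf σ = 2 ∧ Cfsg.LineSystem.IsIso L L σ) ∧ Cfsg.IsThreeTranspositionSet {σ : Equiv.Perm X | ∃ x : X, ⇑σ = Cfsg.LineSystem.lineMap L x} := by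
  obtain ⟨hpl, h3, hplane⟩ := hL
  have maps_lines : ∀ x : X, ∀ l ∈ L, lineMap L x '' l ∈ L := by
    intro x l hl
    by_cases hx : x ∈ l
    · obtain ⟨y, z, rfl, hz⟩ := line_through h3 hl hx
      rw [Set.image_insert_eq, Set.image_insert_eq, Set.image_singleton, lineMap_self,
        lineMap_of_third hpl hz, lineMap_of_third hpl hz.symm23]
      exact hz.symm23.2.2.2
    · by_cases hcol : ∃ y ∈ l, ∃ z, Third L x y z
      · obtain ⟨y, hy, z, hz⟩ := hcol
        have hm : ({x, y, z} : Set X) ∈ L := hz.2.2.2
        have hne : l ≠ ({x, y, z} : Set X) := by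
          intro e; apply hx; rw [e]; simp
        have hnon : (l ∩ ({x, y, z} : Set X)).Nonempty := ⟨y, hy, by simp⟩
        have hπ := isSubspace_span L (l ∪ ({x, y, z} : Set X))
        have hxπ : x ∈ span L (l ∪ ({x, y, z} : Set X)) :=
          subset_span _ _ (Or.inr (by simp))
        have hlπ : l ⊆ span L (l ∪ ({x, y, z} : Set X)) :=
          fun w hw => subset_span _ _ (Or.inl hw)
        rcases hplane l hl _ hm hne hnon with ⟨e, he⟩ | ⟨e, he⟩
        · exact plane_maps hpl dualOK hπ e he hxπ hl hlπ
        · exact plane_maps hpl affineOK hπ e he hxπ hl hlπ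
      · have : lineMap L x '' l = l := by
          ext w
          constructor
          · rintro ⟨q, hq, rfl⟩
            rw [lineMap_of_not (fun ⟨z, hz⟩ => hcol ⟨q, hq, z, hz⟩)]
            exact hq
          · intro hw
            exact ⟨w, hw, lineMap_of_not (fun ⟨z, hz⟩ => hcol ⟨w, hw, z, hz⟩)⟩
        rw [this]; exact hl
  have iso : ∀ x : X, IsIso L L (sig L hpl x) := by
    intro x l
    constructor
    · intro hl
      exact maps_lines x l hl
    · intro h
      have h2 := maps_lines x _ h
      have : lineMap L x '' (⇑(sig L hpl x) '' l) = l := by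
        rw [sig_coe, Set.image_image]
        simp [lineMap_invol hpl x _]
      rw [this] at h2
      exact h2
  have order : ∀ x : X, orderOf (sig L hpl x) = 2 := by
    intro x
    apply orderOf_eq_prime
    · rw [pow_two]; exact sig_sq L hpl x
    · intro h1
      obtain ⟨l, hl, hxl⟩ := hnd x
      obtain ⟨y, z, -, hz⟩ := line_through h3 hl hxl
      have : sig L hpl x y = z := lineMap_of_third hpl hz
      rw [h1] at this
      exact hz.2.1 this.symm
  have conj : ∀ x y : X, sig L hpl x * sig L hpl y * sig L hpl x = sig L hpl (lineMap L x y) := by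
    intro x y
    ext q
    show lineMap L x (lineMap L y (lineMap L x q)) = lineMap L (lineMap L x y) q
    have := lineMap_iso hpl (sig L hpl x) (iso x) y (lineMap L x q)
    rw [sig_coe, lineMap_invol hpl x q] at this
    exact this.symm
  have three : ∀ x y : X, (sig L hpl x * sig L hpl y) ^ 2 = 1 ∨
      (sig L hpl x * sig L hpl y) ^ 3 = 1 := by
    intro x y
    by_cases h : ∃ z, Third L x y z
    · obtain ⟨z, hz⟩ := h
      right
      have c1 : sig L hpl x * sig L hpl y * sig L hpl x = sig L hpl z := by
        rw [conj, lineMap_of_third hpl hz]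
      have c2 : sig L hpl y * sig L hpl x * sig L hpl y = sig L hpl z := by
        rw [conj, lineMap_of_third hpl hz.symm12]
      calc (sig L hpl x * sig L hpl y) ^ 3
          = (sig L hpl x * sig L hpl y * sig L hpl x) * (sig L hpl y * sig L hpl x * sig L hpl y) := by
            simp [pow_succ, mul_assoc]
        _ = 1 := by rw [c1, c2, sig_sq]
    · left
      have c1 : sig L hpl x * sig L hpl y * sig L hpl x = sig L hpl y := by
        rw [conj, lineMap_of_not h]
      calc (sig L hpl x * sig L hpl y) ^ 2
          = (sig L hpl x * sig L hpl y * sig L hpl x) * sig L hpl y := by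
            simp [pow_succ, mul_assoc]
        _ = 1 := by rw [c1, sig_sq]
  refine ⟨fun x => ⟨sig L hpl x, rfl, order x, iso x⟩, ⟨?_, ?_⟩⟩
  · rintro d ⟨x, hx⟩
    have : d = sig L hpl x := DFunLike.coe_injective hx
    rw [this]; exact order x
  · rintro d ⟨x, hx⟩ e ⟨y, hy⟩
    have h1 : d = sig L hpl x := DFunLike.coe_injective hx
    have h2 : e = sig L hpl y := DFunLike.coe_injective hy
    rw [h1, h2]; exact three x y

end Cfsg.Agent.S5366
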