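import Cfsg.Statements.S5367
import Cfsg.Agent.Lib.Helper71.FischerBase
import Cfsg.Agent.Lib.Helper71.FischerDual
import Cfsg.Agent.Lib.Helper71.FischerAffine

set_option autoImplicit false
open Cfsg

namespace Cfsg.Agent.S5367

open Cfsg.LineSystem Cfsg.Agent.Lib.Helper71.Fischer

/-- Let D be a conjugation-invariant generating set of 3-transpositions of a finite group G. Then the line system on D whose lines are the triples {x, y, y x y⁻¹} for non-commuting members x, y of D is a Fischer space: two points lie on at most one line, lines have three points, and two different meeting lines generate a subspace isomorphic to the dual affine plane of order two or to the affine plane of order three. -/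
theorem result {G : Type*} [Group G] [Finite G] {D : Set G} (hD : Cfsg.IsThreeTranspositionGroup D) : Cfsg.IsFischerSpace (Cfsg.threeTranspositionLines D) := by
  have hT : TD D := TD.of hD
  refine ⟨isPartialLinear hT, fun l hl => ncard_line hT hl, ?_⟩
  intro l hl m hm hlm ⟨z, hzl, hzm⟩
  -- a second point on each line
  have second : ∀ l' ∈ threeTranspositionLines D, z ∈ l' →
      ∃ b : G, Tri D (z : G) b (b * (z : G) * b⁻¹) ∧ l' = Tset D (z : G) b (b * (z : G) * b⁻¹) := by
    intro l' hl' hz
    obtain ⟨x, y, w, h, rfl⟩ := mem_lines.1 hl'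
    by_cases hzx : (z : G) = x
    · have hy : (⟨y, h.2.1⟩ : D) ∈ Tset D x y w := Or.inr (Or.inl rfl)
      have hne : z ≠ ⟨y, h.2.1⟩ := fun e => h.ne12 (hzx.symm.trans (congrArg Subtype.val e))
      obtain ⟨w', hw', e⟩ := line_of_two hT h hz hy hne
      have : w' = y * (z : G) * y⁻¹ := hw'.2.2.2
      subst this
      exact ⟨y, hw', e.symm⟩
    · have hx : (⟨x, h.1⟩ : D) ∈ Tset D x y w := Or.inl rfl
      have hne : z ≠ ⟨x, h.1⟩ := fun e => hzx (congrArg Subtype.val e)
      obtain ⟨w', hw', e⟩ := line_of_two hT h hz hx hne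
      have : w' = x * (z : G) * x⁻¹ := hw'.2.2.2
      subst this
      exact ⟨x, hw', e.symm⟩
  obtain ⟨b, tb, rfl⟩ := second l hl hzl
  obtain ⟨c, tc, rfl⟩ := second m hm hzm
  set a : G := (z : G) with ha'
  have ha : a ∈ D := z.2
  have hb : b ∈ D := tb.2.1
  have hc : c ∈ D := tc.2.1
  have hab := tb.2.2.1
  have hac := tc.2.2.1
  have hbc_ne : b ≠ c := by
    rintro rfl
    exact hlm rfl
  by_cases h1 : Commute b c
  · exact Or.inl (dual_case hT ha hb hc hab hac h1 hbc_ne)
  · by_cases h2 : Commute b (c * a * c⁻¹)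
    · left
      have tc' : Tri D a (c * a * c⁻¹) c := tc.swap23 hT
      have e : Tset D a c (c * a * c⁻¹) =
          Tset D a (c * a * c⁻¹) ((c * a * c⁻¹) * a * (c * a * c⁻¹)⁻¹) := by
        rw [← tc'.2.2.2, Tset_swap23]
      rw [e]
      refine dual_case hT ha hb tc'.2.1 hab tc'.2.2.1 h2 ?_
      intro hby
      apply hlm
      -- b lies on both lines
      have hbm : (⟨b, hb⟩ : D) ∈ Tset D a c (c * a * c⁻¹) := Or.inr (Or.inr hby)
      have hbl : (⟨b, hb⟩ : D) ∈ Tset D a b (b * a * b⁻¹) := Or.inr (Or.inl rfl)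
      have hzb : z ≠ ⟨b, hb⟩ := fun e => tb.ne12 (congrArg Subtype.val e)
      exact isPartialLinear hT _ hl _ hm z ⟨b, hb⟩ hzb hzl hbl hzm hbm
    · right
      refine affine_case hT ha hb hc hab hac h1 ?_
      intro h3
      apply h2
      have bx : b * a * b⁻¹ = a * b * a⁻¹ := hT.braid ha hb hab
      have by' : c * a * c⁻¹ = a * c * a⁻¹ := hT.braid ha hc hac
      have h4 := (Commute.conj_iff a).2 h3
      rw [bx] at h4
      rw [by']
      have e : a * (a * b * a⁻¹) * a⁻¹ = b := by
        have : a * (a * b * a⁻¹) * a⁻¹ = (a * a) * b * (a * a)⁻¹ := by group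
        rw [this, hT.sq a ha]; simp
      rw [e] at h4
      exact h4

end Cfsg.Agent.S5367
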