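import Cfsg.Statements.S5394
import Cfsg.Agent.Lib.Helper6.M24Class

set_option autoImplicit false
open Cfsg

namespace Cfsg.Agent.S5394

open Cfsg.Agent.Lib.Helper6.Golay Cfsg.Agent.Lib.Helper6.M24 Cfsg.Agent.Lib.Helper6.M12
open Cfsg.Agent.Lib.Helper6.Cls

/-- The automorphism group of the length-24 code built from the squares modulo 23 has exactly two conjugacy classes of involutions: an involution either fixes exactly the eight points of an octad or has no fixed points, both kinds occur, and any two involutions of the same kind are conjugate in the group. -/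
theorem result : (∀ g ∈ Cfsg.M24, orderOf g = 2 → (Finset.univ.filter fun p => g p = p) ∈ Cfsg.octads ∨ ∀ p, g p ≠ p) ∧ (∃ g ∈ Cfsg.M24, orderOf g = 2 ∧ (Finset.univ.filter fun p => g p = p) ∈ Cfsg.octads) ∧ (∃ g ∈ Cfsg.M24, orderOf g = 2 ∧ ∀ p, g p ≠ p) ∧ ∀ g ∈ Cfsg.M24, ∀ h ∈ Cfsg.M24, orderOf g = 2 → orderOf h = 2 → ((∀ p, g p ≠ p) ↔ (∀ p, h p ≠ p)) → ∃ k ∈ Cfsg.M24, k * g * k⁻¹ = h := by
  refine ⟨?_, ⟨UA, UA_mem, UA_order, ?_⟩, ⟨UB, UB_mem, UB_order, UB_fpf⟩, ?_⟩
  · intro g hg h2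
    by_cases hf : ∀ p, g p ≠ p
    · exact Or.inr hf
    · push Not at hf
      obtain ⟨p, hp⟩ := hf
      obtain ⟨g2, gne⟩ := sq_of_order_two h2
      exact Or.inl (fixed_mem_octads hg g2 gne hp)
  · rw [UA_fixed]; exact fixA_mem
  · intro g hg h hh hg2 hh2 hiff
    exact inv_conj hg hh hg2 hh2 hiff

end Cfsg.Agent.S5394
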