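import Cfsg.Statements.S5395
-- import your own Cfsg.Agent.* helpers here

set_option autoImplicit false
open Cfsg

namespace Cfsg.Agent.S5395

/-- For a finite extraspecial 2-group E, an automorphism of E that induces the identity on E modulo its centre is inner (so these automorphisms form exactly the inner automorphism group, an elementary abelian 2-group of order |E|/2). -/
theorem result {E : Type*} [Group E] [Finite E] (hE : Cfsg.IsExtraspecial 2 E) (φ : E ≃* E) (hφ : ∀ x : E, φ x * x⁻¹ ∈ Subgroup.center E) : ∃ g : E, ∀ x : E, φ x = g * x * g⁻¹ := by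
  classical
  obtain ⟨⟨-, -, hcomm⟩, hZ⟩ := hE
  have hmem : ∀ g x : E, g * x * g⁻¹ * x⁻¹ ∈ Subgroup.center E := by
    intro g x
    rw [← hcomm, commutator_def, ← commutatorElement_def]
    exact Subgroup.commutator_mem_commutator (Subgroup.mem_top g) (Subgroup.mem_top x)
  have hcen : ∀ c ∈ Subgroup.center E, ∀ y : E, y * c = c * y :=
    fun c hc y => Subgroup.mem_center_iff.mp hc y
  -- facts about the centre, a group with two elements
  have hZuniq : ∀ x y : Subgroup.center E, x ≠ 1 → y ≠ 1 → x = y := by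
    intro x y hx hy
    obtain ⟨w, -, hw⟩ := (Nat.card_eq_two_iff' (1 : Subgroup.center E)).mp hZ
    rw [hw x hx, hw y hy]
  have hZsq : ∀ x : Subgroup.center E, x * x = 1 := by
    intro x
    have := pow_card_eq_one' (G := Subgroup.center E) (x := x)
    rw [hZ, pow_two] at this
    exact this
  -- an injective homomorphism from the centre to the units of the complex numbers
  let j : Subgroup.center E →* ℂˣ := MonoidHom.mk' (fun x => if x = 1 then 1 else -1) (by
    intro x y
    by_cases hx : x = 1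
    · simp [hx]
    · by_cases hy : y = 1
      · simp [hx, hy]
      · have hxy : x * y = 1 := by rw [hZuniq y x hy hx]; exact hZsq x
        simp [hx, hy, hxy])
  have hj1 : ∀ x : Subgroup.center E, j x = 1 → x = 1 := by
    intro x hx
    by_contra hne
    have h1 : j x = -1 := by
      show (if x = 1 then (1 : ℂˣ) else -1) = -1
      rw [if_neg hne]
    rw [h1] at hx
    have h2 : ((-1 : ℂˣ) : ℂ) = 1 := by rw [hx]; rfl
    norm_num at h2
  -- the homomorphisms attached to `φ` and to inner automorphisms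
  let lam : E →* Subgroup.center E := MonoidHom.mk' (fun x => ⟨φ x * x⁻¹, hφ x⟩) (by
    intro x y
    apply Subtype.ext
    show φ (x * y) * (x * y)⁻¹ = φ x * x⁻¹ * (φ y * y⁻¹)
    have hc := hcen _ (hφ y) x⁻¹
    rw [map_mul]
    calc φ x * φ y * (x * y)⁻¹ = φ x * ((φ y * y⁻¹) * x⁻¹) := by group
      _ = φ x * (x⁻¹ * (φ y * y⁻¹)) := by rw [hc]
      _ = φ x * x⁻¹ * (φ y * y⁻¹) := by group)
  let mu : E → (E →* Subgroup.center E) := fun g =>
    MonoidHom.mk' (fun x => ⟨g * x * g⁻¹ * x⁻¹, hmem g x⟩) (by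
      intro x y
      apply Subtype.ext
      show g * (x * y) * g⁻¹ * (x * y)⁻¹ = g * x * g⁻¹ * x⁻¹ * (g * y * g⁻¹ * y⁻¹)
      have hc := hcen _ (hmem g y) x⁻¹
      calc g * (x * y) * g⁻¹ * (x * y)⁻¹ = g * x * g⁻¹ * ((g * y * g⁻¹ * y⁻¹) * x⁻¹) := by group
        _ = g * x * g⁻¹ * (x⁻¹ * (g * y * g⁻¹ * y⁻¹)) := by rw [hc]
        _ = g * x * g⁻¹ * x⁻¹ * (g * y * g⁻¹ * y⁻¹) := by group)
  have hmu_mul : ∀ g h x : E, mu (g * h) x = mu g x * mu h x := by
    intro g h x
    apply Subtype.ext
    show g * h * x * (g * h)⁻¹ * x⁻¹ = g * x * g⁻¹ * x⁻¹ * (h * x * h⁻¹ * x⁻¹)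
    have hc := hcen _ (hmem h x) (x * g⁻¹ * x⁻¹)
    calc g * h * x * (g * h)⁻¹ * x⁻¹ = g * (h * x * h⁻¹ * x⁻¹) * (x * g⁻¹ * x⁻¹) := by group
      _ = g * ((x * g⁻¹ * x⁻¹) * (h * x * h⁻¹ * x⁻¹)) := by rw [mul_assoc, hc]
      _ = g * x * g⁻¹ * x⁻¹ * (h * x * h⁻¹ * x⁻¹) := by group
  let M : E →* (E →* ℂˣ) := MonoidHom.mk' (fun g => j.comp (mu g)) (by
    intro g h
    ext x
    show ((j (mu (g * h) x) : ℂˣ) : ℂ) = ((j (mu g x) * j (mu h x) : ℂˣ) : ℂ)
    rw [hmu_mul, map_mul])
  have hker : M.ker = Subgroup.center E := by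
    ext g
    rw [MonoidHom.mem_ker, Subgroup.mem_center_iff]
    constructor
    · intro h x
      have h1 : j (mu g x) = 1 := by
        have := DFunLike.congr_fun h x
        exact this
      have h2 := congrArg Subtype.val (hj1 _ h1)
      have h3 : g * x * g⁻¹ * x⁻¹ = 1 := h2
      have h4 : g * x * g⁻¹ = x := by
        have := mul_eq_one_iff_eq_inv.mp h3
        rw [inv_inv] at this
        exact this
      calc x * g = (g * x * g⁻¹) * g := by rw [h4]
        _ = g * x := by group
    · intro h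
      ext x
      have h3 : mu g x = 1 := by
        apply Subtype.ext
        show g * x * g⁻¹ * x⁻¹ = 1
        rw [← h x]
        group
      show ((j (mu g x) : ℂˣ) : ℂ) = ((1 : ℂˣ) : ℂ)
      rw [h3, map_one]
  have hcardrange : Nat.card M.range = (Subgroup.center E).index := by
    rw [← Subgroup.index_ker, hker]
  have hne : NeZero ((Monoid.exponent (Abelianization E) : ℕ) : ℂ) :=
    ⟨by exact_mod_cast Monoid.exponent_ne_zero_of_finite⟩
  have hcardhom : Nat.card (E →* ℂˣ) = (Subgroup.center E).index := by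
    rw [Nat.card_congr (Abelianization.lift (G := E) (A := ℂˣ)),
      CommGroup.card_monoidHom_of_hasEnoughRootsOfUnity (Abelianization E) ℂ, ← hcomm,
      Subgroup.index_eq_card]
    rfl
  have hfin : Finite (E →* ℂˣ) := by
    apply Nat.finite_of_card_ne_zero
    rw [hcardhom]
    exact Subgroup.index_ne_zero_of_finite
  have htop : M.range = ⊤ := by
    apply Subgroup.eq_top_of_le_card
    rw [hcardrange, hcardhom]
  have hlam : j.comp lam ∈ M.range := by rw [htop]; exact Subgroup.mem_top _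
  obtain ⟨g, hg⟩ := hlam
  refine ⟨g, fun x => ?_⟩
  have h1 : j (mu g x) = j (lam x) := DFunLike.congr_fun hg x
  have h2 : mu g x = lam x := by
    have h3 : j (mu g x * (lam x)⁻¹) = 1 := by rw [map_mul, map_inv, h1, mul_inv_cancel]
    have h4 := hj1 _ h3
    exact mul_inv_eq_one.mp h4
  have h5 : g * x * g⁻¹ * x⁻¹ = φ x * x⁻¹ := congrArg Subtype.val h2
  exact (mul_right_cancel h5).symm

end Cfsg.Agent.S5395
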