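import Mathlib
import Cfsg.Statements.S5396
import Cfsg.Agent.Lib.Helper2.ES2Exist
import Cfsg.Agent.Lib.Helper2.ESLExtra

set_option autoImplicit false
open Cfsg

namespace Cfsg.Agent.S5396

open Cfsg.Agent.Lib.Helper2.ES2 Cfsg.Agent.Lib.Helper2.ES2X Cfsg.Agent.Lib.Helper2.ESL
open scoped commutatorElement

/-- In the minus type every elementary abelian subgroup has order at most `2 ^ n`. -/
theorem card_le_of_minus {E : Type} [Group E] [Finite E] (hZ : Nat.card (Subgroup.center E) = 2)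
    (hc : ∀ a b : E, ⁅a, b⁆ ∈ Subgroup.center E) (n : ℕ) (hn : Nat.card E = 2 ^ (2 * n + 1))
    (hminus : invCount E + 2 ^ n = 2 ^ (2 * n)) (A : Subgroup E) (hAc : IsMulCommutative A)
    (hA2 : ∀ a ∈ A, a ^ 2 = 1) : Nat.card A ≤ 2 ^ n := by
  obtain ⟨-, -, r3, -⟩ := rank_aux n E hZ hc hn
  have hpa : 0 < 2 ^ n := Nat.pos_of_ne_zero (by positivity)
  by_contra hgt
  have hdvd : Nat.card A ∣ 2 ^ (2 * n + 1) := by
    rw [← hn]; exact Subgroup.card_subgroup_dvd_card A
  obtain ⟨k, -, hk⟩ := (Nat.dvd_prime_pow Nat.prime_two).mp hdvd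
  have hkm : n + 1 ≤ k := by
    by_contra hkm
    have h1 : k ≤ n := by omega
    have := Nat.pow_le_pow_right (show 0 < 2 by norm_num) h1
    omega
  have h2 := Nat.pow_le_pow_right (show 0 < 2 by norm_num) hkm
  have := r3 ⟨A, hAc, hA2, by rw [hk]; exact h2⟩
  omega

/-- For every n ≥ 1 there exist finite extraspecial 2-groups of order 2^(2n+1) whose 2-rank (the largest rank of an elementary abelian subgroup) is n, and ones whose 2-rank is n + 1 (so for each such order there are two non-isomorphic extraspecial 2-groups, told apart by their 2-rank). -/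
theorem result (n : ℕ) (hn : 1 ≤ n) : ∀ r ∈ ({n, n + 1} : Set ℕ), ∃ (E : Type) (_ : Group E) (_ : Finite E), Cfsg.IsExtraspecial 2 E ∧ Nat.card E = 2 ^ (2 * n + 1) ∧ sSup {k : ℕ | ∃ A : Subgroup E, Cfsg.IsElementaryAbelian 2 A ∧ Nat.card A = 2 ^ k} = r := by
  intro r hr
  rcases hr with rfl | hr
  · obtain ⟨m, rfl⟩ : ∃ m, r = m + 1 := ⟨r - 1, by omega⟩
    obtain ⟨E, iG, iF, hZ, hc, hnab, hcard, hminus⟩ := exists_minus m
    refine ⟨E, iG, iF, isExtraspecial_of hZ hc hnab, hcard, ?_⟩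
    obtain ⟨-, -, -, r4⟩ := rank_aux (m + 1) E hZ hc hcard
    apply IsGreatest.csSup_eq
    constructor
    · obtain ⟨A, hAc, hA2, hle⟩ := r4 hminus
      exact ⟨A, ⟨hAc, hA2⟩, le_antisymm (card_le_of_minus hZ hc (m + 1) hcard hminus A hAc hA2) hle⟩
    · rintro k ⟨A, ⟨hAc, hA2⟩, hk⟩
      have h1 := card_le_of_minus hZ hc (m + 1) hcard hminus A hAc hA2
      rw [hk] at h1
      exact (Nat.pow_le_pow_iff_right (by norm_num)).mp h1
  · rw [Set.mem_singleton_iff] at hr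
    subst hr
    obtain ⟨E, iG, iF, hZ, hc, hnab, hcard, A, hAc, hA2, hle⟩ := exists_plus n hn
    refine ⟨E, iG, iF, isExtraspecial_of hZ hc hnab, hcard, ?_⟩
    obtain ⟨r1, -, -, -⟩ := rank_aux n E hZ hc hcard
    apply IsGreatest.csSup_eq
    constructor
    · exact ⟨A, ⟨hAc, hA2⟩, le_antisymm (r1 A hAc hA2) hle⟩
    · rintro k ⟨A', ⟨hAc', hA2'⟩, hk⟩
      have h1 := r1 A' hAc' hA2'
      rw [hk] at h1
      exact (Nat.pow_le_pow_iff_right (by norm_num)).mp h1

end Cfsg.Agent.S5396
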