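import Cfsg.Statements.S5406
import Cfsg.Agent.Lib.Helper30.MonsterFusion

set_option autoImplicit false
open Cfsg

namespace Cfsg.Agent.S5406

/-- Let G be a finite group of Monster type at the involution z with Q the extraspecial normal subgroup of order 2^25 of C = C_G(z) (so C/Q is identified with the first Conway group with Q modulo its centre the Leech lattice modulo 2, and z is not weakly closed in Q). Then C acts transitively by conjugation on the conjugates of z that lie in Q and differ from z. -/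
theorem result {G : Type*} [Group G] [Finite G] (z : G) (Q : Subgroup (Subgroup.centralizer ({z} : Set G))) [Q.Normal] (hM : Cfsg.IsOfMonsterType z Q) (s t : G) (hsQ : ∃ hsc : s ∈ Subgroup.centralizer ({z} : Set G), (⟨s, hsc⟩ : Subgroup.centralizer ({z} : Set G)) ∈ Q) (htQ : ∃ htc : t ∈ Subgroup.centralizer ({z} : Set G), (⟨t, htc⟩ : Subgroup.centralizer ({z} : Set G)) ∈ Q) (hs : IsConj z s) (ht : IsConj z t) (hs1 : s ≠ z) (ht1 : t ≠ z) : ∃ h ∈ Subgroup.centralizer ({z} : Set G), h * s * h⁻¹ = t := by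
  obtain ⟨⟨hz2, hF, hES, hcard, -⟩, e, ψ, hψ⟩ := hM
  have hcard' : Nat.card Q = 2 ^ 25 := by rw [hcard]
  have h8 : 8 < Nat.card Q := by rw [hcard']; norm_num
  have hzC : z ∈ Subgroup.centralizer ({z} : Set G) := Cfsg.Agent.Lib.Helper30.mem_cent_sing.2 rfl
  have D := Cfsg.Agent.Lib.Helper30.leechQuadData_of_monster z Q hz2 hF hES
    (by rw [hcard']; norm_num) e ψ hψ ⟨z, hzC⟩ rfl
  obtain ⟨hsc, hsQ'⟩ := hsQ
  obtain ⟨htc, htQ'⟩ := htQ
  obtain ⟨gs, hgs⟩ := isConj_iff.1 hs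
  obtain ⟨gt, hgt⟩ := isConj_iff.1 ht
  obtain ⟨vs, hvs, hns⟩ := Cfsg.Agent.Lib.Helper30.monster_conj_lift z Q hz2 hF hES h8 e ψ hψ gs
    ⟨⟨s, hsc⟩, hsQ'⟩ hgs.symm (by rw [hgs]; exact hs1)
  obtain ⟨vt, hvt, hnt⟩ := Cfsg.Agent.Lib.Helper30.monster_conj_lift z Q hz2 hF hES h8 e ψ hψ gt
    ⟨⟨t, htc⟩, htQ'⟩ hgt.symm (by rw [hgt]; exact ht1)
  obtain ⟨ht1', htζ⟩ := D.noncentral_of_norm64 vt ⟨⟨t, htc⟩, htQ'⟩ hvt hnt
  obtain ⟨h, hh⟩ := D.conj_of_norm ⟨⟨s, hsc⟩, hsQ'⟩ ⟨⟨t, htc⟩, htQ'⟩ vs vt hvs hvt ht1' htζ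
    (Or.inr hns) (hnt.trans hns.symm)
  exact ⟨(h : G), h.2, congrArg Subtype.val hh⟩

end Cfsg.Agent.S5406
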