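import Cfsg.Statements.S5407
import Cfsg.Agent.Lib.Helper30.MonsterFusion

set_option autoImplicit false
open Cfsg

namespace Cfsg.Agent.S5407

/-- Let G be a finite group of Monster type at the involution z with Q the extraspecial normal subgroup of order 2^25 of C = C_G(z) (so C/Q is identified with the first Conway group with Q modulo its centre the Leech lattice modulo 2, and z is not weakly closed in Q). Then under any such identification ψ of the Leech lattice modulo 2 with Q modulo its centre, an element x of Q is a conjugate of z other than z exactly when x modulo the centre is the image under ψ of a lattice vector of squared length 64 in the coordinates used here, that is, of norm 8 in the customary normalisation in which the minimal vectors have norm 4 (twice the minimal norm). -/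
theorem result {G : Type*} [Group G] [Finite G] (z : G) (Q : Subgroup (Subgroup.centralizer ({z} : Set G))) [Q.Normal] (hM : Cfsg.IsOfMonsterType z Q) (e : (Subgroup.centralizer ({z} : Set G)) ⧸ Q ≃* Cfsg.Spor.Co1) (ψ : Cfsg.leechLattice → Q ⧸ Subgroup.center Q) (hψ : Cfsg.IsLeechModTwoIso Q e ψ) (x : Q) : (IsConj z ((x : Subgroup.centralizer ({z} : Set G)) : G) ∧ ((x : Subgroup.centralizer ({z} : Set G)) : G) ≠ z) ↔ ∃ v : Cfsg.leechLattice, Cfsg.sqNorm (v : Cfsg.GolayPt → ℤ) = 64 ∧ ψ v = QuotientGroup.mk x := by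
  obtain ⟨⟨hz2, hF, hES, hcard, g₀, ⟨hq₀, hg₀Q⟩, hg₀z⟩, -⟩ := hM
  have hcard' : Nat.card Q = 2 ^ 25 := by rw [hcard]
  have h8 : 8 < Nat.card Q := by rw [hcard']; norm_num
  have hzC : z ∈ Subgroup.centralizer ({z} : Set G) := Cfsg.Agent.Lib.Helper30.mem_cent_sing.2 rfl
  have D := Cfsg.Agent.Lib.Helper30.leechQuadData_of_monster z Q hz2 hF hES
    (by rw [hcard']; norm_num) e ψ hψ ⟨z, hzC⟩ rfl
  constructor
  · rintro ⟨hconj, hne⟩
    obtain ⟨g, hg⟩ := isConj_iff.1 hconj
    obtain ⟨v, hv, hn⟩ := Cfsg.Agent.Lib.Helper30.monster_conj_lift z Q hz2 hF hES h8 e ψ hψ g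
      x hg.symm (by rw [hg]; exact hne)
    exact ⟨v, hn, hv⟩
  · rintro ⟨v, hn, hv⟩
    obtain ⟨v₀, hv₀, hn₀⟩ := Cfsg.Agent.Lib.Helper30.monster_conj_lift z Q hz2 hF hES h8 e ψ hψ g₀
      ⟨⟨g₀ * z * g₀⁻¹, hq₀⟩, hg₀Q⟩ rfl hg₀z
    obtain ⟨hx1, hxζ⟩ := D.noncentral_of_norm64 v x hv hn
    obtain ⟨h, hh⟩ := D.conj_of_norm ⟨⟨g₀ * z * g₀⁻¹, hq₀⟩, hg₀Q⟩ x v₀ v hv₀ hv hx1 hxζ
      (Or.inr hn₀) (hn.trans hn₀.symm)
    have hh' : (h : G) * (g₀ * z * g₀⁻¹) * (h : G)⁻¹ =
        ((x : Subgroup.centralizer ({z} : Set G)) : G) := congrArg Subtype.val hh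
    refine ⟨isConj_iff.2 ⟨(h : G) * g₀, ?_⟩, ?_⟩
    · rw [← hh']; group
    · intro hxz
      exact hxζ (Subtype.ext hxz)

end Cfsg.Agent.S5407
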