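import Cfsg.Statements.S5411
import Cfsg.Agent.Lib.Helper30.MonsterQuad

set_option autoImplicit false
open Cfsg

namespace Cfsg.Agent.S5411

/-- Let G be a finite group of Monster type at the involution z with Q the extraspecial normal subgroup of order 2^25 of C = C_G(z) (so C/Q is identified with the first Conway group with Q modulo its centre the Leech lattice modulo 2, and z is not weakly closed in Q). Then C acts transitively by conjugation on the involutions of Q that are not conjugate to z in G. -/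
theorem result {G : Type*} [Group G] [Finite G] (z : G) (Q : Subgroup (Subgroup.centralizer ({z} : Set G))) [Q.Normal] (hM : Cfsg.IsOfMonsterType z Q) (s t : G) (hsQ : ∃ hsc : s ∈ Subgroup.centralizer ({z} : Set G), (⟨s, hsc⟩ : Subgroup.centralizer ({z} : Set G)) ∈ Q) (htQ : ∃ htc : t ∈ Subgroup.centralizer ({z} : Set G), (⟨t, htc⟩ : Subgroup.centralizer ({z} : Set G)) ∈ Q) (hs2 : orderOf s = 2) (ht2 : orderOf t = 2) (hs : ¬ IsConj z s) (ht : ¬ IsConj z t) : ∃ h ∈ Subgroup.centralizer ({z} : Set G), h * s * h⁻¹ = t := by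
  obtain ⟨⟨hz2, hF, hES, hcard, g₀, ⟨hq₀, hg₀Q⟩, hg₀z⟩, e, ψ, hψ⟩ := hM
  have hcard' : Nat.card Q = 2 ^ 25 := by rw [hcard]
  have hzC : z ∈ Subgroup.centralizer ({z} : Set G) := Cfsg.Agent.Lib.Helper30.mem_cent_sing.2 rfl
  have D := Cfsg.Agent.Lib.Helper30.leechQuadData_of_monster z Q hz2 hF hES
    (by rw [hcard']; norm_num) e ψ hψ ⟨z, hzC⟩ rfl
  have hzz : z * z = 1 := by
    have h := pow_orderOf_eq_one z
    rw [hz2, pow_two] at h
    exact h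
  have hz1 : z ≠ 1 := by
    intro h
    rw [h, orderOf_one] at hz2
    norm_num at hz2
  obtain ⟨hsc, hsQ'⟩ := hsQ
  obtain ⟨htc, htQ'⟩ := htQ
  have hss : s * s = 1 := by
    have h := pow_orderOf_eq_one s
    rw [hs2, pow_two] at h
    exact h
  have hs1 : s ≠ 1 := by
    intro h
    rw [h, orderOf_one] at hs2
    norm_num at hs2
  have hsz : s ≠ z := fun h => hs (by rw [h])
  have htt : t * t = 1 := by
    have h := pow_orderOf_eq_one t
    rw [ht2, pow_two] at h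
    exact h
  have ht1 : t ≠ 1 := by
    intro h
    rw [h, orderOf_one] at ht2
    norm_num at ht2
  have htz : t ≠ z := fun h => ht (by rw [h])
  have hrr : (g₀ * z * g₀⁻¹) * (g₀ * z * g₀⁻¹) = 1 := by
    calc (g₀ * z * g₀⁻¹) * (g₀ * z * g₀⁻¹) = g₀ * (z * z) * g₀⁻¹ := by group
      _ = 1 := by rw [hzz]; group
  have hr1 : g₀ * z * g₀⁻¹ ≠ 1 := by
    intro h
    apply hz1
    calc z = g₀⁻¹ * (g₀ * z * g₀⁻¹) * g₀ := by group
      _ = 1 := by rw [h]; group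
  have key : ∀ (x : G) (hxc : x ∈ Subgroup.centralizer ({z} : Set G))
      (hxQ : (⟨x, hxc⟩ : Subgroup.centralizer ({z} : Set G)) ∈ Q), x * x = 1 → x ≠ 1 → x ≠ z →
      ∃ v : Cfsg.leechLattice, ψ v = QuotientGroup.mk (⟨⟨x, hxc⟩, hxQ⟩ : Q) ∧
        (Cfsg.sqNorm (v : Cfsg.GolayPt → ℤ) = 32 ∨ Cfsg.sqNorm (v : Cfsg.GolayPt → ℤ) = 64) :=
    fun x hxc hxQ hxx hx1 hxz => D.exists_short_lift ⟨⟨x, hxc⟩, hxQ⟩
      (fun h => hx1 (congrArg Subtype.val h)) (fun h => hxz (congrArg Subtype.val h))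
      (Subtype.ext hxx)
  obtain ⟨vr, hvr, nr⟩ := key _ hq₀ hg₀Q hrr hr1 hg₀z
  obtain ⟨vs, hvs, ns⟩ := key s hsc hsQ' hss hs1 hsz
  obtain ⟨vt, hvt, nt⟩ := key t htc htQ' htt ht1 htz
  have hsr : Cfsg.sqNorm (vs : Cfsg.GolayPt → ℤ) ≠ Cfsg.sqNorm (vr : Cfsg.GolayPt → ℤ) := by
    intro hnn
    obtain ⟨h, hh⟩ := D.conj_of_norm ⟨⟨_, hq₀⟩, hg₀Q⟩ ⟨⟨s, hsc⟩, hsQ'⟩ vr vs hvr hvs
      (fun h => hs1 (congrArg Subtype.val h)) (fun h => hsz (congrArg Subtype.val h)) nr hnn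
    have hh' : (h : G) * (g₀ * z * g₀⁻¹) * (h : G)⁻¹ = s := congrArg Subtype.val hh
    apply hs
    rw [isConj_iff]
    exact ⟨(h : G) * g₀, by rw [← hh']; group⟩
  have htr : Cfsg.sqNorm (vt : Cfsg.GolayPt → ℤ) ≠ Cfsg.sqNorm (vr : Cfsg.GolayPt → ℤ) := by
    intro hnn
    obtain ⟨h, hh⟩ := D.conj_of_norm ⟨⟨_, hq₀⟩, hg₀Q⟩ ⟨⟨t, htc⟩, htQ'⟩ vr vt hvr hvt
      (fun h => ht1 (congrArg Subtype.val h)) (fun h => htz (congrArg Subtype.val h)) nr hnn
    have hh' : (h : G) * (g₀ * z * g₀⁻¹) * (h : G)⁻¹ = t := congrArg Subtype.val hh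
    apply ht
    rw [isConj_iff]
    exact ⟨(h : G) * g₀, by rw [← hh']; group⟩
  have hst : Cfsg.sqNorm (vt : Cfsg.GolayPt → ℤ) = Cfsg.sqNorm (vs : Cfsg.GolayPt → ℤ) := by
    rcases nr with nr | nr <;> rcases ns with ns | ns <;> rcases nt with nt | nt <;>
      omega
  obtain ⟨h, hh⟩ := D.conj_of_norm ⟨⟨s, hsc⟩, hsQ'⟩ ⟨⟨t, htc⟩, htQ'⟩ vs vt hvs hvt
    (fun h => ht1 (congrArg Subtype.val h)) (fun h => htz (congrArg Subtype.val h)) ns hst
  exact ⟨(h : G), h.2, congrArg Subtype.val hh⟩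

end Cfsg.Agent.S5411
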