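import Cfsg.Statements.S5412
import Cfsg.Agent.Lib.Helper30.BabyQuot

set_option autoImplicit false
open Cfsg

namespace Cfsg.Agent.S5412

/-- Let G be a finite group of Monster type at the involution z with Q the extraspecial normal subgroup of order 2^25 of C = C_G(z) (so C/Q is identified with the first Conway group with Q modulo its centre the Leech lattice modulo 2, and z is not weakly closed in Q). Let t be an involution of Q not conjugate to z in G. Then the centralizer of t modulo the subgroup generated by t is a group of Baby Monster type (an involution whose centralizer D has generalized Fitting subgroup R extraspecial of order 2^23 with D/R identified with the second Conway group acting on R modulo its centre as on the vectors of the Leech lattice modulo 2 orthogonal to a short vector, modulo that vector; the involution not weakly closed in R). -/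
theorem result {G : Type*} [Group G] [Finite G] (z : G) (Q : Subgroup (Subgroup.centralizer ({z} : Set G))) [Q.Normal] (hM : Cfsg.IsOfMonsterType z Q) (t : G) (htQ : ∃ htc : t ∈ Subgroup.centralizer ({z} : Set G), (⟨t, htc⟩ : Subgroup.centralizer ({z} : Set G)) ∈ Q) (ht2 : orderOf t = 2) (ht : ¬ IsConj z t) [hn : ((Subgroup.zpowers t).subgroupOf (Subgroup.centralizer ({t} : Set G))).Normal] : Cfsg.IsOfBabyMonsterType (↥(Subgroup.centralizer ({t} : Set G)) ⧸ (Subgroup.zpowers t).subgroupOf (Subgroup.centralizer ({t} : Set G))) := by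
  obtain ⟨⟨hz2, hF, hES, hcard, hnwc⟩, e, ψ, hψ⟩ := hM
  obtain ⟨htc, htQ⟩ := htQ
  have hcard' : Nat.card Q = 2 ^ 25 := hcard
  have h8 : 8 < Nat.card Q := by rw [hcard']; norm_num
  have htt : t * t = 1 := by
    have h := pow_orderOf_eq_one t
    rw [ht2, pow_two] at h
    exact h
  have ht1 : t ≠ 1 := by
    intro h
    rw [h, orderOf_one] at ht2
    norm_num at ht2
  obtain ⟨v, hv, hv32⟩ := Cfsg.Agent.Lib.Helper30.monster_type_two z Q hz2 hF hES h8 hnwc e ψ hψ
    ⟨⟨t, htc⟩, htQ⟩ htt ht1 ht
  obtain ⟨τ, hτ⟩ := Cfsg.Agent.Lib.Helper92.co0_trans_min v Cfsg.Spor.leechU hv32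
    Cfsg.Agent.Lib.Helper30.sqNorm_leechU
  have hψ' := Cfsg.Agent.Lib.Helper30.isLeechModTwoIso_conj z Q e ψ hψ τ
  apply Cfsg.Agent.Lib.Helper30.baby_of_monster z Q hz2 hF hES hcard' hnwc _ _ hψ' t htc htQ
  show ψ (τ⁻¹ • Cfsg.Spor.leechU) = _
  rw [← hτ, inv_smul_smul]
  exact hv

end Cfsg.Agent.S5412
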