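import Cfsg.Statements.S5420
import Cfsg.Agent.Lib.Helper90.Basic

set_option autoImplicit false
open Cfsg

namespace Cfsg.Agent.S5420

/-- Let Q be an extraspecial 2-subgroup of the finite group G whose centralizer in G is its centre Z and which is normal in the centralizer of Z. If Z lies in the largest normal 2-subgroup of G, then Q is a large extraspecial 2-subgroup of G: it normalizes no non-trivial subgroup of G of odd order. -/
theorem result {G : Type*} [Group G] [Finite G] (Q : Subgroup G) (hL1 : Cfsg.IsExtraspecial 2 ↥Q) (hL2 : Subgroup.centralizer (Q : Set G) = ((Subgroup.center ↥Q).map Q.subtype)) (hL3 : Subgroup.centralizer (((Subgroup.center ↥Q).map Q.subtype) : Set G) ≤ Subgroup.normalizer (Q : Set G)) (hZ : ((Subgroup.center ↥Q).map Q.subtype) ≤ Cfsg.pCore 2 G) : Cfsg.IsLargeExtraspecial Q := by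
  refine ⟨hL1, hL2, hL3, ?_⟩
  intro K hK hQK
  have : Fact (Nat.Prime 2) := ⟨Nat.prime_two⟩
  have hKP : K ⊓ Cfsg.pCore 2 G = ⊥ :=
    Cfsg.Agent.Lib.Helper90.odd_inf_two_group K _ hK (Cfsg.Agent.Lib.Helper90.pCore_isPGroup 2)
  have hZQ : ((Subgroup.center ↥Q).map Q.subtype) ≤ Q := by
    rintro x ⟨y, _, rfl⟩
    exact y.2
  have hKC : K ≤ Subgroup.centralizer (((Subgroup.center ↥Q).map Q.subtype) : Set G) := by
    intro k hk
    rw [Subgroup.mem_centralizer_iff]
    intro z hz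
    have hzP : z ∈ Cfsg.pCore 2 G := hZ hz
    have hzN : z ∈ Subgroup.normalizer (K : Set G) := hQK (hZQ hz)
    have h1 : z * k * z⁻¹ * k⁻¹ ∈ K := by
      have : z * k * z⁻¹ ∈ K := (Subgroup.mem_normalizer_iff.mp hzN k).mp hk
      exact K.mul_mem this (K.inv_mem hk)
    have h2 : z * k * z⁻¹ * k⁻¹ ∈ Cfsg.pCore 2 G := by
      have hn : (Cfsg.pCore 2 G).Normal := inferInstance
      have : k * z⁻¹ * k⁻¹ ∈ Cfsg.pCore 2 G := hn.conj_mem _ (inv_mem hzP) k
      have h3 : z * (k * z⁻¹ * k⁻¹) ∈ Cfsg.pCore 2 G := mul_mem hzP this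
      have h4 : z * k * z⁻¹ * k⁻¹ = z * (k * z⁻¹ * k⁻¹) := by group
      rw [h4]; exact h3
    have h5 : z * k * z⁻¹ * k⁻¹ ∈ K ⊓ Cfsg.pCore 2 G := ⟨h1, h2⟩
    rw [hKP, Subgroup.mem_bot] at h5
    have : z * k * z⁻¹ * k⁻¹ * (k * z) = k * z := by rw [h5, one_mul]
    rw [← this]; group
  have := Cfsg.Agent.Lib.Helper90.odd_inf_centralizer_center Q hL1 hL2 hL3 K hK hQK
  rwa [inf_eq_left.mpr hKC] at this

end Cfsg.Agent.S5420
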