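import Cfsg.Statements.S5423
import Cfsg.Agent.Lib.Helper6.HoloPsi
import Cfsg.Agent.S5421

set_option autoImplicit false
open Cfsg

namespace Cfsg.Agent.S5423

open Cfsg.Agent.Lib.Helper6.TG

/-- Let G be a finite group that is the split extension of an elementary abelian normal subgroup U of order 2^(n+1), n ≥ 1, by its full automorphism group: U has a complement M in G whose conjugation action on U is faithful and realizes every automorphism of U. Let Z be a subgroup of U of order 2 and Q the largest normal 2-subgroup of the centralizer C of Z. Then Q is extraspecial of order 2^(2n+1) with an elementary abelian subgroup of order 2^(n+1) (plus type), Q is a large extraspecial 2-subgroup of G, and C is the split extension of Q by the general linear group of degree n over the field with two elements. -/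
theorem result {G : Type*} [Group G] [Finite G] (n : ℕ) (hn : 1 ≤ n) (U M : Subgroup G) [U.Normal] (hU : Cfsg.IsElementaryAbelian 2 U) (hUcard : Nat.card ↥U = 2 ^ (n + 1)) (hUM : U ⊓ M = ⊥) (hUM' : U ⊔ M = ⊤) (hfaith : ∀ m ∈ M, (∀ u ∈ U, m * u * m⁻¹ = u) → m = 1) (hfull : ∀ φ : ↥U ≃* ↥U, ∃ m ∈ M, ∀ u : ↥U, ((φ u : ↥U) : G) = m * u * m⁻¹) (Z : Subgroup G) (hZU : Z ≤ U) (hZ : Nat.card ↥Z = 2) (Q : Subgroup G) (hQ : Q = (Cfsg.pCore 2 ↥(Subgroup.centralizer (Z : Set G))).map (Subgroup.centralizer (Z : Set G)).subtype) : Cfsg.IsExtraspecial 2 ↥Q ∧ Nat.card ↥Q = 2 ^ (2 * n + 1) ∧ (∃ E : Subgroup G, E ≤ Q ∧ Cfsg.IsElementaryAbelian 2 E ∧ Nat.card ↥E = 2 ^ (n + 1)) ∧ Cfsg.IsLargeExtraspecial Q ∧ ∃ K : Subgroup G, K ≤ Subgroup.centralizer (Z : Set G) ∧ Q ⊓ K = ⊥ ∧ Q ⊔ K = Subgroup.centralizer (Z : Set G) ∧ Nonempty (↥K ≃* Matrix.GeneralLinearGroup (Fin n) (ZMod 2)) := by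
  have : Fact (Nat.Prime 2) := ⟨Nat.prime_two⟩
  -- the complement
  have hc : U.IsComplement' M := by
    apply Subgroup.isComplement'_of_disjoint_and_mul_eq_univ (disjoint_iff.2 hUM)
    rw [← Subgroup.normal_mul, hUM', Subgroup.coe_top]
  -- the generator of `Z`
  obtain ⟨zz, hzz1, hzzu⟩ := (Nat.card_eq_two_iff' (1 : ↥Z)).1 hZ
  obtain ⟨z, hzdef⟩ : ∃ z : G, z = (zz : G) := ⟨_, rfl⟩
  have hzZ : z ∈ Z := by rw [hzdef]; exact zz.2
  have hzU : z ∈ U := hZU hzZ
  have hz1 : z ≠ 1 := by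
    intro h
    apply hzz1
    apply Subtype.ext
    rw [← hzdef, h]; rfl
  have hZmem : ∀ x, x ∈ Z → x = 1 ∨ x = z := by
    intro x hx
    by_cases h : x = 1
    · exact Or.inl h
    · right
      have h1 := hzzu ⟨x, hx⟩ (fun e => h (congrArg Subtype.val e))
      rw [hzdef, ← h1]
  have hC : Subgroup.centralizer (Z : Set G) = Subgroup.centralizer ({z} : Set G) := by
    ext g
    rw [Subgroup.mem_centralizer_iff, Subgroup.mem_centralizer_iff]
    constructor
    · intro h y hy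
      rw [Set.mem_singleton_iff] at hy
      rw [hy]
      exact h z hzZ
    · intro h y hy
      rcases hZmem y hy with rfl | rfl
      · rw [one_mul, mul_one]
      · exact h _ rfl
  rw [hC] at hQ ⊢
  -- coordinates
  have hcomm : ∀ a b : ↥U, a * b = b * a := fun a b => hU.1.is_comm.comm a b
  have hsq : ∀ a ∈ U, a * a = 1 := fun a ha => by rw [← pow_two]; exact hU.2 a ha
  have hsq' : ∀ a : ↥U, a * a = 1 := fun a => Subtype.ext (hsq a.1 a.2)
  have hzU1 : (⟨z, hzU⟩ : ↥U) ≠ 1 := fun h => hz1 (congrArg Subtype.val h)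
  obtain ⟨θ, hθ⟩ := exists_coords n hcomm hsq' hUcard ⟨z, hzU⟩ hzU1
  -- the embedding
  obtain ⟨s, hsdef⟩ : ∃ s : SLN n, s = Psi θ hc z := ⟨_, rfl⟩
  have hs : (s : MatN n) = TT n := by rw [hsdef]; exact Psi_z θ hc hzU hθ
  have hinj := Psi_injective θ hc hfaith
  have hzm : z ∈ Subgroup.centralizer ({z} : Set G) :=
    Subgroup.mem_centralizer_iff.2 (fun h hh => by rw [Set.mem_singleton_iff.1 hh])
  let φ : ↥(Subgroup.centralizer ({z} : Set G)) →* ↥(Dg s) :=
    { toFun := fun g => ⟨Psi θ hc g.1, by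
        refine Subgroup.mem_centralizer_iff.2 ?_
        intro y hy
        rw [Set.mem_singleton_iff] at hy
        rw [hy, hsdef, ← map_mul, ← map_mul, Subgroup.mem_centralizer_iff.1 g.2 z rfl]⟩
      map_one' := by
        apply Subtype.ext
        exact map_one _
      map_mul' := fun a b => by
        apply Subtype.ext
        exact map_mul _ _ _ }
  have hφinj : Function.Injective φ := by
    intro a b hab
    apply Subtype.ext
    exact hinj (congrArg Subtype.val hab)
  have hφsurj : Function.Surjective φ := by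
    intro h
    obtain ⟨g, hg⟩ := Psi_range θ hc hfull hs h.1 h.2
    have hgz : g ∈ Subgroup.centralizer ({z} : Set G) := by
      rw [Subgroup.mem_centralizer_iff]
      intro y hy
      rw [Set.mem_singleton_iff] at hy
      rw [hy]
      apply hinj
      rw [map_mul, map_mul, hg, ← hsdef]
      exact Subgroup.mem_centralizer_iff.1 h.2 s rfl
    exact ⟨⟨g, hgz⟩, Subtype.ext hg⟩
  let Φ : ↥(Subgroup.centralizer ({z} : Set G)) ≃* ↥(Dg s) :=
    MulEquiv.ofBijective φ ⟨hφinj, hφsurj⟩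
  have d := (cenData_Dg' hn hs).transport Φ
  have hΦ : Φ.symm (sc s) = ⟨z, hzm⟩ := by
    rw [MulEquiv.symm_apply_eq]
    apply Subtype.ext
    exact hsdef
  rw [hΦ] at d
  obtain ⟨h1, h2, h3, h4, h5, ⟨K, hK1, hK2, hK3, ⟨f⟩⟩⟩ := CenData.main hzm d Q hQ
  -- the elementary abelian subgroup
  have hUle : ∀ w ∈ U, U ≤ Subgroup.centralizer ({w} : Set G) := by
    intro w hw g hg
    rw [Subgroup.mem_centralizer_iff]
    intro y hy
    rw [Set.mem_singleton_iff] at hy
    rw [hy]
    exact congrArg Subtype.val (hcomm ⟨w, hw⟩ ⟨g, hg⟩)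
  have hUQ : U ≤ Q := by
    rw [hQ]
    exact normal_le_pCore_map U hsq _ (hUle z hzU)
  refine ⟨h1, h2, ⟨U, hUQ, hU, hUcard⟩, ?_, ⟨K, hK1, hK2, hK3, ⟨f.trans (slEquivGL n)⟩⟩⟩
  -- largeness
  have hcard2 : 2 < Nat.card ↥U := by
    rw [hUcard]
    calc 2 < 2 ^ 2 := by norm_num
      _ ≤ 2 ^ (n + 1) := Nat.pow_le_pow_right (by norm_num) (by omega)
  obtain ⟨b, hbU, hb1, hbz⟩ := exists_third U z hcard2
  refine Cfsg.Agent.S5421.result Q h1 h4 h5 b (hUQ hbU) ?_ ?_ ?_
  · rw [h3]
    push Not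
    exact ⟨hb1, hbz⟩
  · exact orderOf_eq_prime (by rw [pow_two]; exact hsq b hbU) hb1
  · intro x hx
    rcases (h3 x).1 hx with rfl | rfl
    · exact Subgroup.one_mem _
    · exact normal_le_pCore_map U hsq _ (hUle b hbU) hzU

end Cfsg.Agent.S5423
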