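import Cfsg.Statements.S5424
import Cfsg.Agent.Lib.Helper6.TransvGenM
import Cfsg.Agent.S5421

set_option autoImplicit false
open Cfsg

namespace Cfsg.Agent.S5424

open Cfsg.Agent.Lib.Helper6.TG

/-- Let G be the special linear group of degree n + 2 over the field with two elements, n ≥ 2, let z be a transvection, and let Q be the largest normal 2-subgroup of the centralizer C of z. Then Q is extraspecial of order 2^(2n+1) with an elementary abelian subgroup of order 2^(n+1) (plus type), Q is a large extraspecial 2-subgroup of G, and C is the split extension of Q by the special linear group of degree n over the field with two elements. -/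
theorem result (n : ℕ) (hn : 2 ≤ n) (z : Matrix.SpecialLinearGroup (Fin (n + 2)) (ZMod 2)) (hz : (z : Matrix (Fin (n + 2)) (Fin (n + 2)) (ZMod 2)) = Matrix.transvection 0 1 1) (Q : Subgroup (Matrix.SpecialLinearGroup (Fin (n + 2)) (ZMod 2))) (hQ : Q = (Cfsg.pCore 2 ↥(Subgroup.centralizer ({z} : Set (Matrix.SpecialLinearGroup (Fin (n + 2)) (ZMod 2))))).map (Subgroup.centralizer ({z} : Set (Matrix.SpecialLinearGroup (Fin (n + 2)) (ZMod 2)))).subtype) : Cfsg.IsExtraspecial 2 ↥Q ∧ Nat.card ↥Q = 2 ^ (2 * n + 1) ∧ (∃ E : Subgroup (Matrix.SpecialLinearGroup (Fin (n + 2)) (ZMod 2)), E ≤ Q ∧ Cfsg.IsElementaryAbelian 2 E ∧ Nat.card ↥E = 2 ^ (n + 1)) ∧ Cfsg.IsLargeExtraspecial Q ∧ ∃ K : Subgroup (Matrix.SpecialLinearGroup (Fin (n + 2)) (ZMod 2)), K ≤ Subgroup.centralizer ({z} : Set (Matrix.SpecialLinearGroup (Fin (n + 2)) (ZMod 2))) ∧ Q ⊓ K = ⊥ ∧ Q ⊔ K = Subgroup.centralizer ({z} : Set (Matrix.SpecialLinearGroup (Fin (n + 2)) (ZMod 2))) ∧ Nonempty (↥K ≃*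 Matrix.SpecialLinearGroup (Fin n) (ZMod 2)) := by
  have : Fact (Nat.Prime 2) := ⟨Nat.prime_two⟩
  have hs : (z : MatN n) = TT n := by
    rw [hz, ← i1_eq_one]
  have hfin := finite_SLN n
  have d := cenData_Dg hn hs
  have hzm : z ∈ Subgroup.centralizer ({z} : Set (SLN n)) := (sc z).2
  obtain ⟨h1, h2, h3, h4, h5, h6⟩ := CenData.main hzm d Q hQ
  have hEQ : EG n ≤ Q := by
    rw [hQ]; exact EG_le_pCore i1_ne_zero hs
  refine ⟨h1, h2, ⟨EG n, hEQ, ⟨⟨⟨fun a b => Subtype.ext (EG_comm a.2 b.2)⟩⟩,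
    fun a ha => by rw [pow_two]; exact EG_sq ha⟩, card_EG⟩, ?_, h6⟩
  let k : Fin n := ⟨0, by omega⟩
  let b : SLN n := ⟨Matrix.transvection 0 (en k) 1,
    Matrix.det_transvection_of_ne 0 (en k) (en_ne_zero k).symm 1⟩
  have hb : (b : MatN n) = Matrix.transvection 0 (en k) 1 := rfl
  have hbE : b ∈ EG n := tv_mem_EG (en_ne_zero k) hb
  have hb0 : (b : MatN n) 0 (en k) = 1 := by
    have h := tv_mul_apply (en k) (1 : MatN n) 0 (en k)
    rw [Matrix.mul_one, if_pos rfl, Matrix.one_apply_eq,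
      Matrix.one_apply_ne (en_ne_zero k).symm, zero_add] at h
    rw [hb]; exact h
  have hbne1 : b ≠ 1 := by
    intro e
    rw [e, Matrix.SpecialLinearGroup.coe_one, Matrix.one_apply_ne (en_ne_zero k).symm] at hb0
    exact zero_ne_one hb0
  have hbnez : b ≠ z := by
    intro e
    rw [e, hs] at hb0
    have h := congrFun (rr_TT (n := n)) k
    have h' : TT n 0 (en k) = 0 := h
    rw [h'] at hb0
    exact zero_ne_one hb0
  refine Cfsg.Agent.S5421.result Q h1 h4 h5 b (hEQ hbE) ?_ ?_ ?_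
  · rw [h3]
    push Not
    exact ⟨hbne1, hbnez⟩
  · exact orderOf_eq_prime (by rw [pow_two]; exact EG_sq hbE) hbne1
  · intro x hx
    rcases (h3 x).1 hx with rfl | rfl
    · exact Subgroup.one_mem _
    · exact EG_le_pCore (en_ne_zero k) hb (tv_mem_EG i1_ne_zero hs)

end Cfsg.Agent.S5424
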