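import Cfsg.Statements.S5425
import Cfsg.Agent.Lib.Helper6.CenAStr
import Cfsg.Agent.S5421

set_option autoImplicit false
open Cfsg

namespace Cfsg.Agent.S5425

open Cfsg.Agent.Lib.Helper6.TG Cfsg.Agent.Lib.Helper6.CI Cfsg.Agent.Lib.Helper6.Golay
  Cfsg.Agent.Lib.Helper6.Cls

/-- In the Mathieu group of degree 24 (the automorphism group of the length-24 binary Golay code, acting on the 24 coordinates), let z be an involution whose fixed points form an octad (the support of a code word of weight 8), and let Q be the largest normal 2-subgroup of the centralizer C of z. Then Q is extraspecial of order 2^7 with an elementary abelian subgroup of order 16 (plus type), Q is a large extraspecial 2-subgroup, and C is the split extension of Q by the special linear group of degree 3 over the field with two elements. -/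
theorem result (z : ↥Cfsg.M24) (hz : orderOf z = 2) (hfix : (Finset.univ.filter fun p : Cfsg.GolayPt => (z : Equiv.Perm Cfsg.GolayPt) p = p) ∈ Cfsg.octads) (Q : Subgroup ↥Cfsg.M24) (hQ : Q = (Cfsg.pCore 2 ↥(Subgroup.centralizer ({z} : Set ↥Cfsg.M24))).map (Subgroup.centralizer ({z} : Set ↥Cfsg.M24)).subtype) : Cfsg.IsExtraspecial 2 ↥Q ∧ Nat.card ↥Q = 2 ^ 7 ∧ (∃ E : Subgroup ↥Cfsg.M24, E ≤ Q ∧ Cfsg.IsElementaryAbelian 2 E ∧ Nat.card ↥E = 2 ^ 4) ∧ Cfsg.IsLargeExtraspecial Q ∧ ∃ K : Subgroup ↥Cfsg.M24, K ≤ Subgroup.centralizer ({z} : Set ↥Cfsg.M24) ∧ Q ⊓ K = ⊥ ∧ Q ⊔ K = Subgroup.centralizer ({z} : Set ↥Cfsg.M24) ∧ Nonempty (↥K ≃* Matrix.SpecialLinearGroup (Fin 3) (ZMod 2)) := by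
  have : Fact (Nat.Prime 2) := ⟨Nat.prime_two⟩
  have hzm : z ∈ Subgroup.centralizer ({z} : Set ↥Cfsg.M24) :=
    Subgroup.mem_centralizer_iff.2 (fun h hh => by rw [Set.mem_singleton_iff.1 hh])
  obtain ⟨QC, d⟩ := cenData_M24 z hz hfix hzm
  obtain ⟨h1, h2, h3, h4, h5, h6⟩ := CenData.main hzm d Q hQ
  obtain ⟨o, ho⟩ : ∃ o : Finset Cfsg.GolayPt,
      o = Finset.univ.filter fun p : Cfsg.GolayPt => (z : Equiv.Perm Cfsg.GolayPt) p = p :=
    ⟨_, rfl⟩
  rw [← ho] at hfix
  have hzo : ∀ p, (z : Equiv.Perm Cfsg.GolayPt) p = p ↔ p ∈ o := by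
    intro p
    rw [ho, Finset.mem_filter]
    exact ⟨fun h => ⟨Finset.mem_univ _, h⟩, fun h => h.2⟩
  have hEQ : octE o ≤ Q := by
    rw [hQ]; exact octE_le_core hfix z hzo
  have hzE : z ∈ octE o := fun p hp => (hzo p).2 hp
  refine ⟨h1, h2, ⟨octE o, hEQ, ⟨⟨⟨fun a b => Subtype.ext (octE_comm hfix a.2 b.2)⟩⟩,
    fun a ha => by rw [pow_two]; exact octE_sq hfix ha⟩, by rw [octE_card hfix]; norm_num⟩,
    ?_, h6⟩
  obtain ⟨b, hbE, hb1, hbz⟩ : ∃ b ∈ octE o, b ≠ 1 ∧ b ≠ z := by
    by_contra hcon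
    push Not at hcon
    have hle : Nat.card ↥(octE o) ≤ 2 := by
      classical
      have hinj : Function.Injective
          (fun g : ↥(octE o) => (if g.1 = 1 then (0 : Fin 2) else 1)) := by
        intro a c hac
        apply Subtype.ext
        by_cases ha : a.1 = 1
        · by_cases hc : c.1 = 1
          · rw [ha, hc]
          · simp only [if_pos ha, if_neg hc] at hac
            exact absurd hac (by decide)
        · by_cases hc : c.1 = 1
          · simp only [if_neg ha, if_pos hc] at hac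
            exact absurd hac (by decide)
          · rw [hcon a.1 a.2 ha, hcon c.1 c.2 hc]
      have h := Nat.card_le_card_of_injective _ hinj
      rwa [Nat.card_fin] at h
    rw [octE_card hfix] at hle
    omega
  have hbfix : ∀ p, (b : Equiv.Perm Cfsg.GolayPt) p = p ↔ p ∈ o := by
    have hsub : o ⊆ Finset.univ.filter fun p => (b : Equiv.Perm Cfsg.GolayPt) p = p :=
      fun p hp => Finset.mem_filter.2 ⟨Finset.mem_univ _, hbE p hp⟩
    have hbne : (b : Equiv.Perm Cfsg.GolayPt) ≠ 1 := fun h => hb1 (Subtype.ext h)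
    have hcard := card_fixed_le_eight b.2 hbne
    have heq := Finset.eq_of_subset_of_card_le hsub
      (by rw [card_of_mem_octads hfix]; exact hcard)
    intro p
    rw [heq, Finset.mem_filter]
    exact ⟨fun h => ⟨Finset.mem_univ _, h⟩, fun h => h.2⟩
  refine Cfsg.Agent.S5421.result Q h1 h4 h5 b (hEQ hbE) ?_ ?_ ?_
  · rw [h3]
    push Not
    exact ⟨hb1, hbz⟩
  · exact orderOf_eq_prime (by rw [pow_two]; exact octE_sq hfix hbE) hb1
  · intro x hx
    rcases (h3 x).1 hx with rfl | rfl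
    · exact Subgroup.one_mem _
    · exact octE_le_core hfix b hbfix hzE

end Cfsg.Agent.S5425
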