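import Cfsg.Statements.S5426
import Cfsg.Agent.Lib.Helper30.Struct4

set_option autoImplicit false
open Cfsg

namespace Cfsg.Agent.S5426

open Cfsg.Agent.Lib.Helper30 Cfsg.Agent.Lib.Helper22

/-- Let Q be a large extraspecial 2-subgroup of the finite group G (extraspecial; centralizer equal to its centre; normal in the centralizer of its centre; normalizing no non-trivial subgroup of odd order) with centre generated by z, and let M be the normal closure of z in G. Then one of the following holds: Q is normal in G; or M is abelian and the generalized Fitting subgroup of G is its largest normal 2-subgroup; or M is the generalized Fitting subgroup of G and is a non-abelian simple group; or M is the generalized Fitting subgroup of G and is the direct product of a non-abelian simple subgroup L and its conjugate u L u⁻¹ by some u in Q (the two meet trivially and commute elementwise), with z = z₁ (u z₁ u⁻¹) for some z₁ in L whose centralizer in L is a Sylow 2-subgroup of L with Frattini subgroup inside the subgroup generated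 by z₁, and Q is not the largest normal 2-subgroup of the centralizer of z. -/
theorem result {G : Type*} [Group G] [Finite G] (Q : Subgroup G) (hQ : Cfsg.IsLargeExtraspecial Q) (z : G) (hz : ((Subgroup.center ↥Q).map Q.subtype) = Subgroup.zpowers z) (M : Subgroup G) (hM : M = Subgroup.normalClosure ({z} : Set G)) : Q.Normal ∨ (IsMulCommutative ↥M ∧ Cfsg.generalizedFittingSubgroup G = Cfsg.pCore 2 G) ∨ (M = Cfsg.generalizedFittingSubgroup G ∧ IsSimpleGroup ↥M ∧ ¬ IsMulCommutative ↥M) ∨ (M = Cfsg.generalizedFittingSubgroup G ∧ ∃ (L : Subgroup G) (u : G), u ∈ Q ∧ IsSimpleGroup ↥L ∧ ¬ IsMulCommutative ↥L ∧ L ⊓ (L).map (MulAut.conj u).toMonoidHom = ⊥ ∧ (∀ x ∈ L, ∀ y ∈ (L).map (MulAut.conj u).toMonoidHom, x * y = y * x) ∧ L ⊔ (L).map (MulAut.conj u).toMonoidHom = M ∧ ∃ z₁ ∈ L, z = z₁ * (u * z₁ * u⁻¹) ∧ (∃ R : Sylow 2 ↥L, (R : Subgroup ↥L) = (Subgroup.centralizer ({z₁} : Set G)).subgroupOf L ∧ (frattini ↥(R : Subgroup ↥L)).map ((L.subtype).comp (R : Subgroup ↥L).subtype) ≤ Subgroup.zpowers z₁) ∧ Q ≠ (Cfsg.pCore 2 ↥(Subgroup.centralizer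 ({z} : Set G))).map (Subgroup.centralizer ({z} : Set G)).subtype) := by
  classical
  have LC := largeCore_of_isLargeExtraspecial Q hQ z hz
  by_cases hU : Cfsg.pCore 2 G = ⊥
  · obtain ⟨hMF, hlay, hF⟩ := LC.caseB hU
    rw [← hM] at hMF hlay
    have X : CompCtx Q z M :=
      ⟨LC, by rw [hM]; exact Subgroup.normalClosure_normal,
        by rw [hM]; exact Subgroup.subset_normalClosure (Set.mem_singleton z), hlay, hF⟩
    have hex : ∃ L : Subgroup G, Cfsg.IsComponent L := by
      by_contra hno
      push Not at hno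
      have h1 : Cfsg.layer G = ⊥ := by
        rw [eq_bot_iff, layer_le_iff]
        intro K hK
        exact absurd hK (hno K)
      have hzM := X.hzM
      rw [← hlay, h1, Subgroup.mem_bot] at hzM
      exact LC.d.hz1 hzM
    obtain ⟨L, hL⟩ := hex
    by_cases hLM : L = M
    · right; right; left
      subst hLM
      exact ⟨hMF, X.comp_simple hL,
        Cfsg.Agent.Lib.Helper21.quasisimple_not_isMulCommutative hL.2⟩
    · right; right; right
      obtain ⟨u, hu, hne⟩ := X.exists_conj_ne hL hLM
      have P : PairCtx Q z M L u := ⟨X, hL, hu, hne⟩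
      obtain ⟨z₁, hz₁, hzd⟩ := P.z_eq
      have hc₁ : ∀ y ∈ L, (u * z₁ * u⁻¹) * y = y * (u * z₁ * u⁻¹) :=
        fun y hy => (P.conj_comm y hy _ (conj_mem_map_conj hz₁)).symm
      refine ⟨hMF, L, u, hu, X.comp_simple hL,
        Cfsg.Agent.Lib.Helper21.quasisimple_not_isMulCommutative hL.2, ?_, P.conj_comm,
        P.sup_eq, z₁, hz₁, hzd, P.sylow hz₁ hc₁ hzd, P.ne_pCore hz₁ hzd⟩
      rw [eq_bot_iff]
      intro w hw
      rw [Subgroup.mem_bot]
      exact X.comp_center hL (Subgroup.mem_inf.mp hw).1
        (fun y hy => (P.conj_comm y hy w (Subgroup.mem_inf.mp hw).2).symm)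
  · right; left
    obtain ⟨hc, hF⟩ := LC.caseA hU
    rw [← hM] at hc
    exact ⟨⟨⟨fun a b => Subtype.ext (hc a a.2 b b.2)⟩⟩, hF⟩

end Cfsg.Agent.S5426
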