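import Cfsg.Statements.S5428
import Cfsg.Agent.Lib.Helper30.OddCent2
import Cfsg.Agent.Lib.Helper30.TIFamily

set_option autoImplicit false
open Cfsg

namespace Cfsg.Agent.S5428

open Cfsg.Agent.Lib.Helper30

/-- Let z be an involution of the finite group G whose centralizer C has generalized Fitting subgroup Q extraspecial (as a 2-group), let A be a subgroup of C of odd order, and let R be the centralizer of A in Q; suppose R has order at least 32, the largest normal subgroup of odd order of the centralizer of the subgroup generated by A and R lies in A, the order of that centralizer is not divisible by 4, and g is an element of G with g z g⁻¹ in R but outside the centre Z of Q. Let M be the subgroup generated by A and the centralizer of A (A is normal in it). Then: the centralizer in M of the subgroup generated by R and A, joined with A, equals the subgroup generated by A and Z; the image of R in M/A is a large extraspecial 2-subgroup of M/A; and g z g⁻¹ is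 conjugate to z inside the subgroup generated by R and the centralizer of A in g Q g⁻¹. -/
theorem result {G : Type*} [Group G] [Finite G] (z : G) (hz : orderOf z = 2) (Q : Subgroup G) (hQC : Q ≤ Subgroup.centralizer ({z} : Set G)) (hF : (Cfsg.generalizedFittingSubgroup ↥(Subgroup.centralizer ({z} : Set G))).map (Subgroup.centralizer ({z} : Set G)).subtype = Q) (hQ : Cfsg.IsExtraspecial 2 ↥Q) (A : Subgroup G) (hA : A ≤ Subgroup.centralizer ({z} : Set G)) (hAodd : Odd (Nat.card ↥A)) (R : Subgroup G) (hR : R = Q ⊓ Subgroup.centralizer (A : Set G)) (hR32 : 32 ≤ Nat.card ↥R) (hO : (Cfsg.oddCore ↥(Subgroup.centralizer ((A ⊔ R : Subgroup G) : Set G))).map (Subgroup.centralizer ((A ⊔ R : Subgroup G) : Set G)).subtype ≤ A) (h4 : ¬ 4 ∣ Nat.card ↥(Subgroup.centralizer ((A ⊔ R : Subgroup G) : Set G))) (g : G) (hgR : g * z * g⁻¹ ∈ R) (hgZ : g * z * g⁻¹ ∉ ((Subgroup.center ↥Q).map Q.subtype)) (M : Subgroup G) (hM : M = Subgroup.centralizer (A : Set G) ⊔ A) [hn : (A.subgroupOf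 M).Normal] : (M ⊓ Subgroup.centralizer ((R ⊔ A : Subgroup G) : Set G)) ⊔ A = A ⊔ ((Subgroup.center ↥Q).map Q.subtype) ∧ Cfsg.IsLargeExtraspecial ((R.subgroupOf M).map (QuotientGroup.mk' (A.subgroupOf M))) ∧ ∃ x ∈ R ⊔ ((Q).map (MulAut.conj g).toMonoidHom ⊓ Subgroup.centralizer (A : Set G)), x * (g * z * g⁻¹) * x⁻¹ = z := by
  classical
  have hp2 : Fact (Nat.Prime 2) := ⟨Nat.prime_two⟩
  subst hR
  subst hM
  have hcardQ : 8 < Nat.card ↥Q := by
    have : Nat.card ↥(Q ⊓ Subgroup.centralizer (A : Set G) : Subgroup G) ≤ Nat.card ↥Q :=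
      Subgroup.card_le_of_le inf_le_left
    omega
  have L : LargeData Q z := largeData_of_fstar_map z hz _ rfl Q hF hQ hcardQ
  have hQ2 : IsPGroup 2 ↥Q := hQ.1.1
  have hAz : ∀ a ∈ A, a * z = z * a := fun a ha => mem_cent_sing.mp (hA ha)
  have hAQ : ∀ a ∈ A, ∀ q ∈ Q, a * q * a⁻¹ ∈ Q := fun a ha q hq => L.hN a (hAz a ha) q hq
  have dR : ClassTwoData (Q ⊓ Subgroup.centralizer (A : Set G)) z :=
    L.d.fixed hQ2 A hAodd hAz hAQ
  obtain ⟨u, hudef⟩ : ∃ u, u = g * z * g⁻¹ := ⟨_, rfl⟩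
  rw [← hudef] at hgR hgZ ⊢
  have hzR : z ∈ Q ⊓ Subgroup.centralizer (A : Set G) := dR.hzQ
  have hzC : z ∈ Subgroup.centralizer (A : Set G) := (Subgroup.mem_inf.mp hzR).2
  have huQ : u ∈ Q := (Subgroup.mem_inf.mp hgR).1
  have huC : u ∈ Subgroup.centralizer (A : Set G) := (Subgroup.mem_inf.mp hgR).2
  have hZmem : ∀ y, y ∈ (Subgroup.center ↥Q).map Q.subtype ↔ y = 1 ∨ y = z := by
    intro y
    constructor
    · rintro ⟨w, hw, rfl⟩
      apply L.d.hcen (w : G) w.2
      intro q hq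
      have := Subgroup.mem_center_iff.mp hw ⟨q, hq⟩
      exact (congrArg Subtype.val this).symm
    · rintro (h1 | h1)
      · rw [h1]; exact Subgroup.one_mem _
      · rw [h1]
        have hc : (⟨z, L.d.hzQ⟩ : ↥Q) ∈ Subgroup.center ↥Q := by
          rw [Subgroup.mem_center_iff]
          intro y
          exact Subtype.ext (L.d.hzc (y : G) y.2).symm
        exact ⟨⟨z, L.d.hzQ⟩, hc, rfl⟩
  have huz : u ≠ z := fun h => hgZ ((hZmem u).mpr (Or.inr h))
  have hu1 : u ≠ 1 := fun h => hgZ ((hZmem u).mpr (Or.inl h))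
  -- the centralizer of `A ⊔ R`
  have hY : ∀ y ∈ Subgroup.centralizer (A : Set G),
      (∀ r ∈ Q ⊓ Subgroup.centralizer (A : Set G), y * r = r * y) → y ∈ A ∨ z * y ∈ A := by
    intro y hyA hyR
    have hyY : y ∈ Subgroup.centralizer
        ((A ⊔ (Q ⊓ Subgroup.centralizer (A : Set G)) : Subgroup G) : Set G) :=
      mem_centralizer_sup.mpr ⟨Subgroup.mem_centralizer_iff.mp hyA, fun r hr => (hyR r hr).symm⟩
    have hzY : z ∈ Subgroup.centralizer
        ((A ⊔ (Q ⊓ Subgroup.centralizer (A : Set G)) : Subgroup G) : Set G) :=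
      mem_centralizer_sup.mpr ⟨hAz, fun r hr => (dR.hzc r hr).symm⟩
    obtain ⟨K, hKn, hKodd, hK⟩ := exists_odd_normal_of_central_involution
      (⟨z, hzY⟩ : ↥(Subgroup.centralizer
        ((A ⊔ (Q ⊓ Subgroup.centralizer (A : Set G)) : Subgroup G) : Set G)))
      (fun h => L.d.hz1 (congrArg Subtype.val h)) (Subtype.ext L.d.hzz)
      (fun y' => Subtype.ext ((mem_centralizer_sup.mp y'.2).2 z hzR)) h4
    have hKA : K.map (Subgroup.centralizer
        ((A ⊔ (Q ⊓ Subgroup.centralizer (A : Set G)) : Subgroup G) : Set G)).subtype ≤ A := by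
      refine le_trans (Subgroup.map_mono ?_) hO
      exact le_sSup ⟨hKn, Nat.coprime_two_right.mpr hKodd⟩
    rcases hK ⟨y, hyY⟩ with h | h
    · left; exact hKA ⟨_, h, rfl⟩
    · right; exact hKA ⟨_, h, rfl⟩
  -- conclusion (1)
  have h1 : ((Subgroup.centralizer (A : Set G) ⊔ A) ⊓ Subgroup.centralizer
      (((Q ⊓ Subgroup.centralizer (A : Set G)) ⊔ A : Subgroup G) : Set G)) ⊔ A =
      A ⊔ (Subgroup.center ↥Q).map Q.subtype := by
    apply le_antisymm
    · apply sup_le
      · intro y hy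
        have hy2 := mem_centralizer_sup.mp (Subgroup.mem_inf.mp hy).2
        rcases hY y (Subgroup.mem_centralizer_iff.mpr hy2.2) (fun r hr => (hy2.1 r hr).symm)
          with h | h
        · exact Subgroup.mem_sup_left h
        · have e : y = z * (z * y) := by rw [← mul_assoc, L.d.hzz, one_mul]
          rw [e]
          exact Subgroup.mul_mem _ (Subgroup.mem_sup_right ((hZmem z).mpr (Or.inr rfl)))
            (Subgroup.mem_sup_left h)
      · exact le_sup_left
    · apply sup_le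
      · exact le_sup_right
      · intro y hy
        rcases (hZmem y).mp hy with h | h
        · rw [h]; exact Subgroup.one_mem _
        · rw [h]
          apply Subgroup.mem_sup_left
          refine Subgroup.mem_inf.mpr ⟨Subgroup.mem_sup_left hzC, ?_⟩
          exact mem_centralizer_sup.mpr ⟨fun r hr => (dR.hzc r hr).symm, hAz⟩
  -- conclusion (3)
  obtain ⟨Q', hQ'def⟩ : ∃ Q' : Subgroup G, Q' = Q.map (MulAut.conj g).toMonoidHom := ⟨_, rfl⟩
  have hQ' : ∀ y, y ∈ Q' ↔ g⁻¹ * y * g ∈ Q := fun y => by rw [hQ'def]; exact mem_map_conj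
  have L' : LargeData Q' u := by rw [hudef]; exact L.conj g Q' hQ'
  have hzQ' : z ∈ Q' :=
    L.mem_conj g (by rw [← hudef]; exact huQ) (by rw [← hudef]; exact huz) Q' hQ'
  have hAu : ∀ a ∈ A, a * u = u * a := fun a ha => Subgroup.mem_centralizer_iff.mp huC a ha
  have hAQ' : ∀ a ∈ A, ∀ q ∈ Q', a * q * a⁻¹ ∈ Q' := fun a ha q hq => L'.hN a (hAu a ha) q hq
  have hQ'2 : IsPGroup 2 ↥Q' := by rw [hQ'def]; exact hQ2.map _
  have dR' : ClassTwoData (Q' ⊓ Subgroup.centralizer (A : Set G)) u :=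
    L'.d.fixed hQ'2 A hAodd hAu hAQ'
  obtain ⟨r, hr, hru⟩ := dR.exists_conj_eq hgR hu1 huz
  obtain ⟨r', hr', hrz⟩ := dR'.exists_conj_eq (u := z) (Subgroup.mem_inf.mpr ⟨hzQ', hzC⟩)
    L.d.hz1 (Ne.symm huz)
  have hrC : r ∈ Subgroup.centralizer (A : Set G) := (Subgroup.mem_inf.mp hr).2
  have hr'C : r' ∈ Subgroup.centralizer (A : Set G) := (Subgroup.mem_inf.mp hr').2
  have hr'Q : r' ∈ Q' := (Subgroup.mem_inf.mp hr').1
  have hxu : (r' * r) * u * (r' * r)⁻¹ = z := by
    have h1 : u * r' = r' * u := L'.d.hzc r' hr'Q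
    have h2 : z * u = u * z := L.d.hzc u huQ
    have huu : u * u = 1 := L'.d.hzz
    calc (r' * r) * u * (r' * r)⁻¹ = r' * (r * u * r⁻¹) * r'⁻¹ := by group
      _ = r' * (z * u) * r'⁻¹ := by rw [hru]
      _ = (r' * z * r'⁻¹) * (r' * u) * r'⁻¹ := by group
      _ = (u * z) * (u * r') * r'⁻¹ := by rw [hrz, h1]
      _ = u * (z * u) := by group
      _ = u * (u * z) := by rw [h2]
      _ = z := by rw [← mul_assoc, huu, one_mul]
  -- conclusion (2)
  have hCM : Subgroup.centralizer (A : Set G) ≤ Subgroup.centralizer (A : Set G) ⊔ A :=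
    le_sup_left
  obtain ⟨θ, hθ⟩ : ∃ θ : ↥(Subgroup.centralizer (A : Set G)) →*
      (↥(Subgroup.centralizer (A : Set G) ⊔ A) ⧸
        A.subgroupOf (Subgroup.centralizer (A : Set G) ⊔ A)),
      θ = (QuotientGroup.mk' _).comp (Subgroup.inclusion hCM) := ⟨_, rfl⟩
  have hθapp : ∀ c, θ c = QuotientGroup.mk' _ (Subgroup.inclusion hCM c) := fun c => by
    rw [hθ]; rfl
  have hsurj : Function.Surjective θ := by
    intro h
    obtain ⟨m, rfl⟩ := QuotientGroup.mk'_surjective _ h
    obtain ⟨c, hc, a, ha, hm⟩ := exists_mul_of_mem_centralizer_sup m.2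
    refine ⟨⟨c, hc⟩, ?_⟩
    rw [hθapp, QuotientGroup.mk'_apply, QuotientGroup.mk'_apply, QuotientGroup.eq,
      Subgroup.mem_subgroupOf]
    have e : (((Subgroup.inclusion hCM ⟨c, hc⟩)⁻¹ * m :
        ↥(Subgroup.centralizer (A : Set G) ⊔ A)) : G) = a := by
      simp only [Subgroup.coe_mul, Subgroup.coe_inv, Subgroup.coe_inclusion]
      rw [hm]; group
    rw [e]; exact ha
  have hker : ∀ c : ↥(Subgroup.centralizer (A : Set G)), θ c = 1 ↔ (c : G) ∈ A := by
    intro c
    rw [hθapp, QuotientGroup.mk'_apply, QuotientGroup.eq_one_iff, Subgroup.mem_subgroupOf]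
    rfl
  have h2 := isLargeExtraspecial_image L A hAodd dR hR32 hY (r' * r) u
    (Subgroup.mul_mem _ hr'C hrC) hgR hu1 huz hxu θ hsurj hker
  have hmap : ((Q ⊓ Subgroup.centralizer (A : Set G)).subgroupOf
      (Subgroup.centralizer (A : Set G) ⊔ A)).map
      (QuotientGroup.mk' (A.subgroupOf (Subgroup.centralizer (A : Set G) ⊔ A))) =
      ((Q ⊓ Subgroup.centralizer (A : Set G)).subgroupOf
        (Subgroup.centralizer (A : Set G))).map θ := by
    ext h
    constructor
    · rintro ⟨m, hm, rfl⟩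
      have hmR : (m : G) ∈ Q ⊓ Subgroup.centralizer (A : Set G) := Subgroup.mem_subgroupOf.mp hm
      refine ⟨⟨(m : G), (Subgroup.mem_inf.mp hmR).2⟩, Subgroup.mem_subgroupOf.mpr hmR, ?_⟩
      rw [hθapp]; rfl
    · rintro ⟨c, hc, rfl⟩
      refine ⟨Subgroup.inclusion hCM c, ?_, (hθapp c).symm⟩
      exact Subgroup.mem_subgroupOf.mpr (Subgroup.mem_subgroupOf.mp hc)
  subst hQ'def
  refine ⟨h1, ?_, r' * r, Subgroup.mul_mem _ (Subgroup.mem_sup_right hr')
    (Subgroup.mem_sup_left hr), hxu⟩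
  rw [hmap]; exact h2

end Cfsg.Agent.S5428
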