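import Cfsg.Statements.S5432
import Cfsg.Agent.Lib.Helper6.OutES2
import Cfsg.Agent.S3763

set_option autoImplicit false
open Cfsg

namespace Cfsg.Agent.S5432

open Cfsg.Agent.Lib.Helper6.OutES

theorem pRankLE_mono' {G : Type*} [Group G] {k k' : ℕ} (h : Cfsg.PRankLE 2 k G) (hk : k ≤ k') :
    Cfsg.PRankLE 2 k' G := fun A hA hA' =>
  (h A hA hA').trans (Nat.pow_le_pow_right (by norm_num) hk)

/-- Let E be an extraspecial 2-group of order 2^(2n+1), n ≥ 1. If E contains an elementary abelian subgroup of order 2^(n+1) (plus type), then its outer automorphism group is isomorphic to the full isometry group of the hyperbolic quadratic form in dimension 2n over the field with two elements; otherwise (minus type) it is isomorphic to the full isometry group of the elliptic quadratic form in dimension 2n over that field. -/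
theorem result {E : Type*} [Group E] [Finite E] (hE : Cfsg.IsExtraspecial 2 E) (n : ℕ) (hn : 1 ≤ n) (hcard : Nat.card E = 2 ^ (2 * n + 1)) : ((∃ A : Subgroup E, Cfsg.IsElementaryAbelian 2 A ∧ Nat.card ↥A = 2 ^ (n + 1)) → Nonempty (Cfsg.Out E ≃* Cfsg.isometryGroup (ZMod 2) (Cfsg.quadFormPlus n (ZMod 2)))) ∧ ((¬ ∃ A : Subgroup E, Cfsg.IsElementaryAbelian 2 A ∧ Nat.card ↥A = 2 ^ (n + 1)) → Nonempty (Cfsg.Out E ≃* Cfsg.isometryGroup (ZMod 2) (Cfsg.quadFormMinus (n - 1) (ZMod 2) 1 1))) := by
  obtain ⟨hEr, hEiso⟩ := Cfsg.Agent.S3763.result hE n hcard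
  constructor
  · intro hplus
    have hEn : ¬ Cfsg.PRankLE 2 n E := by
      intro h
      obtain ⟨A, ⟨hA1, hA2⟩, hA3⟩ := hplus
      have := h A hA1 hA2
      rw [hA3] at this
      have h2 : 2 ^ n < 2 ^ (n + 1) := Nat.pow_lt_pow_right (by norm_num) (by omega)
      omega
    have hEp : Cfsg.PRankLE 2 (n + 1) E := by
      rcases hEr with h | h
      · exact absurd h.1 hEn
      · exact h.1
    have hXr := (Cfsg.Agent.S3763.result.{0, 0} (isExtraspecial_plus n hn) n (card_plus n)).1
    have hXp : Cfsg.PRankLE 2 (n + 1) (XC (Cplus n)) := by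
      rcases hXr with h | h
      · exact absurd h.1 (not_pRankLE_plus n)
      · exact h.1
    obtain ⟨φ⟩ := hEiso (XC (Cplus n)) (isExtraspecial_plus n hn)
      ((card_plus n).trans hcard.symm) (by
        intro k
        by_cases hk : n + 1 ≤ k
        · exact ⟨fun _ => pRankLE_mono' hXp hk, fun _ => pRankLE_mono' hEp hk⟩
        · have hk' : k ≤ n := by omega
          exact ⟨fun h => absurd (pRankLE_mono' h hk') hEn,
            fun h => absurd (pRankLE_mono' h hk') (not_pRankLE_plus n)⟩)
    exact ⟨(outCongr φ).trans (outEquiv Sum.swap (hσ_plus n) _ (hQ_plus n))⟩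
  · intro hminus
    obtain ⟨m, rfl⟩ : ∃ m, n = m + 1 := ⟨n - 1, by omega⟩
    have hEp : Cfsg.PRankLE 2 (m + 1) E ∧ ¬ Cfsg.PRankLE 2 m E := by
      rcases hEr with h | h
      · exact h
      · exfalso
        obtain ⟨h1, h2⟩ := h
        apply hminus
        unfold Cfsg.PRankLE at h2
        push Not at h2
        obtain ⟨A, hAc, hA2, hgt⟩ := h2
        refine ⟨A, ⟨hAc, hA2⟩, ?_⟩
        have hle := h1 A hAc hA2
        have hdvd : Nat.card A ∣ 2 ^ (2 * (m + 1) + 1) := by
          rw [← hcard]; exact Subgroup.card_subgroup_dvd_card A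
        obtain ⟨k, -, hk⟩ := (Nat.dvd_prime_pow Nat.prime_two).mp hdvd
        rw [hk] at hgt hle ⊢
        have h3 : m + 1 < k := (Nat.pow_lt_pow_iff_right (by norm_num)).1 hgt
        have h4 : k ≤ m + 1 + 1 := (Nat.pow_le_pow_iff_right (by norm_num)).1 hle
        have h5 : k = m + 1 + 1 := by omega
        rw [h5]
    have hXr := (Cfsg.Agent.S3763.result.{0, 0} (isExtraspecial_minus m) (m + 1) (card_minus m)).1
    have hXp : Cfsg.PRankLE 2 (m + 1) (XC (Cminus m)) ∧ ¬ Cfsg.PRankLE 2 m (XC (Cminus m)) := by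
      rcases hXr with h | h
      · exact h
      · exact absurd (pRankLE_minus m) h.2
    obtain ⟨φ⟩ := hEiso (XC (Cminus m)) (isExtraspecial_minus m)
      ((card_minus m).trans hcard.symm) (by
        intro k
        by_cases hk : m + 1 ≤ k
        · exact ⟨fun _ => pRankLE_mono' hXp.1 hk, fun _ => pRankLE_mono' hEp.1 hk⟩
        · have hk' : k ≤ m := by omega
          exact ⟨fun h => absurd (pRankLE_mono' h hk') hEp.2,
            fun h => absurd (pRankLE_mono' h hk') hXp.2⟩)
    exact ⟨(outCongr φ).trans (outEquiv (sigMinus m) (hσ_minus m) _ (hQ_minus m))⟩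

end Cfsg.Agent.S5432
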