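import Cfsg.Statements.S5433
import Cfsg.Agent.Lib.Helper90.Large

set_option autoImplicit false
open Cfsg

namespace Cfsg.Agent.S5433

/-- Let Q be a large extraspecial 2-subgroup of the finite group G (extraspecial; centralizer equal to its centre; normal in the centralizer of its centre; normalizing no non-trivial subgroup of odd order), and L a normal subgroup of G containing Q. Then G is the product of L and the normalizer of Q. -/
theorem result {G : Type*} [Group G] [Finite G] (Q : Subgroup G) (hQ : Cfsg.IsLargeExtraspecial Q) (L : Subgroup G) [L.Normal] (hQL : Q ≤ L) : L ⊔ Subgroup.normalizer (Q : Set G) = ⊤ := by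
  obtain ⟨hL1, hL2, hL3, -⟩ := hQ
  have hfact : Fact (Nat.Prime 2) := ⟨Nat.prime_two⟩
  have hQ2 : IsPGroup 2 ↥Q := hL1.1.1
  have hQL2 : IsPGroup 2 ↥(Q.subgroupOf L) := hQ2.comap_subtype
  obtain ⟨P, hP⟩ := hQL2.exists_le_sylow
  have hT2 : IsPGroup 2 ↥((P : Subgroup L).map L.subtype) := P.isPGroup'.map _
  have hQT : Q ≤ (P : Subgroup L).map L.subtype := by
    intro q hq
    refine ⟨⟨q, hQL hq⟩, hP ?_, rfl⟩
    exact Subgroup.mem_subgroupOf.mpr hq
  have hN := Cfsg.Agent.Lib.Helper90.normalizer_le_of_two_group_ge Q hL1 hL2 hL3 _ hT2 hQT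
  have hF := Sylow.normalizer_sup_eq_top P
  rw [eq_top_iff, ← hF, sup_comm]
  exact sup_le_sup_left hN L

end Cfsg.Agent.S5433
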