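import Mathlib
import Cfsg.Agent.Lib.Helper61.Coprime
import Cfsg.Agent.Lib.Helper61.CoprimeAb
import Cfsg.Agent.Lib.Helper61.Norm
import Cfsg.Agent.Lib.Helper90.Invol
import Cfsg.Agent.Lib.Helper90.Basic
import Cfsg.Agent.Lib.Helper47.Frat
import Cfsg.Agent.Lib.Helper2.FrattiniP
import Cfsg.Agent.S0026
import Cfsg.Agent.S0027
import Cfsg.Statements.S5434

set_option autoImplicit false

namespace Cfsg.Agent.S5434

open Cfsg.Agent.Lib.Helper61

/-- A `2`-subgroup `R` with centre `Z` of order two, `R' = Z` and squares in `Z` is extraspecial. -/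
theorem isExtraspecial_of {G : Type*} [Group G] [Finite G] (R Z : Subgroup G) (hR2 : IsPGroup 2 R)
    (hcen : R ⊓ Subgroup.centralizer (R : Set G) = Z) (hcomm : ⁅R, R⁆ = Z)
    (hsq : ∀ x ∈ R, x ^ 2 ∈ Z) (hcard : Nat.card Z = 2) : Cfsg.IsExtraspecial 2 ↥R := by
  have : Fact (Nat.Prime 2) := ⟨Nat.prime_two⟩
  have hcenter : (Subgroup.center R).map R.subtype = Z := by rw [map_subtype_center, hcen]
  have hcommR : (commutator R).map R.subtype = Z := by
    rw [Subgroup.map_subtype_commutator]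
    exact hcomm
  have hcc : commutator R = Subgroup.center R :=
    Subgroup.map_injective R.subtype_injective (hcommR.trans hcenter.symm)
  have hmemZ : ∀ u : R, (u : G) ∈ Z → u ∈ Subgroup.center R := by
    intro u hu
    rw [← hcenter] at hu
    obtain ⟨c, hc, hcu⟩ := hu
    have : c = u := Subtype.ext hcu
    rw [← this]; exact hc
  refine ⟨⟨hR2, ?_, hcc⟩, ?_⟩
  · apply le_antisymm
    · have key := Cfsg.Agent.Lib.Helper47.frattini_le_ker_of_elementary (p := 2)
        (QuotientGroup.mk' (Subgroup.center R)) ?_ ?_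
      · rwa [QuotientGroup.ker_mk'] at key
      · intro u v
        have h1 : u * v * u⁻¹ * v⁻¹ ∈ Subgroup.center R := by
          rw [← hcc, commutator_def]
          exact Subgroup.commutator_mem_commutator (Subgroup.mem_top u) (Subgroup.mem_top v)
        have h2 : QuotientGroup.mk' (Subgroup.center R) (u * v * u⁻¹ * v⁻¹) = 1 :=
          (QuotientGroup.eq_one_iff _).mpr h1
        simp only [map_mul, map_inv] at h2
        calc QuotientGroup.mk' (Subgroup.center R) u * QuotientGroup.mk' (Subgroup.center R) v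
            = (QuotientGroup.mk' (Subgroup.center R) u * QuotientGroup.mk' (Subgroup.center R) v *
                (QuotientGroup.mk' (Subgroup.center R) u)⁻¹ *
                (QuotientGroup.mk' (Subgroup.center R) v)⁻¹) *
              (QuotientGroup.mk' (Subgroup.center R) v * QuotientGroup.mk' (Subgroup.center R) u) := by
              group
          _ = QuotientGroup.mk' (Subgroup.center R) v * QuotientGroup.mk' (Subgroup.center R) u := by
              rw [h2, one_mul]
      · intro u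
        rw [← map_pow]
        refine (QuotientGroup.eq_one_iff _).mpr (hmemZ (u ^ 2) ?_)
        have := hsq u u.2
        simpa using this
    · rw [← hcc]
      exact Cfsg.Agent.Lib.Helper2.commutator_le_frattini hR2
  · rw [← Subgroup.card_map_of_injective R.subtype_injective, hcenter, hcard]

theorem center_le_of_sup {G : Type*} [Group G] (X Y Q : Subgroup G) (hXQ : X ≤ Q)
    (hXY : X ⊔ Y = Q) (hcomm : ∀ x ∈ X, ∀ y ∈ Y, x * y = y * x) :
    X ⊓ Subgroup.centralizer (X : Set G) ≤ Q ⊓ Subgroup.centralizer (Q : Set G) := by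
  intro x hx
  obtain ⟨hxX, hxC⟩ := Subgroup.mem_inf.mp hx
  refine Subgroup.mem_inf.mpr ⟨hXQ hxX, ?_⟩
  have hle : Q ≤ Subgroup.centralizer ({x} : Set G) := by
    rw [← hXY]
    apply sup_le
    · intro y hy
      rw [Subgroup.mem_centralizer_iff]
      intro h hh
      rw [Set.mem_singleton_iff] at hh
      subst hh
      exact ((Subgroup.mem_centralizer_iff.mp hxC) y hy).symm
    · intro y hy
      rw [Subgroup.mem_centralizer_iff]
      intro h hh
      rw [Set.mem_singleton_iff] at hh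
      subst hh
      exact hcomm h hxX y hy
  rw [Subgroup.mem_centralizer_iff]
  intro q hq
  exact ((Subgroup.mem_centralizer_iff.mp (hle hq)) x rfl).symm

theorem result {G : Type*} [Group G] [Finite G] (Q : Subgroup G) (hQ : Cfsg.IsLargeExtraspecial Q) (A : Subgroup G) (hA : A ≤ Subgroup.normalizer (Q : Set G)) (hAodd : Odd (Nat.card ↥A)) (hA1 : A ≠ ⊥) : (Q ⊓ Subgroup.centralizer (A : Set G)) ⊔ ⁅Q, A⁆ = Q ∧ (∀ x ∈ Q ⊓ Subgroup.centralizer (A : Set G), ∀ y ∈ ⁅Q, A⁆, x * y = y * x) ∧ Cfsg.IsExtraspecial 2 ↥⁅Q, A⁆ ∧ (Q ⊓ Subgroup.centralizer (A : Set G) = ((Subgroup.center ↥Q).map Q.subtype) ∨ Cfsg.IsExtraspecial 2 ↥(Q ⊓ Subgroup.centralizer (A : Set G))) := by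
  obtain ⟨hQe, hCQ, -, -⟩ := hQ
  have hQ2 : IsPGroup 2 Q := hQe.1.1
  have : Fact (Nat.Prime 2) := ⟨Nat.prime_two⟩
  obtain ⟨Z, hZ⟩ : ∃ Z : Subgroup G, Z = (Subgroup.center ↥Q).map Q.subtype := ⟨_, rfl⟩
  rw [← hZ] at hCQ ⊢
  have hZcard : Nat.card Z = 2 := by
    rw [hZ, Subgroup.card_map_of_injective Q.subtype_injective]; exact hQe.2
  have hZeq : Z = Q ⊓ Subgroup.centralizer (Q : Set G) := by rw [hZ]; exact map_subtype_center Q
  have hZQ : Z ≤ Q := by rw [hZ]; exact Subgroup.map_subtype_le _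
  have hZC : Z ≤ Subgroup.centralizer (Q : Set G) := hCQ.ge
  have hQQ : ⁅Q, Q⁆ = Z := by
    rw [hZ, ← hQe.1.2.2, Subgroup.map_subtype_commutator]
  have hsq : ∀ x ∈ Q, x ^ 2 ∈ Z := by
    intro x hx
    have h1 := Cfsg.Agent.Lib.Helper2.pow_mem_frattini hQ2 (⟨x, hx⟩ : Q)
    rw [hQe.1.2.1] at h1
    rw [hZ]
    exact ⟨_, h1, by simp⟩
  have hZsub : ∀ X : Subgroup G, X ≤ Z → X ≠ ⊥ → X = Z := by
    intro X hXZ hX
    apply Subgroup.eq_of_le_of_card_ge hXZ
    rw [hZcard]
    have h1 : Nat.card X ∣ 2 := hZcard ▸ Subgroup.card_dvd_of_le hXZ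
    have h2 : Nat.card X ≠ 1 := fun h => hX (Subgroup.eq_bot_of_card_eq X h)
    rcases (Nat.dvd_prime Nat.prime_two).mp h1 with h | h
    · exact absurd h h2
    · exact h.ge
  have hcop : (Nat.card A).Coprime (Nat.card Q) := by
    obtain ⟨k, hk⟩ := hQ2.exists_card_eq
    rw [hk]
    exact Nat.Coprime.pow_right k (Odd.coprime_two_right hAodd)
  have hsolv : Group.IsSolvable A ∨ Group.IsSolvable Q := Or.inr (by
    have := hQ2.isNilpotent
    infer_instance)
  obtain ⟨R, hR⟩ : ∃ R : Subgroup G, R = ⁅Q, A⁆ := ⟨_, rfl⟩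
  obtain ⟨C, hC⟩ : ∃ C : Subgroup G, C = Q ⊓ Subgroup.centralizer (A : Set G) := ⟨_, rfl⟩
  rw [← hR, ← hC]
  have hRQ : R ≤ Q := by rw [hR]; exact commutator_le_of_le_normalizer hA
  have hCQ' : C ≤ Q := by rw [hC]; exact inf_le_left
  have h26 : R ⊔ C = Q := by rw [hR, hC]; exact Cfsg.Agent.S0026.result A Q hA hcop hsolv
  have h27 : ⁅R, A⁆ = R := by rw [hR]; exact Cfsg.Agent.S0027.result A Q hA hcop hsolv
  have hAZ : Z ≤ Subgroup.centralizer (A : Set G) := by
    obtain ⟨z, hzQ, hz1, hzz, hzZ, hzc⟩ := Cfsg.Agent.Lib.Helper90.exists_center_gen Q hQe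
    rw [← hZ] at hzZ
    have hAN : A ≤ Subgroup.normalizer (Z : Set G) := by
      rw [hZeq]
      exact le_trans (le_inf hA (hA.trans (normalizer_le_normalizer_centralizer Q)))
        (normalizer_inf_le_normalizer_inf Q _)
    intro x hx
    rw [Subgroup.mem_centralizer_iff]
    intro a ha
    rcases (hzZ x).mp hx with rfl | rfl
    · rw [mul_one, one_mul]
    · have h1 : a * x * a⁻¹ ∈ Z := (Subgroup.le_normalizer_iff.mp hAN) a ha x hx
      rcases (hzZ _).mp h1 with h | h
      · exfalso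
        apply hz1
        have e : x = a⁻¹ * (a * x * a⁻¹) * a := by group
        rw [e, h]; group
      · calc a * x = (a * x * a⁻¹) * a := by group
          _ = x * a := by rw [h]
  have hZCle : Z ≤ C := by rw [hC]; exact le_inf hZQ hAZ
  have hRC : ⁅R, C⁆ = ⊥ := by
    rw [hR]
    apply Subgroup.commutator_commutator_eq_bot_of_rotate
    · have h1 : ⁅A, C⁆ = ⊥ := by
        rw [Subgroup.commutator_comm, Subgroup.commutator_eq_bot_iff_le_centralizer, hC]
        exact inf_le_right
      rw [h1]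
      exact Subgroup.commutator_bot_left Q
    · rw [Subgroup.commutator_eq_bot_iff_le_centralizer]
      exact le_trans (le_trans (Subgroup.commutator_mono hCQ' le_rfl) hQQ.le) hAZ
  have hcommCR : ∀ x ∈ C, ∀ y ∈ R, x * y = y * x := by
    intro x hx y hy
    have h1 : R ≤ Subgroup.centralizer (C : Set G) :=
      Subgroup.commutator_eq_bot_iff_le_centralizer.mp hRC
    exact (Subgroup.mem_centralizer_iff.mp (h1 hy)) x hx
  have hcenR : R ⊓ Subgroup.centralizer (R : Set G) ≤ Z := by
    rw [hZeq]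
    exact center_le_of_sup R C Q hRQ h26 (fun x hx y hy => (hcommCR y hy x hx).symm)
  have hcenC : C ⊓ Subgroup.centralizer (C : Set G) ≤ Z := by
    rw [hZeq]
    exact center_le_of_sup C R Q hCQ' (by rw [sup_comm]; exact h26) hcommCR
  -- R is nontrivial
  have hRne : R ≠ ⊥ := by
    intro h
    rw [hR, Subgroup.commutator_eq_bot_iff_le_centralizer, Subgroup.le_centralizer_iff] at h
    have h1 : A ≤ Q := h.trans (hCQ.le.trans hZQ)
    have h2 := Cfsg.Agent.Lib.Helper90.odd_inf_two_group A Q hAodd hQ2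
    rw [inf_eq_left.mpr h1] at h2
    exact hA1 h2
  have hRR : ⁅R, R⁆ = Z := by
    apply hZsub
    · exact (Subgroup.commutator_mono hRQ hRQ).trans hQQ.le
    · intro hab
      have hAR : A ≤ Subgroup.normalizer (R : Set G) := by
        rw [hR]
        exact le_trans (le_inf hA Subgroup.le_normalizer) (normalizer_inf_le_normalizer_commutator Q A)
      have hcop' : (Nat.card A).Coprime (Nat.card R) :=
        Nat.Coprime.coprime_dvd_right (Subgroup.card_dvd_of_le hRQ) hcop
      have h1 := inf_centralizer_le_commutator_of_commutator_eq R A hAR hcop' h27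
      rw [hab] at h1
      have h2 : R ≤ Subgroup.centralizer (R : Set G) :=
        Subgroup.commutator_eq_bot_iff_le_centralizer.mp hab
      have h3 : R ≤ R ⊓ Subgroup.centralizer (A : Set G) :=
        le_inf le_rfl ((le_inf le_rfl h2).trans (hcenR.trans hAZ))
      exact hRne (le_bot_iff.mp (h3.trans h1))
  have hZR : Z ≤ R := by
    rw [← hRR]
    exact commutator_le_of_le_normalizer Subgroup.le_normalizer
  have hcenR' : R ⊓ Subgroup.centralizer (R : Set G) = Z :=
    le_antisymm hcenR (le_inf hZR (hZC.trans (Subgroup.centralizer_le (SetLike.coe_subset_coe.mpr hRQ))))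
  refine ⟨by rw [sup_comm]; exact h26, hcommCR, ?_, ?_⟩
  · exact isExtraspecial_of R Z (hQ2.to_le hRQ) hcenR' hRR (fun x hx => hsq x (hRQ hx)) hZcard
  · by_cases hCab : ⁅C, C⁆ = ⊥
    · left
      have h2 : C ≤ Subgroup.centralizer (C : Set G) :=
        Subgroup.commutator_eq_bot_iff_le_centralizer.mp hCab
      exact le_antisymm ((le_inf le_rfl h2).trans hcenC) hZCle
    · right
      have hCC : ⁅C, C⁆ = Z :=
        hZsub _ ((Subgroup.commutator_mono hCQ' hCQ').trans hQQ.le) hCab
      have hcenC' : C ⊓ Subgroup.centralizer (C : Set G) = Z :=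
        le_antisymm hcenC (le_inf hZCle
          (hZC.trans (Subgroup.centralizer_le (SetLike.coe_subset_coe.mpr hCQ'))))
      exact isExtraspecial_of C Z (hQ2.to_le hCQ') hcenC' hCC (fun x hx => hsq x (hCQ' hx)) hZcard

end Cfsg.Agent.S5434
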