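import Cfsg.Statements.S5437
import Cfsg.Agent.Lib.Helper90.Conj

set_option autoImplicit false
open Cfsg

namespace Cfsg.Agent.S5437

/-- Let I be a set of involutions of the finite group G closed under conjugation, and H a subgroup of G. The following are equivalent: (1) for every member x of I lying in H, the conjugates of x lying in H form a single H-class and the centralizer of x lies in H; (2) for every g outside H, no member of I lies in both H and g H g⁻¹; (3) every member of I lying in H fixes exactly one coset in the action of G on the cosets of H. -/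
theorem result {G : Type*} [Group G] [Finite G] (I : Set G) (hI : ∀ x ∈ I, orderOf x = 2) (hIc : ∀ g : G, ∀ x ∈ I, g * x * g⁻¹ ∈ I) (H : Subgroup G) : ((∀ x ∈ I, x ∈ H → (∀ g : G, g * x * g⁻¹ ∈ H → ∃ h ∈ H, h * x * h⁻¹ = g * x * g⁻¹) ∧ Subgroup.centralizer ({x} : Set G) ≤ H) ↔ (∀ g : G, g ∉ H → ∀ x ∈ I, ¬ (x ∈ H ∧ x ∈ (H : Subgroup G).map (MulAut.conj g).toMonoidHom))) ∧ ((∀ g : G, g ∉ H → ∀ x ∈ I, ¬ (x ∈ H ∧ x ∈ (H : Subgroup G).map (MulAut.conj g).toMonoidHom)) ↔ ∀ x ∈ I, x ∈ H → ∃! c : G ⧸ H, x • c = c) := by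
  refine ⟨⟨?_, ?_⟩, ⟨?_, ?_⟩⟩
  · -- (1) → (2)
    intro h1 g hg x hxI ⟨hxH, hxg⟩
    rw [Cfsg.Agent.Lib.Helper90.mem_map_conj_iff] at hxg
    have hyI : g⁻¹ * x * g ∈ I := by
      have := hIc g⁻¹ x hxI
      rwa [inv_inv] at this
    obtain ⟨hfus, hcent⟩ := h1 _ hyI hxg
    have hx' : g * (g⁻¹ * x * g) * g⁻¹ = x := by group
    obtain ⟨h, hhH, hh⟩ := hfus g (by rw [hx']; exact hxH)
    -- h⁻¹ * g centralises y
    have hc : h⁻¹ * g ∈ Subgroup.centralizer ({g⁻¹ * x * g} : Set G) := by
      rw [Subgroup.mem_centralizer_iff]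
      intro y hy
      rw [Set.mem_singleton_iff] at hy
      subst hy
      have e1 : g⁻¹ * x * g * (h⁻¹ * g) = h⁻¹ * (h * (g⁻¹ * x * g) * h⁻¹) * g := by group
      rw [e1, hh]
      group
    have := hcent hc
    apply hg
    have e2 : g = h * (h⁻¹ * g) := by group
    rw [e2]
    exact H.mul_mem hhH this
  · -- (2) → (1)
    intro h2 x hxI hxH
    refine ⟨?_, ?_⟩
    · intro g hgx
      refine ⟨g, ?_, rfl⟩
      by_contra hg
      refine h2 g hg (g * x * g⁻¹) (hIc g x hxI) ⟨hgx, ?_⟩
      rw [Cfsg.Agent.Lib.Helper90.mem_map_conj_iff]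
      have : g⁻¹ * (g * x * g⁻¹) * g = x := by group
      rw [this]; exact hxH
    · intro g hg
      by_contra hgH
      refine h2 g hgH x hxI ⟨hxH, ?_⟩
      rw [Cfsg.Agent.Lib.Helper90.mem_map_conj_iff]
      have hgx : g * x = x * g := by
        have := Subgroup.mem_centralizer_iff.mp hg x (Set.mem_singleton x)
        exact this.symm
      have : g⁻¹ * x * g = x := by
        calc g⁻¹ * x * g = g⁻¹ * (x * g) := by group
          _ = g⁻¹ * (g * x) := by rw [hgx]
          _ = x := by group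
      rw [this]; exact hxH
  · -- (2) → (3)
    intro h2 x hxI hxH
    refine ⟨((1 : G) : G ⧸ H), ?_, ?_⟩
    · show x • ((1 : G) : G ⧸ H) = ((1 : G) : G ⧸ H)
      rw [Cfsg.Agent.Lib.Helper90.smul_coset_eq_iff]
      simpa using hxH
    · intro c hc
      induction c using QuotientGroup.induction_on with
      | H g =>
        have hc' : x • (g : G ⧸ H) = (g : G ⧸ H) := hc
        rw [Cfsg.Agent.Lib.Helper90.smul_coset_eq_iff] at hc'
        by_contra hne
        have hg : g ∉ H := by
          intro hgH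
          apply hne
          rw [QuotientGroup.eq]
          simpa using hgH
        refine h2 g hg x hxI ⟨hxH, ?_⟩
        rw [Cfsg.Agent.Lib.Helper90.mem_map_conj_iff]
        exact hc'
  · -- (3) → (2)
    intro h3 g hg x hxI ⟨hxH, hxg⟩
    rw [Cfsg.Agent.Lib.Helper90.mem_map_conj_iff] at hxg
    obtain ⟨c, -, huniq⟩ := h3 x hxI hxH
    have e1 : ((1 : G) : G ⧸ H) = c := by
      apply huniq
      show x • ((1 : G) : G ⧸ H) = ((1 : G) : G ⧸ H)
      rw [Cfsg.Agent.Lib.Helper90.smul_coset_eq_iff]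
      simpa using hxH
    have e2 : (g : G ⧸ H) = c := by
      apply huniq
      show x • (g : G ⧸ H) = (g : G ⧸ H)
      rw [Cfsg.Agent.Lib.Helper90.smul_coset_eq_iff]
      exact hxg
    have e3 : ((1 : G) : G ⧸ H) = (g : G ⧸ H) := e1.trans e2.symm
    rw [QuotientGroup.eq] at e3
    apply hg
    simpa using e3

end Cfsg.Agent.S5437
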