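import Cfsg.Statements.S5438
import Cfsg.Agent.Lib.Helper90.SylowAux

set_option autoImplicit false
open Cfsg

namespace Cfsg.Agent.S5438

/-- Let z be a 2-central involution of the finite group G (an involution central in some Sylow 2-subgroup) and H a subgroup containing z such that the coset H is the only coset of H fixed by z (in the action of G on the cosets of H). Then H has odd index in G, and for every 2-element x of H the conjugates of x lying in H form a single H-class. -/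
theorem result {G : Type*} [Group G] [Finite G] (z : G) (hz : Cfsg.IsTwoCentralInvolution z) (H : Subgroup G) (hzH : z ∈ H) (hfix : ∀ g : G, g⁻¹ * z * g ∈ H → g ∈ H) : Odd H.index ∧ ∀ x ∈ H, (∃ k : ℕ, orderOf x = 2 ^ k) → ∀ g : G, g * x * g⁻¹ ∈ H → ∃ h ∈ H, h * x * h⁻¹ = g * x * g⁻¹ := by
  obtain ⟨hz2, P, hzP, hPz⟩ := hz
  have hfact : Fact (Nat.Prime 2) := ⟨Nat.prime_two⟩
  have hzz : z * z = 1 := by rw [← pow_two, ← hz2]; exact pow_orderOf_eq_one z
  have hPH : (P : Subgroup G) ≤ H := by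
    intro x hx
    apply hfix
    have h1 := hPz x hx
    have e : x⁻¹ * z * x = z := by
      calc x⁻¹ * z * x = x⁻¹ * (z * x) := by group
        _ = x⁻¹ * (x * z) := by rw [h1]
        _ = z := by group
    rw [e]; exact hzH
  -- H-conjugates of z have the fixing property
  have hfixH : ∀ h ∈ H, ∀ g : G, g⁻¹ * (h * z * h⁻¹) * g ∈ H → g ∈ H := by
    intro h hh g hg
    have h1 : (h⁻¹ * g)⁻¹ * z * (h⁻¹ * g) ∈ H := by
      have e : (h⁻¹ * g)⁻¹ * z * (h⁻¹ * g) = g⁻¹ * (h * z * h⁻¹) * g := by group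
      rw [e]; exact hg
    have h2 := hfix _ h1
    have e2 : g = h * (h⁻¹ * g) := by group
    rw [e2]; exact H.mul_mem hh h2
  -- conjugates of z lying in H are H-conjugates
  have hconjH : ∀ a : G, a * z * a⁻¹ ∈ H → a ∈ H := by
    intro a ha
    have h1 : (a⁻¹)⁻¹ * z * a⁻¹ ∈ H := by rwa [inv_inv]
    have h2 := hfix _ h1
    exact (H.inv_mem_iff).mp h2
  -- Claim 1: a 2-subgroup containing an H-conjugate of z lies in H
  have claim1 : ∀ (R : Subgroup G), IsPGroup 2 R → ∀ h ∈ H, h * z * h⁻¹ ∈ R → R ≤ H := by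
    intro R hR h hh hzR
    obtain ⟨P', hP'⟩ := hR.exists_le_sylow
    obtain ⟨a, ha⟩ := MulAction.exists_smul_eq G P P'
    have hz'c : ∀ r ∈ (P' : Subgroup G), r * (a * z * a⁻¹) = (a * z * a⁻¹) * r := by
      intro r hr
      have h0 : a⁻¹ * r * a ∈ (P : Subgroup G) := by
        rw [← ha] at hr
        exact (Cfsg.Agent.Lib.Helper90.mem_sylow_smul_iff P a r).mp hr
      have h1 := hPz _ h0
      calc r * (a * z * a⁻¹) = a * ((a⁻¹ * r * a) * z) * a⁻¹ := by group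
        _ = a * (z * (a⁻¹ * r * a)) * a⁻¹ := by rw [h1]
        _ = (a * z * a⁻¹) * r := by group
    have hz'H : a * z * a⁻¹ ∈ H := by
      have h1 := hz'c _ (hP' hzR)
      have h2 : ((a * z * a⁻¹)⁻¹)⁻¹ * (h * z * h⁻¹) * (a * z * a⁻¹)⁻¹ = h * z * h⁻¹ := by
        rw [inv_inv]
        calc (a * z * a⁻¹) * (h * z * h⁻¹) * (a * z * a⁻¹)⁻¹
            = ((h * z * h⁻¹) * (a * z * a⁻¹)) * (a * z * a⁻¹)⁻¹ := by rw [h1]
          _ = h * z * h⁻¹ := by group
      have h3 := hfixH h hh ((a * z * a⁻¹)⁻¹)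
        (by rw [h2]; exact H.mul_mem (H.mul_mem hh hzH) (H.inv_mem hh))
      exact (H.inv_mem_iff).mp h3
    have haH : a ∈ H := hconjH a hz'H
    intro r hr
    apply hfixH a haH
    have h1 := hz'c r (hP' hr)
    have e : r⁻¹ * (a * z * a⁻¹) * r = a * z * a⁻¹ := by
      calc r⁻¹ * (a * z * a⁻¹) * r = r⁻¹ * ((a * z * a⁻¹) * r) := by group
        _ = r⁻¹ * (r * (a * z * a⁻¹)) := by rw [h1]
        _ = a * z * a⁻¹ := by group
    rw [e]; exact hz'H
  -- Claim 2: every 2-element of H commutes with some H-conjugate of z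
  have claim2 : ∀ x ∈ H, (∃ k : ℕ, orderOf x = 2 ^ k) →
      ∃ h ∈ H, x * (h * z * h⁻¹) = (h * z * h⁻¹) * x := by
    intro x hx ⟨k, hk⟩
    have hU : IsPGroup 2 (Subgroup.zpowers (⟨x, hx⟩ : H)) := by
      apply Cfsg.Agent.Lib.Helper90.isPGroup_zpowers _ k
      apply Subtype.ext
      show x ^ 2 ^ k = 1
      rw [← hk]; exact pow_orderOf_eq_one x
    obtain ⟨c, hc⟩ := Cfsg.Agent.Lib.Helper90.exists_conj_mem_sylow (P.subtype hPH) _ hU
    have h1 := hc _ (Subgroup.mem_zpowers _)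
    have h2 : (c : G) * x * (c : G)⁻¹ ∈ (P : Subgroup G) := by
      rw [Sylow.coe_subtype, Subgroup.mem_subgroupOf] at h1
      simpa using h1
    have h3 := hPz _ h2
    refine ⟨(c : G)⁻¹, H.inv_mem c.2, ?_⟩
    rw [inv_inv]
    calc x * ((c : G)⁻¹ * z * c) = (c : G)⁻¹ * (((c : G) * x * (c : G)⁻¹) * z) * c := by group
      _ = (c : G)⁻¹ * (z * ((c : G) * x * (c : G)⁻¹)) * c := by rw [h3]
      _ = ((c : G)⁻¹ * z * c) * x := by group
  refine ⟨?_, ?_⟩
  · have h1 : H.index ∣ (P : Subgroup G).index := Subgroup.index_dvd_of_le hPH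
    have h2 : ¬ 2 ∣ (P : Subgroup G).index := P.not_dvd_index
    have h3 : ¬ 2 ∣ H.index := fun h => h2 (dvd_trans h h1)
    exact Nat.not_even_iff_odd.mp (fun he => h3 (even_iff_two_dvd.mp he))
  · intro x hx hx2 g hgx
    obtain ⟨h₁, hh₁, hc₁⟩ := claim2 x hx hx2
    have hy2 : ∃ k, orderOf (g * x * g⁻¹) = 2 ^ k := by
      obtain ⟨k, hk⟩ := hx2
      exact ⟨k, by rw [Cfsg.Agent.Lib.Helper90.orderOf_conj_eq, hk]⟩
    obtain ⟨h₂, hh₂, hc₂⟩ := claim2 (g * x * g⁻¹) hgx hy2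
    -- w = g z₁ g⁻¹ commutes with y
    have hw : (g * x * g⁻¹) * (g * (h₁ * z * h₁⁻¹) * g⁻¹)
        = (g * (h₁ * z * h₁⁻¹) * g⁻¹) * (g * x * g⁻¹) := by
      calc (g * x * g⁻¹) * (g * (h₁ * z * h₁⁻¹) * g⁻¹)
          = g * (x * (h₁ * z * h₁⁻¹)) * g⁻¹ := by group
        _ = g * ((h₁ * z * h₁⁻¹) * x) * g⁻¹ := by rw [hc₁]
        _ = (g * (h₁ * z * h₁⁻¹) * g⁻¹) * (g * x * g⁻¹) := by group
    have hz₂C : h₂ * z * h₂⁻¹ ∈ Subgroup.centralizer ({g * x * g⁻¹} : Set G) := by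
      rw [Subgroup.mem_centralizer_iff]
      intro t ht
      rw [Set.mem_singleton_iff] at ht
      rw [ht]; exact hc₂
    have hwC : g * (h₁ * z * h₁⁻¹) * g⁻¹ ∈ Subgroup.centralizer ({g * x * g⁻¹} : Set G) := by
      rw [Subgroup.mem_centralizer_iff]
      intro t ht
      rw [Set.mem_singleton_iff] at ht
      rw [ht]; exact hw
    have hU₂ : IsPGroup 2 (Subgroup.zpowers
        (⟨h₂ * z * h₂⁻¹, hz₂C⟩ : Subgroup.centralizer ({g * x * g⁻¹} : Set G))) := by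
      apply Cfsg.Agent.Lib.Helper90.isPGroup_zpowers _ 1
      apply Subtype.ext
      show (h₂ * z * h₂⁻¹) ^ 2 ^ 1 = 1
      rw [pow_one, pow_two]
      calc h₂ * z * h₂⁻¹ * (h₂ * z * h₂⁻¹) = h₂ * (z * z) * h₂⁻¹ := by group
        _ = 1 := by rw [hzz]; group
    have hUw : IsPGroup 2 (Subgroup.zpowers
        (⟨g * (h₁ * z * h₁⁻¹) * g⁻¹, hwC⟩ : Subgroup.centralizer ({g * x * g⁻¹} : Set G))) := by
      apply Cfsg.Agent.Lib.Helper90.isPGroup_zpowers _ 1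
      apply Subtype.ext
      show (g * (h₁ * z * h₁⁻¹) * g⁻¹) ^ 2 ^ 1 = 1
      rw [pow_one, pow_two]
      calc g * (h₁ * z * h₁⁻¹) * g⁻¹ * (g * (h₁ * z * h₁⁻¹) * g⁻¹)
          = g * h₁ * (z * z) * h₁⁻¹ * g⁻¹ := by group
        _ = 1 := by rw [hzz]; group
    obtain ⟨R, hR⟩ := hU₂.exists_le_sylow
    obtain ⟨c, hc⟩ := Cfsg.Agent.Lib.Helper90.exists_conj_mem_sylow R _ hUw
    have hcw := hc _ (Subgroup.mem_zpowers _)
    have hRG : IsPGroup 2 ((R : Subgroup (Subgroup.centralizer ({g * x * g⁻¹} : Set G))).map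
        (Subgroup.centralizer ({g * x * g⁻¹} : Set G)).subtype) := R.isPGroup'.map _
    have hz₂R : h₂ * z * h₂⁻¹ ∈ (R : Subgroup (Subgroup.centralizer ({g * x * g⁻¹} : Set G))).map
        (Subgroup.centralizer ({g * x * g⁻¹} : Set G)).subtype :=
      ⟨⟨h₂ * z * h₂⁻¹, hz₂C⟩, hR (Subgroup.mem_zpowers _), rfl⟩
    have hRH := claim1 _ hRG h₂ hh₂ hz₂R
    have hcwH : (c : G) * (g * (h₁ * z * h₁⁻¹) * g⁻¹) * (c : G)⁻¹ ∈ H := hRH ⟨_, hcw, rfl⟩
    have h5 : (c : G) * g * h₁ ∈ H := by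
      apply hconjH
      have e : ((c : G) * g * h₁) * z * ((c : G) * g * h₁)⁻¹
          = (c : G) * (g * (h₁ * z * h₁⁻¹) * g⁻¹) * (c : G)⁻¹ := by group
      rw [e]; exact hcwH
    have h6 : (c : G) * g ∈ H := by
      have e : (c : G) * g = ((c : G) * g * h₁) * h₁⁻¹ := by group
      rw [e]; exact H.mul_mem h5 (H.inv_mem hh₁)
    refine ⟨(c : G) * g, h6, ?_⟩
    have hcy : (c : G) * (g * x * g⁻¹) = (g * x * g⁻¹) * c :=
      (Subgroup.mem_centralizer_iff.mp c.2 (g * x * g⁻¹) rfl).symm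
    calc ((c : G) * g) * x * ((c : G) * g)⁻¹ = (c : G) * (g * x * g⁻¹) * (c : G)⁻¹ := by group
      _ = (g * x * g⁻¹) * c * (c : G)⁻¹ := by rw [hcy]
      _ = g * x * g⁻¹ := by group

end Cfsg.Agent.S5438
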