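import Cfsg.Statements.S5439
import Cfsg.Agent.Lib.Helper90.Conj
import Cfsg.Agent.Lib.Helper90.InvolPair

set_option autoImplicit false
open Cfsg

namespace Cfsg.Agent.S5439

/-- Let I and J be two different conjugacy classes of involutions of the finite group G and H a subgroup such that every member of I ∪ J fixes exactly one coset in the action on the cosets of H, and such that for every a in I ∩ H and every b in (I ∪ J) ∩ H different from a and commuting with it, the centralizer of a b lies in H. Then H = G. -/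
theorem result {G : Type*} [Group G] [Finite G] (I J : Set G) (a₀ b₀ : G) (ha₀ : orderOf a₀ = 2) (hb₀ : orderOf b₀ = 2) (hI : I = {x | IsConj a₀ x}) (hJ : J = {x | IsConj b₀ x}) (hIJ : I ≠ J) (H : Subgroup G) (hfix : ∀ x ∈ I ∪ J, ∃! c : G ⧸ H, x • c = c) (hcent : ∀ a ∈ I, a ∈ H → ∀ b ∈ I ∪ J, b ∈ H → a ≠ b → a * b = b * a → Subgroup.centralizer ({a * b} : Set G) ≤ H) : H = ⊤ := by
  subst hI hJ
  have ha₀sq : a₀ * a₀ = 1 := by rw [← pow_two, ← ha₀]; exact pow_orderOf_eq_one a₀
  have hb₀sq : b₀ * b₀ = 1 := by rw [← pow_two, ← hb₀]; exact pow_orderOf_eq_one b₀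
  have hnc : ¬ IsConj a₀ b₀ := by
    intro h
    apply hIJ
    ext x
    show IsConj a₀ x ↔ IsConj b₀ x
    exact ⟨fun hx => h.symm.trans hx, fun hx => h.trans hx⟩
  have hsqI : ∀ a, IsConj a₀ a → a * a = 1 := by
    intro a ha
    obtain ⟨c, rfl⟩ := isConj_iff.mp ha
    calc c * a₀ * c⁻¹ * (c * a₀ * c⁻¹) = c * (a₀ * a₀) * c⁻¹ := by group
      _ = 1 := by rw [ha₀sq]; group
  have hsqJ : ∀ b, IsConj b₀ b → b * b = 1 := by
    intro b hb
    obtain ⟨c, rfl⟩ := isConj_iff.mp hb
    calc c * b₀ * c⁻¹ * (c * b₀ * c⁻¹) = c * (b₀ * b₀) * c⁻¹ := by group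
      _ = 1 := by rw [hb₀sq]; group
  have hconjg : ∀ (x g : G), IsConj x (g⁻¹ * x * g) := by
    intro x g
    rw [isConj_iff]
    exact ⟨g⁻¹, by rw [inv_inv]⟩
  -- key claim: a fixed coset of a member of I is fixed by every member of J
  have key : ∀ a b g : G, IsConj a₀ a → IsConj b₀ b → a • (g : G ⧸ H) = (g : G ⧸ H) →
      b • (g : G ⧸ H) = (g : G ⧸ H) := by
    intro a b g ha hb hag
    have hasq := hsqI a ha
    have hbsq := hsqJ b hb
    have hncab : ¬ IsConj a b := fun h => hnc ((ha.trans h).trans hb.symm)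
    rcases Cfsg.Agent.Lib.Helper90.invol_pair a b hasq hbsq (isOfFinOrder_of_finite _) with
      h | ⟨u, hu1, hua, hub, hconj⟩
    · exact absurd h hncab
    · have ha'mem : u * a ∈ {x | IsConj a₀ x} ∪ {x | IsConj b₀ x} := by
        rcases hconj with h | h
        · left; exact ha.trans h
        · right; exact hb.trans h
      have hcomm : a * (u * a) = (u * a) * a := by
        calc a * (u * a) = (a * u) * a := by group
          _ = (u * a) * a := by rw [hua]
      have hprod : a * (u * a) = u := by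
        rw [hcomm]
        calc u * a * a = u * (a * a) := by group
          _ = u := by rw [hasq, mul_one]
      have ha'g : (u * a) • (g : G ⧸ H) = (g : G ⧸ H) := by
        obtain ⟨c, -, huniq⟩ := hfix a (Or.inl ha)
        have e1 : (g : G ⧸ H) = c := huniq _ hag
        have e2 : (u * a) • (g : G ⧸ H) = c := by
          apply huniq
          show a • ((u * a) • (g : G ⧸ H)) = (u * a) • (g : G ⧸ H)
          rw [← mul_smul, hcomm, mul_smul, hag]
        rw [e2, e1]
      rw [Cfsg.Agent.Lib.Helper90.smul_coset_eq_iff] at hag ha'g ⊢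
      have h1 : g⁻¹ * a * g ∈ {x | IsConj a₀ x} := ha.trans (hconjg a g)
      have h2 : g⁻¹ * (u * a) * g ∈ {x | IsConj a₀ x} ∪ {x | IsConj b₀ x} := by
        rcases ha'mem with h | h
        · left; exact IsConj.trans h (hconjg _ g)
        · right; exact IsConj.trans h (hconjg _ g)
      have h3 : g⁻¹ * a * g ≠ g⁻¹ * (u * a) * g := by
        intro h
        apply hu1
        have h' : a = u * a := by
          have := mul_right_cancel h
          have := mul_left_cancel (by simpa [mul_assoc] using this : g⁻¹ * a = g⁻¹ * (u * a))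
          exact this
        have h'' : 1 * a = u * a := by rw [one_mul]; exact h'
        exact (mul_right_cancel h'').symm
      have h4 : (g⁻¹ * a * g) * (g⁻¹ * (u * a) * g) = (g⁻¹ * (u * a) * g) * (g⁻¹ * a * g) := by
        calc (g⁻¹ * a * g) * (g⁻¹ * (u * a) * g) = g⁻¹ * (a * (u * a)) * g := by group
          _ = g⁻¹ * ((u * a) * a) * g := by rw [hcomm]
          _ = (g⁻¹ * (u * a) * g) * (g⁻¹ * a * g) := by group
      have h5 := hcent _ h1 hag _ h2 ha'g h3 h4
      have e : (g⁻¹ * a * g) * (g⁻¹ * (u * a) * g) = g⁻¹ * u * g := by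
        calc (g⁻¹ * a * g) * (g⁻¹ * (u * a) * g) = g⁻¹ * (a * (u * a)) * g := by group
          _ = g⁻¹ * u * g := by rw [hprod]
      rw [e] at h5
      apply h5
      rw [Subgroup.mem_centralizer_iff]
      intro t ht
      rw [Set.mem_singleton_iff] at ht
      subst ht
      calc g⁻¹ * u * g * (g⁻¹ * b * g) = g⁻¹ * (u * b) * g := by group
        _ = g⁻¹ * (b * u) * g := by rw [hub]
        _ = g⁻¹ * b * g * (g⁻¹ * u * g) := by group
  obtain ⟨c₀, hc₀, -⟩ := hfix a₀ (Or.inl (IsConj.refl a₀))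
  obtain ⟨g₀, rfl⟩ := QuotientGroup.mk_surjective c₀
  obtain ⟨d, -, hduniq⟩ := hfix b₀ (Or.inr (IsConj.refl b₀))
  have hc₀' : g₀⁻¹ * a₀ * g₀ ∈ H := (Cfsg.Agent.Lib.Helper90.smul_coset_eq_iff H a₀ g₀).mp hc₀
  have hall : ∀ x : G, ((x * g₀ : G) : G ⧸ H) = d := by
    intro x
    apply hduniq
    apply key (x * a₀ * x⁻¹) b₀ (x * g₀) (isConj_iff.mpr ⟨x, rfl⟩) (IsConj.refl b₀)
    rw [Cfsg.Agent.Lib.Helper90.smul_coset_eq_iff]
    have e : (x * g₀)⁻¹ * (x * a₀ * x⁻¹) * (x * g₀) = g₀⁻¹ * a₀ * g₀ := by group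
    rw [e]; exact hc₀'
  rw [eq_top_iff]
  intro y _
  have h1 := hall (g₀ * y * g₀⁻¹)
  have h2 := hall 1
  have h3 : ((g₀ * y * g₀⁻¹ * g₀ : G) : G ⧸ H) = ((1 * g₀ : G) : G ⧸ H) := h1.trans h2.symm
  rw [QuotientGroup.eq] at h3
  have e : (g₀ * y * g₀⁻¹ * g₀)⁻¹ * (1 * g₀) = y⁻¹ := by group
  rw [e] at h3
  exact (H.inv_mem_iff).mp h3

end Cfsg.Agent.S5439
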