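import Cfsg.Statements.S5459

set_option autoImplicit false
open Cfsg
open scoped commutatorElement

namespace Cfsg.Agent.S5459

section aux

variable {G : Type*} [Group G]

/-- reachability in the commuting graph of the class of `d`, stated on raw elements -/
def R (d : G) (x y : G) : Prop :=
  ∃ (hx : x ∈ conjugatesOf d) (hy : y ∈ conjugatesOf d),
    (Cfsg.commutingGraph (conjugatesOf d)).Reachable ⟨x, hx⟩ ⟨y, hy⟩

theorem R_refl (d : G) {x : G} (hx : x ∈ conjugatesOf d) : R d x x :=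
  ⟨hx, hx, SimpleGraph.Reachable.refl _⟩

theorem R_symm {d : G} {x y : G} (h : R d x y) : R d y x := by
  obtain ⟨hx, hy, h⟩ := h
  exact ⟨hy, hx, h.symm⟩

theorem R_trans {d : G} {x y z : G} (h1 : R d x y) (h2 : R d y z) : R d x z := by
  obtain ⟨hx, hy, h1⟩ := h1
  obtain ⟨hy', hz, h2⟩ := h2
  exact ⟨hx, hz, h1.trans h2⟩

theorem conj_mem (d : G) (g : G) {x : G} (hx : x ∈ conjugatesOf d) :
    g * x * g⁻¹ ∈ conjugatesOf d := by
  have hx' : IsConj d x := hx
  show IsConj d (g * x * g⁻¹)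
  exact hx'.trans (isConj_iff.mpr ⟨g, rfl⟩)

/-- conjugation by `g` as a graph map of the commuting graph of the class of `d` -/
def conjHom (d g : G) :
    Cfsg.commutingGraph (conjugatesOf d) →g Cfsg.commutingGraph (conjugatesOf d) where
  toFun x := ⟨g * x.1 * g⁻¹, conj_mem d g x.2⟩
  map_rel' := by
    intro a b hab
    rw [Cfsg.commutingGraph, SimpleGraph.fromRel_adj] at hab ⊢
    refine ⟨?_, ?_⟩
    · intro h
      apply hab.1
      have h1 : g * a.1 * g⁻¹ = g * b.1 * g⁻¹ := congrArg Subtype.val h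
      apply Subtype.ext
      simpa using h1
    · rcases hab.2 with h | h
      · left
        show Commute (g * a.1 * g⁻¹) (g * b.1 * g⁻¹)
        have h' : a.1 * b.1 = b.1 * a.1 := h
        show g * a.1 * g⁻¹ * (g * b.1 * g⁻¹) = g * b.1 * g⁻¹ * (g * a.1 * g⁻¹)
        calc g * a.1 * g⁻¹ * (g * b.1 * g⁻¹) = g * (a.1 * b.1) * g⁻¹ := by group
          _ = g * (b.1 * a.1) * g⁻¹ := by rw [h']
          _ = g * b.1 * g⁻¹ * (g * a.1 * g⁻¹) := by group
      · right
        show Commute (g * b.1 * g⁻¹) (g * a.1 * g⁻¹)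
        have h' : b.1 * a.1 = a.1 * b.1 := h
        show g * b.1 * g⁻¹ * (g * a.1 * g⁻¹) = g * a.1 * g⁻¹ * (g * b.1 * g⁻¹)
        calc g * b.1 * g⁻¹ * (g * a.1 * g⁻¹) = g * (b.1 * a.1) * g⁻¹ := by group
          _ = g * (a.1 * b.1) * g⁻¹ := by rw [h']
          _ = g * a.1 * g⁻¹ * (g * b.1 * g⁻¹) := by group

theorem R_conj {d : G} (g : G) {x y : G} (h : R d x y) : R d (g * x * g⁻¹) (g * y * g⁻¹) := by
  obtain ⟨hx, hy, h⟩ := h
  exact ⟨conj_mem d g hx, conj_mem d g hy, h.map (conjHom d g)⟩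

theorem R_adj {d : G} {x y : G} (hx : x ∈ conjugatesOf d) (hy : y ∈ conjugatesOf d)
    (hne : x ≠ y) (hc : x * y = y * x) : R d x y := by
  refine ⟨hx, hy, SimpleGraph.Adj.reachable ?_⟩
  rw [Cfsg.commutingGraph, SimpleGraph.fromRel_adj]
  refine ⟨?_, Or.inl hc⟩
  intro h
  exact hne (congrArg Subtype.val h)

/-- the stabilizer of the component of `d` -/
def stab (d : G) : Subgroup G where
  carrier := {g | R d d (g * d * g⁻¹)}
  one_mem' := by
    show R d d (1 * d * 1⁻¹)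
    have : 1 * d * 1⁻¹ = d := by group
    rw [this]
    exact R_refl d (mem_conjugatesOf_self)
  mul_mem' := by
    intro a b ha hb
    show R d d (a * b * d * (a * b)⁻¹)
    have h1 : R d (a * d * a⁻¹) (a * (b * d * b⁻¹) * a⁻¹) := R_conj a hb
    have h2 : a * (b * d * b⁻¹) * a⁻¹ = a * b * d * (a * b)⁻¹ := by group
    rw [h2] at h1
    exact R_trans ha h1
  inv_mem' := by
    intro a ha
    show R d d (a⁻¹ * d * a⁻¹⁻¹)
    have h1 : R d (a⁻¹ * d * a⁻¹⁻¹) (a⁻¹ * (a * d * a⁻¹) * a⁻¹⁻¹) := R_conj a⁻¹ ha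
    have h2 : a⁻¹ * (a * d * a⁻¹) * a⁻¹⁻¹ = d := by group
    rw [h2] at h1
    exact R_symm h1

theorem mem_stab {d g : G} : g ∈ stab d ↔ R d d (g * d * g⁻¹) := Iff.rfl


/-- the key computation: two involutions inverting `u` whose commutator is `u ^ 4` -/
theorem key (a b u : G) (ha : a * a = 1) (hb : b * b = 1) (hau : a * u * a⁻¹ = u⁻¹)
    (hbu : b * u * b⁻¹ = u⁻¹) (hu : u * u * u * u = a * b * a⁻¹ * b⁻¹) :
    a * (u * b * u⁻¹) = u * b * u⁻¹ * a := by
  have e1 : a * u = u⁻¹ * a := by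
    rw [← hau]; group
  have e2 : b * u = u⁻¹ * b := by
    rw [← hbu]; group
  have e3 : a * u⁻¹ = u * a := by
    have : u * a = u * (a * u) * u⁻¹ := by group
    rw [this, e1]; group
  have e4 : b * u⁻¹ = u * b := by
    have : u * b = u * (b * u) * u⁻¹ := by group
    rw [this, e2]; group
  have ha' : a⁻¹ = a := inv_eq_of_mul_eq_one_left ha
  have hb' : b⁻¹ = b := inv_eq_of_mul_eq_one_left hb
  have k1 : a * b = u * u * u * u * (b * a) := by
    rw [hu, ha', hb']
    symm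
    calc a * b * a * b * (b * a) = a * b * a * (b * b) * a := by group
      _ = a * b * (a * a) := by rw [hb]; group
      _ = a * b := by rw [ha]; group
  calc a * (u * b * u⁻¹) = a * u * (b * u⁻¹) := by group
    _ = u⁻¹ * a * (u * b) := by rw [e1, e4]
    _ = u⁻¹ * (a * u) * b := by group
    _ = u⁻¹ * (u⁻¹ * a) * b := by rw [e1]
    _ = u⁻¹ * u⁻¹ * (a * b) := by group
    _ = u⁻¹ * u⁻¹ * (u * u * u * u * (b * a)) := by rw [k1]
    _ = u * (u * b) * a := by simp only [mul_assoc, inv_mul_cancel_left]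
    _ = u * (b * u⁻¹) * a := by rw [e4]
    _ = u * b * u⁻¹ * a := by group

/-- commutators are unchanged by central factors -/
theorem comm_central (u v x y : G) (hux : Commute u x) (huy : Commute u y) (huv : Commute u v)
    (hvx : Commute v x) (hvy : Commute v y) : ⁅u * x, v * y⁆ = ⁅x, y⁆ := by
  have h1 : Commute u (x * (v * y) * x⁻¹) :=
    (hux.mul_right (huv.mul_right huy)).mul_right hux.inv_right
  have h2 : Commute v (y * x⁻¹ * y⁻¹) :=
    (hvy.mul_right hvx.inv_right).mul_right hvy.inv_right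
  rw [commutatorElement_def, commutatorElement_def]
  calc u * x * (v * y) * (u * x)⁻¹ * (v * y)⁻¹
      = u * (x * (v * y) * x⁻¹) * u⁻¹ * (v * y)⁻¹ := by group
    _ = x * (v * y) * x⁻¹ * u * u⁻¹ * (v * y)⁻¹ := by rw [h1.eq]
    _ = x * (v * (y * x⁻¹ * y⁻¹)) * v⁻¹ := by group
    _ = x * (y * x⁻¹ * y⁻¹ * v) * v⁻¹ := by rw [h2.eq]
    _ = x * y * x⁻¹ * y⁻¹ := by group

end aux

/-- Let G be a finite group with a quasisimple normal subgroup L and an involution d such that G is generated by L and d, the centre of L has odd order, and d inverts every element of the centre of L. If the commuting graph on the conjugacy class of the image of d in G modulo the centre of L is connected, then the commuting graph on the conjugacy class of d is connected. -/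
theorem result {G : Type*} [Group G] [Finite G] (L : Subgroup G) [L.Normal] (hL : Cfsg.IsQuasisimple ↥L) (d : G) (hd : orderOf d = 2) (hgen : L ⊔ Subgroup.zpowers d = ⊤) (hodd : Odd (Nat.card ↥(Subgroup.center ↥L))) (hinv : ∀ c ∈ (Subgroup.center ↥L).map L.subtype, d * c * d⁻¹ = c⁻¹) [hn : ((Subgroup.center ↥L).map L.subtype).Normal] (hconn : (Cfsg.commutingGraph (conjugatesOf (QuotientGroup.mk d : G ⧸ (Subgroup.center ↥L).map L.subtype))).Connected) : (Cfsg.commutingGraph (conjugatesOf d)).Connected := by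
  classical
  set Z : Subgroup G := (Subgroup.center ↥L).map L.subtype with hZ
  have hd2 : d * d = 1 := by
    have := pow_orderOf_eq_one d
    rw [hd, pow_two] at this
    exact this
  have hZL : ∀ z ∈ Z, z ∈ L := by
    intro z hz
    obtain ⟨c, hc, rfl⟩ := Subgroup.mem_map.mp hz
    exact c.2
  have hZc : ∀ z ∈ Z, ∀ x ∈ L, Commute z x := by
    intro z hz x hx
    obtain ⟨c, hc, rfl⟩ := Subgroup.mem_map.mp hz
    have h1 := Subgroup.mem_center_iff.mp hc ⟨x, hx⟩
    have h2 := congrArg Subtype.val h1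
    exact h2.symm
  have hroot : ∀ z ∈ Z, ∃ u ∈ Z, u ^ 4 = z := by
    intro z hz
    obtain ⟨c, hc, rfl⟩ := Subgroup.mem_map.mp hz
    obtain ⟨k, hk⟩ := hodd
    have h1 : (⟨c, hc⟩ : Subgroup.center ↥L) ^ (2 * k + 1) = 1 := by
      rw [← hk]; exact pow_card_eq_one'
    have h2 : c ^ (2 * k + 1) = 1 := by
      have := congrArg Subtype.val h1
      simpa using this
    refine ⟨L.subtype (c ^ ((k + 1) * (k + 1))), Subgroup.mem_map_of_mem _ (pow_mem hc _), ?_⟩
    rw [← map_pow, ← pow_mul]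
    have h3 : (k + 1) * (k + 1) * 4 = (2 * k + 1) * (2 * k + 3) + 1 := by ring
    rw [h3, pow_succ, pow_mul, h2, one_pow, one_mul]
  have hD2 : ∀ a ∈ conjugatesOf d, a * a = 1 := by
    intro a ha
    obtain ⟨g, rfl⟩ := isConj_iff.mp ha
    calc g * d * g⁻¹ * (g * d * g⁻¹) = g * (d * d) * g⁻¹ := by group
      _ = 1 := by rw [hd2]; group
  have hDinv : ∀ a ∈ conjugatesOf d, ∀ c ∈ Z, a * c * a⁻¹ = c⁻¹ := by
    intro a ha c hc
    obtain ⟨g, rfl⟩ := isConj_iff.mp ha
    have h1 : g⁻¹ * c * g ∈ Z := by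
      have := hn.conj_mem c hc g⁻¹
      simpa using this
    have h2 := hinv _ h1
    calc g * d * g⁻¹ * c * (g * d * g⁻¹)⁻¹ = g * (d * (g⁻¹ * c * g) * d⁻¹) * g⁻¹ := by group
      _ = g * (g⁻¹ * c * g)⁻¹ * g⁻¹ := by rw [h2]
      _ = c⁻¹ := by group
  -- lifting of paths
  have hlift : ∀ v : ↥(conjugatesOf (QuotientGroup.mk d : G ⧸ Z)),
      (Cfsg.commutingGraph (conjugatesOf (QuotientGroup.mk d : G ⧸ Z))).Reachable
        ⟨QuotientGroup.mk d, mem_conjugatesOf_self⟩ v →
      ∃ a : G, R d d a ∧ (QuotientGroup.mk a : G ⧸ Z) = v.1 := by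
    intro v hv
    rw [SimpleGraph.reachable_iff_reflTransGen] at hv
    induction hv with
    | refl => exact ⟨d, R_refl d mem_conjugatesOf_self, rfl⟩
    | @tail b c _ hadj ih =>
      obtain ⟨a, hRa, hmk⟩ := ih
      have haD : a ∈ conjugatesOf d := by
        obtain ⟨_, h, _⟩ := hRa
        exact h
      have hc := c.2
      obtain ⟨g', hg'⟩ := isConj_iff.mp hc
      obtain ⟨g, rfl⟩ := QuotientGroup.mk_surjective g'
      have hb0D : g * d * g⁻¹ ∈ conjugatesOf d := conj_mem d g mem_conjugatesOf_self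
      have hmkb : (QuotientGroup.mk (g * d * g⁻¹) : G ⧸ Z) = c.1 := hg'
      rw [Cfsg.commutingGraph, SimpleGraph.fromRel_adj] at hadj
      have hcomm : (QuotientGroup.mk a : G ⧸ Z) * QuotientGroup.mk (g * d * g⁻¹)
          = QuotientGroup.mk (g * d * g⁻¹) * QuotientGroup.mk a := by
        rw [hmk, hmkb]
        rcases hadj.2 with h | h
        · exact h
        · exact h.symm
      have hzmem : a * (g * d * g⁻¹) * a⁻¹ * (g * d * g⁻¹)⁻¹ ∈ Z := by
        rw [← QuotientGroup.eq_one_iff]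
        rw [QuotientGroup.mk_mul, QuotientGroup.mk_mul, QuotientGroup.mk_mul, hcomm]
        rw [QuotientGroup.mk_inv, QuotientGroup.mk_inv]
        group
      obtain ⟨u, hu, hu4⟩ := hroot _ hzmem
      have hb'D : u * (g * d * g⁻¹) * u⁻¹ ∈ conjugatesOf d := conj_mem d u hb0D
      have hmku : (QuotientGroup.mk u : G ⧸ Z) = 1 := (QuotientGroup.eq_one_iff u).mpr hu
      have hmkb' : (QuotientGroup.mk (u * (g * d * g⁻¹) * u⁻¹) : G ⧸ Z) = c.1 := by
        rw [QuotientGroup.mk_mul, QuotientGroup.mk_mul, QuotientGroup.mk_inv, hmku, hmkb]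
        group
      have hne : a ≠ u * (g * d * g⁻¹) * u⁻¹ := by
        intro h
        apply hadj.1
        apply Subtype.ext
        rw [← hmk, ← hmkb', ← h]
      have hu4' : u * u * u * u = a * (g * d * g⁻¹) * a⁻¹ * (g * d * g⁻¹)⁻¹ := by
        rw [← hu4, pow_succ, pow_succ, pow_succ, pow_one]
      have hk := key a (g * d * g⁻¹) u (hD2 a haD) (hD2 _ hb0D) (hDinv a haD u hu)
        (hDinv _ hb0D u hu) hu4'
      exact ⟨u * (g * d * g⁻¹) * u⁻¹, R_trans hRa (R_adj haD hb'D hne hk), hmkb'⟩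
  -- the stabilizer together with Z is everything
  have hSZ : ∀ g : G, ∃ u ∈ Z, u * g ∈ stab d := by
    intro g
    have hmem : (QuotientGroup.mk (g * d * g⁻¹) : G ⧸ Z) ∈
        conjugatesOf (QuotientGroup.mk d : G ⧸ Z) := by
      show IsConj _ _
      exact isConj_iff.mpr ⟨QuotientGroup.mk g, rfl⟩
    obtain ⟨a, hRa, hmk⟩ := hlift ⟨_, hmem⟩ (hconn.preconnected _ _)
    have haD : a ∈ conjugatesOf d := by
      obtain ⟨_, h, _⟩ := hRa
      exact h
    have hbD : g * d * g⁻¹ ∈ conjugatesOf d := conj_mem d g mem_conjugatesOf_self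
    have hmk' : (QuotientGroup.mk a : G ⧸ Z) = QuotientGroup.mk (g * d * g⁻¹) := hmk
    have hw : a * (g * d * g⁻¹)⁻¹ ∈ Z := by
      rw [← QuotientGroup.eq_one_iff]
      rw [QuotientGroup.mk_mul, QuotientGroup.mk_inv, hmk']
      group
    obtain ⟨v, hv, hv4⟩ := hroot _ hw
    refine ⟨v ^ 2, pow_mem hv 2, ?_⟩
    show R d d (v ^ 2 * g * d * (v ^ 2 * g)⁻¹)
    have hbv := hDinv _ hbD v hv
    have hbv' : (g * d * g⁻¹) * v⁻¹ * (g * d * g⁻¹)⁻¹ = v := by
      have : (g * d * g⁻¹) * v⁻¹ * (g * d * g⁻¹)⁻¹ = ((g * d * g⁻¹) * v * (g * d * g⁻¹)⁻¹)⁻¹ := by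
        group
      rw [this, hbv, inv_inv]
    have hb2 := hD2 _ hbD
    have hfin : v ^ 2 * g * d * (v ^ 2 * g)⁻¹ = a := by
      calc v ^ 2 * g * d * (v ^ 2 * g)⁻¹
          = v ^ 2 * ((g * d * g⁻¹) * v⁻¹ * (g * d * g⁻¹)⁻¹) *
              ((g * d * g⁻¹) * v⁻¹ * (g * d * g⁻¹)⁻¹) * (g * d * g⁻¹) := by group
        _ = v ^ 2 * v * v * (g * d * g⁻¹) := by rw [hbv']
        _ = v ^ 4 * (g * d * g⁻¹) := by
          rw [pow_succ, pow_succ, pow_succ, pow_succ, pow_succ, pow_zero, one_mul, pow_one]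
        _ = a := by rw [hv4]; group
    rw [hfin]
    exact hRa
  -- L lies in the stabilizer, as L is perfect
  have hLS : ∀ x ∈ L, x ∈ stab d := by
    have hperf : commutator ↥L = ⊤ := hL.1.commutator_eq_top
    have hle : commutator ↥L ≤ (stab d).subgroupOf L := by
      rw [commutator_def, Subgroup.commutator_le]
      intro x _ y _
      rw [Subgroup.mem_subgroupOf]
      obtain ⟨u, hu, hux⟩ := hSZ x.1
      obtain ⟨v, hv, hvy⟩ := hSZ y.1
      have h1 : ((⁅x, y⁆ : ↥L) : G) = ⁅(x : G), (y : G)⁆ := map_commutatorElement L.subtype x y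
      have h2 : ⁅u * (x : G), v * (y : G)⁆ = ⁅(x : G), (y : G)⁆ :=
        comm_central u v x y (hZc u hu x x.2) (hZc u hu y y.2) (hZc u hu v (hZL v hv))
          (hZc v hv x x.2) (hZc v hv y y.2)
      rw [h1, ← h2, commutatorElement_def]
      exact (stab d).mul_mem ((stab d).mul_mem ((stab d).mul_mem hux hvy) ((stab d).inv_mem hux))
        ((stab d).inv_mem hvy)
    intro x hx
    have hx' : (⟨x, hx⟩ : ↥L) ∈ (stab d).subgroupOf L := hle (hperf ▸ Subgroup.mem_top _)
    exact Subgroup.mem_subgroupOf.mp hx'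
  have hStop : ∀ g : G, g ∈ stab d := by
    intro g
    obtain ⟨u, hu, hug⟩ := hSZ g
    have huS : u ∈ stab d := hLS u (hZL u hu)
    have : g = u⁻¹ * (u * g) := by group
    rw [this]
    exact (stab d).mul_mem ((stab d).inv_mem huS) hug
  have hpre : ∀ v : ↥(conjugatesOf d),
      (Cfsg.commutingGraph (conjugatesOf d)).Reachable ⟨d, mem_conjugatesOf_self⟩ v := by
    intro v
    obtain ⟨b, hb⟩ := v
    obtain ⟨g, rfl⟩ := isConj_iff.mp hb
    obtain ⟨_, _, h⟩ := hStop g
    exact h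
  have : Nonempty ↥(conjugatesOf d) := ⟨⟨d, mem_conjugatesOf_self⟩⟩
  exact ⟨fun u v => (hpre u).symm.trans (hpre v)⟩

end Cfsg.Agent.S5459
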