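import Cfsg.Statements.S5541

set_option autoImplicit false
open Cfsg

namespace Cfsg.Agent.S5541


/-- Let ρ be a representation of a group H on a finite-dimensional real vector space U whose only ρ-invariant subspaces are the zero subspace and U, and suppose U carries a non-zero ρ-invariant symmetric bilinear form. Then the following are equivalent: (1) there is a non-zero ρ-equivariant commutative bilinear product on U of which every ρ-equivariant bilinear product is a scalar multiple; (2) there is a non-zero ρ-invariant trilinear form on U that is symmetric under all permutations of its arguments and of which every ρ-invariant trilinear form is a scalar multiple. -/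
theorem result {H : Type*} [Group H] {U : Type*} [AddCommGroup U] [Module ℝ U] [FiniteDimensional ℝ U] (ρ : Representation ℝ H U) (hirr : ∀ W : Submodule ℝ U, (∀ g : H, W.map (ρ g) ≤ W) → W = ⊥ ∨ W = ⊤) (B : LinearMap.BilinForm ℝ U) (hB0 : B ≠ 0) (hBs : ∀ u v, B u v = B v u) (hBi : ∀ (g : H) (u v : U), B (ρ g u) (ρ g v) = B u v) : (∃ m : U →ₗ[ℝ] U →ₗ[ℝ] U, m ≠ 0 ∧ (∀ u v, m u v = m v u) ∧ (∀ (g : H) (u v : U), m (ρ g u) (ρ g v) = ρ g (m u v)) ∧ ∀ m' : U →ₗ[ℝ] U →ₗ[ℝ] U, (∀ (g : H) (u v : U), m' (ρ g u) (ρ g v) = ρ g (m' u v)) → ∃ c : ℝ, m' = c • m) ↔ (∃ t : U →ₗ[ℝ] U →ₗ[ℝ] U →ₗ[ℝ] ℝ, t ≠ 0 ∧ (∀ u v w, t u v w = t v u w ∧ t u v w = t u w v) ∧ (∀ (g : H) (u v w : U), t (ρ g u) (ρ g v) (ρ g w) = t u v w) ∧ ∀ t' : U →ₗ[ℝ] U →ₗ[ℝ] U →ₗ[ℝ] ℝ, (∀ (g : H) (u v w : U), t' (ρ g u) (ρ g v) (ρ g w) = t' u v w) → ∃ c : ℝ, t' = c • t) := by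
  classical
  -- nondegeneracy of `B`
  have hsep : ∀ x : U, (∀ y : U, B x y = 0) → x = 0 := by
    intro x hx
    have hW : ∀ g : H, (LinearMap.ker B).map (ρ g) ≤ LinearMap.ker B := by
      rintro g _ ⟨u, hu, rfl⟩
      rw [SetLike.mem_coe, LinearMap.mem_ker] at hu
      rw [LinearMap.mem_ker]
      ext v
      have h1 := hBi g u (ρ g⁻¹ v)
      rw [Representation.self_inv_apply] at h1
      rw [h1, hu]; simp
    rcases hirr (LinearMap.ker B) hW with h | h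
    · have h2 : x ∈ LinearMap.ker B := by
        rw [LinearMap.mem_ker]; ext y; simpa using hx y
      rw [h] at h2; simpa using h2
    · exfalso; apply hB0
      ext u v
      have h2 : u ∈ LinearMap.ker B := by rw [h]; trivial
      rw [LinearMap.mem_ker] at h2
      rw [h2]; simp
  have hnd : B.Nondegenerate := ⟨hsep, fun y hy => hsep y (fun x => by rw [hBs]; exact hy x)⟩
  have hinj : ∀ x y : U, (∀ w, B x w = B y w) → x = y := by
    intro x y h
    apply (B.toDual hnd).injective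
    ext w
    exact h w
  -- the two correspondences
  obtain ⟨Φ, hΦ⟩ : ∃ Φ : (U →ₗ[ℝ] U →ₗ[ℝ] U) → (U →ₗ[ℝ] U →ₗ[ℝ] U →ₗ[ℝ] ℝ),
      ∀ m u v w, Φ m u v w = B (m u v) w :=
    ⟨fun m => m.compr₂ ((B.toDual hnd : U ≃ₗ[ℝ] Module.Dual ℝ U) : U →ₗ[ℝ] Module.Dual ℝ U),
      fun m u v w => rfl⟩
  obtain ⟨Ψ, hΨ⟩ : ∃ Ψ : (U →ₗ[ℝ] U →ₗ[ℝ] U →ₗ[ℝ] ℝ) → (U →ₗ[ℝ] U →ₗ[ℝ] U),
      ∀ t u v w, B (Ψ t u v) w = t u v w := by
    refine ⟨fun t => LinearMap.compr₂ (Qₗ := U) t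
      (((B.toDual hnd).symm : Module.Dual ℝ U ≃ₗ[ℝ] U) : Module.Dual ℝ U →ₗ[ℝ] U), fun t u v w => ?_⟩
    exact LinearMap.BilinForm.apply_toDual_symm_apply (hB := hnd) (t u v) w
  have hΦΨ : ∀ t, Φ (Ψ t) = t := by
    intro t; ext u v w; rw [hΦ, hΨ]
  have hΨΦ : ∀ m, Ψ (Φ m) = m := by
    intro m; ext u v; apply hinj; intro w; rw [hΨ, hΦ]
  have hΦsmul : ∀ (c : ℝ) m, Φ (c • m) = c • Φ m := by
    intro c m; ext u v w
    simp only [hΦ, LinearMap.smul_apply, map_smul, smul_eq_mul]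
  have hΨsmul : ∀ (c : ℝ) t, Ψ (c • t) = c • Ψ t := by
    intro c t; ext u v; apply hinj; intro w
    simp only [hΨ, LinearMap.smul_apply, map_smul, smul_eq_mul]
  have hΦ0 : Φ 0 = 0 := by
    ext u v w; simp [hΦ]
  have hΨ0 : Ψ 0 = 0 := by
    ext u v; apply hinj; intro w; simp [hΨ]
  have hA : ∀ m : U →ₗ[ℝ] U →ₗ[ℝ] U, (∀ (g : H) (u v : U), m (ρ g u) (ρ g v) = ρ g (m u v)) →
      ∀ (g : H) (u v w : U), Φ m (ρ g u) (ρ g v) (ρ g w) = Φ m u v w := by
    intro m hm g u v w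
    rw [hΦ, hΦ, hm, hBi]
  have hBq : ∀ t : U →ₗ[ℝ] U →ₗ[ℝ] U →ₗ[ℝ] ℝ, (∀ (g : H) (u v w : U), t (ρ g u) (ρ g v) (ρ g w) = t u v w) →
      ∀ (g : H) (u v : U), Ψ t (ρ g u) (ρ g v) = ρ g (Ψ t u v) := by
    intro t ht g u v
    apply hinj
    intro w
    have h1 : w = ρ g (ρ g⁻¹ w) := (Representation.self_inv_apply ρ g w).symm
    rw [hΨ, h1, ht, hBi, hΨ]
  constructor
  · rintro ⟨m, hm0, hmc, hme, hmu⟩
    have ht0 : Φ m ≠ 0 := by
      intro h
      apply hm0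
      rw [← hΨΦ m, h, hΨ0]
    have hs12 : ∀ u v w, Φ m u v w = Φ m v u w := by
      intro u v w; rw [hΦ, hΦ, hmc]
    -- the form with the last two arguments exchanged
    obtain ⟨t2, ht2⟩ : ∃ t2 : U →ₗ[ℝ] U →ₗ[ℝ] U →ₗ[ℝ] ℝ, ∀ u v w, t2 u v w = Φ m u w v :=
      ⟨((LinearMap.lflip (R₀ := ℝ) : (U →ₗ[ℝ] U →ₗ[ℝ] ℝ) ≃ₗ[ℝ] (U →ₗ[ℝ] U →ₗ[ℝ] ℝ)) :
          (U →ₗ[ℝ] U →ₗ[ℝ] ℝ) →ₗ[ℝ] (U →ₗ[ℝ] U →ₗ[ℝ] ℝ)) ∘ₗ Φ m, fun u v w => rfl⟩
    have ht2i : ∀ (g : H) (u v w : U), t2 (ρ g u) (ρ g v) (ρ g w) = t2 u v w := by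
      intro g u v w
      rw [ht2, ht2, hA m hme]
    obtain ⟨c, hc⟩ := hmu (Ψ t2) (hBq t2 ht2i)
    have hc' : ∀ u v w, Φ m u w v = c * Φ m u v w := by
      intro u v w
      have h1 : t2 = c • Φ m := by rw [← hΦΨ t2, hc, hΦsmul]
      rw [← ht2, h1]; simp
    obtain ⟨u, v, w, hne⟩ : ∃ u v w, Φ m u v w ≠ 0 := by
      by_contra hcon
      push Not at hcon
      apply ht0
      ext u v w
      simpa using hcon u v w
    have hcc : c * c = 1 := by
      have h1 := hc' u v w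
      have h2 := hc' u w v
      rw [h1] at h2
      have h3 : (c * c - 1) * Φ m u v w = 0 := by linarith
      rcases mul_eq_zero.mp h3 with h | h
      · linarith
      · exact absurd h hne
    have hc1 : c = 1 := by
      have h4 : (c - 1) * (c + 1) = 0 := by ring_nf; linarith
      rcases mul_eq_zero.mp h4 with h | h
      · linarith
      · exfalso
        have hcm : c = -1 := by linarith
        apply hne
        have e1 := hc' u w v
        have e2 := hs12 u w v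
        have e3 := hc' w v u
        have e4 := hs12 w v u
        have e5 := hc' v u w
        have e6 := hs12 v u w
        rw [hcm] at e1 e3 e5
        linarith
    refine ⟨Φ m, ht0, fun u v w => ⟨hs12 u v w, ?_⟩, hA m hme, ?_⟩
    · have := hc' u v w
      rw [hc1, one_mul] at this
      exact this.symm
    · intro t' ht'
      obtain ⟨c', hc'⟩ := hmu (Ψ t') (hBq t' ht')
      exact ⟨c', by rw [← hΦΨ t', hc', hΦsmul]⟩
  · rintro ⟨t, ht0, hts, hti, htu⟩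
    refine ⟨Ψ t, ?_, ?_, hBq t hti, ?_⟩
    · intro h
      apply ht0
      rw [← hΦΨ t, h, hΦ0]
    · intro u v
      apply hinj
      intro w
      rw [hΨ, hΨ]
      exact (hts u v w).1
    · intro m' hm'
      obtain ⟨c, hc⟩ := htu (Φ m') (hA m' hm')
      exact ⟨c, by rw [← hΨΦ m', hc, hΨsmul]⟩

end Cfsg.Agent.S5541
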