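import Cfsg.Statements.S5543

set_option autoImplicit false
open Cfsg

namespace Cfsg.Agent.S5543

theorem card_le_four_of_subset {α : Type*} [DecidableEq α] (X : Set α) (S : Finset α) (hS : S.card ≤ 4)
    (h : ∀ g ∈ X, g ∈ S) : Nat.card ↥X ≤ 4 := by
  have h1 : X ⊆ (S : Set α) := fun g hg => h g hg
  have h2 : X.ncard ≤ (S : Set α).ncard := Set.ncard_le_ncard h1 (Finset.finite_toSet S)
  rw [Set.ncard_coe_finset] at h2
  rw [Nat.card_coe_set_eq]
  omega

theorem law_quarter : Cfsg.Axial.monsterLaw (1 / 4 : ℝ) (1 / 32) (1 / 4) (1 / 4) = {1, 0} := by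
  unfold Cfsg.Axial.monsterLaw
  norm_num

/-- a vector that is a `1/4`-eigenvector and lies in the sum of the `1`- and `0`-eigenspaces is zero -/
theorem eq_zero_of_quarter {V : Type*} [AddCommGroup V] [Module ℝ V] (mul : V →ₗ[ℝ] V →ₗ[ℝ] V) (a w : V)
    (hw : mul a w = (1 / 4 : ℝ) • w) (hw' : w ∈ Cfsg.Axial.eigenSum mul a {1, 0}) : w = 0 := by
  unfold Cfsg.Axial.eigenSum at hw'
  rw [iSup_insert, iSup_singleton] at hw'
  obtain ⟨w1, hw1, w0, hw0, rfl⟩ := Submodule.mem_sup.mp hw'
  unfold Cfsg.Axial.eigen at hw1 hw0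
  rw [Module.End.mem_eigenspace_iff] at hw1 hw0
  rw [map_add, hw1, hw0] at hw
  simp only [one_smul, zero_smul, add_zero, smul_add] at hw
  -- hw : w1 = (1/4) w1 + (1/4) w0
  have h3 : (3 : ℝ) • w1 = w0 := by
    have : (4 : ℝ) • w1 = (4 : ℝ) • ((1 / 4 : ℝ) • w1 + (1 / 4 : ℝ) • w0) := by rw [← hw]
    rw [smul_add, smul_smul, smul_smul] at this
    norm_num at this
    have h4 : (4 : ℝ) • w1 = (3 : ℝ) • w1 + w1 := by
      rw [show (4 : ℝ) = 3 + 1 by norm_num, add_smul, one_smul]
    rw [h4] at this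
    have := add_right_cancel (this.trans (add_comm w1 w0))
    exact this
  have h5 : mul a ((3 : ℝ) • w1) = mul a w0 := by rw [h3]
  rw [map_smul, hw1, hw0] at h5
  have hw1z : w1 = 0 := by
    have : (3 : ℝ) • w1 = 0 := by simpa using h5
    exact (smul_eq_zero.mp this).resolve_left (by norm_num)
  rw [hw1z] at h3
  simp at h3
  rw [hw1z, ← h3]; simp

/-- Let V be a finite-dimensional real vector space with a commutative bilinear product and a positive-definite symmetric bilinear form that associates with the product and satisfies the Norton inequality (the Majorana setting of the definitions). Let X be a group of linear automorphisms of V in which every element squares to the identity, and suppose every non-identity element x of X is a Majorana involution with an axial vector a(x) of squared length 1, such that for any two distinct non-identity x, y the product a(x) ∘ a(y) equals (1/8)(a(x) + a(y) − a(xy)) (the dihedral subalgebra of type 2A whose third axis belongs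 to the involution xy). Then X has order at most 4. -/
theorem result {V : Type*} [AddCommGroup V] [Module ℝ V] [FiniteDimensional ℝ V] (mul : V →ₗ[ℝ] V →ₗ[ℝ] V) (B : LinearMap.BilinForm ℝ V) (hV : Cfsg.Axial.IsMajoranaAmbient mul B) (X : Subgroup (V ≃ₗ[ℝ] V)) (hX : ∀ x ∈ X, x * x = 1) (ax : (V ≃ₗ[ℝ] V) → V) (hax : ∀ x ∈ X, x ≠ 1 → Cfsg.Axial.IsMajoranaPair mul B x (ax x)) (h1 : ∀ x ∈ X, x ≠ 1 → B (ax x) (ax x) = 1) (h2A : ∀ x ∈ X, ∀ y ∈ X, x ≠ 1 → y ≠ 1 → x ≠ y → mul (ax x) (ax y) = (1 / 8 : ℝ) • (ax x + ax y - ax (x * y))) : Nat.card ↥X ≤ 4 := by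
  classical
  -- inverses and commutativity in X
  have hinv : ∀ g ∈ X, g⁻¹ = g := fun g hg => inv_eq_of_mul_eq_one_left (hX g hg)
  have hcomm : ∀ g ∈ X, ∀ h ∈ X, g * h = h * g := by
    intro g hg h hh
    have e1 := hinv (g * h) (X.mul_mem hg hh)
    rw [mul_inv_rev, hinv g hg, hinv h hh] at e1
    exact e1.symm
  by_cases hc1 : ∀ x ∈ X, x = 1
  · exact card_le_four_of_subset (X : Set (V ≃ₗ[ℝ] V)) {1} (by simp) (fun g hg => by simp [hc1 g hg])
  push Not at hc1
  obtain ⟨x, hx, hx1⟩ := hc1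
  by_cases hc2 : ∀ y ∈ X, y = 1 ∨ y = x
  · refine card_le_four_of_subset (X : Set (V ≃ₗ[ℝ] V)) {1, x} ?_ (fun g hg => ?_)
    · exact (Finset.card_le_two).trans (by norm_num)
    · rcases hc2 g hg with h | h <;> simp [h]
  push Not at hc2
  obtain ⟨y, hy, hy1, hyx⟩ := hc2
  by_cases hc3 : ∀ z ∈ X, z = 1 ∨ z = x ∨ z = y ∨ z = x * y
  · refine card_le_four_of_subset (X : Set (V ≃ₗ[ℝ] V)) {1, x, y, x * y} ?_ (fun g hg => ?_)
    · exact Finset.card_le_four
    · rcases hc3 g hg with h | h | h | h <;> simp [h]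
  push Not at hc3
  obtain ⟨z, hz, hz1, hzx, hzy, hzxy⟩ := hc3
  exfalso
  -- membership facts
  have hxy : x * y ∈ X := X.mul_mem hx hy
  have hxz : x * z ∈ X := X.mul_mem hx hz
  have hyz : y * z ∈ X := X.mul_mem hy hz
  have hxyz : x * y * z ∈ X := X.mul_mem hxy hz
  have hxx := hX x hx
  have hyy := hX y hy
  have hzz := hX z hz
  -- group facts
  have hmul1 : ∀ g ∈ X, ∀ h ∈ X, g * h = 1 → g = h := by
    intro g hg h hh e
    rw [eq_inv_of_mul_eq_one_left e, hinv h hh]
  have nxy : x * y ≠ 1 := fun h => hyx (hmul1 x hx y hy h).symm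
  have nxz : x * z ≠ 1 := fun h => hzx (hmul1 x hx z hz h).symm
  have nyz : y * z ≠ 1 := fun h => hzy (hmul1 y hy z hz h).symm
  have nxyz : x * y * z ≠ 1 := fun h => hzxy (hmul1 (x * y) hxy z hz h).symm
  have d1 : x ≠ x * y := fun h => hy1 (left_eq_mul.mp h)
  have d2 : x ≠ y * z := by
    intro h
    apply hzxy
    have : y * x = z := by rw [h, ← mul_assoc, hyy, one_mul]
    rw [← this, hcomm y hy x hx]
  have d3 : x ≠ x * y * z := by
    intro h
    rw [mul_assoc] at h
    exact nyz (left_eq_mul.mp h)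
  have d4 : y ≠ z := fun h => hzy h.symm
  have d5 : y ≠ x * z := by
    intro h
    apply hzxy
    rw [h, ← mul_assoc, hxx, one_mul]
  have d6 : x * y ≠ z := fun h => hzxy h.symm
  have d7 : x * y ≠ x * z := fun h => d4 (mul_left_cancel h)
  have d8 : x ≠ z := fun h => hzx h.symm
  have d9 : x ≠ x * z := fun h => hz1 (left_eq_mul.mp h)
  have d10 : y * z ≠ x * y * z := by
    intro h
    rw [mul_assoc] at h
    exact hx1 (right_eq_mul.mp h)
  have p1 : x * (x * y) = y := by rw [← mul_assoc, hxx, one_mul]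
  have p2 : x * (y * z) = x * y * z := by rw [mul_assoc]
  have p3 : x * (x * y * z) = y * z := by rw [mul_assoc x y z, ← mul_assoc, hxx, one_mul]
  have p4 : y * (x * z) = x * y * z := by rw [← mul_assoc, hcomm y hy x hx]
  have p5 : (x * y) * (x * z) = y * z := by
    rw [hcomm x hx y hy, mul_assoc, ← mul_assoc x x z, hxx, one_mul]
  have p6 : x * (x * z) = z := by rw [← mul_assoc, hxx, one_mul]
  have p7 : (y * z) * (x * y * z) = x := by
    rw [mul_assoc x y z, hcomm x hx (y * z) hyz, ← mul_assoc, hX (y * z) hyz, one_mul]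
  -- the seven axes
  set a := ax x with ha
  set b := ax y with hb
  set c := ax (x * y) with hc
  set d := ax z with hd
  set e := ax (x * z) with he
  set f := ax (y * z) with hf
  set g := ax (x * y * z) with hg
  have hab : mul a b = (1 / 8 : ℝ) • (a + b - c) := h2A x hx y hy hx1 hy1 (fun h => hyx h.symm)
  have hac : mul a c = (1 / 8 : ℝ) • (a + c - b) := by
    have := h2A x hx (x * y) hxy hx1 nxy d1
    rwa [p1] at this
  have haf : mul a f = (1 / 8 : ℝ) • (a + f - g) := by
    have := h2A x hx (y * z) hyz hx1 nyz d2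
    rwa [p2] at this
  have hag : mul a g = (1 / 8 : ℝ) • (a + g - f) := by
    have := h2A x hx (x * y * z) hxyz hx1 nxyz d3
    rwa [p3] at this
  have had : mul a d = (1 / 8 : ℝ) • (a + d - e) := h2A x hx z hz hx1 hz1 d8
  have hae : mul a e = (1 / 8 : ℝ) • (a + e - d) := by
    have := h2A x hx (x * z) hxz hx1 nxz d9
    rwa [p6] at this
  have hbd : mul b d = (1 / 8 : ℝ) • (b + d - f) := h2A y hy z hz hy1 hz1 d4
  have hbe : mul b e = (1 / 8 : ℝ) • (b + e - g) := by
    have := h2A y hy (x * z) hxz hy1 nxz d5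
    rwa [p4] at this
  have hcd : mul c d = (1 / 8 : ℝ) • (c + d - g) := h2A (x * y) hxy z hz nxy hz1 d6
  have hce : mul c e = (1 / 8 : ℝ) • (c + e - f) := by
    have := h2A (x * y) hxy (x * z) hxz nxy nxz d7
    rwa [p5] at this
  have hfg : mul f g = (1 / 8 : ℝ) • (f + g - a) := by
    have := h2A (y * z) hyz (x * y * z) hxyz nyz nxyz d10
    rwa [p7] at this
  -- eigenvector facts for `a`
  have e1 : mul a (b - c) = (1 / 4 : ℝ) • (b - c) := by
    rw [map_sub, hab, hac]; module
  have e2 : mul a (d - e) = (1 / 4 : ℝ) • (d - e) := by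
    rw [map_sub, had, hae]; module
  have e3 : mul (b - c) (d - e) = (1 / 4 : ℝ) • (g - f) := by
    simp only [map_sub, LinearMap.sub_apply]
    rw [hbd, hbe, hcd, hce]; module
  have e4 : mul a ((1 / 4 : ℝ) • (g - f)) = (1 / 4 : ℝ) • ((1 / 4 : ℝ) • (g - f)) := by
    rw [map_smul, map_sub, hag, haf]; module
  -- fusion law for the axis `a`
  obtain ⟨-, -, ⟨⟨-, -, -, hfus⟩, -⟩, -⟩ := hax x hx hx1
  have hq : (1 / 4 : ℝ) ∈ Cfsg.Axial.majoranaSpectrum := by
    unfold Cfsg.Axial.majoranaSpectrum; simp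
  have m1 : b - c ∈ Cfsg.Axial.eigen mul (ax x) (1 / 4) := by
    unfold Cfsg.Axial.eigen
    rw [Module.End.mem_eigenspace_iff]; exact e1
  have m2 : d - e ∈ Cfsg.Axial.eigen mul (ax x) (1 / 4) := by
    unfold Cfsg.Axial.eigen
    rw [Module.End.mem_eigenspace_iff]; exact e2
  have m3 := hfus (1 / 4) hq (1 / 4) hq (b - c) m1 (d - e) m2
  rw [law_quarter, e3] at m3
  have hzero := eq_zero_of_quarter mul (ax x) _ e4 m3
  have hgf : g = f := by
    have h4 : g - f = 0 := (smul_eq_zero.mp hzero).resolve_left (by norm_num)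
    exact sub_eq_zero.mp h4
  -- contradiction
  obtain ⟨-, -, ⟨⟨-, hidem, -, -⟩, -⟩, -⟩ := hax (y * z) hyz nyz
  rw [hgf] at hfg
  change mul f f = f at hidem
  rw [hidem] at hfg
  have h6 : a = (-6 : ℝ) • f := by
    have : (8 : ℝ) • f = (8 : ℝ) • ((1 / 8 : ℝ) • (f + f - a)) := by rw [← hfg]
    rw [smul_smul] at this
    norm_num at this
    have h7 : a = f + f - (8 : ℝ) • f := by
      rw [this]; abel
    rw [h7]; module
  have n1 := h1 x hx hx1
  have n2 := h1 (y * z) hyz nyz
  change B a a = 1 at n1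
  change B f f = 1 at n2
  rw [h6] at n1
  simp only [map_smul, LinearMap.smul_apply, smul_eq_mul, n2] at n1
  norm_num at n1

end Cfsg.Agent.S5543
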