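import Cfsg.Statements.S5545

set_option autoImplicit false
open Cfsg

namespace Cfsg.Agent.S5545

open Cfsg.Axial

variable {V : Type*} [AddCommGroup V] [Module ℝ V]

/-- a vector that is a `1/4`-eigenvector and lies in the sum of the `1`- and `0`-eigenspaces is zero -/
theorem eq_zero_of_quarter (mul : V →ₗ[ℝ] V →ₗ[ℝ] V) (a w : V)
    (hw : mul a w = (1 / 4 : ℝ) • w) (hw' : w ∈ eigenSum mul a {1, 0}) : w = 0 := by
  unfold eigenSum at hw'
  rw [iSup_insert, iSup_singleton] at hw'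
  obtain ⟨w1, hw1, w0, hw0, rfl⟩ := Submodule.mem_sup.mp hw'
  unfold eigen at hw1 hw0
  rw [Module.End.mem_eigenspace_iff] at hw1 hw0
  rw [map_add, hw1, hw0] at hw
  simp only [one_smul, zero_smul, add_zero] at hw
  have h3 : (3 : ℝ) • w1 = w0 := by linear_combination (norm := module) (4 : ℝ) • hw
  have h5 : mul a ((3 : ℝ) • w1) = mul a w0 := by rw [h3]
  rw [map_smul, hw1, hw0] at h5
  have hw1z : w1 = 0 := by
    have : (3 : ℝ) • w1 = 0 := by simpa using h5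
    exact (smul_eq_zero.mp this).resolve_left (by norm_num)
  rw [hw1z] at h3
  simp at h3
  rw [hw1z, ← h3]; simp

theorem mem_eigen_iff (mul : V →ₗ[ℝ] V →ₗ[ℝ] V) (a v : V) (c : ℝ) :
    v ∈ eigen mul a c ↔ mul a v = c • v := by
  unfold eigen
  rw [Module.End.mem_eigenspace_iff]

theorem eigen_le_eigenSum (mul : V →ₗ[ℝ] V →ₗ[ℝ] V) (a : V) (S : Set ℝ) (c : ℝ) (hc : c ∈ S) :
    eigen mul a c ≤ eigenSum mul a S := by
  unfold eigenSum
  exact le_biSup (fun c => eigen mul a c) hc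

theorem eigen_transport (mul : V →ₗ[ℝ] V →ₗ[ℝ] V) (σ : V ≃ₗ[ℝ] V)
    (hσ : ∀ u v : V, σ (mul u v) = mul (σ u) (σ v)) (a : V) (c : ℝ) :
    eigen mul (σ a) c = (eigen mul a c).map (σ : V →ₗ[ℝ] V) := by
  ext v
  rw [Submodule.mem_map_equiv, mem_eigen_iff, mem_eigen_iff]
  constructor
  · intro h
    apply σ.injective
    rw [hσ, LinearEquiv.apply_symm_apply, h, map_smul, LinearEquiv.apply_symm_apply]
  · intro h
    have := congrArg σ h
    rw [hσ, LinearEquiv.apply_symm_apply, map_smul, LinearEquiv.apply_symm_apply] at this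
    exact this

theorem eigenSum_transport (mul : V →ₗ[ℝ] V →ₗ[ℝ] V) (σ : V ≃ₗ[ℝ] V)
    (hσ : ∀ u v : V, σ (mul u v) = mul (σ u) (σ v)) (a : V) (S : Set ℝ) :
    eigenSum mul (σ a) S = (eigenSum mul a S).map (σ : V →ₗ[ℝ] V) := by
  unfold eigenSum
  simp only [Submodule.map_iSup, eigen_transport mul σ hσ]

theorem majorana_transport (mul : V →ₗ[ℝ] V →ₗ[ℝ] V) (B : LinearMap.BilinForm ℝ V) (μ σ : V ≃ₗ[ℝ] V) (a : V)
    (h : IsMajoranaPair mul B μ a) (hσ : ∀ u v : V, σ (mul u v) = mul (σ u) (σ v))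
    (hcomm : μ * σ = σ * μ) : IsMajoranaPair mul B μ (σ a) := by
  obtain ⟨hm, hB, ⟨⟨hne, hid, htop, hfus⟩, hprim⟩, ⟨hfix, hneg⟩⟩ := h
  have hσsymm : ∀ u v : V, σ.symm (mul u v) = mul (σ.symm u) (σ.symm v) := by
    intro u v
    apply σ.injective
    rw [hσ, LinearEquiv.apply_symm_apply, LinearEquiv.apply_symm_apply, LinearEquiv.apply_symm_apply]
  have hμσ : ∀ w : V, μ (σ w) = σ (μ w) := by
    intro w
    have := congrArg (fun f : V ≃ₗ[ℝ] V => f w) hcomm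
    simpa [LinearEquiv.mul_apply] using this
  refine ⟨hm, hB, ⟨⟨?_, ?_, ?_, ?_⟩, ?_⟩, ⟨?_, ?_⟩⟩
  · exact (LinearEquiv.map_ne_zero_iff σ).mpr hne
  · rw [← hσ, hid]
  · rw [eigenSum_transport mul σ hσ, htop, Submodule.map_top, LinearEquiv.range]
  · intro c hc d hd u hu v hv
    rw [eigen_transport mul σ hσ, Submodule.mem_map_equiv] at hu hv
    rw [eigenSum_transport mul σ hσ, Submodule.mem_map_equiv, hσsymm]
    exact hfus c hc d hd _ hu _ hv
  · rw [eigen_transport mul σ hσ, hprim, Submodule.map_span, Set.image_singleton]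
    rfl
  · intro v hv
    rw [eigenSum_transport mul σ hσ, Submodule.mem_map_equiv] at hv
    have h1 := hfix _ hv
    rw [LinearEquiv.coe_coe] at h1 ⊢
    have h2 := hμσ (σ.symm v)
    rw [LinearEquiv.apply_symm_apply, h1, LinearEquiv.apply_symm_apply] at h2
    exact h2
  · intro v hv
    rw [eigen_transport mul σ hσ, Submodule.mem_map_equiv] at hv
    have h1 := hneg _ hv
    rw [LinearEquiv.coe_coe] at h1 ⊢
    have h2 := hμσ (σ.symm v)
    rw [LinearEquiv.apply_symm_apply, h1, map_neg, LinearEquiv.apply_symm_apply] at h2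
    exact h2

theorem law00 : monsterLaw (1 / 4 : ℝ) (1 / 32) 0 0 = {0} := by
  unfold monsterLaw
  norm_num

theorem law04 : monsterLaw (1 / 4 : ℝ) (1 / 32) 0 (1 / 4) = {1 / 4} := by
  unfold monsterLaw
  norm_num

theorem law44 : monsterLaw (1 / 4 : ℝ) (1 / 32) (1 / 4) (1 / 4) = {1, 0} := by
  unfold monsterLaw
  norm_num

theorem decomp (mul : V →ₗ[ℝ] V →ₗ[ℝ] V) (B : LinearMap.BilinForm ℝ V) (hV : IsMajoranaAmbient mul B)
    (μ₀ μ₁ : V ≃ₗ[ℝ] V) (a₀ a₁ : V)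
    (h₀ : IsMajoranaPair mul B μ₀ a₀) (h₁ : IsMajoranaPair mul B μ₁ a₁)
    (hu₀ : ∀ a : V, IsMajoranaPair mul B μ₀ a → a = a₀) (hn₁ : B a₁ a₁ = 1) (hc : μ₀ * μ₁ = μ₁ * μ₀) :
    ∃ (l : ℝ) (u₀ u₄ : V), a₀ = l • a₁ + u₀ + u₄ ∧ mul a₁ u₀ = 0 ∧ mul a₁ u₄ = (1 / 4 : ℝ) • u₄ ∧
      l = B a₀ a₁ ∧ u₄ = (l / 2) • u₄ + (2 : ℝ) • mul u₀ u₄ ∧ B u₀ u₄ = 0 ∧ B a₁ u₄ = 0 := by
  obtain ⟨hcm, hBs, hpos, hass, -⟩ := hV
  have hfixa : μ₁ a₀ = a₀ := hu₀ _ (majorana_transport mul B μ₀ μ₁ a₀ h₀ h₁.1 hc)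
  have hid0 : mul a₀ a₀ = a₀ := h₀.2.2.1.1.2.1
  obtain ⟨-, -, ⟨⟨-, hid1, htop1, hfus1⟩, hprim1⟩, ⟨hfix1, hneg1⟩⟩ := h₁
  have hmem : a₀ ∈ eigenSum mul a₁ majoranaSpectrum := by rw [htop1]; exact Submodule.mem_top
  unfold eigenSum majoranaSpectrum at hmem
  rw [iSup_insert, iSup_insert, iSup_insert, iSup_singleton] at hmem
  obtain ⟨x1, hx1, y, hy, e1⟩ := Submodule.mem_sup.mp hmem
  obtain ⟨x0, hx0, y', hy', e2⟩ := Submodule.mem_sup.mp hy
  obtain ⟨x4, hx4, x32, hx32, e3⟩ := Submodule.mem_sup.mp hy'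
  have f1 : μ₁ x1 = x1 := by
    have := hfix1 x1 (eigen_le_eigenSum mul a₁ _ 1 (by simp) hx1)
    simpa using this
  have f0 : μ₁ x0 = x0 := by
    have := hfix1 x0 (eigen_le_eigenSum mul a₁ _ 0 (by simp) hx0)
    simpa using this
  have f4 : μ₁ x4 = x4 := by
    have := hfix1 x4 (eigen_le_eigenSum mul a₁ _ (1 / 4) (by simp) hx4)
    simpa using this
  have f32 : μ₁ x32 = -x32 := by
    have := hneg1 x32 hx32
    simpa using this
  have hx32z : x32 = 0 := by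
    have h := hfixa
    rw [← e1, ← e2, ← e3] at h
    simp only [map_add, f1, f0, f4, f32] at h
    have : (2 : ℝ) • x32 = 0 := by linear_combination (norm := module) -h
    exact (smul_eq_zero.mp this).resolve_left (by norm_num)
  rw [hprim1] at hx1
  obtain ⟨l, hl⟩ := Submodule.mem_span_singleton.mp hx1
  have hdec : a₀ = l • a₁ + x0 + x4 := by
    rw [← e1, ← e2, ← e3, hx32z, hl]; abel
  have hm0 : mul a₁ x0 = 0 := by
    have := (mem_eigen_iff mul a₁ x0 0).mp hx0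
    simpa using this
  have hm4 : mul a₁ x4 = (1 / 4 : ℝ) • x4 := (mem_eigen_iff mul a₁ x4 (1 / 4)).mp hx4
  have hB14 : B a₁ x4 = 0 := by
    have := hass a₁ a₁ x4
    rw [hm4, hid1, map_smul, smul_eq_mul] at this
    linarith
  have hB10 : B a₁ x0 = 0 := by
    have := hass a₁ a₁ x0
    rw [hm0, hid1, map_zero] at this
    exact this.symm
  have hB04 : B x0 x4 = 0 := by
    have := hass x0 a₁ x4
    rw [hm4, hcm x0 a₁, hm0, map_smul, smul_eq_mul, map_zero, LinearMap.zero_apply] at this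
    linarith
  have hq : (1 / 4 : ℝ) ∈ majoranaSpectrum := by unfold majoranaSpectrum; simp
  have hz : (0 : ℝ) ∈ majoranaSpectrum := by unfold majoranaSpectrum; simp
  have h00 := hfus1 0 hz 0 hz x0 hx0 x0 hx0
  have h04 := hfus1 0 hz (1 / 4) hq x0 hx0 x4 hx4
  have h44 := hfus1 (1 / 4) hq (1 / 4) hq x4 hx4 x4 hx4
  rw [law00] at h00
  rw [law04] at h04
  rw [law44] at h44
  have g00 : mul a₁ (mul x0 x0) = 0 := by
    unfold eigenSum at h00
    rw [iSup_singleton] at h00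
    have := (mem_eigen_iff mul a₁ _ 0).mp h00
    simpa using this
  have g04 : mul a₁ (mul x0 x4) = (1 / 4 : ℝ) • mul x0 x4 := by
    unfold eigenSum at h04
    rw [iSup_singleton] at h04
    exact (mem_eigen_iff mul a₁ _ (1 / 4)).mp h04
  have hexp : mul (l • a₁ + x0 + x4) (l • a₁ + x0 + x4) = l • a₁ + x0 + x4 := by
    rw [← hdec]; exact hid0
  simp only [map_add, map_smul, LinearMap.add_apply, LinearMap.smul_apply] at hexp
  rw [hid1, hm0, hm4, hcm x0 a₁, hm0, hcm x4 a₁, hm4, hcm x4 x0] at hexp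
  have hw : x4 - (l / 2) • x4 - (2 : ℝ) • mul x0 x4
      = (l ^ 2 - l) • a₁ + (mul x0 x0 - x0) + mul x4 x4 := by
    linear_combination (norm := module) -hexp
  have hwmem : x4 - (l / 2) • x4 - (2 : ℝ) • mul x0 x4 ∈ eigenSum mul a₁ {1, 0} := by
    rw [hw]
    refine Submodule.add_mem _ (Submodule.add_mem _ ?_ ?_) h44
    · apply eigen_le_eigenSum mul a₁ _ 1 (by simp)
      apply Submodule.smul_mem
      rw [mem_eigen_iff, hid1, one_smul]
    · apply eigen_le_eigenSum mul a₁ _ 0 (by simp)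
      rw [mem_eigen_iff, map_sub, g00, hm0]; simp
  have hweig : mul a₁ (x4 - (l / 2) • x4 - (2 : ℝ) • mul x0 x4)
      = (1 / 4 : ℝ) • (x4 - (l / 2) • x4 - (2 : ℝ) • mul x0 x4) := by
    rw [map_sub, map_sub, map_smul, map_smul, hm4, g04]; module
  have hw0 := eq_zero_of_quarter mul a₁ _ hweig hwmem
  refine ⟨l, x0, x4, hdec, hm0, hm4, ?_, ?_, hB04, hB14⟩
  · rw [hdec]
    simp only [map_add, map_smul, LinearMap.add_apply, LinearMap.smul_apply, smul_eq_mul, hn₁,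
      hBs x0 a₁, hB10, hBs x4 a₁, hB14]
    ring
  · linear_combination (norm := module) hw0

theorem key (mul : V →ₗ[ℝ] V →ₗ[ℝ] V) (B : LinearMap.BilinForm ℝ V) (hV : IsMajoranaAmbient mul B)
    (μ₀ μ₁ : V ≃ₗ[ℝ] V) (a₀ a₁ : V)
    (h₀ : IsMajoranaPair mul B μ₀ a₀) (h₁ : IsMajoranaPair mul B μ₁ a₁)
    (hu₀ : ∀ a : V, IsMajoranaPair mul B μ₀ a → a = a₀) (hu₁ : ∀ a : V, IsMajoranaPair mul B μ₁ a → a = a₁)
    (hn₀ : B a₀ a₀ = 1) (hn₁ : B a₁ a₁ = 1) (hc : μ₀ * μ₁ = μ₁ * μ₀)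
    (s : V) (hs : s = mul a₀ a₁) (l : ℝ) (hl : l = B a₀ a₁) :
    (16 : ℝ) • mul s s = (3 * l) • a₀ + (8 * l ^ 2 + 2 * l) • a₁ + (4 * l - 1) • s ∧
      mul a₁ s = (3 * l / 4) • a₁ + (1 / 4 : ℝ) • s ∧ (l = 0 → s = 0) := by
  obtain ⟨l1, u0, u4, hdec, hm0, hm4, hl1, hfu, hB04, hB14⟩ :=
    decomp mul B hV μ₀ μ₁ a₀ a₁ h₀ h₁ hu₀ hn₁ hc
  obtain ⟨l2, v0, v4, hdec', hm0', hm4', hl2, -, -, -⟩ :=
    decomp mul B hV μ₁ μ₀ a₁ a₀ h₁ h₀ hu₁ hn₀ hc.symm
  obtain ⟨hcm, hBs, hpos, hass, -⟩ := hV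
  have hid0 : mul a₀ a₀ = a₀ := h₀.2.2.1.1.2.1
  have hid1 : mul a₁ a₁ = a₁ := h₁.2.2.1.1.2.1
  have e1 : l1 = l := hl1.trans hl.symm
  have e2 : l2 = l := by rw [hl2, hBs a₁ a₀, hl]
  rw [e1] at hdec hfu
  rw [e2] at hdec'
  clear hl1 hl2 e1 e2
  have hs1 : s = l • a₁ + (1 / 4 : ℝ) • u4 := by
    have h : mul a₁ a₀ = mul a₁ (l • a₁ + u0 + u4) := by rw [← hdec]
    simp only [map_add, map_smul, hid1, hm0, hm4, add_zero] at h
    rw [hs, hcm a₀ a₁, h]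
  have hs0 : s = l • a₀ + (1 / 4 : ℝ) • v4 := by
    have h : mul a₀ a₁ = mul a₀ (l • a₀ + v0 + v4) := by rw [← hdec']
    simp only [map_add, map_smul, hid0, hm0', hm4', add_zero] at h
    rw [hs, h]
  have E3 : mul a₀ s = (3 * l / 4) • a₀ + (1 / 4 : ℝ) • s := by
    have h : mul a₀ s = mul a₀ (l • a₀ + (1 / 4 : ℝ) • v4) := by rw [← hs0]
    simp only [map_add, map_smul, hid0, hm4'] at h
    linear_combination (norm := module) h - (1 / 4 : ℝ) • hs0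
  have E3' : mul a₁ s = (3 * l / 4) • a₁ + (1 / 4 : ℝ) • s := by
    have h : mul a₁ s = mul a₁ (l • a₁ + (1 / 4 : ℝ) • u4) := by rw [← hs1]
    simp only [map_add, map_smul, hid1, hm4] at h
    linear_combination (norm := module) h - (1 / 4 : ℝ) • hs1
  have hu4 : u4 = (4 : ℝ) • s - (4 * l) • a₁ := by
    linear_combination (norm := module) (-4 : ℝ) • hs1
  have hu0 : u0 = a₀ - l • a₁ - u4 := by
    linear_combination (norm := module) -hdec
  have c1 : mul a₀ a₁ = s := hs.symm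
  have c3 : mul s a₁ = mul a₁ s := hcm s a₁
  have hmu : mul u0 u4 = mul (a₀ - l • a₁ - ((4 : ℝ) • s - (4 * l) • a₁)) ((4 : ℝ) • s - (4 * l) • a₁) := by
    rw [← hu4, ← hu0]
  simp only [map_add, map_sub, map_smul, LinearMap.add_apply, LinearMap.sub_apply,
    LinearMap.smul_apply] at hmu
  rw [c3, E3, E3', c1, hid1] at hmu
  rw [hmu, hu4] at hfu
  refine ⟨?_, E3', ?_⟩
  · linear_combination (norm := module) (1 / 2 : ℝ) • hfu
  · intro hl0
    have b1 : B a₀ s = l := by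
      have := hass a₀ a₀ a₁
      rw [hid0] at this
      rw [hs, this, hl]
    have b3 : B a₀ u4 = B u4 u4 := by
      have h : B a₀ u4 = B (l • a₁ + u0 + u4) u4 := by rw [← hdec]
      simp only [map_add, map_smul, LinearMap.add_apply, LinearMap.smul_apply, smul_eq_mul, hB14,
        hB04] at h
      linarith
    have b2 : B a₀ s = l * l + (1 / 4) * B u4 u4 := by
      have h : B a₀ s = B a₀ (l • a₁ + (1 / 4 : ℝ) • u4) := by rw [← hs1]
      simp only [map_add, map_smul, smul_eq_mul, b3] at h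
      rw [h, ← hl]
    have b4 : B u4 u4 = 0 := by
      rw [b1, hl0] at b2
      linarith
    have hu4z : u4 = 0 := by
      by_contra hne
      have := hpos u4 hne
      linarith
    rw [hs1, hl0, hu4z]; simp


/-- Let V be a finite-dimensional real vector space with a commutative bilinear product and a positive-definite symmetric bilinear form that associates with the product and satisfies the Norton inequality (the Majorana setting of the definitions). Let μ₀, μ₁ be commuting Majorana involutions with distinct axial vectors a₀ ≠ a₁ of squared length 1, each involution having no other axial vector. Then either a₀ and a₁ are orthogonal with a₀ ∘ a₁ = 0 (type 2B), or their inner product is 1/8 and, with a₂ = a₀ + a₁ − 8 a₀ ∘ a₁, the vector a₂ is an idempotent and a₀ ∘ a₂ = (1/8)(a₀ + a₂ − a₁), a₁ ∘ a₂ = (1/8)(a₁ + a₂ − a₀) (type 2A: the three idempotents span a subalgebra with aᵢ ∘ aⱼ =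 (1/8)(aᵢ + aⱼ − aₖ)). -/
theorem result {V : Type*} [AddCommGroup V] [Module ℝ V] [FiniteDimensional ℝ V] (mul : V →ₗ[ℝ] V →ₗ[ℝ] V) (B : LinearMap.BilinForm ℝ V) (hV : Cfsg.Axial.IsMajoranaAmbient mul B) (μ₀ μ₁ : V ≃ₗ[ℝ] V) (a₀ a₁ : V) (h₀ : Cfsg.Axial.IsMajoranaPair mul B μ₀ a₀) (h₁ : Cfsg.Axial.IsMajoranaPair mul B μ₁ a₁) (hu₀ : ∀ a : V, Cfsg.Axial.IsMajoranaPair mul B μ₀ a → a = a₀) (hu₁ : ∀ a : V, Cfsg.Axial.IsMajoranaPair mul B μ₁ a → a = a₁) (hn₀ : B a₀ a₀ = 1) (hn₁ : B a₁ a₁ = 1) (hc : μ₀ * μ₁ = μ₁ * μ₀) (hne : a₀ ≠ a₁) : (B a₀ a₁ = 0 ∧ mul a₀ a₁ = 0) ∨ (B a₀ a₁ = 1 / 8 ∧ mul (a₀ + a₁ - (8 : ℝ) • mul a₀ a₁) (a₀ + a₁ - (8 : ℝ) • mul a₀ a₁) = a₀ + a₁ - (8 : ℝ) • mul a₀ a₁ ∧ mul a₀ (a₀ + a₁ - (8 : ℝ) • mul a₀ a₁) = (1 / 8 : ℝ) • (a₀ + (a₀ + a₁ - (8 : ℝ) • mul a₀ a₁) - a₁) ∧ mul a₁ (a₀ + a₁ - (8 : ℝ) • mul a₀ a₁) = (1 / 8 : ℝ) • (a₁ + (a₀ + a₁ - (8 : ℝ) • mul a₀ a₁) - a₀)) := by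
  obtain ⟨s, hs⟩ : ∃ s : V, s = mul a₀ a₁ := ⟨_, rfl⟩
  obtain ⟨l, hl⟩ : ∃ l : ℝ, l = B a₀ a₁ := ⟨_, rfl⟩
  have hcm := hV.1
  have hBs := hV.2.1
  have hid0 : mul a₀ a₀ = a₀ := h₀.2.2.1.1.2.1
  have hid1 : mul a₁ a₁ = a₁ := h₁.2.2.1.1.2.1
  obtain ⟨T0, E3', Z0⟩ := key mul B hV μ₀ μ₁ a₀ a₁ h₀ h₁ hu₀ hu₁ hn₀ hn₁ hc s hs l hl
  obtain ⟨T1, E3, -⟩ := key mul B hV μ₁ μ₀ a₁ a₀ h₁ h₀ hu₁ hu₀ hn₁ hn₀ hc.symm s
    (by rw [hs]; exact hcm a₀ a₁) l (by rw [hl]; exact hBs a₀ a₁)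
  have hzero : (l * (1 - 8 * l)) • (a₀ - a₁) = 0 := by
    linear_combination (norm := module) T1 - T0
  rw [← hs, ← hl]
  rcases smul_eq_zero.mp hzero with h | h
  · rcases mul_eq_zero.mp h with h0 | h8
    · left
      exact ⟨h0, Z0 h0⟩
    · right
      have hl8 : l = 1 / 8 := by linarith
      rw [hl8] at T0 E3 E3'
      have c1 : mul a₁ a₀ = s := by rw [hs]; exact hcm a₁ a₀
      have c2 : mul s a₀ = mul a₀ s := hcm s a₀
      have c3 : mul s a₁ = mul a₁ s := hcm s a₁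
      refine ⟨hl8, ?_, ?_, ?_⟩
      · simp only [map_add, map_sub, map_smul, LinearMap.add_apply, LinearMap.sub_apply,
          LinearMap.smul_apply]
        rw [hid0, hid1, ← hs, c1, c2, c3, E3, E3']
        linear_combination (norm := module) (4 : ℝ) • T0
      · simp only [map_add, map_sub, map_smul]
        rw [hid0, ← hs, E3]
        module
      · simp only [map_add, map_sub, map_smul]
        rw [hid1, c1, E3']
        module
  · exact absurd (sub_eq_zero.mp h) hne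

end Cfsg.Agent.S5545
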