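import Cfsg.Statements.S5546
import Mathlib
import Cfsg.Agent.Lib.Helper92.LeechCenter
import Cfsg.Agent.Lib.Helper92.LeechNorm

set_option autoImplicit false
open Cfsg

namespace Cfsg.Agent.S5546


open Cfsg.Agent.Lib.Helper92 Cfsg.Spor Matrix

instance fact13 : Fact (Nat.Prime 13) := ⟨by norm_num⟩

/-- Reduction modulo 13. -/
def red (x : GolayPt → ℤ) : GolayPt → ZMod 13 := fun i => (x i : ZMod 13)

/-- The matrix modulo 13 of an automorphism of the lattice. -/
def Mm (f : Equiv.Perm leechLattice) : Matrix GolayPt GolayPt (ZMod 13) :=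
  fun j i => (8 : ZMod 13)⁻¹ * (((f.symm (latEight j) : leechLattice) : GolayPt → ℤ) i : ZMod 13)

theorem h8 : (8 : ZMod 13) ≠ 0 := by decide

theorem eight_mul_apply {f : Equiv.Perm leechLattice} (hf : f ∈ Co0) (x : leechLattice)
    (j : GolayPt) :
    8 * ((f x : leechLattice) : GolayPt → ℤ) j =
      dotInt (x : GolayPt → ℤ) (f.symm (latEight j) : leechLattice) := by
  have h := co0_dotInt hf x (f.symm (latEight j))
  rw [Equiv.apply_symm_apply] at h
  rw [← h]
  exact (dotInt_vecEight _ j).symm

theorem red_apply {f : Equiv.Perm leechLattice} (hf : f ∈ Co0) (x : leechLattice) :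
    red ((f x : leechLattice) : GolayPt → ℤ) = Mm f *ᵥ red (x : GolayPt → ℤ) := by
  funext j
  have h := eight_mul_apply hf x j
  have h' := congrArg (Int.cast : ℤ → ZMod 13) h
  simp only [dotInt, Int.cast_mul, Int.cast_sum, Int.cast_ofNat] at h'
  simp only [red, Mm, Matrix.mulVec, dotProduct]
  apply mul_left_cancel₀ h8
  rw [h', Finset.mul_sum]
  refine Finset.sum_congr rfl (fun i _ => ?_)
  rw [← mul_assoc, ← mul_assoc, mul_inv_cancel₀ h8, one_mul, mul_comm]

theorem red_latEight (i : GolayPt) :
    red ((latEight i : leechLattice) : GolayPt → ℤ) = (8 : ZMod 13) • Pi.single i 1 := by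
  funext j
  show ((vecEight i j : ℤ) : ZMod 13) = _
  simp only [vecEight, Pi.smul_apply, Pi.single_apply, smul_eq_mul]
  split_ifs <;> simp

theorem eight_mul_Mm {f : Equiv.Perm leechLattice} (hf : f ∈ Co0) (j i : GolayPt) :
    8 * Mm f j i = red ((f (latEight i) : leechLattice) : GolayPt → ℤ) j := by
  rw [red_apply hf, red_latEight, Matrix.mulVec_smul, Matrix.mulVec_single_one]
  rfl

theorem Mm_mul {f h : Equiv.Perm leechLattice} (hf : f ∈ Co0) (hh : h ∈ Co0) :
    Mm (f * h) = Mm f * Mm h := by
  ext j i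
  apply mul_left_cancel₀ h8
  rw [eight_mul_Mm (Co0.mul_mem hf hh), Equiv.Perm.mul_apply, red_apply hf, Matrix.mul_apply,
    Finset.mul_sum]
  simp only [Matrix.mulVec, dotProduct]
  refine Finset.sum_congr rfl (fun k _ => ?_)
  rw [← eight_mul_Mm hh k i]; ring

theorem Mm_one : Mm 1 = 1 := by
  ext j i
  apply mul_left_cancel₀ h8
  rw [eight_mul_Mm Co0.one_mem, Equiv.Perm.one_apply, red_latEight]
  simp [Matrix.one_apply, Pi.single_apply]

/-- Projection onto the quotient by the line of `wv`. -/
def piM : Matrix (ZMod 23) GolayPt (ZMod 13) := fun a p =>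
  match p with
  | none => if a = 0 then -1 else 0
  | some b => if a = b then 1 else 0

/-- A section of `piM`. -/
def sM : Matrix GolayPt (ZMod 23) (ZMod 13) := fun p a =>
  match p with
  | none => 0
  | some b => if b = a then 1 else 0

/-- The vector `e_∞ + e_0` (a quarter of `u`). -/
def wv : GolayPt → ZMod 13 := fun p => if p = none ∨ p = some 0 then 1 else 0

theorem piM_mul_sM : piM * sM = 1 := by
  ext a a'
  rw [Matrix.mul_apply, Fintype.sum_option]
  simp [piM, sM, Matrix.one_apply]

theorem piM_mulVec (z : GolayPt → ZMod 13) (a : ZMod 23) :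
    (piM *ᵥ z) a = z (some a) - if a = 0 then z none else 0 := by
  simp only [Matrix.mulVec, dotProduct]
  rw [Fintype.sum_option]
  simp only [piM]
  rw [Finset.sum_eq_single a]
  · rw [if_pos rfl]
    split_ifs <;> ring
  · intro b _ hb
    rw [if_neg (Ne.symm hb), zero_mul]
  · intro h; exact absurd (Finset.mem_univ a) h

theorem sM_mulVec (y : ZMod 23 → ZMod 13) (p : GolayPt) :
    (sM *ᵥ y) p = match p with
      | none => 0
      | some b => y b := by
  simp only [Matrix.mulVec, dotProduct]
  cases p with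
  | none => simp [sM]
  | some b => simp [sM]

theorem sM_piM (z : GolayPt → ZMod 13) : sM *ᵥ (piM *ᵥ z) = z - z none • wv := by
  funext p
  rw [sM_mulVec]
  cases p with
  | none => simp [wv]
  | some b =>
    simp only [piM_mulVec, Pi.sub_apply, Pi.smul_apply, wv, smul_eq_mul]
    by_cases hb : b = 0
    · simp [hb]
    · simp [hb]

theorem piM_wv : piM *ᵥ wv = 0 := by
  funext a
  rw [piM_mulVec]
  by_cases ha : a = 0
  · simp [wv, ha]
  · simp [wv, ha]

theorem red_vecU : red vecU = (4 : ZMod 13) • wv := by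
  funext p
  simp only [red, vecU, wv, Pi.smul_apply, smul_eq_mul]
  split_ifs <;> simp

theorem Mm_wv {f : Equiv.Perm leechLattice} (hf : f ∈ Co0) (hu : f leechU = leechU) :
    Mm f *ᵥ wv = wv := by
  have h := red_apply hf leechU
  rw [hu] at h
  have e : red ((leechU : leechLattice) : GolayPt → ℤ) = (4 : ZMod 13) • wv := red_vecU
  rw [e, Matrix.mulVec_smul] at h
  have h4 : (4 : ZMod 13) ≠ 0 := by decide
  have h2 := congrArg (fun v => (4 : ZMod 13)⁻¹ • v) h
  simp only [smul_smul, inv_mul_cancel₀ h4, one_smul] at h2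
  exact h2.symm

theorem mem_co2 {f : Equiv.Perm leechLattice} (hf : f ∈ Co2) : f ∈ Co0 ∧ f leechU = leechU := by
  obtain ⟨h1, h2⟩ := Subgroup.mem_inf.mp hf
  exact ⟨h1, MulAction.mem_stabilizer_iff.mp h2⟩

theorem N_mul {f h : Equiv.Perm leechLattice} (hf : f ∈ Co0) (hfu : f leechU = leechU)
    (hh : h ∈ Co0) :
    piM * Mm (f * h) * sM = piM * Mm f * sM * (piM * Mm h * sM) := by
  apply Matrix.toLin'.injective
  apply LinearMap.ext
  intro y
  simp only [Matrix.toLin'_apply]
  rw [Mm_mul hf hh]
  simp only [← Matrix.mulVec_mulVec]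
  rw [sM_piM, Matrix.mulVec_sub, Matrix.mulVec_smul, Mm_wv hf hfu, Matrix.mulVec_sub,
    Matrix.mulVec_smul, piM_wv, smul_zero, sub_zero]

/-- The representation of degree 23 modulo 13. -/
def NHom : ↥Co2 →* Matrix (ZMod 23) (ZMod 23) (ZMod 13) where
  toFun g := piM * Mm (g : Equiv.Perm leechLattice) * sM
  map_one' := by
    show piM * Mm 1 * sM = 1
    rw [Mm_one, Matrix.mul_one, piM_mul_sM]
  map_mul' g h := N_mul (mem_co2 g.2).1 (mem_co2 g.2).2 (mem_co2 h.2).1

theorem dot_vecU' (x : GolayPt → ℤ) : dotInt x vecU = 4 * x none + 4 * x (some 0) := by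
  unfold dotInt vecU
  rw [Fintype.sum_option, Finset.sum_eq_single (0 : ZMod 23)]
  · simp; ring
  · intro b _ hb
    simp [hb]
  · intro h; exact absurd (Finset.mem_univ _) h

theorem sqNorm_nonneg' (x : GolayPt → ℤ) : 0 ≤ sqNorm x :=
  Finset.sum_nonneg (fun i _ => sq_nonneg (x i))

theorem eq_zero_of_sqNorm {y : GolayPt → ℤ} (h : sqNorm y = 0) : y = 0 := by
  unfold sqNorm at h
  funext i
  have := (Finset.sum_eq_zero_iff_of_nonneg (fun j _ => sq_nonneg (y j))).mp h i (Finset.mem_univ i)
  exact pow_eq_zero_iff (two_ne_zero) |>.mp this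

theorem dotInt_self' (x : GolayPt → ℤ) : dotInt x x = sqNorm x := by
  unfold dotInt sqNorm
  exact Finset.sum_congr rfl (fun i _ => (sq (x i)).symm)

/-- An automorphism in `Co2` acting trivially on the quotient modulo 13 is the identity. -/
theorem eq_one_of_N {f : Equiv.Perm leechLattice} (hf : f ∈ Co0) (hu : f leechU = leechU)
    (hN : piM * Mm f * sM = 1) : f = 1 := by
  -- step 1
  have step1 : ∀ x : GolayPt → ZMod 13, ∃ c : ZMod 13, Mm f *ᵥ x = x + c • wv := by
    intro x
    obtain ⟨z, hz⟩ : ∃ z, z = Mm f *ᵥ (sM *ᵥ (piM *ᵥ x)) := ⟨_, rfl⟩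
    have hpz : piM *ᵥ z = piM *ᵥ x := by
      rw [hz, Matrix.mulVec_mulVec, Matrix.mulVec_mulVec, hN, Matrix.one_mulVec]
    have h1 := sM_piM z
    rw [hpz, sM_piM] at h1
    refine ⟨z none, ?_⟩
    have h2 : x = sM *ᵥ (piM *ᵥ x) + x none • wv := by rw [sM_piM]; abel
    have h3 : Mm f *ᵥ x = z + x none • wv := by
      conv_lhs => rw [h2]
      rw [Matrix.mulVec_add, Matrix.mulVec_smul, Mm_wv hf hu, ← hz]
    rw [h3]
    have h4 : z = x - x none • wv + z none • wv := by
      rw [h1]; abel
    conv_lhs => rw [h4]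
    abel
  -- step 2
  have step2 : ∀ i : GolayPt, f (latEight i) = latEight i := by
    intro i
    obtain ⟨c, hc⟩ := step1 (Pi.single i 1)
    have hred : red ((f (latEight i) : leechLattice) : GolayPt → ℤ) =
        (8 : ZMod 13) • Pi.single i 1 + (8 * c) • wv := by
      rw [red_apply hf, red_latEight, Matrix.mulVec_smul, hc, smul_add, smul_smul]
    have hdot := co0_dotInt hf (latEight i) leechU
    rw [hu] at hdot
    have e1 : ((leechU : leechLattice) : GolayPt → ℤ) = vecU := rfl
    rw [e1, dot_vecU', dot_vecU'] at hdot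
    have hdot' := congrArg (Int.cast : ℤ → ZMod 13) hdot
    simp only [Int.cast_add, Int.cast_mul, Int.cast_ofNat] at hdot'
    have r1 : ((((f (latEight i) : leechLattice) : GolayPt → ℤ) none : ℤ) : ZMod 13) =
        ((8 : ZMod 13) • Pi.single i 1 + (8 * c) • wv : GolayPt → ZMod 13) none := by
      rw [← hred]; rfl
    have r2 : ((((f (latEight i) : leechLattice) : GolayPt → ℤ) (some 0) : ℤ) : ZMod 13) =
        ((8 : ZMod 13) • Pi.single i 1 + (8 * c) • wv : GolayPt → ZMod 13) (some 0) := by
      rw [← hred]; rfl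
    have r3 : ((((latEight i : leechLattice) : GolayPt → ℤ) none : ℤ) : ZMod 13) =
        ((8 : ZMod 13) • Pi.single i 1 : GolayPt → ZMod 13) none := by
      rw [← red_latEight]; rfl
    have r4 : ((((latEight i : leechLattice) : GolayPt → ℤ) (some 0) : ℤ) : ZMod 13) =
        ((8 : ZMod 13) • Pi.single i 1 : GolayPt → ZMod 13) (some 0) := by
      rw [← red_latEight]; rfl
    rw [r1, r2, r3, r4] at hdot'
    simp only [Pi.add_apply, Pi.smul_apply, smul_eq_mul, wv] at hdot'
    have hc0 : c = 0 := by
      have h64 : (64 : ZMod 13) * c = 0 := by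
        simp only [true_or, or_true, if_true, mul_one] at hdot'
        linear_combination hdot'
      rcases mul_eq_zero.mp h64 with h | h
      · exact absurd h (by decide)
      · exact h
    rw [hc0, mul_zero, zero_smul, add_zero, ← red_latEight] at hred
    -- step 3
    obtain ⟨d, hd⟩ : ∃ d : leechLattice, d = f (latEight i) - latEight i := ⟨_, rfl⟩
    have hdv : ∀ j, (13 : ℤ) ∣ (d : GolayPt → ℤ) j := by
      intro j
      have hj := congrFun hred j
      simp only [red] at hj
      have : (((d : GolayPt → ℤ) j : ℤ) : ZMod 13) = 0 := by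
        rw [hd]
        show (((((f (latEight i) : leechLattice) : GolayPt → ℤ) j -
          ((latEight i : leechLattice) : GolayPt → ℤ) j : ℤ)) : ZMod 13) = 0
        rw [Int.cast_sub, hj, sub_self]
      exact (ZMod.intCast_zmod_eq_zero_iff_dvd _ 13).mp this
    choose k hk using hdv
    have hsq : sqNorm (d : GolayPt → ℤ) = 169 * sqNorm k := by
      unfold sqNorm
      rw [Finset.mul_sum]
      refine Finset.sum_congr rfl (fun j _ => ?_)
      rw [hk j]; ring
    have hle : sqNorm (d : GolayPt → ℤ) ≤ 256 := by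
      have e : (d : GolayPt → ℤ) = ((f (latEight i) : leechLattice) : GolayPt → ℤ) -
          ((latEight i : leechLattice) : GolayPt → ℤ) := by rw [hd]; rfl
      rw [e, sqNorm_sub]
      have hp := sqNorm_nonneg' (((f (latEight i) : leechLattice) : GolayPt → ℤ) +
          ((latEight i : leechLattice) : GolayPt → ℤ))
      rw [sqNorm_add] at hp
      have h1 := co0_sqNorm hf (latEight i)
      have h2 : sqNorm ((latEight i : leechLattice) : GolayPt → ℤ) = 64 := sqNorm_vecEight i
      rw [h2] at h1
      rw [h1, h2] at hp ⊢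
      omega
    have h8d : (8 : ℤ) ∣ sqNorm (d : GolayPt → ℤ) := by
      rw [← dotInt_self']
      exact dotInt_dvd d.2 d.2
    have hk0 := sqNorm_nonneg' k
    have hkz : sqNorm k = 0 := by
      rw [hsq] at hle h8d
      omega
    have hd0 : (d : GolayPt → ℤ) = 0 := eq_zero_of_sqNorm (by rw [hsq, hkz]; rfl)
    have hd0' : d = 0 := Subtype.ext hd0
    rw [hd] at hd0'
    exact sub_eq_zero.mp hd0'
  -- step 4
  apply Equiv.ext
  intro x
  apply Subtype.ext
  funext j
  have h := eight_mul_apply hf x j
  have hs : f.symm (latEight j) = latEight j := (Equiv.symm_apply_eq f).mpr (step2 j).symm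
  rw [hs] at h
  have h2 : dotInt (x : GolayPt → ℤ) ((latEight j : leechLattice) : GolayPt → ℤ) =
      8 * (x : GolayPt → ℤ) j := dotInt_vecEight _ j
  rw [h2] at h
  show ((f x : leechLattice) : GolayPt → ℤ) j = (x : GolayPt → ℤ) j
  omega

/-- The second Conway group (the stabilizer in the Leech lattice automorphism group of the short vector fixed in the definitions) is isomorphic to a subgroup of the general linear group of degree 23 over the field with 13 elements: there is an injective homomorphism into it. -/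
theorem result : ∃ f : ↥Cfsg.Spor.Co2 →* GL (Fin 23) (ZMod 13), Function.Injective f := by
  have hinj : Function.Injective (NHom.toHomUnits) := by
    rw [injective_iff_map_eq_one]
    intro g hg
    have h1 : NHom g = 1 := by
      have := congrArg Units.val hg
      simpa using this
    have h2 := eq_one_of_N (mem_co2 g.2).1 (mem_co2 g.2).2 h1
    exact Subtype.ext h2
  exact ⟨NHom.toHomUnits, hinj⟩

end Cfsg.Agent.S5546
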