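import Cfsg.Statements.S5551
import Cfsg.Agent.Lib.Helper92.Leech

set_option autoImplicit false
open Cfsg

namespace Cfsg.Agent.S5551

open Cfsg.Agent.Lib.Helper92

theorem sqNorm_two_smul (z : GolayPt → ℤ) : sqNorm (2 • z) = 4 * sqNorm z := by
  unfold sqNorm
  rw [Finset.mul_sum]
  refine Finset.sum_congr rfl (fun i _ => ?_)
  simp only [Pi.smul_apply, smul_eq_mul]
  ring

theorem parallelogram (v w : GolayPt → ℤ) :
    sqNorm (v - w) + sqNorm (v + w) = 2 * sqNorm v + 2 * sqNorm w := by
  unfold sqNorm
  rw [Finset.mul_sum, Finset.mul_sum, ← Finset.sum_add_distrib, ← Finset.sum_add_distrib]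
  refine Finset.sum_congr rfl (fun i _ => ?_)
  simp only [Pi.sub_apply, Pi.add_apply]
  ring

theorem sqNorm_neg (v : GolayPt → ℤ) : sqNorm (-v) = sqNorm v := by
  unfold sqNorm
  refine Finset.sum_congr rfl (fun i _ => ?_)
  simp only [Pi.neg_apply]
  ring


/-- In the Leech lattice of the definitions (integer coordinates, minimal squared length 32), let v and w be non-zero lattice vectors of squared length at most 64 that are congruent modulo twice the lattice. Then they have the same squared length, and if that length is less than 64 then w = v or w = −v. (So a class that contains a non-zero vector of squared length at most 64 has a well-defined type 2, 3 or 4, and a class of type 2 or 3 contains no such vector other than v and −v.) -/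
theorem result (v w : Cfsg.GolayPt → ℤ) (hv : v ∈ Cfsg.leechLattice) (hw : w ∈ Cfsg.leechLattice) (hv0 : v ≠ 0) (hw0 : w ≠ 0) (hvn : Cfsg.sqNorm v ≤ 64) (hwn : Cfsg.sqNorm w ≤ 64) (hc : ∃ z ∈ Cfsg.leechLattice, v - w = 2 • z) : Cfsg.sqNorm v = Cfsg.sqNorm w ∧ (Cfsg.sqNorm v < 64 → w = v ∨ w = -v) := by
  obtain ⟨z, hz, hvw⟩ := hc
  by_cases hz0 : z = 0
  · have : v = w := by
      rw [hz0, smul_zero] at hvw
      exact sub_eq_zero.mp hvw
    subst this
    exact ⟨rfl, fun _ => Or.inl rfl⟩
  by_cases hzw : z + w = 0
  · have : v = -w := by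
      have h1 : v = 2 • z + w := by rw [← hvw]; abel
      have h2 : z = -w := eq_neg_of_add_eq_zero_left hzw
      rw [h1, h2]; simp only [smul_neg, two_smul]; abel
    subst this
    exact ⟨sqNorm_neg w, fun _ => Or.inr (neg_neg w).symm⟩
  · have hzw' : z + w ∈ leechLattice := leechLattice.add_mem hz hw
    have h1 := sqNorm_ge hz hz0
    have h2 := sqNorm_ge hzw' hzw
    have h3 : v + w = 2 • (z + w) := by
      have h1 : v = 2 • z + w := by rw [← hvw]; abel
      rw [h1]; simp only [smul_add, two_smul]; abel
    have h4 := parallelogram v w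
    rw [hvw, h3, sqNorm_two_smul, sqNorm_two_smul] at h4
    constructor
    · linarith
    · intro hlt
      exfalso
      linarith

end Cfsg.Agent.S5551
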