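import Cfsg.Statements.S5553
import Cfsg.Agent.Lib.Helper92.LeechMod2

set_option autoImplicit false
open Cfsg Cfsg.Agent.Lib.Helper92

namespace Cfsg.Agent.S5553

/-- The Leech lattice of the definitions has an additive subgroup A containing twice the lattice, of index 2^12 in the lattice, all of whose vectors have squared length divisible by 32: the invariant quadratic form 'squared length over 16 modulo 2' on the lattice modulo twice the lattice (a 24-dimensional space over the field with two elements) vanishes on a 12-dimensional subspace, so it is of plus type. -/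
theorem result : ∃ A : AddSubgroup (Cfsg.GolayPt → ℤ), A ≤ Cfsg.leechLattice ∧ (∀ v ∈ Cfsg.leechLattice, (2 : ℤ) • v ∈ A) ∧ (A.addSubgroupOf Cfsg.leechLattice).index = 2 ^ 12 ∧ ∀ v ∈ A, (32 : ℤ) ∣ Cfsg.sqNorm v := by
  refine ⟨typeHom.ker.map leechLattice.subtype, AddSubgroup.map_subtype_le _, ?_, ?_, ?_⟩
  · intro v hv
    refine ⟨⟨v, hv⟩ + ⟨v, hv⟩, ?_, ?_⟩
    · show typeHom (⟨v, hv⟩ + ⟨v, hv⟩) = 0
      rw [map_add]
      funext i
      have h2z : (2 : ZMod 2) = 0 := by decide
      simp only [Pi.add_apply, Pi.zero_apply]
      linear_combination (typeHom ⟨v, hv⟩ i) * h2z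
    · show v + v = (2 : ℤ) • v
      rw [two_smul]
  · have : (typeHom.ker.map leechLattice.subtype).addSubgroupOf leechLattice = typeHom.ker :=
      AddSubgroup.comap_map_eq_self_of_injective leechLattice.subtype_injective _
    rw [this]
    exact typeHom_ker_index
  · rintro v ⟨x, hx, rfl⟩
    exact sqNorm_dvd_of_typeWord x.2 hx

end Cfsg.Agent.S5553
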