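import Cfsg.Statements.S5592
import Cfsg.Agent.Lib.Helper92.LeechNorm

set_option autoImplicit false
open Cfsg Cfsg.Agent.Lib.Helper92

namespace Cfsg.Agent.S5592

/-- In the Leech lattice (integer coordinates, sum of squares equal to 8 times the customary norm, so the shortest non-zero vectors have sum of squares 32): if two distinct vectors of sum of squares at most 64 are congruent modulo twice the lattice, then either they are negatives of each other, or both have sum of squares 64 and they are orthogonal. -/
theorem result (x y : Cfsg.GolayPt → ℤ) (hx : x ∈ Cfsg.leechLattice) (hy : y ∈ Cfsg.leechLattice) (hxy : x ≠ y) (hxn : Cfsg.sqNorm x ≤ 64) (hyn : Cfsg.sqNorm y ≤ 64) (hc : (∃ z ∈ Cfsg.leechLattice, x - y = 2 • z)) :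
    x = -y ∨ (Cfsg.sqNorm x = 64 ∧ Cfsg.sqNorm y = 64 ∧ Cfsg.dotInt x y = 0) := by
  obtain ⟨z, hz, hzz⟩ := hc
  by_cases hzy : z + y = 0
  · left
    have : x = 2 • z + y := by rw [← hzz]; abel
    rw [this]
    have hy' : y = -z := (neg_eq_of_add_eq_zero_right hzy).symm
    rw [hy']
    simp only [two_smul]
    abel
  · right
    have hz0 : z ≠ 0 := by
      intro h
      apply hxy
      rw [h] at hzz
      simpa [sub_eq_zero] using hzz
    have h1 := sqNorm_ge hz hz0
    have h2 := sqNorm_ge (leechLattice.add_mem hz hy) hzy
    have e1 : x + y = 2 • (z + y) := by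
      have : x = 2 • z + y := by rw [← hzz]; abel
      rw [this]; simp only [two_smul]; abel
    have a1 := sqNorm_add x y
    have a2 := sqNorm_sub x y
    rw [e1, sqNorm_two_smul'] at a1
    rw [hzz, sqNorm_two_smul'] at a2
    refine ⟨by omega, by omega, by omega⟩

end Cfsg.Agent.S5592
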