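import Cfsg.Statements.S5599
import Cfsg.Agent.Lib.Helper6.M11Facts
import Cfsg.Agent.Lib.Helper7.GolaySimple

set_option autoImplicit false
open scoped Pointwise
open Cfsg

namespace Cfsg.Agent.S5599

open Cfsg.Agent.Lib.Helper6.Golay Cfsg.Agent.Lib.Helper6.M24 Cfsg.Agent.Lib.Helper6.M12
open scoped Pointwise

theorem image_eq_of_swap {c : Equiv.Perm GolayPt} {d : Finset GolayPt} {a b : GolayPt}
    (ha : a ∈ d) (hb : b ∈ d) (hc1 : c a = b) (hc2 : c b = a)
    (hfix : ∀ q, q ≠ a → q ≠ b → c q = q) : d.image c = d := by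
  apply Finset.eq_of_subset_of_card_le
  · intro p hp
    obtain ⟨q, hq, rfl⟩ := Finset.mem_image.1 hp
    by_cases h1 : q = a
    · rw [h1, hc1]; exact hb
    · by_cases h2 : q = b
      · rw [h2, hc2]; exact ha
      · rw [hfix q h1 h2]; exact hq
  · rw [Finset.card_image_of_injective _ c.injective]

/-- no element of `M24` is the transposition of the extra point and the residue `0` -/
theorem no_transposition {c : Equiv.Perm GolayPt} (hcM : c ∈ M24) (hc1 : c none = some 0)
    (hc2 : c (some 0) = none) (hfix : ∀ q : GolayPt, q ≠ none → q ≠ some 0 → c q = q) : False := by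
  have hnone : (none : GolayPt) ∈ suppMask D0 := by
    rw [show (none : GolayPt) = pt 23 from rfl, mem_suppMask, idx_pt (by norm_num)]
    decide +kernel
  have hzero : (some 0 : GolayPt) ∈ suppMask D0 := by
    rw [show (some 0 : GolayPt) = pt 0 from rfl, mem_suppMask, idx_pt (by norm_num)]
    decide +kernel
  have himg := image_eq_of_swap hnone hzero hc1 hc2 hfix
  let x : Fin 5 ↪ GolayPt :=
    Cfsg.Agent.Lib.Helper7.embOfList [pt 1, pt 2, pt 3, pt 4, pt 12] (by decide)
  have hx : ∀ i, x i ∈ suppMask D0 := by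
    intro i
    fin_cases i
    · show pt 1 ∈ suppMask D0
      rw [mem_suppMask, idx_pt (by norm_num)]; decide +kernel
    · show pt 2 ∈ suppMask D0
      rw [mem_suppMask, idx_pt (by norm_num)]; decide +kernel
    · show pt 3 ∈ suppMask D0
      rw [mem_suppMask, idx_pt (by norm_num)]; decide +kernel
    · show pt 4 ∈ suppMask D0
      rw [mem_suppMask, idx_pt (by norm_num)]; decide +kernel
    · show pt 12 ∈ suppMask D0
      rw [mem_suppMask, idx_pt (by norm_num)]; decide +kernel
  have hxfix : ∀ i, c (x i) = x i := by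
    intro i
    apply hfix
    · fin_cases i <;> decide
    · fin_cases i <;> decide
  have h1 := dodecad_rigid hcM D0_mem himg x hx hxfix
  rw [h1] at hc1
  exact absurd hc1 (by decide)

/-- In the automorphism group of the length-24 code, the two-point Mathieu group (permutations of the code's group fixing the extra point and the residue 0) has index 2 in the setwise stabiliser of that pair of points, and an element of the code's group interchanging the two points normalises the two-point group and induces on it, by conjugation, an automorphism that is not inner. -/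
theorem result (g : Equiv.Perm Cfsg.GolayPt) (hg : g ∈ Cfsg.M24) (h₁ : g none = some 0) (h₂ : g (some 0) = none) : Cfsg.Spor.M22.relIndex (Cfsg.M24 ⊓ MulAction.stabilizer (Equiv.Perm Cfsg.GolayPt) ({none, some 0} : Finset Cfsg.GolayPt)) = 2 ∧ (∀ x ∈ Cfsg.Spor.M22, g * x * g⁻¹ ∈ Cfsg.Spor.M22) ∧ ¬ ∃ h ∈ Cfsg.Spor.M22, ∀ x ∈ Cfsg.Spor.M22, g * x * g⁻¹ = h * x * h⁻¹ := by
  refine ⟨?_, ?_, ?_⟩
  · -- index two
    rw [Subgroup.relIndex, Subgroup.index_eq_two_iff]
    have hgK : g ∈ Cfsg.M24 ⊓ MulAction.stabilizer (Equiv.Perm Cfsg.GolayPt)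
        ({none, some 0} : Finset Cfsg.GolayPt) := by
      refine ⟨hg, ?_⟩
      show Finset.image g {none, some 0} = {none, some 0}
      rw [Finset.image_insert, Finset.image_singleton, h₁, h₂, Finset.pair_comm]
    refine ⟨⟨g, hgK⟩, ?_⟩
    rintro ⟨b, hbM, hbS⟩
    have hbS' : Finset.image b {none, some 0} = ({none, some 0} : Finset Cfsg.GolayPt) := hbS
    have hb1 : b none ∈ ({none, some 0} : Finset Cfsg.GolayPt) := by
      rw [← hbS']; exact Finset.mem_image_of_mem _ (by simp)
    have hb2 : b (some 0) ∈ ({none, some 0} : Finset Cfsg.GolayPt) := by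
      rw [← hbS']; exact Finset.mem_image_of_mem _ (by simp)
    have hne : b none ≠ b (some 0) := fun e => absurd (b.injective e) (by decide)
    rw [Finset.mem_insert, Finset.mem_singleton] at hb1 hb2
    simp only [Subgroup.mem_subgroupOf]
    show Xor' (b * g ∈ Cfsg.Spor.M22) (b ∈ Cfsg.Spor.M22)
    have hcases : (b none = none ∧ b (some 0) = some 0) ∨ (b none = some 0 ∧ b (some 0) = none) := by
      rcases hb1 with e1 | e1 <;> rcases hb2 with e2 | e2
      · exact absurd (e1.trans e2.symm) hne
      · exact Or.inl ⟨e1, e2⟩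
      · exact Or.inr ⟨e1, e2⟩
      · exact absurd (e1.trans e2.symm) hne
    rcases hcases with ⟨e1, e2⟩ | ⟨e1, e2⟩
    · refine Or.inr ⟨⟨⟨hbM, e1⟩, e2⟩, ?_⟩
      intro hmem
      have h3 : (b * g) none = none := hmem.1.2
      have h4 : b (g none) = none := h3
      rw [h₁, e2] at h4
      exact absurd h4 (by decide)
    · refine Or.inl ⟨⟨⟨Subgroup.mul_mem _ hbM hg, ?_⟩, ?_⟩, ?_⟩
      · show b (g none) = none
        rw [h₁, e2]
      · show b (g (some 0)) = some 0
        rw [h₂, e1]
      · intro hmem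
        have h3 : b none = none := hmem.1.2
        rw [e1] at h3
        exact absurd h3 (by decide)
  · -- normalises
    intro x hx
    have hi1 : g⁻¹ (none : GolayPt) = some 0 := by rw [Equiv.Perm.inv_eq_iff_eq, h₂]
    have hi2 : g⁻¹ (some 0 : GolayPt) = none := by rw [Equiv.Perm.inv_eq_iff_eq, h₁]
    refine ⟨⟨Subgroup.mul_mem _ (Subgroup.mul_mem _ hg hx.1.1) (Subgroup.inv_mem _ hg), ?_⟩, ?_⟩
    · show g (x (g⁻¹ none)) = none
      have hx2 : x (some 0) = some 0 := hx.2
      rw [hi1, hx2, h₂]
    · show g (x (g⁻¹ (some 0))) = some 0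
      have hx1 : x none = none := hx.1.2
      rw [hi2, hx1, h₁]
  · -- not inner
    rintro ⟨h, hh, hconj⟩
    have hh1 : h none = none := hh.1.2
    have hh2 : h (some 0) = some 0 := hh.2
    have hcM : h⁻¹ * g ∈ M24 := Subgroup.mul_mem _ (Subgroup.inv_mem _ hh.1.1) hg
    have hcomm : ∀ x ∈ Cfsg.Spor.M22, (h⁻¹ * g) * x = x * (h⁻¹ * g) := by
      intro x hx
      have e := hconj x hx
      calc (h⁻¹ * g) * x = h⁻¹ * (g * x * g⁻¹) * g := by group
        _ = h⁻¹ * (h * x * h⁻¹) * g := by rw [e]
        _ = x * (h⁻¹ * g) := by group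
    have hc1 : (h⁻¹ * g) none = some 0 := by
      show h⁻¹ (g none) = some 0
      rw [h₁, Equiv.Perm.inv_eq_iff_eq, hh2]
    have hc2 : (h⁻¹ * g) (some 0) = none := by
      show h⁻¹ (g (some 0)) = none
      rw [h₂, Equiv.Perm.inv_eq_iff_eq, hh1]
    generalize h⁻¹ * g = c at hcM hcomm hc1 hc2
    have hfix : ∀ q : GolayPt, q ≠ none → q ≠ some 0 → c q = q := by
      intro q hq1 hq2
      by_contra hne
      have hr1 : c q ≠ none := fun e => hq2 (c.injective (e.trans hc2.symm))
      have hr2 : c q ≠ some 0 := fun e => hq1 (c.injective (e.trans hc1.symm))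
      obtain ⟨r', hr'⟩ : ∃ r' : GolayPt, r' ∉ ({none, some 0, q, c q} : Finset GolayPt) := by
        by_contra hall
        push_neg at hall
        have hsub : (Finset.univ : Finset GolayPt) ⊆ {none, some 0, q, c q} := fun p _ => hall p
        have h2 := Finset.card_le_card hsub
        rw [Finset.card_univ, card_golayPt] at h2
        have h3 : ({none, some 0, q, c q} : Finset GolayPt).card ≤ 4 := Finset.card_le_four
        omega
      simp only [Finset.mem_insert, Finset.mem_singleton, not_or] at hr'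
      obtain ⟨hr'1, hr'2, hr'3, hr'4⟩ := hr'
      obtain ⟨x, hxM, hx1, hx2, hx3, hx4⟩ := Cfsg.Agent.Lib.Helper7.M24_trans4
        (x1 := none) (x2 := some 0) (x3 := q) (x4 := c q)
        (y1 := none) (y2 := some 0) (y3 := q) (y4 := r')
        (by decide) (Ne.symm hq1) (Ne.symm hr1) (Ne.symm hq2) (Ne.symm hr2) (Ne.symm hne)
        (by decide) (Ne.symm hq1) (Ne.symm hr'1) (Ne.symm hq2) (Ne.symm hr'2) (Ne.symm hr'3)
      have hxM22 : x ∈ Cfsg.Spor.M22 := ⟨⟨hxM, hx1⟩, hx2⟩
      have e := congrArg (fun τ : Equiv.Perm GolayPt => τ q) (hcomm x hxM22)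
      have e1 : c (x q) = x (c q) := e
      rw [hx3, hx4] at e1
      exact hr'4 e1.symm
    exact no_transposition hcM hc1 hc2 hfix

end Cfsg.Agent.S5599
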