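import Cfsg.Statements.S5601
import Cfsg.Agent.Lib.Helper6.M24Fix

set_option autoImplicit false
open scoped Pointwise
open Cfsg

namespace Cfsg.Agent.S5601

open Cfsg.Agent.Lib.Helper6.Golay Cfsg.Agent.Lib.Helper6.M24 Cfsg.Agent.Lib.Helper6.M12
open Cfsg.Agent.Lib.Helper6.Cls
open scoped Pointwise

theorem fixed_zpowers (x : ↥M24) :
    {p : GolayPt | ∀ y ∈ Subgroup.zpowers x, ((y : ↥M24) : Equiv.Perm GolayPt) p = p} =
      ↑(Finset.univ.filter fun p => (x : Equiv.Perm GolayPt) p = p) := by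
  ext p
  simp only [Set.mem_ofPred_eq, Finset.coe_filter, Finset.mem_univ, true_and]
  constructor
  · intro h
    exact h x (Subgroup.mem_zpowers x)
  · intro h y hy
    obtain ⟨n, rfl⟩ := Subgroup.mem_zpowers_iff.1 hy
    rw [Subgroup.coe_zpow]
    exact Equiv.Perm.zpow_apply_eq_self_of_apply_eq_self h n

theorem ncard_fixed_zpowers (x : ↥M24) :
    {p : GolayPt | ∀ y ∈ Subgroup.zpowers x, ((y : ↥M24) : Equiv.Perm GolayPt) p = p}.ncard =
      (Finset.univ.filter fun p => (x : Equiv.Perm GolayPt) p = p).card := by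
  rw [fixed_zpowers, Set.ncard_coe_finset]

theorem exists_gen (X : Subgroup ↥M24) (hX : Nat.card X = 3) :
    ∃ x : ↥M24, orderOf x = 3 ∧ X = Subgroup.zpowers x := by
  have : Fact (Nat.Prime 3) := ⟨by norm_num⟩
  have : IsCyclic X := isCyclic_of_prime_card hX
  obtain ⟨g, hg⟩ := IsCyclic.exists_generator (α := X)
  have hX' : X = Subgroup.zpowers (g : ↥M24) := by
    ext y
    constructor
    · intro hy
      obtain ⟨n, hn⟩ := Subgroup.mem_zpowers_iff.1 (hg ⟨y, hy⟩)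
      rw [Subgroup.mem_zpowers_iff]
      refine ⟨n, ?_⟩
      rw [← Subgroup.coe_zpow, hn]
    · intro hy
      obtain ⟨n, rfl⟩ := Subgroup.mem_zpowers_iff.1 hy
      exact Subgroup.zpow_mem _ g.2 n
  refine ⟨g, ?_, hX'⟩
  rw [← Nat.card_zpowers, ← hX', hX]

theorem conj_smul_zpowers (k x : ↥M24) :
    MulAut.conj k • Subgroup.zpowers x = Subgroup.zpowers (k * x * k⁻¹) := by
  ext y
  rw [Subgroup.mem_pointwise_smul_iff_inv_smul_mem, Subgroup.mem_zpowers_iff,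
    Subgroup.mem_zpowers_iff]
  constructor
  · rintro ⟨n, hn⟩
    refine ⟨n, ?_⟩
    have h1 : y = MulAut.conj k • (x ^ n) := by rw [hn, smul_inv_smul]
    rw [h1, MulAut.smul_def, MulAut.conj_apply, conj_zpow]
  · rintro ⟨n, rfl⟩
    refine ⟨n, ?_⟩
    rw [eq_comm, inv_smul_eq_iff, MulAut.smul_def, MulAut.conj_apply, conj_zpow]

/-- The group of the length-24 code has exactly two conjugacy classes of subgroups of order 3: a subgroup of order 3 fixes either exactly 6 of the 24 points or none of them, both cases occur, and two subgroups of order 3 with the same number of fixed points are conjugate. -/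
theorem result : (∀ X : Subgroup ↥Cfsg.M24, Nat.card X = 3 → {p : Cfsg.GolayPt | ∀ x ∈ X, ((x : ↥Cfsg.M24) : Equiv.Perm Cfsg.GolayPt) p = p}.ncard = 6 ∨ {p : Cfsg.GolayPt | ∀ x ∈ X, ((x : ↥Cfsg.M24) : Equiv.Perm Cfsg.GolayPt) p = p}.ncard = 0) ∧ (∃ X : Subgroup ↥Cfsg.M24, Nat.card X = 3 ∧ {p : Cfsg.GolayPt | ∀ x ∈ X, ((x : ↥Cfsg.M24) : Equiv.Perm Cfsg.GolayPt) p = p}.ncard = 6) ∧ (∃ X : Subgroup ↥Cfsg.M24, Nat.card X = 3 ∧ {p : Cfsg.GolayPt | ∀ x ∈ X, ((x : ↥Cfsg.M24) : Equiv.Perm Cfsg.GolayPt) p = p}.ncard = 0) ∧ ∀ X Y : Subgroup ↥Cfsg.M24, Nat.card X = 3 → Nat.card Y = 3 → {p : Cfsg.GolayPt | ∀ x ∈ X, ((x : ↥Cfsg.M24) : Equiv.Perm Cfsg.GolayPt) p = p}.ncard = {p : Cfsg.GolayPt | ∀ x ∈ Y, ((x : ↥Cfsg.M24) : Equiv.Perm Cfsg.GolayPt) p = p}.ncard → ∃ k : ↥Cfsg.M24, MulAut.conj k • X = Y := by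
  refine ⟨?_, ?_, ?_, ?_⟩
  · intro X hX
    obtain ⟨x, hx3, rfl⟩ := exists_gen X hX
    rw [ncard_fixed_zpowers]
    obtain ⟨k, -, h | h⟩ := ord3_cases x.2 ((Subgroup.orderOf_coe x).trans hx3)
    · exact Or.inl h.1
    · exact Or.inr (card_fixed_of_fpf h.1)
  · refine ⟨Subgroup.zpowers ⟨VA, VA_mem⟩, ?_, ?_⟩
    · rw [Nat.card_zpowers, Subgroup.orderOf_mk, VA_order]
    · rw [ncard_fixed_zpowers]; exact VA_card_fixed
  · refine ⟨Subgroup.zpowers ⟨VB, VB_mem⟩, ?_, ?_⟩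
    · rw [Nat.card_zpowers, Subgroup.orderOf_mk, VB_order]
    · rw [ncard_fixed_zpowers]; exact card_fixed_of_fpf VB_fpf
  · intro X Y hX hY hn
    obtain ⟨x, hx3, rfl⟩ := exists_gen X hX
    obtain ⟨y, hy3, rfl⟩ := exists_gen Y hY
    rw [ncard_fixed_zpowers, ncard_fixed_zpowers] at hn
    obtain ⟨kx, hkx, hx⟩ := ord3_cases x.2 ((Subgroup.orderOf_coe x).trans hx3)
    obtain ⟨ky, hky, hy⟩ := ord3_cases y.2 ((Subgroup.orderOf_coe y).trans hy3)
    have key : ∀ u : Equiv.Perm GolayPt, kx * (x : Equiv.Perm GolayPt) * kx⁻¹ = u →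
        ky * (y : Equiv.Perm GolayPt) * ky⁻¹ = u →
        ∃ k : ↥M24, MulAut.conj k • Subgroup.zpowers x = Subgroup.zpowers y := by
      intro u e1 e2
      refine ⟨⟨ky⁻¹ * kx, Subgroup.mul_mem _ (Subgroup.inv_mem _ hky) hkx⟩, ?_⟩
      rw [conj_smul_zpowers]
      congr 1
      apply Subtype.ext
      show ky⁻¹ * kx * (x : Equiv.Perm GolayPt) * (ky⁻¹ * kx)⁻¹ = (y : Equiv.Perm GolayPt)
      have h1 : ky⁻¹ * kx * (x : Equiv.Perm GolayPt) * (ky⁻¹ * kx)⁻¹ =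
          ky⁻¹ * (kx * (x : Equiv.Perm GolayPt) * kx⁻¹) * ky := by group
      rw [h1, e1, ← e2]; group
    rcases hx with hx | hx <;> rcases hy with hy | hy
    · exact key VA hx.2 hy.2
    · rw [hx.1, card_fixed_of_fpf hy.1] at hn
      exact absurd hn (by norm_num)
    · rw [hy.1, card_fixed_of_fpf hx.1] at hn
      exact absurd hn (by norm_num)
    · exact key VB hx.2 hy.2

end Cfsg.Agent.S5601
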