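import Cfsg.Statements.S5604
import Cfsg.Agent.Lib.Helper6.M24Nrm7

set_option autoImplicit false
open scoped Pointwise
open Cfsg

namespace Cfsg.Agent.S5604

open Cfsg.Agent.Lib.Helper6.Golay Cfsg.Agent.Lib.Helper6.M24 Cfsg.Agent.Lib.Helper6.Cls
  Cfsg.Agent.Lib.Helper6.N7

/-- For a subgroup S of order 7 of the group of the length-24 code (a Sylow 7-subgroup): the normaliser of S has order 126, the centraliser of S has order 42 and is non-abelian, and the whole normaliser leaves some trio invariant. (These are the orders of a Frobenius group of order 21 times a symmetric group of degree 3; the isomorphism type itself is not asserted here.) -/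
theorem result (S : Subgroup ↥Cfsg.M24) (hS : Nat.card S = 7) : Nat.card ↥(Subgroup.normalizer (S : Set ↥Cfsg.M24)) = 126 ∧ Nat.card ↥(Subgroup.centralizer (S : Set ↥Cfsg.M24)) = 42 ∧ (∃ x ∈ Subgroup.centralizer (S : Set ↥Cfsg.M24), ∃ y ∈ Subgroup.centralizer (S : Set ↥Cfsg.M24), x * y ≠ y * x) ∧ ∃ T ∈ Cfsg.trios, ∀ n ∈ Subgroup.normalizer (S : Set ↥Cfsg.M24), ((n : ↥Cfsg.M24) : Equiv.Perm Cfsg.GolayPt) • T = T := by
  have : Fact (Nat.Prime 7) := ⟨by norm_num⟩
  obtain ⟨g, rfl⟩ := exists_conj_gen fac_M24 Ys Ys_order S hS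
  have e : ((g * Ys * g⁻¹ : ↥M24) : Equiv.Perm GolayPt) =
      (g : Equiv.Perm GolayPt) * Y * (g : Equiv.Perm GolayPt)⁻¹ := rfl
  obtain ⟨h1, h2, ⟨a, ha, b, hb, hab⟩, T, hT, hTinv⟩ := nrm_conj_Y g.2
  refine ⟨?_, ?_, ?_, ?_⟩
  · rw [card_normalizer_zpowers, e, h1]
  · rw [card_centralizer_zpowers, e, h2]
  · refine ⟨⟨a, ha.1⟩, (mem_centralizer_zpowers_M24 _ _).2 (by rw [e]; exact ha),
      ⟨b, hb.1⟩, (mem_centralizer_zpowers_M24 _ _).2 (by rw [e]; exact hb), ?_⟩
    intro h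
    exact hab (congrArg Subtype.val h)
  · refine ⟨T, hT, ?_⟩
    intro n hn
    apply hTinv
    rw [← e]
    exact (mem_normalizer_zpowers_M24 _ _).1 hn

end Cfsg.Agent.S5604
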