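import Cfsg.Statements.S5608
import Cfsg.Agent.Lib.Helper6.M24Fix

set_option autoImplicit false
open scoped Pointwise
open Cfsg

namespace Cfsg.Agent.S5608

open Cfsg.Agent.Lib.Helper6.Golay Cfsg.Agent.Lib.Helper6.M24 Cfsg.Agent.Lib.Helper6.M12
open Cfsg.Agent.Lib.Helper6.Cls
open scoped Pointwise

/-- an element of `M24` mapping `0,1,2,3` to `1,0,3,4` -/
def t6 : ℕ := 41665425172779666090460360302243120

theorem t6_mem : inM24c t6 = true := by decide +kernel

theorem t6_vals : evC t6 0 = 1 ∧ evC t6 1 = 0 ∧ evC t6 2 = 3 ∧ evC t6 3 = 4 := by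
  decide +kernel

/-- the action of the product `t * m` -/
def zf (t m j : ℕ) : ℕ := evC t (evC m j)

/-- the product `t * m` is not an element of order dividing six whose cube is fixed-point-free
and whose square fixes the point `0` -/
def chk6 (m : ℕ) : Bool :=
  or (not (chk (fun j => Nat.beq (zf t6 m (zf t6 m (zf t6 m (zf t6 m (zf t6 m (zf t6 m j)))))) j) 24))
    (or (not (chk (fun j => not (Nat.beq (zf t6 m (zf t6 m (zf t6 m j))) j)) 24))
      (not (Nat.beq (zf t6 m (zf t6 m 0)) 0)))

set_option maxRecDepth 100000 in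
theorem check6 : L960c.all chk6 = true := by decide +kernel

/-- no element of order three with a fixed point commutes with a fixed-point-free
involution -/
theorem no_mixed {x s : Equiv.Perm GolayPt} (hx : x ∈ M24) (hs : s ∈ M24) (hx3 : x * (x * x) = 1)
    (hxne : x ≠ 1) (hs2 : s * s = 1) (hc : x * s = s * x) {a : GolayPt} (ha : x a = a)
    (hfpf : ∀ p, s p ≠ p) : False := by
  have hxxx : ∀ q, x (x (x q)) = q := fun q => Equiv.Perm.congr_fun hx3 q
  have hss : ∀ q, s (s q) = q := fun q => Equiv.Perm.congr_fun hs2 q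
  have hxs : ∀ q, x (s q) = s (x q) := fun q => Equiv.Perm.congr_fun hc q
  obtain ⟨c, hcm⟩ := exists_moved hxne
  -- the element z = x * s
  have hz : ∀ q, (x * s) q = x (s q) := fun q => rfl
  have hb : x (s a) = s a := by rw [hxs, ha]
  have hzz : ∀ q, x (s (x (s q))) = x (x q) := fun q => by rw [hxs q, hss]
  have hxxc : x (x c) ≠ c := by
    intro e
    have h1 := hxxx c
    rw [e] at h1
    exact hcm h1
  have hzc_nf : x (x (s c)) ≠ x (s c) := by
    intro e
    apply hcm
    have h1 : x (s c) = s c := x.injective e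
    rw [hxs] at h1
    exact s.injective h1
  have hzzc_nf : x (x (x c)) ≠ x (x c) := fun e => hcm (x.injective (x.injective e))
  have hca : c ≠ a := by rintro rfl; exact hcm ha
  have hcb : c ≠ s a := by rintro rfl; exact hcm hb
  have hzca : x (s c) ≠ a := by
    intro e; rw [e, ha] at hzc_nf; exact hzc_nf rfl
  have hzcb : x (s c) ≠ s a := by
    intro e; rw [e, hb] at hzc_nf; exact hzc_nf rfl
  have hzzca : x (x c) ≠ a := by
    intro e; rw [e, ha] at hzzc_nf; exact hzzc_nf rfl
  have hzzcb : x (x c) ≠ s a := by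
    intro e; rw [e, hb] at hzzc_nf; exact hzzc_nf rfl
  have hczc : c ≠ x (s c) := by
    intro e
    apply hxxc
    have h1 := hzz c
    rw [← e, ← e] at h1
    exact h1.symm
  have hzczzc : x (s c) ≠ x (x c) := by
    intro e
    apply hczc
    have h1 : x (s c) = x (s (x (s c))) := by rw [hzz]; exact e
    exact s.injective (x.injective h1)
  let y : Fin 5 ↪ GolayPt := embL [a, s a, c, x (s c), x (x c)] (by
    simp [Ne.symm (hfpf a), Ne.symm hca, Ne.symm hzca, Ne.symm hzzca, Ne.symm hcb, Ne.symm hzcb,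
      Ne.symm hzzcb, hczc, Ne.symm hxxc, hzczzc])
  obtain ⟨k, hk, hky⟩ := Cfsg.Agent.Lib.Helper7.M24_exists_smul_eq (le_refl 5) y base5
  have k0 : k a = pt 0 := hky 0
  have k1 : k (s a) = pt 1 := hky 1
  have k2 : k c = pt 2 := hky 2
  have k3 : k (x (s c)) = pt 3 := hky 3
  have k4 : k (x (x c)) = pt 4 := hky 4
  obtain ⟨e0, e1, e2, e3⟩ := t6_vals
  have h4 : ∀ i, i < 4 → (k * (x * s) * k⁻¹) (pt i) = pt (evC t6 i) := by
    intro i hi
    interval_cases i
    · rw [e0, ← k0, conj_apply, hz, hb, k1]
    · rw [e1, ← k1, conj_apply, hz, hss, ha, k0]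
    · rw [e2, ← k2, conj_apply, hz, k3]
    · rw [e3, ← k3, conj_apply, hz, hzz, k4]
  have hzM : k * (x * s) * k⁻¹ ∈ M24 :=
    Subgroup.mul_mem _ (Subgroup.mul_mem _ hk (Subgroup.mul_mem _ hx hs)) (Subgroup.inv_mem _ hk)
  obtain ⟨m, hm, hA⟩ := normal4 hzM t6_mem h4
  have hA' : Acts (k * (x * s) * k⁻¹) (zf t6 m) := hA
  have hchk := List.all_eq_true.1 check6 m hm
  unfold chk6 at hchk
  generalize hzdef : k * (x * s) * k⁻¹ = z at hA'
  have hcomm : Commute x s := hc
  have hz2 : x * s * (x * s) = x * x := by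
    calc x * s * (x * s) = x * (s * x) * s := by group
      _ = x * (x * s) * s := by rw [← hc]
      _ = x * x * (s * s) := by group
      _ = x * x := by rw [hs2, mul_one]
  have hz3 : x * s * (x * s * (x * s)) = s := by
    rw [hz2]
    calc x * s * (x * x) = (s * x) * (x * x) := by rw [hc]
      _ = s * (x * (x * x)) := by group
      _ = s := by rw [hx3, mul_one]
  have hz6 : x * s * (x * s * (x * s * (x * s * (x * s * (x * s))))) = 1 := by
    calc x * s * (x * s * (x * s * (x * s * (x * s * (x * s)))))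
        = (x * s * (x * s * (x * s))) * (x * s * (x * s * (x * s))) := by group
      _ = 1 := by rw [hz3, hs2]
  have hconj2 : z * z = k * (x * s * (x * s)) * k⁻¹ := by rw [← hzdef]; group
  have hconj3 : z * (z * z) = k * (x * s * (x * s * (x * s))) * k⁻¹ := by rw [← hzdef]; group
  have hconj6 : z * (z * (z * (z * (z * z)))) =
      k * (x * s * (x * s * (x * s * (x * s * (x * s * (x * s)))))) * k⁻¹ := by
    rw [← hzdef]; group
  rw [Bool.or_eq_true, Bool.or_eq_true] at hchk
  rcases hchk with h | h | h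
  · -- sixth power
    have h6 : chk (fun j => Nat.beq
        (zf t6 m (zf t6 m (zf t6 m (zf t6 m (zf t6 m (zf t6 m j)))))) j) 24 = true := by
      apply chk_of_forall
      intro j hj
      have h1 := (hA'.mul (hA'.mul (hA'.mul (hA'.mul (hA'.mul hA'))))) j hj
      rw [hconj6, hz6] at h1
      have h2 : pt j = pt (zf t6 m (zf t6 m (zf t6 m (zf t6 m (zf t6 m (zf t6 m j)))))) := by
        have h3 := h1.2
        simp only [mul_one, mul_inv_cancel, Equiv.Perm.coe_one, id_eq] at h3
        exact h3
      have e : j = zf t6 m (zf t6 m (zf t6 m (zf t6 m (zf t6 m (zf t6 m j))))) :=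
        pt_injective hj h1.1 h2
      show Nat.beq (zf t6 m (zf t6 m (zf t6 m (zf t6 m (zf t6 m (zf t6 m j)))))) j = true
      rw [← e]
      exact Nat.beq_refl _
    rw [h6] at h
    exact absurd h (by decide)
  · -- the cube is fixed-point-free
    have h3 : chk (fun j => not (Nat.beq (zf t6 m (zf t6 m (zf t6 m j))) j)) 24 = true := by
      apply chk_of_forall
      intro j hj
      have hA3 := hA'.mul (hA'.mul hA')
      have h1 : ¬ (z * (z * z)) (pt j) = pt j := by
        rw [hconj3, hz3]
        intro e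
        have e2 : k (s (k⁻¹ (pt j))) = pt j := e
        exact hfpf (k⁻¹ (pt j)) (Equiv.Perm.eq_inv_iff_eq.2 e2)
      rw [hA3.fixed_iff, idx_pt hj] at h1
      cases hb' : Nat.beq (zf t6 m (zf t6 m (zf t6 m j))) j
      · rfl
      · exact absurd (Nat.eq_of_beq_eq_true hb') h1
    rw [h3] at h
    exact absurd h (by decide)
  · -- the square fixes the point `0`
    have hA2 := hA'.mul hA'
    have h1 : (z * z) (pt 0) = pt 0 := by
      rw [hconj2, hz2, ← k0, conj_apply]
      show k (x (x a)) = k a
      rw [ha, ha]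
    rw [hA2.fixed_iff, idx_pt (by norm_num)] at h1
    have h2 : zf t6 m (zf t6 m 0) = 0 := h1
    rw [h2] at h
    exact absurd h (by decide)

/-- If an element of order 3 and an involution of the group of the length-24 code commute, then either the element of order 3 has exactly 6 fixed points and the involution exactly 8, or both are fixed-point-free. -/
theorem result (x s : Equiv.Perm Cfsg.GolayPt) (hx : x ∈ Cfsg.M24) (hs : s ∈ Cfsg.M24) (h₃ : orderOf x = 3) (h₂ : orderOf s = 2) (hc : Commute x s) : ((Finset.univ.filter fun p => x p = p).card = 6 ∧ (Finset.univ.filter fun p => s p = p).card = 8) ∨ ((Finset.univ.filter fun p => x p = p).card = 0 ∧ (Finset.univ.filter fun p => s p = p).card = 0) := by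
  obtain ⟨x3, xne⟩ := cube_of_order_three h₃
  obtain ⟨s2, sne⟩ := sq_of_order_two h₂
  obtain ⟨kx, -, hx' | hx'⟩ := ord3_cases hx h₃ <;> obtain ⟨ks, -, hs' | hs'⟩ := inv_cases hs h₂
  · exact Or.inl ⟨hx'.1, hs'.1⟩
  · exfalso
    obtain ⟨a, ha⟩ := exists_fixed_of_card_pos (g := x) (by rw [hx'.1]; norm_num)
    exact no_mixed hx hs x3 xne s2 hc.eq ha hs'.1
  · exfalso
    -- `x` acts on the eight fixed points of `s` without fixed points
    have hiff : ∀ p, s (x p) = x p ↔ s p = p := by
      intro p
      have h1 : s (x p) = x (s p) := (Equiv.Perm.congr_fun hc.eq p).symm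
      rw [h1]
      exact x.injective.eq_iff
    have hσ : (x.subtypePerm (p := fun p => s p = p) hiff) ^ 3 ^ 1 = 1 := by
      rw [pow_one, Equiv.Perm.subtypePerm_pow]
      ext p
      have h1 := pow_orderOf_eq_one x
      rw [h₃] at h1
      simp [h1]
    have hcard : ¬ 3 ∣ Fintype.card {p // s p = p} := by
      rw [Fintype.card_subtype, hs'.1]
      norm_num
    have : Fact (Nat.Prime 3) := ⟨by norm_num⟩
    obtain ⟨b, hb⟩ := Equiv.Perm.exists_fixed_point_of_prime hcard hσ
    exact hx'.1 b.1 (congrArg Subtype.val hb)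
  · exact Or.inr ⟨card_fixed_of_fpf hx'.1, card_fixed_of_fpf hs'.1⟩

end Cfsg.Agent.S5608
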