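import Cfsg.Statements.S5609
import Cfsg.Agent.Lib.Helper93.OctadGraph

set_option autoImplicit false
open scoped Pointwise
open Cfsg

namespace Cfsg.Agent.S5609

/-- In the graph on the 759 octads of the length-24 code in which two octads are adjacent when they are disjoint, the graph is connected (of diameter 3) and two distinct octads are at distance 1, 2 or 3 exactly when they meet in 0, 4 or 2 points respectively. -/
theorem result (o o' : Finset Cfsg.GolayPt) (ho : o ∈ Cfsg.octads) (ho' : o' ∈ Cfsg.octads) (hne : o ≠ o') : (Cfsg.blockGraph Cfsg.octads).Connected ∧ ((Cfsg.blockGraph Cfsg.octads).dist ⟨o, ho⟩ ⟨o', ho'⟩ = 1 ↔ (o ∩ o').card = 0) ∧ ((Cfsg.blockGraph Cfsg.octads).dist ⟨o, ho⟩ ⟨o', ho'⟩ = 2 ↔ (o ∩ o').card = 4) ∧ ((Cfsg.blockGraph Cfsg.octads).dist ⟨o, ho⟩ ⟨o', ho'⟩ = 3 ↔ (o ∩ o').card = 2) := by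
  classical
  obtain ⟨hr, h0, h4, h2⟩ := Cfsg.Agent.Lib.Helper93.octad_dist ho ho' hne
  refine ⟨Cfsg.Agent.Lib.Helper93.blockGraph_octads_connected, ⟨fun h => ?_, h0⟩,
    ⟨fun h => ?_, h4⟩, ⟨fun h => ?_, h2⟩⟩
  · rcases Cfsg.Agent.Lib.Helper93.octad_inter ho ho' hne with h' | h' | h'
    · exact h'
    · have := h2 h'; omega
    · have := h4 h'; omega
  · rcases Cfsg.Agent.Lib.Helper93.octad_inter ho ho' hne with h' | h' | h'
    · have := h0 h'; omega
    · have := h2 h'; omega
    · exact h'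
  · rcases Cfsg.Agent.Lib.Helper93.octad_inter ho ho' hne with h' | h' | h'
    · have := h0 h'; omega
    · exact h'
    · have := h4 h'; omega

end Cfsg.Agent.S5609
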