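import Mathlib
import Cfsg.Statements.S5611
import Cfsg.Agent.Lib.Helper26.OrbTabs
import Cfsg.Agent.Lib.Helper7.GolayM24

set_option autoImplicit false
open scoped Pointwise
open Cfsg

namespace Cfsg.Agent.S5611

open Cfsg.Agent.Lib.Helper7 Cfsg.Agent.Lib.Helper26

theorem div_so : ∀ j ∈ Finset.range 3, ∀ I ∈ (Finset.range 3).powerset, j ∈ I →
    (∑ i ∈ I, soN i) ∣ 138240 → I = {j} := by
  decide +kernel

theorem div_st : ∀ j ∈ Finset.range 4, ∀ I ∈ (Finset.range 4).powerset, j ∈ I →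
    (∑ i ∈ I, stN i) ∣ 138240 → I = {j} := by
  decide +kernel

/-- The stabiliser of a sextet in the group of the length-24 code has exactly three orbits on the 759 octads, of sizes 15, 360 and 384, and exactly four orbits on the 3795 trios, of sizes 15, 180, 720 and 2880. -/
theorem result (S : Finset (Finset Cfsg.GolayPt)) (hS : S ∈ Cfsg.sextets) : (∃ X₁ ∈ Cfsg.octads, ∃ X₂ ∈ Cfsg.octads, ∃ X₃ ∈ Cfsg.octads, (MulAction.orbit ↥(MulAction.stabilizer Cfsg.M24 S) X₁).ncard = 15 ∧ (MulAction.orbit ↥(MulAction.stabilizer Cfsg.M24 S) X₂).ncard = 360 ∧ (MulAction.orbit ↥(MulAction.stabilizer Cfsg.M24 S) X₃).ncard = 384 ∧ Cfsg.octads = MulAction.orbit ↥(MulAction.stabilizer Cfsg.M24 S) X₁ ∪ MulAction.orbit ↥(MulAction.stabilizer Cfsg.M24 S) X₂ ∪ MulAction.orbit ↥(MulAction.stabilizer Cfsg.M24 S) X₃) ∧ (∃ Y₁ ∈ Cfsg.trios, ∃ Y₂ ∈ Cfsg.trios, ∃ Y₃ ∈ Cfsg.trios, ∃ Y₄ ∈ Cfsg.trios,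 (MulAction.orbit ↥(MulAction.stabilizer Cfsg.M24 S) Y₁).ncard = 15 ∧ (MulAction.orbit ↥(MulAction.stabilizer Cfsg.M24 S) Y₂).ncard = 180 ∧ (MulAction.orbit ↥(MulAction.stabilizer Cfsg.M24 S) Y₃).ncard = 720 ∧ (MulAction.orbit ↥(MulAction.stabilizer Cfsg.M24 S) Y₄).ncard = 2880 ∧ Cfsg.trios = MulAction.orbit ↥(MulAction.stabilizer Cfsg.M24 S) Y₁ ∪ MulAction.orbit ↥(MulAction.stabilizer Cfsg.M24 S) Y₂ ∪ MulAction.orbit ↥(MulAction.stabilizer Cfsg.M24 S) Y₃ ∪ MulAction.orbit ↥(MulAction.stabilizer Cfsg.M24 S) Y₄) := by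
  obtain ⟨c₀, h₀⟩ := subOrb_sextet hS
  have hsum : ∑ i ∈ Finset.range 4, nSx i = 1771 := by decide
  have hcard : Nat.card (MulAction.stabilizer (↥Cfsg.M24) S) = 138240 := by
    have h1 := h₀.card_stab
    rw [card_M24, hsum] at h1
    omega
  obtain ⟨c₁, h₁⟩ := orbLev_sextet_octads hS
  obtain ⟨c₂, h₂⟩ := orbLev_sextet_trios hS
  refine ⟨?_, ?_⟩
  · obtain ⟨X₁, hX₁, X₂, hX₂, X₃, hX₃, e₁, e₂, e₃, e⟩ := h₁.three (by decide) (by decide)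
      (by decide) (fun j hj I hI hjI hd =>
        div_so j hj I (Finset.mem_powerset.mpr hI) hjI (by rwa [hcard] at hd))
    exact ⟨X₁, hX₁, X₂, hX₂, X₃, hX₃, e₁, e₂, e₃, e⟩
  · obtain ⟨X₁, hX₁, X₂, hX₂, X₃, hX₃, X₄, hX₄, e₁, e₂, e₃, e₄, e⟩ := h₂.four (by decide)
      (by decide) (by decide) (by decide) (fun j hj I hI hjI hd =>
        div_st j hj I (Finset.mem_powerset.mpr hI) hjI (by rwa [hcard] at hd))
    exact ⟨X₁, hX₁, X₂, hX₂, X₃, hX₃, X₄, hX₄, e₁, e₂, e₃, e₄, e⟩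

end Cfsg.Agent.S5611
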