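import Mathlib
import Cfsg.Statements.S5617
import Cfsg.Agent.Lib.Helper26.OrbTabs

set_option autoImplicit false
open scoped Pointwise
open Cfsg

namespace Cfsg.Agent.S5617

open Cfsg.Agent.Lib.Helper7 Cfsg.Agent.Lib.Helper26

theorem div_ds : ∀ j ∈ Finset.range 3, ∀ I ∈ (Finset.range 3).powerset, j ∈ I →
    (∑ i ∈ I, dsN i) ∣ 190080 → I = {j} := by
  decide +kernel

/-- The setwise stabiliser, in the group of the length-24 code, of a complementary pair of dodecads has exactly three orbits on the 1771 sextets, of sizes 396, 495 and 880. -/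
theorem result (d : Finset Cfsg.GolayPt) (hd : d ∈ Cfsg.dodecads) : ∃ X₁ ∈ Cfsg.sextets, ∃ X₂ ∈ Cfsg.sextets, ∃ X₃ ∈ Cfsg.sextets, (MulAction.orbit ↥(MulAction.stabilizer Cfsg.M24 ({d, Finset.univ \ d} : Finset (Finset Cfsg.GolayPt))) X₁).ncard = 396 ∧ (MulAction.orbit ↥(MulAction.stabilizer Cfsg.M24 ({d, Finset.univ \ d} : Finset (Finset Cfsg.GolayPt))) X₂).ncard = 495 ∧ (MulAction.orbit ↥(MulAction.stabilizer Cfsg.M24 ({d, Finset.univ \ d} : Finset (Finset Cfsg.GolayPt))) X₃).ncard = 880 ∧ Cfsg.sextets = MulAction.orbit ↥(MulAction.stabilizer Cfsg.M24 ({d, Finset.univ \ d} : Finset (Finset Cfsg.GolayPt))) X₁ ∪ MulAction.orbit ↥(MulAction.stabilizer Cfsg.M24 ({d, Finset.univ \ d} : Finset (Finset Cfsg.GolayPt))) X₂ ∪ MulAction.orbit ↥(MulAction.stabilizer Cfsg.M24 ({d, Finset.univ \ d} : Finset (Finset Cfsg.GolayPt))) X₃ := by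
  have e : ({d, Finset.univ \ d} : Finset (Finset Cfsg.GolayPt)) = pairOf d := by
    unfold pairOf
    rw [Finset.compl_eq_univ_sdiff]
  rw [e]
  have hcard := card_stab_dodpair hd
  obtain ⟨c₁, h₁⟩ := orbLev_dodpair_sextets hd
  obtain ⟨X₁, hX₁, X₂, hX₂, X₃, hX₃, e₁, e₂, e₃, e⟩ := h₁.three (by decide) (by decide)
    (by decide) (fun j hj I hI hjI hd =>
      div_ds j hj I (Finset.mem_powerset.mpr hI) hjI (by rwa [hcard] at hd))
  exact ⟨X₁, hX₁, X₂, hX₂, X₃, hX₃, e₁, e₂, e₃, e⟩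

end Cfsg.Agent.S5617
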