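import Cfsg.Statements.S5618
import Cfsg.Agent.Lib.Helper6.M12Sub

set_option autoImplicit false
open scoped Pointwise
open Cfsg

namespace Cfsg.Agent.S5618

/-- For a dodecad d of the length-24 code and a hexad C on it (a 6-point intersection of d with an octad): the joint stabiliser of d and C in the code's group is isomorphic to the symmetric group of degree 6, and it acts faithfully both on the six points of C and on the six points of d outside C. -/
theorem result (d : Finset Cfsg.GolayPt) (hd : d ∈ Cfsg.dodecads) (C : Finset Cfsg.GolayPt) (hC : C ∈ Cfsg.hexadsOn d) : Nonempty (↥(MulAction.stabilizer Cfsg.M24 d ⊓ MulAction.stabilizer Cfsg.M24 C) ≃* Equiv.Perm (Fin 6)) ∧ (∀ g ∈ MulAction.stabilizer Cfsg.M24 d ⊓ MulAction.stabilizer Cfsg.M24 C, (∀ p ∈ C, ((g : ↥Cfsg.M24) : Equiv.Perm Cfsg.GolayPt) p = p) → g = 1) ∧ ∀ g ∈ MulAction.stabilizer Cfsg.M24 d ⊓ MulAction.stabilizer Cfsg.M24 C, (∀ p ∈ d \ C, ((g : ↥Cfsg.M24) : Equiv.Perm Cfsg.GolayPt)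 p = p) → g = 1 := by
  have hsub := Cfsg.Agent.Lib.Helper6.M12.hexadsOn_subset hC
  have h6 := Cfsg.Agent.Lib.Helper6.M12.hexadsOn_card hC
  refine ⟨Cfsg.Agent.Lib.Helper6.M12.stab_hexad_equiv hd hC, ?_, ?_⟩
  · intro g hg hfix
    exact Cfsg.Agent.Lib.Helper6.M12.stab_eq_one_of_fix hd hsub (by rw [h6]; norm_num) hg.1 hfix
  · intro g hg hfix
    apply Cfsg.Agent.Lib.Helper6.M12.stab_eq_one_of_fix hd (S := d \ C) Finset.sdiff_subset ?_ hg.1 hfix
    rw [Finset.card_sdiff_of_subset hsub, h6, Cfsg.Agent.Lib.Helper6.M12.card_of_mem_dodecads hd]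
    norm_num

end Cfsg.Agent.S5618
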