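import Cfsg.Statements.S5620
import Cfsg.Agent.Lib.Helper6.M11Facts

set_option autoImplicit false
open scoped Pointwise
open Cfsg

namespace Cfsg.Agent.S5620

open Cfsg.Agent.Lib.Helper6.Golay Cfsg.Agent.Lib.Helper6.M24 Cfsg.Agent.Lib.Helper6.M12
open scoped Pointwise

theorem mem_conj_smul {g x : Equiv.Perm GolayPt} {H : Subgroup (Equiv.Perm GolayPt)} :
    x ∈ MulAut.conj g • H ↔ g⁻¹ * x * g ∈ H := by
  rw [Subgroup.mem_pointwise_smul_iff_inv_smul_mem]
  have : (MulAut.conj g)⁻¹ • x = g⁻¹ * x * g := by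
    rw [← map_inv, MulAut.smul_def, MulAut.conj_apply, inv_inv]
  rw [this]

theorem conj_M11 {g : Equiv.Perm GolayPt} (hg : g ∈ M24)
    (hgd : g • Cfsg.Spor.squareDodecad = Cfsg.Spor.squareDodecadᶜ) (hg0 : g (some 0) = none) :
    MulAut.conj g • Cfsg.Spor.M11 =
      Cfsg.Spor.M12 ⊓ MulAction.stabilizer (Equiv.Perm Cfsg.GolayPt) (none : Cfsg.GolayPt) := by
  ext x
  rw [mem_conj_smul]
  have h1 : g⁻¹ * x * g ∈ M24 ↔ x ∈ M24 := by
    rw [Subgroup.mul_mem_cancel_right _ hg, Subgroup.mul_mem_cancel_left _ (Subgroup.inv_mem _ hg)]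
  have h2 : (g⁻¹ * x * g) • Cfsg.Spor.squareDodecad = Cfsg.Spor.squareDodecad ↔
      x • Cfsg.Spor.squareDodecad = Cfsg.Spor.squareDodecad := by
    rw [mul_smul, mul_smul, hgd, inv_smul_eq_iff, hgd, smul_compl_eq_iff]
  have h3 : (g⁻¹ * x * g) (some 0) = some 0 ↔ x • (none : GolayPt) = none := by
    show g⁻¹ (x (g (some 0))) = some 0 ↔ x none = none
    rw [hg0, Equiv.Perm.inv_eq_iff_eq, hg0]
  show ((g⁻¹ * x * g ∈ M24 ∧ (g⁻¹ * x * g) • Cfsg.Spor.squareDodecad = Cfsg.Spor.squareDodecad) ∧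
      (g⁻¹ * x * g) (some 0) = some 0) ↔
    ((x ∈ M24 ∧ x • Cfsg.Spor.squareDodecad = Cfsg.Spor.squareDodecad) ∧
      x • (none : GolayPt) = none)
  rw [h1, h2, h3]

/-- Inside the stabiliser of the dodecad of squares (a Mathieu group of degree 12), the stabiliser of the residue 0 (a point of the dodecad) and the stabiliser of the extra point (a point outside the dodecad) are isomorphic but not conjugate; conjugation by a suitable element of the code's group that maps the dodecad of squares onto its complement carries the first onto the second. -/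
theorem result : Nonempty (↥(Cfsg.Spor.M12 ⊓ MulAction.stabilizer (Equiv.Perm Cfsg.GolayPt) (none : Cfsg.GolayPt)) ≃* ↥Cfsg.Spor.M11) ∧ (¬ ∃ k ∈ Cfsg.Spor.M12, MulAut.conj k • Cfsg.Spor.M11 = Cfsg.Spor.M12 ⊓ MulAction.stabilizer (Equiv.Perm Cfsg.GolayPt) (none : Cfsg.GolayPt)) ∧ ∃ g ∈ Cfsg.M24, g • Cfsg.Spor.squareDodecad = Finset.univ \ Cfsg.Spor.squareDodecad ∧ MulAut.conj g • Cfsg.Spor.M11 = Cfsg.Spor.M12 ⊓ MulAction.stabilizer (Equiv.Perm Cfsg.GolayPt) (none : Cfsg.GolayPt) := by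
  obtain ⟨g, hg, hgd, hg0⟩ := exists_swap_squareDodecad
  have hconj := conj_M11 hg hgd hg0
  refine ⟨⟨?_⟩, ?_, g, hg, ?_, hconj⟩
  · exact ((Subgroup.equivSMul (MulAut.conj g) Cfsg.Spor.M11).trans
      (MulEquiv.subgroupCongr hconj)).symm
  · rintro ⟨k, hk, hk2⟩
    have hkd : k • Cfsg.Spor.squareDodecad = Cfsg.Spor.squareDodecad := hk.2
    have ha : k⁻¹ (none : GolayPt) ∉ Cfsg.Spor.squareDodecad := by
      intro h
      have h1 := (smul_mem_smul_iff k _ _).2 h
      rw [hkd] at h1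
      have h2 : k (k⁻¹ (none : GolayPt)) = none := by simp
      rw [h2] at h1
      exact none_not_mem_squareDodecad h1
    have hcard : 1 < (Cfsg.Spor.squareDodecadᶜ).card := by
      rw [(compl_mem_dodecads squareDodecad_mem).2]; norm_num
    obtain ⟨b, hb, hba⟩ := Finset.exists_mem_ne hcard (k⁻¹ (none : GolayPt))
    obtain ⟨x, hx, hxab⟩ := sporM11_transitive_compl ha (Finset.mem_compl.1 hb)
    have hmem : k * x * k⁻¹ ∈ MulAut.conj k • Cfsg.Spor.M11 := by
      rw [mem_conj_smul]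
      have : k⁻¹ * (k * x * k⁻¹) * k = x := by group
      rw [this]; exact hx
    rw [hk2] at hmem
    have hfix : (k * x * k⁻¹) (none : GolayPt) = none := hmem.2
    have hfix2 : k (x (k⁻¹ (none : GolayPt))) = none := hfix
    rw [hxab] at hfix2
    apply hba
    rw [← hfix2]; simp
  · rw [hgd, Finset.compl_eq_univ_sdiff]

end Cfsg.Agent.S5620
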