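import Cfsg.Statements.S5622
import Cfsg.Agent.Lib.Helper93.Code24

set_option autoImplicit false
open Cfsg

namespace Cfsg.Agent.S5622

/-- Let C be a self-dual binary code of length 24 with minimum weight at least 8 (a 12-dimensional subspace of the 24-dimensional space over the field with two elements, any two of whose words have dot product zero, with no non-zero word of weight below 8 — an abstract extended binary Golay code). Then the minimum weight of C is exactly 8, and the supports of the words of weight 8 (the octads) form a Steiner system S(5, 8, 24) on the 24 coordinates: every 5 coordinates lie in the support of exactly one word of weight 8. -/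
theorem result (C : Submodule (ZMod 2) (Fin 24 → ZMod 2)) (hdim : Module.finrank (ZMod 2) C = 12) (horth : ∀ v ∈ C, ∀ w ∈ C, ∑ i, v i * w i = 0) (hmin : ∀ w ∈ C, w ≠ 0 → 8 ≤ hammingNorm w) : (∃ w ∈ C, hammingNorm w = 8) ∧ Cfsg.IsSteinerSystem 5 8 (Cfsg.wordsOfWeight (C : Set (Fin 24 → ZMod 2)) 8) := by
  have h := Cfsg.Agent.Lib.Helper93.golayLike_of_code C hdim horth hmin
  have hmemB : ∀ b : Finset (Fin 24), b ∈ Cfsg.wordsOfWeight (C : Set (Fin 24 → ZMod 2)) 8 ↔
      (Cfsg.Agent.Lib.Helper93.ind24 b ∈ C ∧ b.card = 8) := by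
    intro b
    unfold Cfsg.wordsOfWeight Cfsg.supports
    constructor
    · rintro ⟨⟨w, hw, rfl⟩, h8⟩
      exact ⟨by rw [Cfsg.Agent.Lib.Helper93.ind24_supp]; exact hw, h8⟩
    · rintro ⟨hb, h8⟩
      exact ⟨⟨Cfsg.Agent.Lib.Helper93.ind24 b, hb, Cfsg.Agent.Lib.Helper93.supp_ind24 b⟩, h8⟩
  constructor
  · obtain ⟨T, -, hT⟩ := Finset.exists_subset_card_eq (s := (Finset.univ : Finset (Fin 24)))
      (n := 5) (by simp)
    obtain ⟨o, ho, ho8, -⟩ := h.octad_exists T hT
    exact ⟨Cfsg.Agent.Lib.Helper93.ind24 o, ho,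
      by rw [Cfsg.Agent.Lib.Helper93.hammingNorm_ind24]; exact ho8⟩
  · refine ⟨fun b hb => ((hmemB b).1 hb).2, ?_⟩
    intro s hs
    obtain ⟨o, ho, ho8, hTo⟩ := h.octad_exists s hs
    refine ⟨o, ⟨(hmemB o).2 ⟨ho, ho8⟩, hTo⟩, ?_⟩
    rintro o' ⟨ho', hso'⟩
    have h1 := (hmemB o').1 ho'
    exact h.octad_unique s hs o' o h1.1 h1.2 hso' ho ho8 hTo

end Cfsg.Agent.S5622
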