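import Cfsg.Statements.S5623
import Cfsg.Agent.Lib.Helper93.Code24

set_option autoImplicit false
open Cfsg

namespace Cfsg.Agent.S5623

/-- Let C be a self-dual binary code of length 24 with minimum weight at least 8 (a 12-dimensional subspace of the 24-dimensional space over the field with two elements, any two of whose words have dot product zero, with no non-zero word of weight below 8 — an abstract extended binary Golay code). Then every coset w + C of C in the ambient space contains either exactly one word of weight at most 4, which then has weight at most 3, or exactly six words of weight at most 4, all of weight exactly 4 and with pairwise disjoint supports (a sextet). -/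
theorem result (C : Submodule (ZMod 2) (Fin 24 → ZMod 2)) (hdim : Module.finrank (ZMod 2) C = 12) (horth : ∀ v ∈ C, ∀ w ∈ C, ∑ i, v i * w i = 0) (hmin : ∀ w ∈ C, w ≠ 0 → 8 ≤ hammingNorm w) (w : Fin 24 → ZMod 2) : (∃ u : Fin 24 → ZMod 2, {u : Fin 24 → ZMod 2 | u - w ∈ C ∧ hammingNorm u ≤ 4} = {u} ∧ hammingNorm u ≤ 3) ∨ ({u : Fin 24 → ZMod 2 | u - w ∈ C ∧ hammingNorm u ≤ 4}.ncard = 6 ∧ ∀ u ∈ {u : Fin 24 → ZMod 2 | u - w ∈ C ∧ hammingNorm u ≤ 4}, hammingNorm u = 4 ∧ ∀ u' ∈ {u : Fin 24 → ZMod 2 | u - w ∈ C ∧ hammingNorm u ≤ 4}, u ≠ u' → Disjoint (Finset.univ.filter fun i => u i ≠ 0) (Finset.univ.filter fun i => u' i ≠ 0)) := by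
  have h := Cfsg.Agent.Lib.Helper93.golayLike_of_code C hdim horth hmin
  have htr : ∀ u : Fin 24 → ZMod 2, (u - w ∈ C ∧ hammingNorm u ≤ 4) ↔
      (symmDiff (Cfsg.support₂ u) (Cfsg.support₂ w) ∈
        {s | Cfsg.Agent.Lib.Helper93.ind24 s ∈ C} ∧ (Cfsg.support₂ u).card ≤ 4) := by
    intro u
    have h1 : Cfsg.Agent.Lib.Helper93.ind24 (symmDiff (Cfsg.support₂ u) (Cfsg.support₂ w))
        = u - w := by
      rw [Cfsg.Agent.Lib.Helper93.ind24_symmDiff, Cfsg.Agent.Lib.Helper93.ind24_supp,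
        Cfsg.Agent.Lib.Helper93.ind24_supp]
      funext i
      have : ∀ a b : ZMod 2, a + b = a - b := by decide
      exact this _ _
    show _ ↔ (Cfsg.Agent.Lib.Helper93.ind24 (symmDiff (Cfsg.support₂ u) (Cfsg.support₂ w)) ∈ C ∧ _)
    rw [h1, Cfsg.Agent.Lib.Helper93.hammingNorm_eq_supp]
  rcases h.coset_leaders (Cfsg.support₂ w) with ⟨u0, hu0, hu03⟩ | ⟨L, hL6, hLmem, hL⟩
  · left
    refine ⟨Cfsg.Agent.Lib.Helper93.ind24 u0, ?_, ?_⟩
    · ext u
      simp only [Set.mem_ofPred_eq, Set.mem_singleton_iff]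
      rw [htr u, hu0]
      constructor
      · intro h1; rw [← h1, Cfsg.Agent.Lib.Helper93.ind24_supp]
      · intro h1; rw [h1, Cfsg.Agent.Lib.Helper93.supp_ind24]
    · rw [Cfsg.Agent.Lib.Helper93.hammingNorm_ind24]; exact hu03
  · right
    classical
    have hset : {u : Fin 24 → ZMod 2 | u - w ∈ C ∧ hammingNorm u ≤ 4} =
        ((L.image Cfsg.Agent.Lib.Helper93.ind24 : Finset (Fin 24 → ZMod 2)) : Set (Fin 24 → ZMod 2)) := by
      ext u
      simp only [Set.mem_ofPred_eq, Finset.coe_image, Set.mem_image, Finset.mem_coe]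
      rw [htr u, hLmem]
      constructor
      · intro h1; exact ⟨_, h1, Cfsg.Agent.Lib.Helper93.ind24_supp u⟩
      · rintro ⟨x, hx, rfl⟩; rw [Cfsg.Agent.Lib.Helper93.supp_ind24]; exact hx
    have hmem : ∀ u ∈ {u : Fin 24 → ZMod 2 | u - w ∈ C ∧ hammingNorm u ≤ 4},
        Cfsg.support₂ u ∈ L := by
      intro u hu
      exact (hLmem _).1 ((htr u).1 hu)
    refine ⟨?_, ?_⟩
    · rw [hset, Set.ncard_coe_finset,
        Finset.card_image_of_injective _ Cfsg.Agent.Lib.Helper93.ind24_injective, hL6]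
    · intro u hu
      refine ⟨?_, ?_⟩
      · rw [Cfsg.Agent.Lib.Helper93.hammingNorm_eq_supp]; exact (hL _ (hmem u hu)).1
      · intro u' hu' hne
        refine (hL _ (hmem u hu)).2 _ (hmem u' hu') ?_
        intro heq
        apply hne
        have heq' : Cfsg.support₂ u = Cfsg.support₂ u' := heq
        rw [← Cfsg.Agent.Lib.Helper93.ind24_supp u, ← Cfsg.Agent.Lib.Helper93.ind24_supp u', heq']

end Cfsg.Agent.S5623
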