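import Cfsg.Statements.S5624
import Cfsg.Agent.Lib.Helper93.Code24

set_option autoImplicit false
open Cfsg

namespace Cfsg.Agent.S5624

/-- Let C be a self-dual binary code of length 24 with minimum weight at least 8 (a 12-dimensional subspace of the 24-dimensional space over the field with two elements, any two of whose words have dot product zero, with no non-zero word of weight below 8 — an abstract extended binary Golay code). Then C is spanned, as a vector space over the field with two elements, by its words of weight 8. -/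
theorem result (C : Submodule (ZMod 2) (Fin 24 → ZMod 2)) (hdim : Module.finrank (ZMod 2) C = 12) (horth : ∀ v ∈ C, ∀ w ∈ C, ∑ i, v i * w i = 0) (hmin : ∀ w ∈ C, w ≠ 0 → 8 ≤ hammingNorm w) : Submodule.span (ZMod 2) {w : Fin 24 → ZMod 2 | w ∈ C ∧ hammingNorm w = 8} = C := by
  have h := Cfsg.Agent.Lib.Helper93.golayLike_of_code C hdim horth hmin
  apply le_antisymm
  · rw [Submodule.span_le]; intro w hw; exact hw.1
  · intro w hw
    have key : ∀ s ∈ {s | Cfsg.Agent.Lib.Helper93.ind24 s ∈ C},
        Cfsg.Agent.Lib.Helper93.ind24 s ∈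
          Submodule.span (ZMod 2) {w : Fin 24 → ZMod 2 | w ∈ C ∧ hammingNorm w = 8} := by
      apply h.induction (fun s => Cfsg.Agent.Lib.Helper93.ind24 s ∈
          Submodule.span (ZMod 2) {w : Fin 24 → ZMod 2 | w ∈ C ∧ hammingNorm w = 8})
      · rw [Cfsg.Agent.Lib.Helper93.ind24_empty]; exact Submodule.zero_mem _
      · intro s o hs hP ho ho8
        show Cfsg.Agent.Lib.Helper93.ind24 (symmDiff s o) ∈ _
        rw [Cfsg.Agent.Lib.Helper93.ind24_symmDiff]
        exact Submodule.add_mem _ hP (Submodule.subset_span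
          ⟨ho, by rw [Cfsg.Agent.Lib.Helper93.hammingNorm_ind24]; exact ho8⟩)
    have h1 := key (Cfsg.support₂ w) (by
      show Cfsg.Agent.Lib.Helper93.ind24 (Cfsg.support₂ w) ∈ C
      rw [Cfsg.Agent.Lib.Helper93.ind24_supp]; exact hw)
    rwa [Cfsg.Agent.Lib.Helper93.ind24_supp] at h1

end Cfsg.Agent.S5624
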