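import Cfsg.Statements.S5625
import Cfsg.Agent.Lib.Helper93.Steiner

set_option autoImplicit false
open Cfsg

namespace Cfsg.Agent.S5625

/-- In any Steiner system S(5, 8, 24) and for any set Y of three points, the blocks meeting Y in exactly 3, 2, 1 and 0 points number 21, 168, 360 and 210 respectively (so there are 759 blocks in all). -/
theorem result (α : Type*) [Fintype α] [DecidableEq α] (hα : Fintype.card α = 24) (B : Set (Finset α)) (hB : Cfsg.IsSteinerSystem 5 8 B) (Y : Finset α) (hY : Y.card = 3) : {b : Finset α | b ∈ B ∧ (b ∩ Y).card = 3}.ncard = 21 ∧ {b : Finset α | b ∈ B ∧ (b ∩ Y).card = 2}.ncard = 168 ∧ {b : Finset α | b ∈ B ∧ (b ∩ Y).card = 1}.ncard = 360 ∧ {b : Finset α | b ∈ B ∧ (b ∩ Y).card = 0}.ncard = 210 := by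
  classical
  set Bf : Finset (Finset α) := Finset.univ.filter (· ∈ B) with hBfdef
  have hBf : ∀ b, b ∈ Bf ↔ b ∈ B := by intro b; simp [hBfdef]
  have hlam : ∀ W : Finset α,
      (W.card = 0 → (Bf.filter (fun b => W ⊆ b)).card = 759) ∧
      (W.card = 1 → (Bf.filter (fun b => W ⊆ b)).card = 253) ∧
      (W.card = 2 → (Bf.filter (fun b => W ⊆ b)).card = 77) ∧
      (W.card = 3 → (Bf.filter (fun b => W ⊆ b)).card = 21) := by
    intro W
    have h := Cfsg.Agent.Lib.Helper93.steiner_lambda hB Bf hBf W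
    rw [hα] at h
    refine ⟨fun h0 => ?_, fun h1 => ?_, fun h2 => ?_, fun h3 => ?_⟩
    · have h' := h (by omega)
      rw [h0] at h'
      norm_num [Nat.choose] at h'
      omega
    · have h' := h (by omega)
      rw [h1] at h'
      norm_num [Nat.choose] at h'
      omega
    · have h' := h (by omega)
      rw [h2] at h'
      norm_num [Nat.choose] at h'
      omega
    · have h' := h (by omega)
      rw [h3] at h'
      norm_num [Nat.choose] at h'
      omega
  have heq : ∀ j, ∑ i ∈ Finset.range 4, (Bf.filter (fun b => (b ∩ Y).card = i)).card * i.choose j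
      = ∑ W ∈ Finset.powersetCard j Y, (Bf.filter (fun b => W ⊆ b)).card := by
    intro j
    rw [← Cfsg.Agent.Lib.Helper93.sum_choose_inter,
      Cfsg.Agent.Lib.Helper93.sum_by_inter_card Bf Y (fun i => i.choose j), hY]
  have e0 := heq 0
  have e1 := heq 1
  have e2 := heq 2
  have e3 := heq 3
  rw [Finset.sum_congr rfl (fun W hW => (hlam W).1 (Finset.mem_powersetCard.mp hW).2)] at e0
  rw [Finset.sum_congr rfl (fun W hW => (hlam W).2.1 (Finset.mem_powersetCard.mp hW).2)] at e1
  rw [Finset.sum_congr rfl (fun W hW => (hlam W).2.2.1 (Finset.mem_powersetCard.mp hW).2)] at e2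
  rw [Finset.sum_congr rfl (fun W hW => (hlam W).2.2.2 (Finset.mem_powersetCard.mp hW).2)] at e3
  simp only [Finset.sum_range_succ, Finset.sum_range_zero, Finset.sum_const, Finset.card_powersetCard,
    hY, smul_eq_mul] at e0 e1 e2 e3
  have hset : ∀ i, {b : Finset α | b ∈ B ∧ (b ∩ Y).card = i}.ncard
      = (Bf.filter (fun b => (b ∩ Y).card = i)).card := by
    intro i
    rw [← Set.ncard_coe_finset]
    congr 1
    ext b
    simp [hBf]
  rw [hset 3, hset 2, hset 1, hset 0]
  generalize (Bf.filter (fun b => (b ∩ Y).card = 0)).card = n0 at e0 e1 e2 e3 ⊢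
  generalize (Bf.filter (fun b => (b ∩ Y).card = 1)).card = n1 at e0 e1 e2 e3 ⊢
  generalize (Bf.filter (fun b => (b ∩ Y).card = 2)).card = n2 at e0 e1 e2 e3 ⊢
  generalize (Bf.filter (fun b => (b ∩ Y).card = 3)).card = n3 at e0 e1 e2 e3 ⊢
  norm_num [Nat.choose] at e0 e1 e2 e3
  omega

end Cfsg.Agent.S5625
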