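import Cfsg.Statements.S5632
import Cfsg.Agent.Lib.Helper93.Transv

set_option autoImplicit false
open Cfsg

namespace Cfsg.Agent.S5632

/-- For a finite field F and subspaces 0 < W < U of F^n with dim W + dim U = n, the elements of SL_n(F) stabilising both W and U form a subgroup that is not maximal in SL_n(F): some subgroup lies strictly between it and SL_n(F). -/
theorem result {F : Type*} [Field F] [Fintype F] (n : ℕ) (W U : Submodule F (Fin n → F)) (hW0 : W ≠ ⊥) (hWU : W < U) (hdim : Module.finrank F W + Module.finrank F U = n) : ∃ K : Subgroup (Matrix.GeneralLinearGroup (Fin n) F), Cfsg.Geo.subspaceStabilizer W ⊓ Cfsg.Geo.subspaceStabilizer U ⊓ Cfsg.Geo.specialLinear (Fin n) F < K ∧ K < Cfsg.Geo.specialLinear (Fin n) F := by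
  have hU1 : U ≠ ⊤ := by
    rintro rfl
    rw [finrank_top, Module.finrank_fintype_fun_eq_card, Fintype.card_fin] at hdim
    have h0 : Module.finrank F W = 0 := by omega
    exact hW0 (Submodule.finrank_eq_zero.mp h0)
  have hW1 : W ≠ ⊤ := by
    rintro rfl
    exact hU1 (top_unique hWU.le)
  refine ⟨Cfsg.Geo.subspaceStabilizer W ⊓ Cfsg.Geo.specialLinear (Fin n) F, ?_, ?_⟩
  · refine lt_of_le_of_ne (fun g hg => ⟨hg.1.1, hg.2⟩) ?_
    intro heq
    obtain ⟨u, huU, huW⟩ := SetLike.exists_of_lt hWU
    obtain ⟨v, hv⟩ : ∃ v, v ∉ U := by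
      by_contra hcon
      push Not at hcon
      exact hU1 (eq_top_iff.mpr fun x _ => hcon x)
    have hu : u ∉ W ⊔ Submodule.span F {v} := by
      intro hmem
      obtain ⟨w, hw, y, hy, rfl⟩ := Submodule.mem_sup.mp hmem
      obtain ⟨c, rfl⟩ := Submodule.mem_span_singleton.mp hy
      by_cases hc : c = 0
      · subst hc; apply huW; simpa using hw
      · apply hv
        have h1 : c • v ∈ U := by
          have := U.sub_mem huU (hWU.le hw)
          simpa using this
        have := U.smul_mem c⁻¹ h1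
        rwa [smul_smul, inv_mul_cancel₀ hc, one_smul] at this
    obtain ⟨f, hfu, hf⟩ := Submodule.exists_le_ker_of_notMem hu
    have hfv0 : f v = 0 := hf (Submodule.mem_sup_right (Submodule.mem_span_singleton_self v))
    obtain ⟨g, hgSL, hg⟩ := Cfsg.Agent.Lib.Helper93.exists_transvection_GL f v hfv0
    have hgW : g ∈ Cfsg.Geo.subspaceStabilizer W :=
      Cfsg.Agent.Lib.Helper93.transvection_mem_stab W f v hfv0 (le_trans le_sup_left hf) g hg
    have hmem : g ∈ Cfsg.Geo.subspaceStabilizer W ⊓ Cfsg.Geo.subspaceStabilizer U ⊓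
        Cfsg.Geo.specialLinear (Fin n) F := by
      rw [heq]; exact ⟨hgW, hgSL⟩
    have hgU : g ∈ Cfsg.Geo.subspaceStabilizer U := hmem.1.2
    rw [Cfsg.Agent.Lib.Helper93.mem_subspaceStabilizer_iff] at hgU
    have h1 := (hgU u).mp huU
    rw [hg] at h1
    have h2 : f u • v ∈ U := by
      have := U.sub_mem h1 huU
      simpa using this
    apply hv
    have := U.smul_mem (f u)⁻¹ h2
    rwa [smul_smul, inv_mul_cancel₀ hfu, one_smul] at this
  · refine lt_of_le_of_ne inf_le_right ?_
    intro heq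
    obtain ⟨g, hgSL, hg⟩ := Cfsg.Agent.Lib.Helper93.exists_sl_not_stab W hW0 hW1
    rw [← heq] at hgSL
    exact hg hgSL.1

end Cfsg.Agent.S5632
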