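import Cfsg.Statements.S5633
import Cfsg.Agent.Lib.Helper93.Transv

set_option autoImplicit false
open Cfsg

namespace Cfsg.Agent.S5633

/-- For a finite field F and complementary non-zero subspaces W ⊕ U = F^n with dim W < dim U, the elements of SL_n(F) stabilising both W and U form a subgroup that is not maximal in SL_n(F): some subgroup lies strictly between it and SL_n(F). -/
theorem result {F : Type*} [Field F] [Fintype F] (n : ℕ) (W U : Submodule F (Fin n → F)) (hW0 : W ≠ ⊥) (hWU : W ⊓ U = ⊥) (hWU' : W ⊔ U = ⊤) (hdim : Module.finrank F W < Module.finrank F U) : ∃ K : Subgroup (Matrix.GeneralLinearGroup (Fin n) F), Cfsg.Geo.subspaceStabilizer W ⊓ Cfsg.Geo.subspaceStabilizer U ⊓ Cfsg.Geo.specialLinear (Fin n) F < K ∧ K < Cfsg.Geo.specialLinear (Fin n) F := by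
  have hW1 : W ≠ ⊤ := by
    rintro rfl
    rw [top_inf_eq] at hWU
    subst hWU
    simp at hdim
  have hU0 : U ≠ ⊥ := by
    rintro rfl
    simp at hdim
  refine ⟨Cfsg.Geo.subspaceStabilizer W ⊓ Cfsg.Geo.specialLinear (Fin n) F, ?_, ?_⟩
  · refine lt_of_le_of_ne (fun g hg => ⟨hg.1.1, hg.2⟩) ?_
    intro heq
    obtain ⟨u, huU, hu0⟩ := (Submodule.ne_bot_iff U).mp hU0
    obtain ⟨w, hwW, hw0⟩ := (Submodule.ne_bot_iff W).mp hW0
    have huW : u ∉ W := by
      intro h
      have : u ∈ W ⊓ U := ⟨h, huU⟩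
      rw [hWU] at this
      exact hu0 ((Submodule.mem_bot F).mp this)
    obtain ⟨f, hfu, hf⟩ := Submodule.exists_le_ker_of_notMem huW
    have hfw0 : f w = 0 := hf hwW
    obtain ⟨g, hgSL, hg⟩ := Cfsg.Agent.Lib.Helper93.exists_transvection_GL f w hfw0
    have hgW : g ∈ Cfsg.Geo.subspaceStabilizer W :=
      Cfsg.Agent.Lib.Helper93.transvection_mem_stab W f w hfw0 hf g hg
    have hmem : g ∈ Cfsg.Geo.subspaceStabilizer W ⊓ Cfsg.Geo.subspaceStabilizer U ⊓
        Cfsg.Geo.specialLinear (Fin n) F := by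
      rw [heq]; exact ⟨hgW, hgSL⟩
    have hgU : g ∈ Cfsg.Geo.subspaceStabilizer U := hmem.1.2
    rw [Cfsg.Agent.Lib.Helper93.mem_subspaceStabilizer_iff] at hgU
    have h1 := (hgU u).mp huU
    rw [hg] at h1
    have h2 : f u • w ∈ U := by
      have := U.sub_mem h1 huU
      simpa using this
    have h3 : w ∈ U := by
      have := U.smul_mem (f u)⁻¹ h2
      rwa [smul_smul, inv_mul_cancel₀ hfu, one_smul] at this
    have : w ∈ W ⊓ U := ⟨hwW, h3⟩
    rw [hWU] at this
    exact hw0 ((Submodule.mem_bot F).mp this)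
  · refine lt_of_le_of_ne inf_le_right ?_
    intro heq
    obtain ⟨g, hgSL, hg⟩ := Cfsg.Agent.Lib.Helper93.exists_sl_not_stab W hW0 hW1
    rw [← heq] at hgSL
    exact hg hgSL.1

end Cfsg.Agent.S5633
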