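import Cfsg.Statements.S5638
import Cfsg.Agent.Lib.Helper93.TensorF2

set_option autoImplicit false
open Cfsg

namespace Cfsg.Agent.S5638

/-- Over the field with 2 elements, for n = 2 n₂ ≥ 13, the stabiliser in SL_n of a tensor decomposition with factors of dimensions 2 and n₂ (the conjugate by any P of the Kronecker-product subgroup transported along any bijection Fin n ≃ Fin 2 × Fin n₂, intersected with SL_n) is not a maximal subgroup: some subgroup lies strictly between it and SL_n. -/
theorem result {F : Type*} [Field F] [Fintype F] (n : ℕ) (hn : 13 ≤ n) (hq : Fintype.card F = 2) (n₂ : ℕ) (e : Fin n ≃ Fin 2 × Fin n₂) (P : Matrix.GeneralLinearGroup (Fin n) F) : ∃ K : Subgroup (Matrix.GeneralLinearGroup (Fin n) F), Cfsg.Geo.tensorProductSubgroup 2 n₂ e P ⊓ Cfsg.Geo.specialLinear (Fin n) F < K ∧ K < Cfsg.Geo.specialLinear (Fin n) F := by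
  have hSL : Cfsg.Geo.specialLinear (Fin n) F = ⊤ := by
    rw [eq_top_iff]
    intro g _
    unfold Cfsg.Geo.specialLinear
    rw [MonoidHom.mem_ker]
    have : Subsingleton Fˣ := by
      classical
      rw [← Fintype.card_le_one_iff_subsingleton, Fintype.card_units, hq]
    exact Subsingleton.elim _ _
  have hn2 : n = 2 * n₂ := by
    have := Fintype.card_congr e
    simpa using this
  have h2 : 2 ≤ n₂ := by omega
  let k : Fin n₂ := ⟨0, by omega⟩
  let l : Fin n₂ := ⟨1, by omega⟩
  have hkl : k ≠ l := by simp [k, l, Fin.ext_iff]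
  let φe : Matrix.GeneralLinearGroup (Fin 2 × Fin n₂) F ≃* Matrix.GeneralLinearGroup (Fin n) F :=
    (Cfsg.Geo.glReindex e.symm).trans (MulAut.conj P)
  have hT : Cfsg.Geo.tensorProductSubgroup 2 n₂ e P =
      (Cfsg.Geo.kroneckerSubgroup 2 n₂ F).map φe.toMonoidHom := by
    unfold Cfsg.Geo.tensorProductSubgroup
    rw [Subgroup.map_map]
    rfl
  refine ⟨(Cfsg.Agent.Lib.Helper93.extCent (Cfsg.Agent.Lib.Helper93.OmegaG F n₂)).map
    φe.toMonoidHom, ?_, ?_⟩
  · rw [hSL, inf_top_eq, hT, Subgroup.map_lt_map_iff_of_injective φe.injective]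
    exact lt_of_le_of_ne (Cfsg.Agent.Lib.Helper93.kron_le_extCent hq n₂)
      (fun heq => Cfsg.Agent.Lib.Helper93.cElt_not_mem F k l hkl
        (heq ▸ Cfsg.Agent.Lib.Helper93.cElt_mem F k l hkl))
  · rw [hSL, ← Subgroup.map_top_of_surjective φe.toMonoidHom φe.surjective,
      Subgroup.map_lt_map_iff_of_injective φe.injective, lt_top_iff_ne_top]
    intro heq
    exact Cfsg.Agent.Lib.Helper93.tElt_not_mem F k l hkl (heq ▸ Subgroup.mem_top _)

end Cfsg.Agent.S5638
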