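import Cfsg.Statements.S5667
import Cfsg.Agent.Lib.Helper99.TensorSp3

set_option autoImplicit false
open Cfsg

namespace Cfsg.Agent.S5667

open Matrix
open scoped Kronecker
open Cfsg.Agent.Lib.Helper99

/-- Over the field with 3 elements and for m ≥ 7, suppose the standard alternating form on F^(2m) is similar, through P and e, to the tensor product of a non-degenerate symplectic form f₁ on F^(n₁) and a non-degenerate symmetric bilinear form f₂ on F^3. Then the elements of Sp_2m(3) in the stabiliser of this tensor decomposition form a subgroup that is not maximal: some subgroup lies strictly between it and Sp_2m(3). -/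
theorem result {F : Type*} [Field F] [Fintype F] (m : ℕ) (hm : 7 ≤ m) (hq : Fintype.card F = 3) (n₁ : ℕ) (e : (Fin m ⊕ Fin m) ≃ Fin n₁ × Fin 3) (P : Matrix.GeneralLinearGroup (Fin m ⊕ Fin m) F) (f₁ : (Fin n₁ → F) → (Fin n₁ → F) → F) (f₂ : (Fin 3 → F) → (Fin 3 → F) → F) (hf₁ : Cfsg.Geo.IsSymplecticForm f₁) (hf₂ : Cfsg.Geo.IsSymmetricForm f₂) (hT : Cfsg.Geo.IsTensorFormStructure id (Cfsg.sympForm m F) f₁ f₂ e P) : ∃ K : Subgroup (Matrix.GeneralLinearGroup (Fin m ⊕ Fin m) F), Cfsg.Geo.tensorProductSubgroup n₁ 3 e P ⊓ Cfsg.spGL m F < K ∧ K < Cfsg.spGL m F := by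
  classical
  obtain ⟨c, hc, hT⟩ := hT
  have hb₁ := hf₁.bilinear
  have hb₂ := hf₂.bilinear
  have hid : (id : F → F) = ⇑(RingHom.id F) := rfl
  set G₁ := Cfsg.Geo.gramMatrix f₁ with hG₁
  set G₂ := Cfsg.Geo.gramMatrix f₂ with hG₂
  -- an orthogonal frame of constant norm for the symmetric factor
  obtain ⟨u, d, hd, hu⟩ := f3_frame hq hf₂
  set U : Matrix (Fin 3) (Fin 3) F := fun a j => u j a with hU
  have hUcol : ∀ j, U *ᵥ Pi.single j 1 = u j := by
    intro j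
    rw [Matrix.mulVec_single_one]
    rfl
  have hmapU : U.map (RingHom.id F) = U := by
    ext i j
    simp
  have hUG : Uᵀ * G₂ * U = d • (1 : Matrix (Fin 3) (Fin 3) F) := by
    ext i j
    have h1 := hu i j
    rw [form_eq_fog hb₂, ← hUcol i, ← hUcol j, hid, fog_map, fog_single_single, hmapU] at h1
    rw [Matrix.smul_apply, Matrix.one_apply, smul_eq_mul, mul_ite, mul_one, mul_zero, ← h1]
  have hdetU : U.det ≠ 0 := by
    intro h0
    have h1 := congrArg Matrix.det hUG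
    rw [Matrix.det_mul, Matrix.det_mul, h0, mul_zero, Matrix.det_smul, Matrix.det_one,
      mul_one] at h1
    exact pow_ne_zero _ hd h1.symm
  set Ugl := Matrix.GeneralLinearGroup.mkOfDetNeZero U hdetU with hUgl
  have hUglv : (Ugl : Matrix (Fin 3) (Fin 3) F) = U := rfl
  set k₀ := kronGL (1 : Matrix.GeneralLinearGroup (Fin n₁) F) Ugl with hk₀
  -- a non-zero off-diagonal entry of the Gram matrix of the symplectic factor
  have i₀ : Fin n₁ := (e (Sum.inl ⟨0, by omega⟩)).1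
  have hne : (Pi.single i₀ (1 : F) : Fin n₁ → F) ≠ 0 := by
    intro h
    have := congrFun h i₀
    simp at this
  obtain ⟨x, hx⟩ := (hf₁.nondegenerate _ hne).1
  rw [form_eq_fog hb₁, hid, fog_single_right] at hx
  obtain ⟨a₀, -, ha₀⟩ := Finset.exists_ne_zero_of_sum_ne_zero hx
  have hGab : G₁ a₀ i₀ ≠ 0 := right_ne_zero_of_mul ha₀
  have hab : a₀ ≠ i₀ := by
    rintro rfl
    exact hGab (hf₁.alternating _)
  apply notMax_transport (tnPhi' e P k₀) _ _ (Cfsg.Geo.kroneckerSubgroup n₁ 3 F)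
    (tensorProductSubgroup_eq_map' e P (kronGL_mem 1 Ugl))
  apply sp3_main hq (tnPhi' e P k₀) (tnT' e P k₀) (tnT'_add e P k₀) (tnT'_smul e P k₀)
    (tnT'_injective e P k₀) (tnPhi'_mulVec e P k₀) G₁ (c * d) (mul_ne_zero hc hd) ?_ a₀ i₀ hab hGab
  intro x y
  have h1 := hT ((k₀ : Matrix (Fin n₁ × Fin 3) (Fin n₁ × Fin 3) F) *ᵥ x)
    ((k₀ : Matrix (Fin n₁ × Fin 3) (Fin n₁ × Fin 3) F) *ᵥ y)
  change Cfsg.sympForm m F (tnT' e P k₀ x) (tnT' e P k₀ y) = _ at h1
  rw [h1, hid, fog_map]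
  have hk₀v : (k₀ : Matrix (Fin n₁ × Fin 3) (Fin n₁ × Fin 3) F) =
      (1 : Matrix (Fin n₁) (Fin n₁) F) ⊗ₖ U := by
    rw [hk₀, kronGL_val, hUglv]
    simp
  have hmap : (k₀ : Matrix (Fin n₁ × Fin 3) (Fin n₁ × Fin 3) F).map (RingHom.id F) =
      (k₀ : Matrix (Fin n₁ × Fin 3) (Fin n₁ × Fin 3) F) := by
    ext i j
    simp
  have h2 : (k₀ : Matrix (Fin n₁ × Fin 3) (Fin n₁ × Fin 3) F)ᵀ * (G₁ ⊗ₖ G₂) *
      (k₀ : Matrix (Fin n₁ × Fin 3) (Fin n₁ × Fin 3) F).map (RingHom.id F) =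
        d • (G₁ ⊗ₖ (1 : Matrix (Fin 3) (Fin 3) F)) := by
    rw [hmap, hk₀v, ← Matrix.kroneckerMap_transpose, ← Matrix.mul_kronecker_mul,
      ← Matrix.mul_kronecker_mul, Matrix.transpose_one, Matrix.one_mul, Matrix.mul_one, hUG,
      Matrix.kronecker_smul]
  rw [h2, fog_smul_mat]
  ring

end Cfsg.Agent.S5667
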