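import Cfsg.Statements.S5671
import Cfsg.Agent.Lib.Helper99.TensorSu4

set_option autoImplicit false
open Cfsg

namespace Cfsg.Agent.S5671

open Matrix
open scoped Kronecker
open Cfsg.Agent.Lib.Helper99

/-- Let F be the field with 4 elements (q = 2) and n = 2 n₂ ≥ 13. Suppose the standard unitary form Σ u_i v_i² on F^n is similar, through P and e, to the tensor product of non-degenerate unitary forms f₁ on F^2 and f₂ on F^(n₂). Then the elements of SU_n(2) in the stabiliser of this tensor decomposition form a subgroup that is not maximal: some subgroup lies strictly between it and SU_n(2). -/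
theorem result {F : Type*} [Field F] [Fintype F] (n : ℕ) (hF : Fintype.card F = 4) (hn : 13 ≤ n) (n₂ : ℕ) (e : Fin n ≃ Fin 2 × Fin n₂) (P : Matrix.GeneralLinearGroup (Fin n) F) (f₁ : (Fin 2 → F) → (Fin 2 → F) → F) (f₂ : (Fin n₂ → F) → (Fin n₂ → F) → F) (hf₁ : Cfsg.Geo.IsUnitaryFormPow 2 f₁) (hf₂ : Cfsg.Geo.IsUnitaryFormPow 2 f₂) (hT : Cfsg.Geo.IsTensorFormStructure (fun x : F => x ^ 2) (Cfsg.hermForm n F 2) f₁ f₂ e P) : ∃ K : Subgroup (Matrix.GeneralLinearGroup (Fin n) F), Cfsg.Geo.tensorProductSubgroup 2 n₂ e P ⊓ (Cfsg.GU n F 2 ⊓ Cfsg.Geo.specialLinear (Fin n) F) < K ∧ K < (Cfsg.GU n F 2 ⊓ Cfsg.Geo.specialLinear (Fin n) F) := by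
  classical
  have h2 := Cfsg.Agent.Lib.Helper94.two_eq_zero_of_card_four hF
  obtain ⟨c, hc, hT⟩ := hT
  obtain ⟨σ, hσ⟩ : ∃ σ : F →+* F, σ = sqHom h2 := ⟨_, rfl⟩
  have hσc : (fun x : F => x ^ 2) = ⇑σ := by rw [hσ]; rfl
  set G₁ := Cfsg.Geo.gramMatrix f₁ with hG₁
  set G₂ := Cfsg.Geo.gramMatrix f₂ with hG₂
  -- an orthonormal frame for the two-dimensional factor
  obtain ⟨u, hu⟩ := f4_frame hF hf₁
  set U : Matrix (Fin 2) (Fin 2) F := fun a j => u j a with hU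
  have hUcol : ∀ j, U *ᵥ Pi.single j 1 = u j := by
    intro j
    rw [Matrix.mulVec_single_one]
    rfl
  have hUG : Uᵀ * G₁ * U.map σ = 1 := by
    ext i j
    have h1 := hu i j
    rw [uf_eq_fog h2 hf₁, ← hUcol i, ← hUcol j, hσc, fog_map, fog_single_single] at h1
    rw [Matrix.one_apply, ← h1]
  have hdetU : U.det ≠ 0 := by
    intro h0
    have h1 := congrArg Matrix.det hUG
    rw [Matrix.det_mul, Matrix.det_mul, Matrix.det_transpose, h0, zero_mul, zero_mul,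
      Matrix.det_one] at h1
    exact zero_ne_one h1
  set Ugl := Matrix.GeneralLinearGroup.mkOfDetNeZero U hdetU with hUgl
  have hUglv : (Ugl : Matrix (Fin 2) (Fin 2) F) = U := rfl
  set k₀ := kronGL Ugl (1 : Matrix.GeneralLinearGroup (Fin n₂) F) with hk₀
  -- an isotropic vector of the second factor
  have hn₂ : 2 ≤ n₂ := by
    have h1 := Fintype.card_congr e
    simp only [Fintype.card_fin, Fintype.card_prod] at h1
    omega
  obtain ⟨v₀, hv₀ne, hv₀⟩ := uf_exists_isotropic h2 hn₂ hf₂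
  obtain ⟨y₀, hy₀⟩ := (hf₂.nondegenerate v₀ hv₀ne).1
  rw [uf_eq_fog h2 hf₂] at hv₀ hy₀
  apply notMax_transport (tnPhi' e P k₀) _ _ (Cfsg.Geo.kroneckerSubgroup 2 n₂ F)
    (tensorProductSubgroup_eq_map' e P (kronGL_mem Ugl 1))
  apply su4_main hF (tnPhi' e P k₀) (tnT' e P k₀) (tnT'_add e P k₀) (tnT'_smul e P k₀)
    (tnT'_injective e P k₀) (tnPhi'_mulVec e P k₀) G₂ c hc ?_ v₀ y₀ hv₀ hy₀
  intro x y
  have h1 := hT ((k₀ : Matrix (Fin 2 × Fin n₂) (Fin 2 × Fin n₂) F) *ᵥ x)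
    ((k₀ : Matrix (Fin 2 × Fin n₂) (Fin 2 × Fin n₂) F) *ᵥ y)
  change Cfsg.hermForm n F 2 (tnT' e P k₀ x) (tnT' e P k₀ y) = _ at h1
  rw [h1, hσc, fog_map]
  have hk₀v : (k₀ : Matrix (Fin 2 × Fin n₂) (Fin 2 × Fin n₂) F) =
      U ⊗ₖ (1 : Matrix (Fin n₂) (Fin n₂) F) := by
    rw [hk₀, kronGL_val, hUglv]
    simp
  have hmap : (U ⊗ₖ (1 : Matrix (Fin n₂) (Fin n₂) F)).map σ =
      U.map σ ⊗ₖ (1 : Matrix (Fin n₂) (Fin n₂) F) := by
    ext p q
    simp only [Matrix.map_apply, Matrix.kroneckerMap_apply, map_mul, Matrix.one_apply]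
    split_ifs <;> simp
  have h3 : (k₀ : Matrix (Fin 2 × Fin n₂) (Fin 2 × Fin n₂) F)ᵀ * (G₁ ⊗ₖ G₂) *
      (k₀ : Matrix (Fin 2 × Fin n₂) (Fin 2 × Fin n₂) F).map σ =
        (1 : Matrix (Fin 2) (Fin 2) F) ⊗ₖ G₂ := by
    rw [hk₀v, hmap, ← Matrix.kroneckerMap_transpose, ← Matrix.mul_kronecker_mul,
      ← Matrix.mul_kronecker_mul, Matrix.transpose_one, Matrix.one_mul, Matrix.mul_one, hUG]
  rw [h3]

end Cfsg.Agent.S5671
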