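import Cfsg.Statements.S5676
import Cfsg.Agent.Lib.Helper94.PlaneThree

set_option autoImplicit false
open Cfsg

namespace Cfsg.Agent.S5676

open Cfsg.Geo Cfsg.Agent.Lib.Helper94

lemma polar_quadFormOdd {F : Type*} [Field F] (m : ℕ) (x y : Unit ⊕ (Fin m ⊕ Fin m) → F) :
    QuadraticMap.polar (quadFormOdd m F) x y =
      2 * x (.inl ()) * y (.inl ()) +
        ∑ i : Fin m, (x (.inr (.inl i)) * y (.inr (.inr i)) + y (.inr (.inl i)) * x (.inr (.inr i))) := by
  simp only [QuadraticMap.polar, quadFormOdd, Pi.add_apply, Finset.sum_add_distrib]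
  have h : ∑ i : Fin m, (x (.inr (.inl i)) + y (.inr (.inl i))) * (x (.inr (.inr i)) + y (.inr (.inr i)))
      = ∑ i : Fin m, x (.inr (.inl i)) * x (.inr (.inr i)) + ∑ i : Fin m, y (.inr (.inl i)) * y (.inr (.inr i))
        + (∑ i : Fin m, x (.inr (.inl i)) * y (.inr (.inr i)) + ∑ i : Fin m, y (.inr (.inl i)) * x (.inr (.inr i))) := by
    simp only [← Finset.sum_add_distrib]
    refine Finset.sum_congr rfl fun i _ => ?_
    ring
  rw [h]
  ring

lemma quadFormOdd_nondeg {F : Type*} [Field F] (h2 : (2 : F) ≠ 0) (m : ℕ) :
    IsNondegenerateQuadraticForm (quadFormOdd m F) where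
  smul c v := by
    simp only [quadFormOdd, Pi.smul_apply, smul_eq_mul]
    rw [mul_add, Finset.mul_sum]
    congr 1
    · ring
    · exact Finset.sum_congr rfl fun i _ => by ring
  polar_bilinear := by
    constructor
    · intro x y v
      simp only [polar_quadFormOdd, Pi.add_apply, Finset.sum_add_distrib, add_mul, mul_add]
      ring
    · intro c x v
      simp only [polar_quadFormOdd, Pi.smul_apply, smul_eq_mul, Finset.sum_add_distrib,
        Finset.mul_sum, mul_add]
      congr 1
      · ring
      · congr 1 <;> refine Finset.sum_congr rfl fun i _ => ?_ <;> ring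
    · intro v x y
      simp only [polar_quadFormOdd, Pi.add_apply, Finset.sum_add_distrib, add_mul, mul_add]
      ring
    · intro c v x
      simp only [polar_quadFormOdd, Pi.smul_apply, smul_eq_mul, Finset.sum_add_distrib,
        Finset.mul_sum, mul_add]
      congr 1
      · ring
      · congr 1 <;> refine Finset.sum_congr rfl fun i _ => ?_ <;> ring
  nondegenerate := by
    intro v hv
    have key : ∃ x, QuadraticMap.polar (quadFormOdd m F) x v ≠ 0 := by
      by_contra hcon'
      have hcon : ∀ x, QuadraticMap.polar (quadFormOdd m F) x v = 0 := fun x => by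
        by_contra h
        exact hcon' ⟨x, h⟩
      apply hv
      funext j
      rcases j with ⟨⟩ | j | j
      · have h := hcon (Pi.single (.inl ()) 1)
        rw [polar_quadFormOdd] at h
        simp at h
        simpa [h2] using h
      · have h := hcon (Pi.single (.inr (.inr j)) 1)
        rw [polar_quadFormOdd] at h
        simpa [Pi.single_apply, Finset.sum_ite_eq] using h
      · have h := hcon (Pi.single (.inr (.inl j)) 1)
        rw [polar_quadFormOdd] at h
        simpa [Pi.single_apply, Finset.sum_ite_eq] using h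
    refine ⟨key, ?_⟩
    obtain ⟨x, hx⟩ := key
    exact ⟨x, by rwa [QuadraticMap.polar_comm]⟩

/-- Let F be the field with 3 elements, m ≥ 6, Q the standard quadratic form on F^(2m+1) and Ω the commutator subgroup of its isometry group. Let W be a 2-dimensional subspace on which the polar form is non-degenerate and which contains a line on which Q vanishes. Then the elements of Ω stabilising W form a subgroup that is not maximal: some subgroup lies strictly between it and Ω. -/
theorem result {F : Type*} [Field F] [Fintype F] (hq : Fintype.card F = 3) (m : ℕ) (hm : 6 ≤ m) (W : Submodule F (Unit ⊕ (Fin m ⊕ Fin m) → F)) (hdim : Module.finrank F W = 2) (hW : Cfsg.Geo.IsNondegenerateOn (QuadraticMap.polar (Cfsg.quadFormOdd m F)) W) (hplus : Cfsg.Geo.IsPlusTypeOn (Cfsg.quadFormOdd m F) W) : ∃ K : Subgroup (Matrix.GeneralLinearGroup (Unit ⊕ (Fin m ⊕ Fin m)) F), Cfsg.Geo.subspaceStabilizer W ⊓ Cfsg.Geo.omegaGL (Cfsg.quadFormOdd m F) < K ∧ K < Cfsg.Geo.omegaGL (Cfsg.quadFormOdd m F) := by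
  have h3 : (3 : F) = 0 := three_eq_zero hq
  have h2 : (2 : F) ≠ 0 := by
    intro h
    have : (1 : F) = 0 := by linear_combination h3 - h
    exact one_ne_zero this
  refine plus_plane_not_max_three hq (quadFormOdd_nondeg h2 m) ?_ W hdim hW hplus
  simp only [Fintype.card_sum, Fintype.card_unit, Fintype.card_fin]
  omega

end Cfsg.Agent.S5676
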