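import Cfsg.Statements.S5677
import Mathlib
import Cfsg.Agent.Lib.Helper94.OrthDecMax
import Cfsg.Agent.Lib.Helper14.Forms
import Cfsg.Agent.Lib.Helper14.OmegaInv

set_option autoImplicit false
open Cfsg

namespace Cfsg.Agent.S5677

/-- Let F be a finite field of odd order q, m ≥ 6, Q the standard quadratic form on F^(2m+1) and Ω the commutator subgroup of its isometry group. Let D be a decomposition of F^(2m+1) into t ≥ 2 pairwise orthogonal, pairwise Q-isometric subspaces of equal dimension k > 1 on which the polar form is non-degenerate. Unless q = 3 and k = 3, the elements of Ω permuting the members of D form a maximal subgroup of Ω. -/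
theorem result {F : Type*} [Field F] [Fintype F] (hodd : Odd (Fintype.card F)) (m : ℕ) (hm : 6 ≤ m) {t : ℕ} (k : ℕ) (hk : 1 < k) (D : Fin t → Submodule F (Unit ⊕ (Fin m ⊕ Fin m) → F)) (hD : Cfsg.Geo.IsOrthogonalMDecomposition (Cfsg.quadFormOdd m F) k D) (hex : ¬ (Fintype.card F = 3 ∧ k = 3)) : Cfsg.Geo.IsMaximalIn (Cfsg.Geo.omegaGL (Cfsg.quadFormOdd m F)) (Cfsg.Geo.decompositionStabilizer D ⊓ Cfsg.Geo.omegaGL (Cfsg.quadFormOdd m F)) := by
  have h2 := Cfsg.Agent.Lib.Helper14.two_ne_zero_of_card_odd hodd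
  have hQ' := Cfsg.Agent.Lib.Helper14.oddQF_nondegenerate m F h2
  have hcard : Fintype.card (Unit ⊕ (Fin m ⊕ Fin m)) = 2 * m + 1 := by
    rw [Fintype.card_sum, Fintype.card_sum, Fintype.card_fin, Fintype.card_unit]; omega
  have hsum := Cfsg.Agent.Lib.Helper94.finrank_sum_of_decomp D hD.decomp.decomp.indep
    hD.decomp.decomp.iSup_eq_top
  rw [Finset.sum_congr rfl (fun i _ => hD.decomp.decomp.finrank_eq i), Finset.sum_const,
    Finset.card_univ, Fintype.card_fin, smul_eq_mul, hcard] at hsum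
  have hkodd : Odd k := by
    rcases Nat.even_or_odd k with hev | ho
    · exfalso
      obtain ⟨r, hr⟩ := hev
      rw [hr] at hsum
      have h3 : t * (r + r) = 2 * (t * r) := by ring
      omega
    · exact ho
  obtain ⟨r, hr⟩ := hkodd
  have hk3 : 3 ≤ k := by omega
  have hqk : 4 ≤ Fintype.card F ∨ 4 ≤ k := by
    by_cases hq3 : Fintype.card F = 3
    · right
      have hk3' : k ≠ 3 := fun h => hex ⟨hq3, h⟩
      omega
    · left
      have h4 := Fintype.one_lt_card (α := F)
      obtain ⟨j, hj⟩ := hodd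
      omega
  rw [← Cfsg.Agent.Lib.Helper14.oddQF_coe m F] at hD ⊢
  exact Cfsg.Agent.Lib.Helper94.decomp_isMaximalIn (Cfsg.Agent.Lib.Helper14.oddQF m F) hQ' h2
    (by rw [hcard]; omega) k D hD hk3 hqk

end Cfsg.Agent.S5677
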