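import Cfsg.Statements.S5688
import Mathlib
import Cfsg.Agent.Lib.Helper14.NondegE

set_option autoImplicit false
open Cfsg

namespace Cfsg.Agent.S5688

open Cfsg.Agent.Lib.Helper14 Module

/-- Let F be a finite field with q elements, n ≥ 13 even, Q a non-degenerate quadratic form on F^n of plus type (some subspace of dimension n/2 is totally singular), and Ω the commutator subgroup of the isometry group of Q, viewed inside GL_n(F). Let W be a non-zero proper subspace with dim W ≠ n/2 on which the polar form of Q is non-degenerate. Exclude the case q ≤ 3 in which W, or its orthogonal complement, is a plane containing a line on which Q vanishes. Then the elements of Ω stabilising W form a maximal subgroup of Ω. -/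
theorem result {F : Type*} [Field F] [Fintype F] {n : ℕ} (hn : 13 ≤ n) (heven : Even n) (Q : (Fin n → F) → F) (hQ : Cfsg.Geo.IsNondegenerateQuadraticForm Q) (hplus : Cfsg.Geo.IsPlusTypeOn Q ⊤) (W : Submodule F (Fin n → F)) (hW0 : W ≠ ⊥) (hW1 : W ≠ ⊤) (hdim : 2 * Module.finrank F W ≠ n) (hW : Cfsg.Geo.IsNondegenerateOn (QuadraticMap.polar Q) W) (hex : ¬ (Fintype.card F ≤ 3 ∧ (∃ U : Submodule F (Fin n → F), Module.finrank F U = 2 ∧ Cfsg.Geo.IsNondegenerateOn (QuadraticMap.polar Q) U ∧ Cfsg.Geo.IsPlusTypeOn Q U ∧ (U = W ∨ (Cfsg.Geo.AreOrthogonalFor (QuadraticMap.polar Q) U W ∧ Module.finrank F U + Module.finrank F W = n))))) : Cfsg.Geo.IsMaximalIn (Cfsg.Geo.omegaGL Q) (Cfsg.Geo.subspaceStabilizer W ⊓ Cfsg.Geo.omegaGL Q) := by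
  obtain ⟨Q', rfl, hQ'⟩ := Cfsg.Agent.Lib.Helper44.exists_quadraticForm_of_geo hQ
  have hcard : Fintype.card (Fin n) = n := Fintype.card_fin n
  have hD := orthDecomp_of_nondegOn Q' hQ' W hW
  apply nondeg_isMaximalIn Q' hQ' (by rw [hcard]; omega) W hW0 hW1 hW (by rw [hcard]; exact hdim)
  intro Y hY h2 hYplus
  by_contra hq
  apply hex
  refine ⟨by omega, Y, h2, ?_, hYplus, ?_⟩
  · rcases hY with rfl | rfl
    · exact hW
    · exact geo_nondegOn_of Q' (hD.symm.nondegOn hQ')
  · rcases hY with rfl | rfl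
    · exact Or.inl rfl
    · refine Or.inr ⟨?_, ?_⟩
      · intro u hu v hv
        rw [QuadraticMap.polar_comm]
        exact hD.perp v hv u hu
      · have h3 := hD.finrank_add hQ'
        rw [hcard] at h3
        omega

end Cfsg.Agent.S5688
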