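import Cfsg.Statements.S5691
import Mathlib
import Cfsg.Agent.Lib.Helper14.NondegB

set_option autoImplicit false
open Cfsg

namespace Cfsg.Agent.S5691

open Cfsg.Agent.Lib.Helper14 Module

/-- Let F be a finite field with q elements, n ≥ 13 even, Q a non-degenerate quadratic form on F^n (of either type), and Ω the commutator subgroup of the isometry group of Q, viewed inside GL_n(F). Suppose q is even and v is a vector with Q(v) ≠ 0. Then the elements of Ω stabilising the line spanned by v form a maximal subgroup of Ω. -/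
theorem result {F : Type*} [Field F] [Fintype F] {n : ℕ} (hn : 13 ≤ n) (heven : Even n) (Q : (Fin n → F) → F) (hQ : Cfsg.Geo.IsNondegenerateQuadraticForm Q) (hchar : ¬ Odd (Fintype.card F)) (v : (Fin n → F)) (hv : Q v ≠ 0) : Cfsg.Geo.IsMaximalIn (Cfsg.Geo.omegaGL Q) (Cfsg.Geo.subspaceStabilizer (Submodule.span F {v}) ⊓ Cfsg.Geo.omegaGL Q) := by
  obtain ⟨Q', rfl, hQ'⟩ := Cfsg.Agent.Lib.Helper44.exists_quadraticForm_of_geo hQ
  have hv0 : v ≠ 0 := by
    rintro rfl
    exact hv (map_zero Q')
  have hcard : Fintype.card (Fin n) = n := Fintype.card_fin n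
  apply isMaximalIn_stab_of Q' hQ' (by rw [hcard]; omega) (Submodule.span F {v})
  · intro h
    exact hv0 ((Submodule.span_singleton_eq_bot).mp h)
  · intro h
    have h1 := finrank_span_singleton (K := F) hv0
    rw [h, finrank_top, Module.finrank_fintype_fun_eq_card, hcard] at h1
    omega
  · intro M hPM
    exact line_max Q' hQ' (by rw [hcard]; omega) v M hPM

end Cfsg.Agent.S5691
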