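import Cfsg.Statements.S5693
import Cfsg.Agent.Lib.Helper99.OrthNMQuad

set_option autoImplicit false
open Cfsg

namespace Cfsg.Agent.S5693

open Cfsg.Geo Cfsg.Agent.Lib.Helper94 Cfsg.Agent.Lib.Helper99

/-- Let F be a finite field with q elements, n ≥ 13 even, Q a non-degenerate quadratic form on F^n of plus type (some subspace of dimension n/2 is totally singular), and Ω the commutator subgroup of the isometry group of Q, viewed inside GL_n(F). Let D be a decomposition of F^n into t ≥ 2 pairwise orthogonal, pairwise Q-isometric subspaces of equal dimension k on which the polar form is non-degenerate (with, for even k, all members of plus type or t even; for odd k, q odd and square discriminant), in one of the cases: k = 2 with q = 3; k = 2 with plus-type members and q ∈ {2, 4, 5}; k = 3 with q = 3; k = 4 with plus-type members and q = 2. Then the elements of Ω permuting the members of D form a subgroup that is not maximal: some subgroup lies strictly between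 it and Ω. -/
theorem result {F : Type*} [Field F] [Fintype F] {n : ℕ} (hn : 13 ≤ n) (heven : Even n) (Q : (Fin n → F) → F) (hQ : Cfsg.Geo.IsNondegenerateQuadraticForm Q) (hplus : Cfsg.Geo.IsPlusTypeOn Q ⊤) {t : ℕ} (k : ℕ) (D : Fin t → Submodule F (Fin n → F)) (hD : Cfsg.Geo.IsOrthogonalMDecomposition Q k D) (hke : Even k → ((∀ i, Cfsg.Geo.IsPlusTypeOn Q (D i)) ∨ Even t)) (hko : Odd k → (Odd (Fintype.card F) ∧ Cfsg.Geo.HasSquareDiscriminant Q)) (hcase : ((k = 2 ∧ (Fintype.card F = 3 ∨ ((∀ i, Cfsg.Geo.IsPlusTypeOn Q (D i)) ∧ (Fintype.card F = 2 ∨ Fintype.card F = 4 ∨ Fintype.card F = 5)))) ∨ (k = 3 ∧ Fintype.card F = 3) ∨ (k = 4 ∧ Fintype.card F = 2 ∧ ∀ i, Cfsg.Geo.IsPlusTypeOn Q (D i)))) : ∃ K : Subgroup (Matrix.GeneralLinearGroup (Fin n) F), Cfsg.Geo.decompositionStabilizer D ⊓ Cfsg.Geo.omegaGL Q < K ∧ K < Cfsg.Geo.omegaGL Q := by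
  have ht2 : 2 ≤ t := hD.decomp.decomp.two_le
  have hcard : t * k = n := by
    have := onm_card_blocks D hD.decomp.decomp
    simpa using this
  rcases hcase with ⟨rfl, hc⟩ | ⟨rfl, hq⟩ | ⟨rfl, hq, hpl⟩
  · have ht : 3 ≤ t := by omega
    have h12 : (⟨0, by omega⟩ : Fin t) ≠ ⟨1, by omega⟩ := by simp [Fin.ext_iff]
    have h13 : (⟨0, by omega⟩ : Fin t) ≠ ⟨2, by omega⟩ := by simp [Fin.ext_iff]
    have h23 : (⟨1, by omega⟩ : Fin t) ≠ ⟨2, by omega⟩ := by simp [Fin.ext_iff]
    rcases hc with hq | ⟨hpl, hq | hq | hq⟩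
    · by_cases hsing : ∃ v ∈ D ⟨0, by omega⟩, v ≠ 0 ∧ Q v = 0
      · have hpl : ∀ i, IsPlusTypeOn Q (D i) := by
          intro i
          obtain ⟨v, hv, hv0, hQv⟩ :=
            onm_singular_transport _ _ (hD.isometric ⟨0, by omega⟩ i) hsing
          exact onm_plus_of_singular hQ (D i) (hD.decomp.decomp.finrank_eq i) v hv hv0 hQv
        exact onm_case_three_hyp hq hQ D hD hpl _ _ _ h12 h13 h23
      · obtain ⟨c, p, q, hc, hfr⟩ := frame_two_aniso hq hQ (D ⟨0, by omega⟩)
          (hD.decomp.decomp.finrank_eq _) (hD.decomp.nondegenerate _)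
          (fun v hv hv0 hQv => hsing ⟨v, hv, hv0, hQv⟩)
        exact frame_not_max_three hq hQ D hD ⟨0, by omega⟩ ⟨1, by omega⟩ h12 c hc p q hfr
    · exact onm_case_two hq hQ D hD hpl _ _ _ h12 h13 h23
    · exact onm_case_four hq hQ D hD hpl _ _ _ h12 h13 h23
    · exact onm_case_five hq hQ D hD hpl
  · obtain ⟨c, p, q, hc, hfr⟩ := frame_three hq hQ (D ⟨0, by omega⟩)
      (hD.decomp.decomp.finrank_eq _) (hD.decomp.nondegenerate _)
    exact frame_not_max_three hq hQ D hD ⟨0, by omega⟩ ⟨1, by omega⟩ (by simp [Fin.ext_iff]) c hc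
      p q hfr
  · have ht : 3 ≤ t := by omega
    have h12 : (⟨0, by omega⟩ : Fin t) ≠ ⟨1, by omega⟩ := by simp [Fin.ext_iff]
    have h13 : (⟨0, by omega⟩ : Fin t) ≠ ⟨2, by omega⟩ := by simp [Fin.ext_iff]
    have h23 : (⟨1, by omega⟩ : Fin t) ≠ ⟨2, by omega⟩ := by simp [Fin.ext_iff]
    exact onm_case_quad hq hQ D hD hpl _ _ _ h12 h13 h23

end Cfsg.Agent.S5693
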