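import Cfsg.Statements.S5699
import Mathlib
import Cfsg.Agent.Lib.Helper14.NondegH

set_option autoImplicit false
open Cfsg

namespace Cfsg.Agent.S5699

open Cfsg.Agent.Lib.Helper14 Module

/-- Let F be a finite field with q elements, n ≥ 13 even, Q a non-degenerate quadratic form on F^n (of either type), and Ω the commutator subgroup of the isometry group of Q, viewed inside GL_n(F). Let D be a decomposition of F^n into two orthogonal subspaces of odd dimension n/2 on which the polar form is non-degenerate and which are not Q-isometric to each other. Then the elements of Ω permuting (necessarily fixing) the two subspaces form a maximal subgroup of Ω. -/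
theorem result {F : Type*} [Field F] [Fintype F] {n : ℕ} (hn : 13 ≤ n) (heven : Even n) (Q : (Fin n → F) → F) (hQ : Cfsg.Geo.IsNondegenerateQuadraticForm Q) (k : ℕ) (hk : 2 * k = n) (hko : Odd k) (D : Fin 2 → Submodule F (Fin n → F)) (hD : Cfsg.Geo.IsNondegenerateMDecomposition (QuadraticMap.polar Q) k D) (hni : ¬ Cfsg.Geo.AreIsometricFor Q (D 0) (D 1)) : Cfsg.Geo.IsMaximalIn (Cfsg.Geo.omegaGL Q) (Cfsg.Geo.decompositionStabilizer D ⊓ Cfsg.Geo.omegaGL Q) := by
  obtain ⟨Q', rfl, hQ'⟩ := Cfsg.Agent.Lib.Helper44.exists_quadraticForm_of_geo hQ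
  have hcard : Fintype.card (Fin n) = n := Fintype.card_fin n
  have hW := hD.nondegenerate 0
  have hf0 := hD.decomp.finrank_eq 0
  have hf1 := hD.decomp.finrank_eq 1
  have hD1 : D 1 = Cfsg.Agent.Lib.Helper44.orth Q' (D 0) := by
    apply Submodule.eq_of_le_of_finrank_eq
    · intro x hx
      rw [Cfsg.Agent.Lib.Helper44.mem_orth_iff]
      intro y hy
      exact hD.orthogonal 0 1 (by decide) y hy x hx
    · have h2 := Cfsg.Agent.Lib.Helper44.finrank_orth Q' hQ' (D 0)
      rw [Module.finrank_fintype_fun_eq_card, hcard] at h2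
      rw [hf1, h2, hf0]
      omega
  rw [decompStab_two_eq Q' D hD1 hni]
  have hW0 : D 0 ≠ ⊥ := by
    intro h
    rw [h, finrank_bot] at hf0
    omega
  have hW1 : D 0 ≠ ⊤ := by
    intro h
    rw [h, finrank_top, Module.finrank_fintype_fun_eq_card, hcard] at hf0
    omega
  have hexY : ∀ Y : Submodule F (Fin n → F),
      (Y = D 0 ∨ Y = Cfsg.Agent.Lib.Helper44.orth Q' (D 0)) → finrank F Y = 2 →
      Cfsg.Geo.IsPlusTypeOn ⇑Q' Y → 4 ≤ Fintype.card F := by
    intro Y hY h2 _
    exfalso
    rcases hY with rfl | rfl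
    · omega
    · rw [← hD1] at h2
      omega
  apply isMaximalIn_stab_of Q' hQ' (by rw [hcard]; omega) (D 0) hW0 hW1
  intro M hPM
  exact nondeg_core_noniso Q' hQ' (by rw [hcard]; omega) (D 0) hW (by rw [hcard, hf0]; exact hk)
    (by rw [← hD1]; exact hni) (irrHyp_pair Q' hQ' (D 0) hW0 hW1 hW hexY).2 M hPM

end Cfsg.Agent.S5699
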