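import Cfsg.Statements.S5876
import Cfsg.Agent.Lib.Helper97.FixedSpace
import Cfsg.Agent.Lib.Helper97.SolvableChain

set_option autoImplicit false
open Cfsg

namespace Cfsg.Agent.S5876

open Cfsg.Agent.Lib.Helper97 in
open scoped commutatorElement in
theorem aux {F : Type*} [Field F] [Fintype F] {n : ℕ} (G : Subgroup (Matrix.GeneralLinearGroup (Fin n) F)) (hsol : Group.IsSolvable G) (hirr : Cfsg.Geo.ActsIrreducibly (Cfsg.Geo.matrixSet G)) (hprim : ∀ (m t : ℕ) (D : Fin t → Submodule F (Fin n → F)), 2 ≤ t → Cfsg.Geo.IsMDecomposition m D → ¬ G ≤ Cfsg.Geo.decompositionStabilizer D) (g : Matrix.GeneralLinearGroup (Fin n) F) (hg : g ∈ G) (hg1 : g ≠ 1) :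
    4 * Module.finrank F (fixSp g) ≤ 3 * n := by
  have hfix : ∀ z, Good G z → z ≠ 1 → fixSp z = ⊥ := by
    rintro z ⟨N, ⟨_, hNab, hNn⟩, hz⟩ hz1
    exact fixSp_eq_bot_of_abelian_normal G hirr hprim N hNab hNn hz hz1
  have hhalf : ∀ y, Half G y → 2 * Module.finrank F (fixSp y) ≤ n := by
    rintro y ⟨hy1, hy | ⟨b, hb1, hb⟩⟩
    · rw [hfix y hy hy1, finrank_bot]
      omega
    · have h1 := two_finrank_fixSp_le y b
      rw [hfix _ hb hb1, finrank_bot] at h1
      omega
  rcases half_or_half_commutator G hsol hg hg1 with h | ⟨b, hb⟩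
  · have := hhalf g h
    omega
  · have h1 := two_finrank_fixSp_le g b
    have h2 := hhalf _ hb
    omega

/-- Fixed-point spaces in primitive soluble linear groups. Let F be a finite field and G a soluble subgroup of GL_n(F) that acts irreducibly on F^n and primitively (G preserves no decomposition of F^n into two or more independent subspaces of equal dimension). Then every non-identity element g of G has fixed-point space {v : g v = v} of dimension at most 3n/4. -/
theorem result {F : Type*} [Field F] [Fintype F] {n : ℕ} (G : Subgroup (Matrix.GeneralLinearGroup (Fin n) F)) (hsol : IsSolvable G) (hirr : Cfsg.Geo.ActsIrreducibly (Cfsg.Geo.matrixSet G)) (hprim : ∀ (m t : ℕ) (D : Fin t → Submodule F (Fin n → F)), 2 ≤ t → Cfsg.Geo.IsMDecomposition m D → ¬ G ≤ Cfsg.Geo.decompositionStabilizer D) (g : Matrix.GeneralLinearGroup (Fin n) F) (hg : g ∈ G) (hg1 : g ≠ 1) :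
    4 * Module.finrank F (Module.End.eigenspace (Matrix.toLin' (g : Matrix (Fin n) (Fin n) F)) 1) ≤ 3 * n := by
  exact aux G hsol hirr hprim g hg hg1

end Cfsg.Agent.S5876
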