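import Cfsg.Statements.S5938
import Cfsg.Agent.S0803
import Cfsg.Agent.Lib.Helper41.PSL2Over
import Cfsg.Agent.Lib.Helper41.ModArith

set_option autoImplicit false
open Cfsg

namespace Cfsg.Agent.S5938

open Cfsg.Agent.Lib.Helper41 in
/-- Let p be a prime with p ≡ ±1 (mod 8) and F a field with p elements. Then PSL_2(F) has a maximal subgroup isomorphic to the symmetric group S_4. -/
theorem result {F : Type*} [Field F] [Fintype F] (p : ℕ) [Fact p.Prime] (hF : Fintype.card F = p) (hp : p % 8 = 1 ∨ p % 8 = 7) : ∃ H : Subgroup (Matrix.ProjectiveSpecialLinearGroup (Fin 2) F), IsCoatom H ∧ Nonempty (H ≃* Equiv.Perm (Fin 4)) := by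
  classical
  haveI : CharP F p := charP_of_card_eq_prime hF
  have hpp : p.Prime := Fact.out
  have hp7 : 7 ≤ p := by
    rcases hp with h | h
    · rcases Nat.lt_or_ge p 7 with hlt | hge
      · exfalso
        have : p = 1 := by omega
        rw [this] at hpp
        exact absurd hpp (by decide)
      · exact hge
    · omega
  obtain ⟨H, ⟨f⟩⟩ := (Cfsg.Agent.S0803.result hF).mpr (sq_mod_sixteen_of_one p hp)
  have hcH : Nat.card H = 24 := by
    rw [Nat.card_congr f.toEquiv, Nat.card_eq_fintype_card, Fintype.card_perm]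
    simp [Nat.factorial]
  have hG := card_psl2_mul_gcd (F := F)
  rw [hF] at hG
  have hd : Nat.gcd 2 (p - 1) = 2 := Nat.gcd_eq_left (by omega)
  rw [hd] at hG
  have hG336 : 7 * 48 ≤ p * (p ^ 2 - 1) := by
    have h49 : 7 ^ 2 ≤ p ^ 2 := Nat.pow_le_pow_left hp7 2
    exact Nat.mul_le_mul hp7 (by omega)
  refine ⟨H, isCoatom_of_overgroups H ?_ ?_, ⟨f⟩⟩
  · intro htop
    have := (Subgroup.card_eq_iff_eq_top H).mpr htop
    omega
  · intro M hHM hM hne
    have hlt : Nat.card H < Nat.card M := by
      by_contra hcon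
      push Not at hcon
      exact hne (Subgroup.eq_of_le_of_card_ge hHM hcon)
    have hdvd : Nat.card H ∣ Nat.card M := Subgroup.card_dvd_of_le hHM
    rcases overgroup_cases p H M hHM hM with ⟨-, h, hh, hle⟩ | ⟨-, hcomm⟩ | hf | hf | hf |
      ⟨K, iK, iK', m, hm2, hm, -, -⟩
    · have := orderOf_le_of_s4 H f h hh
      omega
    · obtain ⟨x, y, hxy⟩ := s4_not_comm
      have hcop : (Nat.card H).Coprime p := by
        rw [hcH, Nat.coprime_comm, Nat.Prime.coprime_iff_not_dvd hpp]
        intro hdvd
        have h24 : p ≤ 24 := Nat.le_of_dvd (by norm_num) hdvd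
        interval_cases p <;> omega
      apply hxy
      have h1 := hcomm hcop (f.symm x).1 (f.symm x).2 (f.symm y).1 (f.symm y).2
      have h2 : f.symm x * f.symm y = f.symm y * f.symm x := Subtype.ext h1
      have h3 := congrArg f h2
      rwa [map_mul, map_mul, f.apply_symm_apply, f.apply_symm_apply] at h3
    · obtain ⟨f'⟩ := hf
      have : Nat.card M = 12 := by
        rw [Nat.card_congr f'.toEquiv, nat_card_alternatingGroup]
        simp [Nat.factorial]
      omega
    · obtain ⟨f'⟩ := hf
      have h24 : Nat.card M = 24 := by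
        rw [Nat.card_congr f'.toEquiv, Nat.card_eq_fintype_card, Fintype.card_perm]
        simp [Nat.factorial]
      omega
    · obtain ⟨f'⟩ := hf
      have h60 : Nat.card M = 60 := by
        rw [Nat.card_congr f'.toEquiv, nat_card_alternatingGroup]
        simp [Nat.factorial]
      rw [h60, hcH] at hdvd
      omega
    · exact absurd ((Nat.Prime.pow_eq_iff hpp).mp (hm.trans hF)).2 (by omega)

end Cfsg.Agent.S5938
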