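import Cfsg.Statements.S5941
-- import your own Cfsg.Agent.* helpers here
import Mathlib
import Cfsg.Agent.S0805
import Cfsg.Agent.Lib.Helper98.PSL2Max

set_option autoImplicit false
open Cfsg

namespace Cfsg.Agent.S5941

/-- Let K and F be finite fields of odd characteristic with #F = (#K)². Then PSL_2(F) has a maximal subgroup isomorphic to PGL_2(K). -/
theorem result {F K : Type*} [Field F] [Fintype F] [Field K] [Fintype K] (q : ℕ) (hK : Fintype.card K = q) (hF : Fintype.card F = q ^ 2) (hq : Odd q) : ∃ H : Subgroup (Matrix.ProjectiveSpecialLinearGroup (Fin 2) F), IsCoatom H ∧ Nonempty (H ≃* Matrix.ProjGenLinGroup (Fin 2) K) := by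
  classical
  obtain ⟨p, hp⟩ := CharP.exists F
  have := hp
  have : Fact p.Prime := ⟨CharP.char_is_prime F p⟩
  have hFodd : Odd (Fintype.card F) := by rw [hF]; exact hq.pow
  have hp2 : p ≠ 2 := by
    rintro rfl
    obtain ⟨n, -, hn⟩ := FiniteField.card F 2
    rw [hn] at hFodd
    exact (Nat.not_even_iff_odd.mpr hFodd) (Nat.even_pow.mpr ⟨even_two, n.ne_zero⟩)
  have hKF : Fintype.card K ^ 2 = Fintype.card F := by rw [hK, hF]
  obtain ⟨ι⟩ := Cfsg.Agent.Lib.Helper59.exists_ringHom_of_card_pow (F := F) (K := K) 2 hKF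
  have : CharP K p := RingHom.charP ι ι.injective p
  have hq1 : 1 < q := by rw [← hK]; exact Fintype.one_lt_card
  obtain ⟨H, ⟨e⟩⟩ := (Cfsg.Agent.S0805.result (F := F) (K := K) (q := Fintype.card F) rfl
    hFodd 2 (by norm_num) hKF).2.mpr even_two
  refine ⟨H, ?_, ⟨e⟩⟩
  apply Cfsg.Agent.Lib.Helper98.isCoatom_subfield p hp2 q 2 1 Nat.prime_two hq1 hF H
    (Or.inr ⟨rfl, rfl⟩)
  · rw [one_mul, Nat.card_congr e.toEquiv, Cfsg.Agent.Lib.Helper59.card_pgl2, hK]
  · obtain ⟨x, y, hx, hy, hxy⟩ := Cfsg.Agent.Lib.Helper98.exists_noncomm_pgl2 (K := K) p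
    refine ⟨(e.symm x : Matrix.ProjectiveSpecialLinearGroup (Fin 2) F), (e.symm x).2,
      (e.symm y : Matrix.ProjectiveSpecialLinearGroup (Fin 2) F), (e.symm y).2, ?_, ?_, ?_⟩
    · rw [← Subgroup.coe_pow, ← map_pow, hx, map_one]
      rfl
    · rw [← Subgroup.coe_pow, ← map_pow, hy, map_one]
      rfl
    · intro h
      apply hxy
      have h' : e.symm x * e.symm y = e.symm y * e.symm x := Subtype.ext h
      rw [← map_mul, ← map_mul] at h'
      exact e.symm.injective h'

end Cfsg.Agent.S5941
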