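import Cfsg.Statements.S5943
import Cfsg.Agent.Lib.Helper41.PSL2Over

set_option autoImplicit false
open Cfsg

namespace Cfsg.Agent.S5943

open Cfsg.Agent.Lib.Helper41

theorem charP_two_of_even_card {K : Type*} [Field K] [Fintype K] (h : Even (Fintype.card K)) :
    CharP K 2 := by
  obtain ⟨p, hp⟩ := CharP.exists K
  haveI := hp
  obtain ⟨n, hpp, hn⟩ := FiniteField.card K p
  rw [hn] at h
  have h2 : 2 ∣ p ^ (n : ℕ) := even_iff_two_dvd.mp h
  have h3 : 2 ∣ p := Nat.Prime.dvd_of_dvd_pow Nat.prime_two h2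
  have h4 : 2 = p := (Nat.prime_dvd_prime_iff_eq Nat.prime_two hpp).mp h3
  rw [h4]
  exact hp

theorem arith_char2 (a b m r : ℕ) (ha : 1 ≤ a) (hm : 2 ≤ m) (hr : r.Prime)
    (hbm : b * m = a * r)
    (hdvd : 2 ^ a * ((2 ^ a) ^ 2 - 1) ∣ 2 ^ b * ((2 ^ b) ^ 2 - 1)) : b = a := by
  have e1 : ∀ x : ℕ, (2 ^ x) ^ 2 = 2 ^ (2 * x) := fun x => by rw [← pow_mul, mul_comm]
  rw [e1, e1] at hdvd
  have h1 : 2 ^ (2 * a) - 1 ∣ 2 ^ b * (2 ^ (2 * b) - 1) := dvd_trans (Dvd.intro_left _ rfl) hdvd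
  have hodd : Odd (2 ^ (2 * a) - 1) := by
    have h2 : Even (2 ^ (2 * a)) := (Nat.even_pow.mpr ⟨even_two, by omega⟩)
    have h3 : 1 ≤ 2 ^ (2 * a) := Nat.one_le_two_pow
    exact Nat.Even.sub_odd h3 h2 odd_one
  have hcop : Nat.Coprime (2 ^ (2 * a) - 1) (2 ^ b) :=
    Nat.Coprime.pow_right b (Nat.coprime_two_right.mpr hodd)
  have h2 : 2 ^ (2 * a) - 1 ∣ 2 ^ (2 * b) - 1 := hcop.dvd_of_dvd_mul_left h1
  have h3 := Nat.gcd_eq_left h2
  rw [Nat.pow_sub_one_gcd_pow_sub_one] at h3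
  have h4 : 2 ^ (Nat.gcd (2 * a) (2 * b)) = 2 ^ (2 * a) := by
    have h5 : 1 ≤ 2 ^ (Nat.gcd (2 * a) (2 * b)) := Nat.one_le_two_pow
    have h6 : 1 ≤ 2 ^ (2 * a) := Nat.one_le_two_pow
    omega
  have h5 : Nat.gcd (2 * a) (2 * b) = 2 * a := Nat.pow_right_injective (le_refl 2) h4
  have h6 : 2 * a ∣ 2 * b := Nat.gcd_eq_left_iff_dvd.mp h5
  have h7 : a ∣ b := (Nat.mul_dvd_mul_iff_left (by norm_num)).mp h6
  obtain ⟨c, rfl⟩ := h7
  have h8 : c * m = r := by
    have : a * (c * m) = a * r := by rw [← hbm]; ring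
    exact Nat.eq_of_mul_eq_mul_left (by omega) this
  have h9 : m ∣ r := ⟨c, by rw [← h8, mul_comm]⟩
  rcases (Nat.dvd_prime hr).mp h9 with h | h
  · omega
  · rw [h] at h8
    have hc : c = 1 := Nat.eq_of_mul_eq_mul_right hr.pos (by rw [h8, one_mul])
    rw [hc, mul_one]

/-- Let K and F be finite fields of characteristic 2 with #K = q > 2 and #F = q^r for a prime r. Then PSL_2(F) has a maximal subgroup isomorphic to PSL_2(K) (which equals PGL_2(K) in characteristic 2). -/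
theorem result {F K : Type*} [Field F] [Fintype F] [Field K] [Fintype K] (q r : ℕ) (hK : Fintype.card K = q) (hF : Fintype.card F = q ^ r) (hq : Even q) (hq2 : q ≠ 2) (hr : r.Prime) : ∃ H : Subgroup (Matrix.ProjectiveSpecialLinearGroup (Fin 2) F), IsCoatom H ∧ Nonempty (H ≃* Matrix.ProjectiveSpecialLinearGroup (Fin 2) K) := by
  classical
  have hq1 : 1 < q := by
    rw [← hK]
    exact Fintype.one_lt_card
  have hq4 : 4 ≤ q := by
    obtain ⟨t, ht⟩ := hq
    omega
  have hr2 : 2 ≤ r := hr.two_le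
  have hFeven : Even (Fintype.card F) := by
    rw [hF]
    exact (Nat.even_pow.mpr ⟨hq, by omega⟩)
  haveI : CharP F 2 := charP_two_of_even_card hFeven
  haveI : CharP K 2 := charP_two_of_even_card (by rw [hK]; exact hq)
  haveI : Fact (Nat.Prime 2) := ⟨Nat.prime_two⟩
  obtain ⟨a, -, ha⟩ := FiniteField.card K 2
  rw [hK] at ha
  obtain ⟨ι⟩ := Cfsg.Agent.Lib.Helper59.exists_ringHom_of_card_pow (F := F) (K := K) r (by
    rw [hK, hF])
  obtain ⟨H, ⟨f⟩⟩ := Cfsg.Agent.Lib.Helper59.psl2_subfield_embedding ι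
  have hgcd : ∀ x : ℕ, Even x → 1 < x → Nat.gcd 2 (x - 1) = 1 := by
    intro x hx hx1
    obtain ⟨t, ht⟩ := hx
    have : x - 1 = 2 * (t - 1) + 1 := by omega
    rw [this]
    simp
  have hcH : Nat.card H = q * (q ^ 2 - 1) := by
    have h1 := card_psl2_mul_gcd (F := K)
    rw [hK, hgcd q hq hq1, mul_one] at h1
    rw [Nat.card_congr f.toEquiv, h1]
  have hG := card_psl2_mul_gcd (F := F)
  rw [hgcd _ hFeven Fintype.one_lt_card, mul_one, hF] at hG
  have hqQ : q < q ^ r := by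
    calc q = q ^ 1 := (pow_one q).symm
      _ < q ^ r := Nat.pow_lt_pow_right hq1 (by omega)
  have hH60 : 60 ≤ Nat.card H := by
    rw [hcH]
    have h16 : 4 ^ 2 ≤ q ^ 2 := Nat.pow_le_pow_left hq4 2
    calc 60 = 4 * 15 := by norm_num
      _ ≤ q * (q ^ 2 - 1) := Nat.mul_le_mul hq4 (by omega)
  have hnsH : ¬ Group.IsSolvable H := by
    intro hs
    haveI := hs
    exact not_isSolvable_psl2 (F := K) (by rw [hK]; exact hq4)
      (Group.isSolvable_of_isSolvable_injective (f := f.symm.toMonoidHom) f.symm.injective)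
  refine ⟨H, isCoatom_of_overgroups H ?_ ?_, ⟨f⟩⟩
  · intro htop
    have h1 := (Subgroup.card_eq_iff_eq_top H).mpr htop
    rw [hcH, hG] at h1
    have h2 : q ^ 2 < (q ^ r) ^ 2 := Nat.pow_lt_pow_left hqQ (by norm_num)
    have h3 : q * (q ^ 2 - 1) < q ^ r * ((q ^ r) ^ 2 - 1) :=
      Nat.mul_lt_mul_of_lt_of_le hqQ (by omega) (by
        have : 4 ^ 2 ≤ q ^ 2 := Nat.pow_le_pow_left hq4 2
        omega)
    omega
  · intro M hHM hM hne
    have hlt : Nat.card H < Nat.card M := by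
      by_contra hcon
      push Not at hcon
      exact hne (Subgroup.eq_of_le_of_card_ge hHM hcon)
    have hdvd : Nat.card H ∣ Nat.card M := Subgroup.card_dvd_of_le hHM
    have hsolv : Group.IsSolvable M → False := by
      intro hs
      haveI := hs
      exact hnsH (Group.isSolvable_of_isSolvable_injective (f := Subgroup.inclusion hHM)
        (Subgroup.inclusion_injective hHM))
    rcases overgroup_cases 2 H M hHM hM with ⟨hs, -⟩ | ⟨hs, -⟩ | hf | hf | hf |
      ⟨K', iK, iK', m, hm2, hm, hMdvd, -⟩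
    · exact hsolv hs
    · exact hsolv hs
    · obtain ⟨f'⟩ := hf
      have : Nat.card M = 12 := by
        rw [Nat.card_congr f'.toEquiv, nat_card_alternatingGroup]
        simp [Nat.factorial]
      omega
    · obtain ⟨f'⟩ := hf
      have h24 : Nat.card M = 24 := by
        rw [Nat.card_congr f'.toEquiv, Nat.card_eq_fintype_card, Fintype.card_perm]
        simp [Nat.factorial]
      omega
    · obtain ⟨f'⟩ := hf
      have h60 : Nat.card M = 60 := by
        rw [Nat.card_congr f'.toEquiv, nat_card_alternatingGroup]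
        simp [Nat.factorial]
      omega
    · have hK'even : Even (Fintype.card K') := by
        have h1 : Even (Fintype.card K' ^ m) := by rw [hm]; exact hFeven
        exact (Nat.even_pow.mp h1).1
      haveI : CharP K' 2 := charP_two_of_even_card hK'even
      obtain ⟨b, -, hb⟩ := FiniteField.card K' 2
      rw [hb] at hm hMdvd
      rw [hF, ha, ← pow_mul, ← pow_mul] at hm
      have hbm : (b : ℕ) * m = (a : ℕ) * r := Nat.pow_right_injective (le_refl 2) hm
      have hdvd' : 2 ^ (a : ℕ) * ((2 ^ (a : ℕ)) ^ 2 - 1) ∣ 2 ^ (b : ℕ) * ((2 ^ (b : ℕ)) ^ 2 - 1) := by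
        rw [← ha, ← hcH]
        exact dvd_trans hdvd hMdvd
      have hba := arith_char2 a b m r a.pos hm2 hr hbm hdvd'
      rw [hba, ← ha, ← hcH] at hMdvd
      have := Nat.le_of_dvd (by omega) hMdvd
      omega

end Cfsg.Agent.S5943
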