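import Cfsg.Statements.S5949
import Cfsg.Agent.Lib.Helper40.Elusive

set_option autoImplicit false
open scoped MatrixGroups
open Cfsg

namespace Cfsg.Agent.S5949

/-- Elements of prime order of PSL_n(q) with no fixed `m`-space. Here `T = PSL_n(F)` for a field `F` with `q = p^f` elements (`n ≥ 2`, `(n, q) ≠ (2, 2), (2, 3)`); an element of `T` of prime order `r` is represented by a matrix `x` of determinant 1 with `x^r` scalar and `x` not scalar; `i` denotes the multiplicative order of `q` modulo `r` (when `r ≠ p`), and `(a)_r` the `r`-part of `a`. Let `1 ≤ m ≤ n/2` and let `r` be a prime dividing the number of `m`-dimensional subspaces of `F^n`. Then every element of `T` of order `r` fixes some `m`-dimensional subspace (the action on `m`-spaces is `r`-elusive) if and only if `r ≠ p` and either (i) `i = 1` and (`r ∣ m`, or `(q−1)_r ≥ (n)_r` where in addition `q ≡ 1 (mod 4)` is required when `r = 2` and `n` is even), or (ii) `2 ≤ i ≤ m` and `n mod i ≥ m mod i`. -/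
theorem result {F : Type*} [Field F] [Fintype F] {p : ℕ} [Fact p.Prime] [CharP F p] {q : ℕ} (hq : Fintype.card F = q)
    (n m : ℕ) (hn : 2 ≤ n) (hT : (n, q) ≠ (2, 2) ∧ (n, q) ≠ (2, 3)) (hm : 1 ≤ m) (hmn : 2 * m ≤ n)
    (r : ℕ) [Fact r.Prime] (hrΩ : r ∣ Nat.card {W : Submodule F (Fin n → F) // Module.finrank F ↥W = m}) :
    (∀ x : Matrix.SpecialLinearGroup (Fin n) F,
      (∃ c : F, ((x ^ r : Matrix.SpecialLinearGroup (Fin n) F) : Matrix (Fin n) (Fin n) F) = c • (1 : Matrix (Fin n) (Fin n) F)) →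
      (∀ c : F, (x : Matrix (Fin n) (Fin n) F) ≠ c • (1 : Matrix (Fin n) (Fin n) F)) →
      ∃ W : Submodule F (Fin n → F), Module.finrank F ↥W = m ∧ W.map (Matrix.toLin' (x : Matrix (Fin n) (Fin n) F)) ≤ W) ↔
    (r ≠ p ∧
      ((orderOf (q : ZMod r) = 1 ∧ (r ∣ m ∨ (padicValNat r n ≤ padicValNat r (q - 1) ∧ (r = 2 → Even n → q % 4 = 1)))) ∨
       (2 ≤ orderOf (q : ZMod r) ∧ orderOf (q : ZMod r) ≤ m ∧ m % orderOf (q : ZMod r) ≤ n % orderOf (q : ZMod r)))) := by
  classical
  have hq2 : 2 ≤ q := by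
    rw [← hq]
    exact Fintype.one_lt_card
  have hfr : Module.finrank F (Fin n → F) = n := by simp
  have hn0 : n ≠ 0 := by omega
  constructor
  · intro hL
    have hrp : r ≠ p := by
      rintro rfl
      exact Lib.Helper40.Elusive.not_char_dvd_card (F := F) (V := Fin n → F) r m
        (by rw [hfr]; omega) hrΩ
    refine ⟨hrp, ?_⟩
    have hi0 := Lib.Helper40.Elusive.orderOf_pos_of_ne hq r hrp
    rcases (show orderOf (q : ZMod r) = 1 ∨ 2 ≤ orderOf (q : ZMod r) by omega) with h1 | h2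
    · left
      refine ⟨h1, ?_⟩
      by_contra hcon
      have hnd : ¬ r ∣ m := fun h => hcon (Or.inl h)
      have hnc : ¬ (padicValNat r n ≤ padicValNat r (q - 1) ∧ (r = 2 → Even n → q % 4 = 1)) :=
        fun h => hcon (Or.inr h)
      obtain ⟨x, hx1, hx2, hx3⟩ := Lib.Helper40.Elusive.forward_one hq hn0 h1 hnc
      obtain ⟨W, hW1, hW2⟩ := hL x hx1 hx2
      exact hnd (hW1 ▸ hx3 W hW2)
    · right
      obtain ⟨j, hj, hdvd⟩ := Lib.Helper40.Elusive.exists_of_dvd_card (F := F) (V := Fin n → F)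
        r m (by rw [hfr]; omega) hrΩ
      rw [hfr, hq] at hdvd
      have hin : orderOf (q : ZMod r) ≤ n :=
        (Nat.le_of_dvd (by omega) hdvd).trans (Nat.sub_le _ _)
      obtain ⟨x, hx1, hx2, hx3, -⟩ := Lib.Helper40.Elusive.forward_two hq n r hrp h2 hin
      obtain ⟨W, hW1, hW2⟩ := hL x hx1 hx2
      have h3 := hx3 W hW2
      rw [hW1] at h3
      refine ⟨h2, ?_, h3⟩
      by_contra hlt
      push Not at hlt
      obtain ⟨t, ht⟩ := hdvd
      have h4 : n % orderOf (q : ZMod r) = j := by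
        have h5 : n = j + orderOf (q : ZMod r) * t := by omega
        rw [h5, Nat.add_mul_mod_self_left, Nat.mod_eq_of_lt (by omega)]
      rw [Nat.mod_eq_of_lt hlt] at h3
      omega
  · rintro ⟨hrp, hR⟩ x ⟨c, hc⟩ hns
    rw [Matrix.SpecialLinearGroup.coe_pow] at hc
    obtain ⟨hss, i', k, a, hnk, hex, hcase⟩ :=
      Lib.Helper40.Elusive.backward hq n r hrp hn0 x c hc
    have hr2 : 2 ≤ r := (Fact.out : r.Prime).two_le
    have hi' : m % i' ≤ k := by
      rcases hcase with h | ⟨h, h1, h2⟩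
      · subst h
        rcases hR with ⟨h3, -⟩ | ⟨h3, h4, h5⟩
        · rw [h3, Nat.mod_one]
          exact Nat.zero_le _
        · refine h5.trans ?_
          have h6 : n % orderOf (q : ZMod r) = k % orderOf (q : ZMod r) := by
            rw [hnk]
            exact Nat.add_mul_mod_self_left _ _ _
          rw [h6]
          exact Nat.mod_le _ _
      · subst h
        rcases hR with ⟨h3, h4 | h4⟩ | ⟨h3, -, -⟩
        · rw [Nat.mod_eq_zero_of_dvd h4]
          exact Nat.zero_le _
        · exact absurd h4 h2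
        · omega
    obtain ⟨s, j, hs, hj, hm'⟩ := Lib.Helper40.Elusive.num1 n k i' a m hnk (by omega) hi'
    obtain ⟨W₁, -, hW₁, -, -, hfr₁, -⟩ := hex s 0 j 0 (by omega) (by omega)
    exact ⟨W₁, by rw [hfr₁, hm'], (Module.End.mem_invtSubmodule_iff_map_le _).1 hW₁⟩

end Cfsg.Agent.S5949
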