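import Cfsg.Statements.S5950
import Cfsg.Agent.Lib.Helper40.Elusive3
import Cfsg.Agent.S5949

set_option autoImplicit false
open scoped MatrixGroups
open Cfsg

namespace Cfsg.Agent.S5950

/-- Elements of prime order of PSL_n(q) fixing no decomposition `F^n = U ⊕ W` with `dim U = m`. Here `T = PSL_n(F)` for a field `F` with `q = p^f` elements (`n ≥ 2`, `(n, q) ≠ (2, 2), (2, 3)`); an element of `T` of prime order `r` is represented by a matrix `x` of determinant 1 with `x^r` scalar and `x` not scalar; `i` denotes the multiplicative order of `q` modulo `r` (when `r ≠ p`), and `(a)_r` the `r`-part of `a`. Let `n ≥ 3`, `1 ≤ m < n/2`, and let `r` be a prime dividing the number of such decompositions (unordered pairs `{U, W}` of complementary subspaces with `dim U = m`; since `m ≠ n − m` these are the ordered pairs with `dim U = m`). Then every element of `T` of order `r` fixes such a pair (fixes both `U` and `W` for some complementary `U, W` with `dim U = m`) if and only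 if one of: (i) `r = p > 2` and every partition of `n` into parts of size at most `p` contains, as a sub-multiset, a partition of `m`; (ii) `r = p = 2` and `n` is odd or `m` is even; (iii) `r ≠ p`, `i = 1`, and `r ∣ m` or `(q−1)_r ≥ (n)_r` (with `q ≡ 1 (mod 4)` required when `r = 2` and `n` is even); (iv) `r ≠ p`, `2 ≤ i ≤ m` and `n mod i ≥ m mod i`. -/
theorem result {F : Type*} [Field F] [Fintype F] {p : ℕ} [Fact p.Prime] [CharP F p] {q : ℕ} (hq : Fintype.card F = q)
    (n m : ℕ) (hn : 3 ≤ n) (hm : 1 ≤ m) (hmn : 2 * m < n)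
    (r : ℕ) [Fact r.Prime]
    (hrΩ : r ∣ Nat.card {P : Submodule F (Fin n → F) × Submodule F (Fin n → F) // IsCompl P.1 P.2 ∧ Module.finrank F ↥P.1 = m}) :
    (∀ x : Matrix.SpecialLinearGroup (Fin n) F,
      (∃ c : F, ((x ^ r : Matrix.SpecialLinearGroup (Fin n) F) : Matrix (Fin n) (Fin n) F) = c • (1 : Matrix (Fin n) (Fin n) F)) →
      (∀ c : F, (x : Matrix (Fin n) (Fin n) F) ≠ c • (1 : Matrix (Fin n) (Fin n) F)) →
      ∃ U W : Submodule F (Fin n → F), IsCompl U W ∧ Module.finrank F ↥U = m ∧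
        U.map (Matrix.toLin' (x : Matrix (Fin n) (Fin n) F)) ≤ U ∧ W.map (Matrix.toLin' (x : Matrix (Fin n) (Fin n) F)) ≤ W) ↔
    ((r = p ∧ 2 < p ∧ (∀ μ : Multiset ℕ, (∀ a ∈ μ, 0 < a ∧ a ≤ p) → μ.sum = n → ∃ ν : Multiset ℕ, ν ≤ μ ∧ ν.sum = m)) ∨
     (r = p ∧ p = 2 ∧ (Odd n ∨ Even m)) ∨
     (r ≠ p ∧
      ((orderOf (q : ZMod r) = 1 ∧ (r ∣ m ∨ (padicValNat r n ≤ padicValNat r (q - 1) ∧ (r = 2 → Even n → q % 4 = 1)))) ∨
       (2 ≤ orderOf (q : ZMod r) ∧ orderOf (q : ZMod r) ≤ m ∧ m % orderOf (q : ZMod r) ≤ n % orderOf (q : ZMod r))))) := by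
  classical
  have hr : r.Prime := Fact.out
  have hn0 : n ≠ 0 := by omega
  have hT : (n, q) ≠ (2, 2) ∧ (n, q) ≠ (2, 3) :=
    ⟨fun h => by simp only [Prod.mk.injEq] at h; omega,
      fun h => by simp only [Prod.mk.injEq] at h; omega⟩
  constructor
  · intro hL
    by_cases hrp : r = p
    · subst hrp
      by_cases h2 : r = 2
      · right
        left
        refine ⟨rfl, h2, ?_⟩
        by_contra hcon
        obtain ⟨hno, hne⟩ := not_or.1 hcon
        obtain ⟨k, hk⟩ : Even n := Nat.not_odd_iff_even.1 hno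
        obtain ⟨ν, hν, hνs⟩ := Lib.Helper40.Elusive.fwd_p n m (by omega) hL
          (Multiset.replicate k 2) (by
            intro a ha
            rw [Multiset.eq_of_mem_replicate ha, h2]
            exact ⟨by norm_num, le_rfl⟩) (by
            rw [Multiset.sum_replicate, smul_eq_mul]
            omega)
        apply hne
        obtain ⟨k', -, rfl⟩ := Multiset.le_replicate_iff.1 hν
        rw [Multiset.sum_replicate, smul_eq_mul] at hνs
        exact ⟨k', by omega⟩
      · left
        exact ⟨rfl, lt_of_le_of_ne hr.two_le (Ne.symm h2), fun μ hμ hsum =>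
          Lib.Helper40.Elusive.fwd_p n m (by omega) hL μ hμ hsum⟩
    · right
      right
      have hrΩ' := Lib.Helper40.Elusive.dvd_card_of_dvd_pairs n m r hrp hrΩ
      exact (Cfsg.Agent.S5949.result hq n m (by omega) hT hm (by omega) r hrΩ').1
        (fun x hx1 hx2 => by
          obtain ⟨U, W, -, hU, hUi, -⟩ := hL x hx1 hx2
          exact ⟨U, hU, hUi⟩)
  · rintro (⟨rfl, hp2, hν⟩ | ⟨rfl, hp2, hpar⟩ | ⟨hrp, hR⟩) x ⟨c, hc⟩ hns
    · rw [Matrix.SpecialLinearGroup.coe_pow] at hc
      exact Lib.Helper40.Elusive.bwd_p n m hn0 x c hc hν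
    · rw [Matrix.SpecialLinearGroup.coe_pow] at hc
      exact Lib.Helper40.Elusive.bwd_p n m hn0 x c hc (fun μ hμ hsum =>
        Lib.Helper40.Elusive.exists_sub_two μ (by rw [← hp2]; exact hμ) n m hsum (by omega) hpar)
    · have hrΩ' := Lib.Helper40.Elusive.dvd_card_of_dvd_pairs n m r hrp hrΩ
      obtain ⟨W₁, hW₁, hW₁i⟩ := (Cfsg.Agent.S5949.result hq n m (by omega) hT hm (by omega) r
        hrΩ').2 ⟨hrp, hR⟩ x ⟨c, hc⟩ hns
      rw [Matrix.SpecialLinearGroup.coe_pow] at hc
      obtain ⟨hss, -⟩ := Lib.Helper40.Elusive.backward hq n r hrp hn0 x c hc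
      obtain ⟨W₂, hW₂, hcompl⟩ := (Module.End.isSemisimple_iff.1 hss) W₁
        ((Module.End.mem_invtSubmodule_iff_map_le _).2 hW₁i)
      exact ⟨W₁, W₂, hcompl, hW₁, hW₁i, (Module.End.mem_invtSubmodule_iff_map_le _).1 hW₂⟩

end Cfsg.Agent.S5950
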