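import Cfsg.Statements.S5952

set_option autoImplicit false
open Cfsg

namespace Cfsg.Agent.S5952

open Module

section aux
variable {F V : Type*} [Field F] [AddCommGroup V] [Module F V] [FiniteDimensional F V]

/-- A subspace of each smaller dimension inside a given subspace. -/
theorem exists_le_finrank_eq (E : Submodule F V) (k : ℕ) (hk : k ≤ finrank F E) :
    ∃ W : Submodule F V, W ≤ E ∧ finrank F W = k := by
  classical
  let b := Module.finBasis F E
  let v : Fin k → V := fun i => (b (Fin.castLE hk i) : V)
  have hli : LinearIndependent F v := by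
    have h1 : LinearIndependent F (fun i : Fin k => b (Fin.castLE hk i)) :=
      b.linearIndependent.comp _ (Fin.castLE_injective hk)
    exact h1.map' E.subtype (Submodule.ker_subtype E)
  refine ⟨Submodule.span F (Set.range v), ?_, ?_⟩
  · rw [Submodule.span_le]
    rintro _ ⟨i, rfl⟩
    exact (b _).2
  · rw [finrank_span_eq_card hli]; simp

theorem finrank_biSup_eq {s a : ℕ} (U : Fin s → Submodule F V)
    (hUdim : ∀ j, finrank F (U j) = a) (hind : iSupIndep U) (T : Finset (Fin s)) :
    finrank F (⨆ j ∈ T, U j : Submodule F V) = T.card * a := by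
  classical
  induction T using Finset.induction_on with
  | empty => simp
  | insert j T hj ih =>
    rw [Finset.iSup_insert, Finset.card_insert_of_notMem hj]
    have hdisj : Disjoint (U j) (⨆ i ∈ T, U i) := hind.disjoint_biSup (by simpa using hj)
    have h2 := Submodule.finrank_sup_add_finrank_inf_eq (U j) (⨆ i ∈ T, U i)
    rw [hdisj.eq_bot, finrank_bot, add_zero, hUdim, ih] at h2
    rw [h2]; ring

theorem key_dvd (f : V →ₗ[F] V) {s a : ℕ} (U : Fin s → Submodule F V)
    (hUinv : ∀ j, (U j).map f ≤ U j) (hUdim : ∀ j, finrank F (U j) = a)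
    (hUirr : ∀ j, ∀ W : Submodule F V, W ≤ U j → W.map f ≤ W → W = ⊥ ∨ W = U j)
    (hind : iSupIndep U) (T : Finset (Fin s)) :
    ∀ W : Submodule F V, W ≤ ⨆ j ∈ T, U j → W.map f ≤ W → a ∣ finrank F W := by
  classical
  induction T using Finset.induction_on with
  | empty =>
    intro W hW _
    have hW' : W = ⊥ := by simpa using hW
    rw [hW']; simp
  | insert j T hj ih =>
    intro W hW hWinv
    rw [Finset.iSup_insert] at hW
    set C := ⨆ i ∈ T, U i with hC
    have hCinv : C.map f ≤ C := by
      rw [hC, Submodule.map_iSup]
      refine iSup_mono fun i => ?_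
      rw [Submodule.map_iSup]
      exact iSup_mono fun _ => hUinv i
    have hdisj : Disjoint (U j) C := hind.disjoint_biSup (by simpa using hj)
    set X := W ⊔ C with hX
    have hXinv : X.map f ≤ X := by rw [hX, Submodule.map_sup]; exact sup_le_sup hWinv hCinv
    have hXle : X ≤ C ⊔ U j := sup_le (by rwa [sup_comm] at hW) le_sup_left
    have hY := hUirr j (X ⊓ U j) inf_le_right
      ((Submodule.map_inf_le f).trans (inf_le_inf hXinv (hUinv j)))
    have hXeq : X = C ⊔ (X ⊓ U j) := by
      have h := sup_inf_assoc_of_le (U j) (le_sup_right : C ≤ X)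
      rw [inf_eq_right.mpr hXle] at h
      rw [inf_comm]; exact h
    rcases hY with hY | hY
    · rw [hY, sup_bot_eq] at hXeq
      exact ih W (le_sup_left.trans hXeq.le) hWinv
    · rw [hY] at hXeq
      have h1 := Submodule.finrank_sup_add_finrank_inf_eq W C
      have h2 := Submodule.finrank_sup_add_finrank_inf_eq C (U j)
      rw [hdisj.symm.eq_bot, finrank_bot, add_zero, hUdim] at h2
      have h3 := ih (W ⊓ C) inf_le_right
        ((Submodule.map_inf_le f).trans (inf_le_inf hWinv hCinv))
      have h4 : finrank F X = finrank F (C ⊔ U j : Submodule F V) := by rw [← hXeq]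
      rw [← hX] at h1
      have h5 : finrank F W = a + finrank F (W ⊓ C : Submodule F V) := by omega
      rw [h5]; exact Dvd.dvd.add (dvd_refl a) h3

end aux

/-- Which dimensions of invariant subspaces a semisimple linear map has. Let `V` be a finite-dimensional vector space over a field `F` and `f` an invertible semisimple linear map of `V`. Suppose `V` is the internal direct sum of the fixed space `C_V(f)` (the eigenspace for 1) and subspaces `U_1, …, U_s`, each `f`-invariant of dimension `a ≥ 1` on which `f` acts irreducibly (no `f`-invariant subspaces other than 0 and `U_j`). Let `0 < m < dim V` and `ℓ = m mod a`. Then `f` leaves some `m`-dimensional subspace invariant if and only if `dim C_V(f) ≥ m`, or `a ≤ m` and `dim C_V(f) ≥ ℓ`. -/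
theorem result {F V : Type*} [Field F] [AddCommGroup V] [Module F V]
    [FiniteDimensional F V] (f : V →ₗ[F] V) (hf : Function.Bijective f) (hss : Module.End.IsSemisimple f)
    {s a : ℕ} (ha : 1 ≤ a) (U : Fin s → Submodule F V)
    (hUinv : ∀ j, (U j).map f ≤ U j) (hUdim : ∀ j, Module.finrank F ↥(U j) = a)
    (hUirr : ∀ j, ∀ W : Submodule F V, W ≤ U j → W.map f ≤ W → W = ⊥ ∨ W = U j)
    (hdec : DirectSum.IsInternal (fun o : Option (Fin s) => o.elim (Module.End.eigenspace f 1) U))
    (m : ℕ) (hm : 0 < m) (hmV : m < Module.finrank F V) :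
    (∃ W : Submodule F V, Module.finrank F ↥W = m ∧ W.map f ≤ W) ↔
    (m ≤ Module.finrank F ↥(Module.End.eigenspace f 1) ∨
      (a ≤ m ∧ m % a ≤ Module.finrank F ↥(Module.End.eigenspace f 1))) := by
  classical
  set E := Module.End.eigenspace f 1 with hE
  have hind := hdec.submodule_iSupIndep
  have htop := hdec.submodule_iSup_eq_top
  have hindU : iSupIndep U := hind.comp (Option.some_injective _)
  set C := ⨆ j, U j with hC
  have hEC : E ⊔ C = ⊤ := by rw [← htop, iSup_option_elim]
  have hdisjEC : Disjoint E C := by
    refine (hind none).mono_right ?_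
    exact iSup_le fun b => le_iSup₂_of_le (some b) (by simp) le_rfl
  have hCuniv : C = ⨆ j ∈ (Finset.univ : Finset (Fin s)), U j := by simp [hC]
  have hCdim : finrank F C = s * a := by rw [hCuniv, finrank_biSup_eq U hUdim hindU]; simp
  have hVdim : finrank F V = finrank F E + s * a := by
    have h := Submodule.finrank_sup_add_finrank_inf_eq E C
    rw [hEC, hdisjEC.eq_bot, finrank_bot, finrank_top, hCdim] at h
    omega
  have hEfix : ∀ v ∈ E, f v = v := by
    intro v hv
    have := Module.End.mem_eigenspace_iff.mp hv
    simpa using this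
  constructor
  · rintro ⟨W, hWdim, hWinv⟩
    set g : V →ₗ[F] V := f - LinearMap.id with hg
    have hker : LinearMap.ker g = E := by
      ext v
      simp [hg, hE, sub_eq_zero]
    have hCinv : C.map f ≤ C := by
      rw [hC, Submodule.map_iSup]; exact iSup_mono hUinv
    have hrange : ∀ v, g v ∈ C := by
      intro v
      have hv : v ∈ E ⊔ C := by rw [hEC]; trivial
      obtain ⟨e, he, c, hc, rfl⟩ := Submodule.mem_sup.mp hv
      have h1 : g (e + c) = f c - c := by simp [hg, hEfix e he]
      rw [h1]
      exact C.sub_mem (hCinv (Submodule.mem_map_of_mem hc)) hc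
    set W' := W.map g with hW'
    have hW'le : W' ≤ C := by rintro _ ⟨w, _, rfl⟩; exact hrange w
    have hW'inv : W'.map f ≤ W' := by
      rintro _ ⟨_, ⟨w, hw, rfl⟩, rfl⟩
      refine ⟨f w, hWinv (Submodule.mem_map_of_mem hw), ?_⟩
      simp [hg]
    have hdvd : a ∣ finrank F W' :=
      key_dvd f U hUinv hUdim hUirr hindU Finset.univ W' (by rw [← hCuniv]; exact hW'le) hW'inv
    have hrn : finrank F W' + finrank F (W ⊓ E : Submodule F V) = finrank F W := by
      have h := LinearMap.finrank_range_add_finrank_ker (g.domRestrict W)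
      rw [LinearMap.range_domRestrict, LinearMap.ker_domRestrict] at h
      rw [← h]; congr 1
      rw [← Submodule.finrank_map_subtype_eq W, Submodule.map_comap_subtype, hker]
    have hle : finrank F (W ⊓ E : Submodule F V) ≤ finrank F E := Submodule.finrank_mono inf_le_right
    obtain ⟨k, hk⟩ := hdvd
    rcases Nat.eq_zero_or_pos k with rfl | hkpos
    · left; omega
    · right
      have hak : a ≤ a * k := Nat.le_mul_of_pos_right a hkpos
      constructor
      · omega
      · have h6 : m = a * k + finrank F (W ⊓ E : Submodule F V) := by omega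
        rw [h6, Nat.mul_add_mod]
        exact (Nat.mod_le _ _).trans hle
  · rintro (h | ⟨h1, h2⟩)
    · obtain ⟨W, hWE, hWdim⟩ := exists_le_finrank_eq E m h
      refine ⟨W, hWdim, ?_⟩
      rintro _ ⟨w, hw, rfl⟩
      rw [hEfix w (hWE hw)]; exact hw
    · set k := min s (m / a) with hk
      have hks : k ≤ s := min_le_left _ _
      have hkm : k * a ≤ m := by
        have h3 : k ≤ m / a := min_le_right _ _
        calc k * a ≤ (m / a) * a := Nat.mul_le_mul_right a h3
          _ ≤ m := Nat.div_mul_le_self m a
      have hrest : m - k * a ≤ finrank F E := by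
        rcases le_total s (m / a) with hle | hle
        · have h3 : k = s := min_eq_left hle
          rw [h3]; omega
        · have h3 : k = m / a := min_eq_right hle
          rw [h3]
          have h4 := Nat.div_add_mod m a
          have h5 : m - m / a * a = m % a := by rw [mul_comm]; omega
          rw [h5]; exact h2
      obtain ⟨T, -, hT⟩ := Finset.exists_subset_card_eq
        (s := (Finset.univ : Finset (Fin s))) (n := k) (by simpa using hks)
      obtain ⟨WE, hWE, hWEdim⟩ := exists_le_finrank_eq E (m - k * a) hrest
      set CT := ⨆ j ∈ T, U j with hCT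
      have hCTle : CT ≤ C := iSup₂_le fun j _ => le_iSup U j
      refine ⟨CT ⊔ WE, ?_, ?_⟩
      · have h := Submodule.finrank_sup_add_finrank_inf_eq CT WE
        have hd : CT ⊓ WE = ⊥ := (hdisjEC.symm.mono hCTle hWE).eq_bot
        rw [hd, finrank_bot, add_zero, finrank_biSup_eq U hUdim hindU T, hT, hWEdim] at h
        omega
      · rw [Submodule.map_sup]
        refine sup_le_sup ?_ ?_
        · rw [hCT, Submodule.map_iSup]
          refine iSup_mono fun j => ?_
          rw [Submodule.map_iSup]
          exact iSup_mono fun _ => hUinv j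
        · rintro _ ⟨w, hw, rfl⟩
          rw [hEfix w (hWE hw)]; exact hw

end Cfsg.Agent.S5952
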