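import Cfsg.Statements.S5957

set_option autoImplicit false
open Cfsg

namespace Cfsg.Agent.S5957

open Module

section linalg
variable {F V : Type*} [Field F] [AddCommGroup V] [Module F V] [FiniteDimensional F V]

theorem monomial_of_eigen (X : V →ₗ[F] V) (W : Submodule F V)
    (hall : ∀ w ∈ W, ∃ c : F, X w = c • w) :
    ∃ (ι : Type) (_ : Fintype ι) (b : ι → V) (τ : ι → ι) (c : ι → F),
      Function.Involutive τ ∧ LinearIndependent F b ∧ Submodule.span F (Set.range b) = W ∧
      ∀ k, X (b k) = c k • b (τ k) := by
  classical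
  let bW := Module.finBasis F W
  refine ⟨Fin (finrank F W), inferInstance, fun k => (bW k : V), id,
    fun k => Classical.choose (hall _ (bW k).2), fun k => rfl, ?_, ?_,
    fun k => Classical.choose_spec (hall _ (bW k).2)⟩
  · exact bW.linearIndependent.map' W.subtype (Submodule.ker_subtype W)
  · have h1 : Set.range (fun k => (bW k : V)) = W.subtype '' Set.range bW := by
      rw [← Set.range_comp]; rfl
    rw [h1, ← Submodule.map_span, bW.span_eq, Submodule.map_subtype_top]

theorem exists_monomial (X : V →ₗ[F] V) (z : F) (hX : ∀ v, X (X v) = z • v) :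
    ∀ (d : ℕ) (W : Submodule F V), finrank F W ≤ d → (∀ w ∈ W, X w ∈ W) →
    ∃ (ι : Type) (_ : Fintype ι) (b : ι → V) (τ : ι → ι) (c : ι → F),
      Function.Involutive τ ∧ LinearIndependent F b ∧ Submodule.span F (Set.range b) = W ∧
      ∀ k, X (b k) = c k • b (τ k) := by
  intro d
  induction d with
  | zero =>
    intro W hW _
    have hW' : W = ⊥ := Submodule.finrank_eq_zero.mp (by omega)
    subst hW'
    exact monomial_of_eigen X ⊥ (fun w hw => ⟨0, by rw [(Submodule.mem_bot F).mp hw]; simp⟩)
  | succ d ih =>
    intro W hW hinv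
    by_cases hall : ∀ w ∈ W, ∃ c : F, X w = c • w
    · exact monomial_of_eigen X W hall
    · push Not at hall
      obtain ⟨v, hvW, hv⟩ := hall
      have hv0 : v ≠ 0 := by rintro rfl; exact hv 0 (by simp)
      have hXv : X v ∉ Submodule.span F {v} := by
        intro h
        obtain ⟨c, hc⟩ := Submodule.mem_span_singleton.mp h
        exact hv c hc.symm
      obtain ⟨f, hf1, hf2⟩ := Submodule.exists_dual_map_eq_bot_of_notMem hXv inferInstance
      have hfv : f v = 0 := by
        have h1 : f v ∈ (Submodule.span F {v}).map f :=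
          Submodule.mem_map_of_mem (Submodule.mem_span_singleton_self v)
        rw [hf2] at h1; simpa using h1
      set φ : V →ₗ[F] F := (f (X v))⁻¹ • f with hφ
      have hφv : φ v = 0 := by simp [hφ, hfv]
      have hφXv : φ (X v) = 1 := by simp [hφ, inv_mul_cancel₀ hf1]
      set π : V →ₗ[F] V := (φ.comp X).smulRight v + φ.smulRight (X v) with hπ
      have hπapp : ∀ u, π u = φ (X u) • v + φ u • X v := by intro u; simp [hπ]
      have hπv : π v = v := by rw [hπapp, hφXv, hφv]; simp
      have hπXv : π (X v) = X v := by rw [hπapp, hX, map_smul, hφv, hφXv]; simp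
      have hπX : ∀ u, π (X u) = X (π u) := by
        intro u
        rw [hπapp, hπapp, hX, map_add, map_smul, map_smul, map_smul, hX, smul_eq_mul,
          add_comm, smul_smul, mul_comm]
      have hππ : ∀ u, π (π u) = π u := by
        intro u
        rw [hπapp u, map_add, map_smul, map_smul, hπv, hπXv]
      set W' := W ⊓ LinearMap.ker π with hW'
      have hW'inv : ∀ w ∈ W', X w ∈ W' := by
        intro w hw
        obtain ⟨hw1, hw2⟩ := Submodule.mem_inf.mp hw
        refine Submodule.mem_inf.mpr ⟨hinv w hw1, ?_⟩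
        rw [LinearMap.mem_ker] at hw2 ⊢
        rw [hπX, hw2, map_zero]
      have hlt : W' < W := by
        refine lt_of_le_of_ne inf_le_left ?_
        intro heq
        have h1 : v ∈ W' := by rw [heq]; exact hvW
        have h2 := (Submodule.mem_inf.mp h1).2
        rw [LinearMap.mem_ker, hπv] at h2
        exact hv0 h2
      have hd : finrank F W' ≤ d := by
        have h1 := Submodule.finrank_lt_finrank_of_lt hlt; omega
      obtain ⟨ι', hι', b', τ', c', hτ', hb', hspan', hXb'⟩ := ih W' hd hW'inv
      let p : Fin 2 → V := ![v, X v]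
      have hp : LinearIndependent F p :=
        (LinearIndependent.pair_iff' hv0).mpr (fun a h => hv a h.symm)
      have hpfix : ∀ y ∈ Submodule.span F (Set.range p), π y = y := by
        intro y hy
        have hle : Submodule.span F (Set.range p) ≤ LinearMap.eqLocus π LinearMap.id := by
          rw [Submodule.span_le]
          rintro _ ⟨i, rfl⟩
          fin_cases i
          · exact hπv
          · exact hπXv
        exact hle hy
      have hpW : Submodule.span F (Set.range p) ≤ W := by
        rw [Submodule.span_le]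
        rintro _ ⟨i, rfl⟩
        fin_cases i
        · exact hvW
        · exact hinv v hvW
      have hdisj : Disjoint (Submodule.span F (Set.range b')) (Submodule.span F (Set.range p)) := by
        rw [hspan', Submodule.disjoint_def]
        intro y hy1 hy2
        have h1 := (Submodule.mem_inf.mp hy1).2
        rw [LinearMap.mem_ker] at h1
        rw [← hpfix y hy2, h1]
      refine ⟨ι' ⊕ Fin 2, inferInstance, Sum.elim b' p, Sum.map τ' (Equiv.swap 0 1),
        Sum.elim c' ![1, z], ?_, ?_, ?_, ?_⟩
      · rintro (k | k)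
        · simp [hτ' k]
        · simp
      · exact hb'.sum_type hp hdisj
      · rw [Set.Sum.elim_range, Submodule.span_union, hspan']
        apply le_antisymm
        · exact sup_le inf_le_left hpW
        · intro u hu
          have h1 : π u ∈ Submodule.span F (Set.range p) := by
            rw [hπapp]
            exact Submodule.add_mem _
              (Submodule.smul_mem _ _ (Submodule.subset_span ⟨0, rfl⟩))
              (Submodule.smul_mem _ _ (Submodule.subset_span ⟨1, rfl⟩))
          have h2 : u - π u ∈ W' := by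
            refine Submodule.mem_inf.mpr ⟨W.sub_mem hu (hpW h1), ?_⟩
            rw [LinearMap.mem_ker, map_sub, hππ, sub_self]
          have h3 : u = (u - π u) + π u := by abel
          rw [h3]
          exact Submodule.add_mem_sup h2 h1
      · rintro (k | k)
        · simpa using hXb' k
        · fin_cases k
          · simp [p]
          · simp [p, hX]

end linalg

section comb
variable {ι : Type*} [DecidableEq ι]

theorem exists_invariant_subset (τ : ι → ι) (hτ : Function.Involutive τ) (Y : Finset ι)
    (hY : ∀ y ∈ Y, τ y ∈ Y) :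
    ∀ c : ℕ, c ≤ Y.card → (Even c ∨ ∃ y ∈ Y, τ y = y) →
      ∃ B : Finset ι, B ⊆ Y ∧ (∀ y ∈ B, τ y ∈ B) ∧ B.card = c := by
  intro c
  induction c using Nat.twoStepInduction with
  | zero => intro _ _; exact ⟨∅, Finset.empty_subset _, by simp, rfl⟩
  | one =>
    intro _ h
    rcases h with h | ⟨y, hy, hfix⟩
    · exact absurd h (by decide)
    · exact ⟨{y}, by simpa using hy, by simp [hfix], by simp⟩
  | more c ih _ =>
    intro hc h
    have h' : Even c ∨ ∃ y ∈ Y, τ y = y := by
      rcases h with h | h
      · left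
        rcases h with ⟨k, hk⟩
        exact ⟨k - 1, by omega⟩
      · right; exact h
    obtain ⟨B', hB'Y, hB'inv, hB'card⟩ := ih (by omega) h'
    have hcard2 : 2 ≤ (Y \ B').card := by
      rw [Finset.card_sdiff_of_subset hB'Y]; omega
    by_cases hmov : ∃ y ∈ Y \ B', τ y ≠ y
    · obtain ⟨y, hy, hne⟩ := hmov
      rw [Finset.mem_sdiff] at hy
      have hτy : τ y ∈ Y ∧ τ y ∉ B' :=
        ⟨hY y hy.1, fun h => hy.2 (by simpa [hτ y] using hB'inv _ h)⟩
      refine ⟨insert y (insert (τ y) B'), ?_, ?_, ?_⟩
      · intro w hw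
        simp only [Finset.mem_insert] at hw
        rcases hw with rfl | rfl | hw
        · exact hy.1
        · exact hτy.1
        · exact hB'Y hw
      · intro w hw
        simp only [Finset.mem_insert] at hw ⊢
        rcases hw with rfl | rfl | hw
        · right; left; rfl
        · left; exact hτ y
        · right; right; exact hB'inv w hw
      · rw [Finset.card_insert_of_notMem, Finset.card_insert_of_notMem hτy.2, hB'card]
        simp only [Finset.mem_insert, not_or]
        exact ⟨fun h => hne h.symm, hy.2⟩
    · push Not at hmov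
      obtain ⟨y1, hy1, y2, hy2, hne⟩ := Finset.one_lt_card.mp (by omega : 1 < (Y \ B').card)
      have h1 := Finset.mem_sdiff.mp hy1
      have h2 := Finset.mem_sdiff.mp hy2
      refine ⟨insert y1 (insert y2 B'), ?_, ?_, ?_⟩
      · intro w hw
        simp only [Finset.mem_insert] at hw
        rcases hw with rfl | rfl | hw
        · exact h1.1
        · exact h2.1
        · exact hB'Y hw
      · intro w hw
        simp only [Finset.mem_insert] at hw ⊢
        rcases hw with rfl | rfl | hw
        · left; exact hmov _ hy1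
        · right; left; exact hmov _ hy2
        · right; right; exact hB'inv w hw
      · rw [Finset.card_insert_of_notMem, Finset.card_insert_of_notMem h2.2, hB'card]
        simp only [Finset.mem_insert, not_or]
        exact ⟨hne, h1.2⟩

/-- `𝔅` is a partition of `Y` into `t` blocks of size `a`. -/
def IsPart (a : ℕ) (𝔅 : Finset (Finset ι)) (Y : Finset ι) (t : ℕ) : Prop :=
  𝔅.card = t ∧ (∀ B ∈ 𝔅, B.card = a) ∧
    (∀ B ∈ 𝔅, ∀ B' ∈ 𝔅, B ≠ B' → Disjoint B B') ∧ (∀ y, y ∈ Y ↔ ∃ B ∈ 𝔅, y ∈ B)

theorem IsPart.insert {a : ℕ} (ha : 1 ≤ a) {𝔅 : Finset (Finset ι)} {Y : Finset ι} {t : ℕ}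
    (h : IsPart a 𝔅 Y t) {B : Finset ι} (hB : B.card = a) (hBY : Disjoint B Y) :
    IsPart a (insert B 𝔅) (B ∪ Y) (t + 1) ∧ B ∉ 𝔅 := by
  obtain ⟨h1, h2, h3, h4⟩ := h
  have hBne : B.Nonempty := by rw [← Finset.card_pos, hB]; omega
  have hBnot : B ∉ 𝔅 := by
    intro hBm
    obtain ⟨y, hy⟩ := hBne
    exact (Finset.disjoint_left.mp hBY) hy ((h4 y).mpr ⟨B, hBm, hy⟩)
  refine ⟨⟨?_, ?_, ?_, ?_⟩, hBnot⟩
  · rw [Finset.card_insert_of_notMem hBnot, h1]
  · intro C hC
    rcases Finset.mem_insert.mp hC with rfl | hC
    · exact hB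
    · exact h2 C hC
  · intro C hC C' hC' hne
    have key : ∀ D ∈ 𝔅, Disjoint B D := by
      intro D hD
      rw [Finset.disjoint_left]
      intro y hyB hyD
      exact (Finset.disjoint_left.mp hBY) hyB ((h4 y).mpr ⟨D, hD, hyD⟩)
    rcases Finset.mem_insert.mp hC with h5 | h5
    · rcases Finset.mem_insert.mp hC' with h6 | h6
      · exact absurd (h5.trans h6.symm) hne
      · rw [h5]; exact key C' h6
    · rcases Finset.mem_insert.mp hC' with h6 | h6
      · rw [h6]; exact (key C h5).symm
      · exact h3 C h5 C' h6 hne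
  · intro y
    rw [Finset.mem_union]
    constructor
    · rintro (hy | hy)
      · exact ⟨B, Finset.mem_insert_self _ _, hy⟩
      · obtain ⟨C, hC, hyC⟩ := (h4 y).mp hy
        exact ⟨C, Finset.mem_insert_of_mem hC, hyC⟩
    · rintro ⟨C, hC, hyC⟩
      rcases Finset.mem_insert.mp hC with rfl | hC
      · exact Or.inl hyC
      · exact Or.inr ((h4 y).mpr ⟨C, hC, hyC⟩)

theorem exists_partition [LinearOrder ι] (a : ℕ) (ha : 1 ≤ a) (τ : ι → ι)
    (hτ : Function.Involutive τ) :
    ∀ (t : ℕ) (Y : Finset ι), (∀ y ∈ Y, τ y ∈ Y) → Y.card = a * t →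
    ∃ 𝔅 : Finset (Finset ι), IsPart a 𝔅 Y t ∧ (∀ B ∈ 𝔅, B.image τ ∈ 𝔅) := by
  intro t
  induction t using Nat.strong_induction_on with
  | _ t ih =>
    intro Y hY hcard
    rcases Nat.eq_zero_or_pos t with rfl | htpos
    · have h0 : Y = ∅ := Finset.card_eq_zero.mp (by simpa using hcard)
      subst h0
      exact ⟨∅, ⟨rfl, by simp, by simp, by simp⟩, by simp⟩
    by_cases hcase : Even a ∨ ∃ y ∈ Y, τ y = y
    · obtain ⟨B, hBY, hBinv, hBcard⟩ := exists_invariant_subset τ hτ Y hY a
        (by rw [hcard]; exact Nat.le_mul_of_pos_right a htpos) hcase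
      have hY'inv : ∀ y ∈ Y \ B, τ y ∈ Y \ B := by
        intro y hy
        rw [Finset.mem_sdiff] at hy ⊢
        exact ⟨hY y hy.1, fun h => hy.2 (by simpa [hτ y] using hBinv _ h)⟩
      have hY'card : (Y \ B).card = a * (t - 1) := by
        rw [Finset.card_sdiff_of_subset hBY, hcard, hBcard, Nat.mul_sub, mul_one]
      obtain ⟨𝔅', hpart, himg⟩ := ih (t - 1) (by omega) (Y \ B) hY'inv hY'card
      have hBimg : B.image τ = B := by
        apply Finset.eq_of_subset_of_card_le
        · intro y hy
          obtain ⟨w, hw, rfl⟩ := Finset.mem_image.mp hy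
          exact hBinv w hw
        · rw [Finset.card_image_of_injective _ hτ.injective]
      obtain ⟨hpart2, -⟩ := hpart.insert ha hBcard (Finset.disjoint_sdiff)
      refine ⟨insert B 𝔅', ?_, ?_⟩
      · have h1 : B ∪ Y \ B = Y := Finset.union_sdiff_of_subset hBY
        have h2 : t - 1 + 1 = t := by omega
        rw [h1, h2] at hpart2
        exact hpart2
      · intro C hC
        rcases Finset.mem_insert.mp hC with rfl | hC
        · rw [hBimg]; exact Finset.mem_insert_self _ _
        · exact Finset.mem_insert_of_mem (himg C hC)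
    · push Not at hcase
      obtain ⟨hodd, hnofix⟩ := hcase
      set P := Y.filter (fun y => y < τ y) with hP
      have hPτ : Disjoint P (P.image τ) := by
        rw [Finset.disjoint_left]
        intro y hy hy'
        obtain ⟨w, hw, rfl⟩ := Finset.mem_image.mp hy'
        have h1 := (Finset.mem_filter.mp hy).2
        have h2 := (Finset.mem_filter.mp hw).2
        rw [hτ w] at h1
        exact lt_asymm h1 h2
      have hunion : P ∪ P.image τ = Y := by
        ext y
        simp only [Finset.mem_union, Finset.mem_image, hP, Finset.mem_filter]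
        constructor
        · rintro (⟨hy, _⟩ | ⟨w, ⟨hw, _⟩, rfl⟩)
          · exact hy
          · exact hY w hw
        · intro hy
          rcases lt_trichotomy y (τ y) with h | h | h
          · left; exact ⟨hy, h⟩
          · exact absurd h.symm (hnofix y hy)
          · right; exact ⟨τ y, ⟨hY y hy, by rw [hτ y]; exact h⟩, hτ y⟩
      have hYcard2 : Y.card = 2 * P.card := by
        rw [← hunion, Finset.card_union_of_disjoint hPτ,
          Finset.card_image_of_injective _ hτ.injective]
        ring
      have ht2 : 2 ≤ t := by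
        rcases Nat.even_or_odd t with he | ho
        · obtain ⟨k, hk⟩ := he; omega
        · exfalso
          have h1 : Odd (a * t) := (Nat.not_even_iff_odd.mp hodd).mul ho
          rw [← hcard, hYcard2] at h1
          exact (Nat.not_even_iff_odd.mpr h1) (even_two_mul _)
      have haP : a ≤ P.card := by
        have h1 : a * 2 ≤ a * t := Nat.mul_le_mul_left a ht2
        omega
      obtain ⟨B, hBP, hBcard⟩ := Finset.exists_subset_card_eq haP
      set B' := B.image τ with hB'
      have hB'card : B'.card = a := by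
        rw [hB', Finset.card_image_of_injective _ hτ.injective, hBcard]
      have hBB' : Disjoint B B' := hPτ.mono hBP (Finset.image_subset_image hBP)
      have hBY : B ⊆ Y := hBP.trans (Finset.filter_subset _ _)
      have hB'Y : B' ⊆ Y := by
        intro y hy
        obtain ⟨w, hw, rfl⟩ := Finset.mem_image.mp hy
        exact hY w (hBY hw)
      have hB'img : B'.image τ = B := by
        rw [hB', Finset.image_image]
        have h1 : τ ∘ τ = id := funext hτ
        rw [h1, Finset.image_id]
      set Y' := Y \ (B ∪ B') with hY'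
      have hY'inv : ∀ y ∈ Y', τ y ∈ Y' := by
        intro y hy
        rw [hY', Finset.mem_sdiff, Finset.mem_union, not_or] at hy ⊢
        refine ⟨hY y hy.1, ?_, ?_⟩
        · intro h
          exact hy.2.2 (by rw [hB']; exact Finset.mem_image.mpr ⟨τ y, h, hτ y⟩)
        · intro h
          obtain ⟨w, hw, hwy⟩ := Finset.mem_image.mp h
          have h1 : w = y := hτ.injective hwy
          exact hy.2.1 (h1 ▸ hw)
      have hY'card : Y'.card = a * (t - 2) := by
        rw [hY', Finset.card_sdiff_of_subset (Finset.union_subset hBY hB'Y),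
          Finset.card_union_of_disjoint hBB', hBcard, hB'card, hcard, Nat.mul_sub]
        omega
      obtain ⟨𝔅', hpart, himg⟩ := ih (t - 2) (by omega) Y' hY'inv hY'card
      have hd1 : Disjoint B' Y' := by
        rw [Finset.disjoint_left]
        intro y hy hy'
        rw [hY', Finset.mem_sdiff, Finset.mem_union, not_or] at hy'
        exact hy'.2.2 hy
      obtain ⟨hpart1, -⟩ := hpart.insert ha hB'card hd1
      have hd2 : Disjoint B (B' ∪ Y') := by
        rw [Finset.disjoint_union_right]
        refine ⟨hBB', ?_⟩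
        rw [Finset.disjoint_left]
        intro y hy hy'
        rw [hY', Finset.mem_sdiff, Finset.mem_union, not_or] at hy'
        exact hy'.2.1 hy
      obtain ⟨hpart2, -⟩ := hpart1.insert ha hBcard hd2
      refine ⟨insert B (insert B' 𝔅'), ?_, ?_⟩
      · have h1 : B ∪ (B' ∪ Y') = Y := by
          rw [← Finset.union_assoc, hY']
          exact Finset.union_sdiff_of_subset (Finset.union_subset hBY hB'Y)
        have h2 : t - 2 + 1 + 1 = t := by omega
        rw [h1, h2] at hpart2
        exact hpart2
      · intro C hC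
        rcases Finset.mem_insert.mp hC with rfl | hC
        · exact Finset.mem_insert_of_mem (Finset.mem_insert_self _ _)
        · rcases Finset.mem_insert.mp hC with rfl | hC
          · rw [hB'img]; exact Finset.mem_insert_self _ _
          · exact Finset.mem_insert_of_mem (Finset.mem_insert_of_mem (himg C hC))

end comb

section assemble
variable {F V : Type*} [Field F] [AddCommGroup V] [Module F V] [FiniteDimensional F V]

theorem decomp_of_sq (X : V →ₗ[F] V) (z : F) (hX : ∀ v, X (X v) = z • v)
    (hinj : Function.Injective X) (a t : ℕ) (ha : 1 ≤ a) (hdim : finrank F V = a * t) :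
    ∃ D : Fin t → Submodule F V, (∀ j, finrank F (D j) = a) ∧ iSupIndep D ∧ iSup D = ⊤ ∧
      ∃ σ : Equiv.Perm (Fin t), ∀ j, (D j).map X = D (σ j) := by
  classical
  obtain ⟨ι, hι, b, τ, c, hτ, hb, hspan, hXb⟩ :=
    exists_monomial X z hX (finrank F V) ⊤ (by rw [finrank_top]) (fun _ _ => trivial)
  let _ : LinearOrder ι := LinearOrder.lift' (Fintype.equivFin ι) (Equiv.injective _)
  have hcardι : Fintype.card ι = a * t := by
    rw [← hdim, ← finrank_top F V, ← hspan, finrank_span_eq_card hb]
  obtain ⟨𝔅, ⟨h1, h2, h3, h4⟩, h5⟩ := exists_partition a ha τ hτ t Finset.univ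
    (fun _ _ => Finset.mem_univ _) (by rw [Finset.card_univ, hcardι])
  let e : Fin t ≃ {B // B ∈ 𝔅} := (Finset.equivFinOfCardEq h1).symm
  let blk : Fin t → Finset ι := fun j => (e j).1
  have hblk_mem : ∀ j, blk j ∈ 𝔅 := fun j => (e j).2
  have hblk_card : ∀ j, (blk j).card = a := fun j => h2 _ (hblk_mem j)
  have hblk_inj : ∀ j j', blk j = blk j' → j = j' := fun j j' h => e.injective (Subtype.ext h)
  have hblk_disj : ∀ j j', j ≠ j' → Disjoint (blk j) (blk j') := fun j j' hne =>
    h3 _ (hblk_mem j) _ (hblk_mem j') (fun h => hne (hblk_inj j j' h))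
  have hblk_cover : ∀ k : ι, ∃ j, k ∈ blk j := by
    intro k
    obtain ⟨B, hB, hk⟩ := (h4 k).mp (Finset.mem_univ k)
    refine ⟨e.symm ⟨B, hB⟩, ?_⟩
    show k ∈ (e (e.symm ⟨B, hB⟩)).1
    rw [Equiv.apply_symm_apply]; exact hk
  let σf : Fin t → Fin t := fun j => e.symm ⟨(blk j).image τ, h5 _ (hblk_mem j)⟩
  have hσblk : ∀ j, blk (σf j) = (blk j).image τ := by
    intro j
    show (e (e.symm ⟨(blk j).image τ, h5 _ (hblk_mem j)⟩)).1 = _
    rw [Equiv.apply_symm_apply]
  have hσinv : Function.Involutive σf := by
    intro j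
    apply hblk_inj
    rw [hσblk, hσblk, Finset.image_image]
    have h6 : τ ∘ τ = id := funext hτ
    rw [h6, Finset.image_id]
  let D : Fin t → Submodule F V := fun j => Submodule.span F (b '' (blk j : Set ι))
  have hDrank : ∀ j, finrank F (D j) = a := by
    intro j
    have h6 : (b '' (blk j : Set ι)) = Set.range (fun k : (blk j : Set ι) => b k) := by
      rw [Set.image_eq_range]
    show finrank F (Submodule.span F (b '' (blk j : Set ι))) = a
    have hli : LinearIndependent F (fun k : (blk j : Set ι) => b k) :=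
      hb.comp _ Subtype.val_injective
    rw [h6, finrank_span_eq_card hli]
    simp [hblk_card]
  refine ⟨D, hDrank, ?_, ?_, hσinv.toPerm, ?_⟩
  · intro j
    have hle : (⨆ (j') (_ : j' ≠ j), D j') ≤
        Submodule.span F (b '' (⋃ (j') (_ : j' ≠ j), (blk j' : Set ι))) := by
      refine iSup₂_le fun j' hj' => Submodule.span_mono (Set.image_mono ?_)
      exact Set.subset_iUnion₂ (s := fun j' (_ : j' ≠ j) => (blk j' : Set ι)) j' hj'
    refine (hb.disjoint_span_image ?_).mono_right hle
    rw [Set.disjoint_iUnion₂_right]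
    intro j' hj'
    exact_mod_cast hblk_disj j j' (Ne.symm hj')
  · rw [eq_top_iff, ← hspan, Submodule.span_le]
    rintro _ ⟨k, rfl⟩
    obtain ⟨j, hj⟩ := hblk_cover k
    exact Submodule.mem_iSup_of_mem j (Submodule.subset_span ⟨k, hj, rfl⟩)
  · intro j
    have hle : (D j).map X ≤ D (σf j) := by
      show (Submodule.span F (b '' (blk j : Set ι))).map X ≤ _
      rw [Submodule.map_span, Submodule.span_le]
      rintro _ ⟨_, ⟨k, hk, rfl⟩, rfl⟩
      rw [hXb k]
      refine Submodule.smul_mem _ _ (Submodule.subset_span ⟨τ k, ?_, rfl⟩)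
      rw [hσblk]
      exact_mod_cast Finset.mem_image_of_mem τ hk
    refine Submodule.eq_of_le_of_finrank_eq hle ?_
    rw [← (Submodule.equivMapOfInjective X hinj (D j)).finrank_eq, hDrank, hDrank]

end assemble

/-- Involutions of PSL_n(q) and imprimitive subgroups. Here `T = PSL_n(F)` for a field `F` with `q = p^f` elements (`n ≥ 2`, `(n, q) ≠ (2, 2), (2, 3)`), `n = a·t` with `t ≥ 2`, and Ω is the set of direct-sum decompositions of `F^n` into `t` subspaces of dimension `a` (unordered; their number is the number of ordered ones divided by `t!`), whose stabilizers are the imprimitive subgroups of type GL_a(q) ≀ S_t (maximal except in some small cases; maximality is not assumed); an element of `T` of prime order `r` (a matrix `x` of determinant 1 with `x^r` scalar, `x` not scalar) fixes a point of Ω when it permutes the summands of some such decomposition. If the number of such decompositions is even, then every involution of `T` stabilizes one of them (the action is 2-elusive). -/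
theorem result {F : Type*} [Field F] [Fintype F] {p : ℕ} [Fact p.Prime] [CharP F p] {q : ℕ} (hq : Fintype.card F = q)
    (n a t : ℕ) (hn : 2 ≤ n) (hT : (n, q) ≠ (2, 2) ∧ (n, q) ≠ (2, 3)) (hat : n = a * t) (ha : 1 ≤ a) (ht : 2 ≤ t)
    (hΩ : 2 ∣ Nat.card {D : Fin t → Submodule F (Fin n → F) // Cfsg.Geo.IsMDecomposition a D} / Nat.factorial t)
    (x : Matrix.SpecialLinearGroup (Fin n) F)
    (hx1 : ∃ z : F, ((x ^ 2 : Matrix.SpecialLinearGroup (Fin n) F) : Matrix (Fin n) (Fin n) F) = z • (1 : Matrix (Fin n) (Fin n) F))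
    (hx2 : ∀ z : F, (x : Matrix (Fin n) (Fin n) F) ≠ z • (1 : Matrix (Fin n) (Fin n) F)) :
    ∃ D : Fin t → Submodule F (Fin n → F), Cfsg.Geo.IsMDecomposition a D ∧
        ∃ σ : Equiv.Perm (Fin t), ∀ j, (D j).map (Matrix.toLin' (x : Matrix (Fin n) (Fin n) F)) = D (σ j) := by
  obtain ⟨z, hz⟩ := hx1
  set X := Matrix.toLin' (x : Matrix (Fin n) (Fin n) F) with hXdef
  have hX : ∀ v, X (X v) = z • v := by
    intro v
    have h1 : (x : Matrix (Fin n) (Fin n) F) * (x : Matrix (Fin n) (Fin n) F)
        = z • (1 : Matrix (Fin n) (Fin n) F) := by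
      rw [← hz, pow_two, Matrix.SpecialLinearGroup.coe_mul]
    have h2 : X (X v) = Matrix.toLin' ((x : Matrix (Fin n) (Fin n) F) * (x : Matrix (Fin n) (Fin n) F)) v := by
      rw [Matrix.toLin'_mul]; rfl
    rw [h2, h1]
    simp
  have hinj : Function.Injective X := by
    have h1 : ∀ v, Matrix.toLin' ((x⁻¹ : Matrix.SpecialLinearGroup (Fin n) F) : Matrix (Fin n) (Fin n) F) (X v) = v := by
      intro v
      have h2 : Matrix.toLin' ((x⁻¹ : Matrix.SpecialLinearGroup (Fin n) F) : Matrix (Fin n) (Fin n) F) (X v)
          = Matrix.toLin' (((x⁻¹ : Matrix.SpecialLinearGroup (Fin n) F) : Matrix (Fin n) (Fin n) F) * (x : Matrix (Fin n) (Fin n) F)) v := by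
        rw [Matrix.toLin'_mul]; rfl
      rw [h2, ← Matrix.SpecialLinearGroup.coe_mul, inv_mul_cancel]
      simp
    exact Function.LeftInverse.injective h1
  obtain ⟨D, hD1, hD2, hD3, σ, hσ⟩ := decomp_of_sq X z hX hinj a t ha (by simp [hat])
  exact ⟨D, ⟨ht, ha, hD1, hD2, hD3⟩, σ, hσ⟩

end Cfsg.Agent.S5957
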