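import Cfsg.Statements.S5960
import Cfsg.Agent.Lib.Helper99.Symp
import Cfsg.Agent.Lib.Helper16.SpInv.Planes

set_option autoImplicit false
open scoped MatrixGroups
open Cfsg

namespace Cfsg.Agent.S5960

/-- Involutions of PSp_n(q) and imprimitive subgroups. Here `T = PSp_n(q)`, `n = 2d ≥ 4`, `(n, q) ≠ (4, 2)`, realised through the symplectic matrices over the field `F` with `q` elements and the standard alternating form; `n = a·t` with `a` even and `t ≥ 2`, and Ω is the (nonempty) set of orthogonal decompositions of `F^n` into `t` nondegenerate subspaces of dimension `a` (unordered; counted as ordered ones divided by `t!`), whose stabilizers are the imprimitive subgroups of type Sp_a(q) ≀ S_t (maximality is not assumed); an element of `T` of prime order `r` (a symplectic matrix `x` with `x^r` scalar, `x` not scalar) fixes a point of Ω when it permutes the summands of some such decomposition. If the number of such decompositions is even, then every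 involution of `T` stabilizes one of them (the action is 2-elusive). -/
theorem result {F : Type*} [Field F] [Fintype F] {p : ℕ} [Fact p.Prime] [CharP F p] {q : ℕ} (hq : Fintype.card F = q)
    (d : ℕ) (hd : 2 ≤ d) (hT : (d, q) ≠ (2, 2))
    (a t : ℕ) (hat : 2 * d = a * t) (ha : 2 ≤ a) (hae : Even a) (ht : 2 ≤ t) (hΩ : 2 ∣ Nat.card {D : Fin t → Submodule F (Fin d ⊕ Fin d → F) // (Cfsg.Geo.IsMDecomposition a D ∧ (∀ j, ∀ u ∈ D j, u ≠ 0 → ∃ v ∈ D j, Cfsg.sympForm d F u v ≠ 0) ∧
          (∀ j j', j ≠ j' → ∀ u ∈ D j, ∀ v ∈ D j', Cfsg.sympForm d F u v = 0))} / Nat.factorial t)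
    (x : ↥(Matrix.symplecticGroup (Fin d) F))
    (hx1 : ∃ z : F, ((x ^ 2 : ↥(Matrix.symplecticGroup (Fin d) F)) : Matrix (Fin d ⊕ Fin d) (Fin d ⊕ Fin d) F) = z • (1 : Matrix (Fin d ⊕ Fin d) (Fin d ⊕ Fin d) F))
    (hx2 : ∀ z : F, (x : Matrix (Fin d ⊕ Fin d) (Fin d ⊕ Fin d) F) ≠ z • (1 : Matrix (Fin d ⊕ Fin d) (Fin d ⊕ Fin d) F)) :
    ∃ D : Fin t → Submodule F (Fin d ⊕ Fin d → F), (Cfsg.Geo.IsMDecomposition a D ∧ (∀ j, ∀ u ∈ D j, u ≠ 0 → ∃ v ∈ D j, Cfsg.sympForm d F u v ≠ 0) ∧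
          (∀ j j', j ≠ j' → ∀ u ∈ D j, ∀ v ∈ D j', Cfsg.sympForm d F u v = 0)) ∧
        ∃ σ : Equiv.Perm (Fin t), ∀ j, (D j).map (Matrix.toLin' (x : Matrix (Fin d ⊕ Fin d) (Fin d ⊕ Fin d) F)) = D (σ j) := by
  obtain ⟨z, hz⟩ := hx1
  set A : Matrix (Fin d ⊕ Fin d) (Fin d ⊕ Fin d) F := (x : Matrix (Fin d ⊕ Fin d) (Fin d ⊕ Fin d) F) with hA
  set X := Matrix.toLin' A with hXdef
  have hXapp : ∀ v, X v = A.mulVec v := fun v => Matrix.toLin'_apply A v
  have hAA : A * A = z • (1 : Matrix (Fin d ⊕ Fin d) (Fin d ⊕ Fin d) F) := by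
    rw [← hz, pow_two]; rfl
  have hX : ∀ v, X (X v) = z • v := by
    intro v
    have h2 : X (X v) = Matrix.toLin' (A * A) v := by
      rw [Matrix.toLin'_mul]; rfl
    rw [h2, hAA]
    simp
  have hinv : ∀ u v, Cfsg.Agent.Lib.Helper99.sympB (F := F) d (X u) (X v)
      = Cfsg.Agent.Lib.Helper99.sympB (F := F) d u v := by
    intro u v
    rw [hXapp, hXapp]
    exact Cfsg.Agent.Lib.Helper99.sympB_invariant d x.2 u v
  have hzz : z * z = 1 := by
    let u0 : Fin d ⊕ Fin d → F := Pi.single (Sum.inl ⟨0, by omega⟩) 1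
    have hu0 : u0 ≠ 0 := by
      intro h
      have := congrFun h (Sum.inl ⟨0, by omega⟩)
      simp [u0] at this
    have h3 : ∃ v, Cfsg.Agent.Lib.Helper99.sympB (F := F) d u0 v ≠ 0 := by
      by_contra hcon
      push Not at hcon
      exact hu0 (Cfsg.Agent.Lib.Helper99.sympB_nondeg d u0 hcon)
    obtain ⟨v, hv⟩ := h3
    have h4 := hinv (X u0) (X v)
    rw [hX, hX, hinv] at h4
    simp only [map_smul, LinearMap.smul_apply, smul_eq_mul] at h4
    have h5 : (z * z - 1) * Cfsg.Agent.Lib.Helper99.sympB (F := F) d u0 v = 0 := by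
      linear_combination h4
    exact sub_eq_zero.mp ((mul_eq_zero.mp h5).resolve_right hv)
  have hz' : z = 1 ∨ (z = -1 ∧ (2 : F) ≠ 0) := by
    rcases mul_self_eq_one_iff.mp hzz with hz1 | hz1
    · exact Or.inl hz1
    · by_cases h2 : (2 : F) = 0
      · left
        rw [hz1]
        linear_combination (-1 : F) * h2
      · exact Or.inr ⟨hz1, h2⟩
  obtain ⟨m, hm⟩ := hae
  have hdim : Module.finrank F (Fin d ⊕ Fin d → F) = 2 * (m * t) := by
    rw [Module.finrank_fintype_fun_eq_card, Fintype.card_sum, Fintype.card_fin]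
    have h1 : a * t = (m + m) * t := by rw [hm]
    have h2 : (m + m) * t = 2 * (m * t) := by ring
    omega
  obtain ⟨D, σ, hfr, hind, hsup, hnd, horth, hmap⟩ :=
    Cfsg.Agent.Lib.Helper16.SpInv.decomp_abstract (Cfsg.Agent.Lib.Helper99.sympB (F := F) d)
      (Cfsg.Agent.Lib.Helper99.sympB_isAlt d) (Cfsg.Agent.Lib.Helper99.sympB_nondeg d) X hinv z
      hz' hX m t hdim
  refine ⟨D, ⟨⟨ht, by omega, fun j => by rw [hfr j]; omega, hind, hsup⟩, ?_, ?_⟩, σ, hmap⟩
  · intro j u hu hu0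
    by_contra hcon
    push Not at hcon
    apply hu0
    apply hnd j u hu
    intro v hv
    rw [Cfsg.Agent.Lib.Helper99.sympB_apply]
    exact hcon v hv
  · intro j j' hjj u hu v hv
    rw [← Cfsg.Agent.Lib.Helper99.sympB_apply]
    exact horth j j' hjj u hu v hv

end Cfsg.Agent.S5960
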