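import Cfsg.Statements.S5962
import Cfsg.Agent.Lib.Helper99.Symp

set_option autoImplicit false
open scoped MatrixGroups
open Cfsg

namespace Cfsg.Agent.S5962

open Module Cfsg.Agent.Lib.Helper99

section core
variable {F V : Type*} [Field F] [AddCommGroup V] [Module F V] [FiniteDimensional F V]

omit [FiniteDimensional F V] in
theorem map_eq_self_of (X : V →ₗ[F] V) (S : Submodule F V) (h1 : ∀ y ∈ S, X y ∈ S)
    (h2 : ∀ y ∈ S, ∃ y' ∈ S, X y' = y) : S.map X = S := by
  apply le_antisymm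
  · rintro _ ⟨y, hy, rfl⟩
    exact h1 y hy
  · intro y hy
    obtain ⟨y', hy', rfl⟩ := h2 y hy
    exact Submodule.mem_map_of_mem hy'

omit [FiniteDimensional F V] in
theorem nondeg_step (B : LinearMap.BilinForm F V) (hB : B.IsAlt) (M : Submodule F V)
    (hM : NondegOn B M) (hM0 : M ≠ ⊥) :
    ∃ u ∈ M, ∃ u' ∈ M, B u u' ≠ 0 ∧ True ∧ NondegOn B (M ⊓ perp2 B u u') := by
  obtain ⟨u, hu, hu0⟩ := (Submodule.ne_bot_iff M).mp hM0
  have h1 : ∃ u' ∈ M, B u u' ≠ 0 := by
    by_contra hcon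
    push Not at hcon
    exact hu0 (hM u hu hcon)
  obtain ⟨u', hu', hne⟩ := h1
  exact ⟨u, hu, u', hu', hne, trivial, nondegOn_perp2 hB hM hu hu' hne⟩

theorem core_pos (B : LinearMap.BilinForm F V) (hB : B.IsAlt)
    (hnd : ∀ u, (∀ v, B u v = 0) → u = 0) (h2 : (2 : F) ≠ 0) (X : V →ₗ[F] V)
    (hX : ∀ v, X (X v) = v) (hinv : ∀ u v, B (X u) (X v) = B u v) :
    ∃ U W : Submodule F V, IsCompl U W ∧ (∀ a ∈ U, ∀ b ∈ U, B a b = 0) ∧
      (∀ a ∈ W, ∀ b ∈ W, B a b = 0) ∧ U.map X = U ∧ W.map X = W := by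
  set Vp : Submodule F V := LinearMap.ker (X - LinearMap.id) with hVp
  set Vm : Submodule F V := LinearMap.ker (X + LinearMap.id) with hVm
  have memp : ∀ v, v ∈ Vp ↔ X v = v := by
    intro v
    simp [hVp, sub_eq_zero]
  have memm : ∀ v, v ∈ Vm ↔ X v = -v := by
    intro v
    simp [hVm, add_eq_zero_iff_eq_neg]
  have horth : ∀ a ∈ Vp, ∀ b ∈ Vm, B a b = 0 := by
    intro a ha b hb
    have h1 := hinv a b
    rw [(memp a).mp ha, (memm b).mp hb, map_neg] at h1
    have h3 : (2 : F) * B a b = 0 := by linear_combination -h1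
    exact (mul_eq_zero.mp h3).resolve_left h2
  have horth' : ∀ a ∈ Vp, ∀ b ∈ Vm, B b a = 0 := by
    intro a ha b hb
    rw [← hB.neg_eq a b, horth a ha b hb, neg_zero]
  have hdec : ∀ v : V, ∃ a ∈ Vp, ∃ b ∈ Vm, v = a + b := by
    intro v
    refine ⟨(2 : F)⁻¹ • (v + X v), ?_, (2 : F)⁻¹ • (v - X v), ?_, ?_⟩
    · rw [memp, map_smul, map_add, hX, add_comm]
    · rw [memm, map_smul, map_sub, hX, ← smul_neg, neg_sub]
    · rw [← smul_add]
      have h3 : v + X v + (v - X v) = (2 : F) • v := by rw [two_smul]; abel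
      rw [h3, smul_smul, inv_mul_cancel₀ h2, one_smul]
  have hndp : NondegOn B Vp := by
    intro u hu huv
    apply hnd u
    intro w
    obtain ⟨a, ha, b, hb, rfl⟩ := hdec w
    rw [map_add, huv a ha, horth u hu b hb, add_zero]
  have hndm : NondegOn B Vm := by
    intro u hu huv
    apply hnd u
    intro w
    obtain ⟨a, ha, b, hb, rfl⟩ := hdec w
    rw [map_add, huv b hb, horth' a ha u hu, add_zero]
  have hpeel := peel B hB (NondegOn B) (fun _ _ => True) (fun _ _ => True) trivial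
    (fun _ _ _ _ _ _ => trivial) (fun M hM hM0 => nondeg_step B hB M hM hM0)
  obtain ⟨Up, Wp, hp1, hp2, hp3, hp4, -⟩ := hpeel (finrank F Vp) Vp le_rfl hndp
  obtain ⟨Um, Wm, hm1, hm2, hm3, hm4, -⟩ := hpeel (finrank F Vm) Vm le_rfl hndm
  have hUp : Up ≤ Vp := hp2 ▸ le_sup_left
  have hWp : Wp ≤ Vp := hp2 ▸ le_sup_right
  have hUm : Um ≤ Vm := hm2 ▸ le_sup_left
  have hWm : Wm ≤ Vm := hm2 ▸ le_sup_right
  have hVpm : ∀ y, y ∈ Vp → y ∈ Vm → y = 0 := by
    intro y hy1 hy2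
    have h1 := (memp y).mp hy1
    rw [(memm y).mp hy2] at h1
    have h3 : (2 : F) • y = 0 := by
      rw [two_smul]
      calc y + y = y + (-y) := by rw [h1]
        _ = 0 := by abel
    exact (smul_eq_zero.mp h3).resolve_left h2
  have hiso : ∀ (S T : Submodule F V), S ≤ Vp → T ≤ Vm → (∀ a ∈ S, ∀ b ∈ S, B a b = 0) →
      (∀ a ∈ T, ∀ b ∈ T, B a b = 0) → ∀ a ∈ S ⊔ T, ∀ b ∈ S ⊔ T, B a b = 0 := by
    intro S T hS hT hS0 hT0 y hy y' hy'
    obtain ⟨a, ha, b, hb, rfl⟩ := Submodule.mem_sup.mp hy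
    obtain ⟨a', ha', b', hb', rfl⟩ := Submodule.mem_sup.mp hy'
    simp [hS0 a ha a' ha', hT0 b hb b' hb', horth a (hS ha) b' (hT hb'),
      horth' a' (hS ha') b (hT hb)]
  have hmap : ∀ (S T : Submodule F V), S ≤ Vp → T ≤ Vm → (S ⊔ T).map X = S ⊔ T := by
    intro S T hS hT
    rw [Submodule.map_sup]
    congr 1
    · apply map_eq_self_of
      · intro y hy
        rw [(memp y).mp (hS hy)]; exact hy
      · intro y hy
        exact ⟨y, hy, (memp y).mp (hS hy)⟩
    · apply map_eq_self_of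
      · intro y hy
        rw [(memm y).mp (hT hy)]; exact T.neg_mem hy
      · intro y hy
        refine ⟨-y, T.neg_mem hy, ?_⟩
        rw [map_neg, (memm y).mp (hT hy), neg_neg]
  refine ⟨Up ⊔ Um, Wp ⊔ Wm, IsCompl.of_eq ?_ ?_, hiso Up Um hUp hUm hp3 hm3,
    hiso Wp Wm hWp hWm hp4 hm4, hmap Up Um hUp hUm, hmap Wp Wm hWp hWm⟩
  · rw [eq_bot_iff]
    intro y hy
    obtain ⟨hy1, hy2⟩ := Submodule.mem_inf.mp hy
    obtain ⟨a, ha, b, hb, rfl⟩ := Submodule.mem_sup.mp hy1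
    obtain ⟨c, hc, e, he, heq⟩ := Submodule.mem_sup.mp hy2
    have h1 : a - c = e - b := by
      calc a - c = (a + b) - c - b := by abel
        _ = (c + e) - c - b := by rw [heq]
        _ = e - b := by abel
    have h3 : a - c = 0 := hVpm _ (Vp.sub_mem (hUp ha) (hWp hc))
      (h1 ▸ Vm.sub_mem (hWm he) (hUm hb))
    have h4 : e - b = 0 := h1 ▸ h3
    have h5 : a = c := sub_eq_zero.mp h3
    have h6 : e = b := sub_eq_zero.mp h4
    have h7 : a ∈ Up ⊓ Wp := Submodule.mem_inf.mpr ⟨ha, h5 ▸ hc⟩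
    have h8 : b ∈ Um ⊓ Wm := Submodule.mem_inf.mpr ⟨hb, h6 ▸ he⟩
    rw [hp1] at h7
    rw [hm1] at h8
    rw [(Submodule.mem_bot F).mp h7, (Submodule.mem_bot F).mp h8, add_zero]
    exact Submodule.zero_mem _
  · rw [eq_top_iff]
    intro v _
    obtain ⟨a, ha, b, hb, rfl⟩ := hdec v
    rw [← hp2] at ha
    rw [← hm2] at hb
    obtain ⟨a1, ha1, a2, ha2, rfl⟩ := Submodule.mem_sup.mp ha
    obtain ⟨b1, hb1, b2, hb2, rfl⟩ := Submodule.mem_sup.mp hb
    have h1 : a1 + a2 + (b1 + b2) = (a1 + b1) + (a2 + b2) := by abel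
    rw [h1]
    exact Submodule.add_mem_sup (Submodule.add_mem_sup ha1 hb1) (Submodule.add_mem_sup ha2 hb2)

theorem core_neg (B : LinearMap.BilinForm F V) (hB : B.IsAlt)
    (hnd : ∀ u, (∀ v, B u v = 0) → u = 0) (h2 : (2 : F) ≠ 0) (X : V →ₗ[F] V)
    (hX : ∀ v, X (X v) = -v) (hinv : ∀ u v, B (X u) (X v) = B u v) :
    ∃ U W : Submodule F V, IsCompl U W ∧ (∀ a ∈ U, ∀ b ∈ U, B a b = 0) ∧
      (∀ a ∈ W, ∀ b ∈ W, B a b = 0) ∧ U.map X = W ∧ W.map X = U := by
  have hsymm : ∀ a b, B b (X a) = B a (X b) := by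
    intro a b
    have h1 := hinv b (X a)
    rw [hX, map_neg] at h1
    rw [← h1, ← hB.neg_eq a (X b), neg_neg]
  have hpeel := peel B hB (fun M => NondegOn B M ∧ ∀ m ∈ M, X m ∈ M) (fun u u' => u' = X u)
    (fun U W => W = U.map X) (by simp)
    (by
      intro U W u u' hR hP
      rw [hR, hP, Submodule.map_sup, Submodule.map_span, Set.image_singleton])
    (by
      rintro M ⟨hM, hMX⟩ hM0
      have h1 : ∃ u ∈ M, B u (X u) ≠ 0 := by
        by_contra hcon
        push Not at hcon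
        obtain ⟨m, hm, hm0⟩ := (Submodule.ne_bot_iff M).mp hM0
        apply hm0
        apply hM m hm
        intro b hb
        have h3 : B m (X (X (-b))) = 0 := by
          have h4 := hcon (m + X (-b)) (M.add_mem hm (hMX _ (M.neg_mem hb)))
          have h5 := hcon m hm
          have h6 := hcon (X (-b)) (hMX _ (M.neg_mem hb))
          have h7 := hsymm m (X (-b))
          simp only [map_add, LinearMap.add_apply] at h4
          rw [h5, h6, h7] at h4
          have h8 : (2 : F) * B m (X (X (-b))) = 0 := by linear_combination h4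
          exact (mul_eq_zero.mp h8).resolve_left h2
        rw [hX, neg_neg] at h3
        exact h3
      obtain ⟨u, hu, hne⟩ := h1
      refine ⟨u, hu, X u, hMX u hu, hne, rfl, nondegOn_perp2 hB hM hu (hMX u hu) hne, ?_⟩
      intro m hm
      obtain ⟨hmM, hmp⟩ := Submodule.mem_inf.mp hm
      rw [mem_perp2] at hmp
      refine Submodule.mem_inf.mpr ⟨hMX m hmM, ?_⟩
      rw [mem_perp2]
      constructor
      · have h4 := hinv m (X u)
        rw [hX, map_neg] at h4
        have h5 : B (X m) u = -B m (X u) := by rw [← h4, neg_neg]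
        rw [h5, hmp.2, neg_zero]
      · rw [hinv]; exact hmp.1)
  obtain ⟨U, W, h1, h3, h4, h5, h6⟩ := hpeel (finrank F V) ⊤ (by rw [finrank_top])
    ⟨fun u _ hu => hnd u (fun v => hu v Submodule.mem_top), fun _ _ => Submodule.mem_top⟩
  refine ⟨U, W, IsCompl.of_eq h1 h3, h4, h5, h6.symm, ?_⟩
  rw [h6, ← Submodule.map_comp]
  have h7 : X.comp X = -LinearMap.id := by
    ext v
    simp [hX]
  rw [h7, Submodule.map_neg, Submodule.map_id]

end core

/-- Involutions of PSp_n(q), q odd, and the subgroups GL_{n/2}(q).2. Here `T = PSp_n(q)`, `n = 2d ≥ 4`, `q` odd, realised through the symplectic matrices over the field `F` with `q` elements; Ω is the set of unordered pairs `{U, W}` of complementary totally isotropic `d`-spaces (`F^n = U ⊕ W`), whose stabilizers are the subgroups of type GL_d(q).2 (maximal except in some small cases; maximality is not assumed); an element of `T` of prime order `r` (a symplectic matrix `x` with `x^r` scalar,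 `x` not scalar) fixes such a pair when it fixes or interchanges `U` and `W`. If the number of such pairs is even, every involution of `T` fixes one of them (the action is 2-elusive). -/
theorem result {F : Type*} [Field F] [Fintype F] {p : ℕ} [Fact p.Prime] [CharP F p] {q : ℕ} (hq : Fintype.card F = q)
    (d : ℕ) (hd : 2 ≤ d) (hT : (d, q) ≠ (2, 2)) (hodd : Odd q)
    (hΩ : 2 ∣ Nat.card {P : Submodule F (Fin d ⊕ Fin d → F) × Submodule F (Fin d ⊕ Fin d → F) // IsCompl P.1 P.2 ∧ (∀ u ∈ P.1, ∀ v ∈ P.1, Cfsg.sympForm d F u v = 0) ∧ (∀ u ∈ P.2, ∀ v ∈ P.2, Cfsg.sympForm d F u v = 0)} / 2)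
    (x : ↥(Matrix.symplecticGroup (Fin d) F))
    (hx1 : ∃ z : F, ((x ^ 2 : ↥(Matrix.symplecticGroup (Fin d) F)) : Matrix (Fin d ⊕ Fin d) (Fin d ⊕ Fin d) F) = z • (1 : Matrix (Fin d ⊕ Fin d) (Fin d ⊕ Fin d) F))
    (hx2 : ∀ z : F, (x : Matrix (Fin d ⊕ Fin d) (Fin d ⊕ Fin d) F) ≠ z • (1 : Matrix (Fin d ⊕ Fin d) (Fin d ⊕ Fin d) F)) :
    ∃ U W : Submodule F (Fin d ⊕ Fin d → F), IsCompl U W ∧ (∀ u ∈ U, ∀ v ∈ U, Cfsg.sympForm d F u v = 0) ∧ (∀ u ∈ W, ∀ v ∈ W, Cfsg.sympForm d F u v = 0) ∧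
        ((U.map (Matrix.toLin' (x : Matrix (Fin d ⊕ Fin d) (Fin d ⊕ Fin d) F)) = U ∧ W.map (Matrix.toLin' (x : Matrix (Fin d ⊕ Fin d) (Fin d ⊕ Fin d) F)) = W) ∨
         (U.map (Matrix.toLin' (x : Matrix (Fin d ⊕ Fin d) (Fin d ⊕ Fin d) F)) = W ∧ W.map (Matrix.toLin' (x : Matrix (Fin d ⊕ Fin d) (Fin d ⊕ Fin d) F)) = U)) := by
  obtain ⟨z, hz⟩ := hx1
  set A : Matrix (Fin d ⊕ Fin d) (Fin d ⊕ Fin d) F := (x : Matrix (Fin d ⊕ Fin d) (Fin d ⊕ Fin d) F) with hA
  set X := Matrix.toLin' A with hXdef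
  have hXapp : ∀ v, X v = A.mulVec v := fun v => Matrix.toLin'_apply A v
  have hAA : A * A = z • (1 : Matrix (Fin d ⊕ Fin d) (Fin d ⊕ Fin d) F) := by
    rw [← hz, pow_two]; rfl
  have hX : ∀ v, X (X v) = z • v := by
    intro v
    have h2 : X (X v) = Matrix.toLin' (A * A) v := by
      rw [Matrix.toLin'_mul]; rfl
    rw [h2, hAA]
    simp
  have hinv : ∀ u v, sympB (F := F) d (X u) (X v) = sympB (F := F) d u v := by
    intro u v
    rw [hXapp, hXapp]
    exact sympB_invariant d x.2 u v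
  have h2 : (2 : F) ≠ 0 := by
    intro h20
    have h3 : ringChar F = 2 := CharP.ringChar_of_prime_eq_zero Nat.prime_two h20
    have h4 := FiniteField.even_card_of_char_two h3
    rw [hq] at h4
    exact (Nat.not_even_iff_odd.mpr hodd) (Nat.even_iff.mpr h4)
  have hzz : z * z = 1 := by
    let u0 : Fin d ⊕ Fin d → F := Pi.single (Sum.inl ⟨0, by omega⟩) 1
    have hu0 : u0 ≠ 0 := by
      intro h
      have := congrFun h (Sum.inl ⟨0, by omega⟩)
      simp [u0] at this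
    have h3 : ∃ v, sympB (F := F) d u0 v ≠ 0 := by
      by_contra hcon
      push Not at hcon
      exact hu0 (sympB_nondeg d u0 hcon)
    obtain ⟨v, hv⟩ := h3
    have h4 := hinv (X u0) (X v)
    rw [hX, hX, hinv] at h4
    simp only [map_smul, LinearMap.smul_apply, smul_eq_mul] at h4
    have h5 : (z * z - 1) * sympB (F := F) d u0 v = 0 := by linear_combination h4
    exact sub_eq_zero.mp ((mul_eq_zero.mp h5).resolve_right hv)
  rcases mul_self_eq_one_iff.mp hzz with hz1 | hz1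
  · obtain ⟨U, W, h3, h4, h5, h6, h7⟩ := core_pos (sympB (F := F) d) (sympB_isAlt d)
      (sympB_nondeg d) h2 X (fun v => by rw [hX, hz1, one_smul]) hinv
    refine ⟨U, W, h3, ?_, ?_, Or.inl ⟨h6, h7⟩⟩
    · intro u hu v hv; rw [← sympB_apply]; exact h4 u hu v hv
    · intro u hu v hv; rw [← sympB_apply]; exact h5 u hu v hv
  · obtain ⟨U, W, h3, h4, h5, h6, h7⟩ := core_neg (sympB (F := F) d) (sympB_isAlt d)
      (sympB_nondeg d) h2 X (fun v => by rw [hX, hz1, neg_smul, one_smul]) hinv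
    refine ⟨U, W, h3, ?_, ?_, Or.inr ⟨h6, h7⟩⟩
    · intro u hu v hv; rw [← sympB_apply]; exact h4 u hu v hv
    · intro u hu v hv; rw [← sympB_apply]; exact h5 u hu v hv

end Cfsg.Agent.S5962
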