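import Cfsg.Statements.S5963
import Cfsg.Agent.Lib.Helper40.Lagr2

set_option autoImplicit false
open scoped MatrixGroups
open Cfsg

namespace Cfsg.Agent.S5963

/-- Derangements of odd prime order of PSp_n(q), q odd, on pairs of complementary totally isotropic subspaces. Here `T = PSp_n(q)`, `n = 2d ≥ 4`, `q` odd, realised through the symplectic matrices over the field `F` with `q` elements; Ω is the set of unordered pairs `{U, W}` of complementary totally isotropic `d`-spaces (`F^n = U ⊕ W`), whose stabilizers are the subgroups of type GL_d(q).2 (maximal except in some small cases; maximality is not assumed); an element of `T` of prime order `r` (a symplectic matrix `x` with `x^r` scalar, `x` not scalar) fixes such a pair when it fixes or interchanges `U` and `W`. For every odd prime `r ≠ p` dividing the number of such pairs, some element of `T` of order `r` fixes no such pair (the action is never `r`-elusive for odd `r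 ≠ p`). -/
theorem result {F : Type*} [Field F] [Fintype F] {p : ℕ} [Fact p.Prime] [CharP F p] {q : ℕ} (hq : Fintype.card F = q)
    (d : ℕ) (hd : 2 ≤ d) (hT : (d, q) ≠ (2, 2)) (hodd : Odd q)
    (r : ℕ) [Fact r.Prime] (hr2 : r ≠ 2) (hrp : r ≠ p) (hΩ : r ∣ Nat.card {P : Submodule F (Fin d ⊕ Fin d → F) × Submodule F (Fin d ⊕ Fin d → F) // IsCompl P.1 P.2 ∧ (∀ u ∈ P.1, ∀ v ∈ P.1, Cfsg.sympForm d F u v = 0) ∧ (∀ u ∈ P.2, ∀ v ∈ P.2, Cfsg.sympForm d F u v = 0)} / 2) :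
    ∃ x : ↥(Matrix.symplecticGroup (Fin d) F),
      (∃ z : F, ((x ^ r : ↥(Matrix.symplecticGroup (Fin d) F)) : Matrix (Fin d ⊕ Fin d) (Fin d ⊕ Fin d) F) = z • (1 : Matrix (Fin d ⊕ Fin d) (Fin d ⊕ Fin d) F)) ∧
      (∀ z : F, (x : Matrix (Fin d ⊕ Fin d) (Fin d ⊕ Fin d) F) ≠ z • (1 : Matrix (Fin d ⊕ Fin d) (Fin d ⊕ Fin d) F)) ∧
      ¬ (∃ U W : Submodule F (Fin d ⊕ Fin d → F), IsCompl U W ∧ (∀ u ∈ U, ∀ v ∈ U, Cfsg.sympForm d F u v = 0) ∧ (∀ u ∈ W, ∀ v ∈ W, Cfsg.sympForm d F u v = 0) ∧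
        ((U.map (Matrix.toLin' (x : Matrix (Fin d ⊕ Fin d) (Fin d ⊕ Fin d) F)) = U ∧ W.map (Matrix.toLin' (x : Matrix (Fin d ⊕ Fin d) (Fin d ⊕ Fin d) F)) = W) ∨
         (U.map (Matrix.toLin' (x : Matrix (Fin d ⊕ Fin d) (Fin d ⊕ Fin d) F)) = W ∧ W.map (Matrix.toLin' (x : Matrix (Fin d ⊕ Fin d) (Fin d ⊕ Fin d) F)) = U))) := by
  classical
  have hr : r.Prime := Fact.out
  have hq1 : 1 < q := by
    rw [← hq]
    exact Fintype.one_lt_card
  have hΩ' : r ∣ Nat.card ↥(Cfsg.Agent.Lib.Helper40.Lagr.pairs d F) / 2 := hΩ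
  obtain ⟨j, hj1, hjd, hjdvd⟩ :=
    Cfsg.Agent.Lib.Helper40.Lagr.exists_dvd hq (by omega) r hrp hΩ'
  have h1 : ((q : ZMod r)) ^ j = -1 := by
    have h0 : ((q ^ j + 1 : ℕ) : ZMod r) = 0 := (ZMod.natCast_eq_zero_iff _ _).2 hjdvd
    push_cast at h0
    linear_combination h0
  have h2 : (q : ZMod r) ^ (2 * j) = 1 := by
    rw [mul_comm, pow_mul, h1]
    norm_num
  have hi_dvd : orderOf (q : ZMod r) ∣ 2 * j := orderOf_dvd_of_pow_eq_one h2
  have hi_ndvd : ¬ orderOf (q : ZMod r) ∣ j := by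
    intro h
    have h3 : (q : ZMod r) ^ j = 1 := orderOf_dvd_iff_pow_eq_one.1 h
    rw [h1] at h3
    have h4 : ((2 : ℕ) : ZMod r) = 0 := by
      push_cast
      linear_combination -h3
    rw [ZMod.natCast_eq_zero_iff] at h4
    exact hr2 ((Nat.prime_dvd_prime_iff_eq hr Nat.prime_two).1 h4)
  have hieven : Even (orderOf (q : ZMod r)) := by
    by_contra hodd
    rw [Nat.not_even_iff_odd] at hodd
    exact hi_ndvd ((Nat.Coprime.dvd_of_dvd_mul_left (Nat.coprime_two_right.2 hodd)) hi_dvd)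
  obtain ⟨b, hb⟩ := hieven
  have hb' : 2 * b = orderOf (q : ZMod r) := by omega
  have hbj : b ∣ j := by
    have h5 : 2 * b ∣ 2 * j := hb' ▸ hi_dvd
    exact (Nat.mul_dvd_mul_iff_left (by norm_num)).1 h5
  have hb1 : 1 ≤ b := by
    have h6 := Nat.pos_of_dvd_of_pos hi_dvd (by omega)
    omega
  have hbd : b ≤ d := (Nat.le_of_dvd (by omega) hbj).trans hjd
  obtain ⟨x, hxr, hx⟩ :=
    Cfsg.Agent.Lib.Helper40.Lagr.derange_lagr hq d r hr2 hrp b hb1 hbd hb'
  refine ⟨x, ⟨1, ?_⟩, ?_, hx⟩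
  · rw [SubmonoidClass.coe_pow, hxr, one_smul]
  · intro z hz
    apply hx
    have hz0 : z ≠ 0 := by
      rintro rfl
      rw [hz, zero_smul, zero_pow hr.ne_zero] at hxr
      have h7 := congrFun (congrFun hxr (Sum.inl ⟨0, by omega⟩)) (Sum.inl ⟨0, by omega⟩)
      simp at h7
    have hfix : ∀ U : Submodule F (Fin d ⊕ Fin d → F),
        U.map (Matrix.toLin' (x : Matrix (Fin d ⊕ Fin d) (Fin d ⊕ Fin d) F)) = U := by
      intro U
      rw [hz]
      apply le_antisymm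
      · rintro _ ⟨u, hu, rfl⟩
        rw [Matrix.toLin'_apply, Matrix.smul_mulVec, Matrix.one_mulVec]
        exact U.smul_mem z hu
      · intro u hu
        refine ⟨z⁻¹ • u, U.smul_mem _ hu, ?_⟩
        rw [Matrix.toLin'_apply, Matrix.smul_mulVec, Matrix.one_mulVec, smul_smul,
          mul_inv_cancel₀ hz0, one_smul]
    obtain ⟨hc, hU, hW⟩ := Cfsg.Agent.Lib.Helper40.Lagr.std_mem_pairs (F := F) (d := d)
    exact ⟨_, _, hc, hU, hW, Or.inl ⟨hfix _, hfix _⟩⟩

end Cfsg.Agent.S5963
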