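import Cfsg.Statements.S5964
import Cfsg.Agent.Lib.Helper40.Subf2

set_option autoImplicit false
open scoped MatrixGroups
open Cfsg

namespace Cfsg.Agent.S5964

/-- Involutions of PSL_n(q) and subfield subgroups. Here `T = PSL_n(F)` for a field `F` with `q = p^f` elements (`n ≥ 2`, `(n, q) ≠ (2, 2), (2, 3)`), `F₀` is the subfield with `q₀` elements where `q = q₀^k` for a prime `k`, and `H` is the subgroup of matrices of determinant 1 lying in the subfield group of `F₀` (invertible matrices over `F₀` times scalars) — a maximal subgroup of type GL_n(q₀) (the case `n = 2`, `q₀ = 2` is excluded); Ω is the set of `T`-conjugates of `H` (cosets of `H`), so an element of `T` of prime order `r` (a matrix `x` of determinant 1 with `x^r` scalar, `x` not scalar) fixes a point of Ω when some conjugate of `x` by a matrix of determinant 1 lies in `H`. Suppose the index of `H` is even. Then every involution of `T` is conjugate in `T` into `H` if and only if either `q` is even, or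 `k = 2` and `(n)_2 ≤ (q − 1)_2`. (For `q` odd and `k` odd the index of `H` is odd, so that case does not arise.) -/
theorem result {F : Type*} [Field F] [Fintype F] {p : ℕ} [Fact p.Prime] [CharP F p] {q : ℕ} (hq : Fintype.card F = q)
    (n : ℕ) (hn : 2 ≤ n) (hT : (n, q) ≠ (2, 2) ∧ (n, q) ≠ (2, 3))
    (F₀ : Subfield F) (k q₀ : ℕ) (hk : k.Prime) (hF₀ : Nat.card ↥F₀ = q₀) (hqk : q = q₀ ^ k) (hC5 : ¬ (n = 2 ∧ q₀ = 2)) (hΩ : 2 ∣ ((Cfsg.Geo.subfieldSubgroup F₀ 1).comap (Matrix.SpecialLinearGroup.toGL : Matrix.SpecialLinearGroup (Fin n) F →* GL (Fin n) F)).index) :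
    (∀ x : Matrix.SpecialLinearGroup (Fin n) F,
      (∃ z : F, ((x ^ 2 : Matrix.SpecialLinearGroup (Fin n) F) : Matrix (Fin n) (Fin n) F) = z • (1 : Matrix (Fin n) (Fin n) F)) →
      (∀ z : F, (x : Matrix (Fin n) (Fin n) F) ≠ z • (1 : Matrix (Fin n) (Fin n) F)) →
      ∃ P : Matrix.SpecialLinearGroup (Fin n) F, P⁻¹ * x * P ∈ ((Cfsg.Geo.subfieldSubgroup F₀ 1).comap (Matrix.SpecialLinearGroup.toGL : Matrix.SpecialLinearGroup (Fin n) F →* GL (Fin n) F))) ↔
    (Odd q → (k = 2 ∧ padicValNat 2 n ≤ padicValNat 2 (q - 1))) := by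
  classical
  have hn1 : 1 ≤ n := by omega
  have : Fintype ↥F₀ := Fintype.ofFinite _
  have hc₀ : Fintype.card ↥F₀ = q₀ := by rw [← hF₀, Nat.card_eq_fintype_card]
  have hq₀2 : 2 ≤ q₀ := by
    rw [← hc₀]
    exact Fintype.one_lt_card
  have h2prime : Fact (Nat.Prime 2) := ⟨Nat.prime_two⟩
  have hsq : ∀ (y : Matrix.SpecialLinearGroup (Fin n) F),
      ((y ^ 2 : Matrix.SpecialLinearGroup (Fin n) F) : Matrix (Fin n) (Fin n) F) =
        (y : Matrix (Fin n) (Fin n) F) * (y : Matrix (Fin n) (Fin n) F) := by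
    intro y
    rw [pow_two, Matrix.SpecialLinearGroup.coe_mul]
  constructor
  · intro hall hodd
    have hq₀odd : Odd q₀ := by
      rw [hqk] at hodd
      exact (Nat.odd_pow_iff hk.ne_zero).1 hodd
    have hk2 : k = 2 := by
      by_contra hk2
      have hkodd : Odd k := hk.odd_of_ne_two hk2
      have h1 := Cfsg.Agent.Lib.Helper40.Subf.odd_index hq n hn1 F₀ k q₀ hF₀ hqk hkodd hq₀odd
      exact (Nat.not_even_iff_odd.2 h1) (even_iff_two_dvd.2 hΩ)
    refine ⟨hk2, ?_⟩
    by_contra hv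
    have h2q : 2 ∣ q - 1 := by
      obtain ⟨m, hm⟩ := hodd
      omega
    obtain ⟨x, c, hc, hxc⟩ := Cfsg.Agent.Lib.Helper40.Elusive.exists_not_pow_SL hq (n := n) (r := 2)
      (by omega) h2q (fun h => hv h.1)
    have hns : ∀ z : F, (x : Matrix (Fin n) (Fin n) F) ≠ z • (1 : Matrix (Fin n) (Fin n) F) := by
      intro z hz
      rw [hz, _root_.smul_pow, one_pow] at hxc
      exact hc z (Cfsg.Agent.Lib.Helper40.PGLClasses.scalar_inj (by omega) _ _ hxc)
    obtain ⟨P, hP⟩ := hall x ⟨c, by rw [Matrix.SpecialLinearGroup.coe_pow]; exact hxc⟩ hns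
    rw [Subgroup.mem_comap] at hP
    obtain ⟨l, B₀, hl, hE⟩ := Cfsg.Agent.Lib.Helper40.Subf.exists_of_mem_sub F₀ _ hP
    rw [Matrix.SpecialLinearGroup.coe_GL_coe_matrix] at hE
    have h3 : ((P⁻¹ * x * P : Matrix.SpecialLinearGroup (Fin n) F) : Matrix (Fin n) (Fin n) F) *
        ((P⁻¹ * x * P : Matrix.SpecialLinearGroup (Fin n) F) : Matrix (Fin n) (Fin n) F) =
        c • (1 : Matrix (Fin n) (Fin n) F) := by
      have h4 : (P⁻¹ * x * P) * (P⁻¹ * x * P) = P⁻¹ * (x * x) * P := by group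
      rw [← Matrix.SpecialLinearGroup.coe_mul, h4, Matrix.SpecialLinearGroup.coe_mul,
        Matrix.SpecialLinearGroup.coe_mul, Matrix.SpecialLinearGroup.coe_mul, ← pow_two, hxc,
        Matrix.mul_smul, Matrix.mul_one, Matrix.smul_mul, ← Matrix.SpecialLinearGroup.coe_mul,
        inv_mul_cancel, Matrix.SpecialLinearGroup.coe_one]
    rw [hE, Matrix.smul_mul, Matrix.mul_smul, smul_smul, ← Matrix.map_mul] at h3
    have h5 := congrFun (congrFun h3 ⟨0, hn1⟩) ⟨0, hn1⟩
    simp only [Matrix.smul_apply, Matrix.map_apply, Matrix.one_apply_eq, smul_eq_mul,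
      mul_one] at h5
    have hqq : Fintype.card F = q₀ ^ 2 := by rw [hq, hqk, hk2]
    obtain ⟨μ, hμ⟩ := Cfsg.Agent.Lib.Helper40.Subf.isSquare_of_mem F₀ q₀ hF₀ hqq hq₀odd _
      ((B₀ * B₀) ⟨0, hn1⟩ ⟨0, hn1⟩).2
    apply hc (l * μ)
    rw [← h5]
    simp only [Subfield.coe_subtype] at hμ ⊢
    rw [hμ]
    ring
  · intro h x hz hns
    obtain ⟨z, hz⟩ := hz
    rw [hsq] at hz
    by_cases hodd : Odd q
    · obtain ⟨hk2, hv⟩ := h hodd
      have hq₀odd : Odd q₀ := by
        rw [hqk] at hodd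
        exact (Nat.odd_pow_iff hk.ne_zero).1 hodd
      have hq4 : q % 4 = 1 := by
        rw [hqk, hk2]
        obtain ⟨m, rfl⟩ := hq₀odd
        have : (2 * m + 1) ^ 2 = 4 * (m * (m + 1)) + 1 := by ring
        omega
      have hchar : ringChar F ≠ 2 := by
        intro h2
        have h3 := FiniteField.even_card_iff_char_two.1 h2
        rw [hq] at h3
        omega
      obtain ⟨b, hb⟩ : ∃ b : F, b ^ 2 = z := by
        by_contra hno
        push Not at hno
        exact Cfsg.Agent.Lib.Helper40.Elusive.not_pow_SL hq (r := 2) (by omega) x z hno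
          (by rw [pow_two]; exact hz) ⟨hv, fun _ _ => hq4⟩
      have hne : Nonempty (Fin n) := ⟨⟨0, by omega⟩⟩
      have hb0 : b ≠ 0 := by
        rintro rfl
        rw [← hb, zero_pow (by norm_num), zero_smul] at hz
        have h3 := congrArg Matrix.det hz
        rw [Matrix.det_mul, x.det_coe, Matrix.det_zero] at h3
        simp at h3
      exact Cfsg.Agent.Lib.Helper40.Subf.conj_odd hchar hn1 F₀ x b hb0
        (by rw [hz, ← hb, pow_two])
    · have hchar : ringChar F = 2 := by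
        apply FiniteField.even_card_iff_char_two.2
        rw [hq]
        exact Nat.even_iff.1 (Nat.not_odd_iff_even.1 hodd)
      exact Cfsg.Agent.Lib.Helper40.Subf.conj_even hchar hn F₀ x z hz hns

end Cfsg.Agent.S5964
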