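import Cfsg.Statements.S5965
import Cfsg.Agent.Lib.Helper40.Subf5
import Cfsg.Agent.Lib.Helper40.Subf6

set_option autoImplicit false
open scoped MatrixGroups
open Cfsg

namespace Cfsg.Agent.S5965

/-- Elements of odd prime order r ≠ p of PSL_n(q) and subfield subgroups. Here `T = PSL_n(F)` for a field `F` with `q = p^f` elements (`n ≥ 2`, `(n, q) ≠ (2, 2), (2, 3)`), `F₀` is the subfield with `q₀` elements where `q = q₀^k` for a prime `k`, and `H` is the subgroup of matrices of determinant 1 lying in the subfield group of `F₀` (invertible matrices over `F₀` times scalars) — a maximal subgroup of type GL_n(q₀) (the case `n = 2`, `q₀ = 2` is excluded); Ω is the set of `T`-conjugates of `H` (cosets of `H`), so an element of `T` of prime order `r` (a matrix `x` of determinant 1 with `x^r` scalar, `x` not scalar) fixes a point of Ω when some conjugate of `x` by a matrix of determinant 1 lies in `H`. Let `r ≠ p` be an odd prime dividing the index of `H`, with `(n, r) ≠ (6, 3)` and, when `r = k` divides `q₀ − 1`, with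 `(n)_r ≤ (q − 1)_r`. Then every element of `T` of order `r` is conjugate in `T` into `H` if and only if `r = k`, or `k = 2`, `r = n ∈ {3, 5}` and `(q₀ + 1)_r = r`. The two excluded cases, `(n, r) = (6, 3)` and `r = k ∣ q₀ − 1` with `(n)_r > (q − 1)_r`, are ones where this criterion can fail, so they are left out. -/
theorem result {F : Type*} [Field F] [Fintype F] {p : ℕ} [Fact p.Prime] [CharP F p] {q : ℕ} (hq : Fintype.card F = q)
    (n : ℕ) (hn : 2 ≤ n) (hT : (n, q) ≠ (2, 2) ∧ (n, q) ≠ (2, 3))
    (F₀ : Subfield F) (k q₀ : ℕ) (hk : k.Prime) (hF₀ : Nat.card ↥F₀ = q₀) (hqk : q = q₀ ^ k) (hC5 : ¬ (n = 2 ∧ q₀ = 2)) (r : ℕ) [Fact r.Prime] (hr2 : r ≠ 2) (hrp : r ≠ p) (hgap : ¬ (n = 6 ∧ r = 3)) (hgapk : r = k → r ∣ q₀ - 1 → padicValNat r n ≤ padicValNat r (q - 1)) (hΩ : r ∣ ((Cfsg.Geo.subfieldSubgroup F₀ 1).comap (Matrix.SpecialLinearGroup.toGL : Matrix.SpecialLinearGroup (Fin n) F →* GL (Fin n) F)).index) :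
    (∀ x : Matrix.SpecialLinearGroup (Fin n) F,
      (∃ z : F, ((x ^ r : Matrix.SpecialLinearGroup (Fin n) F) : Matrix (Fin n) (Fin n) F) = z • (1 : Matrix (Fin n) (Fin n) F)) →
      (∀ z : F, (x : Matrix (Fin n) (Fin n) F) ≠ z • (1 : Matrix (Fin n) (Fin n) F)) →
      ∃ P : Matrix.SpecialLinearGroup (Fin n) F, P⁻¹ * x * P ∈ ((Cfsg.Geo.subfieldSubgroup F₀ 1).comap (Matrix.SpecialLinearGroup.toGL : Matrix.SpecialLinearGroup (Fin n) F →* GL (Fin n) F))) ↔
    (r = k ∨ (k = 2 ∧ r = n ∧ (n = 3 ∨ n = 5) ∧ padicValNat r (q₀ + 1) = 1)) := by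
  classical
  have hp : p.Prime := Fact.out
  have hr : r.Prime := Fact.out
  have hn1 : 1 ≤ n := by omega
  have : Nonempty (Fin n) := ⟨⟨0, hn1⟩⟩
  have hq1 : 1 ≤ q := by
    rw [← hq]
    exact Fintype.card_pos
  have hq2 : 2 ≤ q := by
    rw [← hq]
    exact Fintype.one_lt_card
  have hq₀1 : 1 ≤ q₀ := by
    rcases Nat.eq_zero_or_pos q₀ with h | h
    · rw [h, zero_pow hk.ne_zero] at hqk
      omega
    · exact h
  have hqr := Cfsg.Agent.Lib.Helper40.Subf5.natCast_card_ne_zero hq r hrp
  have hqQ : ((q : ℕ) : ZMod r) = (q₀ : ZMod r) ^ k := by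
    rw [hqk]
    push_cast
    rfl
  have hQ0 : (q₀ : ZMod r) ≠ 0 := by
    intro h
    rw [hqQ, h, zero_pow hk.ne_zero] at hqr
    exact hqr rfl
  have hdvdQ : ∀ a : ℕ, ((a : ℕ) : ZMod r) = 0 ↔ r ∣ a := fun a => ZMod.natCast_eq_zero_iff a r
  constructor
  · intro hall
    by_contra hnot
    rw [not_or] at hnot
    obtain ⟨hrk, hns⟩ := hnot
    by_cases hC : (q₀ : ZMod r) ^ orderOf ((q : ℕ) : ZMod r) = 1
    · exact Cfsg.Agent.Lib.Helper40.Subf5.not_dvd_index hq n hn1 F₀ k q₀ hk hF₀ hqk r hrp hrk hC hΩ
    · by_cases hi : 2 ≤ orderOf ((q : ℕ) : ZMod r)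
      · have hin := Cfsg.Agent.Lib.Helper40.Subf5.le_of_dvd_index hq n hn1 F₀ r hrp hΩ
        have hne : orderOf (q₀ : ZMod r) ≠ orderOf ((q : ℕ) : ZMod r) := fun h =>
          hC (by rw [← h]; exact pow_orderOf_eq_one _)
        obtain ⟨x, hx1, hx2, hx3⟩ :=
          Cfsg.Agent.Lib.Helper40.Subf5.derange_irr hq F₀ q₀ hF₀ r hrp hi hin hne
        obtain ⟨P, hP⟩ := hall x hx1 hx2
        exact hx3 P hP
      · have hipos := Cfsg.Agent.Lib.Helper40.Elusive.orderOf_pos_of_ne hq r hrp
        have hi1 : orderOf ((q : ℕ) : ZMod r) = 1 := by omega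
        rw [hi1, pow_one] at hC
        have hqr1 : ((q : ℕ) : ZMod r) = 1 := orderOf_eq_one_iff.1 hi1
        have hrq : r ∣ q - 1 := by
          rw [← hdvdQ, Nat.cast_sub hq1, hqr1]
          simp
        obtain ⟨ω, hω, hωc⟩ := Cfsg.Agent.Lib.Helper40.Subf5.exists_omega hq r hrq hq2
        have hQk : (q₀ : ZMod r) ^ k = 1 := by
          rw [← hqQ]
          exact hqr1
        have hr3' : 3 ≤ r := lt_of_le_of_ne hr.two_le (Ne.symm hr2)
        rcases Nat.lt_or_ge n 3 with hn3 | hn3
        · have hn2 : n = 2 := by omega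
          subst hn2
          by_cases hQm : (q₀ : ZMod r) = -1
          · have hk2 : k = 2 := Cfsg.Agent.Lib.Helper40.Subf5.k_eq_two r k hr2 hk _ hQk hQm
            subst hk2
            have hrq₀ : r ∣ q₀ + 1 := by
              rw [← hdvdQ]
              push_cast
              rw [hQm]
              ring
            exact Cfsg.Agent.Lib.Helper40.Subf5.not_dvd_index_two hq F₀ q₀ hF₀ hqk r hr2 hrq₀ hΩ
          · obtain ⟨x, hx1, hx2, hx3⟩ :=
              Cfsg.Agent.Lib.Helper40.Subf5.derange_a p F₀ q₀ hF₀ hω hr3' hC hQ0 hQm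
            obtain ⟨P, hP⟩ := hall x hx1 hx2
            exact hx3 P hP
        · obtain ⟨m, rfl⟩ : ∃ m, n = m + 3 := ⟨n - 3, by omega⟩
          have hspecial : (r = 3 ∨ r = 5) → m + 3 = r → (¬ ∃ c : F, c ^ (m + 3) * ω = 1) →
              False := by
            intro h35 hmr hc
            obtain ⟨hk2, hQm⟩ := Cfsg.Agent.Lib.Helper40.Subf5.special_k r k h35 hk _ hQk hC
            apply hns
            refine ⟨hk2, hmr.symm, ?_, ?_⟩
            · rcases h35 with h | h
              · left
                omega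
              · right
                omega
            · have hrq₀ : r ∣ q₀ + 1 := by
                rw [← hdvdQ]
                push_cast
                rw [hQm]
                ring
              have h2 : ¬ r ^ 2 ∣ q₀ + 1 := by
                intro h
                apply hc
                have h3 : r ^ 2 ∣ q - 1 := by
                  rw [hqk, hk2]
                  have h4 : q₀ ^ 2 - 1 = (q₀ + 1) * (q₀ - 1) := by
                    obtain ⟨t, rfl⟩ : ∃ t, q₀ = t + 1 := ⟨q₀ - 1, by omega⟩
                    simp only [Nat.add_sub_cancel]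
                    have h5 : (t + 1) ^ 2 = (t + 1 + 1) * t + 1 := by ring
                    rw [h5, Nat.add_sub_cancel]
                  rw [h4]
                  exact Dvd.dvd.mul_right h _
                obtain ⟨c, hc'⟩ := hωc h3
                exact ⟨c, by rw [hmr]; exact hc'⟩
              have h5 := (padicValNat_dvd_iff_le (p := r) (a := q₀ + 1) (n := 1) (by omega)).1
                (by rwa [pow_one])
              have h6 : ¬ 2 ≤ padicValNat r (q₀ + 1) := fun h =>
                h2 ((padicValNat_dvd_iff_le (by omega)).2 h)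
              omega
          by_cases hr3 : r = 3
          · by_cases hm0 : m = 0
            · by_cases hc : ∃ c : F, c ^ (m + 3) * ω = 1
              · obtain ⟨c, hc⟩ := hc
                obtain ⟨x, hx1, hx2, hx3⟩ :=
                  Cfsg.Agent.Lib.Helper40.Subf5.derange_c p F₀ q₀ hF₀ hω hC m c hc
                obtain ⟨P, hP⟩ := hall x hx1 hx2
                exact hx3 P hP
              · exact hspecial (Or.inl hr3) (by omega) hc
            · by_cases hm3 : m = 3
              · exact hgap ⟨by omega, hr3⟩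
              · obtain ⟨x, hx1, hx2, hx3⟩ :=
                  Cfsg.Agent.Lib.Helper40.Subf5.derange_d p F₀ q₀ hF₀ hω hr3 hC m hm0 hm3
                obtain ⟨P, hP⟩ := hall x hx1 hx2
                exact hx3 P hP
          · have hr5 : 5 ≤ r := by
              by_contra h
              have h4 : r = 4 := by omega
              rw [h4] at hr
              exact absurd hr (by norm_num)
            by_cases h55 : m = 2 ∧ r = 5
            · by_cases hc : ∃ c : F, c ^ (m + 3) * ω = 1
              · obtain ⟨c, hc⟩ := hc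
                obtain ⟨x, hx1, hx2, hx3⟩ :=
                  Cfsg.Agent.Lib.Helper40.Subf5.derange_c p F₀ q₀ hF₀ hω hC m c hc
                obtain ⟨P, hP⟩ := hall x hx1 hx2
                exact hx3 P hP
              · exact hspecial (Or.inr h55.2) (by omega) hc
            · obtain ⟨x, hx1, hx2, hx3⟩ :=
                Cfsg.Agent.Lib.Helper40.Subf5.derange_b p F₀ q₀ hF₀ hω hr5 hC m h55
              obtain ⟨P, hP⟩ := hall x hx1 hx2
              exact hx3 P hP
  · rintro (hrk | ⟨hk2, hrn, hn35, hv⟩)
    · subst hrk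
      intro x hz hnsc
      obtain ⟨z, hz⟩ := hz
      rw [Matrix.SpecialLinearGroup.coe_pow] at hz
      have hord : orderOf ((q : ℕ) : ZMod r) = orderOf (q₀ : ZMod r) := by
        rw [hqQ, ZMod.pow_card]
      have hz0 : z ≠ 0 := by
        rintro rfl
        have h1 := congrArg Matrix.det hz
        rw [Matrix.det_pow, x.det_coe, one_pow, zero_smul, Matrix.det_zero] at h1
        exact one_ne_zero h1
      by_cases hzp : ∃ c : F, c ^ r = z
      · obtain ⟨c, rfl⟩ := hzp
        have hc : c ≠ 0 := fun h => hz0 (by rw [h, zero_pow hr.ne_zero])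
        exact Cfsg.Agent.Lib.Helper40.Subf5.conj_of_eq hq n hn1 F₀ q₀ hF₀ r hrp hord x c hc hz
      · exfalso
        have hrq : r ∣ q - 1 := by
          by_contra h
          exact hzp (Cfsg.Agent.Lib.Helper40.Elusive.exists_pow_of_not_dvd hq r h z hz0)
        have hrq₀ : r ∣ q₀ - 1 := by
          rw [← hdvdQ, Nat.cast_sub hq₀1]
          have h1 : ((q - 1 : ℕ) : ZMod r) = 0 := (hdvdQ _).2 hrq
          rw [Nat.cast_sub hq1, hqQ, ZMod.pow_card] at h1
          exact h1
        have h1 := hgapk rfl hrq₀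
        exact Cfsg.Agent.Lib.Helper40.Elusive.not_pow_SL hq (by omega) x z
          (fun b hb => hzp ⟨b, hb⟩) hz ⟨h1, fun h => absurd h hr2⟩
    · subst hk2
      subst hrn
      intro x hz hnsc
      obtain ⟨z, hz⟩ := hz
      rw [Matrix.SpecialLinearGroup.coe_pow] at hz
      have hrq₀ : r ∣ q₀ + 1 := dvd_of_one_le_padicValNat (by omega)
      have hQm : (q₀ : ZMod r) = -1 := by
        have h1 := (hdvdQ (q₀ + 1)).2 hrq₀
        push_cast at h1
        exact eq_neg_of_add_eq_zero_left h1
      have hr2' : ¬ r ^ 2 ∣ q₀ + 1 := by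
        intro h
        have := (padicValNat_dvd_iff_le (by omega)).1 h
        omega
      have hfac : q - 1 = (q₀ + 1) * (q₀ - 1) := by
        rw [hqk]
        obtain ⟨t, rfl⟩ : ∃ t, q₀ = t + 1 := ⟨q₀ - 1, by omega⟩
        simp only [Nat.add_sub_cancel]
        have h5 : (t + 1) ^ 2 = (t + 1 + 1) * t + 1 := by ring
        rw [h5, Nat.add_sub_cancel]
      have hrq : r ∣ q - 1 := by
        rw [hfac]
        exact Dvd.dvd.mul_right hrq₀ _
      have hnd : ¬ r ∣ q₀ - 1 := by
        intro h
        have h2 : r ∣ 2 := by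
          have h3 : q₀ + 1 = (q₀ - 1) + 2 := by omega
          rw [h3] at hrq₀
          exact (Nat.dvd_add_right h).1 hrq₀
        exact hr2 ((Nat.prime_dvd_prime_iff_eq hr Nat.prime_two).1 h2)
      have hr2q : ¬ r ^ 2 ∣ q - 1 := by
        rw [hfac]
        intro h
        have hcop : (r ^ 2).Coprime (q₀ - 1) :=
          Nat.Coprime.pow_left 2 ((Nat.Prime.coprime_iff_not_dvd hr).2 hnd)
        exact hr2' (hcop.dvd_of_dvd_mul_right h)
      obtain ⟨ω, hω, -⟩ := Cfsg.Agent.Lib.Helper40.Subf5.exists_omega hq r hrq hq2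
      have hz0 : z ≠ 0 := by
        rintro rfl
        have h1 := congrArg Matrix.det hz
        rw [Matrix.det_pow, x.det_coe, one_pow, zero_smul, Matrix.det_zero] at h1
        exact one_ne_zero h1
      have hzp : ∃ c : F, c ^ r = z := by
        by_contra hzp
        have h1 : padicValNat r r ≤ padicValNat r (q - 1) := by
          rw [padicValNat_self]
          exact one_le_padicValNat_of_dvd (by omega) hrq
        exact Cfsg.Agent.Lib.Helper40.Elusive.not_pow_SL hq (by omega) x z
          (fun b hb => hzp ⟨b, hb⟩) hz ⟨h1, fun h => absurd h hr2⟩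
      obtain ⟨c, rfl⟩ := hzp
      have hc0 : c ≠ 0 := fun h => hz0 (by rw [h, zero_pow hr.ne_zero])
      have hcr : c ^ r = 1 := by
        have h1 : (c ^ r) ^ r = 1 := by
          have h2 := congrArg Matrix.det hz
          rw [Matrix.det_pow, x.det_coe, one_pow, Matrix.det_smul, Matrix.det_one, mul_one,
            Fintype.card_fin] at h2
          exact h2.symm
        have h3 : c ^ (q - 1) = 1 := by
          rw [← hq]
          exact FiniteField.pow_card_sub_one_eq_one c hc0
        rw [← pow_mul] at h1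
        have h4 := pow_gcd_eq_one.2 ⟨h1, h3⟩
        have h5 : (r * r).gcd (q - 1) ∣ r := by
          obtain ⟨j, hj, hj'⟩ := (Nat.dvd_prime_pow hr).1
            (show (r * r).gcd (q - 1) ∣ r ^ 2 by rw [pow_two]; exact Nat.gcd_dvd_left _ _)
          interval_cases j
          · rw [hj']
            simp
          · rw [hj']
            simp
          · exfalso
            apply hr2q
            rw [← hj']
            exact Nat.gcd_dvd_right _ _
        obtain ⟨w, hw⟩ := h5
        rw [hw, pow_mul, h4, one_pow]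
      rw [hcr, one_smul] at hz
      have hcomb : ∀ M : ZMod r → ℕ, ∑ u, M u = r → ∑ u, (M u : ZMod r) * u = 0 →
          (∀ u, M u ≠ r) → ∃ t : ZMod r, ∀ u, M (t + u) = M (t - u) := by
        rcases hn35 with h | h
        · subst h
          exact Cfsg.Agent.Lib.Helper40.Subf5.comb3
        · subst h
          exact Cfsg.Agent.Lib.Helper40.Subf5.comb5
      exact Cfsg.Agent.Lib.Helper40.Subf5.conj_special F₀ q₀ hF₀ r hrp hω hQm hcomb x hz hnsc

end Cfsg.Agent.S5965
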