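import Cfsg.Statements.S5967
import Cfsg.Agent.Lib.Helper40.Alt2

set_option autoImplicit false
open scoped MatrixGroups
open Cfsg

namespace Cfsg.Agent.S5967

/-- Involutions of PSL_n(q) and the symplectic-type subgroups. Here `T = PSL_n(F)` for a field `F` with `q` elements, `n ≥ 4` even, `f` is a nondegenerate alternating form on `F^n`, and `H` is the subgroup of matrices of determinant 1 preserving `f` up to a scalar — a maximal subgroup of type Sp_n(q); Ω is the set of `T`-conjugates of `H` (cosets of `H`), so an element of `T` of prime order `r` (a matrix `x` of determinant 1 with `x^r` scalar, `x` not scalar) fixes a point of Ω when some conjugate of `x` by a matrix of determinant 1 preserves `f` up to a scalar. Suppose the index of `H` is even. Then every involution of `T` is conjugate in `T` into `H` if and only if `(q − 1)_2 ≤ (n)_2`. -/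
theorem result {F : Type*} [Field F] [Fintype F] {p : ℕ} [Fact p.Prime] [CharP F p] {q : ℕ} (hq : Fintype.card F = q)
    (n : ℕ) (hn : 4 ≤ n) (he : Even n) (f : (Fin n → F) → (Fin n → F) → F) (hf : Cfsg.Geo.IsSymplecticForm f)
    (hΩ : 2 ∣ ((Cfsg.Geo.similarityGroup f).comap (Matrix.SpecialLinearGroup.toGL : Matrix.SpecialLinearGroup (Fin n) F →* GL (Fin n) F)).index) :
    (∀ x : Matrix.SpecialLinearGroup (Fin n) F,
      (∃ z : F, ((x ^ 2 : Matrix.SpecialLinearGroup (Fin n) F) : Matrix (Fin n) (Fin n) F) = z • (1 : Matrix (Fin n) (Fin n) F)) →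
      (∀ z : F, (x : Matrix (Fin n) (Fin n) F) ≠ z • (1 : Matrix (Fin n) (Fin n) F)) →
      ∃ P : Matrix.SpecialLinearGroup (Fin n) F, P⁻¹ * x * P ∈ ((Cfsg.Geo.similarityGroup f).comap (Matrix.SpecialLinearGroup.toGL : Matrix.SpecialLinearGroup (Fin n) F →* GL (Fin n) F))) ↔
    padicValNat 2 (q - 1) ≤ padicValNat 2 n := by
  classical
  have hn1 : 1 ≤ n := by omega
  have hq2 : 2 ≤ q := by
    rw [← hq]
    exact Fintype.one_lt_card
  obtain ⟨B, hB⟩ := Cfsg.Agent.Lib.Helper40.Alt.exists_std f hf
  constructor
  · intro hall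
    by_contra hlt
    push Not at hlt
    have hodd : Odd q := by
      have h1 : 1 ≤ padicValNat 2 (q - 1) := by omega
      have h2 : 2 ∣ q - 1 := dvd_of_one_le_padicValNat h1
      rcases Nat.even_or_odd q with h3 | h3
      · exfalso
        have h4 := even_iff_two_dvd.1 h3
        omega
      · exact h3
    have hchar : ringChar F ≠ 2 := by
      intro h3
      have h4 := FiniteField.even_card_iff_char_two.1 h3
      rw [hq] at h4
      obtain ⟨m, hm⟩ := hodd
      omega
    obtain ⟨l, hl⟩ := Cfsg.Agent.Lib.Helper40.Alt.neg_one_pow_of_lt hq hodd (n := n) (by omega) hlt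
    obtain ⟨x, hxx, hns, hder⟩ := Cfsg.Agent.Lib.Helper40.Alt.derange_alt hchar (by omega) f hf l hl
    obtain ⟨P, hP⟩ := hall x
      ⟨l * l, by rw [pow_two, Matrix.SpecialLinearGroup.coe_mul]; exact hxx⟩ hns
    exact hder P hP
  · intro hv x hz hns
    obtain ⟨z, hz⟩ := hz
    rw [pow_two, Matrix.SpecialLinearGroup.coe_mul] at hz
    by_cases hodd : Odd q
    · have hchar : ringChar F ≠ 2 := by
        intro h3
        have h4 := FiniteField.even_card_iff_char_two.1 h3
        rw [hq] at h4
        obtain ⟨m, hm⟩ := hodd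
        omega
      by_cases hsq : ∃ b : F, b ^ 2 = z
      · obtain ⟨b, hb⟩ := hsq
        have hne : Nonempty (Fin n) := ⟨⟨0, by omega⟩⟩
        have hb0 : b ≠ 0 := by
          rintro rfl
          rw [← hb, zero_pow (by norm_num), zero_smul] at hz
          have h3 := congrArg Matrix.det hz
          rw [Matrix.det_mul, x.det_coe, Matrix.det_zero] at h3
          simp at h3
        exact Cfsg.Agent.Lib.Helper40.Alt.conj_odd_sq hchar (by omega) f B hB x b hb0
          (by rw [hz, ← hb, pow_two])
          (fun c => Cfsg.Agent.Lib.Helper40.Alt.not_neg_one_pow hq hodd hv (by omega) c)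
      · push Not at hsq
        exact Cfsg.Agent.Lib.Helper40.Alt.conj_odd_nonsq hn1 he f B hB x z hsq
          (by rw [pow_two]; exact hz)
    · have hchar : ringChar F = 2 := by
        apply FiniteField.even_card_iff_char_two.2
        rw [hq]
        exact Nat.even_iff.1 (Nat.not_odd_iff_even.1 hodd)
      exact Cfsg.Agent.Lib.Helper40.Alt.conj_even hchar (by omega) f B hB x z hz hns

end Cfsg.Agent.S5967
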