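import Cfsg.Statements.S5968
import Cfsg.Agent.Lib.Helper40.Alt4

set_option autoImplicit false
open scoped MatrixGroups
open Cfsg

namespace Cfsg.Agent.S5968

/-- Derangements of odd prime order of PSL_n(q) on the cosets of a symplectic-type subgroup. Here `T = PSL_n(F)` for a field `F` with `q` elements, `n ≥ 4` even, `f` is a nondegenerate alternating form on `F^n`, and `H` is the subgroup of matrices of determinant 1 preserving `f` up to a scalar — a maximal subgroup of type Sp_n(q); Ω is the set of `T`-conjugates of `H` (cosets of `H`), so an element of `T` of prime order `r` (a matrix `x` of determinant 1 with `x^r` scalar, `x` not scalar) fixes a point of Ω when some conjugate of `x` by a matrix of determinant 1 preserves `f` up to a scalar. For every odd prime `r` dividing the index of `H`, with `(n, r) ≠ (6, 3)`, there is an element of `T` of order `r` with no conjugate in `H`. (For `n = 6`, `r = 3` this can fail: when `(q − 1)_3 = 3` every element of order 3 is conjugate into `H`.) -/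
theorem result {F : Type*} [Field F] [Fintype F] {p : ℕ} [Fact p.Prime] [CharP F p] {q : ℕ} (hq : Fintype.card F = q)
    (n : ℕ) (hn : 4 ≤ n) (he : Even n) (f : (Fin n → F) → (Fin n → F) → F) (hf : Cfsg.Geo.IsSymplecticForm f)
    (r : ℕ) [Fact r.Prime] (hr2 : r ≠ 2) (hgap : ¬ (n = 6 ∧ r = 3)) (hΩ : r ∣ ((Cfsg.Geo.similarityGroup f).comap (Matrix.SpecialLinearGroup.toGL : Matrix.SpecialLinearGroup (Fin n) F →* GL (Fin n) F)).index) :
    ∃ x : Matrix.SpecialLinearGroup (Fin n) F,
      (∃ z : F, ((x ^ r : Matrix.SpecialLinearGroup (Fin n) F) : Matrix (Fin n) (Fin n) F) = z • (1 : Matrix (Fin n) (Fin n) F)) ∧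
      (∀ z : F, (x : Matrix (Fin n) (Fin n) F) ≠ z • (1 : Matrix (Fin n) (Fin n) F)) ∧
      ∀ P : Matrix.SpecialLinearGroup (Fin n) F, P⁻¹ * x * P ∉ ((Cfsg.Geo.similarityGroup f).comap (Matrix.SpecialLinearGroup.toGL : Matrix.SpecialLinearGroup (Fin n) F →* GL (Fin n) F)) := by
  classical
  have hr : r.Prime := Fact.out
  have hp : p.Prime := Fact.out
  obtain ⟨m, hm⟩ := he
  have hnm : n = 2 * m := by omega
  subst hnm
  have hq1 : 1 < q := by
    rw [← hq]
    exact Fintype.one_lt_card
  have key : ∃ x : Matrix.SpecialLinearGroup (Fin (2 * m)) F,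
      (x : Matrix (Fin (2 * m)) (Fin (2 * m)) F) ^ r = 1 ∧
      ∀ P : Matrix.SpecialLinearGroup (Fin (2 * m)) F, P⁻¹ * x * P ∉
        ((Cfsg.Geo.similarityGroup f).comap (Matrix.SpecialLinearGroup.toGL :
          Matrix.SpecialLinearGroup (Fin (2 * m)) F →* GL (Fin (2 * m)) F)) := by
    by_cases hrp : r = p
    · subst hrp
      exact Cfsg.Agent.Lib.Helper40.Alt.derange_p hr2 (by omega) f hf
    · obtain ⟨j, hjodd, hjle, hjdvd⟩ :=
        Cfsg.Agent.Lib.Helper40.Alt.index_odd hq m (by omega) f hf r hrp hΩ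
      have hidvd := (Cfsg.Agent.Lib.Helper40.Elusive.dvd_pow_sub_one_iff q r hq1.le j).1 hjdvd
      have hiodd : Odd (orderOf (q : ZMod r)) := Odd.of_dvd_nat hjodd hidvd
      have hjpos : 0 < j := hjodd.pos
      have hile := Nat.le_of_dvd hjpos hidvd
      have hipos := Nat.pos_of_dvd_of_pos hidvd hjpos
      by_cases hi1 : orderOf (q : ZMod r) = 1
      · have h1 : r ∣ q ^ 1 - 1 :=
          (Cfsg.Agent.Lib.Helper40.Elusive.dvd_pow_sub_one_iff q r hq1.le 1).2 (by rw [hi1])
        rw [pow_one] at h1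
        have h2 : r ∣ Fintype.card Fˣ := by
          rw [Fintype.card_units, hq]
          exact h1
        obtain ⟨ω, hω⟩ := exists_prime_orderOf_dvd_card r h2
        have hω1 : (ω : F) ^ r = 1 := by
          rw [← Units.val_pow_eq_pow_val, ← hω, pow_orderOf_eq_one, Units.val_one]
        have hω2 : (ω : F) ≠ 1 := by
          intro h
          have h3 : ω = 1 := Units.ext h
          rw [h3, orderOf_one] at hω
          exact hr.one_lt.ne hω
        exact Cfsg.Agent.Lib.Helper40.Alt.derange_split hn ⟨m, hm⟩ f hf r hr hr2 hgap ω hω1 hω2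
      · exact Cfsg.Agent.Lib.Helper40.Alt.derange_irr hq f hf r hrp (by omega) (by omega) hiodd
  obtain ⟨x, hx1, hx2⟩ := key
  refine ⟨x, ⟨1, ?_⟩,
    Cfsg.Agent.Lib.Helper40.Alt.nonscalar_of_derange (by omega) f hf x hx2, hx2⟩
  rw [Matrix.SpecialLinearGroup.coe_pow, hx1, one_smul]

end Cfsg.Agent.S5968
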