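import Cfsg.Statements.S5969
import Mathlib
import Cfsg.Agent.Lib.Helper40.Ext2

set_option autoImplicit false
open scoped MatrixGroups
open Cfsg

namespace Cfsg.Agent.S5969

/-- Involutions of PSL_n(q) and extension-field subgroups of degree 2. Here `T = PSL_n(F)` for a field `F` with `q = p^f` elements (`n ≥ 2`, `(n, q) ≠ (2, 2), (2, 3)`), `k` is a prime dividing `n`, `K` is a subalgebra of the `n × n` matrices that is a field of degree `k` over `F` (an extension-field structure F_{q^k} on `F^n`), and `H` is the subgroup of matrices of determinant 1 normalizing `K` — a subgroup of type GL_{n/k}(q^k) (maximal except in some small cases; maximality is not assumed); Ω is the set of cosets of `H` in `T`, so an element of `T` of prime order `r` (a matrix `x` of determinant 1 with `x^r` scalar, `x` not scalar) fixes a point of Ω when some conjugate of `x` by a matrix of determinant 1 normalizes `K`. Take `k = 2` and suppose the index of `H` is even. Then every involution of `T` is conjugate in `T` into `H` if and only if `n = 2`, or `q`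 is odd and `(q − 1)_2 ≤ (n)_2`. -/
theorem result {F : Type*} [Field F] [Fintype F] {p : ℕ} [Fact p.Prime] [CharP F p] {q : ℕ} (hq : Fintype.card F = q)
    (n : ℕ) (hn : 2 ≤ n) (hT : (n, q) ≠ (2, 2) ∧ (n, q) ≠ (2, 3))
    (k : ℕ) (hk : k.Prime) (hkn : k ∣ n) (K : Subalgebra F (Matrix (Fin n) (Fin n) F)) (hK : Cfsg.Geo.IsFieldSubalgebra k K) (hk2 : k = 2) (hΩ : 2 ∣ ((Cfsg.Geo.subalgebraNormalizer K).comap (Matrix.SpecialLinearGroup.toGL : Matrix.SpecialLinearGroup (Fin n) F →* GL (Fin n) F)).index) :
    (∀ x : Matrix.SpecialLinearGroup (Fin n) F,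
      (∃ z : F, ((x ^ 2 : Matrix.SpecialLinearGroup (Fin n) F) : Matrix (Fin n) (Fin n) F) = z • (1 : Matrix (Fin n) (Fin n) F)) →
      (∀ z : F, (x : Matrix (Fin n) (Fin n) F) ≠ z • (1 : Matrix (Fin n) (Fin n) F)) →
      ∃ P : Matrix.SpecialLinearGroup (Fin n) F, P⁻¹ * x * P ∈ ((Cfsg.Geo.subalgebraNormalizer K).comap (Matrix.SpecialLinearGroup.toGL : Matrix.SpecialLinearGroup (Fin n) F →* GL (Fin n) F))) ↔
    (n = 2 ∨ (Odd q ∧ padicValNat 2 (q - 1) ≤ padicValNat 2 n)) := by
  classical
  subst hk2
  have hq2 : 2 ≤ q := by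
    rw [← hq]
    exact Fintype.one_lt_card
  have hn0 : 0 < n := by omega
  have hne : Even n := even_iff_two_dvd.2 hkn
  have : Nonempty (Fin n) := ⟨⟨0, hn0⟩⟩
  constructor
  · intro hall
    by_contra hcon
    rw [not_or] at hcon
    obtain ⟨hn2, hcon2⟩ := hcon
    have hn4 : 4 ≤ n := by
      obtain ⟨m, hm⟩ := hne
      omega
    by_cases hodd : Odd q
    · have hlt : padicValNat 2 n < padicValNat 2 (q - 1) := by
        by_contra h
        exact hcon2 ⟨hodd, by omega⟩
      have hchar : ringChar F ≠ 2 := by
        intro h3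
        have h4 := FiniteField.even_card_iff_char_two.1 h3
        rw [hq] at h4
        obtain ⟨m, hm⟩ := hodd
        omega
      have h2F : (2 : F) ≠ 0 := Ring.two_ne_zero hchar
      obtain ⟨l, hl⟩ := Cfsg.Agent.Lib.Helper40.Alt.neg_one_pow_of_lt hq hodd (n := n) (by omega) hlt
      obtain ⟨x, hxx, hns, hder⟩ :=
        Cfsg.Agent.Lib.Helper40.Ext2.diag_derange2 h2F hK le_rfl (by omega) l hl
      obtain ⟨P, hP⟩ := hall x ⟨l * l, by rw [Matrix.SpecialLinearGroup.coe_pow]; exact hxx⟩ hns
      exact hder P hP
    · have hchar : ringChar F = 2 := by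
        apply FiniteField.even_card_iff_char_two.2
        rw [hq]
        exact Nat.even_iff.1 (Nat.not_odd_iff_even.1 hodd)
      have : CharP F 2 := ringChar.of_eq hchar
      obtain ⟨x, hxx, hns, hder⟩ :=
        Cfsg.Agent.Lib.Helper40.Ext2.transv_derange2 hK le_rfl (by omega : 3 ≤ n)
      obtain ⟨P, hP⟩ := hall x ⟨1, by rw [Matrix.SpecialLinearGroup.coe_pow, hxx, one_smul]⟩ hns
      exact hder P hP
  · intro hrhs x hxz hns
    obtain ⟨z, hz⟩ := hxz
    rw [Matrix.SpecialLinearGroup.coe_pow] at hz
    by_cases hodd : Odd q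
    · have hodd' : Odd (Fintype.card F) := by
        rw [hq]
        exact hodd
      by_cases hn2 : n = 2
      · subst hn2
        exact Cfsg.Agent.Lib.Helper40.Ext2.conj_two_odd hodd' hK x z hz hns
      · have hv : padicValNat 2 (q - 1) ≤ padicValNat 2 n := by
          rcases hrhs with h | h
          · exact absurd h hn2
          · exact h.2
        by_cases hsq : ∃ b : F, b ^ 2 = z
        · obtain ⟨b, hb⟩ := hsq
          have hb0 : b ≠ 0 := by
            rintro rfl
            rw [← hb, zero_pow (by norm_num), zero_smul] at hz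
            have h3 := congrArg Matrix.det hz
            rw [Matrix.det_pow, x.det_coe, Matrix.det_zero] at h3
            simp at h3
          exact Cfsg.Agent.Lib.Helper40.Ext2.conj_sq hn0 hodd' hK x b hb0
            (by rw [hz, ← hb, pow_two])
            (fun c => Cfsg.Agent.Lib.Helper40.Alt.not_neg_one_pow hq hodd hv (by omega) c)
        · push Not at hsq
          exact Cfsg.Agent.Lib.Helper40.Ext2.conj_nonsq hn0 hodd' hK x z hsq hz
    · have hn2 : n = 2 := by
        rcases hrhs with h | h
        · exact h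
        · exact absurd h.1 hodd
      subst hn2
      have hchar : ringChar F = 2 := by
        apply FiniteField.even_card_iff_char_two.2
        rw [hq]
        exact Nat.even_iff.1 (Nat.not_odd_iff_even.1 hodd)
      exact Cfsg.Agent.Lib.Helper40.Ext2.conj_two_even hchar hK x z (by rw [← pow_two]; exact hz) hns

end Cfsg.Agent.S5969
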