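import Cfsg.Statements.S5970
import Mathlib
import Cfsg.Agent.Lib.Helper40.Singer

set_option autoImplicit false
open scoped MatrixGroups
open Cfsg

namespace Cfsg.Agent.S5970

/-- Elements of order `n` of PSL_n(q), `n` prime, and the normalizer of a Singer cycle. Here `T = PSL_n(F)` for a field `F` with `q = p^f` elements (`n ≥ 2`, `(n, q) ≠ (2, 2), (2, 3)`), `k` is a prime dividing `n`, `K` is a subalgebra of the `n × n` matrices that is a field of degree `k` over `F` (an extension-field structure F_{q^k} on `F^n`), and `H` is the subgroup of matrices of determinant 1 normalizing `K` — a subgroup of type GL_{n/k}(q^k) (maximal except in some small cases; maximality is not assumed); Ω is the set of cosets of `H` in `T`, so an element of `T` of prime order `r` (a matrix `x` of determinant 1 with `x^r` scalar, `x` not scalar) fixes a point of Ω when some conjugate of `x` by a matrix of determinant 1 normalizes `K`. Take `k = n > 3` prime with `n ≠ p` (so `H` is the normalizer of a Singer cycle), and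 suppose `n` divides the index of `H`. Then every element of `T` of order `n` is conjugate in `T` into `H` if and only if the multiplicative order of `q` modulo `n` is `n − 1`. -/
theorem result {F : Type*} [Field F] [Fintype F] {p : ℕ} [Fact p.Prime] [CharP F p] {q : ℕ} (hq : Fintype.card F = q)
    (n : ℕ) (hn : 2 ≤ n) (hT : (n, q) ≠ (2, 2) ∧ (n, q) ≠ (2, 3))
    (k : ℕ) (hk : k.Prime) (hkn : k ∣ n) (K : Subalgebra F (Matrix (Fin n) (Fin n) F)) (hK : Cfsg.Geo.IsFieldSubalgebra k K) (hkn' : k = n) (hn3 : 3 < n) (hnp : n ≠ p) (hΩ : n ∣ ((Cfsg.Geo.subalgebraNormalizer K).comap (Matrix.SpecialLinearGroup.toGL : Matrix.SpecialLinearGroup (Fin n) F →* GL (Fin n) F)).index) :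
    (∀ x : Matrix.SpecialLinearGroup (Fin n) F,
      (∃ z : F, ((x ^ n : Matrix.SpecialLinearGroup (Fin n) F) : Matrix (Fin n) (Fin n) F) = z • (1 : Matrix (Fin n) (Fin n) F)) →
      (∀ z : F, (x : Matrix (Fin n) (Fin n) F) ≠ z • (1 : Matrix (Fin n) (Fin n) F)) →
      ∃ P : Matrix.SpecialLinearGroup (Fin n) F, P⁻¹ * x * P ∈ ((Cfsg.Geo.subalgebraNormalizer K).comap (Matrix.SpecialLinearGroup.toGL : Matrix.SpecialLinearGroup (Fin n) F →* GL (Fin n) F))) ↔
    orderOf (q : ZMod n) = n - 1 := by
  classical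
  have hnP : n.Prime := by
    rw [← hkn']
    exact hk
  have : Fact n.Prime := ⟨hnP⟩
  have hK' : Cfsg.Geo.IsFieldSubalgebra n K := by
    rw [hkn'] at hK
    exact hK
  have hq1 : 1 ≤ q := by
    rw [← hq]
    exact Fintype.card_pos
  constructor
  · intro hall
    by_contra hne
    have hpos := Cfsg.Agent.Lib.Helper40.Elusive.orderOf_pos_of_ne hq n hnp
    have hq0 : (q : ZMod n) ≠ 0 := by
      intro h0
      rw [h0] at hpos
      have h1 := pow_orderOf_eq_one (0 : ZMod n)
      rw [zero_pow hpos.ne'] at h1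
      exact zero_ne_one h1
    have hdvd : orderOf (q : ZMod n) ∣ n - 1 :=
      orderOf_dvd_of_pow_eq_one (ZMod.pow_card_sub_one_eq_one hq0)
    obtain ⟨c, hc⟩ := hdvd
    have hc2 : 2 ≤ c := by
      rcases c with _ | _ | c
      · omega
      · exfalso
        apply hne
        omega
      · omega
    have h2i : orderOf (q : ZMod n) * 2 ≤ n - 1 := by
      rw [hc]
      exact Nat.mul_le_mul_left _ hc2
    obtain ⟨x, v₁, v₂, hxr, hx1, hf1, hf2, hv1, hv2⟩ :=
      Cfsg.Agent.Lib.Helper40.Singer.exists_two_fixed hq n n hnp (by omega) (by omega)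
    have hns : ∀ z : F, (x : Matrix (Fin n) (Fin n) F) ≠ z • (1 : Matrix (Fin n) (Fin n) F) := by
      intro z hz
      have hf1' := hf1
      rw [hz, Matrix.smul_mulVec, Matrix.one_mulVec] at hf1'
      have hz1 : z = 1 := by
        by_contra hz1
        apply hv1
        have h3 : (z - 1) • v₁ = 0 := by rw [sub_smul, hf1', one_smul, sub_self]
        exact (smul_eq_zero.1 h3).resolve_left (sub_ne_zero.2 hz1)
      apply hx1
      rw [hz, hz1, one_smul]
    obtain ⟨P, hP⟩ := hall x ⟨1, by rw [Matrix.SpecialLinearGroup.coe_pow, hxr, one_smul]⟩ hns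
    rw [Subgroup.mem_comap] at hP
    have hcoe : ((Matrix.SpecialLinearGroup.toGL (P⁻¹ * x * P) : GL (Fin n) F) :
        Matrix (Fin n) (Fin n) F) = (↑(P⁻¹) : Matrix (Fin n) (Fin n) F) *
          (x : Matrix (Fin n) (Fin n) F) * (P : Matrix (Fin n) (Fin n) F) := rfl
    have hPP : (P : Matrix (Fin n) (Fin n) F) * (↑(P⁻¹) : Matrix (Fin n) (Fin n) F) = 1 := by
      rw [← Matrix.SpecialLinearGroup.coe_mul, mul_inv_cancel, Matrix.SpecialLinearGroup.coe_one]
    have hy := Cfsg.Agent.Lib.Helper40.Singer.scalar_of_eigen hnP hK' _ hP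
      (Matrix.mulVec (↑(P⁻¹) : Matrix (Fin n) (Fin n) F) v₁)
      (Matrix.mulVec (↑(P⁻¹) : Matrix (Fin n) (Fin n) F) v₂)
      ?_ ?_ 1 ?_ ?_
    · rw [hcoe, one_smul] at hy
      apply hx1
      have h3 : P⁻¹ * x * P = 1 := by
        apply Subtype.ext
        exact hy
      have h4 : x = 1 := by
        have h5 := congrArg (fun t => P * t * P⁻¹) h3
        simpa [mul_assoc] using h5
      rw [h4]
      rfl
    · intro h0
      apply hv1
      have h5 := congrArg (fun w => Matrix.mulVec (P : Matrix (Fin n) (Fin n) F) w) h0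
      simp only [Matrix.mulVec_mulVec, hPP, Matrix.one_mulVec, Matrix.mulVec_zero] at h5
      exact h5
    · intro c hc
      apply hv2 c
      have h5 := congrArg (fun w => Matrix.mulVec (P : Matrix (Fin n) (Fin n) F) w) hc
      simp only [Matrix.mulVec_mulVec, hPP, Matrix.one_mulVec, Matrix.mulVec_smul] at h5
      exact h5
    · rw [hcoe, one_smul, Matrix.mulVec_mulVec, mul_assoc, mul_assoc, hPP, mul_one,
        ← Matrix.mulVec_mulVec, hf1]
    · rw [hcoe, one_smul, Matrix.mulVec_mulVec, mul_assoc, mul_assoc, hPP, mul_one,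
        ← Matrix.mulVec_mulVec, hf2]
  · intro hi x hxz hns
    obtain ⟨z, hz⟩ := hxz
    have hdetz : 1 = z ^ n := by
      have h1 := congrArg Matrix.det hz
      rw [Matrix.SpecialLinearGroup.det_coe, Matrix.det_smul, Matrix.det_one, mul_one,
        Fintype.card_fin] at h1
      exact h1
    have hndvd : ¬ n ∣ q - 1 := by
      intro h
      have h1 := (Cfsg.Agent.Lib.Helper40.Elusive.dvd_pow_sub_one_iff q n hq1 1).1
        (by rwa [pow_one])
      rw [hi] at h1
      have h2 := Nat.le_of_dvd one_pos h1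
      omega
    have hz1 : z = 1 := by
      have hz0 : z ≠ 0 := by
        rintro rfl
        rw [zero_pow (by omega)] at hdetz
        exact one_ne_zero hdetz
      have h2 : z ^ (q - 1) = 1 := by
        rw [← hq]
        exact FiniteField.pow_card_sub_one_eq_one z hz0
      have h3 : orderOf z ∣ n := orderOf_dvd_of_pow_eq_one hdetz.symm
      have h4 : orderOf z ∣ q - 1 := orderOf_dvd_of_pow_eq_one h2
      have h5 : orderOf z = 1 := by
        rcases (Nat.dvd_prime hnP).1 h3 with h | h
        · exact h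
        · exfalso
          rw [h] at h4
          exact hndvd h4
      exact orderOf_eq_one_iff.1 h5
    have hxn : (x : Matrix (Fin n) (Fin n) F) ^ n = 1 := by
      rw [← Matrix.SpecialLinearGroup.coe_pow, hz, hz1, one_smul]
    have hx1 : (x : Matrix (Fin n) (Fin n) F) ≠ 1 := fun h => hns 1 (by rw [h, one_smul])
    have hχx := Cfsg.Agent.Lib.Helper40.Singer.charpoly_of_order hq n hnp (by omega) hi _ hxn hx1
    obtain ⟨g, hgn, hg1, hgb⟩ := Cfsg.Agent.Lib.Helper40.Singer.exists_frob hn hK'
    have hχg := Cfsg.Agent.Lib.Helper40.Singer.charpoly_of_order hq n hnp (by omega) hi g hgn hg1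
    have hgdet : g.det = 1 := by
      rw [Matrix.det_eq_sign_charpoly_coeff, hχg, Fintype.card_fin]
      have hodd : Odd n := hnP.odd_of_ne_two (by omega)
      rw [hodd.neg_one_pow]
      have hn0 : n ≠ 0 := by omega
      simp [Polynomial.coeff_X_pow, Polynomial.coeff_one, hn0.symm]
    obtain ⟨G, hG⟩ : ∃ G : Matrix.SpecialLinearGroup (Fin n) F,
        (G : Matrix (Fin n) (Fin n) F) = g := ⟨⟨g, hgdet⟩, rfl⟩
    have hne0 : (n : F) ≠ 0 := Cfsg.Agent.Lib.Helper40.Elusive.natCast_ne_zero_of_ne n hnp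
    have hconj := Cfsg.Agent.Lib.Helper40.isConj_SL_of_semisimple x G
      (Cfsg.Agent.Lib.Helper40.isSemisimple_of_pow_eq_one _ n hne0 hxn)
      (Cfsg.Agent.Lib.Helper40.isSemisimple_of_pow_eq_one _ n hne0 (by rw [hG]; exact hgn))
      (by rw [hχx, hG, hχg])
    obtain ⟨c, hc⟩ := isConj_iff.1 hconj
    refine ⟨c⁻¹, ?_⟩
    rw [inv_inv, hc]
    exact Cfsg.Agent.Lib.Helper40.Singer.mem_norm_of_frob (by omega) G (by rw [hG]; exact hgn)
      (Fintype.card F) (by rw [hG]; exact hgb)

end Cfsg.Agent.S5970
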