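import Cfsg.Statements.S5971
import Mathlib
import Cfsg.Agent.Lib.Helper40.Singer2

set_option autoImplicit false
open scoped MatrixGroups
open Cfsg

namespace Cfsg.Agent.S5971

/-- Elements of order 3 of PSL_3(q) and the normalizer of a Singer cycle. Here `T = PSL_n(F)` for a field `F` with `q = p^f` elements (`n ≥ 2`, `(n, q) ≠ (2, 2), (2, 3)`), `k` is a prime dividing `n`, `K` is a subalgebra of the `n × n` matrices that is a field of degree `k` over `F` (an extension-field structure F_{q^k} on `F^n`), and `H` is the subgroup of matrices of determinant 1 normalizing `K` — a subgroup of type GL_{n/k}(q^k) (maximal except in some small cases; maximality is not assumed); Ω is the set of cosets of `H` in `T`, so an element of `T` of prime order `r` (a matrix `x` of determinant 1 with `x^r` scalar, `x` not scalar) fixes a point of Ω when some conjugate of `x` by a matrix of determinant 1 normalizes `K`. Take `n = k = 3` and suppose 3 divides the index of `H`. Then every element of `T` of order 3 is conjugate in `T` into `H` if and only if `q ≡ 4, 7` or `8 (mod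 9)`. -/
theorem result {F : Type*} [Field F] [Fintype F] {p : ℕ} [Fact p.Prime] [CharP F p] {q : ℕ} (hq : Fintype.card F = q)
    (n : ℕ) (hn : n = 3) (k : ℕ) (hk : k.Prime) (hkn : k ∣ n) (K : Subalgebra F (Matrix (Fin n) (Fin n) F)) (hK : Cfsg.Geo.IsFieldSubalgebra k K) (hk3 : k = 3) (hΩ : 3 ∣ ((Cfsg.Geo.subalgebraNormalizer K).comap (Matrix.SpecialLinearGroup.toGL : Matrix.SpecialLinearGroup (Fin n) F →* GL (Fin n) F)).index) :
    (∀ x : Matrix.SpecialLinearGroup (Fin n) F,
      (∃ z : F, ((x ^ 3 : Matrix.SpecialLinearGroup (Fin n) F) : Matrix (Fin n) (Fin n) F) = z • (1 : Matrix (Fin n) (Fin n) F)) →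
      (∀ z : F, (x : Matrix (Fin n) (Fin n) F) ≠ z • (1 : Matrix (Fin n) (Fin n) F)) →
      ∃ P : Matrix.SpecialLinearGroup (Fin n) F, P⁻¹ * x * P ∈ ((Cfsg.Geo.subalgebraNormalizer K).comap (Matrix.SpecialLinearGroup.toGL : Matrix.SpecialLinearGroup (Fin n) F →* GL (Fin n) F))) ↔
    (q % 9 = 4 ∨ q % 9 = 7 ∨ q % 9 = 8) := by
  classical
  subst hn
  subst hk3
  have hq2 : 2 ≤ q := by
    rw [← hq]
    exact Fintype.one_lt_card
  have hpP : p.Prime := Fact.out
  have hpq : p ∣ q := by
    rw [← hq]
    exact Cfsg.Agent.Lib.Helper40.Elusive.char_dvd_card p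
  constructor
  · intro hall
    by_contra hq9
    by_cases hp3 : p = 3
    · subst hp3
      obtain ⟨x, hx3, hns, hder⟩ := Cfsg.Agent.Lib.Helper40.Singer2.transvection_derange hK
      obtain ⟨P, hP⟩ := hall x ⟨1, by rw [Matrix.SpecialLinearGroup.coe_pow, hx3, one_smul]⟩ hns
      exact hder P hP
    · have h3q : ¬ 3 ∣ q := by
        intro h
        obtain ⟨f, -, hf⟩ := FiniteField.card F p
        rw [hq] at hf
        rw [hf] at h
        have h2 := Nat.Prime.dvd_of_dvd_pow Nat.prime_three h
        exact hp3 ((Nat.prime_dvd_prime_iff_eq Nat.prime_three hpP).1 h2).symm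
      have hcases : q % 9 = 1 ∨ (q % 9 = 2 ∨ q % 9 = 5) := by omega
      rcases hcases with h1 | h25
      · obtain ⟨x, hxz, hns, hder⟩ :=
          Cfsg.Agent.Lib.Helper40.Singer2.diag_derange hK (by rw [hq]; omega)
        obtain ⟨z, hz⟩ := hxz
        obtain ⟨P, hP⟩ := hall x ⟨z, by rw [Matrix.SpecialLinearGroup.coe_pow, hz]⟩ hns
        exact hder P hP
      · exact Cfsg.Agent.Lib.Helper40.Singer2.not_dvd_index hq h25 hK hΩ
  · intro hq9 x hxz hns
    have h3q : ¬ 3 ∣ q := by omega
    have hp3 : 3 ≠ p := by
      intro h
      rw [← h] at hpq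
      exact h3q hpq
    have : Fact (Nat.Prime 3) := ⟨Nat.prime_three⟩
    have h3F : (3 : F) ≠ 0 := by
      have h := Cfsg.Agent.Lib.Helper40.Elusive.natCast_ne_zero_of_ne (F := F) 3 hp3
      exact_mod_cast h
    obtain ⟨z, hz⟩ := hxz
    have hdetz : 1 = z ^ 3 := by
      have h1 := congrArg Matrix.det hz
      rw [Matrix.SpecialLinearGroup.det_coe, Matrix.det_smul, Matrix.det_one, mul_one,
        Fintype.card_fin] at h1
      exact h1
    have hz0 : z ≠ 0 := by
      rintro rfl
      rw [zero_pow (by norm_num)] at hdetz
      exact one_ne_zero hdetz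
    obtain ⟨g, v₀, hv₀, hg3, hgns, hg, hgb⟩ :=
      Cfsg.Agent.Lib.Helper40.Singer2.exists_frob' (n := 3) (by norm_num) hK
    have hmain : z = 1 ∧ g.charpoly = Polynomial.X ^ 3 - 1 := by
      by_cases h8 : q % 9 = 8
      · constructor
        · have h2 : z ^ (q - 1) = 1 := by
            rw [← hq]
            exact FiniteField.pow_card_sub_one_eq_one z hz0
          have h3 : orderOf z ∣ 3 := orderOf_dvd_of_pow_eq_one hdetz.symm
          have h4 : orderOf z ∣ q - 1 := orderOf_dvd_of_pow_eq_one h2
          have h5 : orderOf z = 1 := by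
            rcases (Nat.dvd_prime Nat.prime_three).1 h3 with h | h
            · exact h
            · exfalso
              rw [h] at h4
              omega
          exact orderOf_eq_one_iff.1 h5
        · exact Cfsg.Agent.Lib.Helper40.Singer.charpoly_of_order hq 3 hp3 le_rfl
            (Cfsg.Agent.Lib.Helper40.Singer2.orderOf_mod_three q (by omega)) g hg3
            (fun h => hgns 1 (by rw [h, one_smul]))
      · have h47 : q % 9 = 4 ∨ q % 9 = 7 := by omega
        constructor
        · by_contra hz1
          have hcube : ∀ b : F, b ^ 3 ≠ z := by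
            intro b hb
            have hb9 : b ^ 9 = 1 := by
              rw [show 9 = 3 * 3 from rfl, pow_mul, hb, ← hdetz]
            have hb0 : b ≠ 0 := by
              rintro rfl
              simp at hb9
            have h2 : b ^ (q - 1) = 1 := by
              rw [← hq]
              exact FiniteField.pow_card_sub_one_eq_one b hb0
            have h3 : orderOf b ∣ 3 ^ 2 := orderOf_dvd_of_pow_eq_one hb9
            have h4 : orderOf b ∣ q - 1 := orderOf_dvd_of_pow_eq_one h2
            have h5 : orderOf b ∣ 3 := by
              obtain ⟨k, hk2, hk⟩ := (Nat.dvd_prime_pow Nat.prime_three).1 h3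
              interval_cases k
              · rw [hk]
                norm_num
              · rw [hk]
                norm_num
              · exfalso
                rw [hk] at h4
                norm_num at h4
                omega
            apply hz1
            rw [← hb]
            exact orderOf_dvd_iff_pow_eq_one.1 h5
          obtain ⟨t, ht, hdet⟩ := Cfsg.Agent.Lib.Helper40.Elusive.det_of_pow_eq Nat.prime_three z
            hcube (x : Matrix (Fin 3) (Fin 3) F)
            (by rw [← Matrix.SpecialLinearGroup.coe_pow]; exact hz)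
          have ht1 : t = 1 := by omega
          rw [ht1, pow_one, Matrix.SpecialLinearGroup.det_coe] at hdet
          apply hz1
          have h5 : ((-1 : F)) ^ (3 + 1) = 1 := by norm_num
          rw [h5, one_mul] at hdet
          exact hdet.symm
        · exact Cfsg.Agent.Lib.Helper40.Singer2.frob_charpoly hK (by rw [hq]; omega) g v₀ hv₀ hg
    obtain ⟨hz1, hχ⟩ := hmain
    exact Cfsg.Agent.Lib.Helper40.Singer2.conj_into_norm h3F g hg3 hχ (Fintype.card F) hgb x
      (by rw [← Matrix.SpecialLinearGroup.coe_pow, hz, hz1, one_smul]) hns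

end Cfsg.Agent.S5971
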