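import Cfsg.Statements.S5979
import Cfsg.Agent.Lib.Helper40.Tensor

set_option autoImplicit false
open scoped MatrixGroups
open Cfsg

namespace Cfsg.Agent.S5979

/-- Elements of prime order of PSL_n(q) and the stabilizers of tensor decompositions with factors of different dimensions. Here `T = PSL_n(F)` for a field `F` with `q` elements and `n = a·b` with `2 ≤ a < b`; a tensor decomposition `F^n ≅ F^a ⊗ F^b` is given by a bijection `e` of index sets and a change of basis `P`, and `H` is the subgroup of matrices of determinant 1 in its stabilizer (the conjugate by `P` of the group of Kronecker products `g₁ ⊗ g₂`) — a subgroup of type GL_a(q) ⊗ GL_b(q) (maximality is not assumed); Ω is the set of cosets of `H` in `T`, so an element of `T` of prime order `r` (a matrix `x` of determinant 1 with `x^r` scalar, `x` not scalar) fixes a point of Ω exactly when some conjugate of `x` by a matrix of determinant 1 lies in `H`. Let `r` be a prime dividing the index of `H`. Then every element of `T` of order `r` fixes a point of Ω if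 and only if `r = 2`, `a = 2`, `q` is odd and `(q − 1)_2 ≤ (n)_2` (2-parts). -/
theorem result {F : Type*} [Field F] [Fintype F] {p : ℕ} [Fact p.Prime] [CharP F p] {q : ℕ} (hq : Fintype.card F = q)
    (n a b : ℕ) (hab : n = a * b) (ha : 2 ≤ a) (hlt : a < b) (e : Fin n ≃ Fin a × Fin b) (P : GL (Fin n) F)
    (r : ℕ) [Fact r.Prime]
    (hΩ : r ∣ (Cfsg.Geo.tensorProductSubgroup a b e P).relIndex (Cfsg.Geo.specialLinear (Fin n) F)) :
    (∀ x ∈ Cfsg.Geo.specialLinear (Fin n) F, (∃ z : F, ((x ^ r : GL (Fin n) F) : Matrix (Fin n) (Fin n) F) = z • (1 : Matrix (Fin n) (Fin n) F)) →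
      (∀ z : F, (x : Matrix (Fin n) (Fin n) F) ≠ z • (1 : Matrix (Fin n) (Fin n) F)) →
      ∃ g ∈ Cfsg.Geo.specialLinear (Fin n) F, g⁻¹ * x * g ∈ Cfsg.Geo.tensorProductSubgroup a b e P) ↔
    (r = 2 ∧ a = 2 ∧ Odd q ∧ padicValNat 2 (q - 1) ≤ padicValNat 2 n) := by
  classical
  have hp : p.Prime := Fact.out
  have hr : r.Prime := Fact.out
  have hb3 : 3 ≤ b := by omega
  have hn6 : 6 ≤ n := by
    rw [hab]
    nlinarith
  constructor
  · intro H
    by_contra hcon
    have key : ∀ M : Matrix (Fin n) (Fin n) F, M.det = 1 →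
        (∃ z : F, M ^ r = z • (1 : Matrix (Fin n) (Fin n) F)) →
        (∀ z : F, M ≠ z • (1 : Matrix (Fin n) (Fin n) F)) →
        Cfsg.Agent.Lib.Helper40.Tensor.Good a b r M := by
      intro M hdet hz hns
      obtain ⟨z, hz⟩ := hz
      exact Cfsg.Agent.Lib.Helper40.Tensor.forward (by omega) e P r H M hdet z hz hns
    by_cases hrp : r = p
    · obtain ⟨M, h1, h2, h3, h4⟩ := Cfsg.Agent.Lib.Helper40.Tensor.bad_transv (F := F) p
        (n := n) (by omega) ha (by omega : 2 ≤ b)
      apply h4
      have h5 := key M h1 ⟨1, by rw [hrp]; exact h2⟩ h3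
      rw [hrp] at h5
      exact h5
    · have hq1 : 1 ≤ q := by
        rw [← hq]
        exact Fintype.card_pos
      by_cases hr2 : r = 2
      · have hp2 : p ≠ 2 := fun h => hrp (hr2.trans h.symm)
        have hoddq : Odd q := by
          obtain ⟨f, -, hf⟩ := FiniteField.card F p
          rw [← hq, hf]
          exact (hp.odd_of_ne_two hp2).pow
        have h2F : (2 : F) ≠ 0 := by
          have h5 := Cfsg.Agent.Lib.Helper40.Elusive.natCast_ne_zero_of_ne (F := F) r hrp
          rw [hr2] at h5
          exact_mod_cast h5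
        by_cases ha2 : a = 2
        · have hv : padicValNat 2 n < padicValNat 2 (q - 1) := by
            by_contra hv
            exact hcon ⟨hr2, ha2, hoddq, not_lt.1 hv⟩
          obtain ⟨c, hc⟩ := Cfsg.Agent.Lib.Helper40.Alt.neg_one_pow_of_lt hq hoddq
            (by omega : n ≠ 0) hv
          obtain ⟨M, h1, h2, h3, h4⟩ := Cfsg.Agent.Lib.Helper40.Tensor.bad_diag_c h2F
            (by omega : 2 ≤ n) ha (by omega : 2 ≤ b) c hc
          apply h4
          have h5 := key M h1 ⟨c ^ 2, by rw [hr2]; exact h2⟩ h3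
          rw [hr2] at h5
          exact h5
        · obtain ⟨M, h1, h2, h3, h4⟩ := Cfsg.Agent.Lib.Helper40.Tensor.bad_diag2 h2F
            (by omega : 3 ≤ n) (by omega : 3 ≤ a) hb3
          apply h4
          have h5 := key M h1 ⟨1, by rw [hr2]; exact h2⟩ h3
          rw [hr2] at h5
          exact h5
      · have hcpos := Cfsg.Agent.Lib.Helper40.Elusive.orderOf_pos_of_ne hq r hrp
        have hcn : orderOf (q : ZMod r) ≤ n := by
          apply Cfsg.Agent.Lib.Helper40.Tensor.le_of_dvd_card_GL hq n r hrp
          exact (hΩ.trans (Subgroup.relIndex_dvd_card _ _)).trans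
            (Subgroup.card_subgroup_dvd_card _)
        by_cases hc1 : orderOf (q : ZMod r) = 1
        · have hrq : r ∣ q - 1 := by
            have h5 := (Cfsg.Agent.Lib.Helper40.Elusive.dvd_pow_sub_one_iff q r hq1 1).2
              (by rw [hc1])
            simpa using h5
          have hq2 : 2 ≤ q := by
            rw [← hq]
            exact Fintype.one_lt_card
          obtain ⟨ω, hω, -⟩ := Cfsg.Agent.Lib.Helper40.Subf5.exists_omega hq r hrq hq2
          obtain ⟨M, h1, h2, h3, h4⟩ := Cfsg.Agent.Lib.Helper40.Tensor.bad_diag_omega r hr2 ω hω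
            (by omega : 3 ≤ n) ha hb3
          exact h4 (key M h1 ⟨1, h2⟩ h3)
        · obtain ⟨M, h1, h2, h3, h4⟩ := Cfsg.Agent.Lib.Helper40.Tensor.bad_block hq n r hrp
            (by omega) hcn ha hlt
          exact h4 (key M h1 ⟨1, h2⟩ h3)
  · rintro ⟨hr2, ha2, hodd, hv⟩
    subst ha2
    intro x hx hz _
    obtain ⟨z, hz⟩ := hz
    rw [Units.val_pow_eq_pow_val, hr2] at hz
    exact Cfsg.Agent.Lib.Helper40.Tensor.backward hq hodd (by omega : n = 2 * b) (by omega) hv e P
      x hx z hz

end Cfsg.Agent.S5979
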