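import Cfsg.Statements.S5983
import Mathlib
import Cfsg.Agent.Lib.Helper99.ArfE
import Cfsg.Agent.Lib.Helper44.SiegelOmega

set_option autoImplicit false
open scoped MatrixGroups
open Cfsg

namespace Cfsg.Agent.S5983

open Matrix Module Cfsg.Agent.Lib.Helper99 Cfsg.Agent.Lib.Helper14

/-- Elements of prime order of PSp_n(q), q even, and the subgroups of orthogonal type. Here `T = Sp_{2d}(F)` for a field `F` of characteristic 2 with `q` elements (`d ≥ 2`, `(d, q) ≠ (2, 2)`), realised as the invertible matrices preserving the standard alternating form; `Q` is a non-degenerate quadratic form on `F^{2d}` whose polar form is that alternating form, and `H` is the subgroup of `T` preserving `Q` up to a scalar (equivalently preserving `Q`) — a subgroup of type O^±_{2d}(q) (maximality is not assumed); `Q` is of plus type when `F^{2d}` contains a `d`-dimensional subspace on which `Q` vanishes, of minus type otherwise. Ω is the set of cosets of `H` in `T`, so an element of `T` of prime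 order `r` (`x ∈ T` with `x^r` scalar, `x` not scalar) fixes a point of Ω exactly when some `T`-conjugate of `x` preserves `Q`. Let `r` be a prime dividing the index of `H`. Then every element of `T` of order `r` fixes a point of Ω if and only if `r = 2` and either `Q` is of plus type or `d` is odd. -/
theorem result {F : Type*} [Field F] [Fintype F] {p : ℕ} [Fact p.Prime] [CharP F p] {q : ℕ} (hq : Fintype.card F = q)
    (hp : p = 2) (d : ℕ) (hd : 2 ≤ d) (hT : (d, q) ≠ (2, 2)) (Q : (Fin d ⊕ Fin d → F) → F) (hQ : Cfsg.Geo.IsNondegenerateQuadraticForm Q)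
    (hQf : ∀ u v, QuadraticMap.polar Q u v = Cfsg.sympForm d F u v)
    (r : ℕ) [Fact r.Prime]
    (hΩ : r ∣ (Cfsg.Geo.quadSimilarityGroup Q).relIndex (Cfsg.spGL d F)) :
    (∀ x ∈ Cfsg.spGL d F, (∃ z : F, ((x ^ r : GL (Fin d ⊕ Fin d) F) : Matrix (Fin d ⊕ Fin d) (Fin d ⊕ Fin d) F) = z • (1 : Matrix (Fin d ⊕ Fin d) (Fin d ⊕ Fin d) F)) →
      (∀ z : F, (x : Matrix (Fin d ⊕ Fin d) (Fin d ⊕ Fin d) F) ≠ z • (1 : Matrix (Fin d ⊕ Fin d) (Fin d ⊕ Fin d) F)) →
      ∃ g ∈ Cfsg.spGL d F, g⁻¹ * x * g ∈ Cfsg.Geo.quadSimilarityGroup Q) ↔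
    (r = 2 ∧ (Cfsg.Geo.IsPlusTypeOn Q ⊤ ∨ Odd d)) := by
  classical
  have h2 : (2 : F) = 0 := by
    subst hp
    exact_mod_cast CharP.cast_eq_zero F 2
  obtain ⟨Q', rfl, hQ'⟩ := Cfsg.Agent.Lib.Helper44.exists_quadraticForm_of_geo hQ
  have hd1 : 1 ≤ d := by omega
  have hdim : Fintype.card (Fin d ⊕ Fin d) = 2 * d := by
    rw [Fintype.card_sum, Fintype.card_fin]
    omega
  have hfin : Module.finrank F (Fin d ⊕ Fin d → F) = 2 * d := by
    rw [Module.finrank_fintype_fun_eq_card, hdim]
  have hne : Nonempty (Fin d ⊕ Fin d) := ⟨Sum.inl ⟨0, by omega⟩⟩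
  have hnz : ∃ v : Fin d ⊕ Fin d → F, v ≠ 0 := ⟨Pi.single (Sum.inl ⟨0, by omega⟩) 1, by
    intro h
    have := congrFun h (Sum.inl ⟨0, by omega⟩)
    simp at this⟩
  have hG : ∀ g : GL (Fin d ⊕ Fin d) F, g ∈ Cfsg.spGL d F ↔
      ∀ u v, QuadraticMap.polar Q' ((g : Matrix (Fin d ⊕ Fin d) (Fin d ⊕ Fin d) F) *ᵥ u)
        ((g : Matrix (Fin d ⊕ Fin d) (Fin d ⊕ Fin d) F) *ᵥ v) = QuadraticMap.polar Q' u v := by
    intro g
    simp only [hQf]
    exact Iff.rfl
  have hplus : Cfsg.Geo.IsPlusTypeOn (⇑Q') ⊤ ↔ ∃ U : Submodule F (Fin d ⊕ Fin d → F),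
      Module.finrank F U = d ∧ ∀ u ∈ U, Q' u = 0 := by
    constructor
    · rintro ⟨U, -, hU, hUd⟩
      rw [finrank_top, hfin] at hUd
      exact ⟨U, by omega, hU⟩
    · rintro ⟨U, hUd, hU⟩
      exact ⟨U, le_top, hU, by rw [finrank_top, hfin, hUd]⟩
  rw [arf_index h2 hq Q' hQ' d hd1 hdim (Cfsg.spGL d F) hG] at hΩ
  have hr : r.Prime := Fact.out
  have hq2 : 2 ≤ q := by rw [← hq]; exact Fintype.one_lt_card
  obtain ⟨hz1, hz2, hz3, hz4⟩ := zvals_lt q d hq2 hd1
  have hnd : ∀ Q'' : QuadraticForm F (Fin d ⊕ Fin d → F),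
      (∀ u v, QuadraticMap.polar Q'' u v = QuadraticMap.polar Q' u v) →
      (QuadraticMap.polarBilin Q'').Nondegenerate := by
    intro Q'' hpol
    have e : QuadraticMap.polarBilin Q'' = QuadraticMap.polarBilin Q' := by
      apply LinearMap.ext
      intro u
      apply LinearMap.ext
      intro v
      exact hpol u v
    rw [e]
    exact hQ'
  constructor
  · intro hall
    by_cases hr2 : r = 2
    · refine ⟨hr2, ?_⟩
      by_contra hcon
      rw [not_or, hplus, Nat.not_odd_iff_even] at hcon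
      obtain ⟨hnp, hev⟩ := hcon
      obtain ⟨M, hMM, hMsymp, hMrank, hMN⟩ := arf_witness_two (F := F) h2 d hev
      obtain ⟨x, hxM⟩ : ∃ x : GL (Fin d ⊕ Fin d) F,
          (x : Matrix (Fin d ⊕ Fin d) (Fin d ⊕ Fin d) F) = M := ⟨⟨M, M, hMM, hMM⟩, rfl⟩
      have hxG : x ∈ Cfsg.spGL d F := by
        rw [hG, hxM]
        intro u v
        rw [hQf, hQf]
        exact hMsymp u v
      obtain ⟨g, hg, hconj⟩ := hall x hxG ⟨1, by
          rw [hr2, Units.val_pow_eq_pow_val, hxM, pow_two, one_smul]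
          exact hMM⟩ (by
          intro z hz
          rw [hxM] at hz
          have hz1 : z = 1 := sp_scalar_one h2 Q' hQ' hne z (by
            intro u v
            rw [← hz, ← hxM]
            exact (hG x).mp hxG u v)
          have h0 : M - 1 = 0 := by rw [hz, hz1, one_smul, sub_self]
          rw [h0, Matrix.rank_zero] at hMrank
          omega)
      obtain ⟨Q'', hpol, hinv, hz⟩ := arf_conj Q' hQ' hne (Cfsg.spGL d F) hG x g hxG hg hconj
      rw [hxM] at hinv
      have hts : ∀ u ∈ LinearMap.range (M - 1).mulVecLin, Q'' u = 0 := by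
        rintro _ ⟨u, rfl⟩
        rw [Matrix.mulVecLin_apply]
        have h1 := hinv u
        have e : M *ᵥ u = u + (M - 1) *ᵥ u := by
          rw [Matrix.sub_mulVec, Matrix.one_mulVec]
          abel
        rw [e, QuadraticMap.map_add Q'', hpol, hQf, hMN u] at h1
        linear_combination h1
      rcases qz_cases h2 hq Q'' (hnd Q'' hpol) d hd1 hfin with ⟨hzz, -⟩ | ⟨-, hU⟩
      · rcases qz_cases h2 hq Q' hQ' d hd1 hfin with ⟨-, hU'⟩ | ⟨hzz', -⟩
        · exact hnp hU'
        · rw [hz] at hzz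
          omega
      · have h5 := hU _ hts
        have hrk : Module.finrank F (LinearMap.range (M - 1).mulVecLin) = d := hMrank
        omega
    · exfalso
      rcases arf_dvd h2 hp hq Q' hQ' d hd1 hfin r hr hr2 hΩ with ⟨hzq, hdv⟩ | ⟨hzq, hdv⟩
      · obtain ⟨M, hMr, hMpol, hMfix⟩ := arf_field_elt h2 (p := p) Q' hQ' d hd1 hdim r hr
          (by rw [hq]; exact hdv)
        have hr1 : r = (r - 1) + 1 := by have := hr.pos; omega
        obtain ⟨x, hxM⟩ : ∃ x : GL (Fin d ⊕ Fin d) F,
            (x : Matrix (Fin d ⊕ Fin d) (Fin d ⊕ Fin d) F) = M :=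
          ⟨⟨M, M ^ (r - 1), by rw [← pow_succ', ← hr1, hMr], by rw [← pow_succ, ← hr1, hMr]⟩, rfl⟩
        have hxG : x ∈ Cfsg.spGL d F := by
          rw [hG, hxM]
          exact hMpol
        obtain ⟨g, hg, hconj⟩ := hall x hxG ⟨1, by
            rw [Units.val_pow_eq_pow_val, hxM, one_smul]
            exact hMr⟩ (by
            intro z hz
            rw [hxM] at hz
            have hz1 : z = 1 := sp_scalar_one h2 Q' hQ' hne z (by
              intro u v
              rw [← hz]
              exact hMpol u v)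
            obtain ⟨v, hv⟩ := hnz
            apply hv
            apply hMfix
            rw [hz, hz1, one_smul, Matrix.one_mulVec])
        obtain ⟨Q'', hpol, hinv, hz⟩ := arf_conj Q' hQ' hne (Cfsg.spGL d F) hG x g hxG hg hconj
        rw [hxM] at hinv
        have hdvd := arf_orbit_mat (fun v => Q'' v) (map_zero Q'') r hr M hMr hinv hMfix
        have hcard : Nat.card {v : Fin d ⊕ Fin d → F // Q'' v ≠ 0} +
            Nat.card {v : Fin d ⊕ Fin d → F // Q'' v = 0} = q ^ (2 * d) := by
          have h1 := Fintype.card_subtype_compl (fun v : Fin d ⊕ Fin d → F => Q'' v = 0)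
          have h3 : Fintype.card {v : Fin d ⊕ Fin d → F // Q'' v = 0} ≤
              Fintype.card (Fin d ⊕ Fin d → F) := Fintype.card_subtype_le _
          rw [Fintype.card_fun, hq, hdim] at h1 h3
          rw [Nat.card_eq_fintype_card, Nat.card_eq_fintype_card]
          have h4 : Fintype.card {v : Fin d ⊕ Fin d → F // Q'' v ≠ 0} =
              Fintype.card {v : Fin d ⊕ Fin d → F // ¬ Q'' v = 0} := rfl
          omega
        rw [hz, hzq] at hcard
        exact arf_w2_arith hp hq d hd1 r hr hr2 hdv _ hcard hdvd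
      · obtain ⟨M, hMr, hMiso, hMunit⟩ := arf_witness_plus (F := F) d hd1 r hr
          (by rw [hq]; exact hdv)
        have hMpol : ∀ u v, QuadraticMap.polar Q' (M *ᵥ u) (M *ᵥ v) = QuadraticMap.polar Q' u v := by
          intro u v
          rw [hQf, hQf, ← plus_polar_symp h2, ← plus_polar_symp h2]
          unfold QuadraticMap.polar
          rw [← Matrix.mulVec_add, hMiso, hMiso, hMiso]
        have hr1 : r = (r - 1) + 1 := by have := hr.pos; omega
        obtain ⟨x, hxM⟩ : ∃ x : GL (Fin d ⊕ Fin d) F,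
            (x : Matrix (Fin d ⊕ Fin d) (Fin d ⊕ Fin d) F) = M :=
          ⟨⟨M, M ^ (r - 1), by rw [← pow_succ', ← hr1, hMr], by rw [← pow_succ, ← hr1, hMr]⟩, rfl⟩
        have hxG : x ∈ Cfsg.spGL d F := by
          rw [hG, hxM]
          exact hMpol
        obtain ⟨g, hg, hconj⟩ := hall x hxG ⟨1, by
            rw [Units.val_pow_eq_pow_val, hxM, one_smul]
            exact hMr⟩ (by
            intro z hz
            rw [hxM] at hz
            have hz1 : z = 1 := sp_scalar_one h2 Q' hQ' hne z (by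
              intro u v
              rw [← hz]
              exact hMpol u v)
            have h0 : M - 1 = 0 := by rw [hz, hz1, one_smul, sub_self]
            rw [h0] at hMunit
            exact not_isUnit_zero hMunit)
        obtain ⟨Q'', hpol, hinv, hz⟩ := arf_conj Q' hQ' hne (Cfsg.spGL d F) hG x g hxG hg hconj
        rw [hxM] at hinv
        have huniq := arf_unique (fun v => Q'' v) (Cfsg.quadFormPlus d F) (by
            intro u v
            rw [plus_polar_symp h2, ← hQf]
            exact hpol u v) M hinv hMiso hMunit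
        have hzp := Cfsg.Agent.Lib.Helper45.card_zeros_plus hq d hd1
        have hzeq : Nat.card {v : Fin d ⊕ Fin d → F // Q'' v = 0} =
            Nat.card {v : Fin d ⊕ Fin d → F // Cfsg.quadFormPlus d F v = 0} := by
          apply Nat.card_congr
          exact Equiv.subtypeEquiv (Equiv.refl _) (fun v => by
            show Q'' v = 0 ↔ Cfsg.quadFormPlus d F v = 0
            rw [← huniq v])
        rw [hz, hzq, hzp] at hzeq
        omega
  · rintro ⟨hr2, hpo⟩ x hx ⟨z, hz⟩ hns
    subst hr2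
    have hx2G := (hG (x ^ 2)).mp (Subgroup.pow_mem _ hx 2)
    have hz1 : z = 1 := sp_scalar_one h2 Q' hQ' hne z (by
      intro u v
      rw [← hz]
      exact hx2G u v)
    have hT2 : (x : Matrix (Fin d ⊕ Fin d) (Fin d ⊕ Fin d) F) *
        (x : Matrix (Fin d ⊕ Fin d) (Fin d ⊕ Fin d) F) = 1 := by
      rw [← pow_two, ← Units.val_pow_eq_pow_val, hz, hz1, one_smul]
    have hpo' : (∃ U : Submodule F (Fin d ⊕ Fin d → F),
        Module.finrank F U = d ∧ ∀ u ∈ U, Q' u = 0) ∨ Odd d := by
      rcases hpo with h | h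
      · exact Or.inl (hplus.mp h)
      · exact Or.inr h
    obtain ⟨w, hw, hwinv⟩ := arf_invol h2 hq Q' hQ' d hd1 hdim hpo'
      (x : Matrix (Fin d ⊕ Fin d) (Fin d ⊕ Fin d) F) hT2 ((hG x).mp hx)
    obtain ⟨M, hMM, hM⟩ := arf_transv h2 Q' w hw
    obtain ⟨g, hgM, hgM'⟩ : ∃ g : GL (Fin d ⊕ Fin d) F,
        (g : Matrix (Fin d ⊕ Fin d) (Fin d ⊕ Fin d) F) = M ∧
        ((g⁻¹ : GL (Fin d ⊕ Fin d) F) : Matrix (Fin d ⊕ Fin d) (Fin d ⊕ Fin d) F) = M :=
      ⟨⟨M, M, hMM, hMM⟩, rfl, rfl⟩
    have hgG : g ∈ Cfsg.spGL d F := by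
      rw [hG, hgM]
      intro u v
      rw [← qtw_polar h2 Q' w u v]
      unfold QuadraticMap.polar
      rw [← Matrix.mulVec_add, hM, hM, hM]
    refine ⟨g, hgG, ⟨1, fun v => ?_⟩⟩
    rw [Units.val_mul, Units.val_mul, Units.val_one, one_mul, hgM, hgM',
      ← Matrix.mulVec_mulVec, ← Matrix.mulVec_mulVec, hM, hwinv, ← hM, Matrix.mulVec_mulVec, hMM,
      Matrix.one_mulVec]

end Cfsg.Agent.S5983
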