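import Cfsg.Statements.S5985
import Cfsg.Agent.Lib.Helper99.NsPlus

set_option autoImplicit false
open scoped MatrixGroups
open Cfsg

namespace Cfsg.Agent.S5985

open Matrix Cfsg.Agent.Lib.Helper99 Cfsg.Agent.Lib.Helper14

/-- Elements of prime order of Ω⁺_n(q), q even, with no fixed nonsingular 1-space. Here `T = PΩ⁺_n(F)`, `n = 2d ≥ 8`, realised through `Ω⁺_n(q)`, the commutator subgroup of the isometry group of `Q = Σ xᵢyᵢ` over the field `F` with `q` elements; an element of `T` of prime order `r` is an element `x` of `Ω⁺_n(q)` with `x^r` scalar and `x` not scalar; `q` is even (so the centre is trivial). Let Ω be the set of 1-dimensional subspaces spanned by a vector `v` with `Q(v) ≠ 0`, and let `r` be a prime dividing their number. Then every element of `T` of order `r` fixes some nonsingular 1-space if and only if `r = 2` and `n ≡ 2 (mod 4)` (that is, `d` is odd). -/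
theorem result {F : Type*} [Field F] [Fintype F] {p : ℕ} [Fact p.Prime] [CharP F p] {q : ℕ} (hq : Fintype.card F = q)
    (hp : p = 2) (d : ℕ) (hd : 4 ≤ d) (r : ℕ) [Fact r.Prime]
    (hrΩ : r ∣ Nat.card {W : Submodule F (Fin d ⊕ Fin d → F) // Module.finrank F ↥W = 1 ∧ ∃ v ∈ W, Cfsg.quadFormPlus d F v ≠ 0}) :
    (∀ x : GL (Fin d ⊕ Fin d) F, x ∈ Cfsg.Geo.omegaGL (Cfsg.quadFormPlus d F) →
      (∃ z : F, ((x ^ r : GL (Fin d ⊕ Fin d) F) : Matrix (Fin d ⊕ Fin d) (Fin d ⊕ Fin d) F) = z • (1 : Matrix (Fin d ⊕ Fin d) (Fin d ⊕ Fin d) F)) →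
      (∀ z : F, (x : Matrix (Fin d ⊕ Fin d) (Fin d ⊕ Fin d) F) ≠ z • (1 : Matrix (Fin d ⊕ Fin d) (Fin d ⊕ Fin d) F)) →
      ∃ W : Submodule F (Fin d ⊕ Fin d → F), (Module.finrank F ↥W = 1 ∧ ∃ v ∈ W, Cfsg.quadFormPlus d F v ≠ 0) ∧ W.map (Matrix.toLin' (x : Matrix (Fin d ⊕ Fin d) (Fin d ⊕ Fin d) F)) ≤ W) ↔ (r = 2 ∧ Odd d) := by

  classical
  have h2 : (2 : F) = 0 := by
    subst hp
    exact_mod_cast CharP.cast_eq_zero F 2
  have hcard : Fintype.card F ≠ 2 ∨ Fintype.card (Fin d ⊕ Fin d) ≠ 4 :=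
    Or.inr (by rw [Fintype.card_sum, Fintype.card_fin]; omega)
  have hr : r.Prime := Fact.out
  obtain ⟨v₀, hv₀⟩ : ∃ v₀ : Fin d ⊕ Fin d → F, Cfsg.quadFormPlus d F v₀ ≠ 0 := by
    refine ⟨Sum.elim (Pi.single ⟨0, by omega⟩ 1) (Pi.single ⟨0, by omega⟩ 1), ?_⟩
    simp [Cfsg.quadFormPlus, Pi.single_apply]
  constructor
  · intro hall
    have key : ∀ x : GL (Fin d ⊕ Fin d) F, x ∈ Cfsg.Geo.omegaGL (Cfsg.quadFormPlus d F) →
        ((x ^ r : GL (Fin d ⊕ Fin d) F) : Matrix (Fin d ⊕ Fin d) (Fin d ⊕ Fin d) F) = 1 →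
        (∀ u, Cfsg.quadFormPlus d F ((x : Matrix (Fin d ⊕ Fin d) (Fin d ⊕ Fin d) F) *ᵥ u) =
          Cfsg.quadFormPlus d F u) →
        (∀ v, (x : Matrix (Fin d ⊕ Fin d) (Fin d ⊕ Fin d) F) *ᵥ v = v →
          Cfsg.quadFormPlus d F v = 0) → False := by
      intro x hxΩ hxr hiso hfix
      obtain ⟨W, ⟨hW1, hWv⟩, hWmap⟩ := hall x hxΩ ⟨1, by rw [hxr, one_smul]⟩
        (nsl_not_scalar h2 _ (plusQF d F) (plusQF_coe d F) _ hiso hfix v₀ hv₀)
      exact nsl_no_fixed h2 _ (plusQF d F) (plusQF_coe d F) _ hiso hfix W hW1 hWv hWmap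
    rcases nsp_dvd hp d (by omega) r hr hrΩ with h | h
    · refine ⟨h, ?_⟩
      by_contra hodd
      obtain ⟨x, hxΩ, hx2, hiso, hfix⟩ :=
        nsp_witness_two h2 d (by omega) (Nat.not_odd_iff_even.mp hodd)
      exact key x hxΩ (by rw [h]; exact hx2) hiso hfix
    · exfalso
      obtain ⟨A, hA, hA1⟩ := nsl_exists_A d (by omega) r hr h
      obtain ⟨x, hxΩ, hxr, hiso, hfix⟩ := nsp_witness_odd h2 d (by omega) r hr.one_lt.le A hA hA1
      exact key x hxΩ hxr hiso hfix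
  · rintro ⟨rfl, hodd⟩ x hx ⟨z, hz⟩ hns
    obtain ⟨hiso, hev⟩ := nsl_of_mem_omega h2 _ (plusQF d F) (plusQF_coe d F)
      (plusQF_nondegenerate d F) hcard x hx
    have hz' : (x : Matrix (Fin d ⊕ Fin d) (Fin d ⊕ Fin d) F) *
        (x : Matrix (Fin d ⊕ Fin d) (Fin d ⊕ Fin d) F) = z • 1 := by
      rw [← hz, Units.val_pow_eq_pow_val, pow_two]
    have hT2 := nsl_sq_one h2 _ (plusQF d F) (plusQF_coe d F) _ hiso z hz' v₀ hv₀
    obtain ⟨v, hv, hTv⟩ := Cfsg.Agent.Lib.Helper8.OmegaConj.plus_exists_fixed d F h2 _ hT2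
      (fun h => (Nat.not_even_iff_odd.mpr hodd) (h.1 ▸ hev))
    have hv0 : v ≠ 0 := by
      rintro rfl
      apply hv
      simp [Cfsg.quadFormPlus]
    refine ⟨Submodule.span F {v}, ⟨finrank_span_singleton hv0, v,
      Submodule.mem_span_singleton_self v, hv⟩, ?_⟩
    rw [Submodule.map_span, Set.image_singleton, Matrix.toLin'_apply, hTv]

end Cfsg.Agent.S5985
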