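import Cfsg.Statements.S5986
import Cfsg.Agent.Lib.Helper99.NsMinusC

set_option autoImplicit false
open scoped MatrixGroups
open Cfsg

namespace Cfsg.Agent.S5986

open Matrix Cfsg.Agent.Lib.Helper99 Cfsg.Agent.Lib.Helper14

/-- Elements of prime order of Ω⁻_n(q), q even, with no fixed nonsingular 1-space. Here `T = PΩ⁻_n(F)`, `n = 2d ≥ 8`, realised through `Ω⁻_n(q)`, the commutator subgroup of the isometry group of `Q = Σ_{i<d−1} xᵢyᵢ + z₁² + a z₁z₂ + b z₂²` with `z₁² + a z₁z₂ + b z₂²` anisotropic, over the field `F` with `q` elements; an element of `T` of prime order `r` is an element `x` of `Ω⁻_n(q)` with `x^r` scalar and `x` not scalar; `q` is even (so the centre is trivial). Let Ω be the set of 1-dimensional subspaces spanned by a vector `v` with `Q(v) ≠ 0`, and let `r` be a prime dividing their number. Then every element of `T` of order `r` fixes some nonsingular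 1-space if and only if `r = 2`. -/
theorem result {F : Type*} [Field F] [Fintype F] {p : ℕ} [Fact p.Prime] [CharP F p] {q : ℕ} (hq : Fintype.card F = q)
    (hp : p = 2) (d : ℕ) (hd : 4 ≤ d) (a b : F) (hab : ∀ x y : F, x ^ 2 + a * x * y + b * y ^ 2 = 0 → x = 0 ∧ y = 0) (r : ℕ) [Fact r.Prime]
    (hrΩ : r ∣ Nat.card {W : Submodule F ((Fin (d - 1) ⊕ Fin (d - 1)) ⊕ Fin 2 → F) // Module.finrank F ↥W = 1 ∧ ∃ v ∈ W, Cfsg.quadFormMinus (d - 1) F a b v ≠ 0}) :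
    (∀ x : GL ((Fin (d - 1) ⊕ Fin (d - 1)) ⊕ Fin 2) F, x ∈ Cfsg.Geo.omegaGL (Cfsg.quadFormMinus (d - 1) F a b) →
      (∃ z : F, ((x ^ r : GL ((Fin (d - 1) ⊕ Fin (d - 1)) ⊕ Fin 2) F) : Matrix ((Fin (d - 1) ⊕ Fin (d - 1)) ⊕ Fin 2) ((Fin (d - 1) ⊕ Fin (d - 1)) ⊕ Fin 2) F) = z • (1 : Matrix ((Fin (d - 1) ⊕ Fin (d - 1)) ⊕ Fin 2) ((Fin (d - 1) ⊕ Fin (d - 1)) ⊕ Fin 2) F)) →
      (∀ z : F, (x : Matrix ((Fin (d - 1) ⊕ Fin (d - 1)) ⊕ Fin 2) ((Fin (d - 1) ⊕ Fin (d - 1)) ⊕ Fin 2) F) ≠ z • (1 : Matrix ((Fin (d - 1) ⊕ Fin (d - 1)) ⊕ Fin 2) ((Fin (d - 1) ⊕ Fin (d - 1)) ⊕ Fin 2) F)) →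
      ∃ W : Submodule F ((Fin (d - 1) ⊕ Fin (d - 1)) ⊕ Fin 2 → F), (Module.finrank F ↥W = 1 ∧ ∃ v ∈ W, Cfsg.quadFormMinus (d - 1) F a b v ≠ 0) ∧ W.map (Matrix.toLin' (x : Matrix ((Fin (d - 1) ⊕ Fin (d - 1)) ⊕ Fin 2) ((Fin (d - 1) ⊕ Fin (d - 1)) ⊕ Fin 2) F)) ≤ W) ↔ r = 2 := by

  classical
  have h2 : (2 : F) = 0 := by
    subst hp
    exact_mod_cast CharP.cast_eq_zero F 2
  have hcard : Fintype.card F ≠ 2 ∨ Fintype.card ((Fin (d - 1) ⊕ Fin (d - 1)) ⊕ Fin 2) ≠ 4 := by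
    right
    simp only [Fintype.card_sum, Fintype.card_fin]
    omega
  have hr : r.Prime := Fact.out
  have hQm := Cfsg.Agent.Lib.Helper44.minusQF_nondegenerate_char2 (d - 1) F h2 a b hab
  obtain ⟨v₀, hv₀⟩ : ∃ v₀ : (Fin (d - 1) ⊕ Fin (d - 1)) ⊕ Fin 2 → F,
      Cfsg.quadFormMinus (d - 1) F a b v₀ ≠ 0 := by
    refine ⟨Pi.single (Sum.inr 0) 1, ?_⟩
    simp [Cfsg.quadFormMinus]
  constructor
  · intro hall
    by_contra hr2
    rcases nsm_dvd hp d (by omega) a b hab r hr hrΩ with h | h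
    · exact hr2 h
    · obtain ⟨x, hxΩ, hxr, hiso, hfix⟩ := nsm_witness h2 hp d (by omega) a b hab r hr hr2 h
      obtain ⟨W, ⟨hW1, hWv⟩, hWmap⟩ := hall x hxΩ ⟨1, by rw [hxr, one_smul]⟩
        (nsl_not_scalar h2 _ (minusQF (d - 1) F a b) (minusQF_coe (d - 1) F a b) _ hiso hfix
          v₀ hv₀)
      exact nsl_no_fixed h2 _ (minusQF (d - 1) F a b) (minusQF_coe (d - 1) F a b) _ hiso hfix
        W hW1 hWv hWmap
  · rintro rfl x hx ⟨z, hz⟩ hns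
    obtain ⟨hiso, -⟩ := nsl_of_mem_omega h2 _ (minusQF (d - 1) F a b)
      (minusQF_coe (d - 1) F a b) hQm hcard x hx
    have hz' : (x : Matrix ((Fin (d - 1) ⊕ Fin (d - 1)) ⊕ Fin 2)
        ((Fin (d - 1) ⊕ Fin (d - 1)) ⊕ Fin 2) F) *
        (x : Matrix ((Fin (d - 1) ⊕ Fin (d - 1)) ⊕ Fin 2)
          ((Fin (d - 1) ⊕ Fin (d - 1)) ⊕ Fin 2) F) = z • 1 := by
      rw [← hz, Units.val_pow_eq_pow_val, pow_two]
    have hT2 := nsl_sq_one h2 _ (minusQF (d - 1) F a b) (minusQF_coe (d - 1) F a b) _ hiso z hz'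
      v₀ hv₀
    obtain ⟨v, hv, hTv⟩ := Cfsg.Agent.Lib.Helper8.OmegaConj.minus_exists_fixed (d - 1) F h2 a b
      hab _ hT2
    have hv0 : v ≠ 0 := by
      rintro rfl
      apply hv
      simp [Cfsg.quadFormMinus]
    refine ⟨Submodule.span F {v}, ⟨finrank_span_singleton hv0, v,
      Submodule.mem_span_singleton_self v, hv⟩, ?_⟩
    rw [Submodule.map_span, Set.image_singleton, Matrix.toLin'_apply, hTv]

end Cfsg.Agent.S5986
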