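import Cfsg.Statements.S5994
import Cfsg.Agent.Lib.Helper99.JType8
import Cfsg.Agent.Lib.Helper37.CommInv

set_option autoImplicit false
open scoped MatrixGroups
open Cfsg

namespace Cfsg.Agent.S5994

open Matrix Module Cfsg.Agent.Lib.Helper99 Cfsg.Agent.Lib.Helper40

/-- A necessary condition for every element of order p of PΩ⁻_n(q), q odd, to fix an elliptic `m`-space. Here `T = PΩ⁻_n(F)`, `n = 2d ≥ 8`, realised through `Ω⁻_n(q)`, the commutator subgroup of the isometry group of `Q = Σ_{i<d−1} xᵢyᵢ + z₁² + a z₁z₂ + b z₂²` with `z₁² + a z₁z₂ + b z₂²` anisotropic, over the field `F` with `q` elements; an element of `T` of prime order `r` is an element `x` of `Ω⁻_n(q)` with `x^r` scalar and `x` not scalar; `q` is odd; a nondegenerate `m`-space (even `m`) is a subspace on which the polar form of `Q` is nondegenerate; it is hyperbolic if it contains an `m/2`-dimensional subspace on which `Q` vanishes, elliptic otherwise. Let `m` be even with `2 ≤ m ≤ n − 2` and suppose `p` divides the number of elliptic `m`-spaces.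 If every element of `T` of order `p` fixes some elliptic `m`-space, then `n ≡ m (mod 4)` and every partition of `n` into parts of size at most `p` in which every even part has even multiplicity contains (as a sub-multiset) a partition of `m` in which every even part has even multiplicity. -/
theorem result {F : Type*} [Field F] [Fintype F] {p : ℕ} [Fact p.Prime] [CharP F p] {q : ℕ} (hq : Fintype.card F = q) (hqodd : Odd q)
    (d m : ℕ) (hd : 4 ≤ d) (hm : 2 ≤ m) (hme : Even m) (hmn : m + 2 ≤ 2 * d) (a b : F) (hab : ∀ x y : F, x ^ 2 + a * x * y + b * y ^ 2 = 0 → x = 0 ∧ y = 0)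
    (hpΩ : p ∣ Nat.card {W : Submodule F ((Fin (d - 1) ⊕ Fin (d - 1)) ⊕ Fin 2 → F) // Module.finrank F ↥W = m ∧ Cfsg.Geo.IsNondegenerateOn (QuadraticMap.polar (Cfsg.quadFormMinus (d - 1) F a b)) W ∧ ¬ Cfsg.Geo.IsPlusTypeOn (Cfsg.quadFormMinus (d - 1) F a b) W}) :
    (∀ x : GL ((Fin (d - 1) ⊕ Fin (d - 1)) ⊕ Fin 2) F, x ∈ Cfsg.Geo.omegaGL (Cfsg.quadFormMinus (d - 1) F a b) →
      (∃ z : F, ((x ^ p : GL ((Fin (d - 1) ⊕ Fin (d - 1)) ⊕ Fin 2) F) : Matrix ((Fin (d - 1) ⊕ Fin (d - 1)) ⊕ Fin 2) ((Fin (d - 1) ⊕ Fin (d - 1)) ⊕ Fin 2) F) = z • (1 : Matrix ((Fin (d - 1) ⊕ Fin (d - 1)) ⊕ Fin 2) ((Fin (d - 1) ⊕ Fin (d - 1)) ⊕ Fin 2) F)) →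
      (∀ z : F, (x : Matrix ((Fin (d - 1) ⊕ Fin (d - 1)) ⊕ Fin 2) ((Fin (d - 1) ⊕ Fin (d - 1)) ⊕ Fin 2) F) ≠ z • (1 : Matrix ((Fin (d - 1) ⊕ Fin (d - 1)) ⊕ Fin 2) ((Fin (d - 1) ⊕ Fin (d - 1)) ⊕ Fin 2) F)) →
      ∃ W : Submodule F ((Fin (d - 1) ⊕ Fin (d - 1)) ⊕ Fin 2 → F), (Module.finrank F ↥W = m ∧ Cfsg.Geo.IsNondegenerateOn (QuadraticMap.polar (Cfsg.quadFormMinus (d - 1) F a b)) W ∧ ¬ Cfsg.Geo.IsPlusTypeOn (Cfsg.quadFormMinus (d - 1) F a b) W) ∧ W.map (Matrix.toLin' (x : Matrix ((Fin (d - 1) ⊕ Fin (d - 1)) ⊕ Fin 2) ((Fin (d - 1) ⊕ Fin (d - 1)) ⊕ Fin 2) F)) ≤ W) →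
    ((2 * d) % 4 = m % 4 ∧ (∀ μ : Multiset ℕ, (∀ e ∈ μ, 0 < e ∧ e ≤ p) → (∀ e : ℕ, Even e → Even (μ.count e)) → μ.sum = 2 * d →
        ∃ ν : Multiset ℕ, ν ≤ μ ∧ ν.sum = m ∧ ∀ e : ℕ, Even e → Even (ν.count e))) := by
  intro hall
  classical
  have hF : Odd (Fintype.card F) := by
    rw [hq]
    exact hqodd
  have h2 : (2 : F) ≠ 0 := Cfsg.Agent.Lib.Helper37.two_ne_zero_of_odd_card hF
  have hp := (Fact.out : p.Prime)
  have hp3 : 3 ≤ p := by
    have hne : p ≠ 2 := by
      rintro rfl
      exact h2 (by exact_mod_cast CharP.cast_eq_zero F 2)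
    have := hp.two_le
    omega
  have hpodd : Odd p := (hp.eq_two_or_odd').resolve_left (by omega)
  have hcoe := Cfsg.Agent.Lib.Helper14.minusQF_coe (d - 1) F a b
  have hne : Nonempty ((Fin (d - 1) ⊕ Fin (d - 1)) ⊕ Fin 2) := ⟨Sum.inr 0⟩
  have key : ∀ μ : Multiset ℕ, (∀ e ∈ μ, 0 < e ∧ e ≤ p) →
      (∀ e : ℕ, Even e → Even (μ.count e)) → μ.sum = 2 * d → (∃ s ∈ μ, Odd s) →
      (¬ ∀ a ∈ μ, a ≤ 1) →
      ∃ ν : Multiset ℕ, ν ≤ μ ∧ ν.sum = m ∧ (∀ e : ℕ, Even e → Even (ν.count e)) ∧
        ¬ (Jordan.rk ν 2 = 0 ∧ 2 * Jordan.rk ν 1 = m) := by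
    intro μ hμ hpar hsum hodd hone
    obtain ⟨s, hs, hsodd⟩ := hodd
    have hpos : ∀ a ∈ μ, 1 ≤ a := fun a ha => (hμ a ha).1
    have hle : ∀ a ∈ μ, a ≤ p := fun a ha => (hμ a ha).2
    obtain ⟨x, hxΩ, hxp, hxiso, hxr⟩ :=
      jt_exists_minus hF h2 p d (by omega) a b hab μ hpos hle hpar hsum s hs hsodd
    obtain ⟨W, ⟨hWm, hWnd, hWminus⟩, hWx⟩ := hall x hxΩ ⟨1, by rw [hxp]; simp⟩
      (jt_not_scalar _ μ hxr hone)
    rw [← hcoe] at hWnd hWminus
    obtain ⟨ν, hν1, hν2, hν3, hν4⟩ := jt_matrix_sub_type_rk h2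
      (Cfsg.Agent.Lib.Helper14.minusQF (d - 1) F a b)
      (x : Matrix ((Fin (d - 1) ⊕ Fin (d - 1)) ⊕ Fin 2) ((Fin (d - 1) ⊕ Fin (d - 1)) ⊕ Fin 2) F)
      (fun u => by rw [hcoe]; exact hxiso u) W hWnd hWminus hWx μ (fun a ha => hpos a ha) hxr
    rw [hWm] at hν2 hν4
    exact ⟨ν, hν1, hν2, hν3, hν4⟩
  have hmain : ∀ μ : Multiset ℕ, (∀ e ∈ μ, 0 < e ∧ e ≤ p) →
      (∀ e : ℕ, Even e → Even (μ.count e)) → μ.sum = 2 * d →
      ∃ ν : Multiset ℕ, ν ≤ μ ∧ ν.sum = m ∧ ∀ e : ℕ, Even e → Even (ν.count e) := by
    intro μ hμ hpar hsum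
    by_cases hone : ∀ a ∈ μ, a ≤ 1
    · have h1 : μ = Multiset.replicate (Multiset.card μ) 1 :=
        Multiset.eq_replicate_card.mpr (fun a ha => by
          have := (hμ a ha).1
          have := hone a ha
          omega)
      have h3 : Multiset.card μ = 2 * d := by
        rw [← hsum]
        conv_rhs => rw [h1]
        rw [Multiset.sum_replicate]
        simp
      have hμ1 : μ = Multiset.replicate (2 * d) 1 := by
        rw [h1, h3]
      refine ⟨Multiset.replicate m 1, ?_, ?_, ?_⟩
      · rw [hμ1]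
        exact (Multiset.replicate_le_replicate 1).mpr (by omega)
      · rw [Multiset.sum_replicate]
        simp
      · intro e he
        rw [Multiset.count_replicate]
        rw [if_neg (by
          rintro rfl
          exact absurd he (by decide))]
        exact Even.zero
    · by_cases hodd : ∃ s ∈ μ, Odd s
      · obtain ⟨ν, h1, h2', h3, -⟩ := key μ hμ hpar hsum hodd hone
        exact ⟨ν, h1, h2', h3⟩
      · have heven : ∀ x ∈ μ, Even x := fun x hx => by
          rw [← Nat.not_odd_iff_even]
          intro ho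
          exact hodd ⟨x, hx, ho⟩
        have hμ0 : μ ≠ 0 := by
          rintro rfl
          rw [Multiset.sum_zero] at hsum
          omega
        obtain ⟨e, he⟩ := Multiset.exists_mem_of_ne_zero hμ0
        obtain ⟨μ₁, rfl⟩ := Multiset.exists_cons_of_mem he
        have hee := heven e (Multiset.mem_cons_self e μ₁)
        have hev := hpar e hee
        rw [Multiset.count_cons_self] at hev
        have hpos' : 0 < μ₁.count e := by
          rcases hev with ⟨r, hr⟩
          omega
        obtain ⟨μ₀, rfl⟩ := Multiset.exists_cons_of_mem (Multiset.count_pos.mp hpos')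
        have he2 : 2 ≤ e := by
          have := (hμ e (Multiset.mem_cons_self e _)).1
          obtain ⟨k, hk⟩ := hee
          omega
        have hep : e + 1 ≤ p := by
          have := (hμ e (Multiset.mem_cons_self e _)).2
          obtain ⟨k, hk⟩ := hee
          obtain ⟨k', hk'⟩ := hpodd
          omega
        have hμ₀even : ∀ x ∈ μ₀, Even x := fun x hx =>
          heven x (Multiset.mem_cons_of_mem (Multiset.mem_cons_of_mem hx))
        have hodd1 : ¬ Even (e + 1) := by
          rw [Nat.not_even_iff_odd]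
          exact hee.add_one
        have hodd2 : ¬ Even (e - 1) := by
          rw [Nat.not_even_iff_odd]
          obtain ⟨k, hk⟩ := hee
          exact ⟨k - 1, by omega⟩
        obtain ⟨ν', h1, h2', h3, -⟩ := key ((e + 1) ::ₘ (e - 1) ::ₘ μ₀) (by
            intro x hx
            rcases Multiset.mem_cons.mp hx with rfl | hx
            · omega
            · rcases Multiset.mem_cons.mp hx with rfl | hx
              · omega
              · exact hμ x (Multiset.mem_cons_of_mem (Multiset.mem_cons_of_mem hx))) (by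
            intro j hj
            have hj1 : j ≠ e + 1 := by
              rintro rfl
              exact hodd1 hj
            have hj2 : j ≠ e - 1 := by
              rintro rfl
              exact hodd2 hj
            rw [Multiset.count_cons_of_ne hj1, Multiset.count_cons_of_ne hj2]
            have h5 := hpar j hj
            by_cases hje : j = e
            · subst hje
              rw [Multiset.count_cons_self, Multiset.count_cons_self] at h5
              rcases h5 with ⟨r, hr⟩
              exact ⟨r - 1, by omega⟩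
            · rw [Multiset.count_cons_of_ne hje, Multiset.count_cons_of_ne hje] at h5
              exact h5) (by
            rw [Multiset.sum_cons, Multiset.sum_cons] at hsum ⊢
            omega) ⟨e + 1, Multiset.mem_cons_self _ _, hee.add_one⟩ (by
            intro hall1
            have := hall1 (e + 1) (Multiset.mem_cons_self _ _)
            omega)
        exact jt_even_fix μ₀ hμ₀even e m hee he2 hme ν' h1 h2' h3
  refine ⟨?_, hmain⟩
  rcases Nat.even_or_odd d with hde | hdo
  · obtain ⟨ν, hν1, hν2, hν3⟩ := hmain (Multiset.replicate (d - 2) 2 + ({3} + {1})) (by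
        intro e he
        simp only [Multiset.mem_add, Multiset.mem_replicate, Multiset.mem_singleton] at he
        rcases he with ⟨-, rfl⟩ | rfl | rfl <;> omega) (by
        intro e he
        simp only [Multiset.count_add, Multiset.count_replicate, Multiset.count_singleton]
        by_cases h2e : 2 = e
        · subst h2e
          obtain ⟨t, ht⟩ := hde
          have hev : Even (d - 2) := ⟨t - 1, by omega⟩
          simpa using hev
        · have h3e : e ≠ 3 := by
            rintro rfl
            exact absurd he (by decide)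
          have h1e : e ≠ 1 := by
            rintro rfl
            exact absurd he (by decide)
          simp [h2e, h3e, h1e]) (by
        simp only [Multiset.sum_add, Multiset.sum_replicate, Multiset.sum_singleton, smul_eq_mul]
        omega)
    have hmem : ∀ x ∈ ν, x = 1 ∨ x = 2 ∨ x = 3 := by
      intro x hx
      have h3 := Multiset.mem_of_le hν1 hx
      simp only [Multiset.mem_add, Multiset.mem_replicate, Multiset.mem_singleton] at h3
      rcases h3 with ⟨-, h⟩ | h | h
      · right; left; exact h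
      · right; right; exact h
      · left; exact h
    have hs := jt_sum_123 ν hmem
    have hc1 : ν.count 1 ≤ 1 := by
      have h3 := Multiset.le_iff_count.mp hν1 1
      simp only [Multiset.count_add, Multiset.count_replicate, Multiset.count_singleton] at h3
      simpa using h3
    have hc3 : ν.count 3 ≤ 1 := by
      have h3 := Multiset.le_iff_count.mp hν1 3
      simp only [Multiset.count_add, Multiset.count_replicate, Multiset.count_singleton] at h3
      simpa using h3
    obtain ⟨r, hr⟩ := hν3 2 (by decide)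
    obtain ⟨t, ht⟩ := hme
    obtain ⟨k, hk⟩ := hde
    rcases Nat.lt_or_ge (ν.count 1) 1 with h1 | h1 <;>
      rcases Nat.lt_or_ge (ν.count 3) 1 with h3 | h3 <;> omega
  · obtain ⟨ν, hν1, hν2, hν3, hν4⟩ := key (Multiset.replicate (d - 1) 2 + Multiset.replicate 2 1)
        (by
        intro e he
        simp only [Multiset.mem_add, Multiset.mem_replicate] at he
        rcases he with ⟨-, rfl⟩ | ⟨-, rfl⟩ <;> omega) (by
        intro e he
        simp only [Multiset.count_add, Multiset.count_replicate]
        by_cases h2e : 2 = e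
        · subst h2e
          obtain ⟨t, ht⟩ := hdo
          have hev : Even (d - 1) := ⟨t, by omega⟩
          simpa using hev
        · have h1e : 1 ≠ e := by
            rintro rfl
            exact absurd he (by decide)
          simp [h2e, h1e]) (by
        simp only [Multiset.sum_add, Multiset.sum_replicate, smul_eq_mul]
        omega) ⟨1, by simp, odd_one⟩ (by
        intro hall1
        have := hall1 2 (by
          simp only [Multiset.mem_add, Multiset.mem_replicate]
          left
          exact ⟨by omega, trivial⟩)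
        omega)
    have hmem : ∀ x ∈ ν, x = 1 ∨ x = 2 := by
      intro x hx
      have h3 := Multiset.mem_of_le hν1 hx
      simp only [Multiset.mem_add, Multiset.mem_replicate] at h3
      rcases h3 with ⟨-, h⟩ | ⟨-, h⟩
      · right; exact h
      · left; exact h
    have hs := jt_sum_two_kinds 1 (by norm_num) ν hmem
    have hc1 : ν.count 1 ≤ 2 := by
      have h3 := Multiset.le_iff_count.mp hν1 1
      simp only [Multiset.count_add, Multiset.count_replicate] at h3
      simpa using h3
    have hrk2 : Jordan.rk ν 2 = 0 := (Jordan.rk_eq_zero_iff ν 2).mpr (fun x hx => by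
      rcases hmem x hx with h | h <;> omega)
    have hcnt := jt_count ν 0
    rw [Jordan.rk_zero] at hcnt
    simp only [zero_add] at hcnt
    obtain ⟨r, hr⟩ := hν3 2 (by decide)
    obtain ⟨t, ht⟩ := hme
    obtain ⟨k, hk⟩ := hdo
    have hc1' : ν.count 1 ≠ 0 := by
      intro h0
      apply hν4
      refine ⟨hrk2, ?_⟩
      omega
    omega

end Cfsg.Agent.S5994
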