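import Cfsg.Statements.S5995
import Cfsg.Agent.Lib.Helper99.JType6
import Cfsg.Agent.Lib.Helper37.CommInv

set_option autoImplicit false
open scoped MatrixGroups
open Cfsg

namespace Cfsg.Agent.S5995

open Matrix Module Cfsg.Agent.Lib.Helper99 Cfsg.Agent.Lib.Helper40

/-- A necessary condition for every element of order p of Ω_n(q), nq odd, to fix a hyperbolic `m`-space. Here `T = Ω_n(F)`, `n = 2d+1 ≥ 7`, `q` odd, realised as the commutator subgroup of the isometry group of `Q = x₀² + Σ xᵢyᵢ` over the field `F` with `q` elements (trivial centre, so its elements of prime order `r` are used directly); a nondegenerate `m`-space (even `m`) is a subspace on which the polar form of `Q` is nondegenerate; it is hyperbolic if it contains an `m/2`-dimensional subspace on which `Q` vanishes, elliptic otherwise. Let `m` be even with `2 ≤ m ≤ n − 1` and suppose `p` divides the number of hyperbolic `m`-spaces. If every element of `T` of order `p` fixes some hyperbolic `m`-space, then `m ≡ 0 (mod 4)` and every partition of `n` into parts of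 size at most `p` in which every even part has even multiplicity contains (as a sub-multiset) a partition of `m` in which every even part has even multiplicity. -/
theorem result {F : Type*} [Field F] [Fintype F] {p : ℕ} [Fact p.Prime] [CharP F p] {q : ℕ} (hq : Fintype.card F = q) (hqodd : Odd q)
    (d m : ℕ) (hd : 3 ≤ d) (hm : 2 ≤ m) (hme : Even m) (hmn : m ≤ 2 * d)
    (hpΩ : p ∣ Nat.card {W : Submodule F (Unit ⊕ (Fin d ⊕ Fin d) → F) // Module.finrank F ↥W = m ∧ Cfsg.Geo.IsNondegenerateOn (QuadraticMap.polar (Cfsg.quadFormOdd d F)) W ∧ Cfsg.Geo.IsPlusTypeOn (Cfsg.quadFormOdd d F) W}) :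
    (∀ x : GL (Unit ⊕ (Fin d ⊕ Fin d)) F, x ∈ Cfsg.Geo.omegaGL (Cfsg.quadFormOdd d F) → orderOf x = p →
      ∃ W : Submodule F (Unit ⊕ (Fin d ⊕ Fin d) → F), (Module.finrank F ↥W = m ∧ Cfsg.Geo.IsNondegenerateOn (QuadraticMap.polar (Cfsg.quadFormOdd d F)) W ∧ Cfsg.Geo.IsPlusTypeOn (Cfsg.quadFormOdd d F) W) ∧ W.map (Matrix.toLin' (x : Matrix (Unit ⊕ (Fin d ⊕ Fin d)) (Unit ⊕ (Fin d ⊕ Fin d)) F)) ≤ W) →
    (m % 4 = 0 ∧ (∀ μ : Multiset ℕ, (∀ e ∈ μ, 0 < e ∧ e ≤ p) → (∀ e : ℕ, Even e → Even (μ.count e)) → μ.sum = 2 * d + 1 →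
        ∃ ν : Multiset ℕ, ν ≤ μ ∧ ν.sum = m ∧ ∀ e : ℕ, Even e → Even (ν.count e))) := by
  intro hall
  classical
  have h2 : (2 : F) ≠ 0 :=
    Cfsg.Agent.Lib.Helper37.two_ne_zero_of_odd_card (by rw [hq]; exact hqodd)
  have hp := (Fact.out : p.Prime)
  have hp3 : 3 ≤ p := by
    have hne : p ≠ 2 := by
      rintro rfl
      exact h2 (by exact_mod_cast CharP.cast_eq_zero F 2)
    have := hp.two_le
    omega
  have hmain : ∀ μ : Multiset ℕ, (∀ e ∈ μ, 0 < e ∧ e ≤ p) →
      (∀ e : ℕ, Even e → Even (μ.count e)) → μ.sum = 2 * d + 1 →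
      ∃ ν : Multiset ℕ, ν ≤ μ ∧ ν.sum = m ∧ ∀ e : ℕ, Even e → Even (ν.count e) := by
    intro μ hμ hpar hsum
    by_cases hone : ∀ a ∈ μ, a ≤ 1
    · have h1 : μ = Multiset.replicate (Multiset.card μ) 1 :=
        Multiset.eq_replicate_card.mpr (fun a ha => by
          have := (hμ a ha).1
          have := hone a ha
          omega)
      have h3 : Multiset.card μ = 2 * d + 1 := by
        rw [← hsum]
        conv_rhs => rw [h1]
        rw [Multiset.sum_replicate]
        simp
      have hμ1 : μ = Multiset.replicate (2 * d + 1) 1 := by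
        rw [h1, h3]
      refine ⟨Multiset.replicate m 1, ?_, ?_, ?_⟩
      · rw [hμ1]
        exact (Multiset.replicate_le_replicate 1).mpr (by omega)
      · rw [Multiset.sum_replicate]
        simp
      · intro e he
        rw [Multiset.count_replicate]
        rw [if_neg (by
          rintro rfl
          exact absurd he (by decide))]
        exact Even.zero
    · have hpos : ∀ a ∈ μ, 1 ≤ a := fun a ha => (hμ a ha).1
      have hle : ∀ a ∈ μ, a ≤ p := fun a ha => (hμ a ha).2
      obtain ⟨x, hxΩ, hxp, hxiso, hxr⟩ := jt_exists_odd h2 p d μ hpos hle hpar hsum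
      have hx1 : x ≠ 1 := by
        rintro rfl
        have h6 := hxr 1
        rw [Units.val_one, sub_self, pow_one, Matrix.rank_zero] at h6
        exact hone ((Jordan.rk_eq_zero_iff μ 1).mp h6.symm)
      obtain ⟨W, ⟨hWm, hWnd, -⟩, hWx⟩ := hall x hxΩ (orderOf_eq_prime hxp hx1)
      have hcoe := Cfsg.Agent.Lib.Helper14.oddQF_coe d F
      rw [← hcoe] at hWnd
      obtain ⟨ν, hν1, hν2, hν3⟩ := jt_matrix_sub_type h2 (Cfsg.Agent.Lib.Helper14.oddQF d F)
        (x : Matrix (Unit ⊕ (Fin d ⊕ Fin d)) (Unit ⊕ (Fin d ⊕ Fin d)) F)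
        (fun u => by rw [hcoe]; exact hxiso u) W hWnd hWx μ (fun a ha => hpos a ha) hxr
      exact ⟨ν, hν1, by rw [hν2, hWm], hν3⟩
  refine ⟨?_, hmain⟩
  rcases Nat.even_or_odd d with hde | hdo
  · obtain ⟨ν, hν1, hν2, hν3⟩ := hmain (Multiset.replicate d 2 + {1}) (by
        intro e he
        rw [Multiset.mem_add, Multiset.mem_replicate, Multiset.mem_singleton] at he
        rcases he with ⟨-, rfl⟩ | rfl <;> omega) (by
        intro e he
        rw [Multiset.count_add, Multiset.count_replicate, Multiset.count_singleton]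
        by_cases h2e : 2 = e
        · subst h2e
          simpa using hde
        · have h1e : e ≠ 1 := by
            rintro rfl
            exact absurd he (by decide)
          simp [h2e, h1e]) (by
        rw [Multiset.sum_add, Multiset.sum_replicate, Multiset.sum_singleton, smul_eq_mul]
        ring)
    have hmem : ∀ e ∈ ν, e = 1 ∨ e = 2 := by
      intro e he
      have h3 := Multiset.mem_of_le hν1 he
      rw [Multiset.mem_add, Multiset.mem_replicate, Multiset.mem_singleton] at h3
      rcases h3 with ⟨-, h⟩ | h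
      · right; exact h
      · left; exact h
    have hs := jt_sum_two_kinds 1 (by norm_num) ν hmem
    have hc1 : ν.count 1 ≤ 1 := by
      have h3 := Multiset.le_iff_count.mp hν1 1
      rw [Multiset.count_add, Multiset.count_replicate, Multiset.count_singleton] at h3
      simpa using h3
    obtain ⟨r, hr⟩ := hν3 2 (by decide)
    obtain ⟨t, ht⟩ := hme
    omega
  · obtain ⟨ν, hν1, hν2, hν3⟩ := hmain (Multiset.replicate (d - 1) 2 + {3}) (by
        intro e he
        rw [Multiset.mem_add, Multiset.mem_replicate, Multiset.mem_singleton] at he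
        rcases he with ⟨-, rfl⟩ | rfl <;> omega) (by
        intro e he
        rw [Multiset.count_add, Multiset.count_replicate, Multiset.count_singleton]
        by_cases h2e : 2 = e
        · subst h2e
          obtain ⟨t, ht⟩ := hdo
          have hev : Even (d - 1) := ⟨t, by omega⟩
          simpa using hev
        · have h1e : e ≠ 3 := by
            rintro rfl
            exact absurd he (by decide)
          simp [h2e, h1e]) (by
        rw [Multiset.sum_add, Multiset.sum_replicate, Multiset.sum_singleton, smul_eq_mul]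
        omega)
    have hmem : ∀ e ∈ ν, e = 3 ∨ e = 2 := by
      intro e he
      have h3 := Multiset.mem_of_le hν1 he
      rw [Multiset.mem_add, Multiset.mem_replicate, Multiset.mem_singleton] at h3
      rcases h3 with ⟨-, h⟩ | h
      · right; exact h
      · left; exact h
    have hs := jt_sum_two_kinds 3 (by norm_num) ν hmem
    have hc1 : ν.count 3 ≤ 1 := by
      have h3 := Multiset.le_iff_count.mp hν1 3
      rw [Multiset.count_add, Multiset.count_replicate, Multiset.count_singleton] at h3
      simpa using h3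
    obtain ⟨r, hr⟩ := hν3 2 (by decide)
    obtain ⟨t, ht⟩ := hme
    omega

end Cfsg.Agent.S5995
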