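import Cfsg.Statements.S5996
import Cfsg.Agent.Lib.Helper99.JType5
import Cfsg.Agent.Lib.Helper37.CommInv

set_option autoImplicit false
open scoped MatrixGroups
open Cfsg

namespace Cfsg.Agent.S5996

open Matrix Module Cfsg.Agent.Lib.Helper99 Cfsg.Agent.Lib.Helper40

/-- A necessary condition for every element of order p of PΩ⁺_n(q), q odd, to fix a hyperbolic `m`-space. Here `T = PΩ⁺_n(F)`, `n = 2d ≥ 8`, realised through `Ω⁺_n(q)`, the commutator subgroup of the isometry group of `Q = Σ xᵢyᵢ` over the field `F` with `q` elements; an element of `T` of prime order `r` is an element `x` of `Ω⁺_n(q)` with `x^r` scalar and `x` not scalar; `q` is odd; a nondegenerate `m`-space (even `m`) is a subspace on which the polar form of `Q` is nondegenerate; it is hyperbolic if it contains an `m/2`-dimensional subspace on which `Q` vanishes, elliptic otherwise. Let `m` be even with `2 ≤ m < n/2` and suppose `p` divides the number of hyperbolic `m`-spaces. If every element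 of `T` of order `p` fixes some hyperbolic `m`-space, then every partition of `n` into parts of size at most `p` in which every even part has even multiplicity contains (as a sub-multiset) a partition of `m` in which every even part has even multiplicity. -/
theorem result {F : Type*} [Field F] [Fintype F] {p : ℕ} [Fact p.Prime] [CharP F p] {q : ℕ} (hq : Fintype.card F = q) (hqodd : Odd q)
    (d m : ℕ) (hd : 4 ≤ d) (hm : 2 ≤ m) (hme : Even m) (hmd : m < d)
    (hpΩ : p ∣ Nat.card {W : Submodule F (Fin d ⊕ Fin d → F) // Module.finrank F ↥W = m ∧ Cfsg.Geo.IsNondegenerateOn (QuadraticMap.polar (Cfsg.quadFormPlus d F)) W ∧ Cfsg.Geo.IsPlusTypeOn (Cfsg.quadFormPlus d F) W}) :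
    (∀ x : GL (Fin d ⊕ Fin d) F, x ∈ Cfsg.Geo.omegaGL (Cfsg.quadFormPlus d F) →
      (∃ z : F, ((x ^ p : GL (Fin d ⊕ Fin d) F) : Matrix (Fin d ⊕ Fin d) (Fin d ⊕ Fin d) F) = z • (1 : Matrix (Fin d ⊕ Fin d) (Fin d ⊕ Fin d) F)) →
      (∀ z : F, (x : Matrix (Fin d ⊕ Fin d) (Fin d ⊕ Fin d) F) ≠ z • (1 : Matrix (Fin d ⊕ Fin d) (Fin d ⊕ Fin d) F)) →
      ∃ W : Submodule F (Fin d ⊕ Fin d → F), (Module.finrank F ↥W = m ∧ Cfsg.Geo.IsNondegenerateOn (QuadraticMap.polar (Cfsg.quadFormPlus d F)) W ∧ Cfsg.Geo.IsPlusTypeOn (Cfsg.quadFormPlus d F) W) ∧ W.map (Matrix.toLin' (x : Matrix (Fin d ⊕ Fin d) (Fin d ⊕ Fin d) F)) ≤ W) →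
    (∀ μ : Multiset ℕ, (∀ e ∈ μ, 0 < e ∧ e ≤ p) → (∀ e : ℕ, Even e → Even (μ.count e)) → μ.sum = 2 * d →
        ∃ ν : Multiset ℕ, ν ≤ μ ∧ ν.sum = m ∧ ∀ e : ℕ, Even e → Even (ν.count e)) := by
  intro hall μ hμ hpar hsum
  classical
  have h2 : (2 : F) ≠ 0 :=
    Cfsg.Agent.Lib.Helper37.two_ne_zero_of_odd_card (by rw [hq]; exact hqodd)
  by_cases hone : ∀ a ∈ μ, a ≤ 1
  · have h1 : μ = Multiset.replicate (Multiset.card μ) 1 :=
      Multiset.eq_replicate_card.mpr (fun a ha => by
        have := (hμ a ha).1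
        have := hone a ha
        omega)
    have h3 : Multiset.card μ = 2 * d := by
      rw [← hsum]
      conv_rhs => rw [h1]
      rw [Multiset.sum_replicate]
      simp
    have hμ1 : μ = Multiset.replicate (2 * d) 1 := by
      rw [h1, h3]
    refine ⟨Multiset.replicate m 1, ?_, ?_, ?_⟩
    · rw [hμ1]
      exact (Multiset.replicate_le_replicate 1).mpr (by omega)
    · rw [Multiset.sum_replicate]
      simp
    · intro e he
      rw [Multiset.count_replicate]
      rw [if_neg (by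
        rintro rfl
        exact absurd he (by decide))]
      exact Even.zero
  · have hpos : ∀ a ∈ μ, 1 ≤ a := fun a ha => (hμ a ha).1
    have hle : ∀ a ∈ μ, a ≤ p := fun a ha => (hμ a ha).2
    obtain ⟨x, hxΩ, hxp, hxiso, hxr⟩ := jt_exists_plus h2 p d (by omega) μ hpos hle hpar hsum
    have hne : Nonempty (Fin d ⊕ Fin d) := ⟨Sum.inl ⟨0, by omega⟩⟩
    obtain ⟨W, ⟨hWm, hWnd, -⟩, hWx⟩ := hall x hxΩ ⟨1, by rw [hxp]; simp⟩
      (jt_not_scalar _ μ hxr hone)
    have hcoe := Cfsg.Agent.Lib.Helper14.plusQF_coe d F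
    rw [← hcoe] at hWnd
    obtain ⟨ν, hν1, hν2, hν3⟩ := jt_matrix_sub_type h2 (Cfsg.Agent.Lib.Helper14.plusQF d F)
      (x : Matrix (Fin d ⊕ Fin d) (Fin d ⊕ Fin d) F) (fun u => by rw [hcoe]; exact hxiso u) W
      hWnd hWx μ (fun a ha => hpos a ha) hxr
    exact ⟨ν, hν1, by rw [hν2, hWm], hν3⟩

end Cfsg.Agent.S5996
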