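import Cfsg.Statements.S5997
import Cfsg.Agent.Lib.Helper41.Q8Norm

set_option autoImplicit false
open Cfsg

namespace Cfsg.Agent.S5997

open Cfsg.Agent.Lib.Helper41 in
/-- Elements of prime order of PSL_2(p) and the normalizer of a quaternion subgroup. Here `T = PSL_2(F)` for the field `F` with `p` elements, `p ≥ 5` prime; `R` is a subgroup of GL_2(F) isomorphic to the quaternion group of order 8 (an absolutely irreducible 2-group of symplectic type), and `H` is the subgroup of matrices of determinant 1 normalizing `R` — a subgroup of type 2^{1+2}.O₂⁻(2), isomorphic modulo scalars to A₄ or S₄ (maximality is not assumed). Ω is the set of cosets of `H` in `T`, so an element of `T` of prime order `r` (a matrix `x` of determinant 1 with `x^r` scalar, `x` not scalar) fixes a point of Ω exactly when some conjugate of `x` by a matrix of determinant 1 normalizes `R`. Let `r` be a prime dividing the index of `H`. Then every element of `T` of order `r` fixes a point of Ω if and only if `r = 2` or `r = 3`. -/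
theorem result {F : Type*} [Field F] [Fintype F] {p : ℕ} [Fact p.Prime] [CharP F p] (hF : Fintype.card F = p) (hp : 5 ≤ p)
    (R : Subgroup (GL (Fin 2) F)) (hR : Nonempty (↥R ≃* QuaternionGroup 2))
    (r : ℕ) [Fact r.Prime]
    (hΩ : r ∣ (Cfsg.Geo.subgroupNormalizer R).relIndex (Cfsg.Geo.specialLinear (Fin 2) F)) :
    (∀ x ∈ Cfsg.Geo.specialLinear (Fin 2) F, (∃ z : F, ((x ^ r : GL (Fin 2) F) : Matrix (Fin 2) (Fin 2) F) = z • (1 : Matrix (Fin 2) (Fin 2) F)) →
      (∀ z : F, (x : Matrix (Fin 2) (Fin 2) F) ≠ z • (1 : Matrix (Fin 2) (Fin 2) F)) →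
      ∃ g ∈ Cfsg.Geo.specialLinear (Fin 2) F, g⁻¹ * x * g ∈ Cfsg.Geo.subgroupNormalizer R) ↔ (r = 2 ∨ r = 3) := by

  classical
  have h2 : (2 : F) ≠ 0 := by
    intro h
    have hd : p ∣ 2 := (CharP.cast_eq_zero_iff F p 2).mp (by exact_mod_cast h)
    have := Nat.le_of_dvd (by norm_num) hd
    omega
  have h3 : (3 : F) ≠ 0 := by
    intro h
    have hd : p ∣ 3 := (CharP.cast_eq_zero_iff F p 3).mp (by exact_mod_cast h)
    have := Nat.le_of_dvd (by norm_num) hd
    omega
  have h4 : (4 : F) ≠ 0 := by
    have e : (4 : F) = 2 * 2 := by norm_num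
    rw [e]
    exact mul_ne_zero h2 h2
  obtain ⟨i, j, hiR, hjR, hgen, htI, hdI, htJ, hdJ, hII, hJJ, hJI⟩ := exists_q8_frame R hR
  constructor
  · intro H
    by_contra hr
    push Not at hr
    have hrp : r.Prime := Fact.out
    have hr5 : 5 ≤ r := by
      by_contra hlt
      have h2le := hrp.two_le
      have h4' : r ≠ 4 := by
        intro h
        rw [h] at hrp
        exact absurd hrp (by norm_num)
      omega
    have hrodd : Odd r := hrp.odd_of_ne_two hr.1
    have hdvd : r ∣ Nat.card (Cfsg.Geo.specialLinear (Fin 2) F) :=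
      dvd_trans hΩ (Subgroup.relIndex_dvd_card _ _)
    obtain ⟨x, hx⟩ :=
      exists_prime_orderOf_dvd_card' (G := ↥(Cfsg.Geo.specialLinear (Fin 2) F)) r hdvd
    have hxr : (x : GL (Fin 2) F) ^ r = 1 := by
      have h := pow_orderOf_eq_one x
      rw [hx] at h
      have h' := congrArg Subtype.val h
      rw [Subgroup.coe_pow] at h'
      exact h'
    have hx1 : (x : GL (Fin 2) F) ≠ 1 := by
      intro h
      have : x = 1 := Subtype.ext h
      rw [this, orderOf_one] at hx
      omega
    have hdx := det_eq_one_of_mem_specialLinear x.1 x.2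
    obtain ⟨g, hg, hgN⟩ := H x.1 x.2 ⟨1, by rw [hxr, Units.val_one, one_smul]⟩
      (fun z hz => hx1 (gl2_eq_one_of_scalar hdx hrodd hxr z hz))
    obtain ⟨y, hy⟩ : ∃ y : GL (Fin 2) F, y = g⁻¹ * x.1 * g := ⟨_, rfl⟩
    rw [← hy] at hgN
    have hyr : y ^ r = 1 := by
      have e : g⁻¹ * x.1 * g = g⁻¹ * x.1 * (g⁻¹)⁻¹ := by rw [inv_inv]
      rw [hy, e, conj_pow, hxr, mul_one, mul_inv_cancel]
    have hy1 : y ≠ 1 := by
      intro h
      apply hx1
      rw [hy] at h
      have e : (x : GL (Fin 2) F) = g * (g⁻¹ * x.1 * g) * g⁻¹ := by group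
      rw [e, h]
      group
    have hySL : y ∈ Cfsg.Geo.specialLinear (Fin 2) F := by
      rw [hy]
      exact mul_mem (mul_mem (inv_mem hg) x.2) hg
    have hdy := det_eq_one_of_mem_specialLinear y hySL
    have hyord : orderOf y = r := orderOf_eq_prime hyr hy1
    -- the action of `⟨y⟩` on `R`
    have hPN : ∀ a ∈ Subgroup.zpowers y, ∀ u ∈ R, a * u * a⁻¹ ∈ R := by
      intro a ha u hu
      have haN : a ∈ Cfsg.Geo.subgroupNormalizer R := Subgroup.zpowers_le.mpr hgN ha
      unfold Cfsg.Geo.subgroupNormalizer at haN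
      exact (Subgroup.mem_normalizer_iff.mp haN u).mp hu
    letI act : MulAction (Subgroup.zpowers y) R :=
      { smul := fun a u => ⟨a.1 * u.1 * a.1⁻¹, hPN a.1 a.2 u.1 u.2⟩
        one_smul := fun u => Subtype.ext (by
          show (1 : GL (Fin 2) F) * u.1 * (1 : GL (Fin 2) F)⁻¹ = u.1
          group)
        mul_smul := fun a b u => Subtype.ext (by
          show (a.1 * b.1) * u.1 * (a.1 * b.1)⁻¹ = a.1 * (b.1 * u.1 * b.1⁻¹) * a.1⁻¹
          group) }
    have hsmul : ∀ (a : Subgroup.zpowers y) (u : R),
        ((a • u : R) : GL (Fin 2) F) = a.1 * u.1 * a.1⁻¹ := fun a u => rfl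
    have hP : IsPGroup r (Subgroup.zpowers y) :=
      IsPGroup.of_card (n := 1) (by rw [Nat.card_zpowers, hyord, pow_one])
    have hmod := hP.card_modEq_card_fixedPoints R
    obtain ⟨C, hC⟩ : ∃ C : Subgroup R, C = (Subgroup.centralizer {y}).subgroupOf R := ⟨_, rfl⟩
    have hmemC : ∀ u : R, u ∈ C ↔ y * u.1 = u.1 * y := by
      intro u
      rw [hC, Subgroup.mem_subgroupOf, Subgroup.mem_centralizer_iff]
      constructor
      · intro h
        exact h y (Set.mem_singleton y)
      · intro h a ha
        rw [Set.mem_singleton_iff] at ha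
        rw [ha]
        exact h
    have hfix : MulAction.fixedPoints (Subgroup.zpowers y) R = (C : Set R) := by
      ext u
      rw [MulAction.mem_fixedPoints]
      constructor
      · intro hu
        have h1 := hu ⟨y, Subgroup.mem_zpowers y⟩
        have h1' := congrArg Subtype.val h1
        rw [hsmul] at h1'
        exact (hmemC u).mpr (mul_inv_eq_iff_eq_mul.mp h1')
      · intro hu a
        have hu' := (hmemC u).mp hu
        have hyc : y ∈ Subgroup.centralizer {(u : GL (Fin 2) F)} := by
          rw [Subgroup.mem_centralizer_iff]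
          intro b hb
          rw [Set.mem_singleton_iff] at hb
          rw [hb]
          exact hu'.symm
        have hac := Subgroup.zpowers_le.mpr hyc a.2
        rw [Subgroup.mem_centralizer_iff] at hac
        have hac' := hac u.1 (Set.mem_singleton _)
        apply Subtype.ext
        rw [hsmul]
        exact mul_inv_eq_iff_eq_mul.mpr hac'.symm
    have hcardfix : Nat.card (MulAction.fixedPoints (Subgroup.zpowers y) R) = Nat.card C := by
      rw [hfix]
      rfl
    rw [hcardfix] at hmod
    have hR8 : Nat.card R = 8 := by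
      obtain ⟨φ⟩ := hR
      rw [Nat.card_congr φ.toEquiv, Nat.card_eq_fintype_card, QuaternionGroup.card]
    rw [hR8] at hmod
    have hCdvd : Nat.card C ∣ 8 := by
      rw [← hR8]
      exact Subgroup.card_subgroup_dvd_card C
    have hC1 : Nat.card C ≠ 1 := by
      intro h
      have hbot := Subgroup.eq_bot_of_card_eq C h
      have hz : (⟨i * i, mul_mem hiR hiR⟩ : R) ∈ C := by
        rw [hmemC]
        show y * (i * i) = (i * i) * y
        apply Units.ext
        simp only [Units.val_mul, hII, mul_neg, mul_one, neg_mul, one_mul]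
      rw [hbot, Subgroup.mem_bot] at hz
      have hz' : i * i = 1 := congrArg Subtype.val hz
      have hz'' : (i : Matrix (Fin 2) (Fin 2) F) * (i : Matrix (Fin 2) (Fin 2) F) = 1 := by
        rw [← Units.val_mul, hz', Units.val_one]
      rw [hII] at hz''
      have h00 := congrFun (congrFun hz'' 0) 0
      rw [Matrix.neg_apply, Matrix.one_apply_eq] at h00
      apply h2
      linear_combination -h00
    have hC8 : Nat.card C = 8 := q8_fix_arith hrp hr5 hCdvd hC1 hmod
    have hCtop : C = ⊤ := Subgroup.eq_top_of_card_eq C (by rw [hC8, hR8])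
    have hyi : y * i = i * y :=
      (hmemC ⟨i, hiR⟩).mp (by rw [hCtop]; exact Subgroup.mem_top _)
    have hyj : y * j = j * y :=
      (hmemC ⟨j, hjR⟩).mp (by rw [hCtop]; exact Subgroup.mem_top _)
    -- matrices
    obtain ⟨Y, hY⟩ : ∃ Y : Matrix (Fin 2) (Fin 2) F, Y = (y : Matrix (Fin 2) (Fin 2) F) :=
      ⟨_, rfl⟩
    obtain ⟨I, hI⟩ : ∃ I : Matrix (Fin 2) (Fin 2) F, I = (i : Matrix (Fin 2) (Fin 2) F) :=
      ⟨_, rfl⟩
    obtain ⟨J, hJ⟩ : ∃ J : Matrix (Fin 2) (Fin 2) F, J = (j : Matrix (Fin 2) (Fin 2) F) :=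
      ⟨_, rfl⟩
    rw [← hI] at htI hdI hII hJI
    rw [← hJ] at htJ hdJ hJJ hJI
    have hYI : Y * I = I * Y := by
      rw [hY, hI, ← Units.val_mul, ← Units.val_mul, hyi]
    have hYJ : Y * J = J * Y := by
      rw [hY, hJ, ← Units.val_mul, ← Units.val_mul, hyj]
    have hIns : ∀ s : F, I ≠ Matrix.scalar (Fin 2) s := by
      intro s hs
      have h00 := congrFun (congrFun hs 0) 0
      have h11 := congrFun (congrFun hs 1) 1
      rw [scalar_eq] at h00 h11
      simp only [Matrix.of_apply, Matrix.cons_val', Matrix.cons_val_zero, Matrix.cons_val_one,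
        Matrix.cons_val_fin_one] at h00 h11
      rw [Matrix.trace_fin_two, h00, h11] at htI
      have hs0 : s = 0 := by
        have : (2 : F) * s = 0 := by linear_combination htI
        exact (mul_eq_zero.mp this).resolve_left h2
      have hI0 : I = 0 := by
        rw [hs, hs0, map_zero]
      rw [hI0, mul_zero] at hII
      have h00' := congrFun (congrFun hII 0) 0
      rw [Matrix.neg_apply, Matrix.one_apply_eq, Matrix.zero_apply] at h00'
      have : (1 : F) = 0 := by linear_combination h00'
      exact one_ne_zero this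
    obtain ⟨⟨a, b⟩, hab⟩ := comm_form hIns hYI
    simp only at hab
    have hb : b = 0 := by
      have e1 : Y * J = J * Y := hYJ
      rw [hab, add_mul, mul_add, scalar_mul', mul_scalar', smul_mul_assoc, mul_smul_comm, hJI]
        at e1
      have e2 := add_left_cancel e1
      rw [smul_neg] at e2
      have e3 : b • (I * J) = 0 := by
        ext a' b'
        have h := congrFun (congrFun e2 a') b'
        rw [Matrix.neg_apply] at h
        have : (2 : F) * (b • (I * J)) a' b' = 0 := by linear_combination h
        exact (mul_eq_zero.mp this).resolve_left h2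
      rcases smul_eq_zero.mp e3 with h | h
      · exact h
      · exfalso
        have hdet : (I * J).det = 1 := by rw [Matrix.det_mul, hdI, hdJ, mul_one]
        rw [h, Matrix.det_zero] at hdet
        exact zero_ne_one hdet
    have hYs : Y = a • (1 : Matrix (Fin 2) (Fin 2) F) := by
      rw [hab, hb, zero_smul, add_zero, scalar_eq_smul_one]
    exact hy1 (gl2_eq_one_of_scalar hdy hrodd hyr a (by rw [← hY]; exact hYs))
  · rintro (rfl | rfl)
    · intro x hx ⟨z, hz⟩ hns
      have hdx := det_eq_one_of_mem_specialLinear x hx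
      have hsq : (x : Matrix (Fin 2) (Fin 2) F) * (x : Matrix (Fin 2) (Fin 2) F) =
          z • (1 : Matrix (Fin 2) (Fin 2) F) := by
        rw [← hz, Units.val_pow_eq_pow_val, pow_two]
      have htx := trace_zero_of_sq_scalar hdx z hsq hns
      obtain ⟨g, hg, hgx⟩ := exists_conj_into_of_trace h2 x i hdx hdI (by rw [htx, htI])
        (by rw [htx, zero_mul]; exact fun h => h4 h.symm)
      refine ⟨g, hg, ?_⟩
      rw [hgx]
      unfold Cfsg.Geo.subgroupNormalizer
      exact Subgroup.le_normalizer hiR
    · intro x hx ⟨z, hz⟩ hns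
      have hdx := det_eq_one_of_mem_specialLinear x hx
      have hcube : (x : Matrix (Fin 2) (Fin 2) F) * (x : Matrix (Fin 2) (Fin 2) F) *
          (x : Matrix (Fin 2) (Fin 2) F) = z • (1 : Matrix (Fin 2) (Fin 2) F) := by
        rw [← hz, Units.val_pow_eq_pow_val, pow_succ, pow_two]
      obtain ⟨W, hdW, htW, hWI, hWJ⟩ := q8_omega h2 hII hJJ hJI htI htJ
      have key : ∀ (V : Matrix (Fin 2) (Fin 2) F) (hdV : V.det = 1),
          V * (i : Matrix (Fin 2) (Fin 2) F) = (j : Matrix (Fin 2) (Fin 2) F) * V →
          V * (j : Matrix (Fin 2) (Fin 2) F) =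
            ((i : Matrix (Fin 2) (Fin 2) F) * (j : Matrix (Fin 2) (Fin 2) F)) * V →
          Matrix.SpecialLinearGroup.toGL ⟨V, hdV⟩ ∈ Cfsg.Geo.subgroupNormalizer R := by
        intro V hdV h1 h2'
        obtain ⟨w, hw⟩ : ∃ w : GL (Fin 2) F,
            w = Matrix.SpecialLinearGroup.toGL ⟨V, hdV⟩ := ⟨_, rfl⟩
        rw [← hw]
        have hwV : (w : Matrix (Fin 2) (Fin 2) F) = V := by rw [hw]; rfl
        have e1 : w * i = j * w := by
          apply Units.ext
          rw [Units.val_mul, Units.val_mul, hwV]
          exact h1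
        have e2 : w * j = (i * j) * w := by
          apply Units.ext
          rw [Units.val_mul, Units.val_mul, Units.val_mul, hwV]
          exact h2'
        apply mem_subgroupNormalizer_of_gens R i j w hgen
        · rw [e1, mul_inv_cancel_right]
          exact hjR
        · rw [e2, mul_inv_cancel_right]
          exact mul_mem hiR hjR
      have h14 : ∀ t : F, t * t = 1 → t * t ≠ 4 := by
        intro t ht h
        apply h3
        rw [ht] at h
        linear_combination -h
      rcases trace_of_cube_scalar hdx z hcube hns with ht | ht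
      · obtain ⟨g, hg, hgx⟩ := exists_conj_into_of_trace h2 x
          (Matrix.SpecialLinearGroup.toGL ⟨W, hdW⟩) hdx hdW (by rw [ht]; exact htW.symm)
          (h14 _ (by rw [ht, mul_one]))
        refine ⟨g, hg, ?_⟩
        rw [hgx]
        exact key W hdW hWI hWJ
      · have hdW' : (-W).det = 1 := by
          rw [Matrix.det_neg, Fintype.card_fin, hdW]
          norm_num
        obtain ⟨g, hg, hgx⟩ := exists_conj_into_of_trace h2 x
          (Matrix.SpecialLinearGroup.toGL ⟨-W, hdW'⟩) hdx hdW'
          (by rw [ht]; exact (by rw [Matrix.trace_neg, htW] : (-W).trace = -1).symm)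
          (h14 _ (by rw [ht]; ring))
        refine ⟨g, hg, ?_⟩
        rw [hgx]
        exact key (-W) hdW' (by rw [neg_mul, mul_neg, hWI]) (by rw [neg_mul, mul_neg, hWJ])

end Cfsg.Agent.S5997
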